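import Cfsg.Statements.S0440
import Cfsg.Agent.H12.ThreeT
import Cfsg.Agent.H23.SpGen

set_option autoImplicit false
open Cfsg

namespace Cfsg.Agent.S0440

open H12 H23 Matrix

/-- In the symplectic group in dimension 2n ≥ 2 over the field with two elements, the elements g for which g - 1 has rank one (the symplectic transvections) form a conjugacy class of 3-transpositions generating the group. -/
theorem result (n : ℕ) (hn : 1 ≤ n) : Cfsg.IsThreeTranspositionClass {g : Matrix.symplecticGroup (Fin n) (ZMod 2) | ((g : Matrix (Fin n ⊕ Fin n) (Fin n ⊕ Fin n) (ZMod 2)) - 1).rank = 1} := by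
  have two : ∀ a : ZMod 2, a ≠ 0 → a = 1 := by decide
  have hT : Function.Injective (spToMat n (ZMod 2)) := Subtype.val_injective
  have hQ := spForm_nondeg (F := ZMod 2) n
  have hO : ∀ g x y, (spForm n (ZMod 2)).B (spToMat n _ g *ᵥ x) (spToMat n _ g *ᵥ y) =
      (spForm n (ZMod 2)).B x y := fun g => ((Form.mem_O _).1 (matE_sp_mem g)).1
  have hB : ∀ d, (spForm n (ZMod 2)).B d d = 0 := fun d => (spForm_B n d d).trans (sympForm_self n d)
  have hnf : ∀ g, (spToMat n (ZMod 2) g - 1).rank = 1 → ∃ d, d ≠ 0 ∧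
      ∀ x, spToMat n _ g *ᵥ x = x + (spForm n (ZMod 2)).B d x • d := fun g hg => by
    obtain ⟨d, hd, c, hc, h⟩ := rank_one_form hQ (hO g) hg
    simp only [two c hc, one_mul] at h
    exact ⟨d, hd, h⟩
  have hr : ∀ v c, v ≠ 0 → c ≠ 0 → (sympTransvection n v c - 1 : Matrix _ _ (ZMod 2)).rank = 1 :=
    fun v c hv hc => rank_of_form hQ hv (neg_ne_zero.2 hc) fun x =>
      (sympTransvection_mulVec' n v c x).trans (Form.qrefl_apply _ _ _ _)
  refine three_class (Φ := spForm n (ZMod 2)) (spToMat n _) hT (by decide)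
    (fun g hg => (hnf g hg).imp fun d h => ⟨hB d, h.2⟩) (fun d e => ?_) (fun g k hg hk => ?_)
    ⟨⟨_, sympTransvection_mem n (Pi.single (.inl ⟨0, hn⟩) 1) 1⟩, hr _ _ (by simp) one_ne_zero⟩ ?_
  · by_cases h : (spForm n (ZMod 2)).B d e = 0
    · exact Or.inl h
    · rw [two _ h, two _ (mt (spForm n (ZMod 2)).B_eq_zero_symm h)]; exact Or.inr rfl
  · obtain ⟨d, hd, h⟩ := hnf g hg
    obtain ⟨e, he, h'⟩ := hnf k hk
    obtain ⟨c, hc, hcd⟩ := hQ.witt_one hd he ((hB d).trans (hB e).symm) rfl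
    obtain ⟨A, rfl⟩ := exists_matE_sp_eq hc
    exact isConj_of_form _ hT hO h h' (c := A) hcd
  · rw [eq_top_iff, ← sp_closure_transvections, Subgroup.closure_le]
    rintro A ⟨w, c, hA⟩
    by_cases h : w ≠ 0 ∧ c ≠ 0
    · exact Subgroup.subset_closure (show (A.1 - 1).rank = 1 from hA ▸ hr w c h.1 h.2)
    · obtain rfl : A = 1 := Subtype.ext (matrix_ext_mulVec fun x => by
        rw [hA, sympTransvection_mulVec]
        rcases not_and_or.1 h with h | h <;> simp [not_not.1 h])
      exact one_mem _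

end Cfsg.Agent.S0440
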