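import Cfsg.Statements.S0476
import Cfsg.Agent.H1.J4s
import Cfsg.Agent.H13.Xs
import Cfsg.Agent.H14.J4f
import Cfsg.Agent.H25.J4u

set_option autoImplicit false
open Cfsg

namespace Cfsg.Agent.S0476



/-- In some simple group of the order of Janko's fourth group there is an involution whose centraliser C has a normal extraspecial subgroup Q of order 2 ^ 13, a normal subgroup N of order 3 · 2 ^ 13 containing Q, and a subgroup M of index 2 containing N as a normal subgroup with M / N simple of order 443520. -/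
theorem result : ∃ (G : Type) (_ : Group G) (_ : Finite G), Cfsg.IsJ4 G ∧ ∃ z : G, orderOf z = 2 ∧ ∃ (Q N M : Subgroup (Subgroup.centralizer ({z} : Set G))), Q.Normal ∧ N.Normal ∧ Q ≤ N ∧ N ≤ M ∧ Nat.card Q = 2 ^ 13 ∧ Cfsg.IsExtraspecial 2 Q ∧ Nat.card N = 3 * 2 ^ 13 ∧ M.index = 2 ∧ ∃ (_ : (N.subgroupOf M).Normal), Cfsg.IsM22 (M ⧸ N.subgroupOf M) := by
  have hJ := H7.JD.j_main.2.1
  have : Finite Spor.J4 := Nat.finite_of_card_ne_zero (by rw [hJ.2]; norm_num)
  obtain ⟨h2, d, c, Q, M, q1, q2, hd, hdQ, hQM, hdM, hM, ρ, hρ, hk, hkd, hc, hcM⟩ := H1.J4.main H13.Xs.xs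
  exact ⟨Spor.J4, inferInstance, this, hJ, _, h2, H14.J4f.fin _ d c Q M q1 q2 hd hdQ hQM hdM hM
    ⟨H27.simple_H22, H27.card_H22⟩ ρ hρ hk hkd H25.J4u.ub hc hcM⟩

end Cfsg.Agent.S0476
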