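import Cfsg.Statements.S5031
import Cfsg.Agent.H11.R2b

set_option autoImplicit false
open Cfsg

namespace Cfsg.Agent.S5031

open Subgroup H16 H16.H11 Cfsg.IsRankOnePair
open scoped commutatorElement


/-- Let S be a set of abstract root subgroups of G and let A, B ∈ S lie in different connected components of the graph of rank one pairs on S, each component having more than one member. Then B is not a line partner of A. -/
theorem result {G : Type*} [Group G] {S : Set (Subgroup G)} (hS : Cfsg.IsRootSubgroupSet S)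
    {A B : Subgroup G} (hA : A ∈ S) (hB : B ∈ S)
    (hne : Cfsg.componentOf (Cfsg.FAdj S) S A ≠ Cfsg.componentOf (Cfsg.FAdj S) S B)
    (hA2 : ∃ A' ∈ Cfsg.componentOf (Cfsg.FAdj S) S A, A' ≠ A) (hB2 : ∃ B' ∈ Cfsg.componentOf (Cfsg.FAdj S) S B, B' ≠ B) :
    B ∉ Cfsg.linePartners S A := by
  rintro ⟨⟨-, hBA, hc⟩, hp⟩
  have key : ∀ {A B : Subgroup G}, A ∈ S → B ∈ S → ¬ Relation.ReflTransGen (FAdj S) A B → NI S A → A ≤ C[B] →
      ∀ a ∈ A, a ≠ 1 → ∀ b ∈ B, b ≠ 1 → ∀ E ∈ S, E ≤ C[B] → b * a ∈ E → b * a ≠ 1 →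
        Relation.ReflTransGen (FAdj S) A E := by
    rintro A B hA hB hn ⟨D, hD, h⟩ hc a ha a1 b hb b1 E hE hEB he h1
    rcases hS.cases hB hD with h2 | h2 | h2
    · exact absurd (hS.cent_mul hA hD h (le_cent_sup (cent_symm hc) h2 hb) ha a1 hE he h1) b1
    · exact absurd (.head ⟨hA, hD, h⟩ (.single ⟨hD, hB, h2.symm'⟩)) hn
    rcases hS.cases hE hD with h3 | h3 | h3
    · exfalso
      have h4 : D :^ b⁻¹ = D :^ a := by
        rw [cj_eq_cj_iff, ← mul_inv_rev]; exact inv_mem (cent_le_norm _ (h3 he))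
      exact IsRootSubgroupSet.not_cent_cj h ha a1 (h4 ▸ hS.cc_cent hD h2.symm (mem_sup_right (inv_mem hb)))
    · exact .head ⟨hA, hD, h⟩ (.single ⟨hD, hE, h3.symm'⟩)
    · refine (IsRootSubgroupSet.not_nil_of_mem h ha a1 (hS.tri_nil hE hD hB h3 h2 hEB) ?_
        (le_sup_right.trans le_sup_left)).elim
      simpa using mul_mem (mem_sup_right (inv_mem hb)) (mem_sup_left (mem_sup_left he) : b * a ∈ E ⊔ D ⊔ B)
  have hsy : ∀ {A B : Subgroup G}, Relation.ReflTransGen (FAdj S) A B → Relation.ReflTransGen (FAdj S) B A :=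
    rtg_symm fun _ _ => fadj_symm
  have hn : ¬ Relation.ReflTransGen (FAdj S) A B := fun h => hne (by
    ext C; exact ⟨fun h' => ⟨h'.1, (hsy h).trans h'.2⟩, fun h' => ⟨h'.1, h.trans h'.2⟩⟩)
  obtain ⟨A', hA', hA1⟩ := hA2
  obtain ⟨B', hB', hB1⟩ := hB2
  have nA := IsRootSubgroupSet.ni_of_conn hA'.2 hA1
  have nB := IsRootSubgroupSet.ni_of_conn hB'.2 hB1
  have hc' := comm_eq_bot.1 hc
  obtain ⟨a, ha, a1⟩ := hS.ex_ne hA
  obtain ⟨b, hb, b1⟩ := hS.ex_ne hB
  have hab := (commute_of_le hc' ha hb).eq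
  have h1 : b * a ≠ 1 := fun e => a1 (eq_one_of_mem_bot (hS.inf_eq_bot hA nA hB hBA.symm)
    ⟨ha, eq_inv_of_mul_eq_one_right e ▸ B.inv_mem hb⟩)
  obtain ⟨E, ⟨hE, hle⟩, he⟩ := hp.2.1 _ (mul_mem (mem_sup_right hb) (mem_sup_left ha)) h1
  have hco := comm_sup (hS.commutative A hA) (hS.commutative B hB) hc'
  exact hn ((key hA hB hn nA hc' a ha a1 b hb b1 E hE (comm_cent hco hle le_sup_right) he h1).trans
    (hsy (key hB hA (fun h => hn (hsy h)) nB (cent_symm hc') b hb b1 a ha a1 E hE (comm_cent hco hle le_sup_left)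
      (hab ▸ he) (hab ▸ h1))))

end Cfsg.Agent.S5031
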