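import Cfsg.Statements.S0617
import Cfsg.Agent.H4.FF3

set_option autoImplicit false
open Cfsg

namespace Cfsg.Agent.S0617

/-- Structure Theorem for failure of factorization: a faithful group generated by best offenders, with self-centralizing p'-core, is a direct product of copies of SL(2, p) (p = 2 or 3), each acting on its own plane in V, which is the direct product of these planes and C_V(H). -/
theorem result {G : Type*} [Group G] [Finite G] {p : ℕ} [Fact p.Prime] (V H : Subgroup G) (hV : Cfsg.IsElementaryAbelian p V) (hHV : H ≤ Subgroup.normalizer (V : Set G)) (hf : H ⊓ Subgroup.centralizer (V : Set G) = ⊥) (hS1 : Subgroup.centralizer (Cfsg.pPrimeCore p ↥H : Set ↥H) ≤ Cfsg.pPrimeCore p ↥H) (hS3 : H = ⨆ A : {A : Subgroup G // A ≤ H ∧ Cfsg.IsBestOffenderOn p V A}, (A : Subgroup G)) (hH1 : H ≠ ⊥) : (p = 2 ∨ p = 3) ∧ (∀ E : {E : Subgroup G // ∃ A : Subgroup G, A ≤ H ∧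 Cfsg.IsBestOffenderOn p V A ∧ ⁅V, A⁆ ≠ ⊥ ∧ (∀ B : Subgroup G, B ≤ A → Cfsg.IsBestOffenderOn p V B → ⁅V, B⁆ ≠ ⊥ → B = A) ∧ E = ⁅((Cfsg.pPrimeCore p ↥H).map H.subtype), A⁆ ⊔ A}, H ≤ Subgroup.normalizer ((E : Subgroup G) : Set G) ∧ Nonempty (↥(E : Subgroup G) ≃* Matrix.SpecialLinearGroup (Fin 2) (ZMod p)) ∧ Nat.card ↥(⁅V, (E : Subgroup G)⁆) = p ^ 2) ∧ iSupIndep (fun E : {E : Subgroup G // ∃ A : Subgroup G, A ≤ H ∧ Cfsg.IsBestOffenderOn p V A ∧ ⁅V, A⁆ ≠ ⊥ ∧ (∀ B : Subgroup G, B ≤ A → Cfsg.IsBestOffenderOn p V B → ⁅V, B⁆ ≠ ⊥ → B = A) ∧ E = ⁅((Cfsg.pPrimeCore p ↥H).map H.subtype), A⁆ ⊔ A} => (E : Subgroup G)) ∧ (⨆ E : {E : Subgroup G // ∃ A : Subgroup G, A ≤ H ∧ Cfsg.IsBestOffenderOn p V A ∧ ⁅V, A⁆ ≠ ⊥ ∧ (∀ B : Subgroup G, B ≤ A → Cfsg.IsBestOffenderOn p V B → ⁅V, B⁆ ≠ ⊥ → B = A) ∧ E = ⁅((Cfsg.pPrimeCore p ↥H).map H.subtype), A⁆ ⊔ A}, (E : Subgroup G)) = H ∧ iSupIndep (fun o :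 Option {E : Subgroup G // ∃ A : Subgroup G, A ≤ H ∧ Cfsg.IsBestOffenderOn p V A ∧ ⁅V, A⁆ ≠ ⊥ ∧ (∀ B : Subgroup G, B ≤ A → Cfsg.IsBestOffenderOn p V B → ⁅V, B⁆ ≠ ⊥ → B = A) ∧ E = ⁅((Cfsg.pPrimeCore p ↥H).map H.subtype), A⁆ ⊔ A} => o.elim (V ⊓ Subgroup.centralizer (H : Set G)) (fun E => ⁅V, (E : Subgroup G)⁆)) ∧ (V ⊓ Subgroup.centralizer (H : Set G)) ⊔ (⨆ E : {E : Subgroup G // ∃ A : Subgroup G, A ≤ H ∧ Cfsg.IsBestOffenderOn p V A ∧ ⁅V, A⁆ ≠ ⊥ ∧ (∀ B : Subgroup G, B ≤ A → Cfsg.IsBestOffenderOn p V B → ⁅V, B⁆ ≠ ⊥ → B = A) ∧ E = ⁅((Cfsg.pPrimeCore p ↥H).map H.subtype), A⁆ ⊔ A}, ⁅V, (E : Subgroup G)⁆) = V := by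
  have h := H4.FFHyp.of hV hHV hf hS1
  have hg := h.le_sSup_of_gen hS3
  set ι := {E : Subgroup G // ∃ A : Subgroup G, A ≤ H ∧ Cfsg.IsBestOffenderOn p V A ∧ ⁅V, A⁆ ≠ ⊥ ∧ (∀ B : Subgroup G, B ≤ A → Cfsg.IsBestOffenderOn p V B → ⁅V, B⁆ ≠ ⊥ → B = A) ∧ E = ⁅((Cfsg.pPrimeCore p ↥H).map H.subtype), A⁆ ⊔ A}
  have ex : ∀ E : ι, ∃ A ≤ H, H4.Tv p V A ∧ (E : Subgroup G) = H4.eOf p H A := by
    rintro ⟨E, A, h1, h2, h3, h4, h5⟩
    exact ⟨A, h1, h.tv_of_min h1 h2 h3 h4, h5⟩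
  have mk : ∀ A ≤ H, H4.Tv p V A → ∃ E : ι, (E : Subgroup G) = H4.eOf p H A := fun A h1 h2 =>
    ⟨⟨_, A, h1, h2.best hV.1 (h1.trans hHV), H4.ne_bot_of_card h2.2,
      fun B hB _ h0 => h2.min hB h0, rfl⟩, rfl⟩
  have le : ∀ E : ι, (E : Subgroup G) ≤ H := fun E => by
    obtain ⟨A, h1, -, e⟩ := ex E
    exact e ▸ H4.eOf_le h1
  have cen : ∀ E E' : ι, E' ≠ E → (E' : Subgroup G) ≤
      Subgroup.centralizer ((⁅V, (E : Subgroup G)⁆ : Subgroup G) : Set G) := fun E E' hne => by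
    obtain ⟨A, h1, h2, e⟩ := ex E
    obtain ⟨B, h3, h4, e'⟩ := ex E'
    rw [e, e']
    exact h.eOf_le_cent h1 h2 h3 h4 fun he => hne (Subtype.ext (by rw [e, e', he]))
  have hsup : ⨆ E : ι, (E : Subgroup G) = H := by
    refine le_antisymm (iSup_le le) (hg.trans (sSup_le fun B hB => ?_))
    obtain ⟨E, e⟩ := mk B hB.1 hB.2
    exact (le_sup_right.trans e.ge).trans (le_iSup (fun E : ι => (E : Subgroup G)) E)
  have := hV.1
  have hKV := (H5.oppOf_le p H).trans hHV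
  refine ⟨?_, fun E => ?_, fun E => ?_, hsup, fun o => ?_, ?_⟩
  · by_contra hne
    refine hH1 (eq_bot_iff.2 (hg.trans (sSup_le fun B hB => (hne (h.prime_eq hB.1 hB.2)).elim)))
  · obtain ⟨A, h1, h2, e⟩ := ex E
    rw [e]
    exact ⟨h.le_norm_eOf hg h1 h2, h.eOf_equiv h1 h2, h.card_comm_eOf h1 h2⟩
  · obtain ⟨A, h1, h2, e⟩ := ex E
    have f := h.eOf_faithful h1 h2
    rw [← e] at f
    exact disjoint_iff_inf_le.2 (le_trans (inf_le_inf_left _ (iSup₂_le fun E' hne => cen E E' hne)) f.le)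
  · rw [disjoint_iff, eq_bot_iff]
    obtain _ | E := o
    · refine le_trans (inf_le_inf (inf_le_inf_left _ (H15.cent_anti (H5.oppOf_le p H))) (iSup₂_le ?_))
        (H1.inf_centralizer_inf_commutator_eq_bot hKV (h.coprime le_rfl)).le
      rintro (_ | E) hne
      · exact (hne rfl).elim
      · obtain ⟨A, h1, h2, e⟩ := ex E
        change ⁅V, (E : Subgroup G)⁆ ≤ _
        rw [e, ← h.comm_comm_eq h1 h2]
        exact Subgroup.commutator_mono le_rfl (H4.comm_oppOf_le h1)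
    · obtain ⟨A, h1, h2, e⟩ := ex E
      have f := h.comm_inf_cent_eOf h1 h2
      rw [← e] at f
      refine le_trans (inf_le_inf_left _ (iSup₂_le ?_)) f.le
      rintro (_ | E') hne
      · exact inf_le_inf_left _ (H15.cent_anti (le E))
      · exact le_inf (H15.comm_le_left ((le E').trans hHV))
          (H15.cent_comm (cen E' E fun e => hne (by rw [e])))
  · refine le_antisymm (sup_le inf_le_left (iSup_le fun E => H15.comm_le_left ((le E).trans hHV))) ?_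
    conv_lhs => rw [← H1.commutator_sup_centralizer hKV (h.coprime le_rfl) (Or.inr (H5.isSolvable_of_le_centralizer (H15.le_cent_self hV.1)))]
    refine sup_le (le_sup_of_le_right ?_) (le_sup_of_le_left (le_inf inf_le_left ?_))
    · refine (Subgroup.commutator_mono le_rfl ((H5.oppOf_le p H).trans hsup.ge)).trans
        (H4.commutator_iSup_right_le (fun E => ?_)
          fun E => le_iSup (fun E : ι => ⁅V, (E : Subgroup G)⁆) E)
      exact H15.le_norm_of_comm_le (iSup_le fun E => H15.comm_le_left ((le E).trans hHV))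
        (le_iSup (fun E : ι => ⁅V, (E : Subgroup G)⁆) E)
    · refine H15.cent_comm (hsup.ge.trans (iSup_le fun E => H15.cent_comm ?_))
      obtain ⟨A, h1, h2, e⟩ := ex E
      rw [e]
      exact (inf_le_inf_left _ (H15.cent_anti (H4.comm_oppOf_le h1))).trans
        ((h.inf_cent_comm_eq h1 h2).le.trans inf_le_right)

end Cfsg.Agent.S0617
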