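import Cfsg.Statements.S5363
import Cfsg.Agent.H18.Dih0

set_option autoImplicit false
open Cfsg

namespace Cfsg.Agent.S5363



/-- Let D be a conjugation-invariant set of involutions of a finite group G. Then every product of two members of D has odd order or order 2 if and only if, for every a in D and every b in D different from a and commuting with a, the members of D commuting with a b are exactly those commuting with both a and b. -/
theorem result {G : Type*} [Group G] [Finite G] {D : Set G} (hinv : ∀ d ∈ D, orderOf d = 2) (hconj : ∀ g : G, ∀ d ∈ D, g * d * g⁻¹ ∈ D) : (∀ a ∈ D, ∀ b ∈ D, Odd (orderOf (a * b)) ∨ orderOf (a * b) = 2) ↔ ∀ a ∈ D, ∀ b ∈ D, b ≠ a → Commute a b → {y : G | y ∈ D ∧ Commute (a * b) y} = {y : G | y ∈ D ∧ Commute a y} ∩ {y : G | y ∈ D ∧ Commute b y} := by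
  have sq : ∀ d ∈ D, d * d = 1 := fun d hd => H6.ord2_mul_self (hinv d hd)
  constructor
  · intro h a ha b hb hba hab
    ext y
    refine ⟨fun ⟨hy, hc⟩ => ?_, fun ⟨⟨hy, h1⟩, _, h2⟩ => ⟨hy, h1.mul_left h2⟩⟩
    suffices h1 : Commute a y by
      refine ⟨⟨hy, h1⟩, hy, ?_⟩
      have := h1.mul_left hc
      rwa [← mul_assoc, sq a ha, one_mul] at this
    have t2 : (a * b) * (a * b) = 1 := H6.ord2_mul_self
      (H6.ord2_mul_of_commute (sq a ha) (sq b hb) hab hba.symm)
    have t1 : a * b ≠ 1 := H6.ord2_ne_one
      (H6.ord2_mul_of_commute (sq a ha) (sq b hb) hab hba.symm)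
    rcases h y hy a ha with h1 | h1
    · have c : Commute (y * a) (a * b) := hc.symm.mul_left ((Commute.refl a).mul_right hab)
      have e : y * b = y * a * (a * b) := by rw [mul_assoc, ← mul_assoc a, sq a ha, one_mul]
      rcases h y hy b hb with h2 | h2
      · exfalso
        have := H18.mul_pow_odd c t2 (h1.mul h2) (by rw [pow_mul, pow_orderOf_eq_one, one_pow])
        rw [← e, mul_comm, pow_mul, pow_orderOf_eq_one, one_pow] at this
        exact t1 this.symm
      · have h3 := H6.ord2_mul_self h2
        rw [e, ← pow_two, c.mul_pow, pow_two (a * b), t2, mul_one, pow_two] at h3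
        exact (H6.commute_of_mul_sq (sq y hy) (sq a ha) h3).symm
    · exact (H6.commute_of_mul_sq (sq y hy) (sq a ha) (H6.ord2_mul_self h1)).symm
  · intro h a ha b hb
    rcases Nat.even_or_odd (orderOf (a * b)) with he | ho
    swap
    · exact Or.inl ho
    right
    obtain ⟨t2, ta, tb⟩ := H6.exists_central_inv (sq a ha) (sq b hb) he
    set t := (a * b) ^ (orderOf (a * b) / 2) with ht
    have hat : a * t ∈ D := by
      obtain ⟨k, h | h⟩ := H18.refl_conj (sq a ha) (sq b hb) (orderOf (a * b) / 2)
      · rw [ht, h]; simpa using hconj ((a * b) ^ k)⁻¹ a ha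
      · rw [ht, h]; simpa using hconj ((a * b) ^ k)⁻¹ b hb
    have := h a ha _ hat (fun h => H6.ord2_ne_one t2 (by simpa using h))
      ((Commute.refl a).mul_right ta.symm)
    rw [← mul_assoc, sq a ha, one_mul] at this
    have h1 : b ∈ {y : G | y ∈ D ∧ Commute t y} := ⟨hb, tb⟩
    rw [this] at h1
    refine H6.ord2_mul_of_commute (sq a ha) (sq b hb) h1.1.2 ?_
    rintro rfl
    rw [sq a ha, orderOf_one] at he
    exact absurd he (by decide)

end Cfsg.Agent.S5363
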