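import Cfsg.Statements.S0372
import Cfsg.Agent.H27.Golay

set_option autoImplicit false
open Cfsg

namespace Cfsg.Agent.S0372
open H27 MulAction
open scoped Pointwise

/-- The involution x ↦ -1/x of the projective line over ZMod 23 lies in the group of the length-24 code. -/
theorem result : Cfsg.projInv ∈ Cfsg.M24 := by
  exact mem_M24_of_acts (N := (.cons 1 0x411441 (.cons 2 0x301033 (.cons 4 0xf0b04 (.cons 8 0x93 (.cons 16 0xff (.cons 8 0x6c (.cons 4 0xa0a00 (.cons 2 0x32300 (.cons 1 0x11440 .nil))))))))))
    ⟨Net.ok_of_valid (by decide +kernel), by decide +kernel⟩ (by decide +kernel)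

end Cfsg.Agent.S0372
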