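import Cfsg.Statements.S0373
import Cfsg.Agent.H27.Golay

set_option autoImplicit false
open Cfsg

namespace Cfsg.Agent.S0373
open H27 MulAction
open scoped Pointwise

/-- The cube-twist permutation (squares t ↦ t^3/9, non-squares t ↦ 9t^3, extra point fixed) lies in the group of the length-24 code. -/
theorem result : Cfsg.cubeTwist ∈ Cfsg.M24 := by
  exact mem_M24_of_acts (N := (.cons 1 0x50410 (.cons 2 0x220120 (.cons 4 0x10706 (.cons 8 0x1e (.cons 16 0x9e (.cons 8 0x1c (.cons 4 0xd0000 (.cons 2 0x201230 (.cons 1 0x150540 .nil))))))))))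
    ⟨Net.ok_of_valid (by decide +kernel), by decide +kernel⟩ (by decide +kernel)

end Cfsg.Agent.S0373
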