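import Cfsg.Statements.S0021
import Cfsg.Agent.H1.SysNorm

set_option autoImplicit false
open Pointwise
open Cfsg

namespace Cfsg.Agent.S0021

/-- A finite group with a family of pairwise permuting Sylow subgroups, one for each prime, is solvable (this direction rests on Burnside's two-prime Theorem). -/
theorem result {G : Type*} [Group G] [Finite G]
    (S : (p : Nat.Primes) → Sylow (p : ℕ) G)
    (hS : ∀ p q : Nat.Primes, (S p : Set G) * (S q : Set G) = (S q : Set G) * (S p : Set G)) :
    Group.IsSolvable G := by
  classical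
  have key : ∀ s : Finset Nat.Primes, ∀ r : ℕ, r.Prime →
      r ∣ Nat.card (s.sup fun q => (S q : Subgroup G) : Subgroup G) → ∃ q ∈ s, (q : ℕ) = r := by
    intro s
    induction s using Finset.induction_on with
    | empty => intro r hr h; exact (hr.not_dvd_one (by simpa using h)).elim
    | insert a s ha ih =>
      intro r hr h
      have h1 := H1.isProd_sSup_left (C := (S a : Subgroup G))
        ((fun q => (S q : Subgroup G)) '' (s : Set Nat.Primes)) (by
          rintro _ ⟨q, -, rfl⟩
          exact H1.isProd_of_mul_comm (hS q a))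
      rw [← Finset.sup_eq_sSup_image] at h1
      rw [Finset.sup_insert, sup_comm] at h
      rcases hr.dvd_mul.1 (h.trans h1.card_dvd) with h2 | h2
      · obtain ⟨q, h3, h4⟩ := ih r hr h2
        exact ⟨q, Finset.mem_insert_of_mem h3, h4⟩
      · have := Fact.mk a.2
        exact ⟨a, Finset.mem_insert_self _ _,
          (H1.isPiNat_card_singleton_iff.2 (S a).isPGroup' r hr h2).symm⟩
  refine H1.isSolvable_of_forall_exists_isPiHall_compl fun p hp =>
    ⟨((H1.primesOf G).erase ⟨p, hp⟩).sup fun q => (S q : Subgroup G),
      H1.isPiHall_iff.2 ⟨fun r hr h e => ?_, fun r hr h => ?_⟩⟩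
  · obtain ⟨q, h1, h2⟩ := key _ r hr h
    exact (Finset.mem_erase.1 h1).1 (Subtype.ext (h2.trans e))
  · rw [compl_compl]
    by_contra hne
    have := Fact.mk hr
    refine (S ⟨r, hr⟩).not_dvd_index (h.trans (Subgroup.index_dvd_of_le ?_))
    exact Finset.le_sup (f := fun q => (S q : Subgroup G)) (Finset.mem_erase.2
      ⟨fun e => hne (congrArg Subtype.val e),
        H1.mem_primesOf.2 (h.trans (Subgroup.index_dvd_card _))⟩)

end Cfsg.Agent.S0021
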