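import Cfsg.Statements.S2544
import Cfsg.Agent.H16.LA13
import Cfsg.Agent.S0165
import Cfsg.Agent.H17.Ker
-- import your own Cfsg.Agent.* helpers here

set_option autoImplicit false
open Cfsg

namespace Cfsg.Agent.S2544

open H16 Module Polynomial in
/-- Let F be a finite field of characteristic p and consider the projective special linear group PSL_n(F) with n ≥ 2. This group has an irreducible complex character χ whose degree equals the order of a Sylow p-subgroup (namely q^(n(n−1)/2) when #F = q) and whose restriction to any Sylow p-subgroup P is the regular character of P: χ vanishes on the non-identity elements of P. (This is the Steinberg character.) -/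
theorem result {F : Type*} [Field F] [Fintype F] (p : ℕ) [Fact p.Prime] [CharP F p] (n : ℕ) (hn : 2 ≤ n) : ∃ χ : Matrix.ProjectiveSpecialLinearGroup (Fin n) F → ℂ, Cfsg.IsIrrCharacter (Matrix.ProjectiveSpecialLinearGroup (Fin n) F) χ ∧ ∀ P : Sylow p (Matrix.ProjectiveSpecialLinearGroup (Fin n) F), χ 1 = Nat.card P ∧ ∀ x : Matrix.ProjectiveSpecialLinearGroup (Fin n) F, x ∈ P → x ≠ 1 → χ x = 0 := by
  have h1 := isIrr_uch (ν := fun _ : Fin n => 1) monotone_const (by simp) (slE n F) mem_range_slE
  obtain ⟨χ, hχ, h2⟩ := H17.Cfsg.IsIrrCharacter.exists_quotient h1 (Subgroup.center _) fun z hz => by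
    obtain ⟨c, hc⟩ := (mem_center_SL_iff z).1 hz
    rw [H17.Cfsg.IsIrrCharacter.mem_charKer h1, map_one]
    exact uch_of_smul _ (c := c) fun v => by simp [slE_apply, hc, Matrix.smul_mulVec]
  have h3 := uch_one_one (F := F) (V := Fin n → F)
  rw [finrank_fin_fun] at h3
  refine ⟨χ, hχ, fun P => ?_⟩
  have h4 : χ 1 = Nat.card P := by
    rw [card_sylow_PSL p (by omega), ← h3, ← map_one (slE n F)]
    exact (congrFun h2 1).symm
  refine ⟨h4, fun x hx hx1 => ?_⟩
  obtain ⟨d, ρ, hρ, rfl⟩ := hχ
  rw [ρ.char_one, Nat.cast_inj, P.card_eq_multiplicity] at h4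
  refine Cfsg.Agent.S0165.result ρ p _ Fact.out (Nat.ordProj_dvd _ _)
    (Nat.pow_succ_factorization_not_dvd Nat.card_pos.ne' Fact.out) h4.symm.dvd x ?_
  obtain ⟨k, hk⟩ := IsPGroup.iff_orderOf.1 P.isPGroup' ⟨x, hx⟩
  rw [Subgroup.orderOf_mk] at hk
  rw [hk]
  exact dvd_pow_self p (by rintro rfl; exact hx1 (by simpa using hk))

end Cfsg.Agent.S2544
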