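import Cfsg.Statements.S0306
import Cfsg.Agent.H22.Orders

set_option autoImplicit false
open Cfsg

namespace Cfsg.Agent.S0306

/-- GO^-_2(q) is dihedral of order 2(q+1). -/
theorem result {F : Type*} [Field F] [Fintype F] {q : ℕ} (hF : Fintype.card F = q) (a b : F) (hab : ∀ z₁ z₂ : F, z₁ ^ 2 + a * z₁ * z₂ + b * z₂ ^ 2 = 0 → z₁ = 0 ∧ z₂ = 0) : Nonempty (Cfsg.isometryGroup F (Cfsg.quadFormMinus 0 F a b) ≃* DihedralGroup (q + 1)) := by
  subst hF
  obtain ⟨d⟩ := H22.O_aniso_plane_equiv_dihedral (H22.qMinus 0 F a b) (by simp) (fun v hv => by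
    rw [H22.qMinus_apply] at hv
    simp only [Finset.univ_eq_empty, Finset.sum_empty, zero_add] at hv
    ext i
    rcases i with (i | i) | i
    · exact i.elim0
    · exact i.elim0
    · fin_cases i
      exacts [(hab _ _ hv).1, (hab _ _ hv).2])
  exact ⟨(H22.isomEquiv (H22.qMinus 0 F a b)).trans d⟩

end Cfsg.Agent.S0306
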