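import Cfsg.Statements.S0743
import Mathlib
import Cfsg.Agent.H25.Prim

set_option autoImplicit false
open Cfsg

namespace Cfsg.Agent.S0743

open MulAction H25

/-- Gleason's Lemma: let `p` be a prime and `1 ≤ k < n`; if every `k`-subset of the `n` points is exactly the fixed-point set of some `p`-subgroup of `G`, then `G` is `k`-transitive. -/
theorem result {α : Type*} [Fintype α] [DecidableEq α] (G : Subgroup (Equiv.Perm α)) {p k : ℕ} (hp : p.Prime) (hk : 1 ≤ k) (hkn : k < Fintype.card α) (h : ∀ s : Finset α, s.card = k → ∃ P : Subgroup G, IsPGroup p P ∧ MulAction.fixedPoints P α = (s : Set α)) : MulAction.IsMultiplyPretransitive G α k := by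
  have := Fact.mk hp
  have key : ∀ j, j ≤ k → IsMultiplyPretransitive G α j := by
    intro j
    induction j with
    | zero => intro _; exact is_zero_pretransitive'
    | succ j ih =>
      intro hj
      refine multi_succ_of_fix (ih (by omega)) fun s hs a b ha hb => ?_
      by_contra hcon
      let O : Set α := orbit (fixingSubgroup G (s : Set α)) a
      have haO : a ∈ O := mem_orbit_self a
      have hbO : b ∉ O := by
        rintro ⟨g, hg⟩
        exact hcon ⟨g, (mem_fixingSubgroup_iff G).1 g.2, hg⟩
      have hab : a ≠ b := fun h => hbO (h ▸ haO)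
      have hmod : ∀ t : Finset α, t.card = k → s ⊆ t → O.ncard ≡ (O ∩ t).ncard [MOD p] := by
        intro t ht hst
        obtain ⟨P, hP, hfix⟩ := h t ht
        have hPle : P ≤ fixingSubgroup G (s : Set α) := by
          intro q hq
          rw [mem_fixingSubgroup_iff]
          intro y hy
          have : y ∈ fixedPoints P α := hfix ▸ hst hy
          exact this ⟨q, hq⟩
        have h1 := ncard_modEq_fixed P hP O (Set.toFinite _)
          (fun q hq x hx => mem_orbit_of_mem_orbit (⟨q, hPle hq⟩ : fixingSubgroup G (s : Set α)) hx)
        convert h1 using 2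
        ext x
        rw [← hfix]
        simp [mem_fixedPoints]
      obtain ⟨t, hst, htu, htc⟩ := Finset.exists_subsuperset_card_eq (s := insert a s)
        (t := Finset.univ.erase b) (n := k) (by
          intro x hx
          rcases Finset.mem_insert.1 hx with rfl | hx
          · simpa using hab
          · simp only [Finset.mem_erase, Finset.mem_univ, and_true]
            rintro rfl; exact hb hx)
        (by rw [Finset.card_insert_of_notMem ha]; omega) (by simp; omega)
      have hat : a ∈ t := hst (by simp)
      have hbt : b ∉ t := fun h => by simpa using htu h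
      have h1 := hmod t htc (fun x hx => hst (by simp [hx]))
      have h2 := hmod (insert b (t.erase a)) (by
        rw [Finset.card_insert_of_notMem (by simp [hbt]), Finset.card_erase_of_mem hat]; omega)
        (fun x hx => by
          have : x ≠ a := fun h => ha (h ▸ hx)
          simp [this, hst (Finset.mem_insert_of_mem hx)])
      have h3 : O ∩ t = insert a (O ∩ (insert b (t.erase a) : Finset α)) := by
        ext x
        simp only [Set.mem_inter_iff, Finset.mem_coe, Finset.coe_insert, Finset.coe_erase,
          Set.mem_insert_iff, Set.mem_sdiff, Set.mem_singleton_iff]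
        constructor
        · rintro ⟨h4, h5⟩
          by_cases hxa : x = a
          · exact Or.inl hxa
          · exact Or.inr ⟨h4, Or.inr ⟨h5, hxa⟩⟩
        · rintro (rfl | ⟨h4, rfl | h5⟩)
          · exact ⟨haO, hat⟩
          · exact absurd h4 hbO
          · exact ⟨h4, h5.1⟩
      rw [h3, Set.ncard_insert_of_notMem (by simp [hab])] at h1
      have h4 := h2.symm.trans h1
      have h5 := (Nat.modEq_iff_dvd' (Nat.le_succ _)).1 h4
      rw [Nat.succ_eq_add_one, Nat.add_sub_cancel_left] at h5
      exact hp.one_lt.ne' (Nat.dvd_one.1 h5)
  exact key k le_rfl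

end Cfsg.Agent.S0743
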