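import Cfsg.Statements.S1084
import Cfsg.Agent.H24.C27c
import Cfsg.Agent.S1054

set_option autoImplicit false
set_option maxHeartbeats 400000
open Cfsg

namespace Cfsg.Agent.S1084

open H24 H24.C27 Cfsg.Lie Matrix in
theorem noncomm (F : Type*) [Field F] : X 1 (1 : F) * X 70 1 ≠ X 70 1 * X 1 1 := fun h => by
  have := congrArg (fun M => (M *ᵥ e F 0) (ix 0)) h
  obtain ⟨a1, a2, a3, a4, a5, a6, a7⟩ : ng 1 = 70 ∧ ng 70 = 1 ∧ tc 70 0 = 31 ∧ tc 1 14 = 3 ∧ tc 1 0 = 0 ∧ tv 31 = 14 ∧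
    tv 3 = 0 := by decide +kernel
  simp [← mulVec_mulVec, X_apply, a1, a2, a3, a4, a5, a6, a7, vl, e_apply, sg_ne] at this

/-- E₆ via the 27-dimensional cubic form: for a finite field with at least three elements, (isometries of the cubic form) / centre ≅ the Chevalley group E₆(F). -/
theorem result {F : Type*} [Field F] [Fintype F] (hF : 3 ≤ Fintype.card F) : Nonempty (Cfsg.Lie.E6 F ≃* ↥(Cfsg.Lie.chevE6.group F)) := by
  classical
  obtain ⟨a, -, ha⟩ := Finset.exists_mem_notMem_of_card_lt_card (s := {0, 1}) (t := (Finset.univ : Finset F))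
    (Finset.card_le_two.trans_lt hF)
  have hG := H24.C27.Gr_eq (F := F) ⟨a, by simpa using ha⟩
  let S := H24.tabE6_chk.grp F
  let S' := (H24.C27.st F).restr (Lie.E6univ F) fun r t => hG ▸ (H24.C27.st F).x_mem_Gr r t
  have h1 : S'.Gr = ⊤ := by
    rw [H24.St.eq_subgroupOf (H24.St0.map_Gr (S := S') (S' := H24.C27.st F) (Subgroup.subtype _) fun _ _ => rfl), hG,
      Subgroup.subgroupOf_self]
  let π := QuotientGroup.mk' (Subgroup.center (Lie.E6univ F))
  have h2 : (S'.map π).Gr = ⊤ := by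
    rw [← H24.St0.map_Gr (S := S') π fun _ _ => rfl, h1, Subgroup.map_top_of_surjective _ (QuotientGroup.mk'_surjective _)]
  obtain ⟨φ, hφ⟩ := S.exists_hom (S'.map π) fun g hg _ => by
    have hθ : ∀ r t, (MonoidHom.id _).prodMap π ((S.pr S').x r t) = (S.pr (S'.map π)).x r t := fun _ _ => rfl
    obtain ⟨g, a1, rfl⟩ := (H24.St0.map_H _ hθ).ge hg.1
    have a2 := ((S.pr S').mem_Z_iff.1 ((S.pr S').mem_Z_of_map _ _ hθ ((S.pr S').H_le_Gr a1) hg)).2
    refine (QuotientGroup.eq_one_iff _).2 (Subgroup.mem_center_iff.2 fun y => ?_)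
    obtain ⟨y, hy, rfl⟩ := (H24.St0.map_Gr (S := (S.pr S').toSt0) (S' := S') (MonoidHom.snd _ _) fun _ _ => rfl).ge
      (h1.ge (Subgroup.mem_top y))
    exact (congrArg Prod.snd (a2 y hy)).symm
  let ψ := φ.comp ((MonoidHom.id _).codRestrict _ fun g => (H24.tabE6_chk.grp_Gr F).ge (Subgroup.mem_top g))
  have hψ : ∀ r t, ψ (S.x r t) = (S'.map π).x r t := hφ
  have := (S1054.result (F := F) Lie.chevE6 (by simp)).1
  refine ⟨(MulEquiv.ofBijective ψ ⟨(MonoidHom.ker_eq_bot_iff _).1 (ψ.normal_ker.eq_bot_or_eq_top.resolve_right fun h => ?_),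
    H24.St.surjective_of _ h2 ψ hψ⟩).symm⟩
  have h3 := (hψ ⟨1, by decide⟩ 1).symm.trans (h.ge (Subgroup.mem_top _))
  exact noncomm F (congrArg (fun g : Lie.E6univ F => g.1.1) (Subgroup.mem_center_iff.1
    ((QuotientGroup.eq_one_iff _).1 h3) (S'.x ⟨70, by decide⟩ 1))).symm

end Cfsg.Agent.S1084
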