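import Cfsg.Statements.S1013
import Cfsg.Agent.H2.Sm2
import Cfsg.Agent.H25.PrimeDeg

set_option autoImplicit false
open Cfsg

namespace Cfsg.Agent.S1013

/-- Let G be a transitive permutation group of prime degree p having more than one Sylow p-subgroup, and suppose a Sylow p-subgroup P has prime index in its normalizer. Then G is simple. -/
theorem result {α : Type*} [Fintype α] [DecidableEq α] {p : ℕ} [Fact p.Prime] (hα : Fintype.card α = p) (G : Subgroup (Equiv.Perm α)) [MulAction.IsPretransitive ↥G α] (P : Sylow p ↥G) (hn : 1 < Nat.card (Sylow p ↥G)) (ht : (((P : Subgroup ↥G).subgroupOf (Subgroup.normalizer ((P : Subgroup ↥G) : Set ↥G))).index).Prime) : IsSimpleGroup ↥G := by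
  classical
  have hp : p.Prime := Fact.out
  have hα' : Nat.card α = p := by rw [Nat.card_eq_fintype_card, hα]
  haveI : MulAction.IsPreprimitive G α := MulAction.IsPreprimitive.of_prime_card (hα' ▸ hp)
  have hdvd : ∀ K : Subgroup G, K.Normal → K ≠ ⊥ → p ∣ Nat.card K := fun K hK hne => by
    haveI := H25.normal_transitive_of_primitive (α := α) K hne
    obtain ⟨c, hc⟩ := H25.exists_orderOf_eq_prime_of_transitive (G := K) hα'
    exact hc ▸ orderOf_dvd_natCard c
  have hG : Nat.card G ∣ p * (p - 1).factorial := by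
    rw [Nat.mul_factorial_pred hp.ne_zero, ← hα', ← Nat.card_perm]
    exact Subgroup.card_subgroup_dvd_card G
  have hnt : Nontrivial G := by
    by_contra hc
    rw [not_nontrivial_iff_subsingleton] at hc
    haveI : Subsingleton (Sylow p G) := ⟨fun a b => Sylow.ext (Subsingleton.elim _ _)⟩
    have := Nat.card_unique (α := Sylow p G)
    omega
  have hP : Nat.card (P : Subgroup G) = p := by
    obtain ⟨k, hk⟩ := P.isPGroup'.exists_card_eq
    have h1 : p ∣ Nat.card (P : Subgroup G) :=
      P.dvd_card_of_dvd_card (by simpa using hdvd ⊤ inferInstance top_ne_bot)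
    have h2 : p ^ k ∣ p * (p - 1).factorial := hk ▸ (Subgroup.card_subgroup_dvd_card _).trans hG
    rw [hk] at h1 ⊢
    rcases k with _ | _ | k
    · exact absurd (Nat.dvd_one.mp h1) hp.one_lt.ne'
    · simp
    · exfalso
      have h3 : p * p ∣ p * (p - 1).factorial := (Dvd.intro (p ^ k) (by ring)).trans h2
      have := hp.dvd_factorial.mp (Nat.dvd_of_mul_dvd_mul_left hp.pos h3)
      have := hp.pos
      omega
  have hle : ∀ K : Subgroup G, K.Normal → K ≠ ⊥ → (P : Subgroup G) ≤ K := fun K hK hne => by
    obtain ⟨c, hc⟩ := exists_prime_orderOf_dvd_card' p (hdvd K hK hne)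
    obtain ⟨x, hx, hx1, hcx⟩ := H2.sm_exists_conj_mem P (y := c) (by rw [Subgroup.orderOf_coe, hc])
    rw [← H2.sm_zpowers_eq hP hx hx1, Subgroup.zpowers_le]
    obtain ⟨g, rfl⟩ := isConj_iff.mp hcx
    exact hK.conj_mem _ c.2 g
  refine ⟨fun K hK => ?_⟩
  by_contra hc
  push Not at hc
  have hPK := hle K hK hc.1
  set N := Subgroup.normalizer ((P : Subgroup G) : Set G) with hN
  have hsup : N ⊔ K = ⊤ := Sylow.normalizer_sup_eq_top' P hPK
  have hPN : (P : Subgroup G) ≤ N := Subgroup.le_normalizer
  have hmul := Subgroup.relIndex_mul_relIndex (P : Subgroup G) (K ⊓ N) N (le_inf hPK hPN) inf_le_right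
  have ht' : ((P : Subgroup G).relIndex N).Prime := ht
  rcases (Nat.dvd_prime ht').mp (Dvd.intro _ hmul) with h | h
  · -- `N_K(P) = P`
    have h1 : K ⊓ N ≤ P := Subgroup.relIndex_eq_one.mp h
    let Q := P.subtype hPK
    have hQ : Subgroup.normalizer ((Q : Subgroup K) : Set K) ≤
        Subgroup.centralizer ((Q : Subgroup K) : Set K) := by
      intro g hg
      rw [Sylow.coe_subtype, ← Subgroup.subgroupOf_normalizer_eq hPK] at hg
      have hgP : (g : G) ∈ (P : Subgroup G) := h1 ⟨g.2, hg⟩
      intro y hy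
      exact Subtype.ext (H2.sm_le_cent hP hgP y hy)
    have hcomp := MonoidHom.ker_transferSylow_isComplement' Q hQ
    set L := (MonoidHom.transferSylow Q hQ).ker
    have hLc : (Nat.card L).Coprime L.index := by
      rw [hcomp.symm.index_eq_card, ← hcomp.index_eq_card]
      exact Q.card_coprime_index.symm
    haveI : L.Characteristic := H2.sm_char_of_hall L hLc
    have hLn : (L.map K.subtype).Normal := ConjAct.normal_of_characteristic_of_normal
    by_cases hL : L.map K.subtype = ⊥
    · have hL' : L = ⊥ := (Subgroup.map_eq_bot_iff_of_injective _ K.subtype_injective).mp hL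
      rw [hL', Subgroup.isComplement'_bot_left, Sylow.coe_subtype, Subgroup.subgroupOf_eq_top] at hcomp
      have hPn : (P : Subgroup G).Normal := (le_antisymm hPK hcomp) ▸ hK
      rw [H2.sm_card_sylow P, Subgroup.normalizer_eq_top_iff.mpr hPn, Subgroup.index_top] at hn
      omega
    · have h2 := hdvd _ hLn hL
      rw [Subgroup.card_map_of_injective K.subtype_injective, ← hcomp.index_eq_card] at h2
      exact Q.not_dvd_index h2
  · rw [h] at hmul
    have h1 : (K ⊓ N).relIndex N = 1 := Nat.eq_of_mul_eq_mul_left ht'.pos (by rw [hmul, mul_one])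
    have h2 : N ≤ K := (Subgroup.relIndex_eq_one.mp h1).trans inf_le_left
    exact hc.2 (by rw [← hsup, sup_eq_right.mpr h2])

end Cfsg.Agent.S1013
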