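import Cfsg.Statements.S2053
import Cfsg.Agent.H29.FiS2
import Cfsg.Agent.H29.FiS3
import Cfsg.Agent.H29.FiS5
import Cfsg.Agent.H29.Cov2
import Cfsg.Agent.H28.Fi23

set_option autoImplicit false
open Cfsg

namespace Cfsg.Agent.S2053

/-- The Schur multiplier of the Fischer group Fi₂₂ (the finitely presented group of the definitions) is cyclic of order 6; here the Schur multiplier is described through stem extensions, as in the definitions: surjective homomorphisms onto the group from a finite group, whose kernel is central in that finite group and contained in that finite group's commutator subgroup. -/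
theorem result : Cfsg.HasCyclicSchurMultiplier Cfsg.Spor.Fi22 6 := by
  obtain ⟨q, -⟩ := H29.fi_ex
  obtain ⟨St, k⟩ := H29.fi_key q
  haveI := H28.fi22_simple
  have hQ := H29.perfect_of_simple H28.fi22_card (by norm_num)
  refine ((H29.HasCov.of_nonsplit H28.fi23_cover hQ).crt (H29.fi_cov q hQ) (by norm_num)).schur H28.fi22_card
    (ps := [2, 3, 5, 7, 11, 13]) (l := [(2, 1), (3, 1), (5, 0)]) (by simp; norm_num) (by decide +kernel) ?_
  simpa using ⟨H29.fis2_sbd _ rfl rfl rfl q.valid k H28.fi22_card, H29.fis3_sbd _ rfl rfl rfl q.valid k H28.fi22_card,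
    H29.fis5_sbd _ rfl rfl rfl q.valid k H28.fi22_card⟩

end Cfsg.Agent.S2053
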