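import Cfsg.Statements.S2091
import Cfsg.Agent.H29.U62C
import Cfsg.Agent.H29.U62S2
import Cfsg.Agent.H29.U62S3
import Cfsg.Agent.S0280
import Cfsg.Agent.S0283

set_option autoImplicit false
open Cfsg

namespace Cfsg.Agent.S2091

/-- Exceptional Schur multiplier: PSU₆(2), realised over the field with 4 elements, has Schur multiplier isomorphic to the product of cyclic groups of orders 3, 2 and 2 (order 12, not cyclic; here the Schur multiplier is described through stem extensions, as in the definitions). -/
theorem result {F : Type*} [Field F] [Fintype F] (hF : Fintype.card F = 4) : Cfsg.HasSchurMultiplier (Cfsg.PSU 6 F 2) (Multiplicative (ZMod 3 × ZMod 2 × ZMod 2)) := by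
  obtain ⟨q⟩ := H29.u62_ex hF
  obtain ⟨St, k⟩ := H29.u62_key q
  have := Cfsg.Agent.S0283.result (q := 2) hF 6 (by norm_num) (by norm_num)
  have hN : Nat.card (Cfsg.PSU 6 F 2) = 9196830720 := by
    have h := (Cfsg.Agent.S0280.result (q := 2) hF 6 (by norm_num)).trans (show _ = 82771476480 by decide +kernel)
    norm_num at h
    omega
  have := Nat.finite_of_card_ne_zero (hN.trans_ne (by norm_num))
  refine (H29.u62c_cov _ rfl rfl rfl q.valid k hN (q.lt (by decide +kernel))
    (H29.perfect_of_simple hN (by norm_num))).schur hN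
    (ps := [2, 3, 5, 7, 11]) (l := [(2, 2), (3, 1)]) (by simp; norm_num) (by decide +kernel) ?_
  simpa using ⟨H29.u62s2_sbd _ rfl rfl rfl q.valid k hN, H29.u62s3_sbd _ rfl rfl rfl q.valid k hN⟩

end Cfsg.Agent.S2091
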