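import Cfsg.Statements.S0822
import Cfsg.Agent.H22.IsoF

set_option autoImplicit false
open Cfsg

namespace Cfsg.Agent.S0822

open H22 H23.Form Module

theorem exists_hom_of_gram {F V G I : Type*} [Field F] [AddCommGroup V] [Module F V]
    [FiniteDimensional F V] [Group G] [MulAction G I] {Q : QuadraticForm F V}
    (hQ : (ofQuad Q).Nondeg) (h2 : (2 : F) ≠ 0) (a : I → V)
    (hs : ∀ x, (∀ i, (ofQuad Q).B (a i) x = 0) → x = 0)
    (hB : ∀ (g : G) i j, (ofQuad Q).B (a (g • i)) (a (g • j)) = (ofQuad Q).B (a i) (a j)) :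
    ∃ φ : G →* (ofQuad Q).O, ∀ g i, (φ g).1 (a i) = a (g • i) := by
  have h1 : Function.Surjective (Finsupp.linearCombination F a) := by
    rw [← LinearMap.range_eq_top, Finsupp.range_linearCombination]
    have : (ofQuad Q).perp (Submodule.span F (Set.range a)) = ⊥ := eq_bot_iff.mpr fun x hx =>
      hs x fun i => (ofQuad Q).mem_perp_span.mp hx _ ⟨i, rfl⟩
    have h := hQ.finrank_perp_add (Submodule.span F (Set.range a))
    rw [this, finrank_bot, zero_add] at h
    exact Submodule.eq_top_of_finrank_eq h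
  have h3 : ∀ (g : G) c d, (ofQuad Q).B (Finsupp.linearCombination F (fun i => a (g • i)) c)
      (Finsupp.linearCombination F (fun i => a (g • i)) d) =
      (ofQuad Q).B (Finsupp.linearCombination F a c) (Finsupp.linearCombination F a d) :=
    fun g c d => by
      simp only [Finsupp.linearCombination_apply, Finsupp.sum, map_sum, LinearMap.sum_apply,
        B_smul_left, B_smul_right, hB]
  obtain ⟨s, hs'⟩ := (Finsupp.linearCombination F a).exists_rightInverse_of_surjective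
    (LinearMap.range_eq_top.mpr h1)
  have h4 : ∀ v, Finsupp.linearCombination F a (s v) = v := fun v => LinearMap.congr_fun hs' v
  let f := fun g : G => Finsupp.linearCombination F (fun i => a (g • i)) ∘ₗ s
  have h5 : ∀ g i, f g (a i) = a (g • i) := fun g i => sub_eq_zero.mp (hs _ fun j => by
    have := h3 g (Finsupp.single (g⁻¹ • j) 1) (s (a i))
    simp only [Finsupp.linearCombination_single, one_smul, smul_inv_smul, h4] at this
    rw [map_sub, show (ofQuad Q).B (a j) (f g (a i)) = _ from this, ← hB g, smul_inv_smul, sub_self])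
  have h6 : ∀ {u v : V →ₗ[F] V}, (∀ i, u (a i) = v (a i)) → ∀ x, u x = v x := fun h x => by
    obtain ⟨c, rfl⟩ := h1 x
    simp [Finsupp.linearCombination_apply, Finsupp.sum, h]
  have h7 : ∀ g u v, (ofQuad Q).B (f g u) (f g v) = (ofQuad Q).B u v := fun g u v =>
    (h3 g _ _).trans (by rw [h4, h4])
  obtain ⟨φ, hφ⟩ := exists_hom_of_fun (ofQuad Q) (fun g => f g) (fun g => map_add _)
    (fun g => map_smul _) (h6 (v := .id) fun i => by simp [h5])
    (fun g h => h6 (v := f g ∘ₗ f h) fun i => by simp [h5, mul_smul]) h7 fun g v =>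
      mul_left_cancel₀ h2 (by rw [← B_self_quad rfl, ← B_self_quad rfl, h7])
  exact ⟨φ, fun g i => by rw [hφ, h5]⟩

abbrev V2 := (Fin 2 ⊕ Fin 2) ⊕ Fin 2 → ZMod 2
abbrev V3 := Unit ⊕ (Fin 2 ⊕ Fin 2) → ZMod 3

def tab (v : V2) : ℕ := [0, 0, 55, 29, 219, 0, 143, 0, 90, 180, 0, 0, 51, 0, 0, 40, 0, 0, 0, 0, 0, 75,
  0, 71, 0, 0, 5, 7, 0, 195, 112, 0, 0, 0, 0, 0, 0, 91, 0, 208, 0, 0, 232, 131, 0, 92, 236, 0, 0, 0,
  0, 0, 0, 120, 0, 188, 0, 0, 203, 160, 0, 150, 184, 0].getD ((v (.inl (.inl 0))).val +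
    2 * (v (.inl (.inl 1))).val + 4 * (v (.inl (.inr 0))).val + 8 * (v (.inl (.inr 1))).val +
    16 * (v (.inr 0)).val + 32 * (v (.inr 1)).val) 0

def p (v : V2) : V3 := Sum.elim (fun _ => (tab v : ZMod 3)) (Sum.elim
  (fun i => ((tab v / 3 ^ (i.1 + 1) : ℕ) : ZMod 3)) fun i => ((tab v / 3 ^ (i.1 + 3) : ℕ) : ZMod 3))

instance : DecidableEq V3 := Fintype.decidablePiFintype
instance : DecidableEq V2 := Fintype.decidablePiFintype

def Q2 (v : V2) : ZMod 2 := quadFormMinus 2 (ZMod 2) 1 1 v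
def Q3 (v : V3) : ZMod 3 := quadFormOdd 2 (ZMod 3) v
def Gd (v : V2) : Prop := Q2 v = 0 ∧ v ≠ 0
instance (v : V2) : Decidable (Gd v) := inferInstanceAs (Decidable (_ ∧ _))
def Γ (l m : V2) : ZMod 3 := if l = m then -1 else if Q2 (l + m) - Q2 l - Q2 m = 0 then 1 else 0
def l0 : V2 := Pi.single (.inl (.inl 0)) 1

theorem gram : ∀ l, Gd l → ∀ m, Gd m →
    Q3 (p l + p m) - Q3 (p l) - Q3 (p m) = Γ l m - Γ l l0 - Γ l0 m - 1 := by decide +kernel

theorem span : ∀ x : V3, (∀ l, Gd l → Q3 (p l + x) - Q3 (p l) - Q3 x = 0) → x = 0 := by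
  decide +kernel

theorem inj : ∀ l, Gd l → ∀ m, Gd m → p l = p m → l = m := by decide +kernel

set_option synthInstance.maxSize 1000 in
theorem transl : ∀ k, Gd k → (∀ l, Gd l → ∃ m, Gd m ∧ p m = p l + p k) → k = l0 := by
  decide +kernel

theorem l0_gd : Gd l0 ∧ p l0 = 0 := by decide +kernel

theorem exists_hom : ∃ φ : (ofQuad (qMinus 2 (ZMod 2) 1 1)).O →* (ofQuad (qOdd 2 (ZMod 3))).O,
    Function.Injective φ := by
  have hG : ∀ (g : (ofQuad (qMinus 2 (ZMod 2) 1 1)).O) l, Gd (g • l) ↔ Gd l := fun g l =>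
    and_congr (by rw [show Q2 (g • l) = Q2 l from O_Q _ g l]) (smul_ne_zero_iff_ne g)
  have hΓ : ∀ (g : (ofQuad (qMinus 2 (ZMod 2) 1 1)).O) l m, Γ (g • l) (g • m) = Γ l m :=
    fun g l m => by
      simp only [Γ, smul_left_cancel_iff,
        show Q2 (g • l + g • m) - Q2 (g • l) - Q2 (g • m) = Q2 (l + m) - Q2 l - Q2 m from O_B _ g l m]
  have h1 : ∀ l, Gd l → ∀ m, Gd m → (ofQuad (qOdd 2 (ZMod 3))).B (p l) (p m) =
    Γ l m - Γ l l0 - Γ l0 m - 1 := gram
  obtain ⟨φ, hφ⟩ := exists_hom_of_gram (G := (ofQuad (qMinus 2 (ZMod 2) 1 1)).O)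
    (qOdd_nondeg (by decide) 2) (by decide)
    (fun x : V2 × V2 => if Gd x.1 ∧ Gd x.2 then p x.1 - p x.2 else 0)
    (fun x hx => span x fun l hl => by simpa only [hl, l0_gd, and_self, if_true, sub_zero] using! hx (l, l0)) fun g i j => by
      simp only [Prod.smul_fst, Prod.smul_snd, hG]
      split_ifs with a b
      · simp only [map_sub, LinearMap.sub_apply, h1 _ a.1 _ b.1, h1 _ a.1 _ b.2, h1 _ a.2 _ b.1,
          h1 _ a.2 _ b.2, h1 _ ((hG g _).2 a.1) _ ((hG g _).2 b.1),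
          h1 _ ((hG g _).2 a.1) _ ((hG g _).2 b.2), h1 _ ((hG g _).2 a.2) _ ((hG g _).2 b.1),
          h1 _ ((hG g _).2 a.2) _ ((hG g _).2 b.2), hΓ]
        ring
      all_goals simp only [map_zero, LinearMap.zero_apply]
  refine ⟨φ, (injective_iff_map_eq_one _).2 fun g hg => ?_⟩
  have h2 : ∀ l, Gd l → p (g • l) = p l + p (g • l0) := fun l hl => by
    have := hφ g (l, l0)
    simp only [hg, Prod.smul_fst, Prod.smul_snd, hG, hl, l0_gd, and_self, if_true, sub_zero] at this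
    exact (eq_add_of_sub_eq this.symm)
  have h3 := transl _ ((hG g _).2 l0_gd.1) fun l hl => ⟨_, (hG g _).2 hl, h2 l hl⟩
  have h4 : ∀ l, Gd l → g • l = l := fun l hl =>
    inj _ ((hG g _).2 hl) _ hl (by rw [h2 l hl, h3, l0_gd.2, add_zero])
  obtain ⟨a, ha⟩ := scalar_of_fix_pt_quad (qMinus_nondeg 2 aniso_two) rfl (by simp) g
    (Pt.ind fun u hu h0 => by rw [smul_pt]; congr 1; exact h4 u ⟨hu.2, h0⟩)
  have h5 := norm_eq_one_of_scalar (qMinus_nondeg 2 aniso_two) g ha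
  obtain rfl : a = 1 := (by decide : ∀ a : ZMod 2, a * a = 1 → a = 1) a h5
  exact O_ext _ fun x => by rw [ha, one_smul]; rfl

theorem key : Nonempty (POmega (ZMod 2) (quadFormMinus 2 (ZMod 2) 1 1) ≃*
    POmega (ZMod 3) (quadFormOdd 2 (ZMod 3))) := by
  obtain ⟨φ, hφ⟩ := exists_hom
  have h1 := (commutator (ofQuad (qMinus 2 (ZMod 2) 1 1)).O).index_mul_card
  have h2 := (commutator (ofQuad (qOdd 2 (ZMod 3))).O).index_mul_card
  rw [index_commutator_of_sq (qMinus_nondeg 2 aniso_two) rfl (genHyp_qMinus 2 aniso_two)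
    (by decide), card_O_qMinus 2 aniso_two] at h1
  rw [index_commutator_odd (qOdd_nondeg (by decide) 2) rfl (by decide) (by simp),
    (nsing_card_O_quad_odd 2 _ (qOdd_nondeg (by decide) 2) (by simp)).2] at h2
  simp only [ZMod.card, Finset.prod_range_succ, Finset.prod_range_zero] at h1 h2
  have : Finite (commutator (ofQuad (qOdd 2 (ZMod 3))).O) := Nat.finite_of_card_ne_zero (by omega)
  obtain ⟨e⟩ := equiv_of_injective_of_card ⟨(φ.comp (Subgroup.subtype _)).codRestrict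
    (commutator (ofQuad (qOdd 2 (ZMod 3))).O) fun x : commutator _ =>
      (Subgroup.map_commutator ⊤ ⊤ φ).le.trans (Subgroup.commutator_mono le_top le_top)
        ⟨x, x.2, rfl⟩, fun x y h => Subtype.ext (hφ (congrArg Subtype.val h))⟩ (by omega)
  exact ⟨(pOmegaEquiv (qMinus 2 _ 1 1)).trans ((quotCenterCongr e).trans
    (pOmegaEquiv (qOdd 2 _)).symm)⟩

/-- PSU_4(2) ≅ PSp_4(3): with |F| = 4 and |K| = 3, the projective special unitary group of the standard Hermitian form on F^4 is isomorphic to PSp_4(K). -/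
theorem result {F K : Type*} [Field F] [Fintype F] [Field K] [Fintype K] (hF : Fintype.card F = 4) (hK : Fintype.card K = 3) : Nonempty (Cfsg.PSU 4 F 2 ≃* Cfsg.PSp 2 K) := by
  obtain ⟨j⟩ := nonempty_ringHom_of_card_eq_pow (F := ZMod 2) (n := 2) two_ne_zero hF
  letI := j.toAlgebra
  obtain ⟨e1⟩ := pomega_minus_six (F := ZMod 2) (K := F) hF aniso_two
  obtain ⟨e2⟩ := key
  obtain ⟨e3⟩ := pomega_five (F := K) (by rw [hK]; decide)
  exact ⟨e1.symm.trans (e2.trans ((pOmegaCongr (zmodEquiv hK) (quadFormOdd_comp _ 2)).symm.trans e3))⟩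

end Cfsg.Agent.S0822
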