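import Cfsg.Statements.S0375
import Cfsg.Agent.Lead.St24

set_option autoImplicit false
open Cfsg

namespace Cfsg.Agent.S0375
open Lead.St H27 Finset
open scoped symmDiff


/-- A doubly even self-dual binary code of length 24 with no words of weight 4 is equivalent to the length-24 code built from the squares modulo 23. -/
theorem result (C : Submodule (ZMod 2) (Fin 24 → ZMod 2)) (hdim : Module.finrank (ZMod 2) C = 12) (horth : ∀ v ∈ C, ∀ w ∈ C, ∑ i, v i * w i = 0) (h4 : ∀ w ∈ C, 4 ∣ hammingNorm w) (hno4 : ∀ w ∈ C, hammingNorm w ≠ 4) : ∃ e : Fin 24 ≃ Cfsg.GolayPt, ∀ w : Cfsg.GolayPt → ZMod 2, w ∈ Cfsg.golayCode ↔ (fun i => w (e i)) ∈ C := by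
  have hG := gol_of (by simp) C hdim fun w hw h0 => by
    obtain ⟨k, hk⟩ := h4 w hw
    have := hno4 w hw
    have h1 : hammingNorm w ≠ 0 := by rwa [Ne, hammingNorm_eq_zero]
    omega
  obtain ⟨ℓ, h⟩ := gol24 (by simp) hG.steiner
  have hX : XX 24 = ∅ := by decide +kernel
  have sd : ∀ b c : Finset (Fin 24), ext le_rfl ℓ (b ∆ c) = ext le_rfl ℓ b ∆ ext le_rfl ℓ c := fun b c =>
    ext_eq (by rw [hX]; exact empty_subset _) fun a => by simp only [mem_symmDiff, phi_mem_ext]
  have e0 : ext le_rfl ℓ (∅ : Finset (Fin 24)) = ∅ := by simp [Lead.St.ext, hX]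
  have h1 := hG.ind (fun c => ext le_rfl ℓ c ∈ GC) (by simp only [e0]; exact empty_mem_GC)
    fun c _ o ho h8 hc => by simp only [sd]; exact symmDiff_mem_GC hc ((h o).1 ⟨ho, h8⟩).1
  have h2 := golGC.ind (fun w => ∀ c, ext le_rfl ℓ c = w → c ∈ supports (C : Set (Fin 24 → ZMod 2)))
    (fun c e => by rw [ext_inj _ _ (e.trans e0.symm)]; exact hG.emp)
    fun w _ o ho h8 hw c e => by
      obtain ⟨o', rfl⟩ := exists_ext le_rfl ℓ (w := o) (by rw [hX]; exact empty_subset _)
      have := hG.sd _ (hw (c ∆ o') (by rw [sd, e]; simp)) _ ((h o').2 ⟨ho, h8⟩).1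
      simpa using this
  refine ⟨ℓ.trans l24.symm, fun w => ?_⟩
  have e : ext le_rfl ℓ (support₂ fun i => w ((ℓ.trans l24.symm) i)) = support₂ w :=
    ext_eq (by rw [hX]; exact empty_subset _) fun a => by
      simp only [support₂, mem_filter, mem_univ, true_and]; rfl
  rw [← SetLike.mem_coe, ← mem_supports, ← SetLike.mem_coe (p := C), ← mem_supports]
  exact ⟨fun hw => h2 _ hw _ e, fun hw => e ▸ h1 _ hw⟩

end Cfsg.Agent.S0375
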