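import Cfsg.Statements.S1635
import Cfsg.Agent.Lead.St2
import Cfsg.Agent.S0358
import Cfsg.Agent.S0359

set_option autoImplicit false
open Cfsg

namespace Cfsg.Agent.S1635

/-- Coset leaders of the length-24 code: a coset contains a unique word of weight ≤ 3, or else exactly six words of weight 4 and none lighter. -/
theorem result (w : Cfsg.GolayPt → ZMod 2) : ({v : Cfsg.GolayPt → ZMod 2 | hammingNorm v ≤ 4 ∧ w - v ∈ Cfsg.golayCode}.ncard = 1 ∧ ∃ v : Cfsg.GolayPt → ZMod 2, hammingNorm v ≤ 3 ∧ w - v ∈ Cfsg.golayCode) ∨ ({v : Cfsg.GolayPt → ZMod 2 | hammingNorm v ≤ 4 ∧ w - v ∈ Cfsg.golayCode}.ncard = 6 ∧ ∀ v : Cfsg.GolayPt → ZMod 2, w - v ∈ Cfsg.golayCode → hammingNorm v ≤ 4 → hammingNorm v = 4) := by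
  have hmin : ∀ w ∈ golayCode, w ≠ 0 → 8 ≤ hammingNorm w := fun w hw h0 => by
    have := Cfsg.Agent.S0359.result w hw
    have h1 : hammingNorm w ≠ 0 := by rwa [Ne, hammingNorm_eq_zero]
    omega
  have e : {v : Cfsg.GolayPt → ZMod 2 | hammingNorm v ≤ 4 ∧ w - v ∈ Cfsg.golayCode} =
      {u : Cfsg.GolayPt → ZMod 2 | u - w ∈ golayCode ∧ hammingNorm u ≤ 4} := by
    ext v
    simp only [Set.mem_setOf_eq]
    rw [and_comm, sub_mem_comm_iff]
  rw [e]
  rcases Lead.St.words_coset (by simp) golayCode Cfsg.Agent.S0358.result hmin w with ⟨u, hu, h3⟩ | ⟨h6, h4⟩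
  · left
    refine ⟨by rw [hu]; simp, u, h3, ?_⟩
    have : u ∈ {u : Cfsg.GolayPt → ZMod 2 | u - w ∈ golayCode ∧ hammingNorm u ≤ 4} := by rw [hu]; rfl
    exact sub_mem_comm_iff.1 this.1
  · right
    exact ⟨h6, fun v hv h => (h4 v ⟨sub_mem_comm_iff.1 hv, h⟩).1⟩

end Cfsg.Agent.S1635
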