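import Cfsg.Statements.S0414
import Cfsg.Agent.Lead.St6
import Cfsg.Agent.S0378
import Cfsg.Agent.S0379

set_option autoImplicit false
open Cfsg

namespace Cfsg.Agent.S0414
open Lead.St H27 MulAction
open scoped Pointwise


/-- Aut of an S(3, 6, 22) has order 887040, is 3-transitive, and contains a simple subgroup of index 2. -/
theorem result {α : Type*} [Fintype α] [DecidableEq α] (hα : Fintype.card α = 22) {B : Set (Finset α)} (hB : Cfsg.IsSteinerSystem 3 6 B) : Nat.card (Cfsg.setSystemAut B) = 887040 ∧ MulAction.IsMultiplyPretransitive (Cfsg.setSystemAut B) α 3 ∧ ∃ H : Subgroup (Cfsg.setSystemAut B), H.index = 2 ∧ Cfsg.IsM22 H := by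
  obtain ⟨ℓ, h⟩ := gol22 hα hB
  have hne : GE.e 22 ≠ GE.e 23 := by decide +kernel
  have hX := XX22
  generalize GE.e 22 = P at hne hX
  generalize GE.e 23 = Q at hne hX
  have hX2 : (XX 22).card = 2 := by rw [hX, Finset.card_pair hne]
  obtain ⟨e, -⟩ := aut_ext h hB (by rw [hX2]) (by norm_num) (by norm_num) (surj22 h)
  have hle : stabilizer MM P ⊓ stabilizer MM Q ≤ stabilizer MM (XX 22) := by
    rintro g ⟨h1, h2⟩
    rw [mem_stabilizer_iff, hX, Finset.smul_finset_insert, Finset.smul_finset_singleton,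
      mem_stabilizer_iff.1 h1, mem_stabilizer_iff.1 h2]
  have cases : ∀ g : MM, g ∈ stabilizer MM (XX 22) → (g • P = P ∧ g • Q = Q) ∨ (g • P = Q ∧ g • Q = P) := by
    intro g hg
    have h1 : g • P ∈ XX 22 := by
      rw [← mem_stabilizer_iff.1 hg, Finset.smul_mem_smul_finset_iff, hX]; simp
    have h2 : g • Q ∈ XX 22 := by
      rw [← mem_stabilizer_iff.1 hg, Finset.smul_mem_smul_finset_iff, hX]; simp
    have h3 : g • P ≠ g • Q := fun e => hne (smul_left_cancel g e)
    rw [hX, Finset.mem_insert, Finset.mem_singleton] at h1 h2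
    rcases h1 with h1 | h1 <;> rcases h2 with h2 | h2
    · exact absurd (h1.trans h2.symm) h3
    · exact Or.inl ⟨h1, h2⟩
    · exact Or.inr ⟨h1, h2⟩
    · exact absurd (h1.trans h2.symm) h3
  have hi : ((stabilizer MM P ⊓ stabilizer MM Q).subgroupOf (stabilizer MM (XX 22))).index = 2 := by
    obtain ⟨a, ha⟩ := exists_smul_list (l := [P, Q]) (l' := [Q, P]) (by simpa using hne) (by simpa using hne.symm)
      rfl (by simp)
    simp only [List.map_cons, List.map_nil, List.cons.injEq, and_true] at ha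
    rw [Subgroup.index_eq_two_iff]
    refine ⟨⟨a, ?_⟩, fun b => ?_⟩
    · rw [mem_stabilizer_iff, hX, Finset.smul_finset_insert, Finset.smul_finset_singleton, ha.1, ha.2,
        Finset.pair_comm]
    · simp only [Subgroup.mem_subgroupOf, Subgroup.mem_inf, mem_stabilizer_iff, Subgroup.coe_mul, mul_smul,
        ha.1, ha.2]
      rcases cases b b.2 with ⟨h1, h2⟩ | ⟨h1, h2⟩ <;> simp [h1, h2, hne, hne.symm]
  have e3 := Subgroup.subgroupOfEquivOfLe hle
  have e4 := (e.subgroupMap ((stabilizer MM P ⊓ stabilizer MM Q).subgroupOf (stabilizer MM (XX 22)))).symm.trans e3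
  have hs := S0379.result P Q hne
  have hc := S0378.result P Q hne
  refine ⟨?_, trans_ext h hB (by rw [hX2]) (by norm_num), _, ?_, e4.isSimpleGroup,
    (Nat.card_congr e4.toEquiv).trans hc⟩
  · rw [← Nat.card_congr e.toEquiv, ← Subgroup.card_mul_index ((stabilizer MM P ⊓ stabilizer MM Q).subgroupOf
      (stabilizer MM (XX 22))), hi, Nat.card_congr e3.toEquiv, hc]
  · rw [← hi]; exact Subgroup.index_map_equiv _ e

end Cfsg.Agent.S0414
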