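import Cfsg.Statements.S0010
import Cfsg.Agent.H1.Fitting

set_option autoImplicit false
open Cfsg

namespace Cfsg.Agent.S0010

/-- The largest normal p-subgroup of a finite group is the intersection of all its Sylow p-subgroups. -/
theorem result {G : Type*} [Group G] [Finite G] (p : ℕ) [Fact p.Prime] :
    Cfsg.pCore p G = ⨅ P : Sylow p G, (P : Subgroup G) := by
  refine le_antisymm (le_iInf fun P => H1.pCore_le_sylow P) ?_
  obtain ⟨P⟩ : Nonempty (Sylow p G) := inferInstance
  rw [H1.pCore_eq_normalCore_sylow P]
  intro x hx g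
  have := (Subgroup.mem_iInf.1 hx) (g⁻¹ • P)
  rw [Sylow.coe_subgroup_smul, H1.mem_conj_smul_iff] at this
  simpa using this

end Cfsg.Agent.S0010
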