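import Cfsg.Statements.S0015
import Cfsg.Agent.H9.Basic

set_option autoImplicit false
open Cfsg

namespace Cfsg.Agent.S0015

/-- In a finite nilpotent group, an abelian normal subgroup that is maximal among abelian normal subgroups equals its own centralizer. -/
theorem result {G : Type*} [Group G] [Finite G] [Group.IsNilpotent G]
    (N : Subgroup G) [N.Normal] [IsMulCommutative N]
    (hmax : ∀ M : Subgroup G, M.Normal → IsMulCommutative M → N ≤ M → M = N) :
    Subgroup.centralizer (N : Set G) = N := by
  refine le_antisymm ?_ (Subgroup.le_centralizer_iff_isMulCommutative.2 inferInstance)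
  by_contra h
  obtain ⟨x, hx, hxN, h1⟩ := H9.exists_not_mem_commutator_mem (H := ⊤)
    (Subgroup.le_normalizer_of_normal (H := Subgroup.centralizer (N : Set G))) h
  have h2 : (N ⊔ Subgroup.zpowers x).Normal := by
    refine H9.normal_of_commutator_le (N := N) ?_ le_sup_left
    rw [H9.commutator_le_iff_le_centMod]
    refine sup_le (H9.le_centMod _ _) ((Subgroup.zpowers_le).2 ?_)
    exact H9.mem_centMod.2 fun s hs => h1 s hs
  exact hxN (hmax _ h2 (H9.isMulCommutative_sup_zpowers inferInstance hx) le_sup_left ▸
    Subgroup.mem_sup_right (Subgroup.mem_zpowers x))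

end Cfsg.Agent.S0015
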