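import Cfsg.Statements.S0018
import Cfsg.Agent.H1.PSolv

set_option autoImplicit false
open Cfsg

namespace Cfsg.Agent.S0018

/-- A finite solvable group whose Sylow p-subgroups are abelian has p-length one: a Sylow p-subgroup together with the largest normal subgroup of order prime to p generates a normal subgroup. -/
theorem result {G : Type*} [Group G] [Finite G] [Group.IsSolvable G]
    (p : ℕ) [Fact p.Prime] (P : Sylow p G) (hP : IsMulCommutative P) :
    ((P : Subgroup G) ⊔ Cfsg.pPrimeCore p G).Normal := by
  have h := H1.isPSolvable_of_isSolvable p (G := G) inferInstance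
  have h1 : (P : Subgroup G) ≤ Cfsg.pPrimePCore p G :=
    (Subgroup.le_centralizer_iff_isMulCommutative.2 hP).trans (H1.IsPSolvable.centralizer_sylow_le h P)
  have h2 : Cfsg.IsPiHallOf {p} (P : Subgroup G) (Cfsg.pPrimePCore p G) :=
    H1.isPiHallOf_singleton_iff.2 ⟨h1, P.isPGroup', fun hd => P.not_dvd_index
      (hd.trans (Subgroup.relIndex_dvd_index_of_le h1))⟩
  rw [H1.sylowOf_sup_pPrimeCore h2]
  infer_instance

end Cfsg.Agent.S0018
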