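import Cfsg.Statements.S0020
import Cfsg.Agent.H1.SysNorm

set_option autoImplicit false
open Pointwise
open Cfsg

namespace Cfsg.Agent.S0020

/-- A finite solvable group admits a Sylow system: Sylow subgroups, one for each prime, that pairwise permute as sets. -/
theorem result {G : Type*} [Group G] [Finite G] [Group.IsSolvable G] :
    ∃ S : (p : Nat.Primes) → Sylow (p : ℕ) G,
      ∀ p q : Nat.Primes, (S p : Set G) * (S q : Set G) = (S q : Set G) * (S p : Set G) := by
  obtain ⟨K, hK⟩ := H1.exists_cs (H := (⊤ : Subgroup G)) inferInstance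
  have h : ∀ p : Nat.Primes, ∃ S : Sylow (p : ℕ) G, (S : Subgroup G) = H1.sysHall K ⊤ {(p : ℕ)} :=
    fun p => by
      have := Fact.mk p.2
      obtain ⟨-, h1, h2⟩ := H1.isPiHallOf_singleton_iff.1 (hK.isPiHallOf_sysHall {(p : ℕ)})
      exact ⟨h1.toSylow (by simpa using h2), rfl⟩
  choose S hS using h
  refine ⟨S, fun p q => ?_⟩
  have := (hK.isProd_sysHall {(p : ℕ)} {(q : ℕ)}).mul_comm
  rwa [← hS, ← hS] at this

end Cfsg.Agent.S0020
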