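import Cfsg.Statements.S0032
import Cfsg.Agent.H2.Norm

set_option autoImplicit false
open Cfsg

namespace Cfsg.Agent.S0032

/-- If an automorphism of a finite group fixes only the identity and maps a normal subgroup N into itself, then the only cosets of N it fixes are those in N: a fixed coset xN forces x ∈ N. -/
theorem result {G : Type*} [Group G] [Finite G] (φ : G ≃* G)
    (hφ : MonoidHom.FixedPointFree (φ : G →* G)) (N : Subgroup G) [N.Normal] (hN : ∀ n ∈ N, φ n ∈ N)
    (x : G) (hx : (φ x)⁻¹ * x ∈ N) : x ∈ N := by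
  have hx' : x⁻¹ * φ x ∈ N := by simpa using N.inv_mem hx
  obtain ⟨n, hn, h⟩ := H2.fpf_surj (φ : G →* G) N hN (fun n _ h => hφ n h) hx'
  have h' : n⁻¹ * φ n = x⁻¹ * φ x := h
  have : n * x⁻¹ = 1 := by
    apply hφ
    show φ (n * x⁻¹) = _
    rw [map_mul, map_inv]
    calc φ n * (φ x)⁻¹ = n * (n⁻¹ * φ n) * (φ x)⁻¹ := by group
      _ = n * x⁻¹ := by rw [h']; group
  rw [← mul_inv_eq_one.1 this]; exact hn

end Cfsg.Agent.S0032
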