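import Cfsg.Statements.S0036
import Cfsg.Agent.H2.Frob

set_option autoImplicit false
open Cfsg

namespace Cfsg.Agent.S0036

open Pointwise in
theorem aux {G : Type*} [Group G] [Finite G] (H : Subgroup G) (hH : Cfsg.IsFrobeniusComplement H)
    (t : G) (ht : t ∈ H) (ht1 : t ≠ 1) (ht2 : t * t = 1) :
    (∀ g : G, g ∉ H → t * (g * t * g⁻¹) ∈ Cfsg.frobeniusKernel H) ∧
    ∀ k ∈ Cfsg.frobeniusKernel H, ∃ g : G, k = t * (g * t * g⁻¹) := by
  classical
  have hti : t⁻¹ = t := inv_eq_of_mul_eq_one_right ht2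
  -- the elements `t * t ^ g` exhaust the kernel
  have hmem : ∀ g : G, g ∉ H → t * (g * t * g⁻¹) ∈ Cfsg.frobeniusKernel H := by
    intro g hg
    rw [H2.mem_frobKernel_iff]
    by_cases h1 : t * (g * t * g⁻¹) = 1
    · exact Or.inl h1
    right
    intro a ha
    set s := g * t * g⁻¹ with hs
    have hss : s * s = 1 := by
      calc s * s = g * (t * t) * g⁻¹ := by rw [hs]; group
        _ = 1 := by rw [ht2]; group
    have e1 : a⁻¹ * (t * a) ∈ H := by
      refine H2.frob_mem_two hH h1 ha ?_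
      have : (t * a)⁻¹ * (t * s) * (t * a) = (a⁻¹ * (t * s) * a)⁻¹ := by
        have hsi : s⁻¹ = s := inv_eq_of_mul_eq_one_right hss
        simp only [mul_inv_rev, hsi, hti, inv_inv, mul_assoc]
        rw [← mul_assoc t t, ht2, one_mul]
      rw [this]; exact H.inv_mem ha
    have e2 : a⁻¹ * s * a ∈ H := by
      have : a⁻¹ * s * a = (a⁻¹ * (t * a))⁻¹ * (a⁻¹ * (t * s) * a) := by group
      rw [this]; exact H.mul_mem (H.inv_mem e1) ha
    have e3 : a ∈ H := H2.frob_mem hH ht ht1 (by simpa [mul_assoc] using e1)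
    have e4 : g * t * g⁻¹ ∈ H := by
      have : s = a * (a⁻¹ * s * a) * a⁻¹ := by group
      rw [← hs, this]; exact H.mul_mem (H.mul_mem e3 e2) (H.inv_mem e3)
    exact hg (H2.frob_mem' hH ht ht1 e4)
  let f : G ⧸ H → Cfsg.frobeniusKernel H := fun q =>
    if h : q.out ∈ H then ⟨1, H2.one_mem_frobKernel H⟩ else ⟨_, hmem q.out h⟩
  have hne : ∀ g : G, g ∉ H → t * (g * t * g⁻¹) ≠ 1 := by
    intro g hg h
    apply hg
    refine H2.frob_mem' hH ht ht1 ?_
    rw [← inv_eq_of_mul_eq_one_right h]; exact H.inv_mem ht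
  have hf : Function.Injective f := by
    intro q q' h
    have hq : q.out⁻¹ * q'.out ∈ H := by
      by_cases h1 : q.out ∈ H <;> by_cases h2 : q'.out ∈ H
      · exact H.mul_mem (H.inv_mem h1) h2
      · simp only [f, dif_pos h1, dif_neg h2, Subtype.mk.injEq] at h
        exact absurd h.symm (hne _ h2)
      · simp only [f, dif_neg h1, dif_pos h2, Subtype.mk.injEq] at h
        exact absurd h (hne _ h1)
      · simp only [f, dif_neg h1, dif_neg h2, Subtype.mk.injEq, mul_right_inj] at h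
        refine H2.frob_mem_two hH (x := q.out * t * q.out⁻¹) (by simpa using ht1)
          (by simpa [mul_assoc] using ht) ?_
        rw [h]; simpa [mul_assoc] using ht
    rw [← q.out_eq', ← q'.out_eq']
    exact QuotientGroup.eq.2 hq
  have hb : Function.Bijective f :=
    hf.bijective_of_nat_card_le (by rw [H2.card_frobKernel hH, Subgroup.index])
  refine ⟨hmem, fun k hk => ?_⟩
  obtain ⟨q, hq⟩ := hb.2 ⟨k, hk⟩
  by_cases h1 : q.out ∈ H
  · simp only [f, dif_pos h1, Subtype.mk.injEq] at hq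
    exact ⟨1, by rw [← hq]; simpa using ht2.symm⟩
  · simp only [f, dif_neg h1, Subtype.mk.injEq] at hq
    exact ⟨_, hq.symm⟩

/-- When a Frobenius complement contains an involution, an elementary argument shows the Frobenius kernel is closed under multiplication (hence a subgroup). -/
theorem result {G : Type*} [Group G] [Finite G] (H : Subgroup G) (hH : Cfsg.IsFrobeniusComplement H)
    (t : G) (ht : t ∈ H) (ht1 : t ≠ 1) (ht2 : t * t = 1) :
    ∀ x ∈ Cfsg.frobeniusKernel H, ∀ y ∈ Cfsg.frobeniusKernel H, x * y ∈ Cfsg.frobeniusKernel H := by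
  have hti : t⁻¹ = t := inv_eq_of_mul_eq_one_right ht2
  obtain ⟨h1, h2⟩ := aux H hH t ht ht1 ht2
  have hinv : ∀ k ∈ Cfsg.frobeniusKernel H, t * k * t⁻¹ = k⁻¹ := by
    intro k hk
    obtain ⟨g, rfl⟩ := h2 k hk
    simp only [mul_inv_rev, hti, inv_inv, ← mul_assoc, ht2, one_mul]
  have h3 : ∀ g : G, t * (g * t * g⁻¹) ∈ Cfsg.frobeniusKernel H := by
    intro g
    by_cases hg : g ∈ H
    · suffices t * (g * t * g⁻¹) = 1 by rw [this]; exact H2.one_mem_frobKernel H
      by_contra hne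
      obtain ⟨k, hk, hk1⟩ := H2.exists_ne_one_mem_frobKernel hH
      have hu : t * (g * t * g⁻¹) ∈ H := H.mul_mem ht (H.mul_mem (H.mul_mem hg ht) (H.inv_mem hg))
      have e1 := hinv _ (H2.frobKernel_inv_mem H hk)
      have e2 := hinv _ (H2.frobKernel_conj_mem H hk g⁻¹)
      have hc : t * (g * t * g⁻¹) * k * (t * (g * t * g⁻¹))⁻¹ = k := by
        calc t * (g * t * g⁻¹) * k * (t * (g * t * g⁻¹))⁻¹
            = t * (g * (t * (g⁻¹ * k * g⁻¹⁻¹) * t⁻¹) * g⁻¹) * t⁻¹ := by group
          _ = t * k⁻¹ * t⁻¹ := by rw [e2]; group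
          _ = k := by rw [e1, inv_inv]
      have hkH : k ∈ H := H2.frob_mem hH hu hne (by
        rw [mul_inv_eq_iff_eq_mul] at hc
        rw [mul_assoc, hc]; simpa using hu)
      exact hk1 (H2.eq_one_of_mem_frobKernel hk 1 (by simpa using hkH))
    · exact h1 g hg
  intro x hx y hy
  obtain ⟨a, ha⟩ := h2 _ (H2.frobKernel_inv_mem H hx)
  obtain ⟨b, rfl⟩ := h2 _ hy
  have hx' : x = a * t * a⁻¹ * t := by
    rw [← inv_inv x, ha]; simp only [mul_inv_rev, hti, inv_inv, mul_assoc]
  have := H2.frobKernel_conj_mem H (h3 (a⁻¹ * b)) a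
  convert this using 1
  rw [hx']
  calc a * t * a⁻¹ * t * (t * (b * t * b⁻¹)) = a * t * a⁻¹ * (t * t) * (b * t * b⁻¹) := by group
    _ = _ := by rw [ht2]; group

end Cfsg.Agent.S0036
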