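import Cfsg.Statements.S0037
import Cfsg.Agent.H2.Frob

set_option autoImplicit false
open Pointwise
open Cfsg

namespace Cfsg.Agent.S0037

/-- Of two Frobenius complements in one finite group, the one of smaller (or equal) order is conjugate to a subgroup of the other. -/
theorem result {G : Type*} [Group G] [Finite G] (H H₀ : Subgroup G)
    (hH : Cfsg.IsFrobeniusComplement H) (hH₀ : Cfsg.IsFrobeniusComplement H₀) (hle : Nat.card H₀ ≤ Nat.card H) :
    ∃ g : G, MulAut.conj g • H₀ ≤ H := by
  suffices h : ∃ g : G, H₀ ≤ MulAut.conj g • H by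
    obtain ⟨g, hg⟩ := h
    refine ⟨g⁻¹, fun x hx => ?_⟩
    rw [H2.mem_conj_smul_iff] at hx
    have := hg hx
    rw [H2.mem_conj_smul_iff] at this
    simpa [mul_assoc] using this
  apply H2.le_conj_of_inter_frobKernel hH
  intro y hy hyK
  by_contra hy1
  -- the map `q ↦ q.out * y * q.out⁻¹` is injective on `G ⧸ H₀`
  let f : G ⧸ H₀ → (Cfsg.frobeniusKernel H \ {1} : Set G) := fun q =>
    ⟨q.out * y * q.out⁻¹, H2.frobKernel_conj_mem H hyK _, by simpa using hy1⟩
  have hf : Function.Injective f := by
    intro q q' h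
    have h' : q.out * y * q.out⁻¹ = q'.out * y * q'.out⁻¹ := congrArg Subtype.val h
    have : q.out⁻¹ * q'.out ∈ H₀ := by
      refine H2.frob_mem_two hH₀ (x := q.out * y * q.out⁻¹) (by simpa using hy1)
        (by simpa [mul_assoc] using hy) ?_
      rw [h']; simpa [mul_assoc] using hy
    rw [← q.out_eq', ← q'.out_eq']
    exact QuotientGroup.eq.2 this
  have h1 := Nat.card_le_card_of_injective f hf
  rw [Nat.card_coe_set_eq, Set.ncard_sdiff_singleton_of_mem (H2.one_mem_frobKernel H),
    ← Nat.card_coe_set_eq, H2.card_frobKernel hH, ← Subgroup.index] at h1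
  have h2 := H.index_mul_card
  have h3 := H₀.index_mul_card
  have h4 := H2.two_le_index_of_ne_top hH.2.1
  have h5 : H₀.index < H.index := by omega
  have h6 : 0 < Nat.card H := Nat.card_pos
  have h7 : H₀.index * Nat.card H₀ ≤ H₀.index * Nat.card H := Nat.mul_le_mul_left _ hle
  have h8 : H₀.index * Nat.card H < H.index * Nat.card H := Nat.mul_lt_mul_of_pos_right h5 h6
  omega

end Cfsg.Agent.S0037
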