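import Cfsg.Statements.S0038
import Cfsg.Agent.H2.Frob
import Cfsg.Agent.S0035
import Cfsg.Agent.S0037
import Cfsg.Agent.S0039
import Cfsg.Agent.S0069

set_option autoImplicit false
open Pointwise
open Cfsg

namespace Cfsg.Agent.S0038

theorem aux {G : Type*} [Group G] [Finite G] (H H₀ : Subgroup G)
    (hH : Cfsg.IsFrobeniusComplement H) (hH₀ : Cfsg.IsFrobeniusComplement H₀) (hle : H₀ ≤ H) :
    H₀ = H := by
  obtain ⟨N, hN, hNn, hc⟩ := Cfsg.Agent.S0035.result H hH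
  have hN1 : N ≠ ⊥ := by
    rintro rfl
    have := hc.sup_eq_top
    rw [bot_sup_eq] at this
    exact hH.2.1 this
  have hZ := Cfsg.Agent.S0069.result N H hc hN1 hH.1
    ((Cfsg.Agent.S0039.result N H hc hN1 hH.1).1 hH)
  obtain ⟨z, hz, hz1⟩ := (Subgroup.center H).bot_or_exists_ne_one.resolve_left hZ
  rw [Subgroup.mem_center_iff] at hz
  obtain ⟨y, hy, hy1⟩ := H₀.bot_or_exists_ne_one.resolve_left hH₀.1
  have hz' : ∀ g ∈ H, g * z = z * g := fun g hg => congrArg Subtype.val (hz ⟨g, hg⟩)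
  have hzH₀ : (z : G) ∈ H₀ := H2.frob_mem' hH₀ hy hy1 (by
    rw [← hz' y (hle hy)]; simpa using hy)
  refine le_antisymm hle fun g hg => H2.frob_mem' hH₀ hzH₀ (fun h => hz1 (Subtype.ext h)) ?_
  rw [hz' g hg]; simpa using hzH₀

/-- All Frobenius complements of a finite group are conjugate to one another. -/
theorem result {G : Type*} [Group G] [Finite G] (H H₀ : Subgroup G)
    (hH : Cfsg.IsFrobeniusComplement H) (hH₀ : Cfsg.IsFrobeniusComplement H₀) :
    ∃ g : G, MulAut.conj g • H₀ = H := by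
  rcases le_total (Nat.card H₀) (Nat.card H) with h | h
  · obtain ⟨g, hg⟩ := Cfsg.Agent.S0037.result H H₀ hH hH₀ h
    exact ⟨g, aux _ _ hH (H2.frob_conj hH₀ g) hg⟩
  · obtain ⟨g, hg⟩ := Cfsg.Agent.S0037.result H₀ H hH₀ hH h
    refine ⟨g⁻¹, ?_⟩
    rw [← aux _ _ hH₀ (H2.frob_conj hH g) hg, smul_smul, ← map_mul]
    simp

end Cfsg.Agent.S0038
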