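import Cfsg.Statements.S0040
import Cfsg.Agent.H2.FrobCompl

set_option autoImplicit false
open Cfsg

namespace Cfsg.Agent.S0040

/-- Sylow subgroups of Frobenius complements: if H complements a nontrivial normal subgroup K and every nonidentity element of H has trivial centraliser in K, then each Sylow subgroup of H is cyclic or isomorphic to a generalized quaternion group. -/
theorem result {G : Type*} [Group G] [Finite G] (K H : Subgroup G) [K.Normal]
    (hc : Subgroup.IsComplement' K H) (hK : K ≠ ⊥) (hfpf : ∀ h ∈ H, h ≠ 1 → K ⊓ Subgroup.centralizer {h} = ⊥)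
    (p : ℕ) [Fact p.Prime] (P : Sylow p H) :
    IsCyclic P ∨ ∃ n : ℕ, Nonempty (P ≃* QuaternionGroup (2 ^ n)) := by
  rcases H2.sylow_cyclic_or_quaternion_of_fpf (P := (P : Subgroup H).map H.subtype) hK
    Subgroup.le_normalizer_of_normal (fun a ha => hfpf a (Subgroup.map_subtype_le _ ha))
    (P.isPGroup'.map _) with h | ⟨rfl, n, ⟨e⟩⟩
  · left
    exact isCyclic_of_surjective _
      ((P : Subgroup H).equivMapOfInjective _ H.subtype_injective).symm.surjective
  · right
    exact ⟨n, ⟨((P : Subgroup H).equivMapOfInjective _ H.subtype_injective).trans e⟩⟩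

end Cfsg.Agent.S0040
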