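import Cfsg.Statements.S0060
import Cfsg.Agent.H1.HallTop

set_option autoImplicit false
open Pointwise
open Cfsg

namespace Cfsg.Agent.S0060

/-- Brodkey's Theorem: in a finite group with abelian Sylow p-subgroups and no nontrivial normal p-subgroup, some conjugate of a Sylow p-subgroup meets it trivially. -/
theorem result {G : Type*} [Group G] [Finite G] (p : ℕ) [Fact p.Prime]
    (S : Sylow p G) (hS : IsMulCommutative S) (hOp : Cfsg.pCore p G = ⊥) :
    ∃ g : G, (S : Subgroup G) ⊓ MulAut.conj g • (S : Subgroup G) = ⊥ := by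
  obtain ⟨D, ⟨g, rfl⟩, -, hmin⟩ := H1.exists_minimal_le
    (fun D : Subgroup G => ∃ g : G, D = (S : Subgroup G) ⊓ MulAut.conj g • (S : Subgroup G)) ⟨1, rfl⟩
  refine ⟨g, ?_⟩
  set D := (S : Subgroup G) ⊓ MulAut.conj g • (S : Subgroup G) with hD
  have hcomm : ∀ {A : Subgroup G}, IsMulCommutative A → D ≤ A → A ≤ Subgroup.normalizer (D : Set G) :=
    fun hA h => ((Subgroup.le_centralizer_iff_isMulCommutative.2 hA).trans
      (Subgroup.centralizer_le h)).trans (Subgroup.centralizer_le_normalizer _)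
  have h1 := hcomm hS inf_le_left
  have h2 := hcomm (A := MulAut.conj g • (S : Subgroup G))
    (by rw [H1.conj_smul_eq_map]; infer_instance) inf_le_right
  have h3 : Cfsg.IsPiHallOf {p} (MulAut.conj g • (S : Subgroup G)) (Subgroup.normalizer (D : Set G)) :=
    H1.isPiHallOf_singleton_iff.2 ⟨h2, H1.isPGroup_conj_smul S.isPGroup' g, fun hd =>
      (g • S).not_dvd_index (hd.trans (Subgroup.relIndex_dvd_index_of_le h2))⟩
  rw [eq_bot_iff, ← hOp, H1.pCore_eq_normalCore_sylow S]
  intro x hx h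
  obtain ⟨k, hk, h4⟩ := H1.exists_conj_le_sylowOf
    (U := MulAut.conj h⁻¹ • (S : Subgroup G) ⊓ Subgroup.normalizer (D : Set G)) inf_le_right
    ((H1.isPGroup_conj_smul S.isPGroup' _).to_le inf_le_left) h3
  have h5 := hmin _ ⟨k * h⁻¹, rfl⟩ (fun y hy => Subgroup.mem_inf.2 ⟨hy.1, h4 (by
    rw [H1.mem_conj_smul_iff]
    refine Subgroup.mem_inf.2 ⟨?_, mul_mem (mul_mem (inv_mem hk) (h1 hy.1)) hk⟩
    have := H1.mem_conj_smul_iff.1 (Subgroup.mem_inf.1 hy).2
    rw [H1.mem_conj_smul_iff]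
    simpa [mul_assoc] using this)⟩)
  have h6 := H1.conj_mem_of_mem_normalizer hk hx
  rw [← h5] at h6
  have := H1.mem_conj_smul_iff.1 (Subgroup.mem_inf.1 h6).2
  simpa [mul_assoc] using this

end Cfsg.Agent.S0060
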