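import Cfsg.Statements.S0061
import Cfsg.Agent.H17.Central

set_option autoImplicit false
open Cfsg

namespace Cfsg.Agent.S0061

/-- A finite group whose order is a prime power times a prime is solvable. -/
theorem result {G : Type*} [Group G] [Finite G] (p q m : ℕ) (hp : p.Prime) (hq : q.Prime)
    (hG : Nat.card G = p ^ m * q) : Group.IsSolvable G := by
  refine H17.isSolvable_of_two_primes hp hq fun r hr h => ?_
  rw [hG] at h
  exact (hr.dvd_mul.1 h).imp (fun h => (Nat.prime_dvd_prime_iff_eq hr hp).1 (hr.dvd_of_dvd_pow h))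
    (Nat.prime_dvd_prime_iff_eq hr hq).1

end Cfsg.Agent.S0061
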