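import Cfsg.Statements.S0063
import Cfsg.Agent.H7.PGrp2
import Cfsg.Agent.H1.Basic

set_option autoImplicit false
open Cfsg

namespace Cfsg.Agent.S0063

universe u

theorem aux (p : ℕ) [hp : Fact p.Prime] (m : ℕ) : ∀ (G : Type u) [Group G] [Finite G],
    Nat.card G = p ^ m → 1 < m → Group.nilpotencyClass G ≤ m - 1 := by
  induction m using Nat.strong_induction_on with
  | _ m ih =>
  intro G _ _ hG hm
  have hP : IsPGroup p G := IsPGroup.of_card hG
  have := hP.isNilpotent
  by_cases hc : IsMulCommutative G
  · have : Group.nilpotencyClass G ≤ 1 := by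
      rw [← Subgroup.upperCentralSeries_eq_top_iff_nilpotencyClass_le,
        Subgroup.upperCentralSeries_one]
      exact Subgroup.center_eq_top_iff.2 hc
    omega
  · have h1 := H7.sq_le_index_center hP hc
    obtain ⟨j, hj⟩ := IsPGroup.iff_card.1 (hP.to_quotient (Subgroup.center G))
    have hnt : Nontrivial G := by
      by_contra h
      rw [not_nontrivial_iff_subsingleton] at h
      exact hc ⟨⟨fun _ _ => Subsingleton.elim _ _⟩⟩
    have h2 := H1.card_quotient_lt ((Subgroup.nontrivial_iff_ne_bot _).1 hP.center_nontrivial)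
    rw [hj, hG, Nat.pow_lt_pow_iff_right hp.out.one_lt] at h2
    rw [Subgroup.index_eq_card, hj, Nat.pow_le_pow_iff_right hp.out.one_lt] at h1
    have h3 := ih j h2 _ hj (by omega)
    rw [Group.nilpotencyClass_quotient_center] at h3
    omega

/-- A finite group of prime-power order p ^ m with m > 1 is nilpotent of class at most m - 1. -/
theorem result {G : Type*} [Group G] [Finite G] (p m : ℕ) [Fact p.Prime]
    (hG : Nat.card G = p ^ m) (hm : 1 < m) : Group.nilpotencyClass G ≤ m - 1 := by
  exact aux p m G hG hm

end Cfsg.Agent.S0063
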