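import Cfsg.Statements.S0073
import Cfsg.Agent.H3.Transfer2

set_option autoImplicit false
open Cfsg

namespace Cfsg.Agent.S0073

/-- For a finite non-abelian simple group, either the cube of the least prime divisor of the order divides the order, or 12 does. -/
theorem result {G : Type*} [Group G] [Finite G] [IsSimpleGroup G] (hG : ∃ x y : G, x * y ≠ y * x) : (Nat.card G).minFac ^ 3 ∣ Nat.card G ∨ 12 ∣ Nat.card G := by
  obtain ⟨x, y, hxy⟩ := hG
  have hp : (Nat.card G).minFac.Prime := Nat.minFac_prime Finite.one_lt_card.ne'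
  have hpd := Nat.minFac_dvd (Nat.card G)
  have hmin : ∀ q, q.Prime → q ∣ Nat.card G → (Nat.card G).minFac ≤ q :=
    fun q hq hd => Nat.minFac_le_of_dvd hq.two_le hd
  generalize (Nat.card G).minFac = p at hp hpd hmin
  have := Fact.mk hp
  by_contra hcon
  push Not at hcon
  have hn : Cfsg.HasNormalPComplement p G := by
    refine H3.hasNormalPComplement_of_not_dvd fun q hq hqp hd m hm h1 h2 => ?_
    have hlt : p < q := lt_of_le_of_ne (hmin q hq hd) hqp.symm
    have h2' := hp.two_le
    have hm3 : m < 3 := by
      by_contra h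
      exact hcon.1 ((pow_dvd_pow p (not_lt.mp h)).trans h1)
    have hnd : ¬ q ∣ p - 1 := fun h => by
      have := Nat.le_of_dvd (by omega) h
      omega
    interval_cases m
    · exact hnd (by simpa using h2)
    · rw [show p ^ 2 - 1 = (p + 1) * (p - 1) by simpa using Nat.sq_sub_sq p 1] at h2
      rcases hq.dvd_mul.mp h2 with h | h
      · have h3 := Nat.le_of_dvd (by omega) h
        have h4 : q = p + 1 := by omega
        have h5 : p = 2 := by
          by_contra h6
          obtain ⟨j, hj⟩ := hp.odd_of_ne_two h6
          have := hq.eq_two_or_odd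
          omega
        subst h5 h4
        exact hcon.2 (Nat.Coprime.mul_dvd_of_dvd_of_dvd (by norm_num : Nat.Coprime 4 3) h1 hd)
      · exact hnd h
  rcases (H3.pResidual_normal (p := p) (G := G)).eq_bot_or_eq_top with h | h
  · have h1 := (H3.pResidual_eq_bot_iff.mp h).isNilpotent
    rcases (inferInstance : (Subgroup.center G).Normal).eq_bot_or_eq_top with h2 | h2
    · exact Group.IsNilpotent.center_ne_bot G h2
    · exact hxy (Subgroup.mem_center_iff.mp (h2 ▸ Subgroup.mem_top y) x)
  · have h1 := H3.hasNormalPComplement_iff_coprime.mp hn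
    rw [h, Subgroup.card_top] at h1
    exact hp.ne_one (Nat.eq_one_of_dvd_coprimes h1 hpd dvd_rfl)

end Cfsg.Agent.S0073
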