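import Cfsg.Statements.S0078
import Cfsg.Agent.H3.Transfer

set_option autoImplicit false
open Cfsg

namespace Cfsg.Agent.S0078

/-- In a p-normal group, a Sylow p-subgroup P meets O^p(G) exactly where it meets O^p(V), for any subgroup V containing the normalizer of the centre of P. -/
theorem result {G : Type*} [Group G] [Finite G] {p : ℕ} [Fact p.Prime] (P : Sylow p G) (hn : ∀ Q : Sylow p G, (P : Subgroup G) ⊓ Subgroup.centralizer (P : Set G) ≤ (Q : Subgroup G) → (Q : Subgroup G) ⊓ Subgroup.centralizer (Q : Set G) = (P : Subgroup G) ⊓ Subgroup.centralizer (P : Set G)) (V : Subgroup G) (hV : Subgroup.normalizer (((P : Subgroup G) ⊓ Subgroup.centralizer (P : Set G) : Subgroup G) : Set G) ≤ V) : (P : Subgroup G) ⊓ Cfsg.pResidual p G = (P : Subgroup G) ⊓ (Cfsg.pResidual p V).map V.subtype := by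
  set Z : Subgroup G := (P : Subgroup G) ⊓ Subgroup.centralizer (P : Set G) with hZ
  have hW : Cfsg.IsWeaklyClosed Z P := by
    refine ⟨inf_le_left, fun g hg => ?_⟩
    have h1 : Z ≤ ((g⁻¹ • P : Sylow p G) : Subgroup G) := fun x hx =>
      H3.mem_smul_sylow.mpr (by simpa using hg ⟨x, hx, rfl⟩)
    have h2 := hn _ h1
    have h3 : ((g⁻¹ • P : Sylow p G) : Subgroup G) ⊓
        Subgroup.centralizer ((g⁻¹ • P : Sylow p G) : Set G) =
        Z.map (MulAut.conj g⁻¹).toMonoidHom := by
      rw [hZ, H3.map_conj_inf, ← P.coe_coe, ← H3.centralizer_map_conj]; rfl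
    rw [h3] at h2
    exact H3.map_conj_eq_iff.mpr (by simpa using H3.map_conj_eq_iff.mp h2)
  have hPN : (P : Subgroup G) ≤ Subgroup.normalizer (Z : Set G) :=
    fun x hx => Subgroup.centralizer_le_normalizer _ fun z hz => (hz.2 x hx).symm
  refine H3.inf_pResidual_eq_of_fusion P (hPN.trans hV) fun x hx g hg => ?_
  obtain ⟨v, hv, h⟩ := H3.fusion_of_weaklyClosed_central P inf_le_right hW x hx g hg
  exact ⟨v, hV hv, h⟩

end Cfsg.Agent.S0078
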