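import Cfsg.Statements.S0079
import Cfsg.Agent.H3.Transfer

set_option autoImplicit false
open Cfsg

namespace Cfsg.Agent.S0079

/-- A nilpotent Hall subgroup has a normal complement exactly when elements of it that are conjugate in the whole group are already conjugate inside it. -/
theorem result {G : Type*} [Group G] [Finite G] (H : Subgroup G) (hH : Group.IsNilpotent H) (hHall : Nat.Coprime (Nat.card H) H.index) : (∃ N : Subgroup G, N.Normal ∧ N.IsComplement' H) ↔ ∀ x ∈ H, ∀ y ∈ H, (∃ g : G, g * x * g⁻¹ = y) → ∃ h ∈ H, h * x * h⁻¹ = y := by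
  constructor
  · rintro ⟨N, hN, h⟩ x hx y hy ⟨g, rfl⟩
    obtain ⟨n, hn, u, hu, rfl⟩ := H3.exists_mul_of_sup_eq_top h.sup_eq_top g
    refine ⟨u, hu, ?_⟩
    have hy' : u * x * u⁻¹ ∈ H := H.mul_mem (H.mul_mem hu hx) (H.inv_mem hu)
    have h3 : n * u * x * (n * u)⁻¹ * (u * x * u⁻¹)⁻¹ ∈ N := by
      have := N.mul_mem hn (hN.conj_mem _ (N.inv_mem hn) (u * x * u⁻¹))
      simpa [mul_assoc] using this
    exact (mul_inv_eq_one.mp (Subgroup.disjoint_def.mp h.disjoint h3
      (H.mul_mem hy (H.inv_mem hy')))).symm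
  · intro h
    refine H3.exists_normal_complement_of_forall_prime hHall fun q hq hd => ?_
    have := Fact.mk hq
    obtain ⟨P, hP⟩ := H3.exists_sylow_le_of_not_dvd_index (p := q) (H := H)
      fun h2 => hq.ne_one (Nat.eq_one_of_dvd_coprimes hHall hd h2)
    refine H3.hasNormalPComplement_of_fusion_subgroup P hP (fun x hx g hg => ?_)
      (H3.hasNormalPComplement_of_isNilpotent H)
    obtain ⟨v, hv, hv'⟩ := h x (hP hx) _ (hP hg) ⟨g, rfl⟩
    exact ⟨v, hv, hv'.symm⟩

end Cfsg.Agent.S0079
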