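import Cfsg.Statements.S0083
import Cfsg.Agent.H3.Transfer

set_option autoImplicit false
open Cfsg

namespace Cfsg.Agent.S0083

/-- For an abelian Sylow p-subgroup P, a normal p-complement exists exactly when the normalizer of P is an internal direct product of P with some subgroup. -/
theorem result {G : Type*} [Group G] [Finite G] {p : ℕ} [Fact p.Prime] (P : Sylow p G) (hP : IsMulCommutative P) : Cfsg.HasNormalPComplement p G ↔ ∃ Q : Subgroup G, Q ≤ Subgroup.centralizer (P : Set G) ∧ Q ⊓ (P : Subgroup G) = ⊥ ∧ Q ⊔ (P : Subgroup G) = Subgroup.normalizer (P : Set G) := by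
  constructor
  · intro h
    refine ⟨Cfsg.pResidual p G ⊓ Subgroup.normalizer (P : Set G), fun x hx => ?_, ?_, ?_⟩
    · exact H3.mem_centralizer_of_hasNormalPComplement h P.2 hx.2
        (H3.hasNormalPComplement_iff_forall_mem.mp h x hx.1)
    · exact disjoint_iff.mp (((H3.hasNormalPComplement_iff_disjoint P).mp h).mono_left inf_le_left)
    · refine le_antisymm (sup_le inf_le_right Subgroup.le_normalizer) fun g hg => ?_
      obtain ⟨n, hn, u, hu, rfl⟩ := H3.exists_mul_of_sup_eq_top (H3.pResidual_sup_sylow P) g
      exact Subgroup.mul_mem_sup ⟨hn, (Subgroup.mul_mem_cancel_right _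
        (Subgroup.le_normalizer hu)).mp hg⟩ hu
  · rintro ⟨Q, h1, -, h3⟩
    refine H3.hasNormalPComplement_of_normalizer_le_centralizer P ?_
    rw [← h3]
    exact sup_le h1 (P : Subgroup G).le_centralizer

end Cfsg.Agent.S0083
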