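import Cfsg.Statements.S0085
import Cfsg.Agent.H3.Transfer2
import Mathlib.Tactic.NormNum.Prime

set_option autoImplicit false
open Cfsg

namespace Cfsg.Agent.S0085

/-- A group whose Sylow 2-subgroups are elementary abelian of order 8 and whose order is prime to 3 and to 7 has a normal 2-complement. -/
theorem result {G : Type*} [Group G] [Finite G] (T : Sylow 2 G) (h8 : Nat.card T = 8) (he : ∀ x : T, x * x = 1) (h3 : ¬ 3 ∣ Nat.card G) (h7 : ¬ 7 ∣ Nat.card G) : Cfsg.HasNormalPComplement 2 G := by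
  refine H3.hasNormalPComplement_of_not_dvd fun q hq _ hd m hm h1 h2 => ?_
  have h4 := T.pow_dvd_card_of_pow_dvd_card h1
  rw [h8, show 8 = 2 ^ 3 from rfl, Nat.pow_dvd_pow_iff_le_right one_lt_two] at h4
  interval_cases m
  · exact hq.ne_one (by simpa using h2)
  · exact h3 (((Nat.prime_dvd_prime_iff_eq hq Nat.prime_three).mp h2) ▸ hd)
  · exact h7 (((Nat.prime_dvd_prime_iff_eq hq (by norm_num : Nat.Prime 7)).mp h2) ▸ hd)

end Cfsg.Agent.S0085
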