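import Cfsg.Statements.S0581
import Cfsg.Agent.H3.Reduce

set_option autoImplicit false
open Pointwise
open Cfsg

namespace Cfsg.Agent.S0581

/-- Let H be a nilpotent subgroup of a finite group G whose order is coprime to its index, and K a subgroup every prime divisor of whose order divides the order of H. Then K lies in some conjugate of H. -/
theorem result {G : Type*} [Group G] [Finite G] (H K : Subgroup G) (hH : Group.IsNilpotent H) (hHall : (Nat.card H).Coprime H.index) (hK : ∀ p : ℕ, p.Prime → p ∣ Nat.card K → p ∣ Nat.card H) : ∃ x : G, K ≤ MulAut.conj x • H := by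
  open Subgroup H3 in
  induction hn : Nat.card K using Nat.strong_induction_on generalizing K with
  | _ n ih =>
  subst hn
  by_cases hb : K = ⊥
  · exact ⟨1, hb ▸ bot_le⟩
  have ih' : ∀ L : Subgroup K, L ≠ ⊤ → ∃ x : G, L.map K.subtype ≤ MulAut.conj x • H := by
    intro L hL
    have hc : Nat.card (L.map K.subtype) = Nat.card L := card_map_of_injective K.subtype_injective
    refine ih _ (hc ▸ H1.card_lt_card_of_ne_top hL) _ (fun p hp hd => hK p hp ?_) rfl
    exact hd.trans (card_dvd_of_le (map_subtype_le L))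
  have hq : ∃ q : ℕ, q.Prime ∧ q ∣ Nat.card K ∧ Cfsg.HasNormalPComplement q K := by
    obtain ⟨p, hp, hpK⟩ := H1.exists_prime_dvd_card hb
    have := Fact.mk hp
    by_cases h1 : Cfsg.HasNormalPComplement p K
    · exact ⟨p, hp, hpK, h1⟩
    obtain ⟨hP, q, hq, hqp, hqK, g, k, hg, htop, -⟩ := ito_structure h1 (fun L hL => by
      obtain ⟨x, hx⟩ := ih' L hL
      have h2 := H1.isNilpotent_of_le (H1.isNilpotent_conj_smul hH x) hx
      exact (hasNormalPComplement_congr (L.equivMapOfInjective _ K.subtype_injective)).mpr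
        (hasNormalPComplement_of_isNilpotent _)) default
    have := Fact.mk hq
    exact ⟨q, hq, hqK, hasNormalPComplement_of_normal
      (H1.IsPGroup.coprime_card (default : Sylow p K).2 (n := q)
        ((Nat.coprime_primes hq hp).mpr hqp)) (isPGroup_quotient_of_sup_zpowers hg htop)⟩
  obtain ⟨q, hq, hqK, hc⟩ := hq
  have := Fact.mk hq
  have hcop := hasNormalPComplement_iff_coprime.mp hc
  obtain ⟨x, hx⟩ := ih' (Cfsg.pResidual q K) (fun h => by
    rw [h, card_top] at hcop
    exact hq.one_lt.ne' (Nat.eq_one_of_dvd_coprimes hcop hqK dvd_rfl))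
  set K₁ := (Cfsg.pResidual q K).map K.subtype with hK₁
  have hidx : ¬ q ∣ (MulAut.conj x • H).index := by
    rw [H1.conj_smul_eq_map, index_map_of_bijective (MulAut.conj x).bijective]
    intro hd
    exact hq.one_lt.ne' (Nat.eq_one_of_dvd_coprimes hHall (hK q hq hqK) hd)
  obtain ⟨Q, hQ⟩ := exists_sylow_le_of_not_dvd_index hidx
  have hQK : (Q : Subgroup G) ≤ normalizer (K₁ : Set G) := by
    refine (H1.le_centralizer_of_coprime_of_isNilpotent (H1.isNilpotent_conj_smul hH x) hQ hx
      (H1.IsPGroup.coprime_card Q.2 ?_)).trans (centralizer_le_normalizer _)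
    rwa [hK₁, card_map_of_injective K.subtype_injective]
  have hKN : K ≤ normalizer (K₁ : Set G) := H1.le_normalizer_map_subtype_iff.mpr inferInstance
  let T : Sylow q K := default
  obtain ⟨h, hh, hT⟩ := exists_conj_le_of_sylowIn Q.2 (sylow_not_dvd_relIndex Q hQK)
    (T.2.map K.subtype) ((map_subtype_le _).trans hKN)
  refine ⟨h * x, fun k hk => ?_⟩
  obtain ⟨a, ha, t, ht, hat⟩ := exists_mul_of_sup_eq_top (pResidual_sup_sylow T) ⟨k, hk⟩
  have hk' : k = a * t := (congrArg Subtype.val hat).symm
  rw [← H1.conj_smul_conj_smul, H1.mem_conj_smul_iff, hk']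
  have h1 : h⁻¹ * (a : G) * h ∈ MulAut.conj x • H :=
    hx (conj_mem_of_mem_normalizer' hh (mem_map_of_mem _ ha))
  have h2 : h⁻¹ * (t : G) * h ∈ MulAut.conj x • H := hQ (hT _ (mem_map_of_mem _ ht))
  have := mul_mem h1 h2
  convert this using 1
  group

end Cfsg.Agent.S0581
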