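import Cfsg.Statements.S0087
import Cfsg.Agent.H3.Reduce
import Cfsg.Agent.S0581

set_option autoImplicit false
open Cfsg

namespace Cfsg.Agent.S0087

/-- A Hall subgroup that is central in its normalizer has a normal complement. -/
theorem result {G : Type*} [Group G] [Finite G] (H : Subgroup G) (hHall : Nat.Coprime (Nat.card H) H.index) (h : Subgroup.normalizer (H : Set G) ≤ Subgroup.centralizer (H : Set G)) : ∃ N : Subgroup G, N.Normal ∧ N.IsComplement' H := by
  open Subgroup H3 in
  open scoped Pointwise in
  have hHc : H ≤ centralizer (H : Set G) := le_normalizer.trans h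
  have hab : IsMulCommutative H := H1.isMulCommutative_iff'.mpr fun a ha b hb => hHc hb a ha
  refine exists_normal_complement_of_forall_prime hHall fun q hq hqH => ?_
  have := Fact.mk hq
  obtain ⟨P, hP⟩ := exists_sylow_le_of_not_dvd_index (p := q) (H := H) fun hd =>
    hq.one_lt.ne' (Nat.eq_one_of_dvd_coprimes hHall hqH hd)
  refine hasNormalPComplement_of_normalizer_le_centralizer P fun n hn => ?_
  set C := centralizer (P : Set G) with hC
  have hHC : H ≤ C := hHc.trans (centralizer_le hP)
  have hHC' : H.map (MulAut.conj n).toMonoidHom ≤ C := by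
    intro x hx
    rw [mem_map_conj] at hx
    have := conj_mem_of_mem_normalizer (H1.normalizer_le_normalizer_centralizer _ hn) (hHC hx)
    simpa [mul_assoc] using this
  obtain ⟨c, hc⟩ := Cfsg.Agent.S0581.result (H.subgroupOf C)
    ((H.map (MulAut.conj n).toMonoidHom).subgroupOf C)
    (H1.isNilpotent_subgroupOf (H1.isNilpotent_of_comm hab) C)
    (by
      rw [H1.card_subgroupOf_of_le hHC]
      exact hHall.coprime_dvd_right (relIndex_dvd_index_of_le hHC))
    (fun p _ hd => by
      rwa [H1.card_subgroupOf_of_le hHC', card_map_conj, ← H1.card_subgroupOf_of_le hHC] at hd)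
  have h1 : (c : G)⁻¹ * n ∈ normalizer (H : Set G) := by
    refine mem_normalizer_of_conj_mem fun x hx => ?_
    have h2 : n * x * n⁻¹ ∈ H.map (MulAut.conj n).toMonoidHom := by
      rw [mem_map_conj]; simpa [mul_assoc] using hx
    have h3 := H1.mem_conj_smul_iff.mp (hc (x := ⟨_, hHC' h2⟩) h2)
    have h4 : (c : G)⁻¹ * (n * x * n⁻¹) * c ∈ H := h3
    simpa [mul_assoc] using h4
  have h2 : (c : G)⁻¹ * n ∈ C := centralizer_le hP (h h1)
  simpa using C.mul_mem c.2 h2

end Cfsg.Agent.S0087
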