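import Cfsg.Statements.S0090
import Cfsg.Agent.H3.Transfer2

set_option autoImplicit false
open Cfsg

namespace Cfsg.Agent.S0090

/-- An abelian normal Hall subgroup A splits as the internal direct product of G' ∩ A and Z(G) ∩ A, and [A, G] = G' ∩ A. -/
theorem result {G : Type*} [Group G] [Finite G] (A : Subgroup G) [A.Normal] (hc : IsMulCommutative A) (hHall : Nat.Coprime (Nat.card A) A.index) : ⁅A, (⊤ : Subgroup G)⁆ = commutator G ⊓ A ∧ (commutator G ⊓ A) ⊓ (Subgroup.center G ⊓ A) = ⊥ ∧ (commutator G ⊓ A) ⊔ (Subgroup.center G ⊓ A) = A := by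
  have h1 : ⁅A, (⊤ : Subgroup G)⁆ = commutator G ⊓ A := by
    refine le_antisymm (le_inf (Subgroup.commutator_mono le_top le_top)
      (Subgroup.commutator_le_left _ _)) ?_
    rw [H3.commutator_inf_eq_focal_of_coprime (H3.coprime_card_quotient_focal_of_hall hHall),
      Subgroup.commutator_comm]
    exact H3.focalSubgroup_le_of fun x hx g _ =>
      Subgroup.commutator_mem_commutator (Subgroup.mem_top g) hx
  have h2 := H3.fitting_decomposition (A := A) (H := ⊤) Subgroup.le_normalizer_of_normal (by
    rw [Subgroup.relIndex_top_right]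
    exact hHall.coprime_dvd_right (Subgroup.index_dvd_of_le A.le_centralizer))
  rw [Subgroup.coe_top, Subgroup.centralizer_univ, h1] at h2
  refine ⟨h1, ?_, by rw [inf_comm (Subgroup.center G)]; exact h2.2⟩
  rw [eq_bot_iff, ← h2.1]
  exact inf_le_inf_left _ inf_le_left

end Cfsg.Agent.S0090
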