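import Cfsg.Statements.S0092
import Cfsg.Agent.H10.Cores
import Cfsg.Agent.H3.Transfer
import Cfsg.Agent.H1.Coprime2

set_option autoImplicit false
open Cfsg

namespace Cfsg.Agent.S0092

/-- If the Sylow p-subgroups of O^p(G) are abelian then G splits over O^p(G). -/
theorem result {G : Type*} [Group G] [Finite G] {p : ℕ} [Fact p.Prime] (h : ∀ Q : Sylow p (Cfsg.pResidual p G), IsMulCommutative Q) : ∃ K : Subgroup G, K.IsComplement' (Cfsg.pResidual p G) := by
  set N := Cfsg.pResidual p G with hN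
  obtain ⟨Q₀⟩ : Nonempty (Sylow p N) := inferInstance
  have hc := h Q₀
  set Q : Subgroup G := (Q₀ : Subgroup N).map N.subtype with hQ
  have hQs : H10.IsSylowIn p Q N := H10.isSylowIn_map_subtype Q₀
  have hQc : IsMulCommutative Q := Subgroup.map_isMulCommutative _ _
  set L := N ⊓ Subgroup.normalizer (Q : Set G) with hL
  have h1 : Q = ⁅Q, L⁆ := by
    have := H3.inf_pResidual_eq_of_abelian Q₀
    rw [H3.pResidual_pResidual, inf_top_eq] at this
    have h2 := congrArg (Subgroup.map N.subtype) this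
    rw [Subgroup.map_commutator] at h2
    rw [hL, ← H10.map_NN_subtype]
    exact h2
  have hQL : Q ≤ L := le_inf hQs.le Subgroup.le_normalizer
  have hp : p.Prime := Fact.out
  obtain ⟨k, hk⟩ := hQs.isPGroup.exists_card_eq
  have hco : (Nat.card Q).Coprime (Q.relIndex L) := by
    rw [hk]
    exact Nat.Coprime.pow_left _ ((Nat.Prime.coprime_iff_not_dvd hp).mpr
      (hQs.of_le hQL inf_le_left).not_dvd_relIndex)
  obtain ⟨E, hEL, hQE, hsup, hcard⟩ := H1.schurZassenhaus_exists hQL inf_le_right hco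
  have hEQ : E ≤ Subgroup.normalizer (Q : Set G) := hEL.trans inf_le_right
  have hco' : (Nat.card Q).Coprime (Nat.card E) := hcard ▸ hco
  have h2 : Q ≤ ⁅Q, E⁆ := by
    refine h1.le.trans ?_
    rw [← hsup]
    refine H10.comm_sup_le' (H10.left_le_NN_comm _ _) (H10.right_le_NN_comm _ _) ?_ le_rfl
    rw [H10.comm_eq_bot.mpr (H10.isMulCommutative_iff_le_CC.mp hQc)]
    exact bot_le
  have h3 : Q ⊓ Subgroup.centralizer (E : Set G) = ⊥ := by
    have := H1.inf_centralizer_inf_commutator_eq_bot hEQ hco'.symm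
    rwa [inf_eq_left.mpr (inf_le_left.trans h2)] at this
  set M := Subgroup.normalizer (Q : Set G) ⊓ Subgroup.normalizer (E : Set G) with hM
  obtain ⟨K, hK⟩ := H10.exists_isSylowIn p M
  have hMK : M ≤ N ⊔ K := hK.le_of_resOf_le
    ((H10.resOf_mono le_top).trans (H10.resOf_top.le.trans le_sup_left)) le_sup_right
  refine ⟨K, (H1.isComplement'_of_inf_sup ?_ ?_).symm⟩
  · rw [eq_bot_iff, ← h3, ← H1.inf_normalizer_eq_inf_centralizer hEQ hQE]
    refine le_inf (hQs.le_of_le_NN (hK.isPGroup.to_inf_right) inf_le_left ?_) ?_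
    · exact inf_le_right.trans (hK.le.trans inf_le_left)
    · exact inf_le_right.trans (hK.le.trans inf_le_right)
  · rw [eq_top_iff]
    intro g _
    obtain ⟨a, ha, b, hb, rfl⟩ := hQs.frattini' le_top (H10.le_NN_of_normal ⊤ N)
      (Subgroup.mem_top g)
    have hbL : H10.cj b L = L := H10.cj_eq_of_mem_NN
      (H10.mem_NN_inf (H10.le_NN_of_normal ⊤ N trivial) (Subgroup.le_normalizer hb.2))
    have hbQ : H10.cj b Q = Q := H10.cj_eq_of_mem_NN hb.2
    have hs : Q ⊔ H10.cj b E = Q ⊔ E := by rw [hsup, ← hbL, ← hsup, H10.cj_sup, hbQ]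
    have := hQs.isPGroup.isNilpotent
    obtain ⟨q, hq, hqe⟩ := H1.schurZassenhaus_conj_of_sup_eq (N := Q) (A := H10.cj b E) (B := E)
      ((le_sup_right.trans (hs.trans hsup).le).trans inf_le_right)
      (by rwa [H10.card_cj]) hco' (Or.inl inferInstance) hs
    rw [H10.cj_smul, ← H10.cj_mul] at hqe
    have hqb : q * b ∈ M := ⟨Subgroup.mul_mem _ (Subgroup.le_normalizer hq) hb.2,
      H10.mem_NN.mpr hqe⟩
    have : a * b = (a * q⁻¹) * (q * b) := by group
    rw [this]
    exact Subgroup.mul_mem _ (Subgroup.mem_sup_left (Subgroup.mul_mem _ ha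
      (Subgroup.inv_mem _ (hQs.le hq)))) (hMK hqb)

end Cfsg.Agent.S0092
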