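import Cfsg.Statements.S0097
import Cfsg.Agent.H9.Basic

set_option autoImplicit false
open Cfsg

namespace Cfsg.Agent.S0097

open scoped commutatorElement in
theorem aux {E : Type*} [Group E] [Finite E] {p : ℕ} [hp : Fact p.Prime] (hp2 : p ≠ 2)
    (h : Cfsg.IsExtraspecial p E) : ∃ f : E →* E, (∀ x, f x = x ^ p) ∧
      f.range ≤ Subgroup.center E := by
  obtain ⟨⟨-, -, h2⟩, h3⟩ := h
  have hc : ∀ a b : E, ⁅a, b⁆ ∈ Subgroup.center E := fun a b =>
    h2 ▸ Subgroup.commutator_mem_commutator (Subgroup.mem_top a) (Subgroup.mem_top b)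
  have hz : ∀ z ∈ Subgroup.center E, z ^ p = 1 := fun z hz =>
    congrArg Subtype.val (h3 ▸ pow_card_eq_one' (x := (⟨z, hz⟩ : Subgroup.center E)))
  have hcm : ∀ a b c : E, Commute a ⁅b, c⁆ := fun a b c => Subgroup.mem_center_iff.1 (hc b c) a
  obtain ⟨k, hk⟩ : p ∣ p.choose 2 := hp.out.dvd_choose_self two_ne_zero
    (lt_of_le_of_ne hp.out.two_le (Ne.symm hp2))
  refine ⟨MonoidHom.mk' (fun x => x ^ p) fun a b => ?_, fun _ => rfl, ?_⟩
  · rw [H9.mul_pow_class_two (hcm _ _ _) (hcm _ _ _), hk, pow_mul, hz _ (hc _ _), one_pow, mul_one]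
  · rintro _ ⟨x, rfl⟩
    refine Subgroup.mem_center_iff.2 fun g => ?_
    show g * x ^ p = x ^ p * g
    have h1 : ∀ n : ℕ, g * x ^ n * g⁻¹ = ⁅g, x⁆ ^ n * x ^ n := fun n => by
      rw [← conj_pow, ← (hcm x g x).symm.mul_pow, commutatorElement_def]
      simp
    have := h1 p
    rw [hz _ (hc _ _), one_mul] at this
    exact mul_inv_eq_iff_eq_mul.1 this

/-- For odd p and E extraspecial, the subgroup generated by the elements of order dividing p has exponent dividing p and index at most p. -/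
theorem result {E : Type*} [Group E] [Finite E] {p : ℕ} [Fact p.Prime] (hp : p ≠ 2) (h : Cfsg.IsExtraspecial p E) : (Subgroup.closure {x : E | x ^ p = 1}).index ≤ p ∧ ∀ g ∈ Subgroup.closure {x : E | x ^ p = 1}, g ^ p = 1 := by
  obtain ⟨f, hf, hr⟩ := aux hp h
  have e : Subgroup.closure {x : E | x ^ p = 1} = f.ker := by
    rw [← f.ker.closure_eq]
    congr 1
    ext x
    simp [hf]
  rw [e]
  refine ⟨?_, fun g hg => (hf g).symm.trans hg⟩
  rw [Subgroup.index_ker, ← h.2]
  exact Subgroup.card_le_of_le hr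

end Cfsg.Agent.S0097
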