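import Cfsg.Statements.S0098
import Cfsg.Agent.H3.Extraspecial

set_option autoImplicit false
open Cfsg

namespace Cfsg.Agent.S0098

/-- For odd p, extraspecial p-groups of exponent p are determined up to isomorphism by their order. -/
theorem result {E₁ : Type*} {E₂ : Type*} [Group E₁] [Group E₂] [Finite E₁] [Finite E₂] {p : ℕ} [Fact p.Prime] (hp : p ≠ 2) (h₁ : Cfsg.IsExtraspecial p E₁) (h₂ : Cfsg.IsExtraspecial p E₂) (he₁ : Monoid.exponent E₁ = p) (he₂ : Monoid.exponent E₂ = p) (hc : Nat.card E₁ = Nat.card E₂) : Nonempty (E₁ ≃* E₂) := by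
  obtain ⟨z₁, hz₁, -⟩ := H3.isES_of_isExtraspecial h₁
  obtain ⟨z₂, hz₂, -⟩ := H3.isES_of_isExtraspecial h₂
  obtain ⟨n, x₁, y₁, b₁, c₁⟩ := hz₁.exists_basis
  obtain ⟨m, x₂, y₂, b₂, c₂⟩ := hz₂.exists_basis
  rw [Subgroup.card_top] at c₁ c₂
  have hnm : n = m := by
    have := Nat.pow_right_injective (Fact.out : p.Prime).two_le (c₁.symm.trans (hc.trans c₂))
    omega
  subst hnm
  have e₁ : ∀ g : E₁, g ^ p = 1 := fun g => he₁ ▸ Monoid.pow_exponent_eq_one g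
  have e₂ : ∀ g : E₂, g ^ p = 1 := fun g => he₂ ▸ Monoid.pow_exponent_eq_one g
  exact H3.nonempty_mulEquiv_of_sympBasis hz₁ hz₂ b₁ b₂ c₁ c₂
    (fun i => ⟨0, by simp [e₁, e₂]⟩) (fun i => ⟨0, by simp [e₁, e₂]⟩)

end Cfsg.Agent.S0098
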