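import Cfsg.Statements.S0099
import Cfsg.Agent.H3.Extraspecial

set_option autoImplicit false
open Cfsg

namespace Cfsg.Agent.S0099

theorem aux {E₁ : Type*} {E₂ : Type*} [Group E₁] [Group E₂] [Finite E₁] [Finite E₂] {z₁ : E₁} {z₂ : E₂}
    (h₁ : H3.IsES 2 z₁ ⊤) (h₂ : H3.IsES 2 z₂ ⊤) {n m : ℕ} {x₁ y₁ : Fin n → E₁} {x₂ y₂ : Fin m → E₂}
    (b₁ : H3.IsSympBasis z₁ ⊤ x₁ y₁) (b₂ : H3.IsSympBasis z₂ ⊤ x₂ y₂)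
    (c₁ : Nat.card (⊤ : Subgroup E₁) = 2 ^ (2 * n + 1))
    (c₂ : Nat.card (⊤ : Subgroup E₂) = 2 ^ (2 * m + 1)) (hc : Nat.card E₁ = Nat.card E₂) {ε : ℕ}
    (d₁ : ∀ i : Fin n, x₁ i ^ 2 = z₁ ^ (if i.val + 1 = n then ε else 0) ∧
        y₁ i ^ 2 = z₁ ^ (if i.val + 1 = n then ε else 0))
    (d₂ : ∀ i : Fin m, x₂ i ^ 2 = z₂ ^ (if i.val + 1 = m then ε else 0) ∧
        y₂ i ^ 2 = z₂ ^ (if i.val + 1 = m then ε else 0)) : Nonempty (E₁ ≃* E₂) := by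
  rw [Subgroup.card_top] at c₁ c₂
  have hnm : n = m := by
    have := Nat.pow_right_injective le_rfl (c₁.symm.trans (hc.trans c₂))
    omega
  subst hnm
  exact H3.nonempty_mulEquiv_of_sympBasis h₁ h₂ b₁ b₂ c₁ c₂
    (fun i => ⟨(if i.val + 1 = n then ε else 0 : ℕ), by rw [zpow_natCast, (d₁ i).1],
      by rw [zpow_natCast, (d₂ i).1]⟩)
    (fun i => ⟨(if i.val + 1 = n then ε else 0 : ℕ), by rw [zpow_natCast, (d₁ i).2],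
      by rw [zpow_natCast, (d₂ i).2]⟩)

/-- Among three extraspecial 2-groups of equal order, some two are isomorphic. -/
theorem result {E₁ : Type*} {E₂ : Type*} {E₃ : Type*} [Group E₁] [Group E₂] [Group E₃] [Finite E₁] [Finite E₂] [Finite E₃] (h₁ : Cfsg.IsExtraspecial 2 E₁) (h₂ : Cfsg.IsExtraspecial 2 E₂) (h₃ : Cfsg.IsExtraspecial 2 E₃) (h12 : Nat.card E₁ = Nat.card E₂) (h23 : Nat.card E₂ = Nat.card E₃) : Nonempty (E₁ ≃* E₂) ∨ Nonempty (E₂ ≃* E₃) ∨ Nonempty (E₁ ≃* E₃) := by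
  obtain ⟨z₁, hz₁, -⟩ := H3.isES_of_isExtraspecial h₁
  obtain ⟨z₂, hz₂, -⟩ := H3.isES_of_isExtraspecial h₂
  obtain ⟨z₃, hz₃, -⟩ := H3.isES_of_isExtraspecial h₃
  obtain ⟨n₁, x₁, y₁, ε₁, e₁, b₁, c₁, d₁⟩ := hz₁.exists_basis_two
  obtain ⟨n₂, x₂, y₂, ε₂, e₂, b₂, c₂, d₂⟩ := hz₂.exists_basis_two
  obtain ⟨n₃, x₃, y₃, ε₃, e₃, b₃, c₃, d₃⟩ := hz₃.exists_basis_two
  have : ε₁ = ε₂ ∨ ε₂ = ε₃ ∨ ε₁ = ε₃ := by omega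
  rcases this with h | h | h <;> subst h
  · exact Or.inl (aux hz₁ hz₂ b₁ b₂ c₁ c₂ h12 d₁ d₂)
  · exact Or.inr (Or.inl (aux hz₂ hz₃ b₂ b₃ c₂ c₃ h23 d₂ d₃))
  · exact Or.inr (Or.inr (aux hz₁ hz₃ b₁ b₃ c₁ c₃ (h12.trans h23) d₁ d₃))

end Cfsg.Agent.S0099
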