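import Cfsg.Statements.S0104
import Cfsg.Agent.H3.SylowIn

set_option autoImplicit false
open Cfsg

namespace Cfsg.Agent.S0104

/-- A subgroup Z of a Sylow p-subgroup P that is normalized by N_G(P) is weakly closed in P exactly when it is normal in every Sylow p-subgroup containing it. -/
theorem result {G : Type*} [Group G] [Finite G] {p : ℕ} [Fact p.Prime] (P : Sylow p G) (Z : Subgroup G) (hZP : Z ≤ (P : Subgroup G)) (hZN : Subgroup.normalizer (P : Set G) ≤ Subgroup.normalizer (Z : Set G)) : Cfsg.IsWeaklyClosed Z P ↔ ∀ R : Sylow p G, Z ≤ (R : Subgroup G) → (R : Subgroup G) ≤ Subgroup.normalizer (Z : Set G) := by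
  constructor
  · rintro ⟨-, hW⟩ R hR
    obtain ⟨g, rfl⟩ := MulAction.exists_smul_eq G P R
    have h1 : Z.map (MulAut.conj g⁻¹).toMonoidHom = Z := hW _ fun x hx => by
      have := H3.mem_smul_sylow.mp (hR (H3.mem_map_conj.mp hx))
      simpa [mul_assoc] using this
    have h2 : g⁻¹ ∈ Subgroup.normalizer (Z : Set G) := H3.map_conj_eq_iff.mp h1
    intro x hx
    have h3 := hZN (Subgroup.le_normalizer (H3.mem_smul_sylow.mp hx))
    have := Subgroup.mul_mem _ (Subgroup.mul_mem _ (Subgroup.inv_mem _ h2) h3) h2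
    simpa [mul_assoc] using this
  · intro h
    refine ⟨hZP, fun g hg => ?_⟩
    have h1 : Z ≤ ((g⁻¹ • P : Sylow p G) : Subgroup G) := fun x hx =>
      H3.mem_smul_sylow.mpr (by simpa using hg ⟨x, hx, rfl⟩)
    obtain ⟨c, hc, hc'⟩ := H3.exists_smul_eq_of_le (g⁻¹ • P) P (h _ h1) (h _ hZP)
    have h2 : c * g⁻¹ ∈ Subgroup.normalizer (Z : Set G) :=
      hZN (Sylow.smul_eq_iff_mem_normalizer.mp (by rw [mul_smul, hc']))
    have h3 := Subgroup.mul_mem _ (Subgroup.inv_mem _ h2) hc
    exact H3.map_conj_eq_iff.mpr (by simpa using h3)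

end Cfsg.Agent.S0104
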