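import Cfsg.Statements.S0105
import Cfsg.Agent.H3.Transfer2

set_option autoImplicit false
open Cfsg

namespace Cfsg.Agent.S0105

/-- With an abelian Sylow p-subgroup P, some quotient of G is isomorphic to the part of P central in N_G(P). -/
theorem result {G : Type*} [Group G] [Finite G] {p : ℕ} [Fact p.Prime] (P : Sylow p G) (hP : IsMulCommutative P) : ∃ (N : Subgroup G) (hN : N.Normal), Nonempty (G ⧸ N ≃* ((P : Subgroup G) ⊓ Subgroup.centralizer (Subgroup.normalizer (P : Set G) : Set G) : Subgroup G)) := by
  have h2 := H3.fitting_decomposition (A := (P : Subgroup G)) (H := Subgroup.normalizer (P : Set G))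
    le_rfl (P.card_coprime_index.coprime_dvd_right
      ((Subgroup.relIndex_dvd_of_le_left _ (P : Subgroup G).le_centralizer).trans
        (Subgroup.relIndex_dvd_index_of_le Subgroup.le_normalizer)))
  rw [← H3.inf_pResidual_eq_of_abelian] at h2
  refine ⟨Cfsg.pResidual p G, inferInstance, ⟨Subgroup.IsComplement'.QuotientMulEquiv
    (H3.isComplement'_of_normal ?_ ?_).symm⟩⟩
  · rw [disjoint_iff, ← inf_assoc, inf_comm (Cfsg.pResidual p G), h2.1]
  · rw [eq_top_iff, ← H3.pResidual_sup_sylow P]
    refine sup_le le_sup_left (h2.2.ge.trans ?_)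
    exact sup_le_sup_right inf_le_right _

end Cfsg.Agent.S0105
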