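import Cfsg.Statements.S0110
import Cfsg.Agent.H3.Extraspecial

set_option autoImplicit false
open Cfsg

namespace Cfsg.Agent.S0110

/-- In a p-group G, an extraspecial subgroup E with [G, E] ≤ Z(E) satisfies G = E C_G(E). -/
theorem result {G : Type*} [Group G] [Finite G] {p : ℕ} [Fact p.Prime] (hG : IsPGroup p G) (E : Subgroup G) (hE : Cfsg.IsExtraspecial p E) (h : ⁅(⊤ : Subgroup G), E⁆ ≤ E ⊓ Subgroup.centralizer (E : Set G)) : E ⊔ Subgroup.centralizer (E : Set G) = ⊤ := by
  have hEn : E.Normal := Subgroup.commutator_top_left_le_iff.mp (h.trans inf_le_left)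
  have hZn : (E ⊓ Subgroup.centralizer (E : Set G)).Normal := inferInstance
  have hc : Nat.card (E ⊓ Subgroup.centralizer (E : Set G) : Subgroup G) = p := by
    rw [← hE.2, ← H1.card_subgroupOf_of_le (inf_le_left : _ ≤ E)]
    congr 2
    ext x
    simp [Subgroup.mem_subgroupOf, Subgroup.mem_centralizer_iff, Subgroup.mem_center_iff,
      Subtype.ext_iff]
  obtain ⟨z, hz, hz'⟩ := H3.isES_of_isExtraspecial_subgroup hE
    (H9.le_center_of_card_le_prime hG hc.le)
  rw [eq_top_iff]
  intro g _
  obtain ⟨e, he, he'⟩ := hz.exists_mul_mem_centralizer (g := g) fun a ha => by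
    rw [← hz', ← commutatorElement_inv]
    exact Subgroup.inv_mem _ (h (Subgroup.commutator_mem_commutator (Subgroup.mem_top g) ha))
  rw [sup_comm]
  simpa using Subgroup.mul_mem_sup he' (E.inv_mem he)

end Cfsg.Agent.S0110
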