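import Cfsg.Statements.S0114
import Cfsg.Agent.H6.MaxCl

set_option autoImplicit false
open Cfsg

namespace Cfsg.Agent.S0114

/-- The central quotient of a 2-group of maximal class is dihedral. -/
theorem result {X : Type*} [Group X] [Finite X] (n : ℕ) (hn : 3 ≤ n) (hX : Nat.card X = 2 ^ n) (hc : Group.nilpotencyClass X = n - 1) : Nonempty (X ⧸ Subgroup.center X ≃* DihedralGroup (2 ^ (n - 2))) := by
  obtain ⟨-, hnc, h⟩ := H6.dqs_of_class hn hX hc
  obtain ⟨k, a, b, ha, hi, hb, h1, h2, h3⟩ := H6.dqs_data h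
  have hP := IsPGroup.of_card hX
  haveI := hP.isNilpotent
  haveI : Nontrivial X := Finite.one_lt_card_iff_nontrivial.1 (hX ▸ Nat.one_lt_pow (by omega) one_lt_two)
  have htop := H9.sup_zpowers_eq_top_of_isCoatom (H9.isCoatom_of_index_eq_prime (p := 2) hi) hb
  have hk : n = k + 3 := by
    have := (Subgroup.zpowers a).card_mul_index
    rw [hi, Nat.card_zpowers, ha, hX, ← pow_succ] at this
    exact (Nat.pow_right_injective le_rfl this).symm
  subst hk
  have hz := H9.orderOf_pow_prime_pow (m := k + 1) (i := 1) ha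
  have hZ : Subgroup.center X = Subgroup.zpowers (a ^ 2 ^ (k + 1)) := by
    refine Subgroup.eq_of_le_of_card_ge (fun x hx => h3 x ?_ (Subgroup.mem_center_iff.1 hx b).symm) ?_
    · by_contra hxa
      haveI := Subgroup.normal_of_index_eq_two hi
      obtain ⟨i, hi⟩ := (Subgroup.mul_mem_iff_of_index_two hi (a := x) (b := b⁻¹)).2 (by simp [hxa, hb])
      have hab : Commute a b := by
        have h4 : b = (a ^ i)⁻¹ * x := by rw [show a ^ i = x * b⁻¹ from hi, mul_inv_rev, inv_inv]; group
        rw [h4]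
        exact ((Commute.refl a).zpow_right i).inv_right.mul_right (Subgroup.mem_center_iff.1 hx a)
      have := orderOf_dvd_of_mem_zpowers (h3 a (Subgroup.mem_zpowers a) hab)
      rw [ha, hz, Nat.pow_dvd_pow_iff_le_right one_lt_two] at this
      omega
    · rw [Nat.card_zpowers, hz]
      exact (Subgroup.one_lt_card_iff_ne_bot _).2 (Group.IsNilpotent.center_ne_bot X)
  have hle : Subgroup.center X ≤ Subgroup.zpowers a := hZ ▸ Subgroup.zpowers_le.2 (pow_mem (Subgroup.mem_zpowers a) _)
  refine H6.equiv_dihedral_of_top (a := (a : X ⧸ Subgroup.center X)) (b := b) ?_ ?_ ?_ ?_ ?_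
  · refine orderOf_eq_prime_pow (n := k) (fun h => ?_) ?_
    · rw [← QuotientGroup.mk_pow, QuotientGroup.eq_one_iff, hZ] at h
      have := orderOf_dvd_of_mem_zpowers h
      rw [hz, H9.orderOf_pow_prime_pow (i := 2) ha] at this
      norm_num at this
    · rw [← QuotientGroup.mk_pow, QuotientGroup.eq_one_iff, hZ]; exact Subgroup.mem_zpowers _
  · rw [← QuotientGroup.mk_mul, QuotientGroup.eq_one_iff, hZ]; exact h1
  · rw [eq_inv_iff_mul_eq_one]
    exact (QuotientGroup.eq_one_iff _).2 (hZ ▸ h2)
  · rintro ⟨i, hi⟩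
    have := hle (QuotientGroup.eq.1 (hi : ((a ^ i : X) : X ⧸ Subgroup.center X) = b))
    exact hb ((mul_mem_cancel_left (inv_mem (Subgroup.zpow_mem_zpowers a i))).1 this)
  · have := congrArg (Subgroup.map (QuotientGroup.mk' (Subgroup.center X))) htop
    rw [← H9.closure_pair_eq, MonoidHom.map_closure, Set.image_pair,
      Subgroup.map_top_of_surjective _ (QuotientGroup.mk'_surjective _)] at this
    exact this

end Cfsg.Agent.S0114
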