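import Cfsg.Statements.S0115
import Cfsg.Agent.H6.MaxCl

set_option autoImplicit false
open Cfsg

namespace Cfsg.Agent.S0115

/-- A 2-group of order 2^n, n ≥ 3, is of maximal class exactly when its commutator quotient is a Klein four-group. -/
theorem result {X : Type*} [Group X] [Finite X] (n : ℕ) (hn : 3 ≤ n) (hX : Nat.card X = 2 ^ n) : Group.nilpotencyClass X = n - 1 ↔ IsKleinFour (X ⧸ commutator X) := by
  have hP := IsPGroup.of_card hX
  haveI := hP.isNilpotent
  constructor
  · intro hc
    obtain ⟨h1, h2, -⟩ := H6.dqs_of_class hn hX hc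
    have h3 : ¬ IsCyclic (X ⧸ commutator X) := fun h => h2 (by
      haveI := H9.isCyclic_of_quotient_commutator le_rfl h
      infer_instance)
    have h4 : Nat.card (X ⧸ commutator X) = 2 ^ 2 := by
      obtain ⟨k, hk⟩ := IsPGroup.iff_card.1 (hP.to_quotient (commutator X))
      rw [Subgroup.index_eq_card, hk] at h1
      have : k ≤ 2 := (Nat.pow_le_pow_iff_right one_lt_two).1 h1
      interval_cases k
      · haveI := (Nat.card_eq_one_iff_unique.1 hk).1
        exact absurd isCyclic_of_subsingleton h3
      · exact absurd (isCyclic_of_prime_card (p := 2) hk) h3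
      · exact hk
    exact ⟨h4, (not_isCyclic_iff_exponent_eq_prime Nat.prime_two h4).1 h3⟩
  · intro h
    have h1 : (commutator X).index = 4 := h.card_four
    obtain ⟨k, a, b, ha, hi, -, -, -, h3⟩ := H6.dqs_data (H6.taussky hP h1.le fun hc => by
      rw [← Subgroup.top_lowerCentralSeries_one, Subgroup.lowerCentralSeries_one_eq_bot_iff.2 hc,
        Subgroup.index_bot, hX] at h1
      have := Nat.pow_le_pow_right two_pos hn
      omega)
    obtain ⟨m, rfl⟩ : ∃ m, n = m + 2 := ⟨n - 2, by omega⟩
    exact H6.class_of_card_cent m X b hX (H6.card_cent_le_four ha hi h3)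

end Cfsg.Agent.S0115
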