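import Cfsg.Statements.S0116
import Cfsg.Agent.H3.Alperin

set_option autoImplicit false
open Cfsg

namespace Cfsg.Agent.S0116

open Subgroup in
theorem aux {G : Type*} [Group G] [Finite G] {p : ℕ} [Fact p.Prime] (P : Sylow p G) (A : Set G) (g : G)
    (hA : A ⊆ (P : Set G)) (hAg : ∀ a ∈ A, g⁻¹ * a * g ∈ P) :
    ∃ l : List (Sylow p G × G), (l.map Prod.snd).prod = g ∧
      (∀ e ∈ l, e.2 ∈ normalizer ((((P : Subgroup G) ⊓ (e.1 : Subgroup G)) : Subgroup G) : Set G) ∧
        ¬ p ∣ ((P : Subgroup G) ⊓ normalizer ((((P : Subgroup G) ⊓ (e.1 : Subgroup G)) : Subgroup G) : Set G)).relIndex (normalizer ((((P : Subgroup G) ⊓ (e.1 : Subgroup G)) : Subgroup G) : Set G)) ∧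
        ¬ p ∣ ((e.1 : Subgroup G) ⊓ normalizer ((((P : Subgroup G) ⊓ (e.1 : Subgroup G)) : Subgroup G) : Set G)).relIndex (normalizer ((((P : Subgroup G) ⊓ (e.1 : Subgroup G)) : Subgroup G) : Set G))) ∧
      ∀ (i : ℕ) (h : i < l.length), ∀ a ∈ A, (((l.map Prod.snd).take i).prod)⁻¹ * a *
        ((l.map Prod.snd).take i).prod ∈ (P : Subgroup G) ⊓ (l[i].1 : Subgroup G) := by
  refine H3.alperin_induction P (fun A g => ∃ l : List (Sylow p G × G), (l.map Prod.snd).prod = g ∧
      (∀ e ∈ l, e.2 ∈ normalizer ((((P : Subgroup G) ⊓ (e.1 : Subgroup G)) : Subgroup G) : Set G) ∧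
        ¬ p ∣ ((P : Subgroup G) ⊓ normalizer ((((P : Subgroup G) ⊓ (e.1 : Subgroup G)) : Subgroup G) : Set G)).relIndex (normalizer ((((P : Subgroup G) ⊓ (e.1 : Subgroup G)) : Subgroup G) : Set G)) ∧
        ¬ p ∣ ((e.1 : Subgroup G) ⊓ normalizer ((((P : Subgroup G) ⊓ (e.1 : Subgroup G)) : Subgroup G) : Set G)).relIndex (normalizer ((((P : Subgroup G) ⊓ (e.1 : Subgroup G)) : Subgroup G) : Set G))) ∧
      ∀ (i : ℕ) (h : i < l.length), ∀ a ∈ A, (((l.map Prod.snd).take i).prod)⁻¹ * a *
        ((l.map Prod.snd).take i).prod ∈ (P : Subgroup G) ⊓ (l[i].1 : Subgroup G)) ?_ ?_ ?_ A g hA hAg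
  · rintro A B g hAB ⟨l, h1, h2, h3⟩
    exact ⟨l, h1, h2, fun i h a ha => h3 i h a (hAB ha)⟩
  · rintro A B g h ⟨l, h1, h2, h3⟩ ⟨m, h4, h5, h6⟩ hAB
    refine ⟨l ++ m, by rw [List.map_append, List.prod_append, h1, h4], fun e he => ?_,
      fun i hi a ha => ?_⟩
    · rcases List.mem_append.mp he with he | he
      exacts [h2 e he, h5 e he]
    · by_cases hil : i < l.length
      · rw [List.getElem_append_left hil, List.map_append,
          List.take_append_of_le_length (by simpa using hil.le)]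
        exact h3 i hil a ha
      · push Not at hil
        rw [List.getElem_append_right hil, List.map_append, List.take_append,
          List.take_of_length_le (by simpa using hil), List.prod_append, h1, List.length_map]
        have := h6 (i - l.length) (by rw [List.length_append] at hi; omega) _ (hAB a ha)
        simpa only [mul_inv_rev, mul_assoc] using this
  · intro E n hn hE hi
    refine ⟨[(n • P, n)], by simp, fun e he => ?_, fun i hi a ha => ?_⟩
    · rw [List.mem_singleton] at he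
      subst he
      simp only [← hE]
      refine ⟨hn, hi, ?_⟩
      rw [← H3.relIndex_map_conj _ _ n, H3.map_conj_inf, ← H3.normalizer_map_conj,
        H3.map_conj_eq_iff.mpr hn] at hi
      exact hi
    · have : i = 0 := by simpa using hi
      subst this
      simp only [List.take_zero, List.prod_nil, inv_one, one_mul, mul_one, List.getElem_cons_zero, ← hE]
      exact ha

/-- The Alperin fusion Theorem states that conjugation between subsets of a Sylow p-subgroup P factors through normalizers of tame intersections P ∩ Q_i with other Sylow p-subgroups, carrying the subset along step by step. -/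
theorem result {G : Type*} [Group G] [Finite G] {p : ℕ} [Fact p.Prime] (P : Sylow p G) (A : Set G) (g : G) (hA : A ⊆ (P : Set G)) (hAg : (fun a => g⁻¹ * a * g) '' A ⊆ (P : Set G)) : ∃ (n : ℕ) (Q : Fin n → Sylow p G) (x : Fin n → G), (List.ofFn x).prod = g ∧ (∀ i : Fin n, x i ∈ Subgroup.normalizer ((((P : Subgroup G) ⊓ (Q i : Subgroup G)) : Subgroup G) : Set G) ∧ ¬ p ∣ ((P : Subgroup G) ⊓ Subgroup.normalizer ((((P : Subgroup G) ⊓ (Q i : Subgroup G)) : Subgroup G) : Set G)).relIndex (Subgroup.normalizer ((((P : Subgroup G) ⊓ (Q i : Subgroup G)) : Subgroup G) : Set G)) ∧ ¬ p ∣ ((Q i : Subgroup G) ⊓ Subgroup.normalizer ((((P : Subgroup G) ⊓ (Q i : Subgroup G)) : Subgroup G) : Set G)).relIndex (Subgroup.normalizer ((((P : Subgroup G) ⊓ (Q i : Subgroup G)) : Subgroup G) : Set G))) ∧ (∀ h : 0 < n, A ⊆ (((P : Subgroup G) ⊓ (Q ⟨0, h⟩ : Subgroup G) : Subgroup G) : Set G)) ∧ ∀ i : Fin n, ∀ h : i.val + 1 < n, (fun a => (((List.ofFn x).take (i.val + 1)).prod)⁻¹ * a * ((List.ofFn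 x).take (i.val + 1)).prod) '' A ⊆ (((P : Subgroup G) ⊓ (Q ⟨i.val + 1, h⟩ : Subgroup G) : Subgroup G) : Set G) := by
  obtain ⟨l, h1, h2, h3⟩ := aux P A g hA fun a ha => hAg ⟨a, ha, rfl⟩
  have hx : List.ofFn (fun i : Fin l.length => l[i].2) = l.map Prod.snd := by
    apply List.ext_getElem <;> simp
  refine ⟨l.length, fun i => l[i].1, fun i => l[i].2, by rw [hx, h1],
    fun i => h2 _ (List.getElem_mem _), fun h a ha => ?_, ?_⟩
  · simpa using h3 0 h a ha
  · rintro i h _ ⟨a, ha, rfl⟩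
    rw [hx]
    exact h3 (i + 1) h a ha

end Cfsg.Agent.S0116
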