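import Cfsg.Statements.S0123
import Cfsg.Agent.H9.Regular

set_option autoImplicit false
open Cfsg

namespace Cfsg.Agent.S0123

/-- For a p-group of small class relative to p (class ≤ 2 with p odd, or class ≤ 3 with p > 3) whose derived subgroup is generated by elements of order dividing p, the p-th power map is multiplicative. -/
theorem result {R : Type*} [Group R] [Finite R] {p : ℕ} [Fact p.Prime] (hR : IsPGroup p R) (hcl : (p ≠ 2 ∧ ⁅commutator R, (⊤ : Subgroup R)⁆ = ⊥) ∨ (3 < p ∧ ⁅⁅commutator R, (⊤ : Subgroup R)⁆, (⊤ : Subgroup R)⁆ = ⊥)) (hder : commutator R ≤ Subgroup.closure {x : R | x ^ p = 1}) (x y : R) : (x * y) ^ p = x ^ p * y ^ p := by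
  have hp' : p.Prime := Fact.out
  have hW : H9.WReg p R := by
    apply H9.wreg_of_class_lt hR
    rcases hcl with ⟨h1, h2⟩ | ⟨h1, h2⟩
    · have h3 : 2 ≤ p - 1 := by have := hp'.two_le; omega
      exact le_bot_iff.1 ((Subgroup.lowerCentralSeries_antitone _ h3).trans h2.le)
    · have h3 : 3 ≤ p - 1 := by omega
      exact le_bot_iff.1 ((Subgroup.lowerCentralSeries_antitone _ h3).trans h2.le)
  exact hW.mul_pow_of_exponent (K := ⊤)
    (fun c hc => hW.pow_eq_one_of_mem_closure hR (fun s hs => hs) (hder hc)) trivial trivial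

end Cfsg.Agent.S0123
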