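import Cfsg.Statements.S0125
import Cfsg.Agent.H3.Transfer2

set_option autoImplicit false
open Cfsg

namespace Cfsg.Agent.S0125

/-- The centralizer of a self-centralizing normal subgroup A of a Sylow p-subgroup is the direct product of A with a normal p'-subgroup. -/
theorem result {G : Type*} [Group G] [Finite G] {p : ℕ} [Fact p.Prime] (R : Sylow p G) (A : Subgroup G) (hAR : A ≤ (R : Subgroup G)) (hAn : (R : Subgroup G) ≤ Subgroup.normalizer (A : Set G)) (hC : (R : Subgroup G) ⊓ Subgroup.centralizer (A : Set G) = A) : ∃ H : Subgroup G, H ≤ Subgroup.centralizer (A : Set G) ∧ Nat.Coprime (Nat.card H) p ∧ Subgroup.centralizer (A : Set G) ≤ Subgroup.normalizer (H : Set G) ∧ H ⊓ A = ⊥ ∧ H ⊔ A = Subgroup.centralizer (A : Set G) := by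
  set C := Subgroup.centralizer (A : Set G) with hCdef
  have hAC : A ≤ C := hC ▸ inf_le_right
  have hi : ¬ p ∣ A.relIndex C := by
    have h1 := H3.not_dvd_relIndex_of_normal (R.subtype hAn)
      (C.subgroupOf (Subgroup.normalizer (A : Set G)))
    rw [Sylow.coe_subtype, Subgroup.relIndex_subgroupOf (Subgroup.centralizer_le_normalizer _),
      ← Subgroup.inf_relIndex_right, hC] at h1
    exact h1
  let S : Sylow p C := ((R.2.to_le hAR).comap_subtype (K := C)).toSylow hi
  have hp : Cfsg.HasNormalPComplement p C :=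
    H3.hasNormalPComplement_of_normalizer_le_centralizer S fun n _ x hx =>
      Subtype.ext (n.2 x hx)
  have h1 := H3.hasNormalPComplement_iff_coprime.mp hp
  have hc : Nat.card ((Cfsg.pResidual p C).map C.subtype) = Nat.card (Cfsg.pResidual p C) :=
    Subgroup.card_map_of_injective C.subtype_injective
  refine ⟨(Cfsg.pResidual p C).map C.subtype, Subgroup.map_subtype_le _, hc ▸ h1, ?_, ?_, ?_⟩
  · rw [Subgroup.le_normalizer_iff]
    rintro c hc _ ⟨x, hx, rfl⟩
    exact ⟨_, H3.pResidual_normal.conj_mem x hx ⟨c, hc⟩, rfl⟩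
  · obtain ⟨k, hk⟩ := (R.2.to_le hAR).exists_card_eq
    exact (H3.disjoint_of_coprime_card (by rw [hc, hk]; exact h1.pow_right k)).eq_bot
  · have h2 := congrArg (Subgroup.map C.subtype) (H3.pResidual_sup_sylow S)
    rwa [Subgroup.map_sup, ← MonoidHom.range_eq_map, Subgroup.range_subtype,
      show (S : Subgroup C).map C.subtype = A from Subgroup.map_subgroupOf_eq_of_le hAC] at h2

end Cfsg.Agent.S0125
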