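import Cfsg.Statements.S0131
import Cfsg.Agent.H3.Transfer

set_option autoImplicit false
open Cfsg

namespace Cfsg.Agent.S0131

/-- P/P' has a normal complement in G exactly when the focal subgroup G' ∩ P is as small as possible, namely P'. -/
theorem result {G : Type*} [Group G] [Finite G] {p : ℕ} [Fact p.Prime] (P : Sylow p G) : (∃ N : Subgroup G, N.Normal ∧ N ⊓ (P : Subgroup G) = ⁅(P : Subgroup G), (P : Subgroup G)⁆ ∧ N ⊔ (P : Subgroup G) = ⊤) ↔ commutator G ⊓ (P : Subgroup G) = ⁅(P : Subgroup G), (P : Subgroup G)⁆ := by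
  constructor
  · rintro ⟨N, hN, h1, h2⟩
    refine le_antisymm ?_ (le_inf (Subgroup.commutator_mono le_top le_top)
      (Subgroup.commutator_le_self _))
    rw [← h1]
    exact inf_le_inf_right _ (H3.commutator_le_of_sup_eq_top h2 (h1 ▸ inf_le_left))
  · intro h
    have h1 := H3.coprime_card_quotient_focal_of_hall P.card_coprime_index
    refine ⟨_, inferInstance, ?_, H3.ker_transferFocal_sup_of_coprime h1⟩
    rw [H3.ker_transferFocal_inf_of_coprime h1, ← H3.commutator_inf_eq_focal_of_coprime h1, h]

end Cfsg.Agent.S0131
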