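import Cfsg.Statements.S0132
import Cfsg.Agent.H3.Transfer2

set_option autoImplicit false
open Cfsg

namespace Cfsg.Agent.S0132

/-- A minimal non-p-nilpotent finite group is a minimal non-nilpotent group with a normal Sylow p-subgroup. -/
theorem result {G : Type*} [Group G] [Finite G] {p : ℕ} [Fact p.Prime] (h1 : ¬ Cfsg.HasNormalPComplement p G) (h2 : ∀ H : Subgroup G, H ≠ ⊤ → Cfsg.HasNormalPComplement p H) : (∀ H : Subgroup G, H ≠ ⊤ → Group.IsNilpotent H) ∧ ¬ Group.IsNilpotent G ∧ ∀ P : Sylow p G, (P : Subgroup G).Normal := by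
  refine ⟨fun H hH => ?_, fun h => h1 (H3.hasNormalPComplement_of_isNilpotent G),
    fun P => (H3.ito_structure h1 h2 P).1⟩
  obtain ⟨hn, q, hq, -, -, g, k, hk, htop, -⟩ := H3.ito_structure h1 h2 default
  refine H3.isNilpotent_of_forall_hasNormalPComplement fun r hr _ => ?_
  by_cases hrp : r = p
  · subst hrp; exact h2 H hH
  · have := Fact.mk hr
    exact H3.hasNormalPComplement_subgroup H (H3.hasNormalPComplement_of_normal_pGroup
      (default : Sylow p G).2 hq (H3.isPGroup_quotient_of_sup_zpowers hk htop) hr hrp)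

end Cfsg.Agent.S0132
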