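import Cfsg.Statements.S0162
import Cfsg.Agent.H17.Square

set_option autoImplicit false
open Cfsg

namespace Cfsg.Agent.S0162

open H17 Cfsg

open scoped ComplexConjugate

/-- If a finite group has odd order, its order is congruent to its number of conjugacy classes modulo 16. -/
theorem result {G : Type*} [Group G] [Finite G] (hodd : Odd (Nat.card G)) : Nat.card G ≡ Nat.card (ConjClasses G) [MOD 16] := by
  choose d hd using fun χ : IrrCharacter G => χ.2.isCharacter.exists_nat_one
  have h1 : ∑ χ, d χ ^ 2 = Nat.card G := by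
    have := sum_irr_sq (G := G)
    simp only [hd] at this
    exact_mod_cast this
  let c : IrrCharacter G → IrrCharacter G := fun χ => ⟨fun g => conj (χ.1 g), χ.2.conj⟩
  have hc : ∀ χ, d (c χ) = d χ := fun χ => by
    have h2 := hd (c χ)
    simp only [c, hd χ, map_natCast] at h2
    exact_mod_cast h2.symm
  have h2 : ∑ χ : IrrCharacter G, ((d χ : ZMod 16) ^ 2 - 1) = 0 := by
    refine Finset.sum_involution (fun χ _ => c χ) (fun χ _ => ?_) (fun χ _ h0 h => h0 ?_)
      (fun χ _ => Finset.mem_univ _) (fun χ _ => ?_)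
    · rw [hc]
      obtain ⟨k, hk⟩ := hodd.of_dvd_nat (χ.2.degree_dvd_card (hd χ))
      obtain ⟨m, hm⟩ := Nat.even_mul_succ_self k
      have hm' : (k : ZMod 16) * (k + 1) = m + m := by exact_mod_cast congrArg Nat.cast hm
      have h16 : (16 : ZMod 16) = 0 := rfl
      rw [hk]; push_cast
      linear_combination 8 * hm' + m * h16
    · have h3 := χ.2.eq_one_of_conj_eq hodd (congrArg Subtype.val h)
      have h4 := hd χ
      rw [h3] at h4
      have h4' : (1 : ℂ) = d χ := h4
      have h5 : d χ = 1 := by exact_mod_cast h4'.symm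
      simp [h5]
    · ext g; simp [c]
  rw [← card_irr, ← ZMod.natCast_eq_natCast_iff, ← h1]
  rw [Finset.sum_sub_distrib, sub_eq_zero] at h2
  push_cast
  rw [h2]; simp

end Cfsg.Agent.S0162
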