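import Cfsg.Statements.S0163
import Cfsg.Agent.H21.BI

set_option autoImplicit false
open Cfsg

open H17 H15 CF H21

namespace Cfsg.Agent.S0163

/-- Brauer's induction Theorem: every character of a finite group is a ℤ-linear combination of functions induced from linear characters (homomorphisms to ℂˣ) of elementary subgroups. -/
theorem result {G : Type*} [Group G] [Fintype G] (χ : G → ℂ) (hχ : Cfsg.IsCharacter G χ) : ∃ l : List ((E : Subgroup G) × ((E →* ℂˣ) × ℤ)), (∀ t ∈ l, ∃ p : ℕ, p.Prime ∧ Cfsg.IsElementary p t.1) ∧ χ = (l.map fun t => (t.2.2 : ℂ) • Cfsg.indFun t.1 (fun e => (t.2.1 e : ℂ))).sum := by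
  have h := brauer_ind (isChar_top.2 hχ).vchar
  clear hχ
  induction h using Submodule.span_induction with
  | mem x hx =>
    obtain ⟨E, l, h, rfl⟩ := hx
    exact ⟨[⟨E, l, 1⟩], by simpa using h, by simp⟩
  | zero => exact ⟨[], by simp, by simp⟩
  | add x y _ _ hx hy =>
    obtain ⟨a, ha, rfl⟩ := hx
    obtain ⟨b, hb, rfl⟩ := hy
    exact ⟨a ++ b, fun t ht => (List.mem_append.1 ht).elim (ha t) (hb t), by simp⟩
  | smul n x _ hx =>
    obtain ⟨a, ha, rfl⟩ := hx
    refine ⟨a.map fun t => ⟨t.1, t.2.1, n * t.2.2⟩, fun t ht => ?_, ?_⟩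
    · obtain ⟨s, hs, rfl⟩ := List.mem_map.1 ht
      exact ha s hs
    · rw [List.smul_sum, List.map_map, List.map_map]
      congr 2
      funext t g
      simp [mul_assoc]

end Cfsg.Agent.S0163
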