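import Cfsg.Statements.S0167
import Cfsg.Agent.H17.Fpf

set_option autoImplicit false
open Cfsg

namespace Cfsg.Agent.S0167

open H17 Cfsg


/-- An element g of a finite group is a commutator if and only if the sum over the irreducible characters χ of χ g / χ 1 is nonzero. -/
theorem result {G : Type*} [Group G] [Finite G] (g : G) : (∃ a b : G, g = a * b * a⁻¹ * b⁻¹) ↔ ∑ᶠ χ : Cfsg.IrrCharacter G, (χ : G → ℂ) g / (χ : G → ℂ) 1 ≠ 0 := by
  classical
  have := Fintype.ofFinite G
  rw [finsum_eq_sum_of_fintype]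
  have hG := card_ne_zero_complex (G := G)
  have key : ∀ g : G, ((Finset.univ.filter fun p : G × G => p.1 * p.2 * p.1⁻¹ * (p.2⁻¹ * g) = 1).card : ℂ) =
      Nat.card G * ∑ χ : IrrCharacter G, (χ : G → ℂ) g / (χ : G → ℂ) 1 := fun g => by
    rw [Finset.card_filter]
    push_cast
    simp only [H21.ite_eq_one_eq_sum]
    rw [← Finset.mul_sum, Finset.sum_comm, Finset.mul_sum, Finset.mul_sum]
    refine Finset.sum_congr rfl fun χ _ => ?_
    rw [← Finset.mul_sum, Fintype.sum_prod_type_right]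
    simp only [H21.sum_conj_mul χ.2]
    simp only [mul_assoc, ← Finset.sum_div, ← Finset.mul_sum, H21.sum_mul_inv_mul_self χ.2]
    have := χ.2.one_ne_zero
    field_simp
  have k2 := key g
  constructor
  · rintro ⟨a, b, rfl⟩ h
    rw [h, mul_zero, Nat.cast_eq_zero, Finset.card_eq_zero, Finset.filter_eq_empty_iff] at k2
    exact k2 (Finset.mem_univ (b, a)) (by simp only; group)
  · intro h
    have : (Finset.univ.filter fun p : G × G => p.1 * p.2 * p.1⁻¹ * (p.2⁻¹ * g) = 1).Nonempty := by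
      rw [← Finset.card_ne_zero, ← Nat.cast_ne_zero (R := ℂ), k2]
      exact mul_ne_zero hG h
    obtain ⟨⟨a, b⟩, hp⟩ := this
    have hp' : a * b * a⁻¹ * (b⁻¹ * g) = 1 := (Finset.mem_filter.1 hp).2
    refine ⟨b, a, ?_⟩
    calc g = b * a * b⁻¹ * a⁻¹ * (a * b * a⁻¹ * (b⁻¹ * g)) := by group
      _ = _ := by rw [hp', mul_one]

end Cfsg.Agent.S0167
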