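import Cfsg.Statements.S0168
import Cfsg.Agent.H17.Fpf

set_option autoImplicit false
open Cfsg

namespace Cfsg.Agent.S0168

open H17 Cfsg


/-- The Burnside–Brauer Theorem. Let χ be the character of a faithful complex representation of a finite group, taking m distinct values. Then every irreducible character has nonzero inner product with χ ^ i for some i < m. -/
theorem result {G : Type*} [Group G] [Fintype G] {V : Type*} [AddCommGroup V] [Module ℂ V] [FiniteDimensional ℂ V] (ρ : Representation ℂ G V) (hfaithful : Function.Injective ρ) (ψ : G → ℂ) (hψ : Cfsg.IsIrrCharacter G ψ) : ∃ i : ℕ, i < Nat.card (Set.range ρ.character) ∧ Cfsg.classInner (fun g => ρ.character g ^ i) ψ ≠ 0 := by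
  classical
  by_contra hne
  push Not at hne
  set χ := ρ.character with hχ
  let A : Finset ℂ := Finset.univ.image χ
  have hA : Nat.card (Set.range χ) = A.card := by
    rw [← Nat.card_eq_finsetCard]
    exact Nat.card_congr (Equiv.setCongr (by ext; simp [A]))
  have h1 : χ 1 ∈ A := by simp [A]
  let f : Polynomial ℂ := ∏ a ∈ A.erase (χ 1), (Polynomial.X - Polynomial.C a)
  have hf : f.natDegree < A.card := by
    rw [Polynomial.natDegree_prod_of_monic _ _ fun a _ => Polynomial.monic_X_sub_C a]
    simp only [Polynomial.natDegree_X_sub_C, Finset.sum_const, smul_eq_mul, mul_one]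
    exact Finset.card_erase_lt_of_mem h1
  have h2 : (fun g => f.eval (χ g)) = ∑ i ∈ Finset.range A.card, f.coeff i • fun g => χ g ^ i := by
    ext g
    rw [Polynomial.eval_eq_sum_range' hf]
    simp
  have h3 : (fun g => f.eval (χ g)) = (f.eval (χ 1) / Nat.card G) • regChar G := by
    ext g
    by_cases hg : g = 1
    · subst hg
      have := card_ne_zero_complex (G := G)
      simp only [Pi.smul_apply, regChar_one, smul_eq_mul]; field_simp
    · simp only [Pi.smul_apply, regChar_of_ne hg, smul_zero, f, Polynomial.eval_prod]
      refine Finset.prod_eq_zero (i := χ g) (Finset.mem_erase.2 ⟨fun e => hg ?_, by simp [A]⟩)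
        (by simp)
      rw [hχ, Representation.char_one, char_eq_finrank_iff] at e
      exact hfaithful (e.trans (map_one ρ).symm)
  have h4 : f.eval (χ 1) ≠ 0 := by
    simp only [f, Polynomial.eval_prod]
    exact Finset.prod_ne_zero_iff.2 fun a ha => by
      simpa [sub_eq_zero] using (Finset.ne_of_mem_erase ha).symm
  have h5 := congrArg (fun φ => classInner φ ψ) (h2.symm.trans h3)
  simp only [classInner_sum_left, classInner_smul_left, classInner_regChar_left] at h5
  rw [Finset.sum_eq_zero fun i hi => by
    rw [hne i (hA ▸ Finset.mem_range.1 hi), mul_zero]] at h5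
  exact mul_ne_zero (div_ne_zero h4 card_ne_zero_complex)
    ((map_ne_zero _).2 hψ.one_ne_zero) h5.symm

end Cfsg.Agent.S0168
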