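import Cfsg.Statements.S0170
import Cfsg.Agent.H18.Feit

set_option autoImplicit false
open Cfsg

namespace Cfsg.Agent.S0170

open H17 H15 CF H21 H18

/-- Exceptional characters. Let S be a subset of a finite group contained in its normalizer N and meeting its conjugates by elements outside N only in the identity. Given n ≥ 2 distinct irreducible characters of N of equal degree that vanish on N away from S, there exist a sign ε and n distinct irreducible characters θ_i of G such that inducing χ_i − χ_j to G gives ε (θ_i − θ_j) for all i, j. -/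
theorem result {G : Type*} [Group G] [Fintype G] (S : Set G) (hSN : S ⊆ Subgroup.normalizer S) (hTI : ∀ g : G, g ∉ Subgroup.normalizer S → ∀ s ∈ S, g * s * g⁻¹ ∈ S → s = 1) (n : ℕ) (hn : 2 ≤ n) (χ : Fin n → (Subgroup.normalizer S → ℂ)) (hirr : ∀ i, Cfsg.IsIrrCharacter (Subgroup.normalizer S) (χ i)) (hinj : Function.Injective χ) (hvan : ∀ i, ∀ x : Subgroup.normalizer S, (x : G) ∉ S → χ i x = 0) (hdeg : ∀ i j, χ i 1 = χ j 1) : ∃ ε : ℂ, (ε = 1 ∨ ε = -1) ∧ ∃ θ : Fin n → (G → ℂ), (∀ i, Cfsg.IsIrrCharacter G (θ i)) ∧ Function.Injective θ ∧ ∀ i j, Cfsg.indFun (Subgroup.normalizer S) (χ i) - Cfsg.indFun (Subgroup.normalizer S) (χ j) = ε • (θ i - θ j) := by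
  classical
  have := Fintype.ofFinite (Subgroup.normalizer S)
  let i₀ : Fin n := ⟨0, by omega⟩
  have hi : ∀ i, χ i ∈ Irr ⊤ := fun i => mem_Irr_top.2 (hirr i)
  have v : ∀ i, χ i - χ i₀ ∈ vchar ⊤ := fun i => sub_mem (irr_vchar (hi i)) (irr_vchar (hi i₀))
  have d : ∀ i j, dot ⊤ (indFun _ (χ i - χ i₀)) (indFun _ (χ j - χ i₀)) =
      dot ⊤ (χ i - χ i₀) (χ j - χ i₀) := fun i j => by
    rw [dot_top, dot_top]
    exact inner_ind_ind_of_TI _ S hTI (mem_cf_top.1 (vchar_cf (v j)))
      (fun x hx => by simp [hvan _ x hx]) (fun x hx => by simp [hvan _ x hx])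
      (sub_eq_zero.2 (hdeg i i₀))
  have e : ∀ i j, indFun _ (χ i - χ j) = indFun _ (χ i) - indFun _ (χ j) := fun i j => by
    rw [← Ind_top_ext0, ← Ind_top_ext0, ← Ind_top_ext0, ← map_sub]
    exact congrArg _ (map_sub (ext0 _) _ _)
  obtain ⟨ε, hε, μ, h1, h2, h3⟩ := vchar_isometry_base (L := ⊤) i₀
    (fun i => indFun _ (χ i - χ i₀)) (by rw [e, sub_self]) (fun i => by
      rw [← Ind_top_ext0]
      exact Ind_mem_vchar le_top (ext0_mem_vchar.2 (mem_vchar_top.1 (v i))))
    (fun i => by rw [← Ind_top_ext0, Ind_one le_top, ext0_one, Pi.sub_apply, hdeg i i₀]; simp)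
    (fun i h => by
      rw [d, dot_self_sub_of_orth (dot_irr_ne (hi i) (hi i₀) (hinj.ne h)), dot_irr_self (hi i),
        dot_irr_self (hi i₀)]; norm_num)
    fun i j h h' n => by
      rw [d, dot_sub_left, dot_sub_right, dot_sub_right, dot_irr_ne (hi i) (hi j) (hinj.ne n),
        dot_irr_ne (hi i) (hi i₀) (hinj.ne h), dot_irr_ne (hi i₀) (hi j) (hinj.ne h'.symm),
        dot_irr_self (hi i₀)]; norm_num
  refine ⟨ε, by rcases hε with rfl | rfl <;> simp, μ, fun i => mem_Irr_top.1 (h1 i), h2, fun i j => ?_⟩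
  have a := h3 i
  have b := h3 j
  simp only [e, smul_sub] at a b ⊢
  linear_combination (exp := 1) a - b

end Cfsg.Agent.S0170
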