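import Cfsg.Statements.S0171
import Cfsg.Agent.H17.Fpf

set_option autoImplicit false
open Cfsg

namespace Cfsg.Agent.S0171

open H17 Cfsg

open CF

/-- Let G = K H with K normal, K ⊓ H trivial, and no non-identity element of H commuting with a non-identity element of K (a Frobenius group with kernel K and complement H). Then every non-principal irreducible character of K induces to an irreducible character of G. -/
theorem result {G : Type*} [Group G] [Fintype G] (K H : Subgroup G) [K.Normal] (hKH : K ⊓ H = ⊥) (hKH' : K ⊔ H = ⊤) (hfpf : ∀ h ∈ H, h ≠ 1 → ∀ k ∈ K, h * k = k * h → k = 1) (τ : K → ℂ) (hτ : Cfsg.IsIrrCharacter K τ) (hτ1 : τ ≠ fun _ => 1) : Cfsg.IsIrrCharacter G (Cfsg.indFun K τ) := by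
  rw [← mem_Irr_top, ← Ind_top_ext0]
  refine Ind_mem_Irr_of_frob le_top (top_le_norm K)
    (fpf_outside (le_top.trans (top_le_norm K)) (fun g _ => exists_mul_of_sup_eq_top hKH' g) hfpf)
    (ext0_mem_Irr.2 hτ) fun h => hτ1 ?_
  ext x
  have := congrFun h x
  rwa [extendByZero_coe, one_of_mem x.2] at this

end Cfsg.Agent.S0171
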