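import Cfsg.Statements.S0172
import Cfsg.Agent.H17.FrobIrr

set_option autoImplicit false
open Cfsg

namespace Cfsg.Agent.S0172

open H17 Cfsg


/-- Class number of a Frobenius group: if G = K H with K normal, K ⊓ H trivial and no non-identity element of H commuting with a non-identity element of K, then |H| * k(G) + 1 = |H| * k(H) + k(K), where k denotes the number of conjugacy classes. -/
theorem result {G : Type*} [Group G] [Finite G] (K H : Subgroup G) [K.Normal] (hKH : K ⊓ H = ⊥) (hKH' : K ⊔ H = ⊤) (hfpf : ∀ h ∈ H, h ≠ 1 → ∀ k ∈ K, h * k = k * h → k = 1) : Nat.card H * Nat.card (ConjClasses G) + 1 = Nat.card H * Nat.card (ConjClasses H) + Nat.card (ConjClasses K) := by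
  have hc : K.IsComplement' H := Subgroup.isComplement'_of_disjoint_and_mul_eq_univ
    (disjoint_iff.2 hKH) (by rw [← Subgroup.normal_mul, hKH']; rfl)
  have h := card_Irr_frob le_top (top_le_norm K)
    (fpf_outside (le_top.trans (top_le_norm K)) (fun g _ => exists_mul_of_sup_eq_top hKH' g) hfpf)
  rwa [card_Irr_top, card_IrrQ_top, CF.card_Irr, Subgroup.relIndex_top_right,
    hc.symm.index_eq_card, H21.card_conjClasses_congr hc.symm.QuotientMulEquiv] at h

end Cfsg.Agent.S0172
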