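import Cfsg.Statements.S0174
import Cfsg.Agent.H17.CliffCorr

set_option autoImplicit false
open Cfsg

namespace Cfsg.Agent.S0174

open H17 Cfsg

open CF

/-- The Clifford Theorem for characters: if θ is an irreducible character of a finite group G, N is a normal subgroup and χ is an irreducible character of N occurring in the restriction of θ, then θ restricted to N equals e times the sum of the distinct G-conjugates of χ, where e is the inner product of the restriction with χ. -/
theorem result {G : Type*} [Group G] [Fintype G] (N : Subgroup G) [Fintype N] (hN : N.Normal) (θ : G → ℂ) (hθ : Cfsg.IsIrrCharacter G θ) (χ : N → ℂ) (hχ : Cfsg.IsIrrCharacter N χ) (hconst : Cfsg.classInner (fun n : N => θ n) χ ≠ 0) : (fun n : N => θ n) = Cfsg.classInner (fun n : N => θ n) χ • ∑ᶠ ψ ∈ {ψ : N → ℂ | ∃ g : G, ψ = fun n : N => χ ⟨g * n * g⁻¹, hN.conj_mem n n.2 g⟩}, ψ := by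
  classical
  have h1 := clifford le_top (top_le_norm N) (mem_Irr_top.2 hθ) (ext0_mem_Irr.2 hχ)
    (by rwa [dot_ext0_right])
  have h2 := congrArg (res N) h1
  rw [res_Res, res_smul, dot_ext0_right, res_sum] at h2
  refine h2.trans ?_
  congr 1
  have h3 : {ψ : N → ℂ | ∃ g : G, ψ = fun n : N => χ ⟨g * n * g⁻¹, hN.conj_mem n n.2 g⟩} =
      ((orb ⊤ (extendByZero N χ)).image (res N) : Finset (N → ℂ)) := by
    ext ψ
    simp only [Set.mem_ofPred_eq, Finset.coe_image, Set.mem_image, Finset.mem_coe, mem_orb]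
    constructor
    · rintro ⟨g, rfl⟩
      exact ⟨_, ⟨g⁻¹, trivial, rfl⟩, by rw [cfj_ext0 hN, res_ext0]⟩
    · rintro ⟨_, ⟨g, -, rfl⟩, rfl⟩
      exact ⟨g⁻¹, by rw [← inv_inv g, cfj_ext0 hN, res_ext0]; simp⟩
  rw [h3, finsum_mem_coe_finset, Finset.sum_image]
  intro a ha b hb hab
  have hs := orb_subset_Irr (top_le_norm N) (ext0_mem_Irr.2 hχ)
  exact eq_of_res_eq (irr_cf (hs ha)).1 (irr_cf (hs hb)).1 hab

end Cfsg.Agent.S0174
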