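import Cfsg.Statements.S0175
import Cfsg.Agent.H17.Deg

set_option autoImplicit false
open Cfsg

namespace Cfsg.Agent.S0175

open H17 Cfsg

open CF

/-- Taketa's Theorem on M-groups: if every irreducible complex character of a finite group is induced from a linear character (a homomorphism to ℂˣ) of some subgroup, the group is solvable. -/
theorem result {G : Type*} [Group G] [Fintype G] (hM : ∀ χ : G → ℂ, Cfsg.IsIrrCharacter G χ → ∃ (H : Subgroup G) (lam : H →* ℂˣ), χ = Cfsg.indFun H (fun h => (lam h : ℂ))) : Group.IsSolvable G := by
  have key : ∀ k : ℕ, ∀ χ : G → ℂ, IsIrrCharacter G χ → (χ 1).re ≤ k →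
      derivedSeries G k ≤ charKer χ := by
    intro k
    induction k with
    | zero =>
      intro χ hχ h
      obtain ⟨m, hm0, hm⟩ := hχ.exists_pos_one
      rw [hm] at h
      have : m ≤ 0 := by exact_mod_cast h
      omega
    | succ k ih =>
      intro χ hχ h
      obtain ⟨H, lam, rfl⟩ := hM χ hχ
      have := Fintype.ofFinite H
      have h1 : derivedSeries G k ≤ H := by
        rcases Nat.eq_zero_or_pos k with rfl | hk
        · rw [indFun_one] at h
          have h2 : H.index ≤ 1 := by
            have : (H.index : ℝ) ≤ 1 := by simpa using h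
            exact_mod_cast this
          have h3 := Nat.pos_of_ne_zero (Subgroup.index_ne_zero_of_finite (H := H))
          rw [Subgroup.index_eq_one.1 (by omega : H.index = 1)]; exact le_top
        have hπ : IsCharacter G (indFun H fun _ => 1) := isCharacter_one.ind
        have h2 : derivedSeries G k ≤ charKer (indFun H fun _ => 1) := fun g hg => by
          rw [hπ.mem_charKer_iff_forall]
          intro ψ hψ hne
          refine ih ψ hψ ?_ hg
          by_cases h1 : ψ = fun _ => 1
          · subst h1; simpa using Nat.succ_le_of_lt hk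
          have h3 := (hπ.sub_irr isIrr_one (by
            rw [classInner_indFun_one, classInner_one_one]; exact one_ne_zero)).irr_degree_le hψ (by
            rwa [classInner_sub_left, isIrr_one.inner_of_ne hψ (Ne.symm h1), sub_zero])
          rw [indFun_one] at h
          rw [Pi.sub_apply, indFun_one] at h3
          simp at h h3
          linarith
        intro g hg
        have h3 := apply_eq_of_mem_charKer (h2 hg)
        rw [indFun_one_eq_perm] at h3
        simp only [MulAction.fixedBy_one_eq_univ, Nat.cast_inj] at h3
        have h4 : MulAction.fixedBy (G ⧸ H) g = Set.univ :=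
          Set.eq_of_subset_of_ncard_le (Set.subset_univ _) h3.ge
        have h5 : ((1 : G) : G ⧸ H) ∈ MulAction.fixedBy (G ⧸ H) g := h4 ▸ Set.mem_univ _
        have h6 : ((g * 1 : G) : G ⧸ H) = (1 : G) := h5
        simpa using QuotientGroup.eq.1 h6.symm
      rw [← Ind_top_ext0]
      exact le_cfker_Ind ((derivedSeries_antitone G (Nat.le_succ k)).trans h1) (top_le_norm _)
        ((Subgroup.commutator_mono h1 h1).trans (isLin_ofHom lam).commutator_le)
  refine ⟨⟨Nat.card G, eq_bot_iff.2 fun g hg => eq_one_of_forall_irr fun χ hχ =>
    apply_eq_of_mem_charKer (key _ χ hχ ?_ hg)⟩⟩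
  obtain ⟨m, -, hm⟩ := hχ.exists_pos_one
  have := Nat.le_of_dvd Nat.card_pos (hχ.degree_dvd_card hm)
  rw [hm]; exact_mod_cast this

end Cfsg.Agent.S0175
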