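import Cfsg.Statements.S0176
import Cfsg.Agent.H17.Deg

set_option autoImplicit false
open Cfsg

namespace Cfsg.Agent.S0176

open H17 Cfsg


/-- A finite nilpotent group is an M-group: each irreducible complex character is induced from a homomorphism of some subgroup into ℂˣ. -/
theorem result {G : Type*} [Group G] [Fintype G] [Group.IsNilpotent G] (χ : G → ℂ) (hχ : Cfsg.IsIrrCharacter G χ) : ∃ (H : Subgroup G) (lam : H →* ℂˣ), χ = Cfsg.indFun H (fun h => (lam h : ℂ)) := by
  exact hχ.monomial

end Cfsg.Agent.S0176
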