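import Cfsg.Statements.S0177
import Cfsg.Agent.H17.Deg

set_option autoImplicit false
open Cfsg

namespace Cfsg.Agent.S0177

open H17 Cfsg


/-- The Artin induction Theorem: for a character χ of a finite group, |G| • χ is a ℤ-linear combination of functions induced from homomorphisms of cyclic subgroups into ℂˣ. -/
theorem result {G : Type*} [Group G] [Fintype G] (χ : G → ℂ) (hχ : Cfsg.IsCharacter G χ) : ∃ l : List ((A : Subgroup G) × ((A →* ℂˣ) × ℤ)), (∀ t ∈ l, IsCyclic t.1) ∧ (Nat.card G : ℂ) • χ = (l.map fun t => (t.2.2 : ℂ) • Cfsg.indFun t.1 (fun a => (t.2.1 a : ℂ))).sum := by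
  classical
  let R : AddSubmonoid (G → ℂ) :=
    { carrier := {φ | ∃ l : List ((A : Subgroup G) × ((A →* ℂˣ) × ℤ)), (∀ t ∈ l, IsCyclic t.1) ∧
        φ = (l.map fun t => (t.2.2 : ℂ) • Cfsg.indFun t.1 (fun a => (t.2.1 a : ℂ))).sum}
      zero_mem' := ⟨[], by simp, by simp⟩
      add_mem' := by
        rintro _ _ ⟨l, hl, rfl⟩ ⟨l', hl', rfl⟩
        refine ⟨l ++ l', fun t ht => ?_, by simp⟩
        rcases List.mem_append.1 ht with h | h
        exacts [hl t h, hl' t h] }
  have h1 : ∀ A : Subgroup G, IsCyclic A → ∀ η : A → ℂ, IsGeneralizedCharacter A η →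
      indFun A η ∈ R := fun A hA η hη => by
    obtain ⟨m, rfl⟩ := isGen_iff_sum.1 hη
    rw [indFun_sum]
    refine R.sum_mem fun ψ _ => ?_
    obtain ⟨lam, hl⟩ := ψ.2.exists_linear_of_comm (IsCyclic.commGroup (α := A)).mul_comm
    exact ⟨[⟨A, lam, m ψ⟩], by simpa using hA, by simp [indFun_smul, hl]⟩
  let θ : (A : Subgroup G) → A → ℂ := fun A a =>
    if Subgroup.zpowers (a : G) = A then Nat.card A else 0
  have h2 : ∀ A : Subgroup G, indFun A (fun a => θ A a * χ a) ∈ R := fun A => by
    by_cases hA : IsCyclic A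
    swap
    · have : (fun a => θ A a * χ a) = 0 := funext fun a => by
        have : Subgroup.zpowers (a : G) ≠ A := fun e => hA (e ▸ inferInstance)
        simp [θ, this]
      rw [this, indFun_zero]; exact R.zero_mem
    have := Fintype.ofFinite A
    refine h1 A hA _ (IsGeneralizedCharacter.mul (IsClassFunction.isGen_of_inner
      (fun a b => by rw [(IsCyclic.commGroup (α := A)).mul_comm b a, mul_inv_cancel_right])
      fun ψ hψ => ?_) (hχ.restrict A).isGen)
    obtain ⟨z, hz⟩ := hψ.conj.isGen.sum_int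
      (Finset.univ.filter fun a : A => Subgroup.zpowers (a : G) = A) (fun k hk a ha => by
        rw [Finset.mem_filter] at ha ⊢
        refine ⟨Finset.mem_univ _, le_antisymm (Subgroup.zpowers_le.2 (a ^ k).2) (ha.2.ge.trans
          (Subgroup.zpowers_le.2 ?_))⟩
        exact mem_zpowers_pow_iff.2 (by
          rw [Subgroup.orderOf_coe]; exact hk.coprime_dvd_right (orderOf_dvd_natCard a)))
    refine ⟨z, ?_⟩
    rw [← hz, classInner_def, Finset.sum_filter, Finset.mul_sum]
    refine Finset.sum_congr rfl fun a _ => ?_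
    have := card_ne_zero_complex (G := A)
    simp only [θ]
    split_ifs
    · field_simp
    · simp
  have h3 : (Nat.card G : ℂ) • χ = ∑ A : Subgroup G, indFun A (fun a => θ A a * χ a) := by
    simp only [indFun_mul_restrict _ hχ.isClassFunction, ← Finset.sum_mul]
    ext g
    simp only [Pi.smul_apply, smul_eq_mul, Pi.mul_apply, Finset.sum_apply, indFun_apply,
      Finset.mul_sum]
    congr 1
    rw [Finset.sum_comm, Nat.card_eq_fintype_card, ← Finset.card_univ, Finset.card_eq_sum_ones,
      Nat.cast_sum]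
    refine Finset.sum_congr rfl fun x _ => ?_
    rw [Finset.sum_eq_single (Subgroup.zpowers (x⁻¹ * g * x))]
    · rw [extendByZero_of_mem _ (Subgroup.mem_zpowers _)]
      simp only [θ, if_true, Nat.cast_one]
      rw [inv_mul_cancel₀ card_ne_zero_complex]
    · intro A _ hA
      rw [extendByZero_apply]
      split_ifs
      · simp [θ, Ne.symm hA]
      · simp
    · simp
  have h4 : (Nat.card G : ℂ) • χ ∈ R := h3 ▸ R.sum_mem fun A _ => h2 A
  exact h4

end Cfsg.Agent.S0177
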