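import Cfsg.Statements.S0180
import Cfsg.Agent.H17.Galois

set_option autoImplicit false
open Cfsg

namespace Cfsg.Agent.S0180

open H17 Cfsg


/-- Every irreducible complex character of a finite group takes only rational values if and only if g is conjugate to g ^ m for every element g and every m coprime to the group order. -/
theorem result {G : Type*} [Group G] [Finite G] : (∀ χ : Cfsg.IrrCharacter G, ∀ g : G, ∃ q : ℚ, (χ : G → ℂ) g = (q : ℂ)) ↔ ∀ m : ℕ, m.Coprime (Nat.card G) → ∀ g : G, IsConj g (g ^ m) := by
  constructor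
  · intro h m hm g
    refine isConj_of_irr_eq fun χ hχ => ?_
    obtain ⟨q, hq⟩ := h ⟨χ, hχ⟩ g
    exact (hχ.isGen.apply_pow_of_rat hq
      (Nat.Coprime.coprime_dvd_right (orderOf_dvd_natCard g) hm)).symm
  · intro h χ g
    obtain ⟨n, hn⟩ := χ.2.isGen.exists_int_of_pow (g := g)
      (fun k hk => (χ.2.isClassFunction.of_isConj (h k hk g)).symm)
    exact ⟨n, by rw [hn]; simp⟩

end Cfsg.Agent.S0180
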