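import Cfsg.Statements.S0182
import Cfsg.Agent.H17.FT

set_option autoImplicit false
open Cfsg

namespace Cfsg.Agent.S0182

open H17 Cfsg


/-- The CA-Theorem for odd order: a finite group of odd order in which every non-identity element has an abelian centralizer is solvable. -/
theorem result {G : Type*} [Group G] [Finite G] (hodd : Odd (Nat.card G)) (hCA : ∀ x : G, x ≠ 1 → ∀ a ∈ Subgroup.centralizer ({x} : Set G), ∀ b ∈ Subgroup.centralizer ({x} : Set G), a * b = b * a) : Group.IsSolvable G := by
  exact H17.odd_solvable hodd

end Cfsg.Agent.S0182
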