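import Cfsg.Statements.S0184
import Cfsg.Agent.H17.Deg
import Cfsg.Agent.H16.Rank

set_option autoImplicit false
open Cfsg

namespace Cfsg.Agent.S0184

open H17 Cfsg


/-- A finite p-group admits a faithful irreducible complex representation if and only if its centre is cyclic. -/
theorem result {G : Type*} [Group G] [Finite G] (p : ℕ) [Fact p.Prime] (hG : IsPGroup p G) : (∃ (n : ℕ) (ρ : Representation ℂ G (Fin n → ℂ)), ρ.IsIrreducible ∧ Function.Injective ρ) ↔ IsCyclic (Subgroup.center G) := by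
  constructor
  · rintro ⟨n, ρ, hρ, hf⟩
    refine (isIrr_character ρ).isCyclic_center ?_
    rw [charKer_character, MonoidHom.ker_eq_bot_iff]; exact hf
  · intro hc
    suffices h : ∃ χ, IsIrrCharacter G χ ∧ charKer χ = ⊥ by
      obtain ⟨χ, ⟨n, ρ, hρ, rfl⟩, h⟩ := h
      rw [charKer_character, MonoidHom.ker_eq_bot_iff] at h
      exact ⟨n, ρ, hρ, h⟩
    rcases subsingleton_or_nontrivial G with hs | hs
    · exact ⟨_, isIrr_one, Subsingleton.elim _ _⟩
    obtain ⟨z, -, hz, hzp⟩ := H9.exists_mem_center_orderOf_eq hG (M := ⊤) top_ne_bot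
    have hp : p.Prime := Fact.out
    obtain ⟨χ, hχ, hne⟩ := exists_irr_apply_ne (g := z) (by
      rintro rfl; rw [orderOf_one] at hzp; exact hp.one_lt.ne hzp)
    refine ⟨χ, hχ, by_contra fun h => hne ?_⟩
    have := hχ.isCharacter.charKer_normal
    obtain ⟨y, hy, hy', hyp⟩ := H9.exists_mem_center_orderOf_eq hG h
    have e := H16.eq_of_cyclic_prime hp hc (Subgroup.zpowers_le.2 hz) (Subgroup.zpowers_le.2 hy')
      (by rw [Nat.card_zpowers, hzp]) (by rw [Nat.card_zpowers, hyp])
    exact hχ.mem_charKer.1 (Subgroup.zpowers_le.2 hy (e ▸ Subgroup.mem_zpowers z))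

end Cfsg.Agent.S0184
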