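import Cfsg.Statements.S0186
import Cfsg.Agent.H17.Deg

set_option autoImplicit false
open Cfsg

namespace Cfsg.Agent.S0186

open H17 Cfsg


/-- Let G be a finite simple group of order n and p a prime dividing n. If G has more than n / p^2 conjugacy classes, then every Sylow p-subgroup of G is abelian. -/
theorem result {G : Type*} [Group G] [Finite G] [IsSimpleGroup G] (p : ℕ) [Fact p.Prime] (hp : p ∣ Nat.card G) (hmany : Nat.card G < p ^ 2 * Nat.card (ConjClasses G)) (P : Sylow p G) (a b : G) (ha : a ∈ P) (hb : b ∈ P) : a * b = b * a := by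
  classical
  have hpp : p.Prime := Fact.out
  suffices h : ∀ a b : P, a * b = b * a from congrArg Subtype.val (h ⟨a, ha⟩ ⟨b, hb⟩)
  obtain ⟨k, hk⟩ := IsPGroup.iff_card.1 P.isPGroup'
  by_cases h2 : p ^ 2 ∣ Nat.card G
  · have : ∃ χ : IrrCharacter G, χ ≠ H21.trivIrr G ∧ charDegree χ.1 < p := by
      by_contra hne
      push Not at hne
      have h3 : ∑ χ : IrrCharacter G, charDegree χ.1 ^ 2 = Nat.card G := by
        have := sum_irr_sq (G := G)
        simp only [← H21.irr_charDegree_cast] at this
        exact_mod_cast this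
      rw [← Finset.add_sum_erase _ _ (Finset.mem_univ (H21.trivIrr G)), H21.trivIrr_coe,
        H21.charDegree_const_one] at h3
      have h4 := Finset.card_nsmul_le_sum (Finset.univ.erase (H21.trivIrr G))
        (fun χ : IrrCharacter G => charDegree χ.1 ^ 2) (p ^ 2)
        fun χ hχ => Nat.pow_le_pow_left (hne χ (Finset.ne_of_mem_erase hχ)) 2
      rw [Finset.card_erase_of_mem (Finset.mem_univ _), Finset.card_univ,
        ← Nat.card_eq_fintype_card, card_irr, smul_eq_mul] at h4
      obtain ⟨m, hm⟩ := h2
      rw [hm] at hmany h3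
      have h5 := Nat.lt_of_mul_lt_mul_left hmany
      have h6 : m ≤ Nat.card (ConjClasses G) - 1 := by omega
      have h7 := Nat.mul_le_mul_right (p ^ 2) h6
      rw [mul_comm m] at h7
      omega
    obtain ⟨χ, h1, hd⟩ := this
    have hf := χ.2.charKer_eq_bot_of_simple (mt H21.eq_trivIrr_iff.2 h1)
    refine (χ.2.isCharacter.comp (P : Subgroup G).subtype).comm_of_small ?_
      (n := charDegree χ.1) (H21.irr_charDegree_cast χ).symm fun q hq hqd => ?_
    · rw [charKer_comp χ.2.isCharacter, hf, MonoidHom.comap_bot, Subgroup.ker_subtype]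
    · rw [hk] at hqd
      rwa [(Nat.prime_dvd_prime_iff_eq hq hpp).1 (hq.dvd_of_dvd_pow hqd)]
  · have hk1 : k ≤ 1 := by
      by_contra h
      exact h2 ((pow_dvd_pow p (by omega)).trans (hk ▸ Subgroup.card_subgroup_dvd_card _))
    have : IsCyclic P := isCyclic_of_card_dvd_prime (p := p) (by
      rw [hk]; exact (pow_dvd_pow p hk1).trans (pow_one p).dvd)
    exact fun a b => (IsCyclic.commGroup (α := P)).mul_comm a b

end Cfsg.Agent.S0186
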