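import Cfsg.Statements.S0187
import Cfsg.Agent.H17.Ortho

set_option autoImplicit false
open Cfsg

namespace Cfsg.Agent.S0187

open H17 Cfsg


/-- A finite group is commutative if and only if every irreducible complex character has degree 1. -/
theorem result {G : Type*} [Group G] [Finite G] : (∀ a b : G, a * b = b * a) ↔ ∀ χ : Cfsg.IrrCharacter G, (χ : G → ℂ) 1 = 1 := by
  refine ⟨fun h χ => χ.2.one_eq_one_of_comm h, fun h a b => ?_⟩
  have h1 : IsConj (a * b * a⁻¹ * b⁻¹) 1 := isConj_of_irr_eq fun χ hχ => by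
    obtain ⟨lam, rfl⟩ := hχ.isCharacter.exists_linear (h ⟨χ, hχ⟩)
    simp [mul_comm, mul_left_comm]
  have h2 : a * b * a⁻¹ * b⁻¹ = 1 := by simpa using h1
  calc a * b = a * b * a⁻¹ * b⁻¹ * (b * a) := by group
    _ = b * a := by rw [h2, one_mul]

end Cfsg.Agent.S0187
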