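import Cfsg.Statements.S0189
import Cfsg.Agent.H17.Inner

set_option autoImplicit false
open Cfsg

namespace Cfsg.Agent.S0189

open H17 Cfsg


/-- If a complex character of a finite group vanishes at every non-identity element of a Sylow p-subgroup P, then |P| divides its degree. -/
theorem result {G : Type*} [Group G] [Finite G] (p : ℕ) [Fact p.Prime] (P : Sylow p G) (χ : G → ℂ) (hχ : Cfsg.IsCharacter G χ) (hvan : ∀ g : G, g ∈ P → g ≠ 1 → χ g = 0) : ∃ k : ℕ, χ 1 = (Nat.card P : ℂ) * k := by
  classical
  have := Fintype.ofFinite (P : Subgroup G)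
  obtain ⟨k, hk⟩ := (hχ.restrict P).inner_nat isCharacter_one
  refine ⟨k, ?_⟩
  rw [classInner_one_right, Finset.sum_eq_single 1] at hk
  · rw [← hk, ← mul_assoc]
    erw [mul_inv_cancel₀ (card_ne_zero_complex (G := (P : Subgroup G))), one_mul]
    rfl
  · intro x _ hx
    exact hvan x x.2 (fun h => hx (Subtype.ext h))
  · simp

end Cfsg.Agent.S0189
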