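import Cfsg.Statements.S0190
import Cfsg.Agent.H17.Ind

set_option autoImplicit false
open Cfsg

namespace Cfsg.Agent.S0190

open H17 Cfsg


/-- For a transitive action of a finite group on X, the permutation character g ↦ (number of fixed points of g) is the function induced from the principal character of the stabilizer of any point. -/
theorem result {G : Type*} [Group G] [Fintype G] (X : Type*) [MulAction G X] [Finite X] [MulAction.IsPretransitive G X] (x : X) : (fun g : G => (Nat.card (MulAction.fixedBy X g) : ℂ)) = Cfsg.indFun (MulAction.stabilizer G x) (fun _ => 1) := by
  exact perm_eq_indFun X x

end Cfsg.Agent.S0190
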