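import Cfsg.Statements.S0193
import Cfsg.Agent.H17.CliffCorr

set_option autoImplicit false
open Cfsg

namespace Cfsg.Agent.S0193

open H17 Cfsg

open CF

/-- Let H be a normal subgroup of a finite group G and θ an irreducible character of H. Then |H| times the inner product of the induced function of θ with itself equals the number of g in G with θ(g h g⁻¹) = θ(h) for all h in H; in particular the induced character is irreducible when only elements of H stabilise θ. -/
theorem result {G : Type*} [Group G] [Fintype G] (H : Subgroup G) [hN : H.Normal] (θ : H → ℂ) (hθ : Cfsg.IsIrrCharacter H θ) : (Nat.card H : ℂ) * Cfsg.classInner (Cfsg.indFun H θ) (Cfsg.indFun H θ) = (Nat.card {g : G // ∀ h : H, θ ⟨g * h * g⁻¹, hN.conj_mem h h.2 g⟩ = θ h} : ℂ) := by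
  have hθ' := ext0_mem_Irr.2 hθ
  have h1 := dot_Ind_self_normal le_top (top_le_norm H) hθ'
  rw [dot_top, Ind_top_ext0, top_inf_eq] at h1
  rw [h1, ← Nat.cast_mul, card_mul_relIndex (le_stab (irr_cf hθ'))]
  congr 1
  exact Nat.card_congr (Equiv.subtypeEquivRight fun g => mem_stab_ext0 hN θ g)

end Cfsg.Agent.S0193
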