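import Cfsg.Statements.S0194
import Cfsg.Agent.H17.CliffCorr
import Cfsg.Agent.H17.Square

set_option autoImplicit false
open scoped ComplexConjugate
open Cfsg

namespace Cfsg.Agent.S0194

open H17 Cfsg

open CF

/-- Let G have odd order, H be a normal subgroup and θ a non-principal irreducible character of H. Then the function induced from θ is orthogonal to its complex conjugate. -/
theorem result {G : Type*} [Group G] [Fintype G] (hodd : Odd (Nat.card G)) (H : Subgroup G) [H.Normal] (θ : H → ℂ) (hθ : Cfsg.IsIrrCharacter H θ) (hθ1 : θ ≠ fun _ => 1) : Cfsg.classInner (fun g => conj (Cfsg.indFun H θ g)) (Cfsg.indFun H θ) = 0 := by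
  have hN : H.Normal := inferInstance
  have hθ' := ext0_mem_Irr.2 hθ
  have hn := top_le_norm H
  rw [← Ind_top_ext0, ← dot_top]
  change dot ⊤ (star _) _ = 0
  rw [← Ind_star]
  refine dot_Ind_Ind_eq_zero le_top hn (star_mem_Irr hθ') hθ' fun hm => hθ1 ?_
  obtain ⟨g, -, hg⟩ := mem_orb.1 (orb_symm hm)
  have h2 : g * g ∈ stab (extendByZero H θ) := by
    rw [mem_stab, cfj_mul, hg, cfj_star, hg, star_star]
  have h3 : g ∈ stab (extendByZero H θ) := by
    obtain ⟨k, hk⟩ := hodd.of_dvd_nat (orderOf_dvd_natCard g)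
    have : g = (g * g) ^ (k + 1) := by
      rw [← sq, ← pow_mul, show 2 * (k + 1) = (2 * k + 1) + 1 by ring, ← hk, pow_succ,
        pow_orderOf_eq_one, one_mul]
    rw [this]; exact Subgroup.pow_mem _ h2 _
  rw [mem_stab.1 h3] at hg
  refine hθ.eq_one_of_conj_eq (hodd.of_dvd_nat (Subgroup.card_subgroup_dvd_card H)) ?_
  ext x
  have := congrFun hg x
  simp only [Pi.star_apply, extendByZero_coe] at this
  exact this.symm

end Cfsg.Agent.S0194
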