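import Cfsg.Statements.S0197
import Cfsg.Agent.H25.BW3
import Cfsg.Agent.H6.Fus

set_option autoImplicit false
open Cfsg

namespace Cfsg.Agent.S0197

/-- If a finite simple group has an involution whose centralizer is isomorphic to the general linear group GL(2, 3), then the group has order 5616 or 7920. -/
theorem result {G : Type*} [Group G] [Finite G] [IsSimpleGroup G] (t : G) (ht : orderOf t = 2) (e : Subgroup.centralizer ({t} : Set G) ≃* Matrix.GeneralLinearGroup (Fin 2) (ZMod 3)) : Nat.card G = 5616 ∨ Nat.card G = 7920 := by
  obtain ⟨f, inj, -, rng⟩ := H25.exists_q48 ht e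
  refine H25.bw_card inj rng (H6.pResidual_eq_top_of_no_index_two fun H hH => ?_)
  rcases (Subgroup.normal_of_index_eq_two hH).eq_bot_or_eq_top with rfl | rfl
  · have := Nat.card_le_card_of_injective f inj
    rw [Nat.card_eq_fintype_card, H25.Q48.card_eq, ← Subgroup.index_bot, hH] at this
    omega
  · simp at hH

end Cfsg.Agent.S0197
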