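import Cfsg.Statements.S0201
import Cfsg.Agent.H19.BS3

set_option autoImplicit false
open Cfsg

namespace Cfsg.Agent.S0201
open H17 H19

/-- Brauer–Suzuki Theorem: if a Sylow 2-subgroup of a finite group is generalized quaternion (of order at least 8) and the group has no nontrivial normal subgroup of odd order, then its centre has order 2. -/
theorem result {G : Type*} [Group G] [Finite G] (S : Sylow 2 G) (n : ℕ) (e : (S : Subgroup G) ≃* QuaternionGroup (2 ^ (n + 1))) (hO : ∀ N : Subgroup G, N.Normal → Odd (Nat.card N) → N = ⊥) : Nat.card (Subgroup.center G) = 2 := by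
  obtain ⟨a, b, h⟩ := exists_QS (H10.isSylowIn_top S) e
  have hO' : pPrimeCore 2 G = ⊥ :=
    H1.pPrimeCore_eq_bot_iff.2 fun N h1 h2 => hO N h1 (H6.coprime_two_iff.1 h2)
  have h1 := zstar_center h.iso hO'
  have hn : ∀ K : Subgroup G, K ≤ Subgroup.center G → K.Normal := fun K hK =>
    ⟨fun x hx g => by rwa [Subgroup.mem_center_iff.1 (hK hx) g, mul_inv_cancel_right]⟩
  rw [← h.ord2, ← Nat.card_zpowers]
  congr 2
  refine le_antisymm (fun z hz => ?_) (Subgroup.zpowers_le.2 h1)
  have h2 : rpart 2 z ∈ Subgroup.center G :=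
    Subgroup.mem_center_iff.2 fun g => commute_rpart (Subgroup.mem_center_iff.1 hz g)
  have h3 := hO _ (hn _ (Subgroup.zpowers_le.2 h2)) (by
    rw [Nat.card_zpowers]; exact Nat.odd_iff.2 (by have := rpart_reg (p := 2) z; omega))
  rw [Subgroup.zpowers_eq_bot] at h3
  have h4 := ppart_isPElt (p := 2) z
  rw [← mul_one (ppart 2 z), ← h3, ppart_mul_rpart] at h4
  obtain ⟨c, hc⟩ := exists_conj_mem_of_pelt h.syl h4
  rw [Subgroup.mem_center_iff.1 hz c, mul_inv_cancel_right] at hc
  have h5 : z * z = 1 := by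
    rcases h.conj_eq hc with ⟨k, rfl⟩ | h6
    · have := H6.conj_zpow_of_inverts h.inv k
      rwa [Subgroup.mem_center_iff.1 hz b, mul_inv_cancel_right, ← mul_eq_one_iff_eq_inv] at this
    · have := h6 a (Subgroup.mem_zpowers a)
      rw [← Subgroup.mem_center_iff.1 hz a, mul_inv_cancel_right, ← mul_eq_one_iff_eq_inv,
        ← pow_two, ← orderOf_dvd_iff_pow_eq_one, h.ord, pow_succ] at this
      have h7 := Nat.le_of_dvd two_pos this
      have := Nat.one_le_two_pow (n := n)
      omega
  by_cases hz1 : z = 1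
  · rw [hz1]; exact one_mem _
  · rw [h.unique hc (H6.ord2_of h5 hz1)]; exact Subgroup.mem_zpowers _

end Cfsg.Agent.S0201
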