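import Cfsg.Statements.S0203
import Cfsg.Agent.H6.Klein

set_option autoImplicit false
open Cfsg

namespace Cfsg.Agent.S0203

/-- If a Sylow 2-subgroup P of a finite group G is a Klein four-group, then G has three classes of involutions if and only if P has a normal complement in G. -/
theorem result {G : Type*} [Group G] [Finite G] (P : Sylow 2 G) (hP : IsKleinFour (P : Subgroup G)) : Nat.card {C : ConjClasses G // ∃ t : G, orderOf t = 2 ∧ ConjClasses.mk t = C} = 3 ↔ ∃ N : Subgroup G, N.Normal ∧ Subgroup.IsComplement' N (P : Subgroup G) := by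
  rcases H6.kleinFour_sylow_cases P hP with ⟨h1, h2⟩ | ⟨h1, h2⟩
  · refine iff_of_false (by omega) ?_
    rintro ⟨N, hN, hc⟩
    obtain ⟨a, b, ha, hb, hab, -, hmem⟩ := H6.kleinFour_elts hP
    have haP : a ∈ (P : Subgroup G) := (hmem a).2 (by simp)
    have hbP : b ∈ (P : Subgroup G) := (hmem b).2 (by simp)
    obtain ⟨s, hs, he⟩ := H6.fusion_of_normal_complement hc haP hbP (h1 a b ha hb)
    rw [H6.conj_eq_iff_commute.2 (H6.kleinFour_commute hP hs haP)] at he
    exact hab he
  · exact iff_of_true h2 (H6.normal_complement_of_no_fusion P h1)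

end Cfsg.Agent.S0203
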