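import Cfsg.Statements.S0210
import Cfsg.Agent.H6.Inv2

set_option autoImplicit false
open Cfsg

namespace Cfsg.Agent.S0210

/-- If x, y are involutions whose product has even order, no element of the subgroup generated by x and y conjugates x to y. -/
theorem result {G : Type*} [Group G] [Finite G] (x y : G) (hx : orderOf x = 2) (hy : orderOf y = 2) (heven : Even (orderOf (x * y))) (d : G) (hd : d ∈ Subgroup.closure ({x, y} : Set G)) : d * x * d⁻¹ ≠ y := by
  have hx' := H6.ord2_mul_self hx
  have hy' := H6.ord2_mul_self hy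
  obtain ⟨k, hk⟩ := H6.conj_in_closure_pair hx' hy' hd
  intro h
  rw [h] at hk
  have h1 : (x * y) ^ (2 * k + 1) = 1 := by
    have : y = (x * y)⁻¹ * x := by
      rw [mul_inv_rev, mul_assoc, inv_mul_cancel, mul_one, H6.ord2_inv hy]
    nth_rewrite 1 [this] at hk
    rw [zpow_add, zpow_one, ← mul_right_cancel hk, inv_mul_cancel]
  have h2 := orderOf_dvd_iff_zpow_eq_one.2 h1
  have h3 : (2 : ℤ) ∣ (orderOf (x * y) : ℤ) := by exact_mod_cast heven.two_dvd
  have := h3.trans h2
  omega

end Cfsg.Agent.S0210
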