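import Cfsg.Statements.S0211
import Cfsg.Agent.H6.Inv2

set_option autoImplicit false
open Cfsg

namespace Cfsg.Agent.S0211

/-- Let x, y be involutions with xy of even order n and z = (xy)^(n/2). Then xz is conjugate to x by an element of the subgroup generated by x, y if and only if 4 divides n. -/
theorem result {G : Type*} [Group G] [Finite G] (x y : G) (hx : orderOf x = 2) (hy : orderOf y = 2) (heven : Even (orderOf (x * y))) : (∃ d ∈ Subgroup.closure ({x, y} : Set G), d * x * d⁻¹ = x * (x * y) ^ (orderOf (x * y) / 2)) ↔ 4 ∣ orderOf (x * y) := by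
  have hx' := H6.ord2_mul_self hx
  have hy' := H6.ord2_mul_self hy
  obtain ⟨h1, h2, h3⟩ := H6.exists_central_inv hx' hy' heven
  rw [← h2.eq]
  obtain ⟨m, hm⟩ := heven
  have hm2 : orderOf (x * y) / 2 = m := by omega
  rw [hm2]
  constructor
  · rintro ⟨d, hd, h⟩
    obtain ⟨k, hk⟩ := H6.conj_in_closure_pair hx' hy' hd
    rw [hk] at h
    have h4 := mul_right_cancel h
    rw [← zpow_natCast, zpow_eq_zpow_iff_modEq, hm] at h4
    have h5 := h4.dvd
    have h6 : (2 : ℤ) ∣ (m : ℤ) - 2 * k := (Dvd.intro (m : ℤ) (by push_cast; ring)).trans h5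
    omega
  · intro h4
    obtain ⟨k, hk⟩ : 2 ∣ m := by omega
    refine ⟨(x * y) ^ (k : ℤ), Subgroup.zpow_mem _ (Subgroup.mul_mem _ ?_ ?_) _, ?_⟩
    · exact Subgroup.subset_closure (by simp)
    · exact Subgroup.subset_closure (by simp)
    · rw [H6.zpow_conj_of_inverts (H6.inv_conj_mul hx' hy'), hk]; norm_cast

end Cfsg.Agent.S0211
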