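import Cfsg.Statements.S0212
import Cfsg.Agent.H6.BrauerFowler

set_option autoImplicit false
open Cfsg

namespace Cfsg.Agent.S0212

/-- The Brauer–Fowler bound: if G is a finite simple group and t an involution of G whose centralizer has order n, then |G| ≤ (2n^2)!. -/
theorem result {G : Type*} [Group G] [Finite G] [IsSimpleGroup G] (t : G) (ht : orderOf t = 2) : Nat.card G ≤ Nat.factorial (2 * (Nat.card (Subgroup.centralizer ({t} : Set G))) ^ 2) := by
  set c := Nat.card (Subgroup.centralizer ({t} : Set G)) with hc
  have hc0 : 0 < c := Nat.card_pos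
  rcases (inferInstance : (Subgroup.center G).Normal).eq_bot_or_eq_top with h | h
  · obtain ⟨H, hH, hi⟩ := H6.brauer_fowler_index' ht fun u hu huZ =>
      H6.ord2_ne_one hu (by rwa [h] at huZ)
    refine (Nat.le_of_dvd (Nat.factorial_pos _) (H6.card_dvd_factorial_of_simple hH)).trans
      (Nat.factorial_le ?_)
    rw [← hc] at hi
    have : 0 < c ^ 2 := by positivity
    omega
  · have : Subgroup.centralizer ({t} : Set G) = ⊤ := by
      rw [eq_top_iff]
      intro y _
      have : t ∈ Subgroup.center G := h ▸ Subgroup.mem_top t
      exact H6.mem_cent_singleton.2 (Subgroup.mem_center_iff.1 this y)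
    rw [this, Subgroup.card_top] at hc
    rw [← hc]
    exact le_trans (by nlinarith) (Nat.self_le_factorial _)

end Cfsg.Agent.S0212
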