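import Cfsg.Statements.S0213
import Cfsg.Agent.H6.Misc

set_option autoImplicit false
open Cfsg

namespace Cfsg.Agent.S0213

open Classical in
theorem aux {G : Type*} [Group G] [Fintype G] (x₁ x₂ z z' : G) (h : IsConj z z') :
    (Finset.univ.filter fun p : G × G =>
      IsConj x₁ p.1 ∧ IsConj x₂ p.2 ∧ z ∈ Subgroup.zpowers (p.1 * p.2)).card ≤
    (Finset.univ.filter fun p : G × G =>
      IsConj x₁ p.1 ∧ IsConj x₂ p.2 ∧ z' ∈ Subgroup.zpowers (p.1 * p.2)).card := by
  obtain ⟨g, rfl⟩ := isConj_iff.1 h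
  refine Finset.card_le_card_of_injOn (fun p => (g * p.1 * g⁻¹, g * p.2 * g⁻¹)) ?_ ?_
  · rintro ⟨u, v⟩ hp
    simp only [Finset.coe_filter, Finset.mem_univ, true_and, Set.mem_ofPred_eq] at hp ⊢
    obtain ⟨h1, h2, k, hk⟩ := hp
    refine ⟨h1.trans (isConj_iff.2 ⟨g, rfl⟩), h2.trans (isConj_iff.2 ⟨g, rfl⟩), k, ?_⟩
    simp only at hk ⊢
    rw [← hk, ← conj_zpow]
    congr 1; group
  · rintro ⟨u, v⟩ - ⟨u', v'⟩ - h
    simpa using h

/-- Thompson Order Formula, two-class case: if every involution of the finite group G is conjugate to exactly one of the non-conjugate involutions x₁, x₂, and nᵢ is the number of pairs (u, v) with u conjugate to x₁, v conjugate to x₂ and xᵢ in the cyclic group generated by uv, then |G| = |C(x₂)| n₁ + |C(x₁)| n₂. -/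
theorem result {G : Type*} [Group G] [Finite G] (x₁ x₂ : G) (h₁ : orderOf x₁ = 2) (h₂ : orderOf x₂ = 2) (hnc : ¬ IsConj x₁ x₂) (hall : ∀ t : G, orderOf t = 2 → IsConj x₁ t ∨ IsConj x₂ t) : Nat.card G = Nat.card (Subgroup.centralizer ({x₂} : Set G)) * Nat.card {p : G × G // IsConj x₁ p.1 ∧ IsConj x₂ p.2 ∧ x₁ ∈ Subgroup.zpowers (p.1 * p.2)} + Nat.card (Subgroup.centralizer ({x₁} : Set G)) * Nat.card {p : G × G // IsConj x₁ p.1 ∧ IsConj x₂ p.2 ∧ x₂ ∈ Subgroup.zpowers (p.1 * p.2)} := by
  classical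
  have := Fintype.ofFinite G
  let A := Finset.univ.filter fun p : G × G => IsConj x₁ p.1 ∧ IsConj x₂ p.2
  let f : G × G → G := fun p => (p.1 * p.2) ^ (orderOf (p.1 * p.2) / 2)
  have hf : ∀ p ∈ A, orderOf (f p) = 2 := by
    intro p hp
    simp only [A, Finset.mem_filter, Finset.mem_univ, true_and] at hp
    have hu : orderOf p.1 = 2 := by rw [← H6.isConj_orderOf hp.1, h₁]
    have hv : orderOf p.2 = 2 := by rw [← H6.isConj_orderOf hp.2, h₂]
    refine (H6.exists_central_inv (H6.ord2_mul_self hu) (H6.ord2_mul_self hv) ?_).1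
    by_contra h
    exact hnc (hp.1.trans ((H6.isConj_of_odd (H6.ord2_mul_self hu) (H6.ord2_mul_self hv)
      (Nat.not_even_iff_odd.1 h)).trans hp.2.symm))
  let N : G → ℕ := fun z => (Finset.univ.filter fun p : G × G =>
      IsConj x₁ p.1 ∧ IsConj x₂ p.2 ∧ z ∈ Subgroup.zpowers (p.1 * p.2)).card
  have hN : ∀ z z', IsConj z z' → N z = N z' := fun z z' h =>
    le_antisymm (aux x₁ x₂ z z' h) (aux x₁ x₂ z' z h.symm)
  have hfib : ∀ z, orderOf z = 2 → (A.filter fun p => f p = z).card = N z := by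
    intro z hz
    congr 1
    ext p
    simp only [Finset.mem_filter, Finset.mem_univ, true_and]
    constructor
    · rintro ⟨hp, rfl⟩
      simp only [A, Finset.mem_filter, Finset.mem_univ, true_and] at hp
      exact ⟨hp.1, hp.2, Subgroup.pow_mem _ (Subgroup.mem_zpowers _) _⟩
    · rintro ⟨a, b, c⟩
      have hp : p ∈ A := by simp only [A, Finset.mem_filter, Finset.mem_univ, true_and]; exact ⟨a, b⟩
      exact ⟨hp, H6.ord2_unique_zpowers (Subgroup.pow_mem _ (Subgroup.mem_zpowers _) _) c (hf p hp) hz⟩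
  let K₁ := Finset.univ.filter fun u : G => IsConj x₁ u
  let K₂ := Finset.univ.filter fun u : G => IsConj x₂ u
  have hA : A.card = K₁.card * K₂.card := by
    rw [← Finset.card_product]
    congr 1
    ext p; simp [A, K₁, K₂]
  have hdisj : Disjoint K₁ K₂ := by
    rw [Finset.disjoint_filter]
    intro u _ a b
    exact hnc (a.trans b.symm)
  have hsum : A.card = K₁.card * N x₁ + K₂.card * N x₂ := by
    rw [Finset.card_eq_sum_card_fiberwise (f := f) (t := K₁ ∪ K₂) (fun p hp => by
      simpa [K₁, K₂, -isConj_iff] using hall _ (hf p hp)), Finset.sum_union hdisj]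
    congr 1
    · rw [Finset.sum_const_nat (m := N x₁)]
      intro z hz
      simp only [K₁, Finset.mem_filter, Finset.mem_univ, true_and] at hz
      rw [hfib z (by rw [← H6.isConj_orderOf hz, h₁]), hN _ _ hz]
    · rw [Finset.sum_const_nat (m := N x₂)]
      intro z hz
      simp only [K₂, Finset.mem_filter, Finset.mem_univ, true_and] at hz
      rw [hfib z (by rw [← H6.isConj_orderOf hz, h₂]), hN _ _ hz]
  have e1 := H6.card_cent_mul_card_class x₁
  have e2 := H6.card_cent_mul_card_class x₂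
  rw [Nat.card_eq_fintype_card (α := {u // IsConj _ u}), Fintype.card_subtype] at e1 e2
  rw [Nat.card_eq_fintype_card (α := {p : G × G // _}), Fintype.card_subtype,
    Nat.card_eq_fintype_card (α := {p : G × G // _}), Fintype.card_subtype]
  change _ * K₁.card = _ at e1
  change _ * K₂.card = _ at e2
  change _ = _ * N x₁ + _ * N x₂
  have hg : 0 < Nat.card G := Nat.card_pos
  generalize Nat.card (Subgroup.centralizer ({x₁} : Set G)) = c₁ at *
  generalize Nat.card (Subgroup.centralizer ({x₂} : Set G)) = c₂ at *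
  apply Nat.eq_of_mul_eq_mul_left hg
  calc Nat.card G * Nat.card G = (c₁ * K₁.card) * (c₂ * K₂.card) := by rw [e1, e2]
    _ = c₁ * c₂ * (K₁.card * N x₁ + K₂.card * N x₂) := by rw [← hsum, hA]; ring
    _ = (c₁ * K₁.card) * (c₂ * N x₁) + (c₂ * K₂.card) * (c₁ * N x₂) := by ring
    _ = _ := by rw [e1, e2]; ring

end Cfsg.Agent.S0213
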