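import Cfsg.Statements.S0216
import Cfsg.Agent.H6.Inv2

set_option autoImplicit false
open Cfsg

namespace Cfsg.Agent.S0216

/-- For an involution u in a Sylow 2-subgroup P of a finite group G, the following are equivalent: no G-conjugate of u other than u lies in P; every commutator of u with an element of G has odd order. -/
theorem result {G : Type*} [Group G] [Finite G] (P : Sylow 2 G) (u : G) (hu : orderOf u = 2) (huP : u ∈ P) : (∀ g : G, g * u * g⁻¹ ∈ P → g * u * g⁻¹ = u) ↔ (∀ g : G, Odd (orderOf (u * g * u⁻¹ * g⁻¹))) := by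
  constructor
  · intro h g
    have := H6.iso_odd_mul (H6.iso_of_sylow P hu huP h) (IsConj.refl u) (isConj_iff.2 ⟨g, rfl⟩)
    rw [H6.ord2_inv hu]
    simpa [mul_assoc] using this
  · intro h g hg
    have hz : Cfsg.IsIsolatedInvolution u := H6.iso_of_odd hu fun g => by
      have := h g
      rw [H6.ord2_inv hu] at this
      simpa [mul_assoc] using this
    exact H6.iso_eq_of_mem_pgroup hz (isConj_iff.2 ⟨g, rfl⟩) (IsConj.refl u) P.isPGroup' hg huP

end Cfsg.Agent.S0216
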