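import Cfsg.Statements.S0217
import Cfsg.Agent.H5.SigEnd

set_option autoImplicit false
open Cfsg

namespace Cfsg.Agent.S0217

/-- The solvable signalizer functor Theorem. Let A be an elementary abelian p-subgroup of rank at least 3 of a finite group G, and for each nontrivial a in A let θ a be an A-invariant solvable subgroup of C(a) of order prime to p, such that θ a ∩ C(b) ≤ θ b for all nontrivial a, b in A (balance). Then the subgroup generated by all the θ a has order prime to p and meets C(a) in exactly θ a for each nontrivial a in A. -/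
theorem result {G : Type*} [Group G] [Finite G] {p : ℕ} [Fact p.Prime] (A : Subgroup G) (hAcomm : ∀ a ∈ A, ∀ b ∈ A, a * b = b * a) (hAexp : ∀ a ∈ A, a ^ p = 1) (hArank : p ^ 3 ≤ Nat.card A) (θ : G → Subgroup G) (hθC : ∀ a ∈ A, a ≠ 1 → θ a ≤ Subgroup.centralizer {a}) (hθp : ∀ a ∈ A, a ≠ 1 → ¬ p ∣ Nat.card (θ a)) (hθinv : ∀ a ∈ A, a ≠ 1 → ∀ b ∈ A, ∀ x ∈ θ a, b * x * b⁻¹ ∈ θ a) (hθsolv : ∀ a ∈ A, a ≠ 1 → Group.IsSolvable (θ a)) (hbal : ∀ a ∈ A, a ≠ 1 → ∀ b ∈ A, b ≠ 1 → θ a ⊓ Subgroup.centralizer {b} ≤ θ b) : ¬ p ∣ Nat.card ↥(⨆ a : {a : G // a ∈ A ∧ a ≠ 1}, θ a) ∧ ∀ a ∈ A, a ≠ 1 → (⨆ b : {a : G // a ∈ A ∧ a ≠ 1}, θ b) ⊓ Subgroup.centralizer {a} = θ a := by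
  have hs : H5.SF p A θ := H5.SF.of_def ⟨H1.isMulCommutative_iff'.2 hAcomm, hAexp⟩
    ⟨⟨hθC, hθp, hθinv, hbal⟩, hθsolv⟩
  have h := hs.mem_closure hArank
  exact ⟨(Nat.Prime.coprime_iff_not_dvd Fact.out).1 h.cop.symm, fun a ha a1 =>
    le_antisymm (h.le a ha a1) (le_inf (H5.le_sigClosure ha a1) (hs.le_cent a ha a1))⟩

end Cfsg.Agent.S0217
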