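import Cfsg.Statements.S0218
import Cfsg.Agent.H6.Dihedral

set_option autoImplicit false
open Cfsg

namespace Cfsg.Agent.S0218

/-- The generalized quaternion group of order 2^(n+3) contains exactly one element of order 2. -/
theorem result (n : ℕ) : Nat.card {x : QuaternionGroup (2 ^ (n + 1)) // orderOf x = 2} = 1 := by
  obtain ⟨a, b, ha, hb, hab, hba, hall⟩ :=
    H6.exists_gens_of_quaternion (MulEquiv.refl (QuaternionGroup (2 ^ (n + 1))))
  have hN : (2 : ℕ) ^ (n + 1) ≠ 0 := by positivity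
  generalize (2 : ℕ) ^ (n + 1) = N at *
  have h2 : orderOf (a ^ N) = 2 := by
    have := H6.ord2_pow_half (r := a) (by omega) (by rw [ha]; exact even_two_mul N)
    rwa [ha, Nat.mul_div_cancel_left _ two_pos] at this
  rw [Nat.card_eq_one_iff_exists]
  refine ⟨⟨a ^ N, h2⟩, ?_⟩
  rintro ⟨x, hx⟩
  apply Subtype.ext
  obtain ⟨k, rfl | rfl⟩ := hall x
  · have h3 := H6.ord2_mul_self hx
    rw [← zpow_add, ← orderOf_dvd_iff_zpow_eq_one, ha, ← two_mul] at h3
    push_cast at h3
    obtain ⟨j, rfl⟩ := (mul_dvd_mul_iff_left two_ne_zero).1 h3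
    simp only
    rw [zpow_mul, zpow_natCast] at hx ⊢
    rcases Int.even_or_odd' j with ⟨m, rfl | rfl⟩
    · rw [zpow_mul, zpow_two, H6.ord2_mul_self h2, one_zpow] at hx
      simp at hx
    · rw [zpow_add, zpow_mul, zpow_two, H6.ord2_mul_self h2, one_zpow, one_mul, zpow_one]
  · exfalso
    have h3 := H6.ord2_mul_self hx
    rw [mul_assoc, ← mul_assoc b, H6.mul_zpow_of_inverts hab, mul_assoc, hb, ← mul_assoc,
      ← zpow_add, add_neg_cancel, zpow_zero, one_mul] at h3
    exact H6.ord2_ne_one h2 h3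

end Cfsg.Agent.S0218
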