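import Cfsg.Statements.S0220
import Cfsg.Agent.H6.Count

set_option autoImplicit false
open Cfsg

namespace Cfsg.Agent.S0220

/-- If x is an involution of a finite group G and a Sylow 2-subgroup of the centralizer of x is cyclic, then G has a subgroup of index 2; in particular G is not simple unless it has order 2. -/
theorem result {G : Type*} [Group G] [Finite G] (x : G) (hx : orderOf x = 2) (S : Sylow 2 ↥(Subgroup.centralizer ({x} : Set G))) (hS : IsCyclic (S : Subgroup ↥(Subgroup.centralizer ({x} : Set G)))) : ∃ H : Subgroup G, H.index = 2 := by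
  obtain ⟨T, hT⟩ := (H6.isPGroup_zpowers_ord2 (H6.ord2_mul_self hx)).exists_le_sylow
  have hxT : x ∈ (T : Subgroup G) := hT (Subgroup.mem_zpowers x)
  have hne : (T : Subgroup G) ≠ ⊥ := fun h => H6.ord2_ne_one hx (by rwa [h] at hxT)
  obtain ⟨z, hzT, hz, hzc⟩ := H6.exists_central_ord2 T.isPGroup' hne
  let C := Subgroup.centralizer ({x} : Set G)
  have hcyc : ∀ Q : Subgroup G, IsPGroup 2 Q → Q ≤ C → IsCyclic Q := by
    intro Q hQ hQC
    obtain ⟨c, -, hc⟩ := H6.exists_conj_le_sylow_sub S hQ hQC
    have h1 : IsCyclic ((S : Subgroup C).map C.subtype) :=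
      (Subgroup.equivMapOfInjective _ _ C.subtype_injective).isCyclic.1 hS
    have h2 : Q.map (MulAut.conj c).toMonoidHom ≤ (S : Subgroup C).map C.subtype := by
      rintro _ ⟨y, hy, rfl⟩
      exact hc y hy
    have h3 := H6.isCyclic_of_le' h1 h2
    exact isCyclic_of_injective (Subgroup.equivMapOfInjective Q (MulAut.conj c).toMonoidHom
      (MulAut.conj c).injective).toMonoidHom (MulEquiv.injective _)
  have hzx : z = x := by
    refine H6.ord2_unique_of_isCyclic (hcyc ((T : Subgroup G) ⊓ C) T.isPGroup'.to_inf_left inf_le_right)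
      ⟨hzT, H6.mem_cent_iff_commute.2 (hzc x hxT)⟩ ⟨hxT, H6.mem_cent_iff_commute.2 (Commute.refl x)⟩ hz hx
  subst hzx
  have hTc : IsCyclic (T : Subgroup G) :=
    hcyc T T.isPGroup' fun t ht => H6.mem_cent_iff_commute.2 (hzc t ht).symm
  refine H6.exists_index_two_of_cyclic_sylow ?_ T hTc
  have := orderOf_dvd_natCard z
  rw [hx] at this
  exact even_iff_two_dvd.2 this

end Cfsg.Agent.S0220
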