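import Cfsg.Statements.S0221
import Cfsg.Agent.H6.TT2
import Cfsg.Agent.H5.PRank
import Cfsg.Agent.H5.SigEq
import Cfsg.Agent.H6.Q8

set_option autoImplicit false
open Cfsg

namespace Cfsg.Agent.S0221

/-- Let G be a finite group with no subgroup of index 2 whose 2-rank is at least 3 (it contains an elementary abelian subgroup of order 8). Then the centralizer of every involution of G also contains an elementary abelian subgroup of order 8. -/
theorem result {G : Type*} [Group G] [Finite G] (hno : ∀ H : Subgroup G, H.index ≠ 2) (hrank : ∃ E : Subgroup G, Nat.card E = 8 ∧ ∀ e ∈ E, e ^ 2 = 1) (x : G) (hx : orderOf x = 2) : ∃ E : Subgroup G, E ≤ Subgroup.centralizer ({x} : Set G) ∧ Nat.card E = 8 ∧ ∀ e ∈ E, e ^ 2 = 1 := by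
  open Subgroup in
  haveI : Fact (Nat.Prime 2) := ⟨Nat.prime_two⟩
  suffices h : ¬ PRankLE 2 2 (centralizer ({x} : Set G)) by
    obtain ⟨A, h1, h2, h3⟩ := H5.not_pRankLE_iff.1 h
    obtain ⟨E, h4, h5⟩ := H5.exists_le_card_eq_pow (H5.isPGroup_of_elemAb h2) h3
    exact ⟨E, h4.trans h1, h5, fun e he => h2.2 e (h4 he)⟩
  obtain ⟨E, hE8, hE2⟩ := hrank
  have hE : IsElementaryAbelian 2 E := ⟨H1.isMulCommutative_iff'.2 (fun a ha b hb => by
    have h1 := hE2 _ (mul_mem ha hb)
    have h2 := hE2 _ ha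
    have h3 := hE2 _ hb
    rw [pow_two] at h1 h2 h3
    have e1 := inv_eq_of_mul_eq_one_right h1
    rw [mul_inv_rev, inv_eq_of_mul_eq_one_right h2, inv_eq_of_mul_eq_one_right h3] at e1
    exact e1.symm), hE2⟩
  obtain ⟨S, hES⟩ := (H5.isPGroup_of_elemAb hE).exists_le_sylow
  have hS : ¬ PRankLE 2 2 (S : Subgroup G) := H5.not_pRankLE_iff.2 ⟨E, hES, hE, hE8.ge⟩
  obtain ⟨U, hUn, hU, hU4⟩ := H5.exists_normal_rank_two' S.2 hS
  have hT := H5.rank_centralizer_of_normal (S := ⊤) (le_normalizer_of_normal (H := U)) hU hU4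
    (fun h => hS fun A h1 h2 => by
      have := h (A.subgroupOf ⊤) inferInstance fun a ha => Subtype.ext (h2 a ha)
      rwa [H1.card_subgroupOf_of_le le_top] at this)
  have key : ∀ y : (S : Subgroup G), orderOf y = 2 → y ∈ centralizer (U : Set (S : Subgroup G)) →
      ¬ PRankLE 2 2 (centralizer ({(y : G)} : Set G)) := by
    intro y hy hyU
    suffices h : ¬ PRankLE 2 2 (centralizer ({y} : Set (S : Subgroup G))) by
      obtain ⟨A, h1, h2, h3⟩ := H5.not_pRankLE_iff.1 h
      refine H5.not_pRankLE_iff.2 ⟨A.map (S : Subgroup G).subtype, ?_, ?_, ?_⟩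
      · rintro _ ⟨a, ha, rfl⟩
        exact mem_centralizer_singleton_iff.2 (congrArg Subtype.val (mem_centralizer_singleton_iff.1 (h1 ha)))
      · refine ⟨H1.isMulCommutative_iff'.2 ?_, ?_⟩
        · rintro _ ⟨a, ha, rfl⟩ _ ⟨b, hb, rfl⟩
          exact congrArg Subtype.val (H1.isMulCommutative_iff'.1 h2.1 a ha b hb)
        · rintro _ ⟨a, ha, rfl⟩
          exact congrArg Subtype.val (h2.2 a ha)
      · rwa [card_map_of_injective (S : Subgroup G).subtype_injective]
    by_cases h : y ∈ U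
    · obtain ⟨A, h1, h2, h3⟩ := H5.not_pRankLE_iff.1 hT
      exact H5.not_pRankLE_iff.2 ⟨A, h1.trans (centralizer_le (by simpa using h)), h2, h3⟩
    · have h1 : IsElementaryAbelian 2 (zpowers y) := H5.elemAb_zpowers hy
      have h2 := H5.elemAb_sup h1 hU (zpowers_le.2 hyU)
      refine H5.not_pRankLE_centralizer₁ h2 (H5.pow_succ_le_of_lt (H5.isPGroup_of_elemAb h2) ?_)
        (mem_sup_left (mem_zpowers y))
      rw [← hU4]
      exact H1.card_lt_of_lt (lt_of_le_of_ne le_sup_right fun e => h (e ▸ mem_sup_left (mem_zpowers y)))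
  obtain ⟨g, hgS, hgT⟩ : ∃ g : G, ∃ h : g * x * g⁻¹ ∈ (S : Subgroup G),
      (⟨_, h⟩ : (S : Subgroup G)) ∈ centralizer (U : Set (S : Subgroup G)) := by
    obtain ⟨g, hg⟩ := H6.exists_conj_mem_sylow_ord2 S hx
    by_cases h : (⟨_, hg⟩ : (S : Subgroup G)) ∈ centralizer (U : Set (S : Subgroup G))
    · exact ⟨g, hg, h⟩
    have hi : (centralizer (U : Set (S : Subgroup G))).index = 2 := by
      have h1 := H5.card_le_mul_inf_centralizer (S := ⊤) (H5.isPGroup_of_elemAb hU) hU4.le
        (S.2.to_subgroup ⊤) (le_normalizer_of_normal (H := U))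
      rw [top_inf_eq, card_top] at h1
      have h2 := (centralizer (U : Set (S : Subgroup G))).card_mul_index
      have h3 : (centralizer (U : Set (S : Subgroup G))).index ≠ 1 := fun e =>
        h (index_eq_one.1 e ▸ mem_top _)
      have h4 := (centralizer (U : Set (S : Subgroup G))).index_ne_zero_of_finite
      have h5 : 0 < Nat.card (centralizer (U : Set (S : Subgroup G))) := Nat.card_pos
      by_contra h6
      have : Nat.card (centralizer (U : Set (S : Subgroup G))) * 3 ≤ _ * (centralizer (U : Set (S : Subgroup G))).index := Nat.mul_le_mul_left _ (by omega)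
      omega
    obtain ⟨c, hc, -⟩ := H10.thompson_transfer_two (H6.pResidual_eq_top_of_no_index_two hno)
      (H10.isSylowIn_top S) (T := (centralizer (U : Set (S : Subgroup G))).map (S : Subgroup G).subtype)
      (by rw [relIndex, subgroupOf, comap_map_eq_self_of_injective (S : Subgroup G).subtype_injective, hi])
      hg (H6.ord2_mul_self (H6.ord2_conj hx g)) (by
        rintro ⟨y, hy, e⟩
        exact h (by rwa [show (⟨_, hg⟩ : (S : Subgroup G)) = y from Subtype.ext e.symm]))
      (R := ⊥) IsPGroup.of_bot bot_le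
    obtain ⟨h1, y, hy, e⟩ := hc
    refine ⟨c * g, by simpa [mul_assoc] using h1, ?_⟩
    have e2 : ∀ h, (⟨c * g * x * (c * g)⁻¹, h⟩ : (S : Subgroup G)) = y := fun h =>
      Subtype.ext (by simp [mul_assoc] at e ⊢; exact e.symm)
    rw [e2]; exact hy
  have h1 := key _ (by rw [← orderOf_coe]; exact H6.ord2_conj hx g) hgT
  obtain ⟨A, h2, h3, h4⟩ := H5.not_pRankLE_iff.1 h1
  refine H5.not_pRankLE_iff.2 ⟨H5.cj g⁻¹ A, ?_, H5.elemAb_cj h3 _, by rwa [H5.card_cj]⟩
  rw [H5.cj_le_iff, inv_inv, H5.cj_centralizer_singleton]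
  exact h2

end Cfsg.Agent.S0221
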