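import Cfsg.Statements.S0229
import Cfsg.Agent.H6.Count
import Cfsg.Agent.S0211

set_option autoImplicit false
open Cfsg

namespace Cfsg.Agent.S0229

/-- Let t be an involution of a Sylow 2-subgroup S of a finite group G, conjugate in G to no other element of S, and let s be an involution of G not conjugate to t. Then the order of st is twice an odd number. -/
theorem result {G : Type*} [Group G] [Finite G] (S : Sylow 2 G) (t : G) (ht : orderOf t = 2) (htS : t ∈ S) (hiso : ∀ g : G, g * t * g⁻¹ ∈ S → g * t * g⁻¹ = t) (s : G) (hs : orderOf s = 2) (hns : ¬ IsConj s t) : orderOf (s * t) % 4 = 2 := by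
  have hz := H6.iso_of_sylow S ht htS hiso
  have hs' := H6.ord2_mul_self hs
  have ht' := H6.ord2_mul_self ht
  have h0 : orderOf (s * t) = orderOf (t * s) := by
    rw [← orderOf_inv, mul_inv_rev, H6.ord2_inv hs, H6.ord2_inv ht]
  rw [h0]
  have he : Even (orderOf (t * s)) := by
    by_contra h
    exact hns (H6.isConj_of_odd ht' hs' (Nat.not_even_iff_odd.1 h)).symm
  have h4 : ¬ 4 ∣ orderOf (t * s) := by
    intro h4
    obtain ⟨d, -, hd⟩ := (Cfsg.Agent.S0211.result t s ht hs he).2 h4
    obtain ⟨h1, h2, -⟩ := H6.exists_central_inv ht' hs' he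
    have := hz.2 d (by rw [hd]; exact (Commute.refl t).mul_right h2.symm)
    rw [hd] at this
    exact H6.ord2_ne_one h1 (by simpa using this)
  obtain ⟨m, hm⟩ := he
  omega

end Cfsg.Agent.S0229
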