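import Cfsg.Statements.S0230
import Cfsg.Agent.H6.BrauerFowler

set_option autoImplicit false
open Cfsg

namespace Cfsg.Agent.S0230

/-- Let G be a finite group with two non-conjugate involutions, and let t be an involution whose centralizer has maximal order among centralizers of involutions. Then |G| < |C_G(t)|^3. -/
theorem result {G : Type*} [Group G] [Finite G] (s t : G) (hs : orderOf s = 2) (ht : orderOf t = 2) (hnc : ¬ IsConj s t) (hmax : ∀ u : G, orderOf u = 2 → Nat.card (Subgroup.centralizer ({u} : Set G)) ≤ Nat.card (Subgroup.centralizer ({t} : Set G))) : Nat.card G < Nat.card (Subgroup.centralizer ({t} : Set G)) ^ 3 := by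
  classical
  have := Fintype.ofFinite G
  set c := Nat.card (Subgroup.centralizer ({t} : Set G)) with hc
  have hc0 : 0 < c := Nat.card_pos
  have h1 := H6.card_cent_mul_card_class t
  have h2 := H6.card_ord2_commute_lt s
  have h3 := hmax s hs
  have h4 : Nat.card {u : G // IsConj t u} ≤ Nat.card {z : G // orderOf z = 2 ∧ Commute z s} * c := by
    rw [Nat.card_eq_fintype_card, Nat.card_eq_fintype_card, Fintype.card_subtype,
      Fintype.card_subtype]
    refine le_trans (Finset.card_le_card (t := (Finset.univ.filter fun z : G => orderOf z = 2 ∧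
      Commute z s).biUnion fun z => Finset.univ.filter fun u : G =>
        u ∈ Subgroup.centralizer ({z} : Set G)) ?_) (Finset.card_biUnion_le_card_mul _ _ _ ?_)
    · intro u hu
      simp only [Finset.mem_filter, Finset.mem_univ, true_and, Finset.mem_biUnion] at hu ⊢
      have hu2 : orderOf u = 2 := by rw [← H6.isConj_orderOf hu, ht]
      have he : Even (orderOf (s * u)) := by
        by_contra h
        exact hnc ((H6.isConj_of_odd (H6.ord2_mul_self hs) (H6.ord2_mul_self hu2)
          (Nat.not_even_iff_odd.1 h)).trans hu.symm)
      obtain ⟨a1, a2, a3⟩ := H6.exists_central_inv (H6.ord2_mul_self hs) (H6.ord2_mul_self hu2) he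
      exact ⟨_, ⟨a1, a2⟩, H6.mem_cent_iff_commute.2 a3.symm⟩
    · intro z hz
      simp only [Finset.mem_filter, Finset.mem_univ, true_and] at hz
      have := hmax z hz.1
      rwa [Nat.card_eq_fintype_card, Fintype.card_subtype] at this
  rw [← h1, ← hc]
  generalize Nat.card {u : G // IsConj t u} = a at *
  generalize Nat.card {z : G // orderOf z = 2 ∧ Commute z s} = b at *
  have h5 : a < c * c := by nlinarith
  nlinarith

end Cfsg.Agent.S0230
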