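import Cfsg.Statements.S0231
import Cfsg.Agent.H6.Count

set_option autoImplicit false
open scoped Pointwise
open Cfsg

namespace Cfsg.Agent.S0231

/-- Let T be a Sylow 2-subgroup of the finite group G which is not normal and which intersects every other Sylow 2-subgroup trivially. Then G has a single conjugacy class of involutions. -/
theorem result {G : Type*} [Group G] [Finite G] (T : Sylow 2 G) (hnn : ¬ (T : Subgroup G).Normal) (hTI : ∀ g : G, MulAut.conj g • (T : Subgroup G) ≠ T → MulAut.conj g • (T : Subgroup G) ⊓ T = ⊥) (s t : G) (hs : orderOf s = 2) (ht : orderOf t = 2) : IsConj s t := by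
  classical
  -- two involutions lying in a common conjugate pattern
  have hTI' : ∀ (P Q : Sylow 2 G) (x : G), x ≠ 1 → x ∈ P → x ∈ Q → P = Q := by
    intro P Q x hx hP hQ
    obtain ⟨a, rfl⟩ := MulAction.exists_smul_eq G T Q
    obtain ⟨b, rfl⟩ := MulAction.exists_smul_eq G (a • T) P
    rw [H6.mem_sylow_smul, H6.mem_sylow_smul] at hP
    rw [H6.mem_sylow_smul] at hQ
    by_contra hne
    have h1 : MulAut.conj (a⁻¹ * b * a) • (T : Subgroup G) ≠ T := by
      intro h
      apply hne
      have : (a⁻¹ * b * a) • T = T := Sylow.ext (by rw [Sylow.coe_subgroup_smul, h])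
      calc b • a • T = a • ((a⁻¹ * b * a) • T) := by rw [smul_smul, smul_smul]; congr 1; group
        _ = a • T := by rw [this]
    have h2 := hTI _ h1
    have h3 : a⁻¹ * x * a ∈ MulAut.conj (a⁻¹ * b * a) • (T : Subgroup G) ⊓ T := by
      refine ⟨?_, hQ⟩
      rw [H6.conj_smul_eq_map]
      refine H6.mem_map_conj.2 ?_
      have : (a⁻¹ * b * a)⁻¹ * (a⁻¹ * x * a) * (a⁻¹ * b * a) = a⁻¹ * (b⁻¹ * x * b) * a := by group
      rw [this]; exact hP
    rw [h2, Subgroup.mem_bot] at h3
    apply hx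
    calc x = a * (a⁻¹ * x * a) * a⁻¹ := by group
      _ = 1 := by rw [h3]; group
  have key : ∀ (x y : G) (P Q : Sylow 2 G), orderOf x = 2 → orderOf y = 2 → x ∈ P → y ∈ Q → P ≠ Q →
      IsConj x y := by
    intro x y P Q hx hy hxP hyQ hne
    have hx' := H6.ord2_mul_self hx
    have hy' := H6.ord2_mul_self hy
    apply H6.isConj_of_odd hx' hy'
    rw [← Nat.not_even_iff_odd]
    intro he
    obtain ⟨h1, h2, h3⟩ := H6.exists_central_inv hx' hy' he
    obtain ⟨R1, hR1⟩ := (H6.isPGroup_closure_commute (H6.ord2_mul_self h1) hx' h2).exists_le_sylow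
    obtain ⟨R2, hR2⟩ := (H6.isPGroup_closure_commute (H6.ord2_mul_self h1) hy' h3).exists_le_sylow
    have e1 := hTI' P R1 x (H6.ord2_ne_one hx) hxP (hR1 (Subgroup.subset_closure (by simp)))
    have e2 := hTI' Q R2 y (H6.ord2_ne_one hy) hyQ (hR2 (Subgroup.subset_closure (by simp)))
    have e3 := hTI' R1 R2 _ (H6.ord2_ne_one h1) (hR1 (Subgroup.subset_closure (by simp)))
      (hR2 (Subgroup.subset_closure (by simp)))
    exact hne (e1.trans (e3.trans e2.symm))
  obtain ⟨P, hP⟩ := (H6.isPGroup_zpowers_ord2 (H6.ord2_mul_self hs)).exists_le_sylow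
  obtain ⟨Q, hQ⟩ := (H6.isPGroup_zpowers_ord2 (H6.ord2_mul_self ht)).exists_le_sylow
  have hsP : s ∈ P := hP (Subgroup.mem_zpowers s)
  have htQ : t ∈ Q := hQ (Subgroup.mem_zpowers t)
  by_cases hPQ : P = Q
  · subst hPQ
    obtain ⟨R, hR⟩ : ∃ R : Sylow 2 G, R ≠ P := by
      by_contra! h
      have : Subsingleton (Sylow 2 G) := ⟨fun a b => (h a).trans (h b).symm⟩
      exact hnn (Sylow.normal_of_subsingleton T)
    obtain ⟨g, hg⟩ := H6.exists_conj_mem_sylow_ord2 R hs
    exact (isConj_iff.2 ⟨g, rfl⟩).trans (key _ _ R P (H6.ord2_conj hs g) ht hg htQ hR)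
  · exact key s t P Q hs ht hsP htQ hPQ

end Cfsg.Agent.S0231
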