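import Cfsg.Statements.S0232
import Cfsg.Agent.H6.BrauerFowler

set_option autoImplicit false
open Cfsg

namespace Cfsg.Agent.S0232

theorem aux (n : ℕ) : ∀ {G : Type*} [Group G] [Finite G], Nat.card G ≤ n → Even (Nat.card G) →
    2 < Nat.card G → ∃ H : Subgroup G, H ≠ ⊤ ∧ Nat.card G < (Nat.card H) ^ 3 := by
  induction n with
  | zero => intro G _ _ h _ h2; omega
  | succ n ih =>
    intro G _ _ hn heven hgt
    have h2 : ∀ H : Subgroup G, H.index = 2 → ∃ H : Subgroup G, H ≠ ⊤ ∧ Nat.card G < (Nat.card H) ^ 3 := by
      intro H hH
      refine ⟨H, fun h => by rw [h, Subgroup.index_top] at hH; omega, ?_⟩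
      have := H.card_mul_index
      rw [hH] at this
      have h3 : 2 ≤ Nat.card H := by omega
      rw [← this]
      nlinarith [Nat.mul_le_mul h3 h3]
    by_cases hZ : ∃ z : G, orderOf z = 2 ∧ z ∈ Subgroup.center G
    · obtain ⟨z, hz, hzZ⟩ := hZ
      let N := Subgroup.zpowers z
      have hN : N.Normal := ⟨fun x hx g => by
        have : x ∈ Subgroup.center G := (Subgroup.zpowers_le.2 hzZ) hx
        rw [Subgroup.mem_center_iff.1 this g]; simpa using hx⟩
      have hc : Nat.card N = 2 := by rw [Nat.card_zpowers, hz]
      have h3 := N.card_mul_index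
      rw [hc, Subgroup.index_eq_card] at h3
      by_cases he : Even (Nat.card (G ⧸ N))
      · by_cases h4 : 2 < Nat.card (G ⧸ N)
        · obtain ⟨K, hK, hKc⟩ := ih (G := G ⧸ N) (by omega) he h4
          refine ⟨K.comap (QuotientGroup.mk' N), fun h => hK ?_, ?_⟩
          · rw [← Subgroup.map_comap_eq_self_of_surjective (QuotientGroup.mk'_surjective N) K, h,
              Subgroup.map_top_of_surjective _ (QuotientGroup.mk'_surjective N)]
          · have h5 := (K.comap (QuotientGroup.mk' N)).card_mul_index
            rw [Subgroup.index_comap_of_surjective _ (QuotientGroup.mk'_surjective N)] at h5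
            have h6 := K.card_mul_index
            have h7 : 0 < K.index := Nat.pos_of_ne_zero K.index_ne_zero_of_finite
            have h8 : Nat.card (K.comap (QuotientGroup.mk' N)) = 2 * Nat.card K := by
              apply Nat.eq_of_mul_eq_mul_right h7
              rw [h5, mul_assoc, h6, h3]
            rw [h8, ← h3, mul_pow]
            omega
        · apply h2 N
          rw [Subgroup.index_eq_card]
          obtain ⟨m, hm⟩ := he
          omega
      · obtain ⟨T, hT⟩ := (H6.isPGroup_zpowers_ord2 (H6.ord2_mul_self hz)).exists_le_sylow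
        have hTN : (T : Subgroup G) = N := by
          have := (H6.isPGroup_zpowers_ord2 (H6.ord2_mul_self hz)).toSylow (by
            rw [Subgroup.index_eq_card]
            exact fun h => he (even_iff_two_dvd.2 h))
          exact ((H6.isPGroup_zpowers_ord2 (H6.ord2_mul_self hz)).toSylow (by
            rw [Subgroup.index_eq_card]
            exact fun h => he (even_iff_two_dvd.2 h))).is_maximal' T.isPGroup' hT
        obtain ⟨H, hH⟩ := H6.exists_index_two_of_cyclic_sylow heven T (by rw [hTN]; infer_instance)
        exact h2 H hH
    · push Not at hZ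
      obtain ⟨t, ht⟩ := H6.exists_ord2_of_even heven
      obtain ⟨H, hH, hi | hi⟩ := H6.brauer_fowler_index' ht hZ
      · exact h2 H hi
      by_contra! hcon
      have h3 := hcon H hH
      have h4 := hcon (Subgroup.centralizer {t}) (by
        intro h
        apply hZ t ht
        rw [Subgroup.mem_center_iff]
        intro y
        exact H6.mem_cent_singleton.1 (h ▸ Subgroup.mem_top y))
      have h5 := H.card_mul_index
      have h6 : 0 < Nat.card H := Nat.card_pos
      generalize Nat.card (Subgroup.centralizer ({t} : Set G)) = c at *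
      generalize Nat.card H = h at *
      generalize H.index = j at *
      have h7 : h ^ 2 ≤ j := by
        by_contra! h8
        nlinarith
      have h8 : h < c := lt_of_pow_lt_pow_left₀ 2 (Nat.zero_le _) (lt_of_le_of_lt h7 hi)
      have : h * j < c * c ^ 2 := Nat.mul_lt_mul'' h8 hi
      nlinarith

/-- A finite group G of even order greater than 2 has a proper subgroup H with |G| < |H|^3. -/
theorem result {G : Type*} [Group G] [Finite G] (heven : Even (Nat.card G)) (hgt : 2 < Nat.card G) : ∃ H : Subgroup G, H ≠ ⊤ ∧ Nat.card G < (Nat.card H) ^ 3 := by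
  exact aux _ le_rfl heven hgt

end Cfsg.Agent.S0232
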