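import Cfsg.Statements.S0234
import Cfsg.Agent.H6.BrauerFowler
import Cfsg.Agent.H6.Misc

set_option autoImplicit false
open Cfsg

namespace Cfsg.Agent.S0234

theorem card_inv_A5 : Nat.card {t : alternatingGroup (Fin 5) // orderOf t = 2} = 15 := by
  have : Nat.card {t : alternatingGroup (Fin 5) // orderOf t = 2} =
      Nat.card {t : Equiv.Perm (Fin 5) // Equiv.Perm.sign t = 1 ∧ t * t = 1 ∧ t ≠ 1} := by
    refine Nat.card_congr ⟨fun t => ⟨t.1.1, t.1.2, ?_⟩, fun t => ⟨⟨t.1, t.2.1⟩, ?_⟩, fun _ => rfl,
      fun _ => rfl⟩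
    · rw [← H6.ord2_iff, Subgroup.orderOf_coe, t.2]
    · rw [← Subgroup.orderOf_coe, H6.ord2_iff]; exact t.2.2
  rw [this, Nat.card_eq_fintype_card, Fintype.card_subtype]
  decide +kernel

/-- In a finite simple group G of even order greater than 2, the number n of involutions satisfies 3n < |G|. -/
theorem result {G : Type*} [Group G] [Finite G] [IsSimpleGroup G] (heven : Even (Nat.card G)) (hgt : 2 < Nat.card G) : 3 * Nat.card {t : G // orderOf t = 2} < Nat.card G := by
  have h2 : ∀ H : Subgroup G, H ≠ ⊤ → Nat.card G ∣ H.index.factorial := fun H hH =>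
    H6.card_dvd_factorial_of_simple hH
  have h2' : ∀ (H : Subgroup G) (m : ℕ), H.index = m → 1 < m → Nat.card G ∣ m.factorial := by
    rintro H m rfl hm
    exact h2 H (fun h => by rw [h, Subgroup.index_top] at hm; omega)
  have hi2 : ∀ H : Subgroup G, H.index ≠ 2 := fun H h => by
    have := Nat.le_of_dvd (by norm_num) (h2' H 2 h (by norm_num))
    simp at this; omega
  have hsyl : ∀ (p k m : ℕ) [Fact p.Prime], Nat.card G = p ^ k * m → ¬ p ∣ m → 1 < m →
      Nat.card G ∣ m.factorial := by
    intro p k m _ h hm h1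
    obtain ⟨P⟩ : Nonempty (Sylow p G) := inferInstance
    apply h2' P m _ h1
    have h3 := (P : Subgroup G).card_mul_index
    rw [H6.card_sylow_of_eq P h hm, h] at h3
    exact Nat.eq_of_mul_eq_mul_left (pow_pos (Fact.out : p.Prime).pos k) h3
  have hpg : ∀ k : ℕ, Nat.card G ≠ 2 ^ (k + 1) := fun k h => by
    obtain ⟨H, -, hH⟩ := H6.exists_index_prime_of_normal (p := 2) (⊥ : Subgroup G)
      (by rw [Subgroup.index_bot, h])
    exact hi2 H hH
  have h4 : 4 ∣ Nat.card G := by
    by_contra h4
    obtain ⟨m, hm⟩ := heven.two_dvd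
    obtain ⟨T⟩ : Nonempty (Sylow 2 G) := inferInstance
    have hT := H6.card_sylow_of_eq T (k := 1) (m := m) (by rw [hm]; norm_num) (by omega)
    obtain ⟨H, hH⟩ := H6.exists_index_two_of_cyclic_sylow heven T (isCyclic_of_prime_card (p := 2)
      (by simpa using hT))
    exact hi2 H hH
  have hne4 := hpg 1
  have hne8 := hpg 2
  have hne12 : Nat.card G ≠ 12 := fun h => by
    have := hsyl 2 2 3 (by rw [h]; norm_num) (by norm_num) (by norm_num)
    rw [h] at this; revert this; decide
  have hne24 : Nat.card G ≠ 24 := fun h => by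
    have := hsyl 2 3 3 (by rw [h]; norm_num) (by norm_num) (by norm_num)
    rw [h] at this; revert this; decide
  have hne20 : Nat.card G ≠ 20 := fun h => by
    have : Fact (Nat.Prime 5) := ⟨by norm_num⟩
    have := hsyl 5 1 4 (by rw [h]; norm_num) (by norm_num) (by norm_num)
    rw [h] at this; revert this; decide
  have hZ : ∀ t : G, orderOf t = 2 → t ∉ Subgroup.center G := by
    intro t ht htZ
    have hN : (Subgroup.zpowers t).Normal := ⟨fun x hx g => by
      have : x ∈ Subgroup.center G := (Subgroup.zpowers_le.2 htZ) hx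
      rw [Subgroup.mem_center_iff.1 this g]; simpa using hx⟩
    rcases hN.eq_bot_or_eq_top with h | h
    · exact H6.ord2_ne_one ht (Subgroup.zpowers_eq_bot.1 h)
    · have := Nat.card_zpowers t
      rw [h, Subgroup.card_top, ht] at this
      omega
  obtain ⟨H, hH, hi | hi⟩ := H6.brauer_fowler_index heven hZ
  · exact absurd hi (hi2 H)
  by_contra! hcon
  have hj : H.index ≤ 5 := by
    by_contra! h6
    generalize Nat.card {t : G // orderOf t = 2} = n at *
    generalize Nat.card G = g at *
    have : g * (g + n) ≤ (3 * n) * (3 * n + n) := Nat.mul_le_mul hcon (by omega)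
    nlinarith
  rcases Nat.lt_or_ge H.index 5 with h5 | h5
  · have h6 : Nat.card G ∣ 24 := (h2 H hH).trans (Nat.factorial_dvd_factorial (n := 4) (by omega))
    have h7 := Nat.le_of_dvd (by norm_num) h6
    generalize Nat.card G = g at *
    interval_cases g <;> omega
  · have hH5 : H.index = 5 := le_antisymm hj h5
    have hinj : Function.Injective (MulAction.toPermHom G (G ⧸ H)) := by
      rw [← MonoidHom.ker_eq_bot_iff, ← Subgroup.normalCore_eq_ker, H6.normalCore_eq_bot_of_simple hH]
    have e : (G ⧸ H) ≃ Fin 5 := Finite.equivFinOfCardEq hH5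
    let φ : G →* Equiv.Perm (Fin 5) := e.permCongrHom.toMonoidHom.comp (MulAction.toPermHom G _)
    have hφ : Function.Injective φ := e.permCongrHom.injective.comp hinj
    have hA : ∀ g, φ g ∈ alternatingGroup (Fin 5) := by
      have h6 : ((alternatingGroup (Fin 5)).comap φ).index ∣ 2 := by
        rw [← alternatingGroup.index_eq_two (α := Fin 5), Subgroup.index_comap]
        exact Subgroup.relIndex_dvd_index_of_normal _ _
      rcases (Nat.dvd_prime Nat.prime_two).1 h6 with h | h
      · intro g
        rw [Subgroup.index_eq_one] at h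
        exact (h ▸ Subgroup.mem_top g : g ∈ (alternatingGroup (Fin 5)).comap φ)
      · exact absurd h (hi2 _)
    let ψ : G →* alternatingGroup (Fin 5) := φ.codRestrict _ hA
    have hψ : Function.Injective ψ := fun a b h => hφ (congrArg Subtype.val h)
    have h6 : Nat.card G ∣ 60 := by
      have := Subgroup.card_dvd_of_injective ψ hψ
      rwa [nat_card_alternatingGroup, Nat.card_fin] at this
    have h7 : Nat.card {t : G // orderOf t = 2} ≤ 15 := by
      rw [← card_inv_A5]
      exact Nat.card_le_card_of_injective (fun t => ⟨ψ t.1, by rw [orderOf_injective ψ hψ, t.2]⟩)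
        (fun a b h => Subtype.ext (hψ (by simpa using h)))
    have h8 : Nat.card G ≤ 45 := by omega
    generalize Nat.card G = g at *
    interval_cases g <;> omega

end Cfsg.Agent.S0234
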