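import Cfsg.Statements.S0239
import Cfsg.Agent.H6.Count

set_option autoImplicit false
open Cfsg

namespace Cfsg.Agent.S0239

/-- If some nontrivial element x of a finite group G is conjugate to x⁻¹, then |G| is even. -/
theorem result {G : Type*} [Group G] [Finite G] (x : G) (hx : x ≠ 1) (hreal : IsConj x x⁻¹) : Even (Nat.card G) := by
  by_contra h
  have hodd : Odd (Nat.card G) := Nat.not_even_iff_odd.1 h
  obtain ⟨g, hg⟩ := isConj_iff.1 hreal
  have hgo : Odd (orderOf g) := hodd.of_dvd_nat (orderOf_dvd_natCard g)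
  have hxo : Odd (orderOf x) := hodd.of_dvd_nat (orderOf_dvd_natCard x)
  have h2 : Commute (g * g) x := by
    rw [← H6.conj_eq_iff_commute]
    calc g * g * x * (g * g)⁻¹ = g * (g * x * g⁻¹) * g⁻¹ := by group
      _ = g * x⁻¹ * g⁻¹ := by rw [hg]
      _ = (g * x * g⁻¹)⁻¹ := by group
      _ = x := by rw [hg, inv_inv]
  obtain ⟨m, hm⟩ := hgo
  have h3 : g = (g * g) ^ (m + 1) := by
    rw [← pow_two, ← pow_mul, show 2 * (m + 1) = orderOf g + 1 by omega, pow_succ,
      pow_orderOf_eq_one, one_mul]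
  have h4 : Commute g x := by rw [h3]; exact h2.pow_left _
  rw [H6.conj_eq_iff_commute.2 h4] at hg
  exact hx (H6.eq_one_of_odd_of_sq hxo (by nth_rewrite 1 [hg]; exact inv_mul_cancel x))

end Cfsg.Agent.S0239
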