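import Cfsg.Statements.S0240
import Cfsg.Agent.H6.BrauerFowler

set_option autoImplicit false
open Cfsg

namespace Cfsg.Agent.S0240

/-- Let G be a finite group with n involutions and H a subgroup with |H|·(n+1) > |G|. Then some nontrivial h ∈ H is strongly real in G: an involution t of G satisfies t h t⁻¹ = h⁻¹. -/
theorem result {G : Type*} [Group G] [Finite G] (H : Subgroup G) (hH : Nat.card G < Nat.card H * (Nat.card {t : G // orderOf t = 2} + 1)) : ∃ h : G, h ∈ H ∧ h ≠ 1 ∧ ∃ t : G, orderOf t = 2 ∧ t * h * t⁻¹ = h⁻¹ := by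
  classical
  by_contra! hcon
  have hinj : Function.Injective (fun o : Option {t : G // orderOf t = 2} =>
      (match o with | none => ((1 : G) : G ⧸ H) | some t => ((t.1 : G) : G ⧸ H))) := by
    rintro (_ | a) (_ | b) h
    · rfl
    · simp only [QuotientGroup.eq, inv_one, one_mul] at h
      exact absurd (by simp [H6.ord2_inv b.2, H6.ord2_mul_self b.2]) (hcon b h (H6.ord2_ne_one b.2) b b.2)
    · simp only [QuotientGroup.eq, mul_one, H.inv_mem_iff] at h
      exact absurd (by simp [H6.ord2_inv a.2, H6.ord2_mul_self a.2]) (hcon a h (H6.ord2_ne_one a.2) a a.2)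
    · simp only [QuotientGroup.eq, H6.ord2_inv a.2] at h
      by_contra hne
      refine hcon _ h ?_ a a.2 (H6.inv_conj_mul (H6.ord2_mul_self a.2) (H6.ord2_mul_self b.2))
      intro h1
      apply hne
      congr 1
      exact Subtype.ext (by rw [eq_inv_of_mul_eq_one_left h1, H6.ord2_inv b.2])
  have h1 := Nat.card_le_card_of_injective _ hinj
  rw [Finite.card_option, ← Subgroup.index_eq_card] at h1
  have h2 := H.card_mul_index
  have := Nat.mul_le_mul_left (Nat.card H) h1
  omega

end Cfsg.Agent.S0240
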