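import Cfsg.Statements.S0241
import Cfsg.Agent.H6.BrauerFowler

set_option autoImplicit false
open Cfsg

namespace Cfsg.Agent.S0241

/-- If x ≠ 1 is conjugate to x⁻¹ in a finite group G and |C_G(x)| is odd, then some involution t satisfies t x t⁻¹ = x⁻¹. -/
theorem result {G : Type*} [Group G] [Finite G] (x : G) (hx : x ≠ 1) (hreal : IsConj x x⁻¹) (hodd : Odd (Nat.card (Subgroup.centralizer ({x} : Set G)))) : ∃ t : G, orderOf t = 2 ∧ t * x * t⁻¹ = x⁻¹ := by
  have hxo : Odd (orderOf x) :=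
    H6.odd_orderOf_of_odd_card hodd (H6.mem_cent_iff_commute.2 (Commute.refl x))
  have hxx : x * x ≠ 1 := fun h => hx (H6.eq_one_of_odd_of_sq hxo h)
  have h1 := H6.card_extCent hreal hxx
  obtain ⟨t, ht, ht2⟩ := H6.exists_ord2_mem_of_even (H := H6.extCent x) (by rw [h1]; exact even_two_mul _)
  refine ⟨t, ht2, ?_⟩
  rcases H6.mem_extCent.1 ht with h | h
  · exact absurd ht2 (H6.odd_card_iff.1 hodd t
      (H6.mem_cent_iff_commute.2 (H6.conj_eq_iff_commute.1 h)))
  · exact h

end Cfsg.Agent.S0241
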