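import Cfsg.Statements.S0257
import Cfsg.Agent.H22.IsoF

set_option autoImplicit false
open Cfsg

namespace Cfsg.Agent.S0257

open Matrix MatrixGroups in
def f : QuaternionGroup 2 →* SL(2, ZMod 3) := MonoidHom.mk' (fun
  | .a i => ⟨!![0, 2; 1, 0], by decide⟩ ^ i.val
  | .xa i => ⟨!![1, 1; 1, 2], by decide⟩ * ⟨!![0, 2; 1, 0], by decide⟩ ^ i.val) (by decide +kernel)

theorem f_inj : Function.Injective f := by decide +kernel

theorem f_normal : ∀ x g, ∃ y, f y = g * f x * g⁻¹ := by decide +kernel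

/-- SL_2(3) has a normal subgroup of index 3 isomorphic to the quaternion group of order 8, and its centre has order 2. -/
theorem result {F : Type*} [Field F] [Fintype F] (hF : Fintype.card F = 3) : (∃ Q : Subgroup (Matrix.SpecialLinearGroup (Fin 2) F), Q.Normal ∧ Q.index = 3 ∧ Nonempty (Q ≃* QuaternionGroup 2)) ∧ Nat.card (Subgroup.center (Matrix.SpecialLinearGroup (Fin 2) F)) = 2 := by
  refine ⟨?_, by rw [H22.card_center_SL 2 (by omega), hF]; rfl⟩
  let φ := (H22.slCongr (H22.zmodEquiv hF) _).symm.toMonoidHom.comp f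
  have hφ : Function.Injective φ := (H22.slCongr (H22.zmodEquiv hF) _).symm.injective.comp f_inj
  refine ⟨φ.range, ⟨?_⟩, ?_, ⟨(MonoidHom.ofInjective hφ).symm⟩⟩
  · rintro _ ⟨x, rfl⟩ g
    obtain ⟨y, hy⟩ := f_normal x (H22.slCongr (H22.zmodEquiv hF) _ g)
    exact ⟨y, by simp [φ, hy]⟩
  · have h := φ.range.index_mul_card
    rw [← Nat.card_congr (MonoidHom.ofInjective hφ).toEquiv, H22.card_SL_two, hF,
      Nat.card_eq_fintype_card, QuaternionGroup.card] at h
    omega

end Cfsg.Agent.S0257
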