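import Cfsg.Statements.S0264
import Cfsg.Agent.H22.Linear

set_option autoImplicit false
open Cfsg

namespace Cfsg.Agent.S0264

open Matrix in
theorem aux {F : Type*} [Field F] (a : F) (ha : a ≠ 0) (ha1 : a ≠ 1) (i j : Fin 2) (hij : i ≠ j) (c : F) :
    SpecialLinearGroup.toGL (SpecialLinearGroup.transvection hij c) ∈
      commutator (Matrix.GeneralLinearGroup (Fin 2) F) := by
  let d : GL (Fin 2) F := GeneralLinearGroup.mkOfDetNeZero (diagonal (fun k => if k = i then a else 1)) (by
    fin_cases i <;> simp [det_diagonal, Fin.prod_univ_two, ha])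
  have key : SpecialLinearGroup.toGL (SpecialLinearGroup.transvection hij c) =
      d * SpecialLinearGroup.toGL (SpecialLinearGroup.transvection hij (c / (a - 1))) * d⁻¹ *
        (SpecialLinearGroup.toGL (SpecialLinearGroup.transvection hij (c / (a - 1))))⁻¹ := by
    rw [eq_mul_inv_iff_mul_eq, ← map_mul, ← SpecialLinearGroup.transvection_add, eq_mul_inv_iff_mul_eq]
    apply Units.ext
    have h1 : a - 1 ≠ 0 := sub_ne_zero.mpr ha1
    ext k l
    fin_cases i <;> fin_cases j <;> first | exact absurd rfl hij | skip
    all_goals
      fin_cases k <;> fin_cases l <;>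
      simp [d, SpecialLinearGroup.transvection_coe, Matrix.mul_apply, Fin.sum_univ_two,
        diagonal_apply, Matrix.one_apply, single_apply] <;> field_simp <;> ring
  rw [key]
  exact Subgroup.commutator_mem_commutator (Subgroup.mem_top _) (Subgroup.mem_top _)

/-- GL_n(F)' = SL_n(F) (as the kernel of det), for every field F and every n, except n = 2 over the field of two elements. -/
theorem result {F : Type*} [Field F] (n : ℕ) (h : n = 2 → ∃ a : F, a ≠ 0 ∧ a ≠ 1) : commutator (Matrix.GeneralLinearGroup (Fin n) F) = (Matrix.GeneralLinearGroup.det : Matrix.GeneralLinearGroup (Fin n) F →* Fˣ).ker := by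
  apply le_antisymm
  · exact Abelianization.commutator_subset_ker _
  · rw [← H22.range_toGL]
    rintro _ ⟨s, rfl⟩
    rcases Nat.lt_trichotomy n 2 with hn | hn | hn
    · have : Subsingleton (Fin n) := Fin.subsingleton_iff_le_one.mpr (by omega)
      rw [Subsingleton.elim s 1, map_one]
      exact one_mem _
    · subst hn
      obtain ⟨a, ha, ha1⟩ := h rfl
      have := H22.eq_top_of_transvection_mem
        ((commutator (Matrix.GeneralLinearGroup (Fin 2) F)).comap Matrix.SpecialLinearGroup.toGL)
        (fun i j hij c => aux a ha ha1 i j hij c)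
      have h2 : s ∈ (commutator (Matrix.GeneralLinearGroup (Fin 2) F)).comap
        Matrix.SpecialLinearGroup.toGL := this ▸ Subgroup.mem_top s
      exact h2
    · have h1 := H22.commutator_SL_eq_top (F := F) (ι := Fin n) (by rw [Fintype.card_fin]; omega)
      have h2 : s ∈ commutator (Matrix.SpecialLinearGroup (Fin n) F) := h1 ▸ Subgroup.mem_top s
      have h3 := Subgroup.mem_map_of_mem (Matrix.SpecialLinearGroup.toGL) h2
      rw [commutator_def, Subgroup.map_commutator] at h3
      exact Subgroup.commutator_mono le_top le_top h3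

end Cfsg.Agent.S0264
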