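import Cfsg.Statements.S0267
import Cfsg.Agent.H22.IsoF

set_option autoImplicit false
open Cfsg

namespace Cfsg.Agent.S0267

/-- SL_2(q) is 3-transitive on the q+1 points of the projective line if and only if q is even. -/
theorem result {F : Type*} [Field F] [Fintype F] : MulAction.IsMultiplyPretransitive (Matrix.SpecialLinearGroup (Fin 2) F) (Projectivization F (Fin 2 → F)) 3 ↔ ringChar F = 2 := by
  rw [H22.sl_two_three_trans_iff]
  exact ⟨fun h => by_contra fun h2 => let ⟨a, ha⟩ := FiniteField.exists_nonsquare h2; ha (h a),
    FiniteField.isSquare_of_char_two⟩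

end Cfsg.Agent.S0267
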