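import Cfsg.Statements.S0272
import Cfsg.Agent.H22.GL2

set_option autoImplicit false
open Cfsg

namespace Cfsg.Agent.S0272

/-- The normaliser in GL_2(q) of a Sylow p-subgroup, p the characteristic, has order q (q-1)^2. -/
theorem result {F : Type*} [Field F] [Fintype F] {q : ℕ} (hF : Fintype.card F = q) (p : ℕ) [Fact p.Prime] [CharP F p] (P : Sylow p (Matrix.GeneralLinearGroup (Fin 2) F)) : Nat.card (Subgroup.normalizer ((P : Subgroup (Matrix.GeneralLinearGroup (Fin 2) F)) : Set (Matrix.GeneralLinearGroup (Fin 2) F))) = q * (q - 1) ^ 2 := by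
  subst hF
  have h1 := Sylow.card_eq_index_normalizer P
  have h2 := Sylow.card_eq_index_normalizer (H22.glSylow F p)
  have e : Subgroup.normalizer ((H22.glSylow F p : Sylow p _) : Set (Matrix.GeneralLinearGroup (Fin 2) F)) = H22.glB F :=
    H22.normalizer_glU
  rw [e, h1] at h2
  rw [← H22.card_glB]
  have h3 := (Subgroup.normalizer (P : Set (Matrix.GeneralLinearGroup (Fin 2) F))).index_mul_card
  rw [← (H22.glB F).index_mul_card, h2] at h3
  exact Nat.eq_of_mul_eq_mul_left (Nat.pos_of_ne_zero Subgroup.index_ne_zero_of_finite) h3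

end Cfsg.Agent.S0272
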