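import Cfsg.Statements.S0273
import Cfsg.Agent.H22.GL2

set_option autoImplicit false
open Cfsg

namespace Cfsg.Agent.S0273

/-- In GL_2(q) the centraliser of a non-trivial element of a Sylow p-subgroup (p the characteristic) has order q (q-1): the Sylow subgroup times the scalars. -/
theorem result {F : Type*} [Field F] [Fintype F] {q : ℕ} (hF : Fintype.card F = q) (p : ℕ) [Fact p.Prime] [CharP F p] (P : Sylow p (Matrix.GeneralLinearGroup (Fin 2) F)) (a : Matrix.GeneralLinearGroup (Fin 2) F) (ha : a ∈ P) (ha1 : a ≠ 1) : Nat.card (Subgroup.centralizer ({a} : Set (Matrix.GeneralLinearGroup (Fin 2) F))) = q * (q - 1) := by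
  subst hF
  obtain ⟨g, rfl⟩ := MulAction.exists_smul_eq (Matrix.GeneralLinearGroup (Fin 2) F) (H22.glSylow F p) P
  have ha' : a ∈ ((g • H22.glSylow F p : Sylow p _) : Subgroup (Matrix.GeneralLinearGroup (Fin 2) F)) := ha
  rw [Sylow.coe_subgroup_smul, Subgroup.mem_pointwise_smul_iff_inv_smul_mem, H22.coe_glSylow] at ha'
  simp only [MulAut.smul_def, MulAut.inv_apply, MulAut.conj_symm_apply] at ha'
  have h1 : g⁻¹ * a * g ≠ 1 := by
    intro h4
    apply ha1
    have : a = g * (g⁻¹ * a * g) * g⁻¹ := by group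
    rw [this, h4]; simp
  rw [← H22.card_centralizer_of_mem_glU ha' h1]
  refine Nat.card_congr ((MulAut.conj g⁻¹).toEquiv.subtypeEquiv fun x => ?_)
  simp only [Subgroup.mem_centralizer_singleton_iff, MulEquiv.toEquiv_eq_coe, EquivLike.coe_coe,
    MulAut.conj_apply, inv_inv]
  constructor
  · intro h
    calc g⁻¹ * x * g * (g⁻¹ * a * g) = g⁻¹ * (x * a) * g := by group
      _ = _ := by rw [h]; group
  · intro h
    calc x * a = g * (g⁻¹ * x * g * (g⁻¹ * a * g)) * g⁻¹ := by group
      _ = _ := by rw [h]; group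

end Cfsg.Agent.S0273
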