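import Cfsg.Statements.S0305
import Cfsg.Agent.H22.IsoF

set_option autoImplicit false
open Cfsg

namespace Cfsg.Agent.S0305

/-- GO^+_2(q) is dihedral of order 2(q-1). -/
theorem result {F : Type*} [Field F] [Fintype F] {q : ℕ} (hF : Fintype.card F = q) : Nonempty (Cfsg.isometryGroup F (Cfsg.quadFormPlus 1 F) ≃* DihedralGroup (q - 1)) := by
  subst hF
  obtain ⟨u, hu⟩ := IsCyclic.exists_generator (α := Fˣ)
  obtain ⟨φ, hφ⟩ := H22.exists_hom_of_fun_quad (G := Fˣ) (H22.qPlus 1 F)
    (fun a v => Sum.elim (fun i => a * v (.inl i)) fun i => (a⁻¹ : Fˣ) * v (.inr i))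
    (fun _ _ _ => by ext (i | i) <;> simp [mul_add]) (fun _ _ _ => by ext (i | i) <;> simp <;> ring)
    (fun _ => by ext (i | i) <;> simp) (fun _ _ _ => by ext (i | i) <;> simp <;> ring)
    (fun _ _ => by simp [H22.qPlus_apply]; field_simp)
  have h1 : Function.Injective φ := (injective_iff_map_eq_one _).2 fun a ha => by
    have := congrFun (hφ a 1) (.inl 0)
    rw [ha] at this
    exact Units.ext (by simpa using this.symm)
  let b : (H23.Form.ofQuad (H22.qPlus 1 F)).O := ⟨LinearEquiv.funCongrLeft F F (Equiv.sumComm _ _),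
    H23.Form.mem_O_ofQuad.mpr fun v => by simp [H22.qPlus_apply, mul_comm]⟩
  have hb : ∀ v i, b.1 v i = v i.swap := fun _ _ => rfl
  refine (H22.equiv_of_injective_of_card ⟨(H22.isomEquiv (H22.qPlus 1 F)).symm.toMonoidHom.comp _,
    (H22.isomEquiv (H22.qPlus 1 F)).symm.injective.comp
    (H6.dihHom_injective (a := φ u) (b := b) ?_ ?_ ?_ ?_)⟩ ?_).map MulEquiv.symm
  · rw [orderOf_injective φ h1, orderOf_eq_card_of_forall_mem_zpowers hu, H22.card_units_field]
  · exact H22.O_ext _ fun v => funext fun i => by simp [hb]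
  · rw [mul_inv_eq_iff_eq_mul, ← map_inv]
    exact H22.O_ext _ fun v => funext fun i => by rcases i with i | i <;> simp [hb, hφ, -map_inv]
  · rintro ⟨k, hk⟩
    have := congrFun (hφ (u ^ k) (Pi.single (.inr 0) 1)) (.inl 0)
    simp only [map_zpow] at this
    simp only [] at hk
    simp [hk, hb] at this
  · rw [DihedralGroup.nat_card, Nat.card_congr (H22.isomEquiv _).toEquiv,
      H22.card_O_qPlus 1 le_rfl]
    simp

end Cfsg.Agent.S0305
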