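import Cfsg.Statements.S0310
import Cfsg.Agent.H26.BN

set_option autoImplicit false
open Cfsg

namespace Cfsg.Agent.S0310


/-- For a set `J` of distinguished generators, the subgroup generated by `B` and `J` is exactly the union of
the double cosets `B n B` with `n` in the subgroup generated by `J` (so `B W_J B` is a subgroup). -/
theorem result {G : Type*} [Group G] (P : Cfsg.BNPair G) {J : Set G}
    (hJ : J ⊆ P.S) (g : G) :
    g ∈ P.parabolic J ↔ ∃ n ∈ Subgroup.closure J, g ∈ DoubleCoset.doubleCoset n (P.B : Set G) P.B := by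
  rw [H26.BN.mem_parabolic_iff hJ]
  constructor
  · rintro ⟨l, hl, hg⟩
    rw [← H26.BN.mk_wp, H26.BN.cell_mk] at hg
    refine ⟨_, ?_, hg⟩
    rw [H26.BN.coe_wp]
    refine Subgroup.list_prod_mem _ ?_
    intro x hx
    obtain ⟨s, hs, rfl⟩ := List.mem_map.1 hx
    exact Subgroup.subset_closure (hl s hs)
  · rintro ⟨n, hn, hg⟩
    have hN : n ∈ P.N := (Subgroup.closure_le P.N).2 (hJ.trans P.subset) hn
    obtain ⟨l, hl, he⟩ := H26.BN.exists_wp_of_mem_closure hJ (Subgroup.mem_sup_left hn) hN
    refine ⟨l, hl, ?_⟩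
    rw [he, H26.BN.cell_mk]
    exact hg

end Cfsg.Agent.S0310
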