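import Cfsg.Statements.S0316
import Cfsg.Agent.H26.BN

set_option autoImplicit false
open Cfsg

namespace Cfsg.Agent.S0316


/-- The map `J ↦ P_J` is a lattice isomorphism from the power set of the set of distinguished generators onto the
subgroups containing `B`. -/
theorem result {G : Type*} [Group G] (P : Cfsg.BNPair G) :
    ∃ e : Set P.S ≃o {M : Subgroup G // P.B ≤ M},
      ∀ J : Set P.S, ((e J : {M : Subgroup G // P.B ≤ M}) : Subgroup G) = P.parabolic (Subtype.val '' J) := by
  have hsub : ∀ J : Set P.S, (Subtype.val '' J) ⊆ P.S := by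
    rintro J _ ⟨s, -, rfl⟩
    exact s.2
  let e : Set P.S ≃ {M : Subgroup G // P.B ≤ M} :=
    { toFun := fun J => ⟨P.parabolic (Subtype.val '' J), H26.BN.B_le_parabolic _⟩
      invFun := fun M => {s | (s : G) ∈ M.1}
      left_inv := fun J => by
        ext s
        constructor
        · intro h
          obtain ⟨t, ht, e⟩ := H26.BN.mem_of_mem_parabolic (hsub J) s.2 h
          exact Subtype.ext e ▸ ht
        · intro h
          exact Subgroup.mem_sup_right (Subgroup.subset_closure ⟨s, h, rfl⟩)
      right_inv := fun M => by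
        apply Subtype.ext
        change P.parabolic _ = M.1
        conv_rhs => rw [H26.BN.eq_parabolic M.2]
        congr 1
        ext x
        constructor
        · rintro ⟨s, hs, rfl⟩
          exact ⟨s.2, hs⟩
        · rintro ⟨h1, h2⟩
          exact ⟨⟨x, h1⟩, h2, rfl⟩ }
  refine ⟨⟨e, ?_⟩, fun J => rfl⟩
  intro J K
  constructor
  · intro h s hs
    have h1 : (s : G) ∈ P.parabolic (Subtype.val '' K) :=
      h (Subgroup.mem_sup_right (Subgroup.subset_closure ⟨s, hs, rfl⟩))
    obtain ⟨t, ht, e⟩ := H26.BN.mem_of_mem_parabolic (hsub K) s.2 h1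
    exact Subtype.ext e ▸ ht
  · intro h
    exact sup_le_sup_left (Subgroup.closure_mono (Set.image_mono h)) _

end Cfsg.Agent.S0316
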