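import Cfsg.Statements.S0321
import Cfsg.Agent.H26.BN

set_option autoImplicit false
open Cfsg

namespace Cfsg.Agent.S0321


/-- For `n ∈ N` not in `B`, the union `B ∪ B n B` is (the underlying set of) a subgroup exactly when `n` agrees
modulo `B ⊓ N` with one of the distinguished representatives; thus the distinguished involutions are
determined by `B` and `N`. -/
theorem result {G : Type*} [Group G] (P : Cfsg.BNPair G) {n : G}
    (hn : n ∈ P.N) (hnB : n ∉ P.B) :
    (∃ H : Subgroup G, (H : Set G) = (P.B : Set G) ∪ DoubleCoset.doubleCoset n (P.B : Set G) P.B) ↔ ∃ s ∈ P.S, s⁻¹ * n ∈ P.B := by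
  have hc := H26.BN.cell_mk (P := P) ⟨n, hn⟩
  simp only at hc
  rw [← hc]
  constructor
  · rintro ⟨H, hH⟩
    have hBH : P.B ≤ H := fun b hb => by
      rw [← SetLike.mem_coe, hH]; exact Or.inl hb
    have hnH : n ∈ H := by
      rw [← SetLike.mem_coe, hH]; exact Or.inr (H26.BN.self_mem_cell (P := P) ⟨n, hn⟩)
    obtain ⟨l, hl, hgl⟩ := H26.BN.exists_red_mem_cell (P := P) n
    rcases l with _ | ⟨s, l⟩
    · exact absurd (H26.BN.mem_cell_one.1 hgl) hnB
    · have hs := H26.BN.mem_of_red hBH _ hl n hgl hnH s (by simp)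
      rw [← SetLike.mem_coe, hH] at hs
      rcases hs with hs | hs
      · exact absurd hs (H26.BN.not_mem_B s.2)
      · have := H26.BN.eq_of_mem_cell (H26.BN.gen_mem_cell s) hs
        exact ⟨s, s.2, (H26.BN.mk_eq_iff _ _).1 this⟩
  · rintro ⟨s, hs, h⟩
    have e : H26.BN.sW P ⟨s, hs⟩ = ((⟨n, hn⟩ : P.N) : H26.BN.W P) := (H26.BN.mk_eq_iff _ _).2 h
    rw [← e]
    refine ⟨⟨⟨⟨(P.B : Set G) ∪ H26.BN.cell (H26.BN.sW P ⟨s, hs⟩), ?_⟩, Or.inl P.B.one_mem⟩, ?_⟩, rfl⟩
    · rintro a b (ha | ha) (hb | hb)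
      · exact Or.inl (P.B.mul_mem ha hb)
      · exact Or.inr (H26.BN.mul_mem_cell_left ha hb)
      · exact Or.inr (H26.BN.mul_mem_cell_right ha hb)
      · have := H26.BN.cell_mul_left ha hb
        rwa [H26.BN.sW_sq, H26.BN.mem_cell_one] at this
    · rintro a (ha | ha)
      · exact Or.inl (P.B.inv_mem ha)
      · have := H26.BN.inv_mem_cell ha
        rw [H26.BN.sW_inv] at this
        exact Or.inr this

end Cfsg.Agent.S0321
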