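import Cfsg.Statements.S0322
import Cfsg.Agent.H26.BN

set_option autoImplicit false
open Cfsg

namespace Cfsg.Agent.S0322


/-- A group with a (B,N)-pair of rank one acts doubly transitively on the left cosets of `B`. -/
theorem result {G : Type*} [Group G] (P : Cfsg.BNPair G) (h : P.rank = 1) : MulAction.IsMultiplyPretransitive G (G ⧸ P.B) 2 := by
  obtain ⟨⟨hsub⟩, ⟨s⟩⟩ := Nat.card_eq_one_iff_unique.1 h
  have hw : ∀ w : H26.BN.W P, w = 1 ∨ w = H26.BN.sW P s := by
    intro w
    obtain ⟨l, rfl⟩ := H26.BN.W_gen w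
    induction l with
    | nil => exact Or.inl rfl
    | cons a l ih =>
      rw [H26.wp_cons, hsub a s]
      rcases ih with ih | ih
      · right; rw [ih, mul_one]
      · left; rw [ih, H26.BN.sW_sq]
  have hc : ∀ g : G, g ∉ P.B → g ∈ H26.BN.cell (H26.BN.sW P s) := by
    intro g hg
    obtain ⟨w, hw'⟩ := H26.BN.exists_mem_cell (P := P) g
    rcases hw w with rfl | rfl
    · exact absurd (H26.BN.mem_cell_one.1 hw') hg
    · exact hw'
  rw [MulAction.is_two_pretransitive_iff]
  intro a b c d hab hcd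
  obtain ⟨x, rfl⟩ := QuotientGroup.mk_surjective a
  obtain ⟨y, rfl⟩ := QuotientGroup.mk_surjective b
  obtain ⟨u, rfl⟩ := QuotientGroup.mk_surjective c
  obtain ⟨v, rfl⟩ := QuotientGroup.mk_surjective d
  rw [Ne, QuotientGroup.eq] at hab hcd
  obtain ⟨b1, hb1, b2, hb2, e⟩ := H26.BN.exists_eq_of_mem_cell (hc _ hab) (hc _ hcd)
  refine ⟨u * b1 * x⁻¹, ?_, ?_⟩
  · rw [MulAction.Quotient.smul_mk, QuotientGroup.eq]
    simpa using hb1
  · rw [MulAction.Quotient.smul_mk, QuotientGroup.eq]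
    have : (u * b1 * x⁻¹ * y)⁻¹ * v = b2 := by
      have e' : v = u * (b1 * (x⁻¹ * y) * b2) := by rw [← e]; group
      rw [e']; group
    simpa [← this, smul_eq_mul] using hb2

end Cfsg.Agent.S0322
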