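import Cfsg.Statements.S0326

set_option autoImplicit false
open Cfsg

namespace Cfsg.Agent.S0326


/-- The Suzuki–Tits ovoid over a finite field with `q` elements has `q² + 1` points. -/
theorem result {F : Type*} [Field F] [Fintype F] (m : ℕ) :
    Nat.card (Cfsg.suzukiOvoid F m) = Fintype.card F ^ 2 + 1 := by
  let v : Option (F × F) → Fin 4 → F := fun p => match p with
    | none => ![1, 0, 0, 0]
    | some p => ![p.1 * p.2 + p.1 ^ (2 ^ (m + 1) + 2) + p.2 ^ (2 ^ (m + 1)), p.2, p.1, 1]
  have hv : ∀ p, v p ≠ 0 := by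
    rintro (_ | ⟨x, y⟩) h
    · simpa [v] using congrFun h 0
    · simpa [v] using congrFun h 3
  let f : Option (F × F) → Projectivization F (Fin 4 → F) := fun p => Projectivization.mk F (v p) (hv p)
  have hf : Function.Injective f := by
    intro p q h
    obtain ⟨c, hc⟩ := (Projectivization.mk_eq_mk_iff' F _ _ _ _).1 h
    rcases p with _ | ⟨x, y⟩ <;> rcases q with _ | ⟨x', y'⟩
    · rfl
    · have h3 : c = 0 := by simpa [v] using congrFun hc 3
      have h0 := congrFun hc 0
      simp [v, h3] at h0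
    · have h3 := congrFun hc 3
      simp [v] at h3
    · have h3 : c = 1 := by simpa [v] using congrFun hc 3
      subst h3
      have h1 := congrFun hc 1
      have h2 := congrFun hc 2
      simp [v] at h1 h2
      simp [h1, h2]
  have : Cfsg.suzukiOvoid F m = Set.range f := by
    ext p
    constructor
    · rintro ⟨w, hw, rfl, rfl | ⟨x, y, rfl⟩⟩
      · exact ⟨none, rfl⟩
      · exact ⟨some (x, y), rfl⟩
    · rintro ⟨_ | ⟨x, y⟩, rfl⟩
      · exact ⟨_, _, rfl, Or.inl rfl⟩
      · exact ⟨_, _, rfl, Or.inr ⟨x, y, rfl⟩⟩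
  rw [this, Nat.card_range_of_injective hf]
  simp [sq]

end Cfsg.Agent.S0326
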