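import Cfsg.Statements.S0327
import Cfsg.Agent.H26.SzBasic

set_option autoImplicit false
open Cfsg

namespace Cfsg.Agent.S0327

theorem transport {G Ω Ω' : Type*} [Group G] [MulAction G Ω] [MulAction G Ω'] (e : Ω ≃ Ω')
    (he : ∀ (g : G) (a : Ω), e (g • a) = g • e a) (h : Cfsg.IsZassenhausGroup G Ω) :
    Cfsg.IsZassenhausGroup G Ω' := by
  obtain ⟨h1, h2, h3, ⟨g, hg, a, b, hab, ha, hb⟩, h5⟩ := h
  refine ⟨⟨fun {g g'} h => eq_of_smul_eq_smul (α := Ω) fun a => e.injective ?_⟩, ?_, ?_, ?_, ?_⟩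
  · rw [he, he, h]
  · rw [MulAction.is_two_pretransitive_iff] at h2 ⊢
    intro a b c d hab hcd
    obtain ⟨g, hg1, hg2⟩ := h2 (e.symm.injective.ne hab) (e.symm.injective.ne hcd)
    exact ⟨g, by simpa [he] using congrArg e hg1, by simpa [he] using congrArg e hg2⟩
  · intro g a b c hab hbc hac ha hb hc
    refine h3 g _ _ _ (e.symm.injective.ne hab) (e.symm.injective.ne hbc) (e.symm.injective.ne hac)
      ?_ ?_ ?_ <;> apply e.injective <;> simpa [he]
  · exact ⟨g, hg, e a, e b, e.injective.ne hab, by rw [← he, ha], by rw [← he, hb]⟩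
  · intro N hN ht
    obtain ⟨a, ha⟩ := h5 N hN ⟨fun a b => by
      obtain ⟨g, hg⟩ := ht.exists_smul_eq (e a) (e b)
      exact ⟨g, e.injective (by rw [← hg]; exact he g a)⟩⟩
    refine ⟨e a, fun h => ha ?_⟩
    rw [← h]
    ext g
    simp only [MulAction.mem_stabilizer_iff]
    rw [← e.injective.eq_iff]
    exact Iff.of_eq (congrArg (· = e a) (he g a))


/-- The Suzuki group (`m ≥ 1`) is a Zassenhaus group on the `q² + 1` points of the Suzuki–Tits ovoid. -/
theorem result {F : Type*} [Field F] [Fintype F] {m : ℕ} (hm : 1 ≤ m)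
    (hF : Fintype.card F = 2 ^ (2 * m + 1)) :
    Cfsg.IsZassenhausGroup (Cfsg.Sz F m) (Cfsg.suzukiOvoid F m) := by
  set M := H26.Sz.ovoidModel hm hF
  have ho := H26.Sz.ovoid_eq (H26.Sz.tits_apply hF)
  let e : M.Pt ≃ Cfsg.suzukiOvoid F m :=
    (Equiv.ofInjective _ (H26.Sz.ppt_injective (H26.Sz.tits hF))).trans (Equiv.setCongr ho.symm)
  exact transport e (fun g a => Subtype.ext (H26.Sz.ovoidModel_smul hm hF g a).symm) M.isZassenhaus

end Cfsg.Agent.S0327
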