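import Cfsg.Statements.S0328
import Cfsg.Agent.H26.SzBasic

set_option autoImplicit false
open Cfsg

namespace Cfsg.Agent.S0328


/-- The stabiliser in the Suzuki group of the two ovoid points spanned by `(1,0,0,0)` and `(0,0,0,1)` is
isomorphic to the multiplicative group of the field (cyclic of order `q - 1`). -/
theorem result {F : Type*} [Field F] [Fintype F] {m : ℕ} (hm : 1 ≤ m)
    (hF : Fintype.card F = 2 ^ (2 * m + 1)) :
    Nonempty (↥(MulAction.stabilizer (Cfsg.Sz F m) (Cfsg.suzukiPointInfinity F) ⊓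
        MulAction.stabilizer (Cfsg.Sz F m) (Cfsg.suzukiPointZero F)) ≃* Fˣ) := by
  set M := H26.Sz.ovoidModel hm hF
  have key : ∀ p : M.Pt, MulAction.stabilizer (Cfsg.Sz F m) (H26.Sz.ppt (H26.Sz.tits hF) p) =
      MulAction.stabilizer (Cfsg.Sz F m) p := by
    intro p
    ext g
    rw [MulAction.mem_stabilizer_iff, MulAction.mem_stabilizer_iff, H26.Sz.ovoidModel_smul hm hF]
    exact (H26.Sz.ppt_injective _).eq_iff
  have h1 : Cfsg.suzukiPointInfinity F = H26.Sz.ppt (H26.Sz.tits hF) M.inf := rfl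
  have h2 : Cfsg.suzukiPointZero F = H26.Sz.ppt (H26.Sz.tits hF) (M.pt 0 0) := by
    simp only [Cfsg.suzukiPointZero, H26.Sz.ppt, H26.SzModel.pt, H26.Sz.vec_some, H26.Sz.ff_zero]
  rw [h1, h2, key, key, ← M.H_eq_inf]
  exact ⟨M.hEquiv.symm⟩

end Cfsg.Agent.S0328
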