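import Cfsg.Statements.S0330
import Cfsg.Agent.H26.SzFix

set_option autoImplicit false
open Cfsg

namespace Cfsg.Agent.S0330


/-- A Sylow 2-subgroup `P` of the Suzuki group (field with `q = 2^(2m+1)` elements, `m ≥ 1`) has order `q²` and
exponent `4`; its centre coincides with its commutator subgroup and has order `q`. -/
theorem result {F : Type*} [Field F] [Fintype F] {m : ℕ} (hm : 1 ≤ m)
    (hF : Fintype.card F = 2 ^ (2 * m + 1)) (P : Sylow 2 (Cfsg.Sz F m)) :
    Nat.card P = (2 ^ (2 * m + 1)) ^ 2 ∧ Monoid.exponent P = 4 ∧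
      Subgroup.center P = commutator P ∧ Nat.card (Subgroup.center P) = 2 ^ (2 * m + 1) := by
  obtain ⟨M, hM⟩ := (H26.Sz.ovoidModel hm hF).exists_model_Q P
  rw [hM]
  have hc : (Subgroup.center M.Q).map M.Q.subtype = M.Z := by
    ext x
    constructor
    · rintro ⟨y, hy, rfl⟩
      exact (M.mem_Z_iff_central y.2).2 fun z hz =>
        (congrArg Subtype.val (Subgroup.mem_center_iff.1 hy ⟨z, hz⟩)).symm
    · intro hx
      exact ⟨⟨x, M.Z_le_Q hx⟩, Subgroup.mem_center_iff.2 fun z =>
        Subtype.ext ((M.mem_Z_iff_central (M.Z_le_Q hx)).1 hx z z.2).symm, rfl⟩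
  refine ⟨by rw [M.card_Q, hF], ?_, ?_, ?_⟩
  · apply Nat.dvd_antisymm
    · exact Monoid.exponent_dvd_of_forall_pow_eq_one fun x => Subtype.ext (M.pow_four_of_mem_Q x.2)
    · have : orderOf (⟨M.u 1 0, M.u_mem_Q 1 0⟩ : M.Q) = 2 ^ (1 + 1) := by
        apply orderOf_eq_prime_pow
        · intro h
          have h2 : M.u 1 0 ^ 2 = 1 := congrArg Subtype.val h
          rw [sq, M.u_sq, M.u_eq_one_iff] at h2
          simpa using h2.2
        · exact Subtype.ext (M.pow_four_of_mem_Q (M.u_mem_Q 1 0))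
      have h2 := Monoid.order_dvd_exponent (⟨M.u 1 0, M.u_mem_Q 1 0⟩ : M.Q)
      rwa [this] at h2
  · apply Subgroup.map_injective M.Q.subtype_injective
    rw [hc, commutator_def, Subgroup.map_commutator, ← MonoidHom.range_eq_map, Subgroup.range_subtype,
      M.commutator_Q]
  · rw [← hF, ← M.card_Z, ← hc]
    exact (Subgroup.card_map_of_injective M.Q.subtype_injective).symm

end Cfsg.Agent.S0330
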