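import Cfsg.Statements.S0335
import Cfsg.Agent.H26.SzBasic

set_option autoImplicit false
open Cfsg

namespace Cfsg.Agent.S0335


/-- The Suzuki–Tits point set is an ovoid: any three distinct points of it are projectively independent
(no line of projective 3-space meets it in more than two points). -/
theorem result {F : Type*} [Field F] [Fintype F] {m : ℕ} (hm : 1 ≤ m)
    (hF : Fintype.card F = 2 ^ (2 * m + 1)) (p : Fin 3 ↪ Cfsg.suzukiOvoid F m) :
    Projectivization.Independent (fun i => (p i : Projectivization F (Fin 4 → F))) := by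
  set M := H26.Sz.ovoidModel hm hF
  have ho := H26.Sz.ovoid_eq (H26.Sz.tits_apply hF)
  have h1 : ∀ i, ∃ a : M.Pt, H26.Sz.ppt (H26.Sz.tits hF) a = p i := fun i => by
    exact ho.subset (p i).2
  choose a ha using h1
  have hinj : Function.Injective a := fun i j h => p.injective (Subtype.ext (by rw [← ha, ← ha, h]))
  obtain ⟨g, h0, h1⟩ := M.exists_smul_inf_zero (hinj.ne (by decide : (0 : Fin 3) ≠ 1))
  rcases M.pt_cases (g⁻¹ • a 2) with h | ⟨x, y, h⟩
  · exact absurd (hinj ((inv_smul_eq_iff.1 h).trans h0)) (by decide)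
  have hxy : ¬ (x = 0 ∧ y = 0) := by
    rintro ⟨rfl, rfl⟩
    exact absurd (hinj ((inv_smul_eq_iff.1 h).trans h1)) (by decide)
  let b : Fin 3 → M.Pt := ![M.inf, M.pt 0 0, M.pt x y]
  have hb : ∀ i, a i = g • b i := by
    intro i
    fin_cases i
    · exact h0.symm
    · exact h1.symm
    · exact inv_smul_eq_iff.1 h
  have hli : LinearIndependent F (fun i => H26.Sz.vec (H26.Sz.tits hF) (b i)) := by
    rw [Fintype.linearIndependent_iff]
    intro c hc
    have e0 := congrFun hc 0
    have e1 := congrFun hc 1
    have e2 := congrFun hc 2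
    have e3 := congrFun hc 3
    simp [Fin.sum_univ_three, b, H26.SzModel.inf, H26.SzModel.pt, H26.Sz.vec_none, H26.Sz.vec_some,
      H26.Sz.ff_zero] at e0 e1 e2 e3
    have c2 : c 2 = 0 := by tauto
    intro i
    fin_cases i
    · simpa [c2] using e0
    · simpa [c2] using e3
    · exact c2
  have hli2 := hli.map' (DistribMulAction.toLinearEquiv F (Fin 4 → F) g.1).toLinearMap
    (LinearEquiv.ker _)
  have := Projectivization.Independent.mk _ (fun i => hli2.ne_zero i) hli2
  convert this using 2 with i
  rw [← ha, hb, ← H26.Sz.ovoidModel_smul hm hF]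
  rfl

end Cfsg.Agent.S0335
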