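import Cfsg.Statements.S0346
import Cfsg.Agent.H26.ZS10

set_option autoImplicit false
open Cfsg

namespace Cfsg.Agent.S0346


/-- The number of points of a finite simple Zassenhaus group is `p^k + 1` for some prime power `p^k` (the regular normal
subgroup of a point stabiliser is a `p`-group). -/
theorem result {G Ω : Type*} [Group G] [Finite G] [MulAction G Ω] [Fintype Ω]
    (hZ : Cfsg.IsZassenhausGroup G Ω) [IsSimpleGroup G] :
    IsPrimePow (Fintype.card Ω - 1) := by
  have hZ : H26.Zas G Ω := hZ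
  obtain ⟨a, b, hab⟩ := hZ.exists_pair
  obtain ⟨H, hK⟩ := hZ.z3.exists_ker hab
  obtain ⟨p, hp, h⟩ := hZ.pgroup hK
  have := Fact.mk hp
  obtain ⟨n, hn⟩ := IsPGroup.iff_card.1 h
  have h1 := (Subgroup.one_lt_card_iff_ne_bot _).2 (hZ.z3.ker_ne_bot hK hab (hZ.D_ne_bot hab))
  rw [← Nat.card_eq_fintype_card, hK.card_Ω hab, Nat.add_sub_cancel, hn]
  refine hp.isPrimePow.pow ?_
  rintro rfl
  simp [hn] at h1

end Cfsg.Agent.S0346
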