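import Cfsg.Statements.S0347
import Cfsg.Agent.H26.ZS13

set_option autoImplicit false
open Cfsg

namespace Cfsg.Agent.S0347


/-- If in a finite simple Zassenhaus group the stabiliser of a point `x` has a normal `2`-subgroup `U` which is
non-abelian and acts regularly on the points other than `x`, then the group is simple of Suzuki order (order-level
predicate `IsSuzuki`). -/
theorem result {G Ω : Type*} [Group G] [Finite G] [MulAction G Ω] [Finite Ω]
    (hZ : Cfsg.IsZassenhausGroup G Ω) [IsSimpleGroup G]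
    (x : Ω) (U : Subgroup G) (hUle : U ≤ MulAction.stabilizer G x) (hUn : (U.subgroupOf (MulAction.stabilizer G x)).Normal)
    (hU2 : IsPGroup 2 U) (hUna : ∃ u v : U, u * v ≠ v * u)
    (hreg : ∀ y z : Ω, y ≠ x → z ≠ x → ∃! u : U, (u : G) • y = z) :
    Cfsg.IsSuzuki G := by
  have hZ : H26.Zas G Ω := hZ
  have hK := H26.ker_of_reg' hUle hUn hreg
  obtain ⟨b, hab⟩ := hZ.exists_ne x
  obtain ⟨u, v, h⟩ := hUna
  obtain ⟨m, hm, h1, h2, -⟩ := hZ.suzuki hK hab fun hc => h (mul_comm' u v)
  refine ⟨‹_›, m, hm, ?_⟩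
  rw [hZ.z3.card_G hK hab, h2, ← h1, Nat.add_sub_cancel]
  ring

end Cfsg.Agent.S0347
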