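import Cfsg.Statements.S0349
import Cfsg.Agent.H17.NR4
import Cfsg.Agent.H26.BN

set_option autoImplicit false
open Cfsg

namespace Cfsg.Agent.S0349

open H17 Cfsg

open MulAction Subgroup H16 H26 H17

/-- Let a finite simple group have a (B,N)-pair of rank one which is strongly split (`B = U (B ⊓ N)` with `U` nilpotent,
normal in `B` and meeting `N` trivially), with `[G : B]` and `|B ⊓ N|` odd. Then the group is isomorphic to `PSL₂(F)` with
`|F|` a power of `2`, or is simple of Suzuki order, or is isomorphic to `PSU₃` realised over a field with `q²` elements,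
`q = 2^n`, `n ≥ 2`. -/
theorem result {G : Type*} [Group G] [Finite G] [IsSimpleGroup G]
    (P : Cfsg.BNPair G) (hrank : P.rank = 1) (U : Subgroup G) (hUB : U ≤ P.B)
    (hUn : (U.subgroupOf P.B).Normal) (hUnil : Group.IsNilpotent U) (hsplit : U ⊔ (P.B ⊓ P.N) = P.B)
    (hdisj : U ⊓ P.N = ⊥) (hind : Odd P.B.index) (hH : Odd (Nat.card ↥(P.B ⊓ P.N))) :
    (∃ (F : Type) (_ : Field F) (_ : Fintype F), (∃ n : ℕ, Fintype.card F = 2 ^ n) ∧ Nonempty (G ≃* Matrix.ProjectiveSpecialLinearGroup (Fin 2) F)) ∨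
      Cfsg.IsSuzuki G ∨
      (∃ (F : Type) (_ : Field F) (_ : Fintype F) (n : ℕ), 2 ≤ n ∧ Fintype.card F = (2 ^ n) ^ 2 ∧
        Nonempty (G ≃* Cfsg.PSU 3 F (2 ^ n))) := by
  obtain ⟨⟨s, hs⟩, hu⟩ := Nat.card_eq_one_iff_exists.1 hrank
  have hsN := P.subset hs
  have hn : P.B ≤ N[U] := le_norm_iff.2 fun g hg x hx => hUn.conj_mem ⟨x, hUB hx⟩ hx ⟨g, hg⟩
  have key : ∀ g : G, g ∉ P.B → ∃ u ∈ U, u • (s : G ⧸ P.B) = g := by
    intro g hg
    obtain ⟨w, hw⟩ := BN.exists_mem_cell (P := P) g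
    obtain ⟨l, rfl⟩ := BN.W_gen w
    have hl : ∀ l : List P.S, wp (BN.sW P) l = 1 ∨ wp (BN.sW P) l = BN.sW P ⟨s, hs⟩ := by
      intro l
      induction l with
      | nil => exact Or.inl rfl
      | cons x l ih =>
        rw [wp_cons, hu x]
        rcases ih with e | e <;> rw [e]
        · exact Or.inr (mul_one _)
        · exact Or.inl (BN.sW_sq _)
    rcases hl l with e | e <;> rw [e] at hw
    · exact (hg (BN.mem_cell_one.1 hw)).elim
    obtain ⟨b, hb, b', hb', rfl⟩ := (BN.mem_cell_mk (n := ⟨s, hsN⟩)).1 hw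
    rw [← hsplit] at hb
    obtain ⟨u, hu, k, hk, rfl⟩ := (mem_sup_l (inf_le_left.trans hn)).1 hb
    refine ⟨u, hu, QuotientGroup.eq.2 ?_⟩
    have := mul_mem (P.conj_mem _ (inv_mem hsN) k hk) hb'
    convert this using 1
    simp only [smul_eq_mul]
    group
  have hst : stabilizer G ((1 : G) : G ⧸ P.B) = P.B := stabilizer_quotient _
  have hne : ∀ g : G, (g : G ⧸ P.B) ≠ ((1 : G) : G ⧸ P.B) → g ∉ P.B := fun g hg e => hg (QuotientGroup.eq.2 (by simpa using e))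
  have h : NR G (G ⧸ P.B) ((1 : G) : G ⧸ P.B) U := by
    refine ⟨hst.symm ▸ hUB, hst.symm ▸ hn, hUnil, fun c d hc hd => ?_, exists_smul_eq G, ?_, hind, s, fun e => ?_⟩
    · obtain ⟨c, rfl⟩ := QuotientGroup.mk_surjective c
      obtain ⟨d, rfl⟩ := QuotientGroup.mk_surjective d
      obtain ⟨u, hu, e1⟩ := key c (hne c hc)
      obtain ⟨v, hv, e2⟩ := key d (hne d hd)
      exact ⟨v * u⁻¹, mul_mem hv (inv_mem hu), by rw [← e1, mul_smul, inv_smul_smul, e2]⟩
    · rw [hst, ← congrArg U.relIndex hsplit, relIndex_sup_l (inf_le_left.trans hn)]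
      exact hH.of_dvd_nat (relIndex_dvd_card _ _)
    · exact BN.not_mem_B hs (by simpa using QuotientGroup.eq.1 e)
  obtain ⟨t, ht⟩ := h.r1
  rcases suzuki_simple ht with ⟨F, _, _, ⟨n, -, h1⟩, h2⟩ | h1 | h1
  · exact Or.inl ⟨F, _, _, ⟨n, h1⟩, h2⟩
  · exact Or.inr (Or.inl (isSuzuki_of_iso h1))
  · exact Or.inr (Or.inr h1)

end Cfsg.Agent.S0349
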