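import Cfsg.Statements.S0353
import Cfsg.Agent.Lead.St24

set_option autoImplicit false
open Cfsg

namespace Cfsg.Agent.S0353

/-- In an S(5, 8, 24), the symmetric difference of two blocks meeting in four points is a block. -/
theorem result {α : Type*} [Fintype α] [DecidableEq α] (hα : Fintype.card α = 24) {B : Set (Finset α)} (hB : Cfsg.IsSteinerSystem 5 8 B) {b c : Finset α} (hb : b ∈ B) (hc : c ∈ B) (h4 : (b ∩ c).card = 4) : symmDiff b c ∈ B := by
  obtain ⟨ℓ, h⟩ := Lead.St.gol24 hα hB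
  have hb' := (h b).1 hb
  have hc' := (h c).1 hc
  have e : Lead.St.ext le_rfl ℓ (symmDiff b c) = symmDiff (Lead.St.ext le_rfl ℓ b) (Lead.St.ext le_rfl ℓ c) := by
    have hX : Lead.St.XX 24 = ∅ := by decide +kernel
    refine Lead.St.ext_eq (by rw [hX]; exact Finset.empty_subset _) fun a => ?_
    simp only [Finset.mem_symmDiff, Lead.St.phi_mem_ext]
  rw [h, e]
  refine ⟨H27.symmDiff_mem_GC hb'.1 hc'.1, ?_⟩
  rw [← e, Lead.St.card_ext]
  have hX : (Lead.St.XX 24).card = 0 := by decide +kernel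
  have := Lead.St.card_sd b c
  rw [hB.1 b hb, hB.1 c hc, h4] at this
  omega

end Cfsg.Agent.S0353
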