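import Cfsg.Statements.S0354
import Cfsg.Agent.Lead.St1

set_option autoImplicit false
open Cfsg

namespace Cfsg.Agent.S0354

/-- In an S(5, 8, 24), each block is disjoint from exactly 30 blocks. -/
theorem result {α : Type*} [Fintype α] [DecidableEq α] (hα : Fintype.card α = 24) {B : Set (Finset α)} (hB : Cfsg.IsSteinerSystem 5 8 B) {b : Finset α} (hb : b ∈ B) : {c : Finset α | c ∈ B ∧ Disjoint b c}.ncard = 30 := by
  have h := Lead.St.ncard_meet (Lead.St.lam_block hB (by decide) (Lead.St.lam_5_8 hα hB) hb)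
    (Finset.empty_subset b)
  rw [hB.1 b hb, Finset.card_empty] at h
  have e : Lead.St.T (Lead.St.tb [759, 253, 77, 21, 5]) (8 - 0) 0 = 30 := by decide
  rw [e] at h
  simp only [Finset.disjoint_iff_inter_eq_empty]
  exact_mod_cast h

end Cfsg.Agent.S0354
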