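import Cfsg.Statements.S0362
import Cfsg.Agent.H27.Golay

set_option autoImplicit false
open Cfsg

namespace Cfsg.Agent.S0362
open H27 MulAction
open scoped Pointwise

/-- The length-24 code is self-orthogonal: the dot product over ZMod 2 of any two of its words vanishes (with dimension 12 this makes it self-dual). -/
theorem result (v w : Cfsg.GolayPt → ZMod 2) (hv : v ∈ Cfsg.golayCode) (hw : w ∈ Cfsg.golayCode) : ∑ i, v i * w i = 0 := by
  have h := even_card_inter (s := support₂ v) (t := support₂ w) ⟨v, hv, rfl⟩ ⟨w, hw, rfl⟩
  rw [← ZMod.natCast_eq_zero_iff_even] at h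
  rw [← h, Finset.card_eq_sum_ones, Nat.cast_sum, ← Finset.sum_subset (Finset.subset_univ (support₂ v ∩ support₂ w))]
  · apply Finset.sum_congr rfl
    intro p hp
    simp only [support₂, Finset.mem_inter, Finset.mem_filter, Finset.mem_univ, true_and] at hp
    revert hp
    generalize v p = a; generalize w p = b
    revert a b; decide
  · intro p _ hp
    simp only [support₂, Finset.mem_inter, Finset.mem_filter, Finset.mem_univ, true_and] at hp
    revert hp
    generalize v p = a; generalize w p = b
    revert a b; decide

end Cfsg.Agent.S0362
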