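import Cfsg.Statements.S0363
import Cfsg.Agent.H27.M24

set_option autoImplicit false
open Cfsg

namespace Cfsg.Agent.S0363
open H27 MulAction
open scoped Pointwise

/-- The octads of the length-24 code form a Steiner system S(5, 8, 24) on the 24 points. -/
theorem result : Cfsg.IsSteinerSystem 5 8 Cfsg.octads := by
  refine ⟨fun b hb => hb.2, fun s hs => ?_⟩
  obtain ⟨o, ho, h⟩ := exists_octad hs.le
  exact ⟨o, ⟨ho, h⟩, fun o' ⟨ho', h'⟩ => octad_eq_of_five ho' ho (hs ▸ Finset.card_le_card (Finset.subset_inter h' h))⟩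

end Cfsg.Agent.S0363
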