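import Cfsg.Statements.S0369
import Cfsg.Agent.H27.M24

set_option autoImplicit false
open Cfsg

namespace Cfsg.Agent.S0369
open H27 MulAction
open scoped Pointwise

/-- The group of the length-24 code coincides with the automorphism group of its octad system. -/
theorem result : Cfsg.M24 = Cfsg.setSystemAut Cfsg.octads := by
  ext g
  constructor
  · intro hg
    rw [mem_stabilizer_iff]
    ext s
    rw [Set.mem_smul_set_iff_inv_smul_mem, smul_mem_octads_iff (M24.inv_mem hg)]
  · intro hg
    rw [mem_stabilizer_iff] at hg
    rw [mem_M24_iff]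
    intro s hs
    obtain ⟨x, hx, rfl⟩ := mem_GC_iff.1 hs
    refine inC_ind (fun x => g • GE.fs x ∈ GC) ?_ ?_ ?_ hx
    · simp only [Enum.fs_zero, Finset.smul_finset_empty]; exact empty_mem_GC
    · intro x y hx hy
      simp only [GE.fs_xor, Finset.smul_finset_symmDiff]; exact symmDiff_mem_GC hx hy
    · intro b hb
      have := Set.smul_mem_smul_set (a := g) (fs_mem_octads_of ((by decide +kernel : ∀ b ∈ gB, isOct b = true) b hb))
      rw [hg] at this
      exact this.1

end Cfsg.Agent.S0369
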