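import Cfsg.Statements.S0370
import Cfsg.Agent.H27.Golay

set_option autoImplicit false
open Cfsg

namespace Cfsg.Agent.S0370
open H27 MulAction
open scoped Pointwise

/-- The permutation x ↦ x + 1 of the residues modulo 23, fixing the extra point, lies in the group of the length-24 code. -/
theorem result : Equiv.optionCongr (Equiv.addRight (1 : ZMod 23)) ∈ Cfsg.M24 := by
  exact mem_M24_of_acts (N := (.cons 1 0x555555 (.cons 2 0x222222 (.cons 4 0x80808 (.cons 16 0x80 (.cons 8 0x80 (.cons 1 0x400000 .nil)))))))
    ⟨Net.ok_of_valid (by decide +kernel), by decide +kernel⟩ (by decide +kernel)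

end Cfsg.Agent.S0370
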