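import Cfsg.Statements.S0371
import Cfsg.Agent.H27.Golay

set_option autoImplicit false
open Cfsg

namespace Cfsg.Agent.S0371
open H27 MulAction
open scoped Pointwise
def nets : List Net := [.nil,
  (.cons 1 0x444444 (.cons 2 0x121212 (.cons 4 0xc030c (.cons 8 0xff (.cons 16 0xf (.cons 8 0xf (.cons 2 0x333000 (.cons 1 0x555000 .nil)))))))),
  (.cons 2 0x222222 (.cons 4 0x40404 (.cons 8 0x3f (.cons 16 0xc7 (.cons 8 0x7 (.cons 4 0xc0700 (.cons 2 0x332200 (.cons 1 0x5500 .nil)))))))),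
  (.cons 1 0x505050 (.cons 2 0x122112 (.cons 4 0x9090a (.cons 8 0xcc (.cons 16 0xf0 (.cons 8 0xc0 (.cons 4 0x30c00 (.cons 2 0x333000 (.cons 1 0x540540 .nil))))))))),
  (.cons 1 0x540540 (.cons 2 0x303030 (.cons 4 0x60506 (.cons 8 0x48 (.cons 16 0xcc (.cons 8 0x84 (.cons 4 0xc00 (.cons 2 0x332100 (.cons 1 0x505050 .nil))))))))),
  (.cons 1 0x5500 (.cons 2 0x110022 (.cons 4 0x20904 (.cons 8 0xdb (.cons 16 0x6d (.cons 8 0x49 .nil)))))),
  (.cons 1 0x405054 (.cons 2 0x320132 (.cons 4 0x80c08 (.cons 8 0x1f (.cons 16 0xed (.cons 8 0x49 (.cons 4 0xa0300 (.cons 2 0x110100 (.cons 1 0x554400 .nil))))))))),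
  (.cons 1 0x555000 (.cons 2 0x111222 (.cons 4 0x60606 (.cons 8 0xff (.cons 16 0x69 (.cons 8 0x69 (.cons 4 0xf00 (.cons 2 0x303030 (.cons 1 0x444444 .nil))))))))),
  (.cons 1 0x410514 (.cons 2 0x20312 (.cons 4 0x20f02 (.cons 8 0x64 (.cons 16 0xae (.cons 8 0x6 (.cons 4 0x600 (.cons 2 0x233000 (.cons 1 0x554400 .nil))))))))),
  (.cons 1 0x554400 (.cons 2 0x332 (.cons 4 0x80708 (.cons 8 0x91 (.cons 16 0xab (.cons 8 0x9 (.cons 4 0x100 (.cons 2 0x213020 (.cons 1 0x410514 .nil))))))))),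
  (.cons 1 0x454404 (.cons 2 0x122112 (.cons 4 0xc0b0c (.cons 8 0xd5 (.cons 16 0xeb (.cons 8 0x49 (.cons 4 0xd00 (.cons 2 0x321210 (.cons 1 0x445044 .nil)))))))))]

/-- Multiplication by a nonzero square residue modulo 23, fixing the extra point, lies in the group of the length-24 code. -/
theorem result (u : (ZMod 23)ˣ) (hu : IsSquare u) : Equiv.optionCongr (Units.mulLeft u) ∈ Cfsg.M24 := by
  obtain ⟨r, rfl⟩ := hu
  have h : ∀ r : (ZMod 23)ˣ, ∃ N ∈ nets, ∀ i < 24,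
      Equiv.optionCongr (Units.mulLeft (r * r)) • GE.e i = GE.e (N.fn i) := by decide +kernel
  obtain ⟨N, hN, h⟩ := h r
  have h2 := (allL_iff _ _).1 (by decide +kernel : allL nets m24chk = true) N hN
  have h3 := h2
  simp only [m24chk, and'_eq, Bool.and_eq_true] at h3
  exact mem_M24_of_acts ⟨m24chk_ok h2, h⟩ h3.2

end Cfsg.Agent.S0371
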