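import Cfsg.Statements.S0381
import Cfsg.Agent.H27.MX

set_option autoImplicit false
open Cfsg

namespace Cfsg.Agent.S0381
open H27 MulAction
open scoped Pointwise


/-- The pointwise stabiliser of an octad in the group of the length-24 code has order 16 and every element of it squares to the identity. -/
theorem result (o : Finset Cfsg.GolayPt) (ho : o ∈ Cfsg.octads) : Nat.card ↥(Cfsg.M24 ⊓ fixingSubgroup (Equiv.Perm Cfsg.GolayPt) (o : Set Cfsg.GolayPt)) = 16 ∧ ∀ g ∈ Cfsg.M24 ⊓ fixingSubgroup (Equiv.Perm Cfsg.GolayPt) (o : Set Cfsg.GolayPt), g * g = 1 := by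
  have e : (fixingSubgroup (Equiv.Perm Cfsg.GolayPt) (o : Set Cfsg.GolayPt)).subgroupOf Cfsg.M24 = fixingSubgroup MM (o : Set Cfsg.GolayPt) := rfl
  refine ⟨by rw [card_sub, e, card_fixing_octad ho], fun g hg => ?_⟩
  obtain ⟨k, rfl⟩ := exists_smul_eO ho
  have R := (CjRel.fixF k (eO 0)).symm
  rw [show fixingSubgroup MM (eO 0 : Set Cfsg.GolayPt) = cl ((sgN.map mm).drop 6) by
    rw [eO_zero, fixing_gfs, fix_oct0, sg_level6.1]] at R
  have := (R ⟨g, hg.1⟩).1 hg.2
  have := (sg_drop 6).elemAb (K := 5) (p := 2) (fun _ => MM_faithful) (by decide +kernel) _ this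
  rw [conj_pow, conj_eq_one_iff, pow_two] at this
  exact congrArg Subtype.val this

end Cfsg.Agent.S0381
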