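import Cfsg.Statements.S0385
import Cfsg.Agent.H27.M24

set_option autoImplicit false
open Cfsg

namespace Cfsg.Agent.S0385
open H27 Finset


/-- The 6-point intersections of octads with a fixed dodecad form a Steiner system S(5, 6, 12) on the dodecad. -/
theorem result (d : Finset Cfsg.GolayPt) (hd : d ∈ Cfsg.dodecads) : Cfsg.IsSteinerSystem 5 6 {h : Finset {p : Cfsg.GolayPt // p ∈ d} | ∃ o ∈ Cfsg.octads, (o ∩ d).card = 6 ∧ h = Finset.subtype (fun p => p ∈ d) o} := by
  refine ⟨?_, fun s hs => ?_⟩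
  · rintro _ ⟨o, -, h6, rfl⟩
    rw [card_subtype, filter_mem_eq_inter, h6]
  · have hc : (s.map (Function.Embedding.subtype _)).card = 5 := by rw [card_map, hs]
    obtain ⟨o, ho, hso⟩ := exists_octad hc.le
    have hsub : ∀ o : Finset GolayPt, s ⊆ Finset.subtype (fun p => p ∈ d) o ↔
        s.map (Function.Embedding.subtype _) ⊆ o := fun o => by
      rw [map_subset_iff_subset_preimage]
      exact forall_congr' fun a => by simp
    have h1 : 5 ≤ (o ∩ d).card := hc ▸ card_le_card (subset_inter hso fun p hp => by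
      obtain ⟨a, -, rfl⟩ := mem_map.1 hp
      exact a.2)
    have h2 := card_of_mem_GC (symmDiff_mem_GC ho.1 hd.1)
    have h3 := card_symmDiff_add o d
    have h4 := card_le_card (inter_subset_left : o ∩ d ⊆ o)
    rw [ho.2] at h4
    rw [ho.2, hd.2] at h3
    refine ⟨_, ⟨⟨o, ho, by omega, rfl⟩, (hsub o).2 hso⟩, ?_⟩
    rintro _ ⟨⟨o', ho', -, rfl⟩, hs'⟩
    rw [octad_eq_of_five ho' ho (hc ▸ card_le_card (subset_inter ((hsub o').1 hs') hso))]

end Cfsg.Agent.S0385
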