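import Cfsg.Statements.S0386
import Cfsg.Agent.H27.MSub

set_option autoImplicit false
open Cfsg

namespace Cfsg.Agent.S0386
open H27 MulAction
open scoped Pointwise

/-- For a fixed dodecad, 132 octads meet it in 6 points, 132 in 2 points and 495 in 4 points. -/
theorem result (d : Finset Cfsg.GolayPt) (hd : d ∈ Cfsg.dodecads) : {o : Finset Cfsg.GolayPt | o ∈ Cfsg.octads ∧ (o ∩ d).card = 6}.ncard = 132 ∧ {o : Finset Cfsg.GolayPt | o ∈ Cfsg.octads ∧ (o ∩ d).card = 2}.ncard = 132 ∧ {o : Finset Cfsg.GolayPt | o ∈ Cfsg.octads ∧ (o ∩ d).card = 4}.ncard = 495 := by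
  obtain ⟨g, rfl⟩ := exists_smul_eD hd
  exact ⟨(ncard_smul g (T := {x | x ∈ Cfsg.octads ∧ (x ∩ eD 0).card = 6}) (fun y => by simp only [Set.mem_ofPred_eq, mm_smul_octads, mm_smul_dodecads, ← mm_smul_inter, Finset.card_smul_finset, Finset.smul_mem_smul_finset_iff])).trans
      ((tabO.ncard_cnt (fun i => force (oM i) fun x => Nat.beq (pop24 (Nat.land x dod0)) 6) (fun _ h => by simp only [Set.mem_ofPred_eq] at h; tauto) (fun i hi => by
        simp only [Set.mem_ofPred_eq, tabO.mem i hi, true_and]
        simp only [eO_eq hi, eO_zero, eD_zero, card_inter_gfs, e_mem_gfs (by norm_num : 23 < 24), e_mem_gfs (by norm_num : 0 < 24),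
          force_eq, and'_eq, not'_eq, Bool.and_eq_true, beq_iff, Bool.not_eq_true', Bool.not_eq_true, and_assoc])).trans (by decide +kernel)),
    (ncard_smul g (T := {x | x ∈ Cfsg.octads ∧ (x ∩ eD 0).card = 2}) (fun y => by simp only [Set.mem_ofPred_eq, mm_smul_octads, mm_smul_dodecads, ← mm_smul_inter, Finset.card_smul_finset, Finset.smul_mem_smul_finset_iff])).trans
      ((tabO.ncard_cnt (fun i => force (oM i) fun x => Nat.beq (pop24 (Nat.land x dod0)) 2) (fun _ h => by simp only [Set.mem_ofPred_eq] at h; tauto) (fun i hi => by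
        simp only [Set.mem_ofPred_eq, tabO.mem i hi, true_and]
        simp only [eO_eq hi, eO_zero, eD_zero, card_inter_gfs, e_mem_gfs (by norm_num : 23 < 24), e_mem_gfs (by norm_num : 0 < 24),
          force_eq, and'_eq, not'_eq, Bool.and_eq_true, beq_iff, Bool.not_eq_true', Bool.not_eq_true, and_assoc])).trans (by decide +kernel)),
    (ncard_smul g (T := {x | x ∈ Cfsg.octads ∧ (x ∩ eD 0).card = 4}) (fun y => by simp only [Set.mem_ofPred_eq, mm_smul_octads, mm_smul_dodecads, ← mm_smul_inter, Finset.card_smul_finset, Finset.smul_mem_smul_finset_iff])).trans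
      ((tabO.ncard_cnt (fun i => force (oM i) fun x => Nat.beq (pop24 (Nat.land x dod0)) 4) (fun _ h => by simp only [Set.mem_ofPred_eq] at h; tauto) (fun i hi => by
        simp only [Set.mem_ofPred_eq, tabO.mem i hi, true_and]
        simp only [eO_eq hi, eO_zero, eD_zero, card_inter_gfs, e_mem_gfs (by norm_num : 23 < 24), e_mem_gfs (by norm_num : 0 < 24),
          force_eq, and'_eq, not'_eq, Bool.and_eq_true, beq_iff, Bool.not_eq_true', Bool.not_eq_true, and_assoc])).trans (by decide +kernel))⟩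

end Cfsg.Agent.S0386
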