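import Cfsg.Statements.S0389
import Cfsg.Agent.H27.MSub

set_option autoImplicit false
open scoped Pointwise
open Cfsg

namespace Cfsg.Agent.S0389
open H27 MulAction
open scoped Pointwise
def gN : List Net := [(.cons 1 0x511454 (.cons 2 0x301232 (.cons 4 0x3070a (.cons 8 0x6a (.cons 16 0x7c (.cons 8 0xc (.cons 2 0x310120 (.cons 1 0x544454 .nil)))))))),
  (.cons 1 0x105544 (.cons 2 0x12 (.cons 4 0xb0b04 (.cons 8 0xe2 (.cons 16 0xf4 (.cons 8 0x70 (.cons 4 0x30400 (.cons 2 0x102010 (.cons 1 0x415500 .nil))))))))),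
  (.cons 1 0x411414 (.cons 2 0x311300 (.cons 4 0xa0e06 (.cons 8 0x33 (.cons 16 0x73 (.cons 8 0x53 (.cons 4 0x40600 (.cons 2 0x303000 (.cons 1 0x111410 .nil))))))))),
  (.cons 1 0x111510 (.cons 2 0x201000 (.cons 4 0xc0502 (.cons 8 0xe6 (.cons 16 0xc6 (.cons 8 0x86 (.cons 4 0x80400 (.cons 2 0x30100 (.cons 1 0x41410 .nil))))))))),
  (.cons 1 0x514004 (.cons 2 0x122100 (.cons 4 0xb0800 (.cons 8 0xdc (.cons 16 0xcc (.cons 8 0xcc (.cons 2 0x122100 (.cons 1 0x514000 .nil))))))))]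

/-- The stabiliser of a dodecad and a point on it is 3-transitive on the complementary dodecad. -/
theorem result (d : Finset Cfsg.GolayPt) (hd : d ∈ Cfsg.dodecads) (p : Cfsg.GolayPt) (hp : p ∈ d) (x y : Fin 3 ↪ Cfsg.GolayPt) (hx : ∀ i, x i ∉ d) (hy : ∀ i, y i ∉ d) : ∃ g ∈ MulAction.stabilizer Cfsg.M24 d ⊓ MulAction.stabilizer Cfsg.M24 p, ∀ i, (g : Equiv.Perm Cfsg.GolayPt) (x i) = y i := by
  obtain ⟨g, rfl, rfl⟩ := exists_smul_dod1 hd hp
  have a : ActsL 24 GE.e (gN.map mm) gN := actsL_mm (by decide +kernel)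
  obtain ⟨k, hk, b⟩ := exists_emb_of_list (H := H11) (X := mset 24 GE.e 0xfacca0) (k := 3) (bs := [5, 7, 10].map GE.e) rfl
    (fun l c d e => a.transOn GE.injOn [(5, 2, 1), (7, 2, 1), (10, 2, 1)] (mem_inf_of (a.stab_eD (by decide +kernel))
      (a.stab_pt (b := 0) (by norm_num) (by decide +kernel))) (stab_mset (x := dod0) (X := 0xfacca0) (by rw [← eD_zero]; exact inf_le_left) (Or.inr rfl))
      (by decide +kernel) l c d e) (g⁻¹ • x) (g⁻¹ • y)
    (fun i => by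
      rw [GE.mset_eq_fs, show 0xfacca0 = dod0 ^^^ (2 ^ 24 - 1) from rfl, GE.fs_compl, ← eD_zero, Finset.mem_coe, Finset.mem_compl]
      exact fun h => hx i (Finset.inv_smul_mem_iff.1 h))
    (fun i => by
      rw [GE.mset_eq_fs, show 0xfacca0 = dod0 ^^^ (2 ^ 24 - 1) from rfl, GE.fs_compl, ← eD_zero, Finset.mem_coe, Finset.mem_compl]
      exact fun h => hy i (Finset.inv_smul_mem_iff.1 h))
  exact ⟨_, (((CjRel.stab g _).inf (CjRel.stab g _)) k).1 hk, fun i => by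
    change (g * k * g⁻¹) • x i = y i
    rw [mul_smul, mul_smul]; exact smul_eq_iff_eq_inv_smul g |>.2 (b i)⟩

end Cfsg.Agent.S0389
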