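import Cfsg.Statements.S0393
import Cfsg.Agent.H27.LCo1

set_option autoImplicit false
open Cfsg

namespace Cfsg.Agent.S0393

open H27 Finset
theorem box : {x : VV | x ∈ leechLattice ∧ ∀ i, x i ∈ [0, 1, 2, 3, 4, 5, 6, 7]}.ncard = 2 ^ 36 := by
  refine count_gf (A := [0, 1, 2, 3, 4, 5, 6, 7]) piN' piN' piN' (T0 := tgE 0) (T1 := tgO 0) (by decide +kernel) (fun _ h => h.1)
    (fun x m c hm hc h => ?_) (by decide +kernel)
  have a := sum_byPos piN' piN' piN' x
  have b := pi_le x
  simp only [add_left_inj] at a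
  simp only [Set.mem_ofPred_eq, pi_sum hm hc h, a]
  rcases hm with rfl | rfl
  · rw [if_pos rfl, mem_tgE]; exact ⟨fun e => ⟨e.2, by omega⟩, fun e => ⟨by omega, e.1⟩⟩
  · rw [if_neg one_ne_zero, mem_tgO]; exact ⟨fun e => ⟨e.2, by omega⟩, fun e => ⟨by omega, e.1⟩⟩
theorem eight {x : VV} (h : ∀ i, 8 ∣ x i) : x ∈ leechLattice := by
  rw [← univ_sum_single x]
  exact sum_mem fun i _ => single_mem i (h i)

/-- The lattice has index 2^36 in ℤ^24 (unimodular at scale 1/8). -/
theorem result : Cfsg.leechLattice.index = 2 ^ 36 := by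
  let π : VV →+ (GolayPt → ZMod 8) := (Int.castAddHom (ZMod 8)).compLeft _
  have p : ∀ x i, π x i = (x i : ZMod 8) := fun _ _ => rfl
  have s : Function.Surjective π := fun y => ⟨fun i => (y i).val, funext fun i => by simp [p]⟩
  have k : π.ker ≤ leechLattice := fun x hx => eight fun i => (ZMod.intCast_zmod_eq_zero_iff_dvd _ 8).1 (congrFun hx i)
  have c : Nat.card (leechLattice.map π) = 2 ^ 36 := by
    rw [← box, ← Set.ncard_image_of_injOn (f := π) fun x hx y hy e => funext fun i => ?_]
    · refine congrArg Set.ncard (Set.ext fun y => ⟨?_, fun ⟨x, a, b⟩ => ⟨x, a.1, b⟩⟩)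
      rintro ⟨x, a, rfl⟩
      refine ⟨fun i => x i % 8, ⟨?_, fun i => ?_⟩, funext fun i => ZMod.intCast_mod _ 8⟩
      · have := leechLattice.sub_mem a (eight (x := fun i => 8 * (x i / 8)) fun i => dvd_mul_right _ _)
        exact (funext fun i => by change x i - 8 * (x i / 8) = x i % 8; omega : (x - fun i => 8 * (x i / 8)) = fun i => x i % 8) ▸ this
      · change x i % 8 ∈ _
        simp only [List.mem_cons, List.not_mem_nil, or_false]; omega
    · have a := hx.2 i
      have b := hy.2 i
      have c := (ZMod.intCast_eq_intCast_iff' _ _ 8).1 (congrFun e i)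
      simp only [List.mem_cons, List.not_mem_nil, or_false, Nat.cast_ofNat] at a b c; omega
  have d := (leechLattice.map π).card_mul_index
  rw [c, AddSubgroup.index_map_eq _ s k, Nat.card_fun, Nat.card_zmod, Nat.card_eq_fintype_card, card_pt] at d
  omega

end Cfsg.Agent.S0393
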