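import Cfsg.Statements.S0403
import Cfsg.Agent.H27.LCo1

set_option autoImplicit false
open Cfsg

namespace Cfsg.Agent.S0403
open H27 MulAction

/-- Stabiliser of a vector of sum of squares 48 is simple of order 495766656000. -/
theorem result (v : Cfsg.leechLattice) (hv : Cfsg.sqNorm (v : Cfsg.GolayPt → ℤ) = 48) : Cfsg.IsCo3 (MulAction.stabilizer Cfsg.Co0 v) := by
  obtain ⟨g, rfl⟩ := exists_smul_lV hv
  exact ⟨(CjRel.stab g lV).simple simple_C3, (CjRel.stab g lV).card.trans card_C3⟩

end Cfsg.Agent.S0403
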