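import Cfsg.Statements.S1588
import Cfsg.Agent.Lead.Lat

set_option autoImplicit false
open Matrix
open Cfsg

namespace Cfsg.Agent.S1588
open Lead.Lat Finset


/-- Second step of the characterisation: under the vector counts of the rank-24 lattice, the norm-8 vectors fall into congruence classes of exactly 48 modulo twice the lattice. -/
theorem result (B : Matrix (Fin 24) (Fin 24) ℤ) (hsymm : B.IsSymm) (hpos : ∀ x : Fin 24 → ℤ, x ≠ 0 → 0 < x ⬝ᵥ (B *ᵥ x)) (heven : ∀ x : Fin 24 → ℤ, (2 : ℤ) ∣ x ⬝ᵥ (B *ᵥ x)) (h2 : ∀ x : Fin 24 → ℤ, x ⬝ᵥ (B *ᵥ x) ≠ 2) (h4 : {x : Fin 24 → ℤ | x ⬝ᵥ (B *ᵥ x) = 4}.ncard = 196560) (h6 : {x : Fin 24 → ℤ | x ⬝ᵥ (B *ᵥ x) = 6}.ncard = 16773120) (h8 : {x : Fin 24 → ℤ | x ⬝ᵥ (B *ᵥ x) = 8}.ncard = 398034000) (x : Fin 24 → ℤ) (hx : x ⬝ᵥ (B *ᵥ x) = 8) : {y : Fin 24 → ℤ | y ⬝ᵥ (B *ᵥ y) = 8 ∧ ∀ i, (2 : ℤ) ∣ (x - y) i}.ncard = 48 := by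
  classical
  have f4 := Set.finite_of_ncard_ne_zero (h4 ▸ by norm_num : {x : Fin 24 → ℤ | x ⬝ᵥ (B *ᵥ x) = 4}.ncard ≠ 0)
  have f6 := Set.finite_of_ncard_ne_zero (h6 ▸ by norm_num : {x : Fin 24 → ℤ | x ⬝ᵥ (B *ᵥ x) = 6}.ncard ≠ 0)
  have f8 := Set.finite_of_ncard_ne_zero (h8 ▸ by norm_num : {x : Fin 24 → ℤ | x ⬝ᵥ (B *ᵥ x) = 8}.ncard ≠ 0)
  rw [Set.ncard_eq_toFinset_card _ f4] at h4
  rw [Set.ncard_eq_toFinset_card _ f6] at h6
  rw [Set.ncard_eq_toFinset_card _ f8] at h8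
  let w : (Fin 24 → ℤ) → ℕ := fun x => if x ⬝ᵥ (B *ᵥ x) = 0 then 48 else if x ⬝ᵥ (B *ᵥ x) = 8 then 1 else 24
  let S : Finset (Fin 24 → ℤ) := (({0} ∪ f4.toFinset) ∪ f6.toFinset) ∪ f8.toFinset
  have hS : ∀ x, x ∈ S ↔ x = 0 ∨ x ⬝ᵥ (B *ᵥ x) = 4 ∨ x ⬝ᵥ (B *ᵥ x) = 6 ∨ x ⬝ᵥ (B *ᵥ x) = 8 := fun x => by
    simp [S, or_assoc]
  have hS8 : ∀ x ∈ S, x ⬝ᵥ (B *ᵥ x) ≤ 8 := fun x hx => by
    rcases (hS x).1 hx with rfl | h | h | h
    · simp
    all_goals omega
  have tot : ∑ x ∈ S, w x = ∑ _c : Fin 24 → ZMod 2, 48 := by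
    rw [sum_union, sum_union, sum_union, sum_singleton,
      sum_congr rfl (g := fun _ => 24) (fun x hx => by simp [w, show x ⬝ᵥ (B *ᵥ x) = 4 from f4.mem_toFinset.1 hx]),
      sum_congr rfl (s₁ := f6.toFinset) (g := fun _ => 24) (fun x hx => by simp [w, show x ⬝ᵥ (B *ᵥ x) = 6 from f6.mem_toFinset.1 hx]),
      sum_congr rfl (s₁ := f8.toFinset) (g := fun _ => 1) (fun x hx => by simp [w, show x ⬝ᵥ (B *ᵥ x) = 8 from f8.mem_toFinset.1 hx])]
    · simp [h4, h6, h8, w]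
    all_goals
      rw [disjoint_left]
      intro a ha hb
      simp only [mem_union, mem_singleton, Set.Finite.mem_toFinset, Set.mem_setOf_eq] at ha hb
    · subst ha; simp at hb
    · rcases ha with rfl | ha
      · simp at hb
      · omega
    · rcases ha with (rfl | ha) | ha
      · simp at hb
      all_goals omega
  have all8 : ∀ (c : Fin 24 → ZMod 2), (∀ x ∈ S.filter (red · = c), x ⬝ᵥ (B *ᵥ x) = 8) →
      ∑ x ∈ S.filter (red · = c), w x = (S.filter (red · = c)).card := fun c h => by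
    rw [card_eq_sum_ones]
    exact sum_congr rfl fun x hx => by simp [w, h x hx]
  have le : ∀ c : Fin 24 → ZMod 2, ∑ x ∈ S.filter (red · = c), w x ≤ 48 := by
    intro c
    by_cases h : ∀ x ∈ S.filter (red · = c), x ⬝ᵥ (B *ᵥ x) = 8
    · rw [all8 c h]
      refine card_le _ h fun x hx y hy => ?_
      rcases key hsymm hpos heven h2 (h x hx).le (h y hy).le
        (red_eq.1 ((mem_filter.1 hx).2.trans (mem_filter.1 hy).2.symm)) with e | e | e
      exacts [Or.inl e, Or.inr (Or.inl e), Or.inr (Or.inr e.1)]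
    · push Not at h
      obtain ⟨x, hx, hx8⟩ := h
      have : S.filter (red · = c) ⊆ {x, -x} := fun y hy => by
        rcases key hsymm hpos heven h2 (hS8 x (mem_filter.1 hx).1) (hS8 y (mem_filter.1 hy).1)
          (red_eq.1 ((mem_filter.1 hx).2.trans (mem_filter.1 hy).2.symm)) with e | e | e
        · simp [e]
        · simp [e]
        · exact absurd e.2.1 hx8
      refine (sum_le_sum_of_subset this).trans ?_
      by_cases h0 : x = 0
      · simp [h0, w]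
      · have h1 := (hpos x h0).ne'
        refine (sum_le_card_nsmul _ _ 24 fun y hy => ?_).trans (by
          have := card_le_two (a := x) (b := -x); simp only [smul_eq_mul]; omega)
        rcases mem_insert.1 hy with rfl | hy
        · simp [w, h1, hx8]
        · rw [mem_singleton.1 hy]; simp [w, h1, hx8, mulVec_neg]
  rw [← sum_fiberwise S red w] at tot
  have h48 := (sum_eq_sum_iff_of_le fun c _ => le c).1 tot (red x) (mem_univ _)
  have hh : ∀ y ∈ S.filter (red · = red x), y ⬝ᵥ (B *ᵥ y) = 8 := fun y hy => by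
    rcases key hsymm hpos heven h2 hx.le (hS8 y (mem_filter.1 hy).1) (red_eq.1 (mem_filter.1 hy).2.symm)
      with e | e | e
    · rw [e, hx]
    · rw [e]; simpa [mulVec_neg] using hx
    · exact e.2.2
  rw [all8 _ hh] at h48
  rw [← h48, ← Set.ncard_coe_finset]
  refine congrArg Set.ncard (Set.ext fun y => ?_)
  simp only [Set.mem_setOf_eq, mem_coe]
  exact ⟨fun h => mem_filter.2 ⟨(hS y).2 (by simp [h.1]), (red_eq.2 h.2).symm⟩,
    fun h => ⟨hh y h, red_eq.1 (mem_filter.1 h).2.symm⟩⟩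

end Cfsg.Agent.S1588
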