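import Cfsg.Statements.S0406
import Cfsg.Agent.H9.Le5
import Cfsg.Agent.S1588

set_option autoImplicit false
open Matrix
open Cfsg

namespace Cfsg.Agent.S0406

open H27 H9 Finset Lead.Lat Lead.St

/-- A rank-24 even lattice with no roots and the stated numbers of vectors of norms 4, 6, 8 is isomorphic to the Leech lattice. -/
theorem result (B : Matrix (Fin 24) (Fin 24) ℤ) (hsymm : B.IsSymm) (hpos : ∀ x : Fin 24 → ℤ, x ≠ 0 → 0 < x ⬝ᵥ (B *ᵥ x)) (heven : ∀ x : Fin 24 → ℤ, (2 : ℤ) ∣ x ⬝ᵥ (B *ᵥ x)) (h2 : ∀ x : Fin 24 → ℤ, x ⬝ᵥ (B *ᵥ x) ≠ 2) (h4 : {x : Fin 24 → ℤ | x ⬝ᵥ (B *ᵥ x) = 4}.ncard = 196560) (h6 : {x : Fin 24 → ℤ | x ⬝ᵥ (B *ᵥ x) = 6}.ncard = 16773120) (h8 : {x : Fin 24 → ℤ | x ⬝ᵥ (B *ᵥ x) = 8}.ncard = 398034000) : ∃ f : (Fin 24 → ℤ) ≃+ Cfsg.leechLattice, ∀ x : Fin 24 → ℤ, Cfsg.sqNorm ((f x : Cfsg.leechLattice) : Cfsg.GolayPt → ℤ) = 8 * (x ⬝ᵥ (B *ᵥ x)) := by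
  classical
  obtain ⟨x0, h0⟩ := Set.nonempty_of_ncard_ne_zero (h8 ▸ by norm_num : {x : Fin 24 → ℤ | x ⬝ᵥ (B *ᵥ x) = 8}.ncard ≠ 0)
  have c := Cfsg.Agent.S1588.result B hsymm hpos heven h2 h4 h6 h8 x0 h0
  have f := Set.finite_of_ncard_ne_zero (c.trans_ne (by norm_num))
  rw [Set.ncard_eq_toFinset_card _ f] at c
  have m : ∀ y, y ∈ f.toFinset ↔ y ⬝ᵥ (B *ᵥ y) = 8 ∧ ∀ i, (2 : ℤ) ∣ (x0 - y) i := fun y => f.mem_toFinset
  generalize f.toFinset = T at c m
  let r : (Fin 24 → ℤ) → ℕ := Encodable.encode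
  have n : ∀ y ∈ T, r y ≠ r (-y) := fun y hy e => by
    have := ((m y).1 hy).1
    rw [show y = 0 from funext fun i => by have := congrFun (Encodable.encode_injective e) i; simp at this ⊢; omega] at this
    simp at this
  have n2 : ∀ y ∈ T, -y ∈ T := fun y hy => (m _).2 ⟨by simpa [mulVec_neg] using ((m y).1 hy).1, fun i => by
    have := ((m y).1 hy).2 i; simp only [Pi.sub_apply, Pi.neg_apply] at *; omega⟩
  have c2 : (T.filter fun y => r y < r (-y)).card = 24 := by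
    have := card_filter_add_card_filter_not (s := T) fun y => r y < r (-y)
    rw [← card_equiv (s := T.filter fun y => r y < r (-y)) (t := T.filter fun y => ¬ r y < r (-y)) (Equiv.neg _) fun y => ?_] at this
    · omega
    · simp only [mem_filter, Equiv.neg_apply, neg_neg]
      exact ⟨fun h => ⟨n2 y h.1, by omega⟩, fun h => ⟨neg_neg y ▸ n2 _ h.1, by have := n _ h.1; rw [neg_neg] at this; omega⟩⟩
  let v : Fin 24 → Fin 24 → ℤ := fun i => (equivFinOfCardEq c2).symm i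
  have vm : ∀ i, v i ∈ T ∧ r (v i) < r (-v i) := fun i => mem_filter.1 ((equivFinOfCardEq c2).symm i).2
  have v2 : ∀ i j k, (2 : ℤ) ∣ (v i - v j) k := fun i j k => by
    have := ((m _).1 (vm i).1).2 k; have := ((m _).1 (vm j).1).2 k; simp only [Pi.sub_apply] at *; omega
  have o : ∀ i j, v i ⬝ᵥ (B *ᵥ v j) = if i = j then 8 else 0 := fun i j => by
    split_ifs with e
    · exact e ▸ ((m _).1 (vm i).1).1
    · rcases key hsymm hpos heven h2 ((m _).1 (vm i).1).1.le ((m _).1 (vm j).1).1.le (v2 i j) with a | a | a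
      · exact absurd ((equivFinOfCardEq c2).symm.injective (Subtype.ext a)).symm e
      · have := (vm i).2; have := (vm j).2; rw [a, neg_neg] at this; omega
      · exact a.1
  let W := Matrix.of v * B
  have w : ∀ x i, (W *ᵥ x) i = v i ⬝ᵥ (B *ᵥ x) := fun x i => by rw [← mulVec_mulVec]; rfl
  have u : W * (Matrix.of v)ᵀ = (8 : ℤ) • 1 := Matrix.ext fun i j => ((w (v j) i).trans (o i j)).trans (by simp [one_apply])
  have d : W.det ≠ 0 := left_ne_zero_of_mul (b := (Matrix.of v)ᵀ.det) (by rw [← det_mul, u, det_smul, det_one]; simp)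
  let F : (Fin 24 → ℤ) →+ VV := ⟨⟨fun x p => (W *ᵥ x) (l24 p), by ext; simp⟩, fun x y => by ext; simp [mulVec_add]⟩
  have N : ∀ x, sqNorm (F x) = 8 * (x ⬝ᵥ (B *ᵥ x)) := fun x => by
    have : (Matrix.of v)ᵀ *ᵥ (W *ᵥ x) = (8 : ℤ) • x := sub_eq_zero.1 (eq_zero_of_mulVec_eq_zero d (by
      rw [mulVec_sub, mulVec_mulVec, u, smul_mulVec, one_mulVec, mulVec_smul, sub_self]))
    rw [← smul_eq_mul, ← smul_dotProduct, ← this, mulVec_transpose, ← dotProduct_mulVec, mulVec_mulVec x]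
    exact (l24.sum_comp fun i => (W *ᵥ x) i ^ 2).trans (sum_congr rfl fun i _ => pow_two _)
  have i : Function.Injective F := (injective_iff_map_eq_zero F).2 fun x e => by
    by_contra z
    have := hpos x z; have := N x; rw [e] at this; simp [sqNorm] at this; omega
  obtain ⟨S, a, b⟩ := Pre.leech (K := F.range) ⟨by rintro _ ⟨x, rfl⟩; have := heven x; rw [N]; omega,
    by rintro _ ⟨x, rfl⟩; have := h2 x; rw [N]; omega, fun y => four_mem (K := F.range) fun j => ⟨fun k => (v (l24 j) + v (l24 none)) k / 2, by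
      refine smul_right_injective VV two_ne_zero (?_ : (2 : ℤ) • _ = (2 : ℤ) • _)
      rw [← map_zsmul, show ((2 : ℤ) • fun k => (v (l24 j) + v (l24 none)) k / 2) = v (l24 j) + v (l24 none) from funext fun k => by
        have := v2 (l24 j) (l24 none) k; simp only [Pi.sub_apply, Pi.add_apply, Pi.smul_apply, smul_eq_mul] at *; omega]
      funext p
      change (W *ᵥ _) _ = _
      simp only [w, mulVec_add, dotProduct_add, o, l24.apply_eq_iff_eq, Pi.smul_apply, Pi.add_apply, Pi.single_apply]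
      split_ifs <;> rfl⟩⟩ (by
      rw [← h4, ← Set.ncard_image_of_injective _ i]
      congr 1; ext x
      exact ⟨fun ⟨⟨y, a⟩, b⟩ => ⟨y, by rw [← a, N] at b; change _ = _; omega, a⟩,
        fun ⟨y, a, b⟩ => ⟨⟨y, b⟩, by rw [← b, N, show _ = _ from a]; rfl⟩⟩)
  refine ⟨AddEquiv.ofBijective ((S.toAddMonoidHom.comp F).codRestrict _ fun x => (b _).1 ⟨x, rfl⟩)
    ⟨fun x y e => i (S.injective (Subtype.mk.inj e)), fun y => ?_⟩, fun x => (a _).trans (N x)⟩
  obtain ⟨x, e⟩ := (b (S.symm y)).2 (by simp)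
  exact ⟨x, Subtype.ext ((congrArg S e).trans (S.apply_symm_apply _))⟩

end Cfsg.Agent.S0406
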