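import Cfsg.Statements.S0412
import Cfsg.Agent.Lead.St6
import Cfsg.Agent.S0364
import Cfsg.Agent.S0365

set_option autoImplicit false
open Cfsg

namespace Cfsg.Agent.S0412
open Lead.St H27 MulAction
open scoped Pointwise


/-- Aut of an S(5, 8, 24) is simple of order 244823040 and 5-transitive on points. -/
theorem result {α : Type*} [Fintype α] [DecidableEq α] (hα : Fintype.card α = 24) {B : Set (Finset α)} (hB : Cfsg.IsSteinerSystem 5 8 B) : Cfsg.IsM24 (Cfsg.setSystemAut B) ∧ MulAction.IsMultiplyPretransitive (Cfsg.setSystemAut B) α 5 := by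
  obtain ⟨ℓ, h⟩ := gol24 hα hB
  have hX : XX 24 = ∅ := by decide +kernel
  obtain ⟨e, -⟩ := aut_ext h hB (by simp [hX]) (by norm_num) (by norm_num) (surj_small h perp24 (by simp [hX]))
  have ht : stabilizer MM (XX 24) = ⊤ := by rw [hX, eq_top_iff]; intro g _; simp
  have e2 : setSystemAut B ≃* MM := (e.symm.trans (MulEquiv.subgroupCongr ht)).trans Subgroup.topEquiv
  have := S0365.result
  exact ⟨⟨e2.isSimpleGroup, (Nat.card_congr e2.toEquiv).trans S0364.result⟩,
    trans_ext h hB (by simp [hX]) (by norm_num)⟩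

end Cfsg.Agent.S0412
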