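import Cfsg.Statements.S0413
import Cfsg.Agent.Lead.St6
import Cfsg.Agent.S0376
import Cfsg.Agent.S0377

set_option autoImplicit false
open Cfsg

namespace Cfsg.Agent.S0413
open Lead.St H27 MulAction
open scoped Pointwise


/-- Aut of an S(4, 7, 23) is simple of order 10200960 and 4-transitive. -/
theorem result {α : Type*} [Fintype α] [DecidableEq α] (hα : Fintype.card α = 23) {B : Set (Finset α)} (hB : Cfsg.IsSteinerSystem 4 7 B) : Cfsg.IsM23 (Cfsg.setSystemAut B) ∧ MulAction.IsMultiplyPretransitive (Cfsg.setSystemAut B) α 4 := by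
  obtain ⟨ℓ, h⟩ := gol23 hα hB
  have hX : XX 23 = {none} := by decide +kernel
  obtain ⟨e, -⟩ := aut_ext h hB (by simp [hX]) (by norm_num) (by norm_num) (surj_small h perp23 (by simp [hX]))
  have ht : stabilizer MM (XX 23) = stabilizer MM (none : GolayPt) := by rw [hX, stabilizer_finset_singleton]
  have e2 := e.symm.trans (MulEquiv.subgroupCongr ht)
  have := S0377.result none
  exact ⟨⟨e2.isSimpleGroup, (Nat.card_congr e2.toEquiv).trans (S0376.result _)⟩,
    trans_ext h hB (by simp [hX]) (by norm_num)⟩

end Cfsg.Agent.S0413
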