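import Cfsg.Statements.S1624
import Cfsg.Agent.H29.J2
import Cfsg.Agent.H29.J2u

set_option autoImplicit false
open Quaternion
open Cfsg

namespace Cfsg.Agent.S1624

/-- The Hall–Janko group contains PSU(3, 3) with index 100 and acts on the 100 cosets with rank 3 and subdegrees 1, 36, 63. -/
theorem result : ∃ H : Subgroup Cfsg.Spor.J2, H.index = 100 ∧ (∃ (F : Type) (_ : Field F) (_ : Fintype F), Fintype.card F = 9 ∧ Nonempty (↥H ≃* Cfsg.PSU 3 F 3)) ∧ ∃ c₁ c₂ : Cfsg.Spor.J2 ⧸ H, (MulAction.orbit ↥H c₁).ncard = 36 ∧ (MulAction.orbit ↥H c₂).ncard = 63 := by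
  obtain ⟨q, St, d⟩ := H29.j2_ex
  have := Nat.finite_of_card_ne_zero (d.card.trans_ne (by norm_num))
  let := Fintype.ofFinite (GaloisField 3 2)
  have hF : Fintype.card (GaloisField 3 2) = 9 := by rw [← Nat.card_eq_fintype_card, GaloisField.card 3 2 (by norm_num)]; rfl
  obtain ⟨q3⟩ := H29.u33_ex hF
  obtain ⟨H, h1, h2, h3⟩ := H29.j2_u33 q.M rfl rfl rfl q.valid d.key d.card (q.lt (by decide +kernel)) q.cl_top q3
    (H29.u33_card hF)
  exact ⟨H, h1, ⟨_, _, _, hF, h2⟩, h3⟩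

end Cfsg.Agent.S1624
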