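import Cfsg.Statements.S0423
import Cfsg.Agent.S1624

set_option autoImplicit false
open Cfsg

namespace Cfsg.Agent.S0423

/-- Existence of a simple group of order 604800. -/
theorem result : ∃ G : Subgroup (Equiv.Perm (Fin 100)), Cfsg.IsJ2 G := by
  obtain ⟨H, h, -⟩ := Cfsg.Agent.S1624.result
  have := H29.j2_simple
  have := Nat.finite_of_card_ne_zero (H29.j2_card.trans_ne (by norm_num))
  obtain ⟨K, e, -⟩ := H29.exists_perm_rep H h (by norm_num)
  exact ⟨K, e.symm.isSimpleGroup, (Nat.card_congr e.toEquiv).symm.trans H29.j2_card⟩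

end Cfsg.Agent.S0423
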