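import Cfsg.Statements.S0431
import Cfsg.Agent.Lead.HS2

set_option autoImplicit false
open Cfsg

namespace Cfsg.Agent.S0431
open Lead.St H27


/-- Aut of the point-block graph of an S(3, 6, 22) contains a simple subgroup of order 44352000. -/
theorem result {α : Type*} [Fintype α] (hα : Fintype.card α = 22) {B : Set (Finset α)} (hB : Cfsg.IsSteinerSystem 3 6 B) : ∃ H : Subgroup (Cfsg.pointBlockGraph B ≃g Cfsg.pointBlockGraph B), Cfsg.IsHS H := by
  obtain ⟨φ, hφ⟩ := exists_hom_CHS
  obtain ⟨e, -⟩ := iso_HG hα hB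
  let ψ := (autCongr e).symm.toMonoidHom.comp φ
  have hψ : Function.Injective ψ := (autCongr e).symm.injective.comp hφ
  have := simple_CHS
  exact ⟨ψ.range, (MonoidHom.ofInjective hψ).symm.isSimpleGroup,
    by rw [← Nat.card_congr (MonoidHom.ofInjective hψ).toEquiv, card_CHS]⟩

end Cfsg.Agent.S0431
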