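import Cfsg.Statements.S0434
import Cfsg.Agent.H25.M11c

set_option autoImplicit false
open Cfsg

namespace Cfsg.Agent.S0434

open H25 Subgroup in
theorem aux {G : Type*} [Group G] [Finite G] (hn : Nat.card G = 7920) {g p q : G} (hq : g * p * g⁻¹ = q)
    (h8 : orderOf g = 8) (p3 : p ^ 3 = 1) (p1 : p ≠ 1) (c : Commute p q) (h1 : q ≠ p) (h2 : q ≠ p⁻¹)
    (h3 : g * q * g⁻¹ = p * q ^ 2) :
    ∃ S : Sylow 3 G, 8 ∣ Nat.card (normalizer ((S : Subgroup G) : Set G)) := by
  have q3 : q ^ 3 = 1 := by rw [← hq, conj_pow, p3]; simp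
  have q1 : q ≠ 1 := fun e => p1 (by rw [e, mul_inv_eq_one, mul_eq_left] at hq; exact hq)
  let φ : Multiplicative V9 →* G := MonoidHom.mk' (fun v => md2 p q v.toAdd) fun u v =>
    md2_add p3 q3 c _ _
  have hφ : IsPGroup 3 φ.range := by
    rintro ⟨_, v, rfl⟩
    refine ⟨1, Subtype.ext ?_⟩
    have : ∀ v : Multiplicative V9, v ^ 3 = 1 := by decide
    simp [← map_pow, this]
  obtain ⟨S, hS⟩ := hφ.exists_le_sylow
  have hp : p ∈ (S : Subgroup G) := hS ⟨Multiplicative.ofAdd (1, 0), md2_a p q⟩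
  have hq' : q ∈ (S : Subgroup G) := hS ⟨Multiplicative.ofAdd (0, 1), md2_b p q⟩
  have sur := md2_surj (md2_inj p3 q3 c p1 q1 h1 h2)
    (H2.sm_card_sylow_eq S (k := 2) (m := 880) hn (by norm_num)) hp hq'
  refine ⟨S, h8 ▸ orderOf_dvd_natCard _ (mem_normalizer_fintype fun x hx => ?_)⟩
  obtain ⟨v, rfl⟩ := (sur x).1 hx
  rw [md2, ← conj_mul, ← conj_pow, ← conj_pow, hq, h3]
  exact mul_mem (pow_mem hq' _) (pow_mem (mul_mem hp (pow_mem hq' _)) _)

/-- Sylow 3-normalisers in a simple group of order 7920 have order 144 (so there are 55 Sylow 3-subgroups). -/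
theorem result {G : Type*} [Group G] [Finite G] (hG : Cfsg.IsM11 G) (P : Sylow 3 G) : Nat.card (Subgroup.normalizer ((P : Subgroup G) : Set G)) = 144 := by
  haveI := hG.1
  have hn : Nat.card G = 7920 := hG.2
  open H25 Subgroup in
  obtain ⟨e⟩ := m11_model hn
  let ψ : G →* Equiv.Perm (Fin 12) := m11M.subtype.comp e.toMonoidHom
  have inj : Function.Injective ψ := m11M.subtype_injective.comp e.injective
  obtain ⟨a, ha⟩ : ∃ a, ψ a = m11A := ⟨e.symm ⟨_, m11A_mem⟩, by simp [ψ]⟩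
  obtain ⟨y, hy⟩ : ∃ a, ψ a = m11Y := ⟨e.symm ⟨_, m11Y_mem⟩, by simp [ψ]⟩
  obtain ⟨r, hr⟩ : ∃ a, ψ a = m11R := ⟨e.symm ⟨_, m11R_mem⟩, by simp [ψ]⟩
  obtain ⟨S, hS⟩ := aux hn (g := a * a * y * r * a * y) (p := r * r * a * r) rfl
    (by
      rw [← orderOf_injective ψ inj]
      simp only [map_mul, ha, hy, hr]
      exact orderOf_eq_prime_pow (p := 2) (n := 2) (by decide +kernel) (by decide +kernel))
    (inj (by simp only [map_mul, map_pow, map_one, ha, hy, hr]; decide +kernel))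
    (fun h => absurd (congrArg ψ h) (by simp only [map_mul, map_one, ha, hy, hr]; decide +kernel))
    (inj (by simp only [map_mul, map_inv, ha, hy, hr]; decide +kernel))
    (fun h => absurd (congrArg ψ h) (by simp only [map_mul, map_inv, ha, hy, hr]; decide +kernel))
    (fun h => absurd (congrArg ψ h) (by simp only [map_mul, map_inv, ha, hy, hr]; decide +kernel))
    (inj (by simp only [map_mul, map_inv, map_pow, ha, hy, hr]; decide +kernel))
  have h9 := H2.sm_card_sylow_eq S (k := 2) (m := 880) hn (by norm_num)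
  have h5 := H2.sm_not_dvd_nrm (p := 5) (K := (S : Subgroup G)) (fun Q => by
    have hQ := H2.sm_sylow_prime (by rw [hn]; norm_num) (by rw [hn]; norm_num) Q
    obtain ⟨y, hy, y1⟩ := H2.sm_exists_ne_one hQ
    refine ⟨hQ, ?_⟩
    rw [H20.cent, H2.sm_cent_eq hQ hy y1, ← H2.sm_zpowers_eq hQ hy y1]
    exact (m11_cent5 hn (H2.sm_orderOf_eq hQ hy y1)).1) (by rw [h9]; norm_num) (by rw [h9]; norm_num)
  have h11 := H2.sm_not_dvd_nrm (p := 11) (K := (S : Subgroup G)) (fun Q =>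
    ⟨(m11_par11 hn Q).1, (m11_par11 hn Q).2.2.2⟩) (by rw [h9]; norm_num) (by rw [h9]; norm_num)
  have d9 : 9 ∣ Nat.card (normalizer ((S : Subgroup G) : Set G)) :=
    (show 9 = Nat.card (S : Subgroup G) from h9.symm) ▸ card_dvd_of_le le_normalizer
  have s1 := H2.sm_sylow_mul S
  have s2 := H2.sm_sylow_mul P
  have s3 := card_sylow_modEq_one 3 G
  have e : Nat.card (normalizer ((P : Subgroup G) : Set G)) =
      Nat.card (normalizer ((S : Subgroup G) : Set G)) :=
    Nat.eq_of_mul_eq_mul_left Nat.card_pos (s2.trans s1.symm)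
  rw [e]
  change ¬ 5 ∣ Nat.card (normalizer ((S : Subgroup G) : Set G)) at h5
  change ¬ 11 ∣ Nat.card (normalizer ((S : Subgroup G) : Set G)) at h11
  obtain ⟨k, hk⟩ : 72 ∣ Nat.card (normalizer ((S : Subgroup G) : Set G)) := by omega
  rw [hk, hn] at s1
  rw [hk] at h5 h11 ⊢
  have s4 : Nat.card (Sylow 3 G) * k = 110 := by nlinarith
  have s5 : k ≤ 110 := Nat.le_of_dvd (by norm_num) (Dvd.intro_left _ s4)
  unfold Nat.ModEq at s3
  interval_cases k <;> omega

end Cfsg.Agent.S0434
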