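import Cfsg.Statements.S0439
import Cfsg.Agent.H28.TT1
-- import your own Cfsg.Agent.* helpers here

set_option autoImplicit false
open Cfsg

namespace Cfsg.Agent.S0439

/-- In the symmetric group of degree n ≥ 2, the set of transpositions is a conjugacy class of 3-transpositions which generates the group. -/
theorem result (n : ℕ) (hn : 2 ≤ n) : Cfsg.IsThreeTranspositionClass {σ : Equiv.Perm (Fin n) | σ.IsSwap} := by
  have h01 : (⟨0, by omega⟩ : Fin n) ≠ ⟨1, by omega⟩ := by simp
  refine ⟨⟨fun d hd => ?_, fun d hd e he => ?_⟩, ⟨Equiv.swap ⟨0, by omega⟩ ⟨1, by omega⟩, ⟨_, _, h01, rfl⟩, ?_⟩, ?_⟩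
  · exact Equiv.Perm.IsSwap.orderOf hd
  · obtain ⟨a, b, hab, rfl⟩ := hd
    obtain ⟨c, d, hcd, rfl⟩ := he
    by_cases hc : Commute (Equiv.swap a b) (Equiv.swap c d)
    · exact Or.inl (H28.sq_of_commute (by simp) (by simp) hc)
    right
    apply H28.cube_of_braid (by simp) (by simp)
    have key : ∀ x y z : Fin n, x ≠ y → x ≠ z → y ≠ z →
        Equiv.swap x y * Equiv.swap x z * Equiv.swap x y =
          Equiv.swap x z * Equiv.swap x y * Equiv.swap x z := by
      intro x y z h1 h2 h3
      have k : ∀ x y z : Fin n, x ≠ y → x ≠ z → y ≠ z →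
          Equiv.swap x y * Equiv.swap x z * Equiv.swap x y = Equiv.swap y z := by
        intro x y z h1 h2 h3
        rw [show Equiv.swap x y * Equiv.swap x z * Equiv.swap x y =
          Equiv.swap x y * Equiv.swap x z * (Equiv.swap x y)⁻¹ by simp, ← Equiv.swap_apply_apply,
          Equiv.swap_apply_left, Equiv.swap_apply_of_ne_of_ne h2.symm h3.symm]
      rw [k x y z h1 h2 h3, k x z y h2 h1 h3.symm, Equiv.swap_comm]
    by_cases h1 : a = c
    · subst h1
      by_cases h2 : b = d
      · subst h2; rfl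
      exact key _ _ _ hab hcd h2
    by_cases h2 : a = d
    · subst h2
      by_cases h3 : b = c
      · subst h3; rw [Equiv.swap_comm a b]
      rw [Equiv.swap_comm c a]
      exact key _ _ _ hab h1 h3
    by_cases h3 : b = c
    · subst h3
      rw [Equiv.swap_comm a b]
      exact key _ _ _ (Ne.symm hab) hcd h2
    by_cases h4 : b = d
    · subst h4
      rw [Equiv.swap_comm a b, Equiv.swap_comm c b]
      exact key _ _ _ (Ne.symm hab) h3 h1
    exfalso
    apply hc
    have : Equiv.swap a b * Equiv.swap c d * (Equiv.swap a b)⁻¹ = Equiv.swap c d := by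
      rw [← Equiv.swap_apply_apply, Equiv.swap_apply_of_ne_of_ne (Ne.symm h1) (Ne.symm h3),
        Equiv.swap_apply_of_ne_of_ne (Ne.symm h2) (Ne.symm h4)]
    exact mul_inv_eq_iff_eq_mul.1 this
  · ext σ
    constructor
    · rintro ⟨a, b, hab, rfl⟩
      exact Equiv.Perm.isConj_swap h01 hab
    · intro h
      obtain ⟨g, rfl⟩ := isConj_iff.1 h
      exact ⟨_, _, g.injective.ne h01, (Equiv.swap_apply_apply _ _ _).symm⟩
  · exact Equiv.Perm.closure_isSwap

end Cfsg.Agent.S0439
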