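import Cfsg.Statements.S0442
import Cfsg.Agent.H6.Inv
-- import your own Cfsg.Agent.* helpers here

set_option autoImplicit false
open Cfsg

namespace Cfsg.Agent.S0442

theorem inv_pow_aux {G : Type*} [Group G] {a b : G} (ha : a * a = 1) (hb : b * b = 1) (m : ℕ) :
    a * (a * b) ^ m * a = ((a * b) ^ m)⁻¹ := by
  have hai : a⁻¹ = a := inv_eq_of_mul_eq_one_right ha
  have hbi : b⁻¹ = b := inv_eq_of_mul_eq_one_right hb
  have h : a * (a * b) * a⁻¹ = (a * b)⁻¹ := by
    rw [mul_inv_rev, hai, hbi, ← mul_assoc, ha, one_mul]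
  rw [← inv_pow, ← h, conj_pow, hai]

theorem even_aux {G : Type*} [Group G] {a b : G} (ha : a * a = 1) (hb : b * b = 1) (m : ℕ)
    (h : (a * b) ^ (2 * m) = 1) : Commute ((a * b) ^ m) a := by
  have h1 := inv_pow_aux ha hb m
  have h2 : ((a * b) ^ m)⁻¹ = (a * b) ^ m := by
    apply inv_eq_of_mul_eq_one_right
    rw [← pow_add, ← two_mul, h]
  rw [h2] at h1
  have : (a * b) ^ m * a = a * (a * b) ^ m := by
    calc (a * b) ^ m * a = (a * a) * (a * b) ^ m * a := by rw [ha, one_mul]
      _ = a * (a * (a * b) ^ m * a) := by group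
      _ = _ := by rw [h1]
  exact this

/-- A standard trick for producing elements of an involution centraliser: for an involution a and an element g, let b be the conjugate g⁻¹ * a * g. If a * b has odd order 2m + 1 then g * (a * b) ^ m commutes with a; if a * b has even order 2m then (a * b) ^ m and (a * (g * a * g⁻¹)) ^ m commute with a. -/
theorem result {G : Type*} [Group G] (a g : G) (ha : orderOf a = 2) : (∀ m : ℕ, orderOf (a * (g⁻¹ * a * g)) = 2 * m + 1 → Commute (g * (a * (g⁻¹ * a * g)) ^ m) a) ∧ (∀ m : ℕ, orderOf (a * (g⁻¹ * a * g)) = 2 * m → Commute ((a * (g⁻¹ * a * g)) ^ m) a ∧ Commute ((a * (g * a * g⁻¹)) ^ m) a) := by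
  have h1 : a * a = 1 := H6.ord2_mul_self ha
  have h2 : (g⁻¹ * a * g) * (g⁻¹ * a * g) = 1 := by
    rw [show (g⁻¹ * a * g) * (g⁻¹ * a * g) = g⁻¹ * (a * a) * g by group, h1]; group
  have h3 : (g * a * g⁻¹) * (g * a * g⁻¹) = 1 := by
    rw [show (g * a * g⁻¹) * (g * a * g⁻¹) = g * (a * a) * g⁻¹ by group, h1]; group
  refine ⟨fun m hm => ?_, fun m hm => ⟨?_, ?_⟩⟩
  · set b := g⁻¹ * a * g with hb
    have h4 := inv_pow_aux h1 h2 m
    have h5 : (a * b) ^ (2 * m + 1) = 1 := by rw [← hm, pow_orderOf_eq_one]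
    have h6 : ((a * b) ^ m)⁻¹ = (a * b) * (a * b) ^ m := by
      apply inv_eq_of_mul_eq_one_left
      rw [← h5, ← pow_succ', ← pow_add]; congr 1; omega
    have : g * (a * b) ^ m * a = a * (g * (a * b) ^ m) := by
      calc g * (a * b) ^ m * a = g * (a * a) * (a * b) ^ m * a := by rw [h1, mul_one]
        _ = g * a * (a * (a * b) ^ m * a) := by group
        _ = g * (a * a) * b * (a * b) ^ m := by rw [h4, h6]; simp only [mul_assoc]
        _ = a * (g * (a * b) ^ m) := by rw [h1, hb]; group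
    exact this
  · exact even_aux h1 h2 m (by rw [← hm, pow_orderOf_eq_one])
  · apply even_aux h1 h3 m
    have h7 : a * (g * a * g⁻¹) = g * (a * (g⁻¹ * a * g))⁻¹ * g⁻¹ := by
      rw [mul_inv_rev, inv_eq_of_mul_eq_one_right h1, inv_eq_of_mul_eq_one_right h2]; group
    rw [h7, conj_pow, inv_pow, ← hm, pow_orderOf_eq_one]; simp

end Cfsg.Agent.S0442
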