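import Cfsg.Statements.S0445
import Cfsg.Agent.H12.AffL

set_option autoImplicit false
open Cfsg

namespace Cfsg.Agent.S0445

open H12 Subgroup

/-- In the special linear group of dimension 5 over the field with two elements, the centraliser of a transvection has order 21504 = 2 ^ 7 · 168 (it is an extension of an extraspecial group of order 2 ^ 7 by the simple group of order 168). -/
theorem result (s : Matrix.SpecialLinearGroup (Fin 5) (ZMod 2)) (hs : (s : Matrix (Fin 5) (Fin 5) (ZMod 2)) = Matrix.transvection 0 1 1) : Nat.card (Subgroup.centralizer ({s} : Set (Matrix.SpecialLinearGroup (Fin 5) (ZMod 2)))) = 21504 := by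
  obtain ⟨A, -⟩ := exists_affC_sl (F := ZMod 2) (n := 3) (by decide) (by norm_num) zero_ne_one hs
  have hs : Function.Surjective A.κ := fun h => (A.exists_K h).imp fun _ h => h.2
  have h1 := A.κ.ker.card_mul_index
  rw [index_ker, MonoidHom.range_eq_top.2 hs, card_top, A.card_ker (n := 3) (by simp),
    ← Nat.card_congr Matrix.GeneralLinearGroup.toLin.toEquiv, Matrix.card_GL_field] at h1
  rw [← h1]
  simp [Fin.prod_univ_succ]

end Cfsg.Agent.S0445
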