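import Cfsg.Statements.S0458
import Cfsg.Agent.H29.J3H
import Cfsg.Agent.H29.LM

set_option autoImplicit false
open Cfsg

namespace Cfsg.Agent.S0458

/-- Janko's third group exists as a transitive permutation group of degree 6156 with point stabiliser of order 8160: a simple group of order 50232960. -/
theorem result : ∃ H : Subgroup (Equiv.Perm (Fin 6156)), Cfsg.IsJ3 H ∧ MulAction.IsPretransitive H (Fin 6156) ∧ Nat.card (MulAction.stabilizer H (0 : Fin 6156)) = 8160 := by
  obtain ⟨F, _, _, ω, hF, hω⟩ := H29.exists_gf4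
  obtain ⟨φ, h⟩ := H29.exists_four hF hω
  obtain ⟨hf, hc, z, -, ho, h3, h1, h2⟩ := h.center
  obtain ⟨St, k, vv, -, -, _, c, s, -⟩ := h.quot _ (QuotientGroup.mk'_surjective _) h1 h2
  obtain ⟨H, hH⟩ := H29.j3H_card _ rfl rfl rfl vv k
  have hi : H.index = 6156 := by
    have := H.card_mul_index
    rw [hH, c] at this
    omega
  obtain ⟨K, e, t, ⟨f⟩⟩ := H29.exists_perm_rep H hi (by norm_num)
  exact ⟨K, ⟨e.symm.isSimpleGroup, (Nat.card_congr e.toEquiv).symm.trans c⟩, t, (Nat.card_congr f.toEquiv).symm.trans hH⟩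

end Cfsg.Agent.S0458
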