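import Cfsg.Statements.S0459
import Cfsg.Agent.H29.Ru6

set_option autoImplicit false
open Cfsg

namespace Cfsg.Agent.S0459

theorem aux {G : Type*} [Group G] [Finite G] (h0 : Cfsg.IsRu G) {H T : Subgroup G} (hH : Nat.card H = 35942400)
    (hT : T ≤ H) (h1 : Cfsg.IsTits T) : ∃ H : Subgroup (Equiv.Perm (Fin 4060)), Cfsg.IsRu H ∧
      MulAction.IsPretransitive H (Fin 4060) ∧ Nat.card (MulAction.stabilizer H (0 : Fin 4060)) = 35942400 ∧
      ∃ T : Subgroup (MulAction.stabilizer H (0 : Fin 4060)), Cfsg.IsTits T := by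
  have := h0.1
  have := h1.1
  have hi : H.index = 4060 := by
    have := H.card_mul_index
    rw [hH, h0.2] at this
    omega
  obtain ⟨K, e, t, ⟨f⟩⟩ := H29.exists_perm_rep H hi (by norm_num)
  refine ⟨K, ⟨e.symm.isSimpleGroup, (Nat.card_congr e.toEquiv).symm.trans h0.2⟩, t,
    (Nat.card_congr f.toEquiv).symm.trans hH, ?_⟩
  generalize MulAction.stabilizer K (0 : Fin 4060) = S at f
  have g := (Subgroup.subgroupOfEquivOfLe hT).symm.trans (f.subgroupMap (T.subgroupOf H))
  exact ⟨_, g.symm.isSimpleGroup, (Nat.card_congr g.toEquiv).symm.trans h1.2⟩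

/-- The Rudvalis group exists as a transitive permutation group of degree 4060: simple of order 145926144000, with point stabiliser of order 35942400 containing a simple subgroup of order 17971200 (the order of the Tits group). -/
theorem result : ∃ H : Subgroup (Equiv.Perm (Fin 4060)), Cfsg.IsRu H ∧ MulAction.IsPretransitive H (Fin 4060) ∧ Nat.card (MulAction.stabilizer H (0 : Fin 4060)) = 35942400 ∧ ∃ T : Subgroup (MulAction.stabilizer H (0 : Fin 4060)), Cfsg.IsTits T := by
  obtain ⟨H, hH, T, hT, h1⟩ := H29.ruK_tits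
  exact aux ⟨H29.ruK_simple, H29.ruK_card⟩ hH hT h1

end Cfsg.Agent.S0459
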