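import Cfsg.Statements.S0460
import Cfsg.Agent.H29.OnJ
-- import your own Cfsg.Agent.* helpers here

set_option autoImplicit false
open Cfsg

namespace Cfsg.Agent.S0460

theorem aux {G A B : Type*} [Group G] [Finite G] [Group A] [Group B] (h0 : Cfsg.IsON G) {H : Subgroup G}
    (hH : Nat.card H = 3753792) (ψ : A →* G) (χ : B →* G) (h1 : Function.Injective ψ) (h2 : Function.Injective χ)
    (h3 : Cfsg.IsJ1 A) (h4 : Cfsg.IsM11 B) : ∃ H : Subgroup (Equiv.Perm (Fin 122760)), Cfsg.IsON H ∧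
      MulAction.IsPretransitive H (Fin 122760) ∧ Nat.card (MulAction.stabilizer H (0 : Fin 122760)) = 3753792 ∧
      (∃ K : Subgroup H, Cfsg.IsJ1 K) ∧ (∃ K : Subgroup H, Cfsg.IsM11 K) := by
  have := h0.1
  have := h3.1
  have := h4.1
  have hi : H.index = 122760 := by
    have := H.card_mul_index
    rw [hH, h0.2] at this
    omega
  obtain ⟨K, e, t, ⟨f⟩⟩ := H29.exists_perm_rep H hi (by norm_num)
  have f1 := MonoidHom.ofInjective (f := e.toMonoidHom.comp ψ) (e.injective.comp h1)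
  have f2 := MonoidHom.ofInjective (f := e.toMonoidHom.comp χ) (e.injective.comp h2)
  exact ⟨K, ⟨e.symm.isSimpleGroup, (Nat.card_congr e.toEquiv).symm.trans h0.2⟩, t,
    (Nat.card_congr f.toEquiv).symm.trans hH,
    ⟨_, f1.symm.isSimpleGroup, (Nat.card_congr f1.toEquiv).symm.trans h3.2⟩,
    ⟨_, f2.symm.isSimpleGroup, (Nat.card_congr f2.toEquiv).symm.trans h4.2⟩⟩


/-- The O'Nan group exists as a transitive permutation group of degree 122760: simple of order 460815505920, point stabiliser of order 3753792, and containing simple subgroups of orders 175560 and 7920. -/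
theorem result : ∃ H : Subgroup (Equiv.Perm (Fin 122760)), Cfsg.IsON H ∧ MulAction.IsPretransitive H (Fin 122760) ∧ Nat.card (MulAction.stabilizer H (0 : Fin 122760)) = 3753792 ∧ (∃ K : Subgroup H, Cfsg.IsJ1 K) ∧ (∃ K : Subgroup H, Cfsg.IsM11 K) := by
  obtain ⟨ψ, h1⟩ := H29.on_j1
  obtain ⟨χ, h2⟩ := H29.on_m11
  have := H27.simple_H11
  exact aux ⟨H29.on_simple, H29.on_card⟩ H29.on_cardH ψ χ h1 h2 ⟨H29.j1_all.2.2.2.2.1, H29.j1_all.2.2.2.1⟩
    ⟨H27.m11Equiv.symm.isSimpleGroup, H29.card_M11⟩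

end Cfsg.Agent.S0460
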