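import Cfsg.Statements.S0461
import Cfsg.Agent.H7.J4p

set_option autoImplicit false
open Cfsg

namespace Cfsg.Agent.S0461



/-- Janko's fourth group exists as a group of 112 × 112 matrices over the field with two elements: GL(112, 2) has a simple subgroup of order 86775571046077562880. -/
theorem result : ∃ H : Subgroup (GL (Fin 112) (ZMod 2)), Cfsg.IsJ4 H := by
  have k : ∀ {M : Type} [Group M] (φ : Spor.J4 →* M), Function.Injective φ → IsJ4 φ.range := fun φ h =>
    have := H7.JD.j_main.2.1.1
    ⟨(MonoidHom.ofInjective h).symm.isSimpleGroup,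
      (Nat.card_congr (MonoidHom.ofInjective h).toEquiv).symm.trans H7.JD.j_main.2.1.2⟩
  obtain ⟨φ, h⟩ := H7.JD.j_main.2.2
  exact ⟨φ.range, k φ h⟩

end Cfsg.Agent.S0461
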