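import Cfsg.Statements.S0462
import Cfsg.Agent.H29.HeP

set_option autoImplicit false
open Cfsg

namespace Cfsg.Agent.S0462

/-- The Held group exists as a transitive permutation group of degree 2058: simple of order 4030387200, with point stabiliser containing, with index 2, a copy of the 4-dimensional symplectic group over the field with four elements. -/
theorem result : ∃ H : Subgroup (Equiv.Perm (Fin 2058)), Cfsg.IsHe H ∧ MulAction.IsPretransitive H (Fin 2058) ∧ ∃ (F : Type) (_ : Field F) (_ : Fintype F), Fintype.card F = 4 ∧ ∃ N : Subgroup (MulAction.stabilizer H (0 : Fin 2058)), N.index = 2 ∧ Nonempty (N ≃* Matrix.symplecticGroup (Fin 2) F) := by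
  obtain ⟨q, -⟩ := H29.he_ex
  obtain ⟨St, k⟩ := H29.he_key q
  have := Nat.finite_of_card_ne_zero (H28.he_card.trans_ne (by norm_num))
  have := H28.he_simple
  obtain ⟨F, _, _, -, hF, -⟩ := H29.exists_gf4
  obtain ⟨q4⟩ := H29.sp44_ex hF
  obtain ⟨H, h1, N, h2, ⟨f⟩⟩ := H29.he_sp44 q.M rfl rfl rfl q.valid k H28.he_card (q.lt (by decide +kernel)) q4
    ((Cfsg.Agent.S0245.result hF 2).trans (by decide +kernel))
  obtain ⟨K, e, h3, ⟨g⟩⟩ := H29.exists_perm_rep H h1 (by norm_num)
  exact ⟨K, ⟨e.symm.isSimpleGroup, (Nat.card_congr e.toEquiv).symm.trans H28.he_card⟩, h3, F, _, _, hF, N.map g.toMonoidHom,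
    (Subgroup.index_map_equiv N g).trans h2, ⟨(g.subgroupMap N).symm.trans f⟩⟩

end Cfsg.Agent.S0462
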