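import Cfsg.Statements.S0463
import Cfsg.Agent.H28.HnA
import Cfsg.Agent.H29.Quot
set_option maxRecDepth 100000
-- import your own Cfsg.Agent.* helpers here

set_option autoImplicit false
open Cfsg

namespace Cfsg.Agent.S0463
open H27 H28


/-- The Harada–Norton group exists as a transitive permutation group of degree 1140000: simple of order 273030912000000 with point stabiliser isomorphic to the alternating group of degree 12. -/
theorem result : ∃ H : Subgroup (Equiv.Perm (Fin 1140000)), Cfsg.IsHN H ∧ MulAction.IsPretransitive H (Fin 1140000) ∧ Nonempty (MulAction.stabilizer H (0 : Fin 1140000) ≃* alternatingGroup (Fin 12)) := by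
  obtain ⟨ψ, hψ⟩ := hn_A12
  have := hn_simple
  have h1 : ψ.range.index = 1140000 := by
    refine index_eq_of_card (m := 239500800) ?_ (by norm_num) hn_card
    rw [← Nat.card_congr (MonoidHom.ofInjective hψ).toEquiv]
    have := two_mul_nat_card_alternatingGroup (α := Fin 12)
    rw [Nat.card_perm, Nat.card_fin] at this
    simp only [Nat.factorial] at this
    omega
  obtain ⟨K, e, h3, ⟨g⟩⟩ := H29.exists_perm_rep ψ.range h1 (by norm_num)
  exact ⟨K, ⟨e.symm.isSimpleGroup, (Nat.card_congr e.toEquiv).symm.trans hn_card⟩, h3,
    ⟨g.symm.trans (MonoidHom.ofInjective hψ).symm⟩⟩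

end Cfsg.Agent.S0463
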