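import Cfsg.Statements.S0471
import Cfsg.Agent.H28.U6
set_option maxRecDepth 100000
-- import your own Cfsg.Agent.* helpers here

set_option autoImplicit false
open Cfsg

namespace Cfsg.Agent.S0471
open H27 H28


/-- The Fischer group of order 64561751654400 exists as a 3-transposition group: a simple group of that order generated by a conjugacy class of 3510 3-transpositions, the centraliser of each being a non-split double cover of PSU(6, 2). -/
theorem result : ∃ (G : Type) (_ : Group G) (_ : Finite G), Cfsg.IsFi22 G ∧ ∃ D : Set G, Cfsg.IsThreeTranspositionClass D ∧ Nat.card D = 3510 ∧ ∀ d ∈ D, ∃ (F : Type) (_ : Field F) (_ : Fintype F), Fintype.card F = 4 ∧ Cfsg.IsNonsplitDoubleCover (Subgroup.centralizer ({d} : Set G)) (Cfsg.PSU 6 F 2) := by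
  have : Fact (Nat.Prime 2) := ⟨Nat.prime_two⟩
  let iF : Fintype (GaloisField 2 2) := Fintype.ofFinite _
  have hF : Fintype.card (GaloisField 2 2) = 4 := by rw [← Nat.card_eq_fintype_card, GaloisField.card 2 2 (by norm_num)]; rfl
  have := fi22_simple
  refine ⟨Cfsg.Spor.Fi22, inferInstance, inferInstance, ⟨fi22_simple, fi22_card⟩, _, tt_class_of_simple fi22_tt.1, fi22_tt.2.2,
    fun x hx => ⟨GaloisField 2 2, inferInstance, iF, hF, ?_⟩⟩
  obtain ⟨e⟩ := centralizer_equiv_of_conj hx
  exact nonsplit_congr (e.trans (MulEquiv.subgroupCongr fi22_tt.2.1)) (fi22_cover hF)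

end Cfsg.Agent.S0471
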