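import Cfsg.Statements.S0477
import Cfsg.Agent.H28.LyZ2
import Cfsg.Agent.H28.LyU
import Cfsg.Agent.H28.LyQ2
import Cfsg.Agent.H2.P2
import Cfsg.Agent.H9.Pone

set_option autoImplicit false
open Cfsg

namespace Cfsg.Agent.S0477

/-- In some simple group of the Lyons group's order there is an element of order 3 whose centraliser has centre of order 3 with quotient by the centre simple of order 898128000 (a triple cover of a group of McLaughlin's order). -/
theorem result : ∃ (G : Type) (_ : Group G) (_ : Finite G), Cfsg.IsLy G ∧ ∃ x : G, orderOf x = 3 ∧ Nat.card (Subgroup.center (Subgroup.centralizer ({x} : Set G))) = 3 ∧ Cfsg.IsMcL ((Subgroup.centralizer ({x} : Set G)) ⧸ Subgroup.center (Subgroup.centralizer ({x} : Set G))) := by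
  have : Finite Cfsg.Spor.Ly := Nat.finite_of_card_ne_zero (by rw [H28.ly_card]; norm_num)
  obtain ⟨y, e, hc, h3, h2⟩ := H28.lyq_car
  have ht := (H28.ly_2A11 H28.lyct_le).1
  obtain ⟨hx, hB, hR⟩ := H9.Pone.p1 ht y hc h3 h2 H28.lyct_le 8 (by decide) (by decide)
  rw [e] at hx hB hR
  refine ⟨_, _, this, ⟨H28.ly_simple, H28.ly_card⟩, _, hx, H2.P2.p2 ht hx H28.lyu_tx (le_trans (le_of_eq ?_) H28.lycx_le)
    hB hR (H28.lyu_cw _ (by decide)) (H28.lyu_cw _ (by decide)) H28.lyu_ab H28.lyu_M⟩
  congr 2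
  ext g
  rw [H28.lyu_xinv, Subgroup.mem_centralizer_singleton_iff, Subgroup.mem_centralizer_singleton_iff]
  exact Commute.inv_right_iff.symm

end Cfsg.Agent.S0477
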