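import Cfsg.Statements.S0478
import Cfsg.Agent.H29.J3
import Cfsg.Agent.H29.LM

set_option autoImplicit false
open Cfsg

namespace Cfsg.Agent.S0478

/-- A triple cover of Janko's third group inside a unitary group: for a field F with four elements, the special unitary group of dimension 9 (with respect to the form with q = 2) has a subgroup whose centre has order 3 and whose quotient by its centre is simple of order 50232960. -/
theorem result : ∃ (F : Type) (_ : Field F) (_ : Fintype F), Fintype.card F = 4 ∧ ∃ H : Subgroup (Cfsg.SU 9 F 2), Nat.card (Subgroup.center H) = 3 ∧ Cfsg.IsJ3 (H ⧸ Subgroup.center H) := by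
  obtain ⟨F, _, _, ω, hF, hω⟩ := H29.exists_gf4
  obtain ⟨φ, h⟩ := H29.exists_four hF hω
  obtain ⟨h1, h2, h3, h4, -⟩ := H29.j3_facts hF hω
  obtain ⟨hf, hc, z, hz, ho, h5, -⟩ := h.center
  haveI : CharP F 2 := (CharP.charP_iff_prime_eq_zero Nat.prime_two).2 h.two
  let e : Spor.F9 ≃ Fin 9 := Fintype.equivFinOfCardEq (by simp)
  let τ : Spor.threeJ3 F ω →* Matrix (Fin 9) (Fin 9) F :=
    (Matrix.reindexAlgEquiv F F e).toMonoidHom.comp (H29.glM _)
  have hτ : Function.Injective τ := (Matrix.reindexAlgEquiv F F e).injective.comp H29.glM_inj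
  haveI : Finite (Spor.J3 F ω) := Nat.finite_of_card_ne_zero (by rw [h3]; norm_num)
  obtain ⟨a, b, hab⟩ := H29.exists_ne_comm_of_simple h3 (by norm_num)
  have hd : ∀ g, (τ g).det = 1 := fun g => by
    have := H29.hom_eq_one_of_simple _ (QuotientGroup.mk'_surjective _) hab
      (Matrix.GeneralLinearGroup.det.comp (Spor.threeJ3 F ω).subtype) (by
        rw [QuotientGroup.ker_mk', h5, Subgroup.zpowers_le]
        refine Units.ext ((Matrix.GeneralLinearGroup.val_det_apply _).trans ?_)
        rw [Subgroup.subtype_apply, hz]; simp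
        linear_combination (ω ^ 7 - ω ^ 6 + ω ^ 4 - ω ^ 3 + ω - 1) * hω) g
    exact (Matrix.det_reindex_self e _).trans
      ((Matrix.GeneralLinearGroup.val_det_apply _).symm.trans (congrArg Units.val this))
  let σ : Spor.threeJ3 F ω →* Matrix.SpecialLinearGroup (Fin 9) F :=
    ⟨⟨fun g => ⟨τ g, hd g⟩, Subtype.ext τ.map_one⟩, fun x y => Subtype.ext (τ.map_mul x y)⟩
  have hm : ∀ g, σ g ∈ SU 9 F 2 := fun g => by
    have : (⊤ : Subgroup (Spor.threeJ3 F ω)) ≤ (SU 9 F 2).comap σ := by
      refine (Subgroup.closure_closure_coe_preimage (k := _)).ge.trans ((Subgroup.closure_le _).2 fun g hg => ?_)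
      refine H29.mem_SU (p := 2) (j := 1) rfl ?_
      have h7 := congrArg Matrix.transpose (mul_eq_one_comm.1 (h.unitary hg))
      rw [Matrix.transpose_mul, Matrix.transpose_one] at h7
      have h8 := congrArg (Matrix.reindexAlgEquiv F F e) (mul_eq_one_comm.1 h7)
      rw [map_mul, map_one] at h8
      exact h8
    exact this trivial
  let ψ := σ.codRestrict _ hm
  have hψ : Function.Injective ψ := fun x y e => hτ (congrArg (fun u : SU 9 F 2 => u.1.1) e)
  let f := MonoidHom.ofInjective hψ
  let f' := QuotientGroup.congr (Subgroup.center _) (Subgroup.center _) f (by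
    ext x
    exact ⟨fun ⟨y, hy, e⟩ => e ▸ (Subgroup.centerCongr f ⟨y, hy⟩).2,
      fun hx => ⟨f.symm x, (Subgroup.centerCongr f.symm ⟨x, hx⟩).2, f.apply_symm_apply x⟩⟩)
  exact ⟨F, inferInstance, inferInstance, hF, ψ.range, (Nat.card_congr (Subgroup.centerCongr f).toEquiv).symm.trans h1,
    f'.symm.isSimpleGroup, (Nat.card_congr f'.toEquiv).symm.trans h3⟩

end Cfsg.Agent.S0478
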