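import Cfsg.Statements.S0479
import Cfsg.Agent.H29.OnM
-- import your own Cfsg.Agent.* helpers here

set_option autoImplicit false
open Cfsg

namespace Cfsg.Agent.S0479

open H29 Subgroup in
theorem aux {p n : ℕ} {Q : Type*} [Group Q] {a : Ar p n} {L zs : List ℕ} {Z : ℕ} (q : QM Q a L Z zs)
    (hQ : _root_.commutator Q = ⊤) (hc : center Q = ⊥) {m : ℕ} [NeZero m] {L2 ms ps : List ℕ}
    {k1 ab1 k2 ab2 : ℕ} (h1 : slpR a.mul a.one (subL L2) k1 ab1 L = true)
    (h2 : slpR a.mul a.one (subL [Z]) k2 ab2 L2 = true) (h3 : copOK a.mul Nat.beq a.one m L2 ms = true)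
    (h4 : ordOK a.mul Nat.beq a.one Z m ps = true) (hm : m < 2 ^ 64) (hp : m.primeFactorsList ⊆ ps) :
    ∃ H : Subgroup (Matrix.SpecialLinearGroup (Fin n) (ZMod p)), Nat.card (center H) = m ∧
      Nonempty (H ⧸ center H ≃* Q) := by
  have v2 := in_of_slpR (M := a.gM.sub q.K) _ q.val h1
  have ho := orderOf_of_ordOK (M := a.gM.sub q.K) q.hz h4 (NeZero.pos m) hm (mem_of_primeFactorsList (NeZero.ne m) hp)
  obtain ⟨y, h5, h6⟩ := in_of_slpR (M := a.gM.sub q.K) _ (in_cl_self v2) h2 Z (by simp)
  have h7 : q.z ∈ _root_.commutator q.K := (a.gM.sub q.K).unique h6 q.hz ▸ cl_le_commutator q.surj hQ (fun x hx => by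
    rw [q.ker] at hx
    exact orderOf_dvd_iff_pow_eq_one.1 (ho ▸ orderOf_dvd_of_mem_zpowers hx)) h3 h5
  have h8 : _root_.commutator q.K = ⊤ := by
    have e : (_root_.commutator q.K).map q.σ = ⊤ := by
      rw [_root_.commutator_def, map_commutator, map_top_of_surjective _ q.surj, ← _root_.commutator_def, hQ]
    rw [← comap_map_eq_self (f := q.σ) (H := _root_.commutator q.K) (q.ker ▸ zpowers_le.2 h7), e, comap_top]
  have hd : ∀ g : q.K, (g.1 : Matrix (Fin n) (Fin n) (ZMod p)).det = 1 := fun g => by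
    have : g ∈ (Matrix.GeneralLinearGroup.det.comp q.K.subtype).ker :=
      Abelianization.commutator_subset_ker _ (h8 ▸ mem_top g)
    exact (Matrix.GeneralLinearGroup.val_det_apply _).symm.trans (congrArg Units.val this)
  let ψ : q.K →* Matrix.SpecialLinearGroup (Fin n) (ZMod p) :=
    ⟨⟨fun g => ⟨g.1, hd g⟩, rfl⟩, fun x y => rfl⟩
  have hψ : Function.Injective ψ := fun x y e => Subtype.ext (Units.ext (congrArg Subtype.val e))
  let f := MonoidHom.ofInjective hψ
  let f' := QuotientGroup.congr (center _) (center _) f (by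
    ext x
    exact ⟨fun ⟨y, hy, e⟩ => e ▸ (centerCongr f ⟨y, hy⟩).2,
      fun hx => ⟨f.symm x, (centerCongr f.symm ⟨x, hx⟩).2, f.apply_symm_apply x⟩⟩)
  have h9 : center q.K = q.σ.ker := le_antisymm (fun x hx => mem_bot.1 (hc ▸ mem_center_iff.2 fun g => by
    obtain ⟨u, rfl⟩ := q.surj g
    rw [← map_mul, ← map_mul, mem_center_iff.1 hx])) (q.ker ▸ zpowers_le.2 q.cen)
  exact ⟨ψ.range, by rw [← Nat.card_congr (centerCongr f).toEquiv, h9, q.ker, Nat.card_zpowers, ho],
    ⟨f'.symm.trans ((QuotientGroup.quotientMulEquivOfEq h9).trans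
      (QuotientGroup.quotientKerEquivOfSurjective _ q.surj))⟩⟩


/-- A triple cover of the O'Nan group as 45 × 45 matrices over the field with seven elements: SL(45, 7) has a subgroup whose centre has order 3 and whose quotient by its centre is simple of order 460815505920. -/
theorem result : ∃ H : Subgroup (Matrix.SpecialLinearGroup (Fin 45) (ZMod 7)), Nat.card (Subgroup.center H) = 3 ∧ Cfsg.IsON (H ⧸ Subgroup.center H) := by
  have := H29.on_simple
  obtain ⟨q, -⟩ := H29.on45_ex
  obtain ⟨a, b, hab⟩ := H29.exists_ne_comm_of_simple H29.on_card (by norm_num)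
  obtain ⟨H, h1, ⟨e⟩⟩ := aux q (H29.perfect_of_simple H29.on_card (by norm_num)) (H29.center_eq_bot_of_simple hab) (m := 3)
    (ms := [8, 28]) (ps := [3])
    (show open H29 in slpR a7_45.mul a7_45.one (subL on45_h) (nat_lit 29) (nat_lit 0x100000002000001a00001b00001b00001b00001b00001900001500001600001701401700001000000e00000f00001000000d00001000000900000f00000800000c00000c000009000009000005000005000004003) on45_g = true by decide +kernel)
    (show open H29 in slpR a7_45.mul a7_45.one (subL [on45_z]) (nat_lit 8) (nat_lit 0x3000001000000000000000000000000000000001000) on45_h = true by decide +kernel)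
    (by decide +kernel) (by decide +kernel) (by norm_num) (by decide +kernel)
  exact ⟨H, h1, e.isSimpleGroup, (Nat.card_congr e.toEquiv).trans H29.on_card⟩

end Cfsg.Agent.S0479
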