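import Cfsg.Statements.S0480
import Cfsg.Agent.H1.Fa
import Cfsg.Agent.H22.FormCard

set_option autoImplicit false
open Cfsg

namespace Cfsg.Agent.S0480

open H1.Fi H18 H22 H23 H23.Form H28 Subgroup Equiv

theorem nohom {G M A : Type*} [Group G] [Group M] [CommGroup A] (p : commutator G = ⊤) (e : G ≃* M) (φ : M →* A) (x : M) :
    φ x = 1 := by
  have := Abelianization.commutator_subset_ker (φ.comp e.toMonoidHom) (p ▸ mem_top (e.symm x))
  simpa using this
theorem noq {ι : Type} [Fintype ι] [DecidableEq ι] [Nonempty ι] {Q : QuadraticForm (ZMod 2) (ι → ZMod 2)}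
    (hQ : (ofQuad Q).Nondeg) (h : Fintype.card ι ≠ 4) : (commutator (isometryGroup (ZMod 2) Q)).index = 2 := by
  rw [index_commutator_congr (isomEquiv Q), index_commutator_of_sq hQ rfl (genHyp_of hQ rfl (.inr (by simpa using h)))
    (by decide)]

/-- The simple 3-transposition groups: if a finite non-abelian simple group G is generated by a conjugacy class of 3-transpositions, then G is isomorphic to a symplectic group Sp(2n, 2), or to a projective special unitary group PSU(n, 2) (defined over the field with four elements), or to the projective commutator subgroup of an orthogonal group in odd dimension over the field with three elements, or G has order 64561751654400, or G has order 4089470473293004800. -/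
theorem result {G : Type*} [Group G] [Finite G] [IsSimpleGroup G] (hna : ∃ x y : G, x * y ≠ y * x) {D : Set G} (hD : Cfsg.IsThreeTranspositionClass D) : (∃ n : ℕ, Nonempty (G ≃* Matrix.symplecticGroup (Fin n) (ZMod 2))) ∨ (∃ (F : Type) (_ : Field F) (_ : Fintype F) (n : ℕ), Fintype.card F = 4 ∧ Nonempty (G ≃* Cfsg.PSU n F 2)) ∨ (∃ m : ℕ, Nonempty (G ≃* Cfsg.POmega (ZMod 3) (Cfsg.quadFormOdd m (ZMod 3)))) ∨ Cfsg.IsFi22 G ∨ Cfsg.IsFi23 G := by
  obtain ⟨x, y, hxy⟩ := hna
  have hZ : center G = ⊥ := center_eq_bot_of_simple hxy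
  have p : commutator G = ⊤ := (IsSimpleGroup.eq_bot_or_eq_top_of_normal _ inferInstance).resolve_left fun q =>
    hxy (mem_center_iff.1 ((commutator_eq_bot_iff_center_eq_top G).1 q ▸ mem_top y) x)
  have c : TC D := TC.of_class hD (by
    by_contra! n
    obtain ⟨a, ha, -⟩ := hD.2.1
    refine H28.tt_ne_one hD.1 ha (mem_bot.1 (hZ ▸ H28.mem_center_of_forall hD.2.2 fun b hb => ?_))
    rw [n b hb a ha])
  have hG : IsThreeTranspositionGroup D := ⟨c.tt, c.cj, c.gen⟩
  obtain ⟨d, hd⟩ := c.ne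
  have sym : ∀ n, 3 ≤ n → ¬ IsSym D n := fun n hn k => by
    obtain ⟨e, he⟩ := conv_sym c hZ hn k
    have := nohom p e Perm.sign (e d)
    rw [Perm.IsSwap.sign_eq (he.le ⟨d, hd, rfl⟩)] at this
    exact absurd this (by decide)
  rcases fischer (c.tp_of_simple (p ▸ topEquiv.isSimpleGroup) ⟨⟨x, p ▸ mem_top x⟩, ⟨y, p ▸ mem_top y⟩,
    fun q => hxy (congrArg Subtype.val q)⟩) with k | (⟨n, hn, k⟩ | ⟨n, hn, k⟩) | ⟨n, hn, k⟩ | ⟨n, hn, k⟩ | ⟨n, hn, k⟩ |
      ⟨_, k⟩ | ⟨_, k⟩ | ⟨_, k⟩
  · exact (sym _ (by omega) k).elim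
  · obtain ⟨m, -, e, -⟩ := conv_sp c hZ (by omega) k
    exact Or.inl ⟨m, ⟨e⟩⟩
  · obtain ⟨e, -⟩ := conv_u c hZ hn k
    exact Or.inr (Or.inl ⟨K4, _, _, n, card_K4, ⟨e⟩⟩)
  · exact (sym _ (by omega) k).elim
  · have : (commutator G).index = 2 := by
      rcases conv_o2 c hZ hn k with ⟨m, hm, e, -⟩ | ⟨m, hm, e, -⟩ <;> rw [index_commutator_congr e]
      · haveI : Nonempty (Fin m ⊕ Fin m) := ⟨.inl ⟨0, by omega⟩⟩
        exact noq (Q := qPlus m _) (qPlus_nondeg m) (by simp; omega)
      · exact noq (Q := qMinus m _ 1 1) (qMinus_nondeg m (by decide)) (by simp; omega)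
    simp [p] at this
  · obtain ⟨Q, q, e, he⟩ := conv_o3 c hZ k
    have r := (omega_le_rs q (by simpa using hn) (c := 2) (by decide)).2
    let e' := e.trans (quotCenterCongr (rsEquiv Q 2))
    have h5 : 5 ≤ Module.finrank (ZMod 3) (Fin n → ZMod 3) := by simp; omega
    obtain ⟨m, rfl | rfl⟩ := Nat.even_or_odd' n
    · obtain ⟨g, ⟨v, hv, -⟩, -⟩ := he.le ⟨d, hd, rfl⟩
      let δ : closure (RS Q 2) →* (ZMod 3)ˣ := (LinearEquiv.det.comp (Subgroup.subtype _)).comp (Subgroup.subtype _)
      have := nohom p e' (QuotientGroup.lift (center _) δ fun z hz => by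
        obtain ⟨a, ha⟩ := scalar_of_mem_center_quad q rfl (exists_sing_of_three_le q rfl (by omega)) (by omega) _
          (fun g hg => r ((commutator_eq_eichGrp_of_five_le q rfl h5).ge (subset_closure hg))) z hz
        refine Units.ext ?_
        have a0 : (δ z).1 = a ^ (2 * m) := by
          rw [show (δ z).1 = LinearMap.det z.1.1.toLinearMap from LinearEquiv.coe_det _,
            show z.1.1.toLinearMap = a • LinearMap.id from LinearMap.ext ha, LinearMap.det_smul]; simp
        have a1 : a ≠ 0 := fun e => (δ z).ne_zero (by rw [a0, e, zero_pow (by omega)])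
        rw [a0, pow_mul, sq, z3' a1, one_pow, Units.val_one]) (QuotientGroup.mk ⟨_, subset_closure ⟨v, hv, rfl⟩⟩)
      exact absurd ((det_refl (Φ := ofQuad Q) rfl (v := v) (by rw [ofQuad_Q, hv]; decide)).symm.trans
        ((LinearEquiv.coe_det _).symm.trans (congrArg Units.val this))) (by decide)
    obtain ⟨θ, i, s⟩ := pomega_hom Q q (by simp; omega) r
    rw [← map_commutator_equiv e', p, map_top_of_surjective _ e'.surjective, MonoidHom.range_eq_top] at s
    obtain ⟨a, ha, f, hf⟩ := exists_equiv_odd q (m := m) (by simp)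
    have := (isomEquiv Q).trans ((oCongr (ofQuad Q) (ofQuad (a • qOdd m (ZMod 3))) f (fun x y => by
      simp only [ofQuad_B, QuadraticMap.polar, ← map_add, hf]; rfl) hf).symm.trans ((isomEquiv _).symm.trans
        (MulEquiv.subgroupCongr (K := isometryGroup _ (quadFormOdd m (ZMod 3))) (Subgroup.ext fun g => by
          simp [mem_isometryGroup, ha, coe_qOdd]))))
    exact Or.inr (Or.inr (Or.inl ⟨m, ⟨(e'.trans (MulEquiv.ofBijective θ ⟨i, s⟩).symm).trans
      (quotCenterCongr (commutatorCongr this))⟩⟩))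
  · obtain ⟨e, -⟩ := equiv_of_fiso hG hZ e22_class fi22_center k
    exact Or.inr (Or.inr (Or.inr (Or.inl ⟨‹_›, (Nat.card_congr e.toEquiv).trans fi22_card⟩)))
  · obtain ⟨e, -⟩ := equiv_of_fiso hG hZ e23_class fi23_center k
    exact Or.inr (Or.inr (Or.inr (Or.inr ⟨‹_›, (Nat.card_congr e.toEquiv).trans fi23_card⟩)))
  obtain ⟨e, -⟩ := equiv_of_fiso hG hZ e24_class f24_center k
  exact absurd ((nohom p e sgn24 _).symm.trans (sgn24_eq _ (IsConj.refl _))) (by decide)

end Cfsg.Agent.S0480
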