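import Cfsg.Statements.S0481
import Cfsg.Agent.H13.LX

set_option autoImplicit false
open Cfsg

namespace Cfsg.Agent.S0481

open H13

open Subgroup

/-- Large extraspecial subgroups: let z be an involution of a finite group G whose centraliser C contains a normal 2-subgroup Q with centre of order 2 and all squares central, such that every element of G centralising Q lies in Q. Then C contains a Sylow 2-subgroup of G, and any involution of G whose centraliser contains a Sylow 2-subgroup of G is conjugate to z. -/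
theorem result {G : Type*} [Group G] [Finite G] (z : G) (hz : orderOf z = 2) (Q : Subgroup G) (hQC : Q ≤ Subgroup.centralizer ({z} : Set G)) (hQn : ∀ g ∈ Subgroup.centralizer ({z} : Set G), ∀ q ∈ Q, g * q * g⁻¹ ∈ Q) (hQ2 : IsPGroup 2 Q) (hZ : Nat.card (Subgroup.center Q) = 2) (hsq : ∀ x : Q, x ^ 2 ∈ Subgroup.center Q) (hlarge : Subgroup.centralizer (Q : Set G) ≤ Q) : (∃ P : Sylow 2 G, (P : Subgroup G) ≤ Subgroup.centralizer ({z} : Set G)) ∧ ∀ u : G, orderOf u = 2 → (∃ P : Sylow 2 G, (P : Subgroup G) ≤ Subgroup.centralizer ({u} : Set G)) → IsConj z u := by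
  obtain ⟨P, hP⟩ := hQ2.exists_le_sylow
  have hzQ : z ∈ centralizer (Q : Set G) := fun y hy => mem_Cz.1 (hQC hy)
  have hc : zpowers z = Q ⊓ centralizer (Q : Set G) :=
    eq_of_le_of_card_ge (zpowers_le.2 (mem_inf.2 ⟨hlarge hzQ, hzQ⟩)) (by
      rw [← H5.map_center_subtype, card_subtype, hZ, Nat.card_zpowers, hz])
  have key : ∀ x ∈ centralizer ((P : Subgroup G) : Set G), x = 1 ∨ x = z := fun x hx => by
    have := centralizer_le hP hx
    exact (mem_zpowers_two hz).1 (hc ▸ mem_inf.2 ⟨hlarge this, this⟩)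
  have z1 : z ≠ 1 := fun e => by rw [e, orderOf_one] at hz; omega
  constructor
  · obtain ⟨x, hx, x1⟩ := (Subgroup.bot_or_exists_ne_one _).resolve_left (H1.inf_centralizer_ne_bot_of_isPGroup P.2 P.2
      le_normalizer fun e => z1 (mem_bot.1 (e ▸ hP (hlarge hzQ))))
    obtain rfl := (key x hx.2).resolve_left x1
    exact ⟨P, fun y hy => mem_Cz.2 (hx.2 y hy)⟩
  · rintro u hu ⟨S, hS⟩
    obtain ⟨g, rfl⟩ := MulAction.exists_smul_eq G P S
    rcases key (g⁻¹ * u * g) fun y hy => by
      exact commute_conj_iff.1 (mem_Cz_iff.1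
        (hS (show g * y * g⁻¹ ∈ (g • P : Sylow 2 G) from H1.conj_mem_conj_smul hy))) with a | a
    · have : u = 1 := by simpa [mul_assoc] using congrArg (fun x => g * x * g⁻¹) a
      rw [this, orderOf_one] at hu; omega
    · exact isConj_iff.2 ⟨g, by rw [← a]; group⟩

end Cfsg.Agent.S0481
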