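import Cfsg.Statements.S0499
import Cfsg.Agent.H6.Fus3

set_option autoImplicit false
open Cfsg

namespace Cfsg.Agent.S0499

theorem arith {q a b : ℕ} (hq : q.Prime) (h2 : q ≠ 2) (ha : a ≤ 3) (hb : b < a)
    (h : 2 ^ a ≡ 2 ^ b [MOD q]) : (2 ≤ a ∧ q = 3) ∨ (a = 3 ∧ q = 7) := by
  have h1 := (Nat.modEq_iff_dvd' (Nat.pow_le_pow_right (by norm_num) hb.le)).1 h.symm
  have h3 := hq.two_le
  have h4 : q ≠ 4 := by rintro rfl; exact absurd hq (by norm_num)
  have h6 : q ≠ 6 := by rintro rfl; exact absurd hq (by norm_num)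
  interval_cases a <;> interval_cases b <;> norm_num at h1 ⊢ <;>
    first
    | omega
    | (have := Nat.le_of_dvd (by norm_num) h1; interval_cases q <;> simp_all)

/-- A non-abelian finite simple group of even order has order divisible by 12, 16 or 56. -/
theorem result {G : Type*} [Group G] [Finite G] [IsSimpleGroup G]
    (hG : ¬ IsMulCommutative G) (h2 : Even (Nat.card G)) :
    12 ∣ Nat.card G ∨ 16 ∣ Nat.card G ∨ 56 ∣ Nat.card G := by
  haveI : Fact (Nat.Prime 2) := ⟨Nat.prime_two⟩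
  obtain ⟨S⟩ : Nonempty (Sylow 2 G) := inferInstance
  obtain ⟨E, hE, -, hn⟩ := H6.simple_exists_not_noOdd hG S
  obtain ⟨q, a, b, hq, hq2, hd, ha, hb, h⟩ := H6.exists_modEq_of_not_noOdd (S.2.to_le hE) hn
  have h1 : 2 ^ a ∣ Nat.card G := ha ▸ E.card_subgroup_dvd_card
  by_cases h4 : 4 ≤ a
  · exact Or.inr (Or.inl ((pow_dvd_pow 2 h4).trans h1))
  rcases arith hq hq2 (by omega) hb h with ⟨h5, rfl⟩ | ⟨rfl, rfl⟩
  · exact Or.inl (Nat.Coprime.mul_dvd_of_dvd_of_dvd (m := 2 ^ 2) (n := 3) (by norm_num)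
      ((pow_dvd_pow 2 h5).trans h1) hd)
  · exact Or.inr (Or.inr (Nat.Coprime.mul_dvd_of_dvd_of_dvd (m := 2 ^ 3) (n := 7) (by norm_num)
      h1 hd))

end Cfsg.Agent.S0499
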