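import Cfsg.Statements.S0502
import Cfsg.Agent.H6.Conn

set_option autoImplicit false
open Cfsg

namespace Cfsg.Agent.S0502

/-- If a finite 2-group has a normal elementary abelian subgroup of order at least 8, then any two of its Klein
four-subgroups are joined by a chain of Klein four-subgroups with consecutive members commuting elementwise. -/
theorem result {P : Type*} [Group P] [Finite P] (hP : IsPGroup 2 P)
    (E : Subgroup P) [E.Normal] (hE : IsMulCommutative E) (hE2 : ∀ e ∈ E, e ^ 2 = 1) (hE8 : 8 ≤ Nat.card E) :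
    Cfsg.IsFourConnected P := by
  haveI : Fact (Nat.Prime 2) := ⟨Nat.prime_two⟩
  intro U V hU hV
  obtain ⟨W, hWE, hW⟩ := H5.exists_kleinFour_le (V := E) ⟨hE, hE2⟩ (le_trans (by norm_num) hE8)
  have h := fun X hX => H6.fa_conn_of_normalizes (E := E) (V := X) ⟨hE, hE2⟩ hE8 hX
    (Subgroup.le_normalizer_of_normal) hW hWE
  exact (h U hU).trans (H6.fa_conn_symm (h V hV))

end Cfsg.Agent.S0502
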