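import Cfsg.Statements.S0505
import Cfsg.Agent.H5.PLocal
import Cfsg.Agent.H6.Inv

set_option autoImplicit false
open Cfsg

namespace Cfsg.Agent.S0505

/-- Let G be a finite group of even order in which the centralizer of every involution is solvable and has trivial
core (no nontrivial normal subgroup of odd order). Then G is of characteristic 2 type. -/
theorem result {G : Type*} [Group G] [Finite G]
    (h2 : Even (Nat.card G))
    (hs : ∀ t : G, orderOf t = 2 → Group.IsSolvable (Subgroup.centralizer ({t} : Set G)))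
    (hc : ∀ t : G, orderOf t = 2 → Cfsg.oddCore (Subgroup.centralizer ({t} : Set G)) = ⊥) :
    Cfsg.IsCharacteristicTwoType G := by
  open Subgroup H5 in
  haveI : Fact (Nat.Prime 2) := ⟨Nat.prime_two⟩
  refine ⟨h2, fun T hT hb => ?_⟩
  haveI : Nontrivial T := (nontrivial_iff_ne_bot T).2 hb
  obtain ⟨⟨t, htZ⟩, ht⟩ := H6.exists_ord2_of_even (G := center T) (by
    haveI := hT.center_nontrivial
    obtain ⟨k, hk⟩ := IsPGroup.iff_card.1 (hT.to_subgroup (center T))
    have : k ≠ 0 := by
      rintro rfl
      exact (Finite.one_lt_card (α := center T)).ne' hk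
    rw [hk]; exact (Nat.even_pow.2 ⟨even_two, this⟩))
  have ht' : orderOf (t : G) = 2 := by rw [orderOf_coe, ← ht]; exact (orderOf_coe (⟨t, htZ⟩ : center T))
  have hTK : T ≤ centralizer ({(t : G)} : Set G) := fun x hx =>
    H6.mem_cent_singleton.2 (congrArg Subtype.val (mem_center_iff.1 htZ ⟨x, hx⟩))
  have h1 : fstarOf (centralizer ({(t : G)} : Set G)) = opOf 2 _ :=
    fstarOf_eq_opOf_iff.2 ⟨layerOf_eq_bot_of_solvable (hs _ ht'), by
      have := hc _ ht'
      show (pPrimeCore 2 _).map _ = ⊥
      rw [show pPrimeCore 2 _ = ⊥ from this, Subgroup.map_bot]⟩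
  have h3 := fstarOf_inf_centralizer hT (hTK.trans le_normalizer) h1
  rw [inf_eq_right.2 (centralizer_le (by simp)), fstarOf_eq_opOf_iff,
    ← layerOf_normalizer hT, ← oppOf_normalizer hT, ← fstarOf_eq_opOf_iff,
    ← fstar_eq_pCore_iff_of, fstar_eq_pCore_iff_centralizer] at h3
  exact h3

end Cfsg.Agent.S0505
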