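import Cfsg.Statements.S0514
import Cfsg.Agent.H18.Four

set_option autoImplicit false
open Cfsg

namespace Cfsg.Agent.S0514

open H17 H15 H18

/-- In a finite group whose Sylow 2-subgroups are dihedral of order at least 4, the centralizer of any involution has a
normal subgroup of odd order whose index in the centralizer is a power of 2. -/
theorem result {X : Type*} [Group X] [Finite X]
    (S : Sylow 2 X) (n : ℕ) (hn : 2 ≤ n) (hS : Nonempty ((S : Subgroup X) ≃* DihedralGroup n)) (t : X)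
    (ht : orderOf t = 2) :
    ∃ N : Subgroup (Subgroup.centralizer ({t} : Set X)), N.Normal ∧ Odd (Nat.card N) ∧ ∃ k : ℕ, N.index = 2 ^ k := by
  obtain ⟨e⟩ := hS
  obtain ⟨k, x, y, h, c⟩ := H6.dh_sub S.isPGroup' hn e
  have hs := H10.isSylowIn_top S
  suffices H : Cfsg.HasNormalPComplement 2 𝒞₁(t) by
    obtain ⟨N, _, h1, h2⟩ := H19.exists_compl H
    exact ⟨N, inferInstance, Nat.odd_iff.2 (by omega), h2.exists_card_eq⟩
  obtain ⟨T, hT, tT⟩ := H10.exists_isSylowIn_ge (H10.isPGroup_zpowers_of_orderOf_eq ht)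
    ((Subgroup.zpowers_le (H := 𝒞₁(t))).2 (mem_cent1.2 rfl))
  obtain ⟨g, -, hg⟩ := hs.exists_cj_le hT.isPGroup le_top
  have hT' : H10.IsSylowIn 2 cj(g, T) 𝒞₁(g * t * g⁻¹) := cj_cent1 g t ▸ hT.cj g
  refine (H3.hasNormalPComplement_congr ((MulAut.conj g).subgroupMap 𝒞₁(t))).2 ?_
  change Cfsg.HasNormalPComplement 2 cj(g, 𝒞₁(t))
  rw [cj_cent1]
  have o : orderOf (g * t * g⁻¹) = 2 := (orderOf_of_ccls (conj_mem_ccls t g)).trans ht
  have m : g * t * g⁻¹ ∈ cj(g, T) := conj_mem_cj (tT (Subgroup.mem_zpowers t))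
  change cj(g, T) ≤ _ at hg
  generalize g * t * g⁻¹ = u at *
  generalize cj(g, T) = U at *
  obtain rfl | ⟨i, rfl⟩ := h.of_ord2 (hg m) o
  · exact (dh_cent hs h c o (hg m) fun a ha => mem_cent1.2 (h.z_comm ha)).1
  · have hK := h.T_four i
    have le : U ≤ Subgroup.closure {x ^ (2 : ℤ) ^ k, x ^ i * y} :=
      fun a ha => h.mem_T.2 (h.cent_w (hg ha) (mem_cent1.1 (hT'.le ha)))
    exact npc_of_klein hT' (hT'.eq_of_le (H6.kleinFour_isPGroup hK) le
      (fun a ha => mem_cent1.2 (H6.kleinFour_commute hK ha (le m))) ▸ hK) m (ord2_ne o)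

end Cfsg.Agent.S0514
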