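import Cfsg.Statements.S0519
import Cfsg.Agent.H9.NormalCyc

set_option autoImplicit false
open Cfsg

namespace Cfsg.Agent.S0519

open Subgroup

/-- Let P be a finite p-group in which every abelian normal subgroup is cyclic, but which has a non-cyclic abelian
subgroup. Then p = 2 and P is generalized quaternion, dihedral of order at least 16, or quasi-dihedral. -/
theorem result {P : Type*} [Group P] [Finite P] (p : ℕ) [Fact p.Prime]
    (hP : IsPGroup p P) (hn : ∀ A : Subgroup P, A.Normal → IsMulCommutative A → IsCyclic A)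
    (hm : ∃ B : Subgroup P, IsMulCommutative B ∧ ¬ IsCyclic B) :
    p = 2 ∧ ((∃ n : ℕ, Nonempty (P ≃* QuaternionGroup n)) ∨ (∃ n : ℕ, 8 ≤ n ∧ Nonempty (P ≃* DihedralGroup n)) ∨
      Cfsg.IsQuasiDihedral P) := by
  have hp' : p.Prime := Fact.out
  obtain ⟨B, -, hB⟩ := hm
  have hnc : ¬ IsCyclic P := fun h => hB inferInstance
  have hp : p = 2 := by
    by_contra hp
    obtain ⟨A, -, h1, h2, h3⟩ := H9.exists_normal_rank_two hp hP ⊤ (by rwa [H9.isCyclic_iff_top])
    exact H9.not_isCyclic_of_elementary h2.2 (by rw [h3]; nlinarith [hp'.two_le]) (hn A h1 h2.1)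
  subst hp
  refine ⟨rfl, ?_⟩
  rcases ((H9.cyclic_or_dqs_of_normal_abelian_cyclic hP hn).resolve_left hnc).iso with
    ⟨k, ⟨e⟩⟩ | ⟨k, h1, a, b, h2, h3, h4⟩ | ⟨k, h⟩
  · refine Or.inr (Or.inl ⟨_, ?_, ⟨e⟩⟩)
    rcases k with _ | k
    · exfalso
      obtain ⟨a, b, ha, hb, hab, hba, hall⟩ := H6.exists_gens_of_dihedral e
      have ha4 : a ^ 4 = 1 := by rw [← pow_orderOf_eq_one a, ha]; rfl
      have hzo : orderOf (a ^ 2) = 2 := H9.orderOf_pow_prime_pow (p := 2) (m := 1) (i := 1) ha
      have hc : Commute (a ^ 2) b := by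
        have : b * a ^ 2 * b⁻¹ = a ^ 2 := by
          rw [← conj_pow, hab, inv_pow, inv_eq_iff_mul_eq_one, ← pow_add, ha4]
        exact (mul_inv_eq_iff_eq_mul.1 this).symm
      have hc' := H9.mem_centralizer_zpowers.2 hc
      have hcard : Nat.card (zpowers (a ^ 2) ⊔ zpowers b : Subgroup P) = 4 := by
        rw [H9.card_sup_zpowers Nat.prime_two (centralizer_le_normalizer _ hc')
          (fun h => hba (zpowers_le.2 (npow_mem_zpowers a _) h))
          (by rw [pow_two b, hb]; exact one_mem _), Nat.card_zpowers, hzo]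
      have hi : (zpowers (a ^ 2) ⊔ zpowers b : Subgroup P).index = 2 := by
        have := (zpowers (a ^ 2) ⊔ zpowers b : Subgroup P).index_mul_card
        rw [hcard, Nat.card_congr e.toEquiv, DihedralGroup.nat_card] at this
        omega
      refine H9.not_isCyclic_of_elementary (p := 2) ?_ (by omega) (hn _ (normal_of_index_eq_two hi)
        (H9.isMulCommutative_sup_zpowers inferInstance hc'))
      intro v hv
      obtain ⟨_, ⟨s, rfl⟩, k, rfl⟩ := (H9.mem_sup_zpowers (centralizer_le_normalizer _ hc')).1 hv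
      simp only
      rw [(hc.zpow_zpow s k).mul_pow, ← zpow_natCast, ← zpow_mul,
        mul_comm s, zpow_mul, zpow_natCast, ← zpow_natCast (b ^ k), ← zpow_mul, mul_comm k,
        zpow_mul, zpow_natCast, ← pow_mul, pow_two b, hb, ha4]
      simp
    · calc 8 = 2 ^ 3 := rfl
        _ ≤ _ := Nat.pow_le_pow_right two_pos (by omega)
  · exact Or.inr (Or.inr ⟨k + 3, by omega, h1, a, b, h2, h3, h4⟩)
  · exact Or.inl ⟨_, h⟩

end Cfsg.Agent.S0519
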