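import Cfsg.Statements.S0520
import Cfsg.Agent.H6.Conn

set_option autoImplicit false
open Cfsg

namespace Cfsg.Agent.S0520

/-- Let G be a finite group of 2-rank at least 2 and S a Sylow 2-subgroup whose commuting graph of Klein four-subgroups is
connected. Then the commuting graph of Klein four-subgroups of G is disconnected if and only if the 2-generated core — the
subgroup generated by the normalizers N_G(Q) of the subgroups Q of S that contain a Klein four-group — is a proper
subgroup of G. -/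
theorem result {G : Type*} [Group G] [Finite G] (h2 : ¬ Cfsg.PRankLE 2 1 G)
    (S : Sylow 2 G) (hS : Cfsg.IsFourConnected (S : Subgroup G)) :
    ¬ Cfsg.IsFourConnected G ↔
      (⨆ Q : {Q : Subgroup G // Q ≤ (S : Subgroup G) ∧ ¬ Cfsg.PRankLE 2 1 Q},
          Subgroup.normalizer ((Q : Subgroup G) : Set G)) ≠ ⊤ := by
  open Subgroup H6 in
  haveI : Fact (Nat.Prime 2) := ⟨Nat.prime_two⟩
  set Γ : Subgroup G := ⨆ Q : {Q : Subgroup G // Q ≤ (S : Subgroup G) ∧ ¬ Cfsg.PRankLE 2 1 Q},
            Subgroup.normalizer ((Q : Subgroup G) : Set G) with hΓ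
  have hN : ∀ Q V : Subgroup G, Q ≤ S → V ≤ Q → IsKleinFour V → normalizer (Q : Set G) ≤ Γ :=
    fun Q V h1 h2 h3 => le_iSup (fun Q : {Q : Subgroup G // Q ≤ (S : Subgroup G) ∧ ¬ Cfsg.PRankLE 2 1 Q} =>
      Subgroup.normalizer ((Q : Subgroup G) : Set G)) ⟨Q, h1, not_prank_one_iff.2 ⟨V, h2, h3⟩⟩
  have hcj : ∀ U : Subgroup G, IsKleinFour U → ∃ g : G, U.map (MulAut.conj g).toMonoidHom ≤ S := by
    intro U hU
    obtain ⟨g, hg⟩ := exists_conj_le_sylow S (kleinFour_isPGroup hU)
    exact ⟨g, by rintro _ ⟨x, hx, rfl⟩; exact hg x hx⟩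
  obtain ⟨V, hVS, hV⟩ : ∃ V : Subgroup G, V ≤ S ∧ IsKleinFour V := by
    obtain ⟨A, h1, h3⟩ := H5.not_pRankLE_iff_top.1 h2
    obtain ⟨U, -, hU⟩ := H5.exists_kleinFour_le h1 h3
    obtain ⟨g, hg⟩ := hcj U hU
    exact ⟨_, hg, isKleinFour_map_conj hU g⟩
  have hSΓ : (S : Subgroup G) ≤ Γ := le_normalizer.trans (hN _ V le_rfl hVS hV)
  have inj := fun g : G => (MulAut.conj g).injective
  rw [not_iff_not]
  constructor
  · intro hc
    have h1 : ∀ U, Relation.ReflTransGen FA V U →
        ∃ g ∈ Γ, U.map (MulAut.conj g).toMonoidHom ≤ S := by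
      intro U hU
      induction hU with
      | refl => exact ⟨1, one_mem _, by rwa [map_conj_one]⟩
      | @tail U W _ h ih =>
        obtain ⟨g, hg, hgS⟩ := ih
        have h' := h.map (f := (MulAut.conj g).toMonoidHom) (inj g)
        have h3 : W.map (MulAut.conj g).toMonoidHom ≤ Γ := fun x hx =>
          hN _ _ hgS le_rfl h'.1 (centralizer_le_normalizer' _ fun a ha => h'.2.2 a ha x hx)
        obtain ⟨c, hc, hc'⟩ := exists_conj_le_sylow_sub (S.subtype hSΓ) (kleinFour_isPGroup h'.2.1) h3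
        refine ⟨c * g, mul_mem hc hg, ?_⟩
        rw [← map_conj_map_conj]
        rintro _ ⟨x, hx, rfl⟩
        obtain ⟨y, hy, e⟩ := hc' x hx
        show c * x * c⁻¹ ∈ (S : Subgroup G)
        rw [← e]; exact hy
    have h3 : ∀ U : Subgroup G, IsKleinFour U → normalizer (U : Set G) ≤ Γ := fun U hU n hn => by
      obtain ⟨g, hg, hgS⟩ := h1 U (hc V U hV hU)
      have : g * n * g⁻¹ ∈ Γ := hN _ _ hgS le_rfl (isKleinFour_map_conj hU g) (by
        rw [← map_conj_eq_iff, map_conj_map_conj, inv_mul_cancel_right, ← map_conj_map_conj,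
          map_conj_eq_iff.2 hn])
      have h4 := mul_mem (mul_mem (inv_mem hg) this) hg
      simpa [mul_assoc] using h4
    have key := fusion_induction_set S
      (fun A g => (∃ U : Subgroup G, IsKleinFour U ∧ (U : Set G) ⊆ A) → g ∈ Γ)
      (fun A B g h hB ⟨U, h1, h2⟩ => hB ⟨U, h1, h2.trans h⟩)
      (fun A B g h hA hB hAB ⟨U, h1, h2⟩ => mul_mem (hA ⟨U, h1, h2⟩)
        (hB ⟨_, isKleinFour_map_conj h1 g⁻¹, by
          rintro _ ⟨x, hx, rfl⟩
          simpa using hAB x (h2 hx)⟩))
      (fun s hs _ => hSΓ hs)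
      (fun A c hc ⟨U, h1, h2⟩ => h3 U h1 (centralizer_le_normalizer' _ (centralizer_le h2 hc)))
      (fun E hE _ g hg _ _ ⟨U, h1, h2⟩ => hN E U hE h2 h1 hg)
    rw [eq_top_iff]
    intro g _
    obtain ⟨c, hc', hcS⟩ := h1 _ (hc V _ hV (isKleinFour_map_conj hV g))
    rw [map_conj_map_conj] at hcS
    have := key V (c * g)⁻¹ hVS (fun a ha => hcS ⟨a, ha, by simp [mul_assoc]⟩) ⟨V, hV, subset_rfl⟩
    exact (mul_mem_cancel_left hc').1 (inv_mem_iff.1 this)
  · intro htop
    let H : Subgroup G :=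
      { carrier := {g | Relation.ReflTransGen FA V (V.map (MulAut.conj g).toMonoidHom)}
        one_mem' := by show Relation.ReflTransGen _ _ _; rw [map_conj_one]
        mul_mem' := fun {a b} ha hb => by
          show Relation.ReflTransGen _ _ _
          rw [← map_conj_map_conj]
          exact Relation.ReflTransGen.trans ha (fa_conn_map (inj a) hb)
        inv_mem' := fun {a} ha => by
          have := fa_conn_map (f := (MulAut.conj a⁻¹).toMonoidHom) (inj a⁻¹) ha
          rw [map_conj_map_conj, inv_mul_cancel, map_conj_one] at this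
          exact fa_conn_symm this }
    have hH : Γ ≤ H := by
      refine iSup_le ?_
      rintro ⟨Q, h1, h3⟩ n hn
      obtain ⟨U, hUQ, hU⟩ := not_prank_one_iff.1 h3
      have h4 : U.map (MulAut.conj n).toMonoidHom ≤ S := by
        rintro _ ⟨x, hx, rfl⟩
        exact h1 ((mem_normalizer_iff.1 hn x).1 (hUQ hx))
      exact (fa_conn_of_le hS hV (isKleinFour_map_conj hU n) hVS h4).trans
        (fa_conn_map (inj n) (fa_conn_of_le hS hU hV (hUQ.trans h1) hVS))
    have h5 : ∀ U : Subgroup G, IsKleinFour U → Relation.ReflTransGen FA V U := fun U hU => by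
      obtain ⟨g, hg⟩ := hcj U hU
      have h6 := fa_conn_map (f := (MulAut.conj g⁻¹).toMonoidHom) (inj g⁻¹)
        (fa_conn_of_le hS hV (isKleinFour_map_conj hU g) hVS hg)
      rw [map_conj_map_conj, inv_mul_cancel, map_conj_one] at h6
      exact Relation.ReflTransGen.trans (hH (htop ▸ mem_top g⁻¹)) h6
    exact fun U W hU hW => (fa_conn_symm (h5 U hU)).trans (h5 W hW)

end Cfsg.Agent.S0520
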