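import Cfsg.Statements.S0522
import Cfsg.Agent.H15.Trans
-- import your own Cfsg.Agent.* helpers here

set_option autoImplicit false
open Cfsg

open Subgroup H1 H15 H16

namespace Cfsg.Agent.S0522

/-- Transitivity Theorem (odd-order setting). Let X be a finite group of odd order in which the normalizer of every
nontrivial p-subgroup is solvable, P a Sylow p-subgroup, and B an abelian subgroup of P, normalized by P, with
C_P(B) = B and containing an elementary abelian subgroup of order p^3. Then for every prime q ≠ p, any two q-subgroups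
that are maximal among the q-subgroups normalized by B are conjugate by an element of the centralizer of B. -/
theorem result {X : Type*} [Group X] [Finite X] (hX : Odd (Nat.card X)) (p : ℕ)
    [Fact p.Prime] (hloc : ∀ T : Subgroup X, IsPGroup p T → T ≠ ⊥ → Group.IsSolvable (Subgroup.normalizer (T : Set X)))
    (P : Sylow p X) (B : Subgroup X) (hBP : B ≤ (P : Subgroup X))
    (hBn : ∀ x ∈ (P : Subgroup X), ∀ b ∈ B, x * b * x⁻¹ ∈ B) (hBa : IsMulCommutative B)
    (hBc : (P : Subgroup X) ⊓ Subgroup.centralizer (B : Set X) = B)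
    (hB3 : ∃ E : Subgroup X, E ≤ B ∧ (∀ e ∈ E, e ^ p = 1) ∧ p ^ 3 ≤ Nat.card E)
    (q : ℕ) [Fact q.Prime] (hqp : q ≠ p) (Q₁ Q₂ : Subgroup X)
    (h₁ : IsPGroup q Q₁ ∧ B ≤ Subgroup.normalizer (Q₁ : Set X) ∧
      ∀ R : Subgroup X, IsPGroup q R → B ≤ Subgroup.normalizer (R : Set X) → Q₁ ≤ R → R = Q₁)
    (h₂ : IsPGroup q Q₂ ∧ B ≤ Subgroup.normalizer (Q₂ : Set X) ∧
      ∀ R : Subgroup X, IsPGroup q R → B ≤ Subgroup.normalizer (R : Set X) → Q₂ ≤ R → R = Q₂) :
    ∃ c ∈ Subgroup.centralizer (B : Set X), Q₂ = Q₁.map (MulAut.conj c).toMonoidHom := by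
  have hS : IsSCN (P : Subgroup X) B := ⟨hBP, le_norm_iff.2 hBn, hBc⟩
  have hP := syl_top_sylow P
  have hB := hP.isPi.of_le hBP
  obtain ⟨E, e1, e2, e3⟩ := hB3
  have h3 : ¬ PRankLE p 2 B := fun h => by
    have := prk_iff.1 h E e1 ⟨H16.comm_of_le hBa e1, e2⟩
    exact absurd (e3.trans this) (Nat.pow_lt_pow_right (Fact.out : p.Prime).one_lt (by norm_num)).not_ge
  have hp2 : p ≠ 2 := ne_two_of_odd hX ((dvd_of_not_prk Fact.out h3).trans (card_subgroup_dvd_card B))
  have := trans_of_locals hqp hB hBa h3 (fun T hT hT1 Y h1 h2 h3 =>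
    (pcon_of_sol p (hloc T (hB.of_le hT).isPGroup hT1)).le_core_of_tb hp2 h1 hB h3
      (comm_norm hBa le_rfl hT) h2 fun x _ b c => h2 (mem_of_scn hP hS b c)) Q₁ Q₂
    ⟨H15.IsPGroup.isPi h₁.1, h₁.2.1, fun R a b c => h₁.2.2 R a.isPGroup b c⟩
    ⟨H15.IsPGroup.isPi h₂.1, h₂.2.1, fun R a b c => h₂.2.2 R a.isPGroup b c⟩
  exact this.mono (piCoreOf_le _ _)

end Cfsg.Agent.S0522
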