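import Cfsg.Statements.S0529
import Cfsg.Agent.H1.Super

set_option autoImplicit false
open Cfsg

namespace Cfsg.Agent.S0529

/-- A finite supersolvable group has a chain of normal subgroups, from the trivial subgroup to the whole group, in which every step has prime index and the primes occurring are non-increasing as one goes up the chain. -/
theorem result {G : Type*} [Group G] [Finite G] (hG : Cfsg.IsSupersolvable G) : ∃ (n : ℕ) (H : Fin (n + 1) → Subgroup G), H 0 = ⊥ ∧ H (Fin.last n) = ⊤ ∧ (∀ i, (H i).Normal) ∧ (∀ i : Fin n, H i.castSucc ≤ H i.succ ∧ ((H i.castSucc).relIndex (H i.succ)).Prime) ∧ ∀ i j : Fin n, i ≤ j → (H j.castSucc).relIndex (H j.succ) ≤ (H i.castSucc).relIndex (H i.succ) := by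
  rw [H1.isSupersolvable_iff_supS] at hG
  obtain ⟨n, H, h0, hn, h1, h2, h3⟩ := H1.exists_normal_chain
    (fun N M : Subgroup G => (N.relIndex M).Prime ∧ N.relIndex M ∣ N.index ∧
      ∀ q : ℕ, q.Prime → q ∣ N.index → q ≤ N.relIndex M) (fun N hN hne => by
      obtain ⟨p, hp, h1, h2⟩ := H1.exists_max_prime_dvd (n := N.index)
        Subgroup.FiniteIndex.index_ne_zero (mt Subgroup.index_eq_one.1 hne)
      obtain ⟨M, h3, h4⟩ := (hG.quotient N).exists_normal_max_prime p hp h1 h2
      have h5 : N.relIndex (M.comap (QuotientGroup.mk' N)) = p := by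
        rwa [← H1.card_map_mk'_eq_relIndex,
          Subgroup.map_comap_eq_self_of_surjective (QuotientGroup.mk'_surjective N)]
      exact ⟨M.comap (QuotientGroup.mk' N), inferInstance,
        H1.lt_of_relIndex_prime (QuotientGroup.le_comap_mk' _ _) (h5 ▸ hp),
        h5 ▸ hp, h5 ▸ h1, h5 ▸ h2⟩) ⊥ inferInstance
  refine ⟨n, H, h0, hn, h2, fun i => ⟨h1 (Fin.castSucc_lt_succ (i := i)).le, (h3 i).1⟩,
    fun i j hij => (h3 i).2.2 _ (h3 j).1 ((h3 j).2.1.trans (Subgroup.index_dvd_of_le (h1 ?_)))⟩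
  exact Fin.castSucc_le_castSucc_iff.2 hij

end Cfsg.Agent.S0529
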