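import Cfsg.Statements.S0530
import Cfsg.Agent.H1.Super

set_option autoImplicit false
open Cfsg

namespace Cfsg.Agent.S0530

theorem aux {G : Type*} [Group G] [Finite G] [Nontrivial G] {p n : ℕ} [hp : Fact p.Prime]
    (hG : Nat.card G ∣ 2 * p ^ n) : ∃ M : Subgroup G, M.Normal ∧ M ≠ ⊥ ∧ IsCyclic M := by
  obtain ⟨S⟩ : Nonempty (Sylow p G) := inferInstance
  have h1 : (S : Subgroup G).index ∣ 2 :=
    (Nat.Coprime.pow_right n (hp.out.coprime_iff_not_dvd.2 S.not_dvd_index).symm).dvd_of_dvd_mul_right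
      ((Subgroup.index_dvd_card _).trans hG)
  have hsq : ∀ t : G, t * t ∈ (S : Subgroup G) := fun t => by
    rcases (Nat.dvd_prime Nat.prime_two).1 h1 with h | h
    · rw [Subgroup.index_eq_one.1 h]; trivial
    · exact Subgroup.mul_self_mem_of_index_two h t
  have hn : (S : Subgroup G).Normal := by
    rcases (Nat.dvd_prime Nat.prime_two).1 h1 with h | h
    · rw [Subgroup.index_eq_one.1 h]; infer_instance
    · exact Subgroup.normal_of_index_eq_two h
  by_cases h0 : (S : Subgroup G) = ⊥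
  · rw [h0, Subgroup.index_bot] at h1
    have : IsCyclic G := isCyclic_of_card_dvd_prime h1
    exact ⟨⊤, inferInstance, top_ne_bot, inferInstance⟩
  obtain ⟨⟨v, hv⟩, h2⟩ := Subgroup.ne_bot_iff_exists_ne_one.1
    (H1.inf_centralizer_ne_bot S.isPGroup'.isNilpotent le_rfl Subgroup.le_normalizer h0)
  have h3 : v ≠ 1 := fun e => h2 (Subtype.ext e)
  have key : ∀ w ∈ Subgroup.centralizer ((S : Subgroup G) : Set G), w ≠ 1 →
      (∀ t ∉ (S : Subgroup G), t * w * t⁻¹ ∈ Subgroup.zpowers w) →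
      ∃ M : Subgroup G, M.Normal ∧ M ≠ ⊥ ∧ IsCyclic M := fun w hw h1 h2 =>
    ⟨Subgroup.zpowers w, ⟨by
      rintro _ ⟨k, rfl⟩ g
      rw [← conj_zpow]
      refine zpow_mem ?_ k
      by_cases hg : g ∈ (S : Subgroup G)
      · rw [hw g hg, mul_inv_cancel_right]; exact Subgroup.mem_zpowers w
      · exact h2 g hg⟩, by simpa using h1, inferInstance⟩
  by_cases h4 : ∀ t ∉ (S : Subgroup G), t * v * t⁻¹ = v⁻¹
  · exact key v hv.2 h3 fun t ht => h4 t ht ▸ inv_mem (Subgroup.mem_zpowers v)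
  push Not at h4
  obtain ⟨t, ht, h4⟩ := h4
  have hc : (Subgroup.centralizer ((S : Subgroup G) : Set G)).Normal := inferInstance
  have h5 := hc.conj_mem v hv.2 t
  refine key (v * (t * v * t⁻¹)) (mul_mem hv.2 h5) (fun e => h4 (eq_inv_of_mul_eq_one_right e))
    fun s hs => ?_
  have h6 : t⁻¹ * s ∈ (S : Subgroup G) := by
    rcases (Nat.dvd_prime Nat.prime_two).1 h1 with h | h
    · rw [Subgroup.index_eq_one.1 h]; trivial
    · rw [Subgroup.mul_mem_iff_of_index_two h]; simp [ht, hs]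
  have h7 := mul_mem hv.2 h5 _ h6
  have h8 := hv.2 _ (hsq t)
  have h9 := h5 v hv.1
  have : s * (v * (t * v * t⁻¹)) * s⁻¹ = v * (t * v * t⁻¹) := by
    calc _ = t * (t⁻¹ * s * (v * (t * v * t⁻¹))) * s⁻¹ := by group
      _ = t * v * t⁻¹ * (t * t * v) * t⁻¹ * t⁻¹ := by rw [h7]; group
      _ = _ := by rw [h8, h9]; group
  rw [this]
  exact Subgroup.mem_zpowers _

/-- A finite group whose order is twice a prime power is supersolvable. -/
theorem result {G : Type*} [Group G] [Finite G] (p n : ℕ) (hp : p.Prime) (hG : Nat.card G = 2 * p ^ n) : Cfsg.IsSupersolvable G := by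
  have := Fact.mk hp
  refine H1.isSupersolvable_iff_supS.2 (H1.supS_of_forall_quotient_cyclic fun N _ hne => ?_)
  have : Nontrivial (G ⧸ N) := QuotientGroup.nontrivial_iff.2 hne
  exact aux (hG ▸ H1.card_quotient_dvd N)

end Cfsg.Agent.S0530
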