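import Cfsg.Statements.S0532
import Cfsg.Agent.H1.Super

set_option autoImplicit false
open Cfsg

namespace Cfsg.Agent.S0532

universe u

theorem hered {G : Type*} [Group G] (h : ∀ H : Subgroup G, Cfsg.HasSubgroupOfEveryOrder H)
    (K : Subgroup G) : ∀ H : Subgroup K, Cfsg.HasSubgroupOfEveryOrder H := fun H d hd => by
  obtain ⟨L, hL⟩ := h (H.map K.subtype) d (by rwa [Subgroup.card_subtype])
  refine ⟨L.map (H.equivMapOfInjective K.subtype K.subtype_injective).symm.toMonoidHom, ?_⟩
  rw [← hL]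
  exact Subgroup.card_map_of_injective (MulEquiv.injective _)

theorem exists_index {G : Type*} [Group G] [Finite G]
    (h : ∀ H : Subgroup G, Cfsg.HasSubgroupOfEveryOrder H) {q : ℕ} (hq : q ∣ Nat.card G) :
    ∃ M : Subgroup G, M.index = q := by
  obtain ⟨d, hd⟩ := hq
  obtain ⟨L, hL⟩ := h ⊤ d (by rw [Subgroup.card_top, hd]; exact dvd_mul_left _ _)
  refine ⟨L.map (Subgroup.subtype _), ?_⟩
  have h1 := (L.map (Subgroup.subtype _)).index_mul_card
  rw [Subgroup.card_subtype, hL, hd] at h1
  exact Nat.eq_of_mul_eq_mul_right (hL ▸ Nat.card_pos) h1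

theorem aux (p : ℕ) [hp : Fact p.Prime] (n : ℕ) : ∀ (G : Type u) [Group G] [Finite G],
    Nat.card G = n → (∀ H : Subgroup G, Cfsg.HasSubgroupOfEveryOrder H) →
    (∀ q : ℕ, q.Prime → q ∣ Nat.card G → q ≤ p) → ∀ P : Sylow p G, (P : Subgroup G).Normal := by
  induction n using Nat.strong_induction_on with
  | _ n ih =>
  intro G _ _ hn h hmax P
  by_cases h1 : (P : Subgroup G).index = 1
  · rw [Subgroup.index_eq_one.1 h1]; infer_instance
  have h2 : Nat.card G ≠ 1 := fun e => h1 (Nat.dvd_one.1 (e ▸ Subgroup.index_dvd_card _))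
  have h3 : (Nat.card G).minFac ≠ p := fun e => by
    obtain ⟨q, hq, h4⟩ := Nat.exists_prime_and_dvd h1
    have h5 := h4.trans (Subgroup.index_dvd_card _)
    obtain rfl : q = p := le_antisymm (hmax q hq h5) (e ▸ Nat.minFac_le_of_dvd hq.two_le h5)
    exact P.not_dvd_index h4
  obtain ⟨M, hM⟩ := exists_index h (Nat.minFac_dvd _)
  have := Subgroup.normal_of_index_eq_minFac_card hM
  have h4 : (P : Subgroup G) ≤ M := H1.le_of_coprime_index (H1.IsPGroup.coprime_card P.isPGroup'
    (hM ▸ (Nat.coprime_primes (Nat.minFac_prime h2) hp.out).2 h3))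
  have h5 := ih _ (hn ▸ H1.card_lt_card_of_ne_top (H := M) (fun e => (Nat.minFac_prime h2).ne_one
    (by rw [← hM, e, Subgroup.index_top]))) M rfl (hered h M)
    (fun q hq h => hmax q hq (h.trans (Subgroup.card_subgroup_dvd_card M))) (P.subtype h4)
  exact H1.normal_of_sylowOf_of_le_normalizer
    (H1.IsPiHallOf.of_le (H1.isPiHallOf_sylow_top P) h4 le_top)
    ((Subgroup.normal_subgroupOf_iff_le_normalizer h4).1 h5)

/-- If each subgroup of a finite group satisfies the converse of Lagrange's theorem, then a Sylow subgroup for the largest prime dividing the group order is normal. -/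
theorem result {G : Type*} [Group G] [Finite G] (h : ∀ H : Subgroup G, Cfsg.HasSubgroupOfEveryOrder H) (p : ℕ) [Fact p.Prime] (hdvd : p ∣ Nat.card G) (hmax : ∀ q : ℕ, q.Prime → q ∣ Nat.card G → q ≤ p) (P : Sylow p G) : (P : Subgroup G).Normal := by
  exact aux p _ G rfl h hmax P

end Cfsg.Agent.S0532
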