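import Cfsg.Statements.S0533
import Cfsg.Agent.H1.Super
import Cfsg.Agent.S0532

set_option autoImplicit false
open Cfsg

namespace Cfsg.Agent.S0533

universe u

theorem aux (n : ℕ) : ∀ (G : Type u) [Group G] [Finite G],
    Nat.card G = n → (∀ H : Subgroup G, Cfsg.HasSubgroupOfEveryOrder H) → H1.SupS G := by
  induction n using Nat.strong_induction_on with
  | _ n ih =>
  intro G _ _ hn h
  rcases subsingleton_or_nontrivial G with hG | hG
  · exact H1.supS_of_subsingleton
  obtain ⟨p, hp, h1, h2⟩ := H1.exists_max_prime_dvd (Nat.card_pos (α := G)).ne'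
    Finite.one_lt_card.ne'
  have := Fact.mk hp
  obtain ⟨P⟩ : Nonempty (Sylow p G) := inferInstance
  have hP := S0532.result h p h1 h2 P
  obtain ⟨M, hM⟩ := S0532.exists_index h h1
  have h3 := ih _ (hn ▸ H1.card_lt_card_of_ne_top (H := M) (fun e => hp.ne_one
    (by rw [← hM, e, Subgroup.index_top]))) M rfl (S0532.hered h M)
  have h4 : (P : Subgroup G) ⊔ M = ⊤ := (H9.isCoatom_of_index_eq_prime hM).2 _
    (right_lt_sup.2 fun e => P.not_dvd_index (hM.symm.dvd.trans (Subgroup.index_dvd_of_le e)))
  have h5 : ((P : Subgroup G) ⊓ M).relIndex P = p := by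
    have e1 := H1.card_sup_mul_card_inf_normal M P
    rw [sup_comm, h4, Subgroup.card_top, ← M.card_mul_index, hM, inf_comm,
      ← H1.card_mul_relIndex (inf_le_left : (P : Subgroup G) ⊓ M ≤ P), mul_assoc,
      mul_right_inj' Nat.card_pos.ne', mul_comm p, mul_right_inj' Nat.card_pos.ne'] at e1
    exact e1.symm
  have h6 : ((P : Subgroup G) ⊓ M).Normal := by
    rw [← Subgroup.normalizer_eq_top_iff, eq_top_iff, ← h4]
    exact sup_le (H1.le_normalizer_of_relIndex_prime P.isPGroup'.isNilpotent inf_le_left (h5.symm ▸ hp))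
      (H1.le_normalizer_inf Subgroup.le_normalizer_of_normal Subgroup.le_normalizer)
  have h7 : H1.SupS (G ⧸ (P : Subgroup G)) :=
    h3.of_surjective ((QuotientGroup.mk' _).comp M.subtype) (by
      rw [← MonoidHom.range_eq_top, MonoidHom.range_comp, Subgroup.range_subtype,
        ← Subgroup.map_top_of_surjective _ (QuotientGroup.mk'_surjective (P : Subgroup G)), ← h4,
        Subgroup.map_sup, QuotientGroup.map_mk'_self, bot_sup_eq])
  have hs := QuotientGroup.mk'_surjective ((P : Subgroup G) ⊓ M)
  have := hP.map _ hs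
  exact H1.supS_of_supplement P M (P ⊓ M) P.isPGroup'.isNilpotent h4 inf_le_right h3
    (H1.supS_of_prime_quotient ((P : Subgroup G).map (QuotientGroup.mk' _))
      (by rwa [H1.card_map_mk'_eq_relIndex, h5]) (h7.quotient_map hs _ le_rfl))

/-- If every subgroup of a finite group has subgroups of all orders dividing its order, then the group is supersolvable. -/
theorem result {G : Type*} [Group G] [Finite G] (h : ∀ H : Subgroup G, Cfsg.HasSubgroupOfEveryOrder H) : Cfsg.IsSupersolvable G := by
  exact H1.isSupersolvable_iff_supS.2 (aux _ G rfl h)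

end Cfsg.Agent.S0533
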