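import Cfsg.Statements.S0534
import Cfsg.Agent.H1.Super

set_option autoImplicit false
open Cfsg

namespace Cfsg.Agent.S0534

/-- Let G be a finite solvable group and A a finite abelian group such that every prime dividing the order of A divides the order of G and, for each prime p dividing the order of G, the exponent of p in the order of A is one less than its exponent in the order of G. Then G × A has a subgroup of every order dividing its order. -/
theorem result {G A : Type*} [Group G] [CommGroup A] [Finite G] [Finite A] [Group.IsSolvable G] (hA : ∀ p : ℕ, p.Prime → p ∣ Nat.card A → p ∣ Nat.card G) (hexp : ∀ p : ℕ, p.Prime → p ∣ Nat.card G → (Nat.card A).factorization p + 1 = (Nat.card G).factorization p) : Cfsg.HasSubgroupOfEveryOrder (G × A) := by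
  intro d hd
  rw [Nat.card_prod] at hd
  have hG0 : Nat.card G ≠ 0 := Nat.card_pos.ne'
  have hA0 : Nat.card A ≠ 0 := Nat.card_pos.ne'
  have hd0 : d ≠ 0 := ne_zero_of_dvd_ne_zero (mul_ne_zero hG0 hA0) hd
  obtain ⟨H, hH⟩ := (H1.hallOK_of_isSolvable
    {p | (Nat.card G).factorization p ≤ d.factorization p} (X := G) inferInstance).exists_isPiHall
  rw [H1.isPiHall_iff] at hH
  have hH0 : Nat.card H ≠ 0 := Nat.card_pos.ne'
  have h1 : ∀ p : ℕ, (Nat.card H).factorization p + H.index.factorization p =
      (Nat.card G).factorization p := fun p => by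
    rw [← H.card_mul_index, Nat.factorization_mul hH0 Subgroup.FiniteIndex.index_ne_zero]; rfl
  have h2 : ∀ p : ℕ, p.Prime → (Nat.card G).factorization p ≤ d.factorization p →
      (Nat.card H).factorization p = (Nat.card G).factorization p := fun p hp h => by
    rw [← h1, Nat.factorization_eq_zero_of_not_dvd fun e => hH.2 p hp e h, add_zero]
  have h3 : ∀ p : ℕ, p.Prime → ¬ (Nat.card G).factorization p ≤ d.factorization p →
      (Nat.card H).factorization p = 0 := fun p hp h =>
    Nat.factorization_eq_zero_of_not_dvd fun e => h (hH.1 p hp e)
  obtain ⟨e, he⟩ : Nat.card H ∣ d := by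
    rw [← Nat.factorization_prime_le_iff_dvd hH0 hd0]
    intro p hp
    by_cases h : (Nat.card G).factorization p ≤ d.factorization p
    · rwa [h2 p hp h]
    · rw [h3 p hp h]; exact Nat.zero_le _
  have he0 : e ≠ 0 := by rintro rfl; exact hd0 (by simpa using he)
  have h4 : e ∣ Nat.card A := by
    rw [← Nat.factorization_prime_le_iff_dvd he0 hA0]
    intro p hp
    have e1 : d.factorization p = (Nat.card H).factorization p + e.factorization p := by
      rw [he, Nat.factorization_mul hH0 he0]; rfl
    have e2 : d.factorization p ≤ (Nat.card G).factorization p + (Nat.card A).factorization p := by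
      have := (Nat.factorization_prime_le_iff_dvd hd0 (mul_ne_zero hG0 hA0)).2 hd p hp
      rwa [Nat.factorization_mul hG0 hA0] at this
    by_cases h : (Nat.card G).factorization p ≤ d.factorization p
    · have := h2 p hp h; omega
    · have := h3 p hp h
      have := hexp p hp (Nat.dvd_of_factorization_pos (by omega))
      omega
  obtain ⟨B, hB⟩ := (H1.supS_of_isNilpotent (G := A) inferInstance).hasSubgroupOfEveryOrder e h4
  exact ⟨H.prod B, by rw [Nat.card_congr (H.prodEquiv B).toEquiv, Nat.card_prod, hB, he]⟩

end Cfsg.Agent.S0534
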