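import Cfsg.Statements.S0535
import Cfsg.Agent.H1.Factor

set_option autoImplicit false
open Cfsg

namespace Cfsg.Agent.S0535

/-- Suppose that for every nontrivial subgroup H of a finite group and every prime p dividing the order of H there is a proper subgroup of H whose index in H is a power of p. Then the group is solvable. -/
theorem result {G : Type*} [Group G] [Finite G] (h : ∀ H : Subgroup G, H ≠ ⊥ → ∀ p : ℕ, p.Prime → p ∣ Nat.card H → ∃ K : Subgroup H, K ≠ ⊤ ∧ ∃ k : ℕ, K.index = p ^ k) : Group.IsSolvable G := by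
  refine H1.isSolvable_of_forall_exists_isPiHall_compl fun p hp => ?_
  obtain ⟨K, h1, -, hmin⟩ := H1.exists_minimal_le (fun K : Subgroup G => H1.IsPiNat {p} K.index)
    (N := ⊤) (by simpa using H1.IsPiNat.one _)
  refine ⟨K, H1.isPiHall_iff.2 ⟨(H1.isPiNat_compl_singleton_iff hp).2
    (hp.coprime_iff_not_dvd.2 fun hd => ?_).symm, by rwa [compl_compl]⟩⟩
  obtain ⟨L, h2, k, hk⟩ := h K (by rintro rfl; exact hp.not_dvd_one (by simpa using hd)) p hp hd
  have h3 := hmin (L.map K.subtype) (by
    rw [Subgroup.index_map_subtype]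
    exact ((H1.isPiNat_singleton_iff hp Subgroup.FiniteIndex.index_ne_zero).2 ⟨k, hk⟩).mul h1)
    (Subgroup.map_subtype_le _)
  exact h2 (Subgroup.map_injective K.subtype_injective (by
    rw [h3, ← MonoidHom.range_eq_map, Subgroup.range_subtype]))

end Cfsg.Agent.S0535
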