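import Cfsg.Statements.S0537
import Cfsg.Agent.H1.Prim

set_option autoImplicit false
open Cfsg

namespace Cfsg.Agent.S0537

/-- A finite non-abelian group in which every proper subgroup is abelian is either of prime-power order, or is generated by a cyclic Sylow p-subgroup and a normal Sylow q-subgroup that is elementary abelian, for distinct primes p and q. -/
theorem result {G : Type*} [Group G] [Finite G] (hna : ¬ IsMulCommutative G) (h : ∀ H : Subgroup G, H ≠ ⊤ → IsMulCommutative H) : (∃ p : ℕ, p.Prime ∧ IsPGroup p G) ∨ ∃ p q : ℕ, p.Prime ∧ q.Prime ∧ p ≠ q ∧ ∃ (P : Sylow p G) (Q : Sylow q G), IsCyclic P ∧ (Q : Subgroup G).Normal ∧ Cfsg.IsElementaryAbelian q (Q : Subgroup G) ∧ (P : Subgroup G) ⊔ Q = ⊤ := by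
  by_cases hn : Group.IsNilpotent G
  · left
    by_contra hcon
    push Not at hcon
    have := H1.isMulCommutative_of_isNilpotent (H := (⊤ : Subgroup G)) inferInstance
      fun p P hp _ hP => h P (by rintro rfl; exact hcon p hp (hP.of_equiv Subgroup.topEquiv))
    exact hna ⟨⟨fun a b => H1.isMulCommutative_iff'.1 this a trivial b trivial⟩⟩
  right
  obtain ⟨p, q, hp, hq, h1, P, Q, g, h2, h3, h4, h5⟩ := H1.minimal_non_nilpotent hn
    fun H hH => H1.isNilpotent_of_comm (h H hH)
  have := Fact.mk hp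
  have := Fact.mk hq
  have hQ : IsMulCommutative (Q : Subgroup G) := h _ fun e => hn (by
    have := Q.isPGroup'.isNilpotent
    rw [e] at this
    exact Group.nilpotent_of_mulEquiv Subgroup.topEquiv)
  have hc : (Nat.card (P : Subgroup G)).Coprime (Nat.card (Q : Subgroup G)) :=
    IsPGroup.coprime_card_of_ne p q h1 _ _ P.isPGroup' Q.isPGroup'
  refine ⟨p, q, hp, hq, h1, P, Q, (by rw [h2]; infer_instance : IsCyclic (P : Subgroup G)), h3,
    ⟨hQ, ?_⟩, h4⟩
  have h6 : H1.powKer (Q : Subgroup G) q ⊔ P = ⊤ := by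
    by_contra hne
    have h7 := H1.isMulCommutative_iff'.1 (h _ hne)
    refine h5 (H1.le_centralizer_of_prime_order (A := (P : Subgroup G))
      Subgroup.le_normalizer_of_normal hc (fun v hv h8 a ha => h7 a (Subgroup.mem_sup_right ha) v
        (Subgroup.mem_sup_left (H1.mem_powKer.2 ⟨hv, ?_⟩))) (h2 ▸ Subgroup.mem_zpowers g))
    have h9 : orderOf v = q := H1.isPiNat_card_singleton_iff.2 Q.isPGroup' _ h8
      (Subgroup.orderOf_dvd_natCard _ hv)
    rw [← h9, pow_orderOf_eq_one]
  have h7 := H1.sup_inf_assoc_of_le_normalizer (B := (P : Subgroup G))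
    (H1.powKer_le (Q : Subgroup G) q) (Or.inr (Subgroup.le_normalizer_of_normal.trans
      (H1.normalizer_le_normalizer_powKer _ _)))
  rw [h6, top_inf_eq, H1.inf_eq_bot_of_coprime' hc, sup_bot_eq] at h7
  exact fun x hx => (H1.mem_powKer.1 (h7.le hx)).2

end Cfsg.Agent.S0537
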