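import Cfsg.Statements.S0539
import Cfsg.Agent.H11.Join

set_option autoImplicit false
open Pointwise
open Cfsg

namespace Cfsg.Agent.S0539

theorem aux {G : Type*} [Group G] [Finite G] (L : Subgroup G) : ∀ (S S₀ : Set (Subgroup G)),
    (∀ U ∈ S, H10.SubnIn U L) → (∀ U ∈ S, ∀ g ∈ L, H10.cj g U ∈ S) → S₀ ⊂ S →
    ∃ X ∈ S, X ∉ S₀ ∧ X ≤ Subgroup.normalizer ((sSup S₀ : Subgroup G) : Set G) := by
  induction L using (wellFounded_lt (α := Subgroup G)).induction with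
  | _ L ih =>
  intro S S₀ hS hc h₀
  obtain ⟨X, hX, hX0⟩ := Set.exists_of_ssubset h₀
  have hY : H10.SubnIn (sSup S₀) L := H11.subnIn_sSup fun A hA => hS A (h₀.1 hA)
  by_cases hYL : sSup S₀ = L
  · exact ⟨X, hX, hX0, by rw [hYL]; exact (hS X hX).le.trans (H10.le_NN_self _)⟩
  obtain ⟨M, hYM, hML, hLM⟩ := hY.exists_normal hYL
  by_cases h1 : {U ∈ S | U ≤ M} ⊆ S₀
  · refine ⟨X, hX, hX0, (hS X hX).le.trans (H10.le_NN_of_cj_le fun g hg => ?_)⟩
    rw [sSup_eq_iSup, H10.cj_iSup]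
    refine iSup_le fun U => ?_
    rw [H10.cj_iSup]
    refine iSup_le fun hU => ?_
    have : H10.cj g U ∈ S₀ :=
      h1 ⟨hc U (h₀.1 hU) g hg, H10.cj_le_of_mem_NN (hLM hg) ((le_sSup hU).trans hYM)⟩
    exact le_iSup₂_of_le (f := fun (a : Subgroup G) (_ : a ∈ S₀) => a) _ this le_rfl
  · obtain ⟨Y, hY1, hY2, hY3⟩ := ih M hML {U ∈ S | U ≤ M} S₀
      (fun U hU => (hS U hU.1).of_le hU.2 hML.le)
      (fun U hU g hg => ⟨hc U hU.1 g (hML.le hg), H10.cj_le_of_mem hg hU.2⟩)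
      ⟨fun U hU => ⟨h₀.1 hU, (le_sSup hU).trans hYM⟩, h1⟩
    exact ⟨Y, hY1.1, hY2, hY3⟩

/-- Let S be a family of subnormal subgroups of a finite group that is closed under conjugation, and S₀ a proper subfamily. Then some member of S not in S₀ normalizes the join of S₀. -/
theorem result {G : Type*} [Group G] [Finite G] (S S₀ : Set (Subgroup G)) (hS : ∀ U ∈ S, U.IsSubnormal) (hconj : ∀ U ∈ S, ∀ g : G, MulAut.conj g • U ∈ S) (h₀ : S₀ ⊂ S) : ∃ X ∈ S, X ∉ S₀ ∧ X ≤ Subgroup.normalizer ((sSup S₀ : Subgroup G) : Set G) := by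
  exact aux ⊤ S S₀ (fun U hU => H10.subnIn_top.2 (hS U hU)) (fun U hU g _ => hconj U hU g) h₀

end Cfsg.Agent.S0539
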