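import Cfsg.Statements.S0540
import Cfsg.Agent.H1.Prim
import Cfsg.Agent.S0539

set_option autoImplicit false
open Pointwise
open Cfsg

namespace Cfsg.Agent.S0540

/-- A uniqueness lemma of zipper type. Let A be a subgroup of a finite group G and U a nonempty family of subgroups. For V in U write S(V) for the set of conjugates of A that lie in V and are subnormal in V. Assume: A belongs to S(V) for every V in U; a member of some S(W) that lies in V belongs to S(V); and for all V, W in U the normalizer of the join of S(V) ∩ S(W) lies in some member of U. Then U has a greatest element. -/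
theorem result {G : Type*} [Group G] [Finite G] (A : Subgroup G) (U : Set (Subgroup G)) (hU : U.Nonempty) (S : Subgroup G → Set (Subgroup G)) (hS : ∀ V B : Subgroup G, B ∈ S V ↔ (∃ g : G, B = MulAut.conj g • A) ∧ B ≤ V ∧ (B.subgroupOf V).IsSubnormal) (h1 : ∀ V ∈ U, A ∈ S V) (h2 : ∀ V ∈ U, ∀ W ∈ U, ∀ B ∈ S W, B ≤ V → B ∈ S V) (h3 : ∀ V ∈ U, ∀ W ∈ U, ∃ X ∈ U, Subgroup.normalizer ((sSup (S V ∩ S W) : Subgroup G) : Set G) ≤ X) : ∃ M ∈ U, ∀ V ∈ U, V ≤ M := by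
  have hle : ∀ V B, B ∈ S V → B ≤ V := fun V B h => ((hS V B).1 h).2.1
  have hcj : ∀ V, ∀ B ∈ S V, ∀ g ∈ V, H10.cj g B ∈ S V := by
    intro V B hB g hg
    obtain ⟨⟨x, rfl⟩, hB⟩ := (hS V B).1 hB
    exact (hS _ _).2 ⟨⟨g * x, H1.conj_smul_conj_smul g x A⟩,
      H10.SubnIn.cj_of_mem_NN hB (Subgroup.le_normalizer hg)⟩
  have h39 : ∀ V (S₀ : Set (Subgroup G)), S₀ ⊂ S V → ∃ X ∈ S V, X ∉ S₀ ∧
      X ≤ Subgroup.normalizer ((sSup S₀ : Subgroup G) : Set G) := fun V S₀ h =>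
    S0539.aux V (S V) S₀ (fun B hB => ((hS V B).1 hB).2) (hcj V) h
  have hmaxex : ∀ V ∈ U, ∃ M, (M ∈ U ∧ ∀ L ∈ U, M ≤ L → L = M) ∧ V ≤ M := fun V hV => by
    obtain ⟨M, h1, h2, h3⟩ := H1.exists_maximal_ge (· ∈ U) hV
    exact ⟨M, ⟨h1, h3⟩, h2⟩
  have hN : ∀ M, (M ∈ U ∧ ∀ L ∈ U, M ≤ L → L = M) →
      Subgroup.normalizer ((sSup (S M) : Subgroup G) : Set G) = M := by
    intro M hM
    obtain ⟨X, hX, h⟩ := h3 M hM.1 M hM.1
    rw [Set.inter_self] at h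
    have h4 : M ≤ Subgroup.normalizer ((sSup (S M) : Subgroup G) : Set G) := by
      refine H10.le_NN_of_cj_le fun g hg => ?_
      rw [H10.cj, (Subgroup.gc_map_comap _).l_sSup]
      exact iSup₂_le fun B hB => le_sSup (hcj M B hB g hg)
    exact le_antisymm (hM.2 X hX (h4.trans h) ▸ h) h4
  have hsub : ∀ M M', (M ∈ U ∧ ∀ L ∈ U, M ≤ L → L = M) → (M' ∈ U ∧ ∀ L ∈ U, M' ≤ L → L = M') →
      S M ⊆ S M' → M = M' := by
    intro M M' hM hM' h
    by_cases he : S M = S M'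
    · rw [← hN M hM, he, hN M' hM']
    obtain ⟨X, hX, hX0, hX1⟩ := h39 M' (S M) (lt_of_le_of_ne h he)
    exact (hX0 (h2 M hM.1 M' hM'.1 X hX (hN M hM ▸ hX1))).elim
  have huniq : ∀ (T : Set (Subgroup G)) (M M' : Subgroup G), (M ∈ U ∧ ∀ L ∈ U, M ≤ L → L = M) →
      (M' ∈ U ∧ ∀ L ∈ U, M' ≤ L → L = M') → S M ∩ S M' = T → M = M' := by
    intro T
    induction T using (wellFounded_gt (α := Set (Subgroup G))).induction with
    | _ T ih =>
    intro M M' hM hM' hT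
    by_contra hne
    obtain ⟨X, hX, hX0, hX1⟩ := h39 M T (lt_of_le_of_ne (hT ▸ Set.inter_subset_left) fun e =>
      hne (hsub M M' hM hM' (e ▸ hT ▸ Set.inter_subset_right)))
    obtain ⟨Y, hY, hY0, hY1⟩ := h39 M' T (lt_of_le_of_ne (hT ▸ Set.inter_subset_right) fun e =>
      hne (hsub M' M hM' hM (e ▸ hT ▸ Set.inter_subset_left)).symm)
    obtain ⟨W, hW, h⟩ := h3 M hM.1 M' hM'.1
    obtain ⟨L, hL, hWL⟩ := hmaxex W hW
    rw [hT] at h
    have hTL : T ⊆ S L := fun B hB => h2 L hL.1 M hM.1 B (hT ▸ hB : B ∈ S M ∩ S M').1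
      ((((le_sSup hB).trans Subgroup.le_normalizer).trans h).trans hWL)
    have e1 := ih _ (lt_of_le_of_ne (Set.subset_inter (hT ▸ Set.inter_subset_left) hTL) fun e =>
      hX0 (e ▸ ⟨hX, h2 L hL.1 M hM.1 X hX ((hX1.trans h).trans hWL)⟩)) M L hM hL rfl
    have e2 := ih _ (lt_of_le_of_ne (Set.subset_inter (hT ▸ Set.inter_subset_right) hTL) fun e =>
      hY0 (e ▸ ⟨hY, h2 L hL.1 M' hM'.1 Y hY ((hY1.trans h).trans hWL)⟩)) M' L hM' hL rfl
    exact hne (e1.trans e2.symm)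
  obtain ⟨V, hV⟩ := hU
  obtain ⟨M, hM, -⟩ := hmaxex V hV
  refine ⟨M, hM.1, fun W hW => ?_⟩
  obtain ⟨L, hL, hWL⟩ := hmaxex W hW
  exact huniq _ L M hL hM rfl ▸ hWL

end Cfsg.Agent.S0540
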