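import Cfsg.Statements.S0541
import Cfsg.Agent.H1.Prim
import Cfsg.Agent.S0539
import Cfsg.Agent.H10.Act

set_option autoImplicit false
open Pointwise
open Cfsg

namespace Cfsg.Agent.S0541

/-- Let Z and Y be subgroups of a finite group G and p a prime. Suppose that for every g in G the subgroup generated by the conjugates of g Z g⁻¹ under Y is a p-group. Then there is a Sylow p-subgroup P of G such that Y normalizes the subgroup generated by all conjugates of Z contained in P. -/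
theorem result {G : Type*} [Group G] [Finite G] (p : ℕ) [Fact p.Prime] (Z Y : Subgroup G) (h : ∀ g : G, IsPGroup p ↥(⨆ y ∈ Y, MulAut.conj (y * g) • Z)) : ∃ P : Sylow p G, Y ≤ Subgroup.normalizer ((⨆ g ∈ {g : G | MulAut.conj g • Z ≤ (P : Subgroup G)}, MulAut.conj g • Z : Subgroup G) : Set G) := by
  obtain ⟨W, ⟨hW1, hW2, hW3⟩, -, hmax⟩ := H1.exists_maximal_ge (fun W : Subgroup G =>
    IsPGroup p W ∧ Y ≤ Subgroup.normalizer (W : Set G) ∧
      W ≤ sSup {B | (∃ g : G, B = MulAut.conj g • Z) ∧ B ≤ W}) (N := ⊥)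
    ⟨IsPGroup.of_bot, Subgroup.le_normalizer_of_normal, bot_le⟩
  obtain ⟨P, hP⟩ := hW1.exists_le_sylow
  refine ⟨P, ?_⟩
  have hW4 : sSup {B | (∃ g : G, B = MulAut.conj g • Z) ∧ B ≤ W} = W :=
    le_antisymm (sSup_le fun B hB => hB.2) hW3
  by_cases he : ∀ g : G, MulAut.conj g • Z ≤ (P : Subgroup G) → MulAut.conj g • Z ≤ W
  · have : (⨆ g ∈ {g : G | MulAut.conj g • Z ≤ (P : Subgroup G)}, MulAut.conj g • Z) = W := by
      refine le_antisymm (iSup₂_le he) (hW3.trans (sSup_le ?_))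
      rintro B ⟨⟨g, rfl⟩, hB⟩
      exact le_iSup₂_of_le (f := fun (g : G) (_ : g ∈ {g : G | MulAut.conj g • Z ≤
        (P : Subgroup G)}) => MulAut.conj g • Z) g (hB.trans hP) le_rfl
    rwa [this]
  push Not at he
  obtain ⟨g, hg1, hg2⟩ := he
  obtain ⟨X, ⟨⟨x, rfl⟩, -⟩, hX2, hX3⟩ := S0539.aux (P : Subgroup G)
    {B | (∃ g : G, B = MulAut.conj g • Z) ∧ B ≤ P} {B | (∃ g : G, B = MulAut.conj g • Z) ∧ B ≤ W}
    (fun B hB => H10.subnIn_of_isPGroup P.isPGroup' hB.2)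
    (by
      rintro B ⟨⟨x, rfl⟩, hB⟩ g hg
      exact ⟨⟨g * x, H1.conj_smul_conj_smul g x Z⟩, H10.cj_le_of_mem hg hB⟩)
    ⟨fun B hB => ⟨hB.1, hB.2.trans hP⟩, fun h => hg2 (h ⟨⟨g, rfl⟩, hg1⟩).2⟩
  rw [hW4] at hX3
  set V : Subgroup G := ⨆ y ∈ Y, MulAut.conj (y * x) • Z with hV
  have hle : ∀ y ∈ Y, MulAut.conj (y * x) • Z ≤ V := fun y hy =>
    le_iSup₂_of_le (f := fun (y : G) (_ : y ∈ Y) => MulAut.conj (y * x) • Z) y hy le_rfl
  have hVW : V ≤ Subgroup.normalizer (W : Set G) := iSup₂_le fun y hy => by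
    rw [← H1.conj_smul_conj_smul, ← H1.mem_normalizer_iff_smul.1 (hW2 hy),
      H1.normalizer_conj_smul]
    exact Subgroup.map_mono hX3
  have hYV : Y ≤ Subgroup.normalizer (V : Set G) := by
    refine H10.le_NN_of_cj_le fun y hy => ?_
    rw [hV, H10.cj_iSup]
    refine iSup_le fun z => ?_
    rw [H10.cj_iSup]
    refine iSup_le fun hz => ?_
    have := hle _ (Y.mul_mem hy hz)
    rwa [mul_assoc, ← H1.conj_smul_conj_smul] at this
  have h5 := hmax (V ⊔ W) ⟨IsPGroup.to_sup_of_normal_right' (h x) hW1 hVW,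
    H1.le_normalizer_sup hYV hW2, sup_le (iSup₂_le fun y hy => le_sSup
      ⟨⟨_, rfl⟩, (hle y hy).trans le_sup_left⟩)
      (hW3.trans (sSup_le_sSup fun B hB => ⟨hB.1, hB.2.trans le_sup_right⟩))⟩ le_sup_right
  have h6 := hle 1 Y.one_mem
  rw [one_mul] at h6
  exact (hX2 ⟨⟨x, rfl⟩, h6.trans (le_sup_left.trans h5.le)⟩).elim

end Cfsg.Agent.S0541
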