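import Cfsg.Statements.S0546
import Cfsg.Agent.H1.SysNorm

set_option autoImplicit false
open Cfsg

namespace Cfsg.Agent.S0546

/-- The normal closure of a system normalizer of a finite solvable group is the whole group. -/
theorem result {G : Type*} [Group G] [Finite G] [Group.IsSolvable G] (K : Nat.Primes → Subgroup G) (hK : Cfsg.IsComplementSystem K) : Subgroup.normalClosure ((Cfsg.systemNormalizer K : Subgroup G) : Set G) = ⊤ := by
  set N := Subgroup.normalClosure ((Cfsg.systemNormalizer K : Subgroup G) : Set G)
  by_contra hne
  have : Nontrivial (G ⧸ N) := QuotientGroup.nontrivial_iff.2 hne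
  have hs := QuotientGroup.mk'_surjective N
  have h1 : N ⊔ commutator G ≠ ⊤ := fun e => by
    have h2 := congrArg (Subgroup.map (QuotientGroup.mk' N)) e
    rw [Subgroup.map_sup, QuotientGroup.map_mk'_self, bot_sup_eq, commutator_def,
      Subgroup.map_commutator, Subgroup.map_top_of_surjective _ hs] at h2
    exact (H1.commutator_self_lt (N := (⊤ : Subgroup (G ⧸ N))) inferInstance top_ne_bot).ne h2
  have h3 := (H1.isComplementSystem_iff_cs.1 hK).sup_systemNormalizer inferInstance
    (N ⊔ commutator G) le_top (by
      have := H1.isNilpotent_of_comm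
        (Subgroup.Normal.quotient_commutative_iff_commutator_le.2
          (le_sup_right : commutator G ≤ N ⊔ commutator G))
      infer_instance)
  rw [top_inf_eq, sup_eq_left.2 (Subgroup.le_normalClosure.trans le_sup_left)] at h3
  exact h1 h3

end Cfsg.Agent.S0546
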