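import Cfsg.Statements.S0547
import Cfsg.Agent.H1.Prim
import Cfsg.Agent.H25.Fix

set_option autoImplicit false
open Cfsg

namespace Cfsg.Agent.S0547

theorem reg {G : Type*} [Group G] {Ω : Type*} [MulAction G Ω] [FaithfulSMul G Ω] (M : Subgroup G)
    [IsMulCommutative M] [MulAction.IsPretransitive M Ω] (ω : Ω) {h : G}
    (hc : h ∈ Subgroup.centralizer (M : Set G)) (hh : h • ω = ω) : h = 1 := by
  apply eq_of_smul_eq_smul (α := Ω)
  intro x
  obtain ⟨m, rfl⟩ := MulAction.exists_smul_eq M ω x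
  rw [one_smul, Subgroup.smul_def, ← mul_smul, ← hc m m.2, mul_smul, hh]

/-- Let a finite solvable group G act faithfully and primitively on a set, and let M be a minimal normal subgroup of G. Then M is transitive with trivial point stabilizers, and the number of points equals the order of M, which is a prime power p ^ d with d ≥ 1. -/
theorem result {G : Type*} [Group G] [Finite G] [Group.IsSolvable G] {Ω : Type*} [Nonempty Ω] [MulAction G Ω] [FaithfulSMul G Ω] (hprim : MulAction.IsPreprimitive G Ω) (M : Subgroup G) [M.Normal] (hM : M ≠ ⊥) (hmin : ∀ K : Subgroup G, K.Normal → K ≤ M → K = ⊥ ∨ K = M) : MulAction.IsPretransitive M Ω ∧ (∀ ω : Ω, MulAction.stabilizer M ω = ⊥) ∧ ∃ p d : ℕ, p.Prime ∧ 0 < d ∧ Nat.card Ω = p ^ d ∧ Nat.card M = p ^ d := by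
  have ht := H25.normal_transitive_of_primitive (α := Ω) M hM
  obtain ⟨hc, p, hp, hx⟩ := H1.elementary_of_minimal_normal M inferInstance hM hmin
  have hs : ∀ ω : Ω, MulAction.stabilizer M ω = ⊥ := fun ω => eq_bot_iff.2 fun m hm =>
    Subgroup.mem_bot.2 (Subtype.ext (reg M ω (Subgroup.le_centralizer M m.2) hm))
  refine ⟨ht, hs, p, ?_⟩
  have := Fact.mk hp
  have hP : IsPGroup p M := fun g => ⟨1, Subtype.ext (by simpa using hx g g.2)⟩
  obtain ⟨d, hd⟩ := IsPGroup.iff_card.1 hP
  obtain ⟨ω⟩ := ‹Nonempty Ω›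
  refine ⟨d, hp, Nat.pos_of_ne_zero ?_, ?_, hd⟩
  · rintro rfl
    exact hM (Subgroup.card_eq_one.1 (by simpa using hd))
  · rw [← hd]
    exact (Nat.card_congr (Equiv.ofBijective _ (H25.bijective_smul_of_regular ω (hs ω)))).symm

end Cfsg.Agent.S0547
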