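import Cfsg.Statements.S0548
import Cfsg.Agent.S0547

set_option autoImplicit false
open Cfsg

namespace Cfsg.Agent.S0548

/-- Let a finite solvable group G act faithfully and primitively on a set, let M be a minimal normal subgroup and H the stabilizer of a point. Then H is a complement to M, no non-identity element of H centralizes M, and the only subgroups of M normalized by H are the trivial subgroup and M. -/
theorem result {G : Type*} [Group G] [Finite G] [Group.IsSolvable G] {Ω : Type*} [MulAction G Ω] [FaithfulSMul G Ω] (hprim : MulAction.IsPreprimitive G Ω) (M : Subgroup G) [M.Normal] (hM : M ≠ ⊥) (hmin : ∀ K : Subgroup G, K.Normal → K ≤ M → K = ⊥ ∨ K = M) (ω : Ω) : Subgroup.IsComplement' M (MulAction.stabilizer G ω) ∧ MulAction.stabilizer G ω ⊓ Subgroup.centralizer (M : Set G) = ⊥ ∧ ∀ K : Subgroup G, K ≤ M → MulAction.stabilizer G ω ≤ Subgroup.normalizer (K : Set G) → K = ⊥ ∨ K = M := by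
  have ht := H25.normal_transitive_of_primitive (α := Ω) M hM
  obtain ⟨hc, p, hp, hx⟩ := H1.elementary_of_minimal_normal M inferInstance hM hmin
  have h1 : MulAction.stabilizer G ω ⊓ Subgroup.centralizer (M : Set G) = ⊥ :=
    eq_bot_iff.2 fun h hh => Subgroup.mem_bot.2 (S0547.reg M ω hh.2 hh.1)
  have h2 : M ⊔ MulAction.stabilizer G ω = ⊤ := by
    rw [eq_top_iff]
    intro g _
    obtain ⟨m, hm⟩ := MulAction.exists_smul_eq M ω (g • ω)
    rw [← mul_inv_cancel_left (m : G) g]
    refine Subgroup.mul_mem_sup m.2 ?_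
    rw [MulAction.mem_stabilizer_iff, mul_smul, ← hm, Subgroup.smul_def, inv_smul_smul]
  have h3 : M ⊓ MulAction.stabilizer G ω = ⊥ := by
    rw [eq_bot_iff, ← h1]
    exact le_inf inf_le_right (inf_le_left.trans (Subgroup.le_centralizer M))
  refine ⟨H1.isComplement'_of_inf_sup h3 h2, h1, fun K hK hn => hmin K ?_ hK⟩
  exact H1.normal_of_sup_le_normalizer h2
    (((Subgroup.le_centralizer M).trans (Subgroup.centralizer_le hK)).trans
      (Subgroup.centralizer_le_normalizer _)) hn

end Cfsg.Agent.S0548
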