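import Cfsg.Statements.S0550
import Cfsg.Agent.H1.Prim

set_option autoImplicit false
open Cfsg

namespace Cfsg.Agent.S0550

/-- Let U be a maximal subgroup with trivial normal core in a finite group G, and A ≠ B two minimal normal subgroups. Then A is the centralizer of B and B that of A, U complements each of them, A and B are non-abelian, and A, B and (A ⊔ B) ∩ U are pairwise isomorphic. -/
theorem result {G : Type*} [Group G] [Finite G] (U : Subgroup G) (hU : IsCoatom U) (hcore : U.normalCore = ⊥) (A B : Subgroup G) [A.Normal] [B.Normal] (hA : A ≠ ⊥) (hB : B ≠ ⊥) (hAmin : ∀ K : Subgroup G, K.Normal → K ≤ A → K = ⊥ ∨ K = A) (hBmin : ∀ K : Subgroup G, K.Normal → K ≤ B → K = ⊥ ∨ K = B) (hAB : A ≠ B) : Subgroup.centralizer (B : Set G) = A ∧ Subgroup.centralizer (A : Set G) = B ∧ Subgroup.IsComplement' A U ∧ Subgroup.IsComplement' B U ∧ ¬ IsMulCommutative A ∧ Nonempty (A ≃* B) ∧ Nonempty (A ≃* ↥((A ⊔ B) ⊓ U)) := by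
  have h1 : A ⊓ B = ⊥ := (hAmin _ inferInstance inf_le_left).resolve_right fun e =>
    hAB ((hBmin A inferInstance (inf_eq_left.1 e)).resolve_left hA)
  have h2 := H1.le_centralizer_of_inf_eq_bot h1
  have h3 := Subgroup.le_centralizer_iff.1 h2
  have h4 := H1.eq_centralizer_of_corefree hU hcore hB hA h2
  have h5 := H1.eq_centralizer_of_corefree hU hcore hA hB h3
  have h6 := H1.isComplement'_of_corefree hU hcore hA hB h2
  have h7 := H1.isComplement'_of_corefree hU hcore hB hA h3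
  have key : ∀ X : Subgroup G, X.Normal → X ≤ A ⊔ B → Subgroup.IsComplement' X U →
      X ⊓ ((A ⊔ B) ⊓ U) = ⊥ ∧ X ⊔ ((A ⊔ B) ⊓ U) = A ⊔ B := fun X _ e1 e2 => by
    refine ⟨eq_bot_iff.2 ((inf_le_inf_left _ inf_le_right).trans e2.disjoint.le_bot), ?_⟩
    rw [inf_comm, ← H1.sup_inf_assoc_of_le_normalizer e1 (Or.inr Subgroup.le_normalizer_of_normal),
      e2.sup_eq_top, top_inf_eq]
  obtain ⟨a1, a2⟩ := key A inferInstance le_sup_left h6
  obtain ⟨b1, b2⟩ := key B inferInstance le_sup_right h7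
  obtain ⟨e₁⟩ := H1.nonempty_mulEquiv_of_sup_eq h1 a1 a2.symm
  obtain ⟨e₂⟩ := H1.nonempty_mulEquiv_of_sup_eq ((inf_comm _ _).trans h1) b1
    ((sup_comm _ _).trans b2.symm)
  refine ⟨h4.symm, h5.symm, h6, h7, fun h => hA ?_, ⟨e₂.trans e₁.symm⟩, ⟨e₂⟩⟩
  rw [← h1, h5, inf_eq_left.2 (Subgroup.le_centralizer_iff_isMulCommutative.2 h)]

end Cfsg.Agent.S0550
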