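import Cfsg.Statements.S0553
import Cfsg.Agent.H1.Prim

set_option autoImplicit false
open Cfsg

namespace Cfsg.Agent.S0553

universe u

theorem aux (n : ℕ) : ∀ (G : Type u) [Group G] [Finite G] [Group.IsSolvable G] [Nontrivial G],
    Nat.card G = n → (∀ M : Subgroup G, IsCoatom M → (Nat.card M).Coprime M.index) →
    ∃ p : ℕ, p.Prime ∧ p ∣ Nat.card G ∧ ∃ P : Subgroup G, Cfsg.IsPiHallOf {p} P ⊤ ∧ P.Normal := by
  induction n using Nat.strong_induction_on with
  | _ n ih =>
  intro G _ _ _ _ hn h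
  obtain ⟨N, p, hN, hN0, -, hp, hc, -, hP, hmin⟩ :=
    H1.exists_minimal_normal_elementary (⊤ : Subgroup G) inferInstance top_ne_bot
  have := Fact.mk hp
  by_cases h1 : N ≤ frattini G
  · have hs := QuotientGroup.mk'_surjective N
    have : Nontrivial (G ⧸ N) :=
      QuotientGroup.nontrivial_iff.2 (h1.trans_lt H1.frattini_lt_top).ne
    obtain ⟨q, hq, h2, Q, h3, h4⟩ := ih _ (hn ▸ H1.card_quotient_lt hN0) (G ⧸ N) rfl fun M hM => by
      have := h _ (Subgroup.isCoatom_comap_of_surjective hs hM)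
      rw [Subgroup.index_comap_of_surjective _ hs, H1.card_comap_mk'] at this
      exact this.coprime_mul_right
    have := Fact.mk hq
    obtain ⟨P, hP⟩ := H1.exists_sylowOf q (⊤ : Subgroup G)
    have h5 := H1.IsPiHallOf.map hP (QuotientGroup.mk' N)
    rw [Subgroup.map_top_of_surjective _ hs] at h5
    obtain ⟨g, -, hg⟩ := H1.sylowOf_conj h3 h5
    rw [H1.conj_smul_eq_of_normal] at hg
    have : (P ⊔ N).Normal := by
      rw [sup_comm, ← QuotientGroup.comap_map_mk', ← hg]; infer_instance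
    exact ⟨q, hq, h2.trans (H1.card_quotient_dvd N), P, hP,
      H1.normal_of_sup_normal_of_le_frattini h1 (H1.IsPiHallOf.of_le hP le_sup_left le_top)⟩
  · obtain ⟨M, hM, h2⟩ : ∃ M : Subgroup G, IsCoatom M ∧ ¬ N ≤ M := by
      by_contra hcon
      push Not at hcon
      exact h1 (le_iInf₂ hcon)
    have h3 := H1.isComplement'_of_coatom hmin hM h2
    have h4 := h M hM
    rw [h3.index_eq_card, ← h3.symm.index_eq_card] at h4
    obtain ⟨r, hr, h5⟩ := H1.exists_prime_dvd_card hN0
    obtain rfl : r = p := H1.isPiNat_card_singleton_iff.2 hP r hr h5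
    exact ⟨r, hr, h5.trans (Subgroup.card_subgroup_dvd_card N), N,
      H1.isPiHallOf_singleton_iff.2 ⟨le_top, hP, fun e => hr.ne_one
        (Nat.eq_one_of_dvd_coprimes h4 (by simpa using e) h5)⟩, hN⟩

/-- Let G be a nontrivial finite solvable group in which every maximal subgroup has order coprime to its index. Then for some prime p dividing the order of G the Sylow p-subgroups of G are normal. -/
theorem result {G : Type*} [Group G] [Finite G] [Group.IsSolvable G] [Nontrivial G] (h : ∀ M : Subgroup G, IsCoatom M → (Nat.card M).Coprime M.index) : ∃ p : ℕ, p.Prime ∧ p ∣ Nat.card G ∧ ∀ P : Sylow p G, (P : Subgroup G).Normal := by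
  obtain ⟨p, hp, h1, P, h2, h3⟩ := aux _ G rfl h
  have := Fact.mk hp
  refine ⟨p, hp, h1, fun Q => ?_⟩
  obtain ⟨g, -, hg⟩ := H1.sylowOf_conj h2 (H1.isPiHallOf_sylow_top Q)
  rw [H1.conj_smul_eq_of_normal] at hg
  exact hg ▸ h3

end Cfsg.Agent.S0553
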