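import Cfsg.Statements.S0554
import Cfsg.Agent.H1.SysNorm

set_option autoImplicit false
open Cfsg

namespace Cfsg.Agent.S0554

universe u

theorem move {G : Type*} [Group G] (N : Subgroup G) [hN : N.Normal] (t : ℕ) :
    ∀ (s : Fin t → G) (i : Fin t), ∀ n ∈ N, ∃ n' ∈ N,
      (List.ofFn s).prod * n = (List.ofFn (Function.update s i (s i * n'))).prod := by
  induction t with
  | zero => exact fun _ i => i.elim0
  | succ t ih =>
    intro s i n hn
    refine Fin.cases ?_ (fun j => ?_) i
    · refine ⟨_, hN.conj_mem n hn (List.ofFn fun i : Fin t => s i.succ).prod, ?_⟩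
      simp [List.ofFn_succ, mul_assoc]
    · obtain ⟨n', h1, h2⟩ := ih (fun i => s i.succ) j n hn
      refine ⟨n', h1, ?_⟩
      rw [List.ofFn_succ, List.ofFn_succ, List.prod_cons, List.prod_cons, mul_assoc, h2,
        Function.update_of_ne (Fin.succ_ne_zero j).symm]
      congr 3
      ext k
      by_cases h : k = j
      · subst h; simp
      · rw [Function.update_of_ne h, Function.update_of_ne ((Fin.succ_injective _).ne h)]

theorem aux (t : ℕ) (p : Fin t → ℕ) (hp : ∀ i, (p i).Prime) (n : ℕ) :
    ∀ (G : Type u) [Group G] [Finite G] [Group.IsSolvable G], Nat.card G = n →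
    (∀ q : ℕ, q.Prime → q ∣ Nat.card G → ∃ i, p i = q) → ∀ (S : Fin t → Subgroup G),
    (∀ i, Cfsg.IsPiHallOf {p i} (S i) ⊤) →
    ∀ g : G, ∃ s : (i : Fin t) → G, (∀ i, s i ∈ S i) ∧ g = (List.ofFn s).prod := by
  induction n using Nat.strong_induction_on with
  | _ n ih =>
  intro G _ _ _ hn hall S hS g
  rcases subsingleton_or_nontrivial G with h0 | h0
  · exact ⟨fun _ => 1, fun _ => one_mem _, Subsingleton.elim _ _⟩
  obtain ⟨N, q, hN, hN0, -, hq, -, -, hNq, -⟩ :=
    H1.exists_minimal_normal_elementary (⊤ : Subgroup G) inferInstance top_ne_bot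
  have := Fact.mk hq
  have hs := QuotientGroup.mk'_surjective N
  obtain ⟨i, rfl⟩ := hall q hq (by
    obtain ⟨r, hr, h1⟩ := H1.exists_prime_dvd_card hN0
    obtain rfl : r = q := H1.isPiNat_card_singleton_iff.2 hNq r hr h1
    exact h1.trans (Subgroup.card_subgroup_dvd_card N))
  obtain ⟨s, h1, h2⟩ := ih _ (hn ▸ H1.card_quotient_lt hN0) (G ⧸ N) rfl
    (fun q hq h => hall q hq (h.trans (H1.card_quotient_dvd N)))
    (fun i => (S i).map (QuotientGroup.mk' N))
    (fun i => Subgroup.map_top_of_surjective _ hs ▸ H1.IsPiHallOf.map (hS i) _) g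
  choose s' h3 h4 using h1
  have h5 : (List.ofFn s').prod⁻¹ * g ∈ N := by
    rw [← QuotientGroup.eq, h2]
    change QuotientGroup.mk' N _ = _
    rw [map_list_prod, List.map_ofFn]
    congr 2
    exact funext h4
  obtain ⟨n', h6, h7⟩ := move N t s' i _ h5
  refine ⟨_, fun j => ?_, by rw [← h7, mul_inv_cancel_left]⟩
  by_cases h : j = i
  · subst h
    rw [Function.update_self]
    exact mul_mem (h3 j) (H1.IsPiHallOf.le_of_normalizes (hS j) le_top
      Subgroup.le_normalizer_of_normal (H1.isPiNat_card_singleton_iff.2 hNq) h6)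
  · rw [Function.update_of_ne h]; exact h3 j

/-- Let G be a finite solvable group and let S assign to each of t distinct primes, including every prime divisor of the order of G, a Sylow subgroup of G. Then every element of G is a product s_0 s_1 ⋯ s_(t-1) with s_i in S i, the factors taken in the given order. -/
theorem result {G : Type*} [Group G] [Finite G] [Group.IsSolvable G] (t : ℕ) (p : Fin t → ℕ) (hp : ∀ i, (p i).Prime) (hinj : Function.Injective p) (hall : ∀ q : ℕ, q.Prime → q ∣ Nat.card G → ∃ i, p i = q) (S : (i : Fin t) → Sylow (p i) G) : ∀ g : G, ∃ s : (i : Fin t) → G, (∀ i, s i ∈ (S i : Subgroup G)) ∧ g = (List.ofFn s).prod := by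
  exact aux t p hp _ G rfl hall (fun i => S i) fun i =>
    haveI := Fact.mk (hp i)
    H1.isPiHallOf_sylow_top (S i)

end Cfsg.Agent.S0554
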