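import Cfsg.Statements.S0555
import Cfsg.Agent.H1.Super
import Cfsg.Agent.H9.Metacyc

set_option autoImplicit false
open Cfsg

namespace Cfsg.Agent.S0555

theorem gen {G H : Type*} [Group G] [Group H] {A B : Subgroup G} [B.Normal] (hBA : B ≤ A)
    (h : IsCyclic (A ⧸ B.subgroupOf A)) (f : G →* H) :
    ∃ a : H, A.map f = B.map f ⊔ Subgroup.zpowers a := by
  obtain ⟨a, ha⟩ := H9.exists_sup_of_isCyclic_quotient h
  refine ⟨f a, ?_⟩
  have := congrArg (Subgroup.map A.subtype) ha
  rw [Subgroup.map_sup, Subgroup.map_subgroupOf_eq_of_le hBA, MonoidHom.map_zpowers,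
    ← MonoidHom.range_eq_map, Subgroup.range_subtype] at this
  have h2 := congrArg (Subgroup.map f) this
  rw [Subgroup.map_sup, MonoidHom.map_zpowers] at h2
  exact h2.symm

/-- Let i ≥ 1. If in the derived series of a group the quotient of the i-th term by the (i+1)-st and the quotient of the (i+1)-st by the (i+2)-nd are both cyclic, then the (i+1)-st and (i+2)-nd terms coincide. -/
theorem result {G : Type*} [Group G] (i : ℕ) (hi : 1 ≤ i) (h₁ : IsCyclic (↥(derivedSeries G i) ⧸ (derivedSeries G (i + 1)).subgroupOf (derivedSeries G i))) (h₂ : IsCyclic (↥(derivedSeries G (i + 1)) ⧸ (derivedSeries G (i + 2)).subgroupOf (derivedSeries G (i + 1)))) : derivedSeries G (i + 1) = derivedSeries G (i + 2) := by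
  refine le_antisymm ?_ (derivedSeries_antitone G (Nat.le_succ _))
  set C := derivedSeries G (i + 2) with hC
  obtain ⟨a, ha⟩ := gen (derivedSeries_antitone G (Nat.le_succ _)) h₁ (QuotientGroup.mk' C)
  obtain ⟨b, hb⟩ := gen (derivedSeries_antitone G (Nat.le_succ _)) h₂ (QuotientGroup.mk' C)
  rw [← hC, QuotientGroup.map_mk'_self, bot_sup_eq] at hb
  have hs := QuotientGroup.mk'_surjective C
  have h1 : ((derivedSeries G (i + 1)).map (QuotientGroup.mk' C)).Normal :=
    (derivedSeries_normal G _).map _ hs
  have h2 : IsCyclic ((derivedSeries G (i + 1)).map (QuotientGroup.mk' C)) := by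
    rw [hb]; infer_instance
  have h3 := H1.commutator_le_centralizer_of_isCyclic
    ((derivedSeries G (i + 1)).map (QuotientGroup.mk' C))
  have h4 : (derivedSeries G i).map (QuotientGroup.mk' C) ≤ commutator (G ⧸ C) := by
    refine (Subgroup.map_mono (derivedSeries_antitone G hi)).trans ?_
    rw [derivedSeries_one, commutator_def, Subgroup.map_commutator]
    exact Subgroup.commutator_mono le_top le_top
  have h5 := h4.trans h3
  rw [← H1.map_mk'_eq_bot_iff, derivedSeries_succ, Subgroup.map_commutator,
    Subgroup.commutator_eq_bot_iff_le_centralizer]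
  generalize (derivedSeries G i).map (QuotientGroup.mk' C) = A at ha h5 ⊢
  generalize (derivedSeries G (i + 1)).map (QuotientGroup.mk' C) = B at ha h5
  subst ha
  refine sup_le (Subgroup.le_centralizer_iff.1 h5) (Subgroup.le_centralizer_iff.1 (sup_le ?_ ?_))
  · exact Subgroup.le_centralizer_iff.1 (le_sup_right.trans h5)
  · exact Subgroup.le_centralizer _

end Cfsg.Agent.S0555
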