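import Cfsg.Statements.S0557
import Cfsg.Agent.H1.Prim
import Cfsg.Agent.H3.Transfer

set_option autoImplicit false
open Cfsg

namespace Cfsg.Agent.S0557

theorem foc_map_le {G H : Type*} [Group G] [Group H] (f : G →* H) {X : Subgroup G}
    {Y : Subgroup H} (h : X.map f ≤ Y) : X.focalSubgroup.map f ≤ Y.focalSubgroup := by
  rw [Subgroup.focalSubgroup_def, MonoidHom.map_closure, Subgroup.closure_le]
  rintro _ ⟨g, ⟨hg, x, hx, u, rfl⟩, rfl⟩
  exact Subgroup.subset_closure ⟨h (Subgroup.mem_map_of_mem f hg), f x,
    h (Subgroup.mem_map_of_mem f hx), f u, map_commutatorElement f x u⟩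

theorem iter_map_le {G H : Type*} [Group G] [Group H] (f : G →* H) (n : ℕ) {X : Subgroup G}
    {Y : Subgroup H} (h : X.map f ≤ Y) :
    ((fun K : Subgroup G => Subgroup.focalSubgroup K)^[n] X).map f ≤
      (fun K : Subgroup H => Subgroup.focalSubgroup K)^[n] Y := by
  induction n with
  | zero => exact h
  | succ n ih =>
    rw [Function.iterate_succ_apply', Function.iterate_succ_apply']
    exact foc_map_le f ih

theorem char_of_hall {G : Type*} [Group G] [Finite G] (N : Subgroup G) [N.Normal]
    (h : (Nat.card N).Coprime N.index) : N.Characteristic := by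
  rw [Subgroup.characteristic_iff_map_le]
  intro φ
  refine H1.le_of_coprime_index ?_
  rwa [Subgroup.card_map_of_injective φ.injective]

/-- Let H be a subgroup of a finite group G with order coprime to its index. If iterating the focal-subgroup construction starting from H reaches the trivial subgroup after finitely many steps, then H has a normal complement in G. -/
theorem result {G : Type*} [Group G] [Finite G] (H : Subgroup G) (hHall : (Nat.card H).Coprime H.index) (n : ℕ) (hfoc : (fun K : Subgroup G => Subgroup.focalSubgroup K)^[n] H = ⊥) : ∃ N : Subgroup G, N.Normal ∧ Subgroup.IsComplement' N H := by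
  induction n generalizing G with
  | zero =>
    obtain rfl : H = ⊥ := hfoc
    exact ⟨⊤, inferInstance, Subgroup.isComplement'_top_bot⟩
  | succ n ih =>
    have h0 := H3.coprime_card_quotient_focal_of_hall hHall
    have h1 := H3.ker_transferFocal_inf_of_coprime h0
    have h2 := H3.ker_transferFocal_sup_of_coprime h0
    generalize hT : H.transferFocal.ker = T at h1 h2
    have : T.Normal := hT ▸ inferInstance
    have h3 : (H.subgroupOf T).index = H.index := by
      have := H1.relIndex_sup_of_le_normalizer (H := H) (N := T) Subgroup.le_normalizer_of_normal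
      have e1 := Subgroup.relIndex_mul_index (inf_le_left : T ⊓ H ≤ T)
      have e2 := Subgroup.relIndex_mul_index (inf_le_right : T ⊓ H ≤ H)
      rw [sup_comm, h2, Subgroup.relIndex_top_right] at this
      rw [Subgroup.inf_relIndex_right, ← this, ← e1, Subgroup.inf_relIndex_left, mul_comm] at e2
      exact (Nat.eq_of_mul_eq_mul_right (Nat.pos_of_ne_zero Subgroup.FiniteIndex.index_ne_zero)
        e2).symm
    have h4 : Nat.card (H.subgroupOf T) ∣ Nat.card H := by
      rw [← Subgroup.card_map_of_injective T.subtype_injective, Subgroup.subgroupOf_map_subtype]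
      exact Subgroup.card_dvd_of_le inf_le_left
    have h5 : (Nat.card (H.subgroupOf T)).Coprime (H.subgroupOf T).index :=
      h3 ▸ hHall.coprime_dvd_left h4
    obtain ⟨N, hN, hc⟩ := ih (H.subgroupOf T) h5 (by
      rw [← Subgroup.map_eq_bot_iff_of_injective _ T.subtype_injective, eq_bot_iff, ← hfoc,
        Function.iterate_succ_apply]
      refine iter_map_le _ n ?_
      rw [Subgroup.subgroupOf_map_subtype, inf_comm, h1])
    have := char_of_hall N (by rw [hc.symm.index_eq_card, ← hc.index_eq_card]; exact h5.symm)
    refine ⟨N.map T.subtype, H1.normal_map_char T N, ?_⟩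
    have h6 : Nat.card (N.map T.subtype) = H.index := by
      rw [Subgroup.card_map_of_injective T.subtype_injective, ← h3, hc.index_eq_card]
    exact (H1.isComplement'_of_card_eq_index hHall h6).symm

end Cfsg.Agent.S0557
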