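import Cfsg.Statements.S0558
import Cfsg.Agent.H1.Prim
import Cfsg.Agent.H3.Transfer
import Cfsg.Agent.H3.SylowIn
import Cfsg.Agent.H6.Count
import Cfsg.Agent.H6.Klein

set_option autoImplicit false
open Cfsg

namespace Cfsg.Agent.S0558

/-- Let H be a subgroup of a finite group G that is not a Sylow subgroup of G for any prime, and suppose that for every prime p dividing the order of H and every Sylow p-subgroup P of H the normalizer of P in G is exactly H. Then some normal subgroup of G is a complement to H. -/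
theorem result {G : Type*} [Group G] [Finite G] (H : Subgroup G) (hnot : ∀ p : ℕ, p.Prime → ∀ P : Sylow p G, (P : Subgroup G) ≠ H) (hnorm : ∀ p : ℕ, p.Prime → p ∣ Nat.card H → ∀ P : Sylow p H, Subgroup.normalizer (((P : Subgroup H).map H.subtype : Subgroup G) : Set G) = H) : ∃ N : Subgroup G, N.Normal ∧ Subgroup.IsComplement' N H := by
  have hn : ∀ p : ℕ, p.Prime → p ∣ Nat.card H → ∀ P : Sylow p H, (P : Subgroup H).Normal :=
    fun p hp hd P => H1.le_normalizer_map_subtype_iff.1 (hnorm p hp hd P).ge
  have key : ∀ (p : ℕ) [Fact p.Prime], p ∣ Nat.card H →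
      ∃ S : Sylow p G, Subgroup.normalizer ((S : Subgroup G) : Set G) = H := by
    intro p hp hd
    obtain ⟨P⟩ : Nonempty (Sylow p H) := inferInstance
    have h1 := hnorm p hp.out hd P
    have h2 := hn p hp.out hd P
    obtain ⟨S, hS⟩ := H6.exists_sylow_eq_of_normalizer (P.isPGroup'.map H.subtype) (by
      rintro x hx ⟨k, hk⟩
      rw [h1] at hx
      exact ⟨⟨x, hx⟩, H6.mem_sylow_of_normalizer P (Subtype.ext hk)
        (Subgroup.le_normalizer_of_normal (Subgroup.mem_top _)), rfl⟩)
    exact ⟨S, by rw [hS, h1]⟩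
  have hnil : Group.IsNilpotent H := H1.isNilpotent_of_sylow_normal fun p hp P => by
    by_cases hd : p ∣ Nat.card H
    · exact hn p hp.out hd P
    · have : (P : Subgroup H) = ⊥ := by
        obtain ⟨k, hk⟩ := IsPGroup.iff_card.1 P.isPGroup'
        rcases k with _ | k
        · exact Subgroup.card_eq_one.1 (by simpa using hk)
        · exact (hd ((dvd_pow_self p k.succ_ne_zero).trans
            (hk ▸ Subgroup.card_subgroup_dvd_card _))).elim
      rw [this]; infer_instance
  refine H3.exists_normal_complement_of_forall_prime ?_ fun p hp hd => ?_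
  · refine Nat.coprime_of_dvd fun r hr h1 h2 => ?_
    have := Fact.mk hr
    obtain ⟨S, hS⟩ := key r h1
    exact S.not_dvd_index (h2.trans (Subgroup.index_dvd_of_le (hS ▸ Subgroup.le_normalizer)))
  · have := Fact.mk hp
    obtain ⟨S, hS⟩ := key p hd
    have hSH : (S : Subgroup G) ≤ H := hS ▸ Subgroup.le_normalizer
    obtain ⟨q, hq, hqd, hqp⟩ : ∃ q : ℕ, q.Prime ∧ q ∣ Nat.card H ∧ q ≠ p := by
      by_contra! hc
      have h1 : IsPGroup p H := H1.isPiNat_card_singleton_iff.1 fun q hq hd => hc q hq hd
      exact hnot p hp S (S.3 h1 hSH).symm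
    have := Fact.mk hq
    obtain ⟨Q, hQ⟩ := key q hqd
    have hQH : (Q : Subgroup G) ≤ H := hQ ▸ Subgroup.le_normalizer
    have hc : (S : Subgroup G) ≤ Subgroup.centralizer ((Q : Subgroup G) : Set G) := by
      rw [← Subgroup.commutator_eq_bot_iff_le_centralizer, eq_bot_iff,
        ← (IsPGroup.disjoint_of_ne q p hqp _ _ Q.isPGroup' S.isPGroup').eq_bot]
      exact le_inf (Subgroup.le_normalizer_iff_commutator_le_right.1 (hQ ▸ hSH))
        (Subgroup.le_normalizer_iff_commutator_le_left.1 (hS ▸ hQH))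
    have hc' : ∀ x ∈ (S : Subgroup G), (Q : Subgroup G) ≤ Subgroup.centralizer {x} :=
      fun x hx y hy => Subgroup.mem_centralizer_singleton_iff.2 (hc hx y hy)
    refine H3.hasNormalPComplement_of_fusion_subgroup S hSH (fun x hx g hg => ?_)
      (H1.hasNormalPComplement_of_isNilpotent hnil p)
    obtain ⟨c, hc1, hc2⟩ := H3.exists_smul_eq_of_le Q (g⁻¹ • Q) (hc' x hx) (by
      intro y hy
      rw [Sylow.coe_subgroup_smul, H1.mem_conj_smul_iff, inv_inv] at hy
      have := Subgroup.mem_centralizer_singleton_iff.1 (hc' _ hg hy)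
      rw [Subgroup.mem_centralizer_singleton_iff]
      calc y * x = g⁻¹ * (g * y * g⁻¹ * (g * x * g⁻¹)) * g := by group
        _ = x * y := by rw [this]; group)
    refine ⟨g * c, ?_, ?_⟩
    · rw [← hQ]
      exact Sylow.smul_eq_iff_mem_normalizer.1 (by rw [mul_smul, hc2, smul_inv_smul])
    · have := Subgroup.mem_centralizer_singleton_iff.1 hc1
      calc g * x * g⁻¹ = g * (x * c) * (g * c)⁻¹ := by group
        _ = _ := by rw [← this]; group

end Cfsg.Agent.S0558
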