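import Cfsg.Statements.S0561
import Cfsg.Agent.H1.Factor

set_option autoImplicit false
open Pointwise
open Cfsg

namespace Cfsg.Agent.S0561

/-- Let the finite solvable group G be the product HK of subgroups, and let A be normal in H and B normal in K, where A and B are Hall subgroups of G (order coprime to index). Then for all x, y the product set of xAx⁻¹ and yBy⁻¹ is a subgroup of G. -/
theorem result {G : Type*} [Group G] [Finite G] [Group.IsSolvable G] (H K A B : Subgroup G) (hHK : ∀ g : G, ∃ h ∈ H, ∃ k ∈ K, g = h * k) (hA : A ≤ H) (hAn : (A.subgroupOf H).Normal) (hB : B ≤ K) (hBn : (B.subgroupOf K).Normal) (hAh : (Nat.card A).Coprime A.index) (hBh : (Nat.card B).Coprime B.index) (x y : G) : ∃ S : Subgroup G, (S : Set G) = ((MulAut.conj x • A : Subgroup G) : Set G) * ((MulAut.conj y • B : Subgroup G) : Set G) := by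
  have h := H1.isProd_top.2 hHK
  have hAn' := (Subgroup.normal_subgroupOf_iff_le_normalizer hA).1 hAn
  have hBn' := (Subgroup.normal_subgroupOf_iff_le_normalizer hB).1 hBn
  have hok := (H1.hallOK_of_isSolvable {p | p ∣ Nat.card A ∨ p ∣ Nat.card B} (X := G)
    inferInstance).top
  obtain ⟨R, hR, h1⟩ := hok.exists_ge (U := A) le_top fun p _ h => Or.inl h
  obtain ⟨g, -, h2⟩ := hok.exists_conj_le (U := B) le_top (fun p _ h => Or.inr h) hR
  obtain ⟨a, ha, b, hb, rfl⟩ := hHK g
  rw [← H1.conj_smul_conj_smul, H1.mem_normalizer_iff_smul.1 (hBn' hb),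
    H1.conj_smul_le_iff_le_inv] at h2
  rw [← H1.mem_normalizer_iff_smul.1 (hAn' ha), H1.conj_smul_le_iff_le_inv] at h1
  have h3 := H1.IsPiHallOf.isPiNat (H1.IsPiHallOf.conj hR a⁻¹)
  have h4 := H1.isProd_of_coprime h1 h2 (Nat.coprime_of_dvd fun p hp e1 e2 => by
    rcases h3 p hp (e1.trans (Subgroup.relIndex_dvd_card _ _)) with e | e
    · exact hp.ne_one (Nat.eq_one_of_dvd_coprimes hAh e
        (e1.trans (Subgroup.relIndex_dvd_index_of_le h1)))
    · exact hp.ne_one (Nat.eq_one_of_dvd_coprimes hBh e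
        (e2.trans (Subgroup.relIndex_dvd_index_of_le h2))))
  obtain ⟨c, hc, d, hd, e⟩ := h.exists_conj (Subgroup.mem_top x) (Subgroup.mem_top y)
  have h5 := h4.conj (x * c)
  conv at h5 => arg 3; rw [e]
  rw [← H1.conj_smul_conj_smul x c A, ← H1.conj_smul_conj_smul y d B,
    H1.mem_normalizer_iff_smul.1 (hAn' hc), H1.mem_normalizer_iff_smul.1 (hBn' hd)] at h5
  exact ⟨_, H1.isProd_iff_coe.1 h5⟩

end Cfsg.Agent.S0561
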