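import Cfsg.Statements.S0563
import Cfsg.Agent.H12.KW3
import Cfsg.Agent.S0561

set_option autoImplicit false
open Pointwise
open Cfsg

namespace Cfsg.Agent.S0563

open H16 in
theorem aux {G : Type*} [Group G] [Finite G] {A B P : Subgroup G} {p : ℕ}
    (hA : Group.IsNilpotent A) (hcop : (Nat.card A).Coprime (Nat.card B)) (h : H1.IsProd ⊤ A B)
    (hP : Sy[p] P A) : (P.subgroupOf A).Normal ∧ (Nat.card P).Coprime P.index := by
  refine ⟨(Subgroup.normal_subgroupOf_iff_le_normalizer hP.1).2
    ((le_norm _).trans (hl_nil_norm hA hP)), ?_⟩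
  rw [← Subgroup.relIndex_mul_index hP.1]
  refine Nat.Coprime.mul_right (hl_coprime hP) ?_
  refine Nat.Coprime.coprime_dvd_left (card_dvd hP.1) (Nat.Coprime.coprime_dvd_right ?_ hcop)
  rw [← Subgroup.relIndex_top_right, h.relIndex_eq]
  exact Subgroup.relIndex_dvd_card _ _

/-- If a finite group G is the product AB of two nilpotent subgroups of coprime orders, then G is solvable, and for every Sylow p-subgroup P of A and Sylow q-subgroup Q of B the product set PQ is a subgroup. -/
theorem result {G : Type*} [Group G] [Finite G] (A B : Subgroup G) (hA : Group.IsNilpotent A) (hB : Group.IsNilpotent B) (hcop : (Nat.card A).Coprime (Nat.card B)) (hAB : ∀ g : G, ∃ a ∈ A, ∃ b ∈ B, g = a * b) : Group.IsSolvable G ∧ ∀ (p q : ℕ) [Fact p.Prime] [Fact q.Prime] (P : Sylow p A) (Q : Sylow q B), ∃ S : Subgroup G, (S : Set G) = (((P : Subgroup A).map A.subtype : Subgroup G) : Set G) * (((Q : Subgroup B).map B.subtype : Subgroup G) : Set G) := by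
  have h := H1.isProd_top.2 hAB
  haveI := H12.KW.kw hA hB h
  refine ⟨inferInstance, fun p q _ _ P Q => ?_⟩
  have hP := H16.sy_of_sylow P
  have hQ := H16.sy_of_sylow Q
  have h1 := aux hA hcop h hP
  have h2 := aux hB hcop.symm h.symm hQ
  have := Cfsg.Agent.S0561.result A B _ _ hAB hP.1 h1.1 hQ.1 h2.1 h1.2 h2.2 1 1
  rwa [H1.conj_one_smul, H1.conj_one_smul] at this

end Cfsg.Agent.S0563
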