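import Cfsg.Statements.S0567
import Cfsg.Agent.H1.Prim
import Cfsg.Agent.H5.Wielandt

set_option autoImplicit false
open Cfsg

namespace Cfsg.Agent.S0567

/-- A subgroup H of a group G is subnormal exactly when, for some m, the subgroup obtained from G by taking the commutator with H m times in succession is contained in H. -/
theorem result {G : Type*} [Group G] (H : Subgroup G) : H.IsSubnormal ↔ ∃ m : ℕ, (fun K : Subgroup G => ⁅K, H⁆)^[m] ⊤ ≤ H := by
  constructor
  · intro h
    suffices ∀ K : Subgroup G, K.IsSubnormal → H ≤ K →
        ∃ m : ℕ, (fun K : Subgroup G => ⁅K, H⁆)^[m] ⊤ ≤ K from this H h le_rfl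
    intro K hK
    induction hK with
    | top => exact fun _ => ⟨0, le_top⟩
    | step L K hle _ hN ih =>
      intro hH
      obtain ⟨m, hm⟩ := ih (hH.trans hle)
      refine ⟨m + 1, ?_⟩
      rw [Function.iterate_succ_apply']
      refine (Subgroup.commutator_mono hm hH).trans ?_
      exact Subgroup.le_normalizer_iff_commutator_le_right.1
        ((Subgroup.normal_subgroupOf_iff_le_normalizer hle).1 hN)
  · rintro ⟨m, hm⟩
    suffices ∀ m : ℕ, (H ⊔ (fun K : Subgroup G => ⁅K, H⁆)^[m] ⊤).IsSubnormal by
      have := this m
      rwa [sup_eq_left.2 hm] at this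
    intro m
    induction m with
    | zero => simp
    | succ m ih =>
      rw [Function.iterate_succ_apply']
      generalize (fun K : Subgroup G => ⁅K, H⁆)^[m] ⊤ = K at ih
      have hle : H ⊔ ⁅K, H⁆ ≤ H ⊔ K := sup_le le_sup_left
        ((Subgroup.commutator_mono le_sup_right le_sup_left).trans (Subgroup.commutator_le_self _))
      refine Subgroup.IsSubnormal.step _ _ hle ih
        ((Subgroup.normal_subgroupOf_iff_le_normalizer hle).2 (sup_le
          (le_sup_left.trans Subgroup.le_normalizer) ?_))
      rw [Subgroup.commutator_comm, ← H5.ncl_eq_sup_commutator]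
      exact H5.right_le_normalizer_ncl H K

end Cfsg.Agent.S0567
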