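import Cfsg.Statements.S0568
import Cfsg.Agent.H1.SysNorm

set_option autoImplicit false
open Cfsg

namespace Cfsg.Agent.S0568

theorem aux {G : Type*} [Group G] [Finite G] [Group.IsSolvable G] (K : Nat.Primes → Subgroup G)
    (hK : H1.CS K ⊤) (B : Subgroup G) [B.Normal] (h0 : B ≠ ⊥)
    (hmin : ∀ N : Subgroup G, N.Normal → N ≤ B → N = ⊥ ∨ N = B)
    (hc : Subgroup.centralizer (B : Set G) ≠ ⊤) : B ⊓ Cfsg.systemNormalizer K = ⊥ := by
  obtain ⟨h1, p, hp, h2⟩ := H1.elementary_of_minimal_normal B inferInstance h0 hmin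
  have := Fact.mk hp
  have hB := H1.isPGroup_of_pow_eq_one h2
  set C := Subgroup.centralizer (B : Set G) with hC
  have : Nontrivial (G ⧸ C) := QuotientGroup.nontrivial_iff.2 hc
  have hs := QuotientGroup.mk'_surjective C
  obtain ⟨M, q, hM, hM0, -, hq, -, -, hMq, -⟩ :=
    H1.exists_minimal_normal_elementary (⊤ : Subgroup (G ⧸ C)) inferInstance top_ne_bot
  have := Fact.mk hq
  have h3 : B ⊓ Subgroup.centralizer (M.comap (QuotientGroup.mk' C) : Set G) = ⊥ := by
    refine (hmin _ inferInstance inf_le_left).resolve_right fun e => hM0 ?_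
    rw [← Subgroup.map_comap_eq_self_of_surjective hs M, H1.map_mk'_eq_bot_iff]
    exact Subgroup.le_centralizer_iff.1 (inf_eq_left.1 e)
  have key : ∀ U : Subgroup G, M ≤ U.map (QuotientGroup.mk' C) →
      B ⊓ Subgroup.centralizer (U : Set G) = ⊥ := fun U hU => by
    rw [eq_bot_iff, ← h3]
    refine le_inf inf_le_left (Subgroup.le_centralizer_iff.1 ((Subgroup.comap_mono hU).trans ?_))
    rw [QuotientGroup.comap_map_mk']
    exact sup_le (Subgroup.centralizer_le (inf_le_left : B ⊓ _ ≤ B))
      (Subgroup.le_centralizer_iff.1 inf_le_right)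
  have hall : ∀ {π : Set ℕ} {U : Subgroup G}, Cfsg.IsPiHallOf π U ⊤ → q ∈ π →
      M ≤ U.map (QuotientGroup.mk' C) := fun {π U} hU h =>
    H1.IsPiHallOf.le_of_normalizes
      (Subgroup.map_top_of_surjective _ hs ▸ H1.IsPiHallOf.map hU (QuotientGroup.mk' C)) le_top
      Subgroup.le_normalizer_of_normal
      ((H1.isPiNat_card_singleton_iff.2 hMq).mono (by simpa using h))
  by_cases hpq : q = p
  · subst hpq
    obtain ⟨P, hP⟩ := H1.exists_sylowOf q (⊤ : Subgroup G)
    exact (H1.inf_centralizer_ne_bot_of_isPGroup hB (H1.IsPiHallOf.isPGroup hP)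
      Subgroup.le_normalizer_of_normal h0 (key P (hall hP rfl))).elim
  rw [eq_bot_iff, ← key _ (hall (hK ⟨p, hp⟩) hpq), ← H1.inf_normalizer_eq_inf_centralizer
    Subgroup.le_normalizer_of_normal (H1.inf_eq_bot_of_coprime'
      ((H1.isPiNat_card_singleton_iff.2 hB).coprime (H1.IsPiHallOf.isPiNat (hK ⟨p, hp⟩))))]
  exact inf_le_inf_left _ (H1.systemNormalizer_le K _)

/-- Let D be the system normalizer of a Hall complement system of a finite solvable group G, and let A < B be normal subgroups with no normal subgroup of G strictly between them (a chief factor). If G centralizes B modulo A then B ≤ A ⊔ D (D covers the factor); otherwise B ∩ D ≤ A (D avoids it). -/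
theorem result {G : Type*} [Group G] [Finite G] [Group.IsSolvable G] (K : Nat.Primes → Subgroup G) (hK : Cfsg.IsComplementSystem K) (A B : Subgroup G) [A.Normal] [B.Normal] (hAB : A < B) (hchief : ∀ N : Subgroup G, N.Normal → A ≤ N → N ≤ B → N = A ∨ N = B) : (⁅B, (⊤ : Subgroup G)⁆ ≤ A → B ≤ A ⊔ Cfsg.systemNormalizer K) ∧ (¬ ⁅B, (⊤ : Subgroup G)⁆ ≤ A → B ⊓ Cfsg.systemNormalizer K ≤ A) := by
  have hs := QuotientGroup.mk'_surjective A
  have h := H1.isComplementSystem_iff_cs.1 hK
  have h1 := h.map (QuotientGroup.mk' A)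
  have h2 := h.map_systemNormalizer inferInstance (QuotientGroup.mk' A) le_top
  rw [Subgroup.map_top_of_surjective _ hs] at h1 h2
  rw [top_inf_eq, top_inf_eq] at h2
  have h3 : ⁅B, (⊤ : Subgroup G)⁆ ≤ A ↔
      Subgroup.centralizer (B.map (QuotientGroup.mk' A) : Set (G ⧸ A)) = ⊤ := by
    rw [← H1.map_mk'_eq_bot_iff, Subgroup.map_commutator, Subgroup.map_top_of_surjective _ hs,
      Subgroup.commutator_comm, Subgroup.commutator_eq_bot_iff_le_centralizer, top_le_iff]
  rw [h3]
  have := (inferInstance : B.Normal).map _ hs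
  constructor
  · intro h4
    rw [← QuotientGroup.comap_map_mk', ← Subgroup.map_le_iff_le_comap, h2]
    exact le_iInf fun p => (Subgroup.le_centralizer_iff.1 (le_top.trans h4.ge)).trans
      (Subgroup.centralizer_le_normalizer _)
  · intro h4
    have h5 := aux _ h1 (B.map (QuotientGroup.mk' A))
      (by rw [Ne, H1.map_mk'_eq_bot_iff]; exact hAB.not_ge) (fun N hN h5 => by
        rw [← Subgroup.map_comap_eq_self_of_surjective hs N]
        refine (hchief (N.comap (QuotientGroup.mk' A)) inferInstance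
          (QuotientGroup.le_comap_mk' _ _) ((Subgroup.comap_mono h5).trans ?_)).imp
          (fun e => ?_) fun e => ?_
        · rw [QuotientGroup.comap_map_mk', sup_eq_right.2 hAB.le]
        · rw [e, QuotientGroup.map_mk'_self]
        · rw [e]) h4
    rw [← H1.map_mk'_eq_bot_iff, eq_bot_iff, ← h5, ← h2]
    exact Subgroup.map_inf_le _ _ _

end Cfsg.Agent.S0568
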