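import Cfsg.Statements.S0570
import Cfsg.Agent.H1.SysNorm

set_option autoImplicit false
open Cfsg

namespace Cfsg.Agent.S0570

/-- Let G be a finite group with a nilpotent normal subgroup F such that G modulo F is nilpotent (nilpotent length at most two). Then a subgroup of G is a Carter subgroup if and only if it is the system normalizer of some Hall complement system. -/
theorem result {G : Type*} [Group G] [Finite G] (F : Subgroup G) [F.Normal] (hF : Group.IsNilpotent F) (hGF : Group.IsNilpotent (G ⧸ F)) (C : Subgroup G) : Cfsg.IsCarterSubgroup C ↔ ∃ K : Nat.Primes → Subgroup G, Cfsg.IsComplementSystem K ∧ C = Cfsg.systemNormalizer K := by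
  have hG : Group.IsSolvable G := H1.isSolvable_of_normal_quotient F inferInstance inferInstance
  have key : ∀ K : Nat.Primes → Subgroup G, H1.CS K ⊤ →
      Cfsg.IsCarterSubgroup (Cfsg.systemNormalizer K) := fun K hK => by
    have h1 := hK.isNilpotent
    have h2 := hK.normalizer_systemNormalizer inferInstance F le_top hF inferInstance
    rw [top_inf_eq] at h1 h2
    exact ⟨h1, le_antisymm h2 Subgroup.le_normalizer⟩
  constructor
  · intro hC
    obtain ⟨K, hK⟩ := H1.exists_cs (H := (⊤ : Subgroup G)) inferInstance
    obtain ⟨g, rfl⟩ := H1.carter_conj hG (key K hK) hC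
    exact ⟨_, H1.isComplementSystem_iff_cs.2
      (hK.conj (Subgroup.le_normalizer (Subgroup.mem_top g))), (H1.systemNormalizer_conj K g).symm⟩
  · rintro ⟨K, hK, rfl⟩
    exact key K (H1.isComplementSystem_iff_cs.1 hK)

end Cfsg.Agent.S0570
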