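import Cfsg.Statements.S0571
import Cfsg.Agent.H1.Factor

set_option autoImplicit false
open Cfsg

namespace Cfsg.Agent.S0571

/-- If a finite group G is the product AB of two cyclic subgroups (every element is a product ab), then G is supersolvable. -/
theorem result {G : Type*} [Group G] [Finite G] (A B : Subgroup G) [IsCyclic A] [IsCyclic B] (hAB : ∀ g : G, ∃ a ∈ A, ∃ b ∈ B, g = a * b) : Cfsg.IsSupersolvable G := by
  refine H1.isSupersolvable_iff_supS.2 (H1.supS_of_forall_quotient_cyclic fun N _ hne => ?_)
  have : Nontrivial (G ⧸ N) := QuotientGroup.nontrivial_iff.2 hne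
  have hA : IsCyclic (A.map (QuotientGroup.mk' N)) :=
    isCyclic_of_surjective _ ((QuotientGroup.mk' N).subgroupMap_surjective A)
  have hB : IsCyclic (B.map (QuotientGroup.mk' N)) :=
    isCyclic_of_surjective _ ((QuotientGroup.mk' N).subgroupMap_surjective B)
  obtain ⟨M, h1, h2, h3⟩ := H1.exists_normal_le_of_product_abelian
    ((H1.isProd_top.2 hAB).map_top (QuotientGroup.mk'_surjective N))
  exact ⟨M, h1, h2, h3.elim (fun h => Subgroup.isCyclic_of_le h) fun h => Subgroup.isCyclic_of_le h⟩

end Cfsg.Agent.S0571
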