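import Cfsg.Statements.S0577
import Cfsg.Agent.H1.Prim

set_option autoImplicit false
open Cfsg

namespace Cfsg.Agent.S0577

/-- Let G be a finite minimal non-nilpotent group and Q a normal Sylow q-subgroup of G, and let D be the commutator subgroup of Q regarded in G (a normal subgroup). Then G modulo D is non-abelian and all its proper subgroups are abelian. -/
theorem result {G : Type*} [Group G] [Finite G] (hG : Cfsg.IsMinimalNonNilpotent G) (q : ℕ) [Fact q.Prime] (hq : q ∣ Nat.card G) (Q : Sylow q G) (hQ : (Q : Subgroup G).Normal) (D : Subgroup G) [D.Normal] (hD : D = (commutator ↥(Q : Subgroup G)).map (Q : Subgroup G).subtype) : ¬ IsMulCommutative (G ⧸ D) ∧ ∀ K : Subgroup (G ⧸ D), K ≠ ⊤ → IsMulCommutative K := by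
  obtain ⟨p, r, hp, hr, h1, P, R, g, h2, h3, h4, -⟩ := H1.minimal_non_nilpotent hG.1 hG.2
  have := Fact.mk hp
  have := Fact.mk hr
  have h5 : commutator G ≤ (Q : Subgroup G) := by
    by_cases hqr : q = r
    · subst hqr
      obtain rfl : Q = R := by
        have := Sylow.unique_of_normal Q hQ
        exact Subsingleton.elim _ _
      refine H3.commutator_le_of_sup_eq_top ((sup_comm _ _).trans h4) ?_
      rw [h2, Subgroup.commutator_self_eq_bot_iff.2 inferInstance]
      exact bot_le
    · exfalso
      have e1 := (H1.isProd_sup_of_le_normalizer (A := (P : Subgroup G)) (B := (R : Subgroup G))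
        Subgroup.le_normalizer_of_normal).card_dvd
      rw [h4, Subgroup.card_top] at e1
      obtain rfl : q = p := by
        rcases (Fact.out : q.Prime).dvd_mul.1 (hq.trans e1) with e | e
        · exact H1.isPiNat_card_singleton_iff.2 P.isPGroup' q Fact.out e
        · exact (hqr (H1.isPiNat_card_singleton_iff.2 R.isPGroup' q Fact.out e)).elim
      obtain rfl : Q = P := by
        have := Sylow.unique_of_normal Q hQ
        exact Subsingleton.elim _ _
      have e2 := H1.isNilpotent_sup_normal Q.isPGroup'.isNilpotent R.isPGroup'.isNilpotent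
      rw [h4] at e2
      exact hG.1 (Group.nilpotent_of_mulEquiv Subgroup.topEquiv)
  have hs := QuotientGroup.mk'_surjective D
  constructor
  · intro h
    refine hG.1 (H1.isNilpotent_iff_commutator_le_frattini.2
      ((Subgroup.Normal.quotient_commutative_iff_commutator_le.1 h).trans ?_))
    rw [hD]
    have := Q.isPGroup'.isNilpotent
    exact (Subgroup.map_mono H3.commutator_le_frattini).trans (H1.frattiniOf_normal_le _)
  · intro K hK
    have h6 : Group.IsNilpotent K := by
      rw [← Subgroup.map_comap_eq_self_of_surjective hs K]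
      refine H1.isNilpotent_map (hG.2 _ fun e => hK ?_) _
      rw [← Subgroup.map_comap_eq_self_of_surjective hs K, e, Subgroup.map_top_of_surjective _ hs]
    have := hQ.map _ hs
    have h7 : IsMulCommutative ((Q : Subgroup G).map (QuotientGroup.mk' D)) := by
      rw [← Subgroup.commutator_self_eq_bot_iff, ← Subgroup.map_commutator, H1.map_mk'_eq_bot_iff,
        hD, Subgroup.map_subtype_commutator]
    refine H1.isMulCommutative_of_isNilpotent h6 fun s S hs' _ hS => ?_
    have := Fact.mk hs'
    by_cases hsq : s = q
    · subst hsq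
      have h8 : Cfsg.IsPiHallOf {s} ((Q : Subgroup G).map (QuotientGroup.mk' D)) ⊤ :=
        H1.isPiHallOf_sylow_top (Q.mapSurjective hs)
      exact H1.isMulCommutative_of_le (K := (Q : Subgroup G).map (QuotientGroup.mk' D))
        (H1.IsPiHallOf.le_of_le_normalizer h8 le_top Subgroup.le_normalizer_of_normal
        (H1.isPiNat_card_singleton_iff.2 hS))
    · rw [← Subgroup.commutator_self_eq_bot_iff, eq_bot_iff,
        ← (IsPGroup.disjoint_of_ne s q hsq _ _ hS (Q.isPGroup'.map (QuotientGroup.mk' D))).eq_bot]
      refine le_inf (Subgroup.commutator_le_self _) (le_trans ?_ (Subgroup.map_mono h5))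
      rw [commutator_def, Subgroup.map_commutator, Subgroup.map_top_of_surjective _ hs]
      exact Subgroup.commutator_mono le_top le_top

end Cfsg.Agent.S0577
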