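import Cfsg.Statements.S0578
import Cfsg.Agent.H1.Prim

set_option autoImplicit false
open Cfsg

namespace Cfsg.Agent.S0578

/-- If in a finite group the normalizer of each abelian subgroup coincides with its centralizer, then the group is abelian. -/
theorem result {G : Type*} [Group G] [Finite G] (h : ∀ A : Subgroup G, IsMulCommutative A → Subgroup.normalizer (A : Set G) = Subgroup.centralizer (A : Set G)) : IsMulCommutative G := by
  have h1 : ∀ (p : ℕ) (P : Subgroup G), p.Prime → IsPGroup p P → IsMulCommutative P := by
    intro p P hp hP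
    have := Fact.mk hp
    obtain ⟨A, h1, h2, -, h3, -⟩ := H9.exists_maximal_abelian_normal hP ⊥ inferInstance
    have h4 := H1.le_normalizer_map_subtype_iff.2 h1
    rw [h _ inferInstance] at h4
    have h5 : A = ⊤ := eq_top_iff.2 fun x _ => h3.le fun a ha =>
      Subtype.ext (h4 x.2 a (Subgroup.mem_map_of_mem _ ha))
    subst h5
    exact ⟨⟨fun a b => H1.isMulCommutative_iff'.1 h2 a trivial b trivial⟩⟩
  have h2 : Group.IsNilpotent G := H3.isNilpotent_of_forall_hasNormalPComplement fun q hq _ => by
    have := Fact.mk hq
    obtain ⟨P⟩ : Nonempty (Sylow q G) := inferInstance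
    have h3 := (h P (h1 q P hq P.isPGroup')).le
    exact ⟨P, _, inferInstance, MonoidHom.ker_transferSylow_isComplement' P h3⟩
  have := H1.isMulCommutative_of_isNilpotent (H := (⊤ : Subgroup G)) inferInstance
    fun p P hp _ hP => h1 p P hp hP
  exact ⟨⟨fun a b => H1.isMulCommutative_iff'.1 this a trivial b trivial⟩⟩

end Cfsg.Agent.S0578
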