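import Cfsg.Statements.S0582
import Cfsg.Agent.H1.Super

set_option autoImplicit false
open Pointwise
open Cfsg

namespace Cfsg.Agent.S0582

universe u

open scoped Pointwise in
theorem aux (n : ℕ) : ∀ (G : Type u) [Group G] [Finite G] (H K : Subgroup G), Nat.card H = n →
    H1.SupS H → H1.SupS K → Nat.card H = Nat.card K → (Nat.card H).Coprime H.index →
    ∃ x : G, MulAut.conj x • H = K := by
  induction n using Nat.strong_induction_on with
  | _ n ih =>
  intro G _ _ H K hn hH hK hc hcop
  by_cases h0 : Nat.card H = 1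
  · refine ⟨1, ?_⟩
    rw [Subgroup.card_eq_one.1 h0, Subgroup.card_eq_one.1 (hc ▸ h0 : Nat.card K = 1)]
    simp
  obtain ⟨p, hp, h1, h2⟩ := H1.exists_max_prime_dvd Nat.card_pos.ne' h0
  have := Fact.mk hp
  have key : ∀ L : Subgroup G, H1.SupS L → Nat.card H = Nat.card L →
      ∃ P, Cfsg.IsPiHallOf {p} P ⊤ ∧ P ≤ L ∧ L ≤ Subgroup.normalizer (P : Set G) := by
    intro L hL hcL
    obtain ⟨S⟩ : Nonempty (Sylow p L) := inferInstance
    refine ⟨_, H1.IsPiHallOf.trans_of_relIndex (H1.isPiHallOf_sylow S) le_top ?_,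
      Subgroup.map_subtype_le _,
      H1.le_normalizer_map_subtype_iff.2 (hL.sylow_normal (hcL ▸ h2) S)⟩
    have e : L.index = H.index := by
      have := H.card_mul_index.trans L.card_mul_index.symm
      rw [hcL, mul_right_inj' Nat.card_pos.ne'] at this
      exact this.symm
    rw [Subgroup.relIndex_top_right, e, H1.isPiNat_compl_singleton_iff hp]
    exact (hcop.coprime_dvd_left h1).symm
  obtain ⟨P, hP, h3, h4⟩ := key H hH rfl
  obtain ⟨Q, hQ, h5, h6⟩ := key K hK hc
  obtain ⟨g, -, rfl⟩ := H1.sylowOf_conj hP hQ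
  set N := Subgroup.normalizer (P : Set G) with hN
  have h7 : P ≤ MulAut.conj g⁻¹ • K := by
    rw [← H1.conj_inv_smul_eq (rfl : MulAut.conj g • P = _)]
    exact smul_mono_right _ h5
  have h8 : MulAut.conj g⁻¹ • K ≤ N := by
    rw [H1.normalizer_conj_smul] at h6
    rw [← H1.conj_inv_smul_eq (rfl : MulAut.conj g • N = _)]
    exact smul_mono_right _ h6
  have hK' : H1.SupS (MulAut.conj g⁻¹ • K : Subgroup G) := hK.map _
  have hc' : Nat.card H = Nat.card (MulAut.conj g⁻¹ • K : Subgroup G) := by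
    rwa [H1.card_conj_smul]
  set K' := MulAut.conj g⁻¹ • K with hK'def
  have hcard : ∀ L : Subgroup G, P ≤ L → L ≤ N → Nat.card ((L.subgroupOf N).map
      (QuotientGroup.mk' (P.subgroupOf N))) * Nat.card P = Nat.card L := fun L e1 e2 => by
    rw [H1.card_map_mk'_eq_relIndex, Subgroup.relIndex_subgroupOf e2, mul_comm,
      H1.card_mul_relIndex e1]
  have hP1 : 1 < Nat.card P := by
    by_contra e
    have e1 : P = ⊥ := P.card_le_one_iff_eq_bot.1 (not_lt.1 e)
    have := (H1.isPiHallOf_singleton_iff.1 hP).2.2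
    rw [e1, Subgroup.relIndex_bot_left, Subgroup.card_top] at this
    exact this (h1.trans (Subgroup.card_subgroup_dvd_card H))
  obtain ⟨x, hx⟩ := ih _ (by
      rw [← hn, ← hcard H h3 h4]; exact lt_mul_of_one_lt_right Nat.card_pos hP1)
    (N ⧸ P.subgroupOf N) ((H.subgroupOf N).map (QuotientGroup.mk' _))
    ((K'.subgroupOf N).map (QuotientGroup.mk' _)) rfl
    ((hH.of_equiv (Subgroup.subgroupOfEquivOfLe h4).symm).map _)
    ((hK'.of_equiv (Subgroup.subgroupOfEquivOfLe h8).symm).map _)
    (Nat.eq_of_mul_eq_mul_right Nat.card_pos (by rw [hcard H h3 h4, hcard K' h7 h8, hc']))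
    ((hcop.coprime_dvd_left (Dvd.intro _ (hcard H h3 h4))).coprime_dvd_right
      ((Subgroup.index_map_dvd _ (QuotientGroup.mk'_surjective _)).trans
        (Subgroup.relIndex_dvd_index_of_le h4)))
  obtain ⟨x, rfl⟩ := QuotientGroup.mk_surjective x
  have h9 := H1.conj_smul_sup_eq_of_map_mk' hx
  rw [sup_eq_left.2 (Subgroup.subgroupOf_mono N h7), sup_eq_left.2 (by
    rw [← H1.mem_normalizer_iff_smul.1 (Subgroup.le_normalizer_of_normal (H := P.subgroupOf N)
      (Subgroup.mem_top x))]
    exact smul_mono_right _ (Subgroup.subgroupOf_mono N h3))] at h9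
  refine ⟨g * x, ?_⟩
  rw [← H1.conj_smul_conj_smul, H1.conj_smul_eq_of_subgroupOf h4 h8 h9, hK'def,
    H1.conj_smul_conj_smul]
  simp

/-- Let H and K be supersolvable subgroups of a finite group G of the same order, that order being coprime to their index. Then H and K are conjugate in G. -/
theorem result {G : Type*} [Group G] [Finite G] (H K : Subgroup G) (hH : Cfsg.IsSupersolvable H) (hK : Cfsg.IsSupersolvable K) (hcard : Nat.card H = Nat.card K) (hHall : (Nat.card H).Coprime H.index) : ∃ x : G, MulAut.conj x • H = K := by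
  exact aux _ G H K rfl (H1.isSupersolvable_iff_supS.1 hH) (H1.isSupersolvable_iff_supS.1 hK)
    hcard hHall

end Cfsg.Agent.S0582
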