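import Cfsg.Statements.S0586
import Cfsg.Agent.H1.Prim

set_option autoImplicit false
open Cfsg

namespace Cfsg.Agent.S0586

/-- If the Frattini subgroup of a finite group G is trivial, then the Fitting subgroup of G equals the join of all abelian minimal normal subgroups of G. -/
theorem result {G : Type*} [Group G] [Finite G] (hΦ : frattini G = ⊥) : Cfsg.fittingSubgroup G = sSup {N : Subgroup G | N.Normal ∧ N ≠ ⊥ ∧ IsMulCommutative N ∧ ∀ K : Subgroup G, K.Normal → K ≤ N → K = ⊥ ∨ K = N} := by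
  set S := sSup {N : Subgroup G | N.Normal ∧ N ≠ ⊥ ∧ IsMulCommutative N ∧
    ∀ K : Subgroup G, K.Normal → K ≤ N → K = ⊥ ∨ K = N}
  have h1 : S ≤ Cfsg.fittingSubgroup G := sSup_le fun N hN =>
    haveI := hN.1
    H1.le_fitting_of_comm hN.2.2.1
  have h2 : IsMulCommutative (Cfsg.fittingSubgroup G) := by
    rw [← Subgroup.commutator_self_eq_bot_iff, eq_bot_iff, ← hΦ, ← Subgroup.map_subtype_commutator]
    exact (Subgroup.map_mono H3.commutator_le_frattini).trans (H1.frattiniOf_normal_le _)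
  have : S.Normal := Subgroup.sSup_normal _ fun N hN => hN.1
  have : IsMulCommutative S := H1.isMulCommutative_of_le h1
  obtain ⟨H, hH⟩ := H1.exists_complement_of_inf_frattini_eq_bot S (by rw [hΦ, inf_bot_eq])
  have h3 := H1.sup_inf_assoc_of_le_normalizer (B := H) h1
    (Or.inr Subgroup.le_normalizer_of_normal)
  rw [hH.sup_eq_top, top_inf_eq, inf_comm] at h3
  by_cases h4 : Cfsg.fittingSubgroup G ⊓ H = ⊥
  · rwa [h4, sup_bot_eq] at h3
  have := H1.normal_inf_of_sup_eq_top (A := Cfsg.fittingSubgroup G) (H := H)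
    (eq_top_iff.2 (hH.sup_eq_top.ge.trans (sup_le_sup_right h1 _)))
  obtain ⟨M, h5, h6, h7, h8⟩ := H1.exists_minimal_normal_le _ h4
  have hMS : M ≤ S := le_sSup ⟨h5, h6, H1.isMulCommutative_of_le (h7.trans inf_le_left), h8⟩
  exact (h6 (eq_bot_iff.2 ((le_inf hMS (h7.trans inf_le_right)).trans hH.disjoint.le_bot))).elim

end Cfsg.Agent.S0586
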