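import Cfsg.Statements.S0587
import Cfsg.Agent.H1.Prim

set_option autoImplicit false
open Cfsg

namespace Cfsg.Agent.S0587

/-- Let G be a finite group whose largest normal p-subgroup L is nontrivial, and M a maximal subgroup of G with trivial normal core. Then L is elementary abelian, M is a complement to L, L is a minimal normal subgroup of G, the centralizer of L is L, and for every prime q such that the largest normal q-subgroup of M is nontrivial, the order of L is congruent to 1 modulo q and q ≠ p. -/
theorem result {G : Type*} [Group G] [Finite G] (p : ℕ) [Fact p.Prime] (hL : Cfsg.pCore p G ≠ ⊥) (M : Subgroup G) (hM : IsCoatom M) (hcore : M.normalCore = ⊥) : Cfsg.IsElementaryAbelian p (Cfsg.pCore p G) ∧ Subgroup.IsComplement' (Cfsg.pCore p G) M ∧ (∀ K : Subgroup G, K.Normal → K ≤ Cfsg.pCore p G → K = ⊥ ∨ K = Cfsg.pCore p G) ∧ Subgroup.centralizer ((Cfsg.pCore p G : Subgroup G) : Set G) = Cfsg.pCore p G ∧ ∀ (q : ℕ) [Fact q.Prime], Cfsg.pCore q ↥M ≠ ⊥ → Nat.card (Cfsg.pCore p G) % q = 1 % q ∧ q ≠ p := by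
  obtain ⟨h1, h2⟩ := H1.pCore_of_corefree hL hM hcore
  have h3 := H1.isComplement'_of_corefree hM hcore hL hL h1.ge
  have hP := H1.isPGroup_pCore (G := G) p
  obtain ⟨h4, r, hr, h5⟩ := H1.elementary_of_minimal_normal (Cfsg.pCore p G)
    (by have := hP.isNilpotent; infer_instance) hL h2
  obtain rfl : r = p := by
    have := Fact.mk hr
    by_contra hne
    exact hL (by simpa using (IsPGroup.disjoint_of_ne r p hne _ _
      (H1.isPGroup_of_pow_eq_one h5) hP).eq_bot)
  refine ⟨⟨h4, h5⟩, h3, h2, h1, fun q _ hq => ?_⟩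
  set R := (Cfsg.pCore q M).map M.subtype
  have hR : IsPGroup q R := (H1.isPGroup_pCore q).map _
  have h6 : Cfsg.pCore r G ⊓ Subgroup.centralizer (R : Set G) = ⊥ := by
    refine (h2 _ (H1.normal_of_sup_le_normalizer h3.sup_eq_top
      ((h1.ge.trans (Subgroup.centralizer_le (inf_le_left : Cfsg.pCore r G ⊓ _ ≤ _))).trans
        (Subgroup.centralizer_le_normalizer _))
      (H1.le_normalizer_inf Subgroup.le_normalizer_of_normal (H1.le_normalizer_centralizer
        (H1.le_normalizer_map_subtype_iff.2 inferInstance)))) inf_le_left).resolve_right fun e => hq ?_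
    rw [← Subgroup.map_eq_bot_iff_of_injective _ M.subtype_injective, eq_bot_iff,
      ← h3.disjoint.eq_bot]
    exact le_inf ((Subgroup.le_centralizer_iff.1 (inf_eq_left.1 e)).trans h1.le)
      (Subgroup.map_subtype_le _)
  refine ⟨?_, ?_⟩
  · have := H3.card_modEq_card_inf_centralizer hR (Q := Cfsg.pCore r G)
      Subgroup.le_normalizer_of_normal
    rwa [h6, Subgroup.card_bot] at this
  · rintro rfl
    exact H1.inf_centralizer_ne_bot_of_isPGroup hP hR Subgroup.le_normalizer_of_normal hL h6

end Cfsg.Agent.S0587
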