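import Cfsg.Statements.S0588
import Cfsg.Agent.H1.Basic

set_option autoImplicit false
open Cfsg

namespace Cfsg.Agent.S0588

/-- If a subgroup H of a finite group G contains the centralizer of every non-identity element of H, then the order of H is coprime to its index. -/
theorem result {G : Type*} [Group G] [Finite G] (H : Subgroup G) (h : ∀ x ∈ H, x ≠ 1 → Subgroup.centralizer ({x} : Set G) ≤ H) : (Nat.card H).Coprime H.index := by
  apply Nat.coprime_of_dvd
  intro p hp hpH hpi
  have := Fact.mk hp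
  obtain ⟨x, hx⟩ := exists_prime_orderOf_dvd_card' (G := H) p hpH
  have hx' : orderOf (x : G) = p := by rw [Subgroup.orderOf_coe, hx]
  have hx1 : (x : G) ≠ 1 := by
    intro h0; rw [h0, orderOf_one] at hx'; exact hp.one_lt.ne hx'
  have hP : IsPGroup p (Subgroup.zpowers (x : G)) :=
    IsPGroup.of_card (n := 1) (by rw [Nat.card_zpowers, hx', pow_one])
  obtain ⟨S, hS⟩ := hP.exists_le_sylow
  have hxS : (x : G) ∈ (S : Subgroup G) := hS (Subgroup.mem_zpowers _)
  have hnt : Nontrivial (S : Subgroup G) := ⟨⟨⟨x, hxS⟩, 1, fun h0 => hx1 (congrArg Subtype.val h0)⟩⟩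
  obtain ⟨z, hz, hz1⟩ := (Subgroup.center (S : Subgroup G)).bot_or_exists_ne_one.resolve_left
    S.isPGroup'.bot_lt_center.ne'
  rw [Subgroup.mem_center_iff] at hz
  have hzH : (z : G) ∈ H := h x x.2 hx1 (by
    rw [Subgroup.mem_centralizer_singleton_iff]
    exact (congrArg Subtype.val (hz ⟨x, hxS⟩)).symm)
  have hSH : (S : Subgroup G) ≤ H := fun s hs => h z hzH (fun h0 => hz1 (Subtype.ext h0)) (by
    rw [Subgroup.mem_centralizer_singleton_iff]
    exact congrArg Subtype.val (hz ⟨s, hs⟩))
  exact S.not_dvd_index (hpi.trans (Subgroup.index_dvd_of_le hSH))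

end Cfsg.Agent.S0588
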