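import Cfsg.Statements.S0589
import Cfsg.Agent.H2.Frob

set_option autoImplicit false
open Pointwise
open Cfsg

namespace Cfsg.Agent.S0589

/-- Let H be a Frobenius complement in a finite group G and L a subgroup of G whose order divides the order of H. Then L is contained in some conjugate of H. -/
theorem result {G : Type*} [Group G] [Finite G] (H : Subgroup G) (hH : Cfsg.IsFrobeniusComplement H) (L : Subgroup G) (hL : Nat.card L ∣ Nat.card H) : ∃ x : G, L ≤ MulAut.conj x • H := by
  apply H2.le_conj_of_inter_frobKernel hH
  intro x hx hxK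
  have h1 := H2.orderOf_dvd_index_of_mem_frobKernel hH hxK
  have h2 : orderOf x ∣ Nat.card H := (L.orderOf_dvd_natCard hx).trans hL
  exact orderOf_eq_one_iff.1 (Nat.eq_one_of_dvd_coprimes (H2.frob_coprime hH) h2 h1)

end Cfsg.Agent.S0589
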