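import Cfsg.Statements.S0592
import Cfsg.Agent.H4.QuadPair

set_option autoImplicit false
open Cfsg

namespace Cfsg.Agent.S0592

/-- Two quadratically acting generators of a linear group that is not a p-group, with the p'-part of the order of their product dividing q - 1, give a homomorphism onto a subgroup of SL(2, q) that is not a p-group. -/
theorem result {K : Type*} [Field K] [Fintype K] {p : ℕ} [Fact p.Prime] [CharP K p] {W : Type*} [AddCommGroup W] [Module K W] [FiniteDimensional K W] [Finite W] [Nontrivial W] (H : Subgroup (W ≃ₗ[K] W)) (a b : W ≃ₗ[K] W) (hH : H = Subgroup.closure {a, b}) (ha : ∀ w : W, a (a w - w) = a w - w) (hb : ∀ w : W, b (b w - w) = b w - w) (hnp : ¬ IsPGroup p H) (hk : ∃ e k : ℕ, orderOf (a * b) = p ^ e * k ∧ k ∣ Fintype.card K - 1) : ∃ φ : H →* Matrix.SpecialLinearGroup (Fin 2) K, ¬ IsPGroup p φ.range := by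
  classical
  subst hH
  let ρ : (W ≃ₗ[K] W) →* Module.End K W := LinearEquiv.automorphismGroup.toLinearMapMonoidHom
  have hρ : ∀ g w, ρ g w = g w := fun g w => rfl
  have ha' : (ρ a - 1) * (ρ a - 1) = 0 := LinearMap.ext fun w => by
    simp [hρ, Module.End.mul_apply, ha]
  have hb' : (ρ b - 1) * (ρ b - 1) = 0 := LinearMap.ext fun w => by
    simp [hρ, Module.End.mul_apply, hb]
  have : CharP (Module.End K W) p := charP_of_injective_algebraMap' K p
  have hz : ¬ IsNilpotent ((ρ a - 1) * (ρ b - 1) + (ρ b - 1) * (ρ a - 1)) := by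
    intro hz
    apply hnp
    rintro ⟨g, hg⟩
    obtain ⟨k, hk⟩ := H4.pow_char_pow_eq_one_of_unipotent (p := p)
      (H4.unipotent_of_quadratic_nilpotent ρ ha' hb' hz g hg)
    refine ⟨k, Subtype.ext (LinearEquiv.ext fun w => ?_)⟩
    rw [← map_pow] at hk
    have := congrArg (fun f : Module.End K W => f w) hk
    exact this
  have hzc := H4.quad_z_mul ρ ha' hb'
  set z := (ρ a - 1) * (ρ b - 1) + (ρ b - 1) * (ρ a - 1) with hzd
  obtain ⟨r, hr, v, hv, hcv⟩ : ∃ r : K, r ≠ 1 ∧ ∃ v : W, v ≠ 0 ∧ ρ (a * b) v = r • v := by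
    by_contra hcon
    push Not at hcon
    obtain ⟨e, k, hek, m, hm⟩ := hk
    have hsp : (Polynomial.X ^ Fintype.card K - Polynomial.X : Polynomial K).Splits := by
      rw [Polynomial.splits_iff_card_roots, FiniteField.roots_X_pow_card_sub_X,
        FiniteField.X_pow_card_sub_X_natDegree_eq K Fintype.one_lt_card]
      rfl
    have hnil := H4.isNilpotent_of_splits (ρ (a * b)) (hsp.pow (p ^ e))
      (pow_ne_zero _ (FiniteField.X_pow_card_sub_X_ne_zero K Fintype.one_lt_card)) (by
        rw [map_pow, map_sub, map_pow, Polynomial.aeval_X,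
          sub_pow_char_pow_of_commute p e ((Commute.refl _).pow_left _), ← pow_mul]
        have h1 : Fintype.card K = k * m + 1 := by
          have := Fintype.card_pos (α := K); omega
        rw [h1, add_mul, one_mul, pow_add, show k * m * p ^ e = p ^ e * k * m by ring, ← hek,
          pow_mul, ← map_pow, pow_orderOf_eq_one, map_one, one_pow, one_mul, sub_self]) 1
      (fun r hr v hv => by_contra fun h => hcon r hr v h hv)
    rw [map_one] at hnil
    apply hz
    have h2 : z = (ρ (a * b) - 1) * ((ρ (a * b) - 1) * ρ (a * b)⁻¹) := by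
      rw [← mul_assoc, ← hzc, mul_assoc, ← map_mul, mul_inv_cancel, map_one, mul_one]
    rw [h2]
    refine Commute.isNilpotent_mul_right ?_ hnil
    refine Commute.mul_right (Commute.refl _) (Commute.sub_left ?_ (Commute.one_left _))
    change _ * _ = _ * _
    rw [← map_mul, ← map_mul, mul_inv_cancel, inv_mul_cancel]
  have hr0 : r ≠ 0 := by
    rintro rfl
    rw [zero_smul, hρ] at hcv
    exact hv ((a * b).map_eq_zero_iff.1 hcv)
  have hzv : z v = (r⁻¹ * (r - 1) ^ 2) • v := by
    have := congrArg (fun f : Module.End K W => f v) hzc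
    simp only [Module.End.mul_apply, hcv, map_smul, LinearMap.sub_apply, Module.End.one_apply,
      map_sub] at this
    rw [mul_smul, eq_inv_smul_iff₀ hr0, this]
    module
  obtain ⟨φ, T, -, -, h1, h2⟩ := H4.exists_hom_of_eigen ρ ha' hb'
    (mul_ne_zero (inv_ne_zero hr0) (pow_ne_zero 2 (sub_ne_zero.2 hr))) hv hzv
  exact ⟨φ, H4.not_isPGroup_of_upT_loT
    (mul_ne_zero (inv_ne_zero hr0) (pow_ne_zero 2 (sub_ne_zero.2 hr))) one_ne_zero ⟨_, h1⟩ ⟨_, h2⟩⟩

end Cfsg.Agent.S0592
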