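import Cfsg.Statements.S0594
import Cfsg.Agent.H4.Stable

set_option autoImplicit false
open Cfsg

namespace Cfsg.Agent.S0594

/-- For odd p, two quadratic generators of a faithful group that is not a p-group, one of which acts nontrivially on a normal subgroup of order prime to p, force p = 3 and a section isomorphic to SL(2,3). -/
theorem result {G : Type*} [Group G] [Finite G] {p : ℕ} [Fact p.Prime] (hp : p ≠ 2) (V H : Subgroup G) (hV : Cfsg.IsElementaryAbelian p V) (hHV : H ≤ Subgroup.normalizer (V : Set G)) (hf : H ⊓ Subgroup.centralizer (V : Set G) = ⊥) (a b : G) (hab : H = Subgroup.closure {a, b}) (ha : ⁅⁅V, Subgroup.zpowers a⁆, Subgroup.zpowers a⁆ = ⊥) (hb : ⁅⁅V, Subgroup.zpowers b⁆, Subgroup.zpowers b⁆ = ⊥) (hnp : ¬ IsPGroup p H) (Q : Subgroup G) (hQH : Q ≤ H) (hQn : H ≤ Subgroup.normalizer (Q : Set G)) (hQ : (Nat.card Q).Coprime p) (hQa : ⁅Q, Subgroup.zpowers a⁆ ≠ ⊥) : p = 3 ∧ ∃ (K L : Subgroup G) (hL : (L.subgroupOf K).Normal), K ≤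 H ∧ Nonempty ((K ⧸ L.subgroupOf K) ≃* Matrix.SpecialLinearGroup (Fin 2) (ZMod 3)) := by
  have haH : a ∈ H := hab ▸ Subgroup.subset_closure (by simp)
  obtain ⟨x, hx, hxa⟩ : ∃ x ∈ Q, x * a * x⁻¹ * a⁻¹ ≠ 1 := by
    by_contra hcon
    push Not at hcon
    apply hQa
    rw [Subgroup.commutator_eq_bot_iff_le_centralizer]
    intro x hx
    rw [H4.mem_centralizer_zpowers]
    have := hcon x hx
    rw [mul_inv_eq_one, mul_inv_eq_iff_eq_mul] at this
    exact this.symm
  have hb' : x * a * x⁻¹ ∈ H := H.mul_mem (H.mul_mem (hQH hx) haH) (H.inv_mem (hQH hx))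
  have hc : x * a * x⁻¹ * a⁻¹ ∈ Q := by
    have := H1.conj_mem_of_mem_normalizer (hQn haH) (Q.inv_mem hx)
    have h2 := Q.mul_mem hx this
    simpa [mul_assoc] using h2
  have h := (H4.natSL2_of_not_isPGroup hp hV hHV hf haH hb' ha
    (H4.quadratic_conj (hHV (hQH hx)) ha) (fun hP => by
      apply hxa
      have := H1.inf_eq_bot_of_isPGroup_of_coprime hP hQ
      rw [← Subgroup.mem_bot, ← this]
      exact ⟨Subgroup.mul_mem _ (Subgroup.subset_closure (by simp))
        (Subgroup.inv_mem _ (Subgroup.subset_closure (by simp))), hc⟩)).isSec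
  have hap : a ^ p = 1 := by
    rw [← Subgroup.mem_bot, ← hf]
    exact ⟨H.pow_mem haH _, H4.pow_mem_centralizer_of_quadratic hV.2 (hHV haH)
      (H4.quadratic_zpowers_iff.1 ha)⟩
  have hle : Subgroup.closure ({a, x * a * x⁻¹} : Set G) ≤ Subgroup.zpowers a ⊔ Q := by
    rw [Subgroup.closure_le]
    rintro y (rfl | rfl)
    · exact Subgroup.mem_sup_left (Subgroup.mem_zpowers _)
    · have : x * a * x⁻¹ = x * a * x⁻¹ * a⁻¹ * a := by group
      rw [this]
      exact Subgroup.mul_mem _ (Subgroup.mem_sup_right hc)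
        (Subgroup.mem_sup_left (Subgroup.mem_zpowers _))
  have hs : Cfsg.IsPSolvable p (Subgroup.zpowers a ⊔ Q : Subgroup G) :=
    H1.IsPSolvable.sup (H1.isPSolvable_of_isPGroup (H4.elemAb_isPGroup (H4.elemAb_zpowers hap)))
      (H1.isPSolvable_of_coprime hQ) ((Subgroup.zpowers_le.2 haH).trans hQn)
  obtain rfl := (h.mono hle).eq_three hp hs
  exact ⟨rfl, H4.isSec_iff.1 (h.mono (hle.trans (sup_le (Subgroup.zpowers_le.2 haH) hQH)))⟩

end Cfsg.Agent.S0594
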