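import Cfsg.Statements.S0602
import Cfsg.Agent.H4.Thompson

set_option autoImplicit false
open Cfsg

namespace Cfsg.Agent.S0602

/-- The Thompson subgroup is characteristic, and nontrivial as soon as p divides the group order. -/
theorem result {G : Type*} [Group G] [Finite G] {p : ℕ} [Fact p.Prime] : (Cfsg.thompsonSubgroup p G).Characteristic ∧ (p ∣ Nat.card G → Cfsg.thompsonSubgroup p G ≠ ⊥) := by
  refine ⟨inferInstance, fun h hb => ?_⟩
  obtain ⟨A, hA⟩ := H4.maxAb_nonempty p (⊤ : Subgroup G)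
  have h1 : A = ⊥ := eq_bot_iff.2 (hb ▸ H4.thompsonOf_top (n := p) (G := G) ▸ H4.le_thompsonOf hA)
  obtain ⟨x, hx⟩ := exists_prime_orderOf_dvd_card' p h
  have h2 := H4.maxAb_card_le hA le_top (H4.elemAb_zpowers (x := x) (by rw [← hx, pow_orderOf_eq_one]))
  rw [h1, Nat.card_zpowers, hx, Subgroup.card_bot] at h2
  exact absurd h2 (not_le.2 (Fact.out : p.Prime).one_lt)

end Cfsg.Agent.S0602
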