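import Cfsg.Statements.S0604
import Cfsg.Agent.H4.Thompson

set_option autoImplicit false
open Cfsg

namespace Cfsg.Agent.S0604

/-- The Thompson subgroup of G is the join of the Thompson subgroups of its Sylow p-subgroups. -/
theorem result {G : Type*} [Group G] [Finite G] {p : ℕ} [Fact p.Prime] : Cfsg.thompsonSubgroup p G = ⨆ S : Sylow p G, Cfsg.thompsonSubgroupOf p (S : Subgroup G) := by
  rw [← H4.thompsonOf_top]
  refine le_antisymm (H4.thompsonOf_le_iff.2 fun A hA => ?_) (iSup_le fun S => ?_)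
  · obtain ⟨S, hS⟩ := (H4.elemAb_isPGroup hA.2.1).exists_le_sylow
    exact (H4.le_thompsonOf (H4.maxAb_of_le hA hS le_top)).trans
      (le_iSup (fun S : Sylow p G => thompsonSubgroupOf p (S : Subgroup G)) S)
  · obtain ⟨A, hA⟩ := H4.maxAb_nonempty p (⊤ : Subgroup G)
    obtain ⟨T, hT⟩ := (H4.elemAb_isPGroup hA.2.1).exists_le_sylow
    obtain ⟨g, rfl⟩ := MulAction.exists_smul_eq G T S
    exact H4.thompsonOf_le_thompsonOf
      (H4.mem_maxAb_conj hA (g := g) (by rw [Subgroup.normalizer_eq_top]; trivial)) (Subgroup.map_mono hT) le_top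

end Cfsg.Agent.S0604
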