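import Cfsg.Statements.S0612
import Cfsg.Agent.H4.FF1

set_option autoImplicit false
open Cfsg

namespace Cfsg.Agent.S0612

/-- In such a faithful group every nontrivial best offender decomposes as a direct product of minimal nontrivially-acting best offenders. -/
theorem result {G : Type*} [Group G] [Finite G] {p : ℕ} [Fact p.Prime] (V H : Subgroup G) (hV : Cfsg.IsElementaryAbelian p V) (hHV : H ≤ Subgroup.normalizer (V : Set G)) (hf : H ⊓ Subgroup.centralizer (V : Set G) = ⊥) (hS1 : Subgroup.centralizer (Cfsg.pPrimeCore p ↥H : Set ↥H) ≤ Cfsg.pPrimeCore p ↥H) (hS3 : H = ⨆ A : {A : Subgroup G // A ≤ H ∧ Cfsg.IsBestOffenderOn p V A}, (A : Subgroup G)) (hH1 : H ≠ ⊥) (A : Subgroup G) (hAH : A ≤ H) (hA : Cfsg.IsBestOffenderOn p V A) (hA1 : A ≠ ⊥) : ∃ (k : ℕ) (B : Fin k → Subgroup G), (∀ i, B i ≤ A ∧ Cfsg.IsBestOffenderOn p V (B i) ∧ ⁅V, B i⁆ ≠ ⊥ ∧ ∀ C : Subgroup G, C ≤ B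 i → Cfsg.IsBestOffenderOn p V C → ⁅V, C⁆ ≠ ⊥ → C = B i) ∧ iSupIndep B ∧ ⨆ i, B i = A := by
  have h := H4.FFHyp.of hV hHV hf hS1
  obtain ⟨k, B, h1, h2, h3⟩ := H4.exists_iSupIndep (p := p) (S := {B | B ≤ A ∧ H4.Tv p V B})
    fun B hB => hB.2.1
  refine ⟨k, B, fun i => ⟨(h1 i).1, (h1 i).2.best hV.1 (((h1 i).1.trans hAH).trans hHV),
    H4.ne_bot_of_card (h1 i).2.2, fun C hC _ h0 => (h1 i).2.min hC h0⟩, h2, ?_⟩
  rw [h3]
  exact le_antisymm (sSup_le fun B hB => hB.1) (h.le_sSup_tv A hAH hA)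

end Cfsg.Agent.S0612
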