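import Cfsg.Statements.S0614
import Cfsg.Agent.H4.FF3

set_option autoImplicit false
open Cfsg

namespace Cfsg.Agent.S0614

/-- The commutator of the p'-core with a minimal nontrivially-acting best offender is a 3-group (when p = 2) or a non-abelian 2-group (when p = 3). -/
theorem result {G : Type*} [Group G] [Finite G] {p : ℕ} [Fact p.Prime] (V H : Subgroup G) (hV : Cfsg.IsElementaryAbelian p V) (hHV : H ≤ Subgroup.normalizer (V : Set G)) (hf : H ⊓ Subgroup.centralizer (V : Set G) = ⊥) (hS1 : Subgroup.centralizer (Cfsg.pPrimeCore p ↥H : Set ↥H) ≤ Cfsg.pPrimeCore p ↥H) (hS3 : H = ⨆ A : {A : Subgroup G // A ≤ H ∧ Cfsg.IsBestOffenderOn p V A}, (A : Subgroup G)) (hH1 : H ≠ ⊥) (A : Subgroup G) (hAH : A ≤ H) (hA : Cfsg.IsBestOffenderOn p V A) (hAV : ⁅V, A⁆ ≠ ⊥) (hmin : ∀ B : Subgroup G, B ≤ A → Cfsg.IsBestOffenderOn p V B → ⁅V, B⁆ ≠ ⊥ → B = A) : (p = 2 ∧ IsPGroup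 3 ↥(⁅((Cfsg.pPrimeCore p ↥H).map H.subtype), A⁆)) ∨ (p = 3 ∧ IsPGroup 2 ↥(⁅((Cfsg.pPrimeCore p ↥H).map H.subtype), A⁆) ∧ ¬ IsMulCommutative ↥(⁅((Cfsg.pPrimeCore p ↥H).map H.subtype), A⁆)) := by
  have h := H4.FFHyp.of hV hHV hf hS1
  have h1 := h.tv_of_min hAH hA hAV hmin
  have hc := h.card_comm_oppOf hAH h1
  rcases h.prime_eq hAH h1 with rfl | rfl
  · exact Or.inl ⟨rfl, IsPGroup.of_card (n := 1) hc⟩
  have h2 : IsPGroup 2 ↥(⁅H5.oppOf 3 H, A⁆) := IsPGroup.of_card (n := 3) hc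
  refine Or.inr ⟨rfl, h2, fun hcomm => ?_⟩
  obtain ⟨e⟩ := h.eOf_equiv hAH h1
  have : Fact (Nat.Prime 2) := ⟨Nat.prime_two⟩
  have e1 := Nat.card_congr e.toEquiv
  rw [H22.card_SL_two, ZMod.card] at e1
  have e2 := H1.card_mul_relIndex (le_sup_left : ⁅H5.oppOf 3 H, A⁆ ≤ H4.eOf 3 H A)
  rw [hc, e1] at e2
  refine H4.IsSec.sylow_two_not_comm (p := 3) (by norm_num) (H := H4.eOf 3 H A)
    ⟨_, e.toMonoidHom, le_rfl, e.surjective⟩ ((h2.comap_subtype (K := H4.eOf 3 H A)).toSylow ?_) ?_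
  · change ¬ 2 ∣ (⁅H5.oppOf 3 H, A⁆).relIndex (H4.eOf 3 H A)
    have e3 : (⁅H5.oppOf 3 H, A⁆).relIndex (H4.eOf 3 H A) = 3 :=
      Nat.eq_of_mul_eq_mul_left (by norm_num) (e2.trans (by norm_num))
    rw [e3]; norm_num
  · exact Subgroup.subgroupOf_isMulCommutative _ _

end Cfsg.Agent.S0614
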