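import Cfsg.Statements.S0628
import Cfsg.Agent.H3.Reduce
import Cfsg.Agent.S0622
import Cfsg.Agent.S0624
import Cfsg.Agent.S0626

set_option autoImplicit false
open Cfsg

namespace Cfsg.Agent.S0628

/-- The normal p-complement Theorem of Thompson in the form with W(S): for odd p, G has a normal p-complement as soon as the normalizer of the characteristic subgroup W(S) of a Sylow p-subgroup S has one. -/
theorem result {G : Type*} [Group G] [Finite G] {p : ℕ} [Fact p.Prime] (hp : p ≠ 2) (S : Sylow p G) (hN : Cfsg.HasNormalPComplement p ↥(Subgroup.normalizer (((Cfsg.stableNormalClosure p ↥(S : Subgroup G)).map (S : Subgroup G).subtype) : Set G))) : Cfsg.HasNormalPComplement p G := by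
  have hW : Cfsg.IsCharPFunctor p (fun Q _ => Cfsg.stableNormalClosure p Q) :=
    ⟨fun Q _ _ hQ hn => (Cfsg.Agent.S0622.result hQ).2.2.2.1 hn,
      fun Q R _ _ _ hQ φ => (Cfsg.Agent.S0622.result hQ).2.2.2.2 R φ⟩
  refine H3.npc_of_natFunctor (H3.isNatFunctor_inducedFunctor hW) (fun _ _ => True)
    (fun _ _ _ _ _ => trivial) (fun _ _ _ _ _ _ => trivial) ?_ G S trivial hN
  intro G _ _ P _ _ _ hc _ _ hab
  refine Cfsg.Agent.S0624.result (Cfsg.Agent.S0626.result hp fun T => hab T ?_) hc P
  exact H1.IsPGroup.coprime_card T.2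
    ((Nat.coprime_primes Fact.out Nat.prime_two).mpr hp)

end Cfsg.Agent.S0628
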