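import Cfsg.Statements.S0630
import Cfsg.Agent.H5.PLocal

set_option autoImplicit false
open Cfsg

namespace Cfsg.Agent.S0630

/-- p-constraint passes to and from the quotient by the largest normal subgroup of order prime to p. -/
theorem result {G : Type*} [Group G] [Finite G] {p : ℕ} [Fact p.Prime] : Cfsg.IsPConstrained p G ↔ Cfsg.IsPConstrained p (G ⧸ Cfsg.pPrimeCore p G) := by
  rw [H5.isPConstrained_iff, H5.isPConstrained_iff, ← H5.plOf_top, ← H5.plOf_top,
    ← Subgroup.map_top_of_surjective _ (QuotientGroup.mk'_surjective (Cfsg.pPrimeCore p G)),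
    ← H5.map_plOf_of_coprime_ker _ _ (H5.coprime_inf_ker_mk' p ⊤)]
  refine ⟨fun h => by rw [h, Subgroup.map_bot], fun h => ?_⟩
  rw [Subgroup.map_eq_bot_iff, QuotientGroup.ker_mk', ← H5.oppOf_top] at h
  rw [← H5.plOf_plOf]
  exact H5.plOf_eq_bot_of_coprime (H5.coprime_of_le (H5.coprime_card_oppOf p ⊤) h)

end Cfsg.Agent.S0630
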