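import Cfsg.Statements.S0633
import Cfsg.Agent.H9.HH3

set_option autoImplicit false
open Cfsg

namespace Cfsg.Agent.S0633

/-- Theorem B of Hall and Higman on the minimal polynomial of a p-element of order p^n in a p-solvable linear group on a nonzero vector space in characteristic p with no nontrivial normal p-subgroup: its degree is p^n, except when some p^n₀ - 1 (n₀ ≤ n) is a power of a prime q for which the Sylow q-subgroups are non-abelian, in which case the degree is at least p^(n-n₀)(p^n₀ - 1). -/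
theorem result {F : Type*} [Field F] {p : ℕ} [Fact p.Prime] [CharP F p] {V : Type*} [AddCommGroup V] [Module F V] [FiniteDimensional F V] [Nontrivial V] (H : Subgroup (V ≃ₗ[F] V)) [Finite H] (hsol : Cfsg.IsPSolvable p H) (hOp : Cfsg.pCore p H = ⊥) (x : V ≃ₗ[F] V) (hx : x ∈ H) (n : ℕ) (hn : orderOf x = p ^ n) (r : ℕ) (hr : minpoly F (x : Module.End F V) = (Polynomial.X - 1) ^ r) : r = p ^ n ∨ ∃ n₀ q m : ℕ, 1 ≤ n₀ ∧ n₀ ≤ n ∧ q.Prime ∧ 1 ≤ m ∧ p ^ n₀ - 1 = q ^ m ∧ (∀ Q : Sylow q H, ¬ IsMulCommutative Q) ∧ p ^ (n - n₀) * (p ^ n₀ - 1) ≤ r := by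
  let ρ : H →* Module.End F V :=
    { toFun := fun h => (h.1 : Module.End F V)
      map_one' := rfl
      map_mul' := fun _ _ => rfl }
  have hρ : ρ.ker = ⊥ := by
    rw [eq_bot_iff]
    intro g hg
    exact Subtype.ext (LinearEquiv.ext fun v => LinearMap.congr_fun (MonoidHom.mem_ker.1 hg) v)
  have hint : IsIntegral F (x : Module.End F V) := IsIntegral.of_finite F _
  have h1 : (ρ ⟨x, hx⟩ - 1) ^ r = 0 := by
    have := minpoly.aeval F (x : Module.End F V)
    rw [hr, map_pow, map_sub, Polynomial.aeval_X, map_one] at this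
    exact this
  have hxo : orderOf (⟨x, hx⟩ : H) = p ^ n := by rw [← hn, Subgroup.orderOf_mk]
  have h2 : r ≤ p ^ n := by
    have h3 : minpoly F (x : Module.End F V) ∣ (Polynomial.X - 1) ^ p ^ n := by
      apply minpoly.dvd
      have := H9.sub_one_pow_char (p := p) (ρ ⟨x, hx⟩) n
      rw [← map_pow, ← hxo, pow_orderOf_eq_one, map_one, sub_self, hxo] at this
      rw [map_pow, map_sub, Polynomial.aeval_X, map_one]
      exact this
    rw [hr, ← Polynomial.C_1] at h3
    have h4 := Polynomial.natDegree_le_of_dvd h3 (pow_ne_zero _ (Polynomial.X_sub_C_ne_zero 1))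
    simpa only [Polynomial.natDegree_pow, Polynomial.natDegree_X_sub_C, mul_one] using h4
  rcases h2.eq_or_lt with h | h
  · exact Or.inl h
  right
  cases n with
  | zero =>
    obtain rfl : r = 0 := by simpa using h
    exact absurd h1 (by rw [pow_zero]; exact one_ne_zero)
  | succ n =>
    obtain ⟨n₀, q, m, a1, a2, a3, a4, a5, ⟨L, a6, a7⟩, a8⟩ :=
      H9.hall_higman_B hρ hsol hOp hxo h1 h
    haveI := Fact.mk a3
    exact ⟨n₀, q, m, a1, a2, a3, a4, a5, H9.not_comm_sylow a6 a7, a8⟩

end Cfsg.Agent.S0633
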