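import Cfsg.Statements.S0640
import Cfsg.Agent.H9.NarrowAmb

set_option autoImplicit false
open Cfsg

namespace Cfsg.Agent.S0640

/-- For odd p, a prime q ≠ p dividing the order of the automorphism group of a p-group of rank at most 2 divides p² - 1 and is less than p. -/
theorem result {R : Type*} [Group R] [Finite R] {p : ℕ} [Fact p.Prime] (hp : p ≠ 2) (hR : IsPGroup p R) (hrk : Cfsg.PRankLE p 2 R) (q : ℕ) (hq : q.Prime) (hqp : q ≠ p) (hdvd : q ∣ Nat.card (MulAut R)) : q ∣ p ^ 2 - 1 ∧ q < p := by
  have h : q ∣ p ^ 2 - 1 := by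
    haveI := Fact.mk hq
    obtain ⟨a, ha⟩ := exists_prime_orderOf_dvd_card' q hdvd
    let X := R ⋊[MonoidHom.id (MulAut R)] MulAut R
    haveI : Finite X := Finite.of_equiv _ SemidirectProduct.equivProd.symm
    let e := MonoidHom.ofInjective (SemidirectProduct.inl_injective (φ := MonoidHom.id (MulAut R)))
    haveI : (SemidirectProduct.inl (φ := MonoidHom.id (MulAut R))).range.Normal := by
      rw [SemidirectProduct.range_inl_eq_ker_rightHom]; infer_instance
    refine H9.dvd_sq_sub_one_of_narrow (G := X) hp (hR.of_equiv e)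
      (Or.inl ((H9.prank_congr e).1 hrk)) hq hqp (x := SemidirectProduct.inr a) (k := 1)
      (by rw [orderOf_injective _ SemidirectProduct.inr_injective, ha, pow_one])
      (by rw [Subgroup.normalizer_eq_top]; trivial) fun hC => ?_
    have h1 : a = 1 := by
      ext r
      have h2 := hC _ ⟨r, rfl⟩
      have h3 := congrArg SemidirectProduct.left h2
      rw [SemidirectProduct.mul_left, SemidirectProduct.mul_left] at h3
      simpa using h3.symm
    rw [h1, orderOf_one] at ha
    exact hq.one_lt.ne ha
  exact ⟨h, H9.lt_of_dvd_sq_sub_one hp hq h⟩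

end Cfsg.Agent.S0640
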