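import Cfsg.Statements.S0642
import Cfsg.Agent.H9.Regular

set_option autoImplicit false
open Cfsg

namespace Cfsg.Agent.S0642

open Subgroup
open scoped commutatorElement

/-- Among finite 2-groups the regular ones are exactly the abelian ones. -/
theorem result {G : Type*} [Group G] [Finite G] (hG : IsPGroup 2 G) : Cfsg.IsRegularPGroup 2 G ↔ ∀ a b : G, a * b = b * a := by
  constructor
  · intro h a b
    have hW := H9.wreg_of_isRegularPGroup h
    set H := Subgroup.closure ({a, b} : Set G)
    let a' : H := ⟨a, subset_closure (by simp)⟩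
    let b' : H := ⟨b, subset_closure (by simp)⟩
    have htop : Subgroup.closure ({a', b'} : Set H) = ⊤ := by
      apply map_injective H.subtype_injective
      rw [H9.map_closure_pair, ← MonoidHom.range_eq_map, range_subtype]; rfl
    obtain ⟨c, hc, e⟩ := hW.subgroup H a' b'
    rw [htop] at hc
    have h1 : ⁅b', a'⁆ ∈ powerClosure 2 1 (_root_.commutator H) := by
      have : ⁅b', a'⁆ = (a' * b' * b') * c * (a' * b' * b')⁻¹ := by
        have e' : c = (a' ^ 2 * b' ^ 2)⁻¹ * (a' * b') ^ 2 := by rw [e]; group
        rw [e']; simp [pow_two, commutatorElement_def, mul_assoc]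
      rw [this]; exact Normal.conj_mem inferInstance _ hc _
    have h2 : ⁅(⊤ : Subgroup H), (⊤ : Subgroup H)⁆ ≤ powerClosure 2 1 (_root_.commutator H) := by
      conv_lhs => rw [← htop]
      apply H9.commutator_closure_le
      rintro _ (rfl | rfl) _ (rfl | rfl)
      · simp
      · rw [← commutatorElement_inv]; exact inv_mem h1
      · exact h1
      · simp
    have h3 : ∀ k : ℕ, ∀ x ∈ _root_.commutator H, ∃ y ∈ _root_.commutator H, x = y ^ 2 ^ k := by
      intro k
      induction k with
      | zero => exact fun x hx => ⟨x, hx, by simp⟩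
      | succ k ih =>
        intro x hx
        obtain ⟨y, hy, rfl⟩ := ih x hx
        obtain ⟨z, hz, rfl⟩ := ((hW.subgroup H).mem_powerClosure_iff (hG.to_subgroup H)).1 (h2 hy)
        exact ⟨z, hz, by rw [← pow_mul, pow_one, ← pow_succ']⟩
    obtain ⟨k, hk⟩ := IsPGroup.iff_card.1 (hG.to_subgroup H)
    obtain ⟨y, -, hy⟩ := h3 k ⁅a', b'⁆ (commutator_mem_commutator trivial trivial)
    rw [← hk, pow_card_eq_one', commutatorElement_eq_one_iff_mul_comm] at hy
    exact congrArg Subtype.val hy
  · intro h
    exact ⟨hG, fun a b n => ⟨1, one_mem _, by rw [Commute.mul_pow (h a b), mul_one]⟩⟩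

end Cfsg.Agent.S0642
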