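import Cfsg.Statements.S0645
import Cfsg.Agent.H9.CycMax

set_option autoImplicit false
open Cfsg

namespace Cfsg.Agent.S0645

open Subgroup
open scoped commutatorElement

/-- Classification of p-groups with a cyclic maximal subgroup, odd p: a non-abelian one of order p^n has generators a of order p^(n-1) and b of order p, b outside the cyclic subgroup generated by a, with b a b⁻¹ = a^(1 + p^(n-2)). -/
theorem result {G : Type*} [Group G] [Finite G] {p : ℕ} [Fact p.Prime] (hp : p ≠ 2) (n : ℕ) (hn : 3 ≤ n) (hG : Nat.card G = p ^ n) (C : Subgroup G) (hC : IsCyclic C) (hCi : C.index = p) (hna : ∃ x y : G, x * y ≠ y * x) : ∃ a b : G, orderOf a = p ^ (n - 1) ∧ orderOf b = p ∧ b ∉ Subgroup.zpowers a ∧ b * a * b⁻¹ = a ^ (1 + p ^ (n - 2)) := by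
  have hp' : p.Prime := Fact.out
  have hGp : IsPGroup p G := IsPGroup.of_card hG
  obtain ⟨a, rfl⟩ := (Subgroup.isCyclic_iff_exists_zpowers_eq_top C).1 hC
  obtain ⟨x, y, hxy⟩ := hna
  have hnc : ¬ IsCyclic G := fun h => hxy (h.isMulCommutative.is_comm.comm x y)
  obtain ⟨m, b, ha, hb, hbp, htop, ⟨s, hs⟩, hz, -⟩ := H9.odd_cyclic_index hp hGp hnc hCi
  have hnm : n = m + 2 := by
    have := (zpowers a).index_mul_card
    rw [hCi, Nat.card_zpowers, ha, hG, ← pow_succ'] at this
    exact (Nat.pow_right_injective hp'.two_le this).symm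
  subst hnm
  have hzo : orderOf (a ^ p ^ m) = p := by rw [H9.orderOf_pow_prime_pow ha, pow_one]
  have hne : ⁅b, a⁆ ≠ 1 := fun h => by
    have : IsMulCommutative (⊤ : Subgroup G) := htop ▸ H9.isMulCommutative_sup_zpowers inferInstance
      (le_centralizer_iff.1 (zpowers_le.2 (by
        rintro _ ⟨k, rfl⟩
        exact ((commutatorElement_eq_one_iff_commute.1 h).zpow_left k).eq)) (mem_zpowers b))
    exact hxy (H1.isMulCommutative_iff'.1 this x trivial y trivial)
  simp only at hs
  have hsp : ¬ (p : ℤ) ∣ s := fun h => hne (by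
    rw [← hs, ← orderOf_dvd_iff_zpow_eq_one, hzo]; exact h)
  obtain ⟨t, ht⟩ : a ^ p ^ m ∈ zpowers ⁅b, a⁆ :=
    H9.mem_of_zpow_mem_of_isPGroup hGp hsp (hs ▸ mem_zpowers _)
  simp only at ht
  have hc : ⁅b ^ t, a⁆ = a ^ p ^ m := by
    rw [H9.commutator_zpow_left, ht]
    rw [← hs]; exact (H9.commute_of_mem_center hz b).zpow_right s
  have hne' : b ^ t ∉ zpowers a := by
    rintro ⟨k, hk⟩
    simp only at hk
    rw [← hk, ((Commute.refl a).zpow_left k).commutator_eq] at hc
    rw [← hc, orderOf_one] at hzo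
    exact hp'.ne_one hzo.symm
  refine ⟨a, b ^ t, ha, orderOf_eq_prime ?_ (fun h => hne' (h ▸ one_mem _)), hne', ?_⟩
  · rw [← zpow_natCast, ← zpow_mul, mul_comm, zpow_mul, zpow_natCast, hbp, one_zpow]
  · rw [Nat.add_sub_cancel, add_comm, pow_succ, ← hc, commutatorElement_def]; group

end Cfsg.Agent.S0645
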