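import Cfsg.Statements.S0662
import Cfsg.Agent.H13.MaxCl2

set_option autoImplicit false
open Cfsg

namespace Cfsg.Agent.S0662

open H13 Equiv Cfsg.FusionSystem

/-- In a p-group of maximal class of order at least p³ the normal subgroups of index at least p² are exactly the terms of the lower central series, and there are exactly p + 1 normal subgroups of index p. -/
theorem result {G : Type*} [Group G] [Finite G] {p : ℕ} [Fact p.Prime] (n : ℕ) (hG : Nat.card G = p ^ n) (hcl : Group.nilpotencyClass G = n - 1) (hn : 3 ≤ n) : (∀ (N : Subgroup G) [N.Normal] (r : ℕ), 2 ≤ r → N.index = p ^ r → N = (⊤ : Subgroup G).lowerCentralSeries (r - 1)) ∧ Nat.card {N : Subgroup G // N.Normal ∧ N.index = p} = p + 1 := by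
  have hP := IsPGroup.of_card hG
  haveI := hP.isNilpotent
  have h0 : 0 < p := (Fact.out : p.Prime).pos
  have hp1 := (Fact.out : p.Prime).one_lt
  obtain ⟨h, hc⟩ := MC.of_class hG (by omega) fun e => by
    have := Subgroup.lowerCentralSeries_eq_bot_iff_nilpotencyClass_le.1 e
    omega
  refine ⟨fun N _ r hr hN => ?_, ?_⟩
  · have h1 := N.index_mul_card
    rw [hN, hG] at h1
    have h2 : r ≤ n := (Nat.pow_le_pow_iff_right hp1).1 (Nat.le_of_dvd (pow_pos h0 n) ⟨_, h1.symm⟩)
    have h3 : Nat.card N = p ^ (n - r) := Nat.eq_of_mul_eq_mul_left (pow_pos h0 r) (by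
      rw [h1, ← pow_add]; congr 1; omega)
    have h4 : Nat.card (lc G (r - 1)) = Nat.card N := by rw [h3, hc _ (by omega)]; congr 1; omega
    by_cases h5 : N ≤ lc G (r - 1)
    · exact eq_of_le_of_card_le h5 h4.le
    · refine (eq_of_le_of_card_le ?_ h4.ge).symm
      rcases hr.eq_or_lt with rfl | h6
      · exact h.lc_one_le h5
      · exact (lc_anti (by omega)).trans (h.lc_le_of_not_le (i := r - 2) (by omega)
          (by rwa [show r - 2 + 1 = r - 1 by omega]))
  classical
  haveI := Fintype.ofFinite G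
  have h1 : lc G 1 ≠ ⊥ := fun e => by
    have := hc 1 le_rfl
    rw [e, Subgroup.card_bot] at this
    exact (Nat.one_lt_pow (by omega) hp1).ne this
  have h2 : Nat.card G = p * (p * Nat.card (lc G 1)) := by
    rw [hc 1 le_rfl, hG, ← pow_succ', ← pow_succ']; congr 1; omega
  have h3 : ∀ M : Subgroup G, M.index = p ↔ Nat.card M = p * Nat.card (lc G 1) := fun M => by
    have := M.index_mul_card.trans h2
    exact ⟨fun e => Nat.eq_of_mul_eq_mul_left h0 (e ▸ this),
      fun e => Nat.eq_of_mul_eq_mul_right (Nat.mul_pos h0 Nat.card_pos) (e ▸ this)⟩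
  have h4 : ∀ x ∉ lc G 1, (lc G 1 ⊔ Subgroup.zpowers x).index = p := fun x hx => (h3 _).2
    (H9.card_sup_zpowers Fact.out ((Subgroup.normalizer_eq_top _).ge trivial) hx (h.pow_mem_lc_one h1 x))
  let T := Finset.univ.filter fun N : Subgroup G => N.Normal ∧ N.index = p
  have h5 := Finset.card_eq_sum_card_fiberwise (s := Finset.univ.filter (· ∉ lc G 1)) (t := T)
    (f := fun x => lc G 1 ⊔ Subgroup.zpowers x) fun x hx => by
      have := h4 x (Finset.mem_filter.1 hx).2
      simpa [T] using ⟨H9.normal_of_index_eq_prime hP this, this⟩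
  have h6 : ∀ M : Subgroup G, (Finset.univ.filter (· ∈ M)).card = Nat.card M := fun M => by
    rw [← Fintype.card_subtype, Nat.card_eq_fintype_card]
  rw [Finset.sum_const_nat (m := p * Nat.card (lc G 1) - Nat.card (lc G 1)) fun M hM => by
    have h7 : M.index = p := (by simpa [T] using hM : M.Normal ∧ M.index = p).2
    have h8 : lc G 1 ≤ M := H9.commutator_le_coatom (H9.isCoatom_of_index_eq_prime h7)
    rw [← (h3 M).1 h7, ← h6, ← h6, ← Finset.card_sdiff_of_subset fun x hx =>
      Finset.mem_filter.2 ⟨Finset.mem_univ x, h8 (Finset.mem_filter.1 hx).2⟩]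
    congr 1; ext x
    simp only [Finset.mem_filter, Finset.mem_univ, true_and, Finset.mem_sdiff]
    exact ⟨fun hx => ⟨hx.2.le (Subgroup.mem_sup_right (Subgroup.mem_zpowers x)), hx.1⟩, fun hx => ⟨hx.2,
      H9.sup_zpowers_eq_of_card h8 ((h3 M).1 h7) hx.1 hx.2⟩⟩, Finset.filter_not, Finset.card_univ_sdiff, h6,
    ← Nat.card_eq_fintype_card, h2] at h5
  rw [Nat.card_eq_fintype_card, Fintype.card_subtype]
  change T.card = _
  have h7 : 0 < Nat.card (lc G 1) := Nat.card_pos
  refine Nat.eq_of_mul_eq_mul_right (show 0 < p * Nat.card (lc G 1) - Nat.card (lc G 1) by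
    rw [Nat.sub_pos_iff_lt]; nlinarith) ?_
  rw [← h5]
  have h8 : Nat.card (lc G 1) ≤ p * Nat.card (lc G 1) := Nat.le_mul_of_pos_left _ h0
  zify [h8, h8.trans (Nat.le_mul_of_pos_left _ h0)]
  ring

end Cfsg.Agent.S0662
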