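import Cfsg.Statements.S0663
import Cfsg.Agent.H9.HH5
import Cfsg.Agent.H2.BG26

set_option autoImplicit false
open Cfsg

namespace Cfsg.Agent.S0663

open Subgroup H15 in
open scoped commutatorElement in
theorem aux {L : Type*} [Group L] [Finite L] {p : ℕ} [hp : Fact p.Prime] {N G : Subgroup L}
    (hN : IsPGroup p N) (hG : IsPGroup p G) (hGN : G ≤ 𝒩(N)) {n : ℕ}
    (hc : ∀ i ≤ n, Nat.card (iterCommutator N G i) = p ^ (n - i)) {H : Subgroup L} (hH : H ≤ N)
    (hGH : G ≤ 𝒩(H)) : (∃ i ≤ n, H = iterCommutator N G i) ∧ N ≤ 𝒩(H) := by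
  have hT : IsPGroup p (N ⊔ G : Subgroup L) := hN.to_sup_of_normal_left' hG hGN
  have hb : iterCommutator N G n = ⊥ := eq_bot_of_card_eq _ (by simpa using hc n le_rfl)
  have hm : ∀ i < n, Nat.card (iterCommutator N G i) = p * Nat.card (iterCommutator N G (i + 1)) :=
    fun i hi => by rw [hc i hi.le, hc _ hi, ← pow_succ']; congr 1; omega
  have hn : ∀ i ≤ n, N ⊔ G ≤ 𝒩(iterCommutator N G i) ∧ iterCommutator N G i ≤ N := fun i hi => by
    induction i with
    | zero => exact ⟨sup_le (le_norm_self N) hGN, le_rfl⟩
    | succ i ih =>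
      obtain ⟨h1, h2⟩ := ih (by omega)
      have h3 := H2.comm_lt_of_pgroup (hN.to_le h2) hT h1 fun e => by
        have := hc i (by omega)
        rw [e, card_bot] at this
        exact (Nat.one_lt_pow (by omega) hp.out.one_lt).ne this
      have h4 : iterCommutator N G (i + 1) ≤ ⁅iterCommutator N G i, N ⊔ G⁆ :=
        commutator_mono le_rfl le_sup_right
      rw [← (H9.eq_or_eq_of_card_eq_mul h4 h3.le (hm i hi)).resolve_right h3.ne]
      exact ⟨le_norm_comm h1 (le_norm_self _), h3.le.trans h2⟩
  suffices h : ∃ i ≤ n, H = iterCommutator N G i from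
    ⟨h, by obtain ⟨i, hi, rfl⟩ := h; exact le_sup_left.trans (hn i hi).1⟩
  have key : ∀ i ≤ n, H ≤ iterCommutator N G i ∨ ∃ i ≤ n, H = iterCommutator N G i := fun i hi => by
    induction i with
    | zero => exact Or.inl hH
    | succ i ih =>
      refine (ih (by omega)).elim (fun h1 => ?_) Or.inr
      by_cases h2 : H ≤ iterCommutator N G (i + 1)
      · exact Or.inl h2
      refine Or.inr ⟨i, by omega, le_antisymm h1 ?_⟩
      have h3 : ∀ j, j + 1 ≤ n → iterCommutator N G (j + 1) ≤ iterCommutator N G j := fun j hj =>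
        comm_le_left (le_sup_right.trans (hn j (by omega)).1)
      have h4 : ∀ k, i + k + 1 ≤ n →
          iterCommutator N G (i + k) ≤ H ⊔ iterCommutator N G (i + k + 1) := fun k hk => by
        induction k with
        | zero =>
          exact ((H9.eq_or_eq_of_card_eq_mul le_sup_right (sup_le h1 (h3 i hi))
            (hm i hi)).resolve_left fun e => h2 (le_sup_left.trans e.le)).ge
        | succ k ih =>
          refine commutator_le.2 fun x hx g hg => ?_
          obtain ⟨a, ha, d, hd, rfl⟩ := (H1.mem_sup_of_le_normalizer_right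
            ((hH.trans le_sup_left).trans (hn _ (by omega)).1)).1 (ih (by omega) hx)
          rw [show ⁅a * d, g⁆ = a * ⁅d, g⁆ * a⁻¹ * ⁅a, g⁆ by
            simp only [commutatorElement_def]; group]
          exact mul_mem (mul_mem (mul_mem (mem_sup_left ha) (mem_sup_right
            (commutator_mem_commutator hd hg))) (inv_mem (mem_sup_left ha)))
            (mem_sup_left (comm_le_left hGH (commutator_mem_commutator ha hg)))
      have h5 : ∀ k, i + k + 1 ≤ n →
          iterCommutator N G i ≤ H ⊔ iterCommutator N G (i + k + 1) := fun k hk => by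
        induction k with
        | zero => exact h4 0 hk
        | succ k ih => exact (ih (by omega)).trans (sup_le le_sup_left (h4 (k + 1) hk))
      have h6 := h5 (n - (i + 1)) (by omega)
      rwa [show i + (n - (i + 1)) + 1 = n by omega, hb, sup_bot_eq] at h6
  exact (key n le_rfl).elim (fun h => ⟨n, le_rfl, le_antisymm h (hb.le.trans bot_le)⟩) id

/-- A p-group acts uniserially on a p-group N of order p^n exactly when the iterated commutator chain from N has length n; in that case the chain terms are all the invariant subgroups of N and they are normal in N. -/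
theorem result {L : Type*} [Group L] [Finite L] {p : ℕ} [Fact p.Prime] (N G : Subgroup L) (hN : IsPGroup p N) (hG : IsPGroup p G) (hGN : G ≤ Subgroup.normalizer (N : Set L)) (n : ℕ) (hn : Nat.card N = p ^ n) : ((∀ H : Subgroup L, H ≤ N → G ≤ Subgroup.normalizer (H : Set L) → H ≠ ⊥ → (⁅H, G⁆).relIndex H = p) ↔ Cfsg.iterCommutator N G (n - 1) ≠ ⊥ ∨ n = 0) ∧ ((∀ H : Subgroup L, H ≤ N → G ≤ Subgroup.normalizer (H : Set L) → H ≠ ⊥ → (⁅H, G⁆).relIndex H = p) → ∀ H : Subgroup L, H ≤ N → G ≤ Subgroup.normalizer (H : Set L) → (∃ i ≤ n, H = Cfsg.iterCommutator N G i) ∧ N ≤ Subgroup.normalizer (H : Set L)) := by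
  have hp : p.Prime := Fact.out
  have h0 : ∀ i, G ≤ Subgroup.normalizer (iterCommutator N G i : Set L) ∧
      iterCommutator N G i ≤ N := fun i => by
    induction i with
    | zero => exact ⟨hGN, le_rfl⟩
    | succ i ih =>
      exact ⟨H15.le_norm_comm ih.1 (H15.le_norm_self G), (H15.comm_le_left ih.1).trans ih.2⟩
  have hr : ∀ i, Nat.card (iterCommutator N G (i + 1)) *
      (iterCommutator N G (i + 1)).relIndex (iterCommutator N G i) =
        Nat.card (iterCommutator N G i) := fun i => by
    have := ((iterCommutator N G (i + 1)).subgroupOf (iterCommutator N G i)).card_mul_index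
    rwa [Nat.card_congr (Subgroup.subgroupOfEquivOfLe (show iterCommutator N G (i + 1) ≤ _ from
      H15.comm_le_left (h0 i).1)).toEquiv] at this
  have hne : ∀ (H : Subgroup L) (k : ℕ), Nat.card H = p ^ (k + 1) → H ≠ ⊥ := fun H k h e => by
    rw [e, Subgroup.card_bot] at h
    exact (Nat.one_lt_pow (by omega) hp.one_lt).ne h
  have h1 : (∀ H : Subgroup L, H ≤ N → G ≤ Subgroup.normalizer (H : Set L) → H ≠ ⊥ →
      (⁅H, G⁆).relIndex H = p) → ∀ i ≤ n, Nat.card (iterCommutator N G i) = p ^ (n - i) := by
    intro h i hi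
    induction i with
    | zero => exact hn
    | succ i ih =>
      have h2 := ih (by omega)
      rw [show n - i = n - (i + 1) + 1 by omega] at h2
      have h3 := hr i
      rw [show (iterCommutator N G (i + 1)).relIndex _ = p from
        h _ (h0 i).2 (h0 i).1 (hne _ _ h2), h2, pow_succ] at h3
      exact Nat.eq_of_mul_eq_mul_right hp.pos h3
  refine ⟨⟨fun h => ?_, fun h H hH hGH hH0 => ?_⟩, fun h H hH hGH => aux hN hG hGN (h1 h) hH hGH⟩
  · rcases n with _ | n
    · exact Or.inr rfl
    · exact Or.inl (hne _ 0 (by simpa using h1 h n (by omega)))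
  have hc : ∀ i ≤ n, Nat.card (iterCommutator N G i) = p ^ (n - i) := by
    rcases n with _ | n
    · intro i hi
      obtain rfl : i = 0 := by omega
      exact hn
    replace h : iterCommutator N G n ≠ ⊥ := by simpa using h
    choose a ha using fun i => IsPGroup.iff_card.1 (hN.to_le (h0 i).2)
    have h2 : ∀ k i, i + k = n → iterCommutator N G i ≠ ⊥ := fun k => by
      induction k with
      | zero => exact fun i hi => (show n = i from hi.symm) ▸ h
      | succ k ih =>
        intro i hi e
        refine ih (i + 1) (by omega) ?_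
        show ⁅iterCommutator N G i, G⁆ = ⊥
        rw [e, Subgroup.commutator_bot_left]
    have h3 : ∀ i ≤ n, a (i + 1) < a i := fun i hi => by
      have := H1.card_lt_of_lt (H2.comm_lt_of_pgroup (hN.to_le (h0 i).2) hG (h0 i).1
        (h2 (n - i) i (by omega)))
      rw [ha i] at this
      exact (Nat.pow_lt_pow_iff_right hp.one_lt).1 ((ha (i + 1)).ge.trans_lt this)
    have h4 : a 0 = n + 1 := Nat.pow_right_injective hp.two_le ((ha 0).symm.trans hn)
    have h5 : ∀ k i, i + k ≤ n + 1 → a (i + k) + k ≤ a i := fun k => by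
      induction k with
      | zero => exact fun i _ => le_rfl
      | succ k ih =>
        intro i hi
        have := ih i (by omega)
        have := h3 (i + k) (by omega)
        show a (i + k + 1) + (k + 1) ≤ a i
        omega
    intro i hi
    have h6 := h5 i 0 (by omega)
    have h7 := h5 (n + 1 - i) i (by omega)
    rw [zero_add] at h6
    rw [ha i]
    congr 1
    omega
  obtain ⟨⟨i, hi, rfl⟩, -⟩ := aux hN hG hGN hc hH hGH
  have hi' : i < n := lt_of_le_of_ne hi fun e => hH0
    (Subgroup.eq_bot_of_card_eq _ (by simpa [e] using hc i hi))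
  have h3 := hr i
  rw [hc i hi, hc _ hi', show n - i = n - (i + 1) + 1 by omega, pow_succ] at h3
  exact Nat.eq_of_mul_eq_mul_left (pow_pos hp.pos _) h3

end Cfsg.Agent.S0663
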