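import Cfsg.Statements.S0666
import Cfsg.Agent.H2.BG33
import Cfsg.Agent.H2.Frob
import Cfsg.Agent.S0035
import Cfsg.Agent.S0039

set_option autoImplicit false
open Cfsg

namespace Cfsg.Agent.S0666

/-- A Frobenius group acting on a nontrivial abelian group of order prime to that of its kernel, with the kernel acting without nontrivial fixed points, has a complement with a nontrivial fixed point. -/
theorem result {G : Type*} [Group G] [Finite G] (V F : Subgroup G) (hVab : IsMulCommutative V) (hV1 : V ≠ ⊥) (hFV : F ≤ Subgroup.normalizer (V : Set G)) (H : Subgroup ↥F) (hH : Cfsg.IsFrobeniusComplement H) (hcop : (Nat.card V).Coprime (Nat.card (Cfsg.frobeniusKernel H))) (hCK : V ⊓ Subgroup.centralizer (Subtype.val '' Cfsg.frobeniusKernel H : Set G) = ⊥) : V ⊓ Subgroup.centralizer ((H.map F.subtype : Subgroup G) : Set G) ≠ ⊥ := by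
  intro hfix
  obtain ⟨N, hN, hNn, hc⟩ := Cfsg.Agent.S0035.result H hH
  have hN1 : N ≠ ⊥ := by
    rintro rfl
    have := hc.sup_eq_top
    rw [bot_sup_eq] at this
    exact hH.2.1 this
  have hfr := (Cfsg.Agent.S0039.result N H hc hN1 hH.1).1 hH
  have hK : ((N.map F.subtype : Subgroup G) : Set G) = Subtype.val '' Cfsg.frobeniusKernel H := by
    rw [← hN]; rfl
  have hcard : Nat.card (N.map F.subtype) = Nat.card (Cfsg.frobeniusKernel H) := by
    rw [Subgroup.card_map_of_injective F.subtype_injective, ← hN]; rfl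
  have := H2.bg3_3' (K := N.map F.subtype) (R := H.map F.subtype) (V := V)
    (H1.le_normalizer_map Subgroup.le_normalizer_of_normal _) ?_ hVab
    ((Subgroup.map_subtype_le _).trans hFV) ((Subgroup.map_subtype_le _).trans hFV)
    (hcard ▸ hcop) hfix
  · apply hV1
    rw [← hCK, ← hK, eq_comm, inf_eq_left]
    exact Subgroup.le_centralizer_iff.1 this
  · rintro _ ⟨r, hr, rfl⟩ hr1
    refine H2.inf_centralizer_eq_bot_of ?_
    rintro _ ⟨k, hk, rfl⟩ h
    have := H2.eq_one_of_inf_centralizer (hfr r hr (fun h => hr1 (by simp [h]))) hk (Subtype.ext h)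
    simp [this]

end Cfsg.Agent.S0666
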