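import Cfsg.Statements.S0668
import Mathlib
import Cfsg.Agent.H25.PermRep

set_option autoImplicit false
open Cfsg

namespace Cfsg.Agent.S0668

open MulAction H25

/-- The equivariant linear maps between the permutation modules of two finite `G`-sets form a space whose dimension is the number of `G`-orbits on the product of the two sets. -/
theorem result {G : Type*} [Group G] {K : Type*} [Field K] {Ω₁ Ω₂ : Type*} [Fintype Ω₁] [Fintype Ω₂] [MulAction G Ω₁] [MulAction G Ω₂] : Module.finrank K ((Cfsg.permRep K G Ω₁).linHom (Cfsg.permRep K G Ω₂)).invariants = Nat.card (MulAction.orbitRel.Quotient G (Ω₁ × Ω₂)) := by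
  classical
  let Φ : (orbitRel.Quotient G (Ω₁ × Ω₂) → K) →ₗ[K] ((Ω₁ → K) →ₗ[K] (Ω₂ → K)) :=
    { toFun := fun c => kerMap fun a b => c (Quotient.mk _ (a, b))
      map_add' := fun c d => by
        ext f b; simp [kerMap_apply, add_mul, Finset.sum_add_distrib]
      map_smul' := fun r c => by
        ext f b; simp [kerMap_apply, Finset.mul_sum, mul_assoc] }
  have hinj : Function.Injective Φ := by
    rw [injective_iff_map_eq_zero]
    intro c hc
    ext q
    induction q using Quotient.inductionOn with | h x => ?_
    have := congrFun (DFunLike.congr_fun hc (Pi.single x.1 1)) x.2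
    exact (kerMap_single _ _ _).symm.trans this
  have hrange : LinearMap.range Φ =
      ((Cfsg.permRep K G Ω₁).linHom (Cfsg.permRep K G Ω₂)).invariants := by
    ext T
    rw [Representation.mem_invariants]
    simp only [Representation.linHom_apply]
    rw [Representation.mem_linHom_invariants_iff_isIntertwining,
      Representation.isIntertwiningMap_iff]
    constructor
    · rintro ⟨c, rfl⟩ g v
      refine kerMap_equivariant _ (fun g a b => ?_) g v
      exact congrArg c (Quotient.sound ⟨g, rfl⟩)
    · intro h
      refine ⟨Quotient.lift (fun x => T (Pi.single x.1 1) x.2) ?_, (eq_kerMap T).symm⟩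
      rintro x y ⟨g, rfl⟩
      have := congrFun (h g (Pi.single y.1 1)) (g • y.2)
      rw [permRep_single, permRep_apply, inv_smul_smul] at this
      exact this
  rw [← hrange, LinearMap.finrank_range_of_inj hinj, Module.finrank_pi, Nat.card_eq_fintype_card]

end Cfsg.Agent.S0668
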