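import Cfsg.Statements.S0677
import Cfsg.Agent.H25.Fisher
import Cfsg.Agent.H25.Socle
import Cfsg.Agent.H25.ExtPrim
import Cfsg.Agent.H7.PGrp
import Cfsg.Agent.S0676

set_option autoImplicit false
open Cfsg

namespace Cfsg.Agent.S0677

open MulAction Subgroup H25
open scoped Pointwise

/-- In a transitive permutation group of prime degree `p` whose Sylow `p`-normaliser has even order, the point stabilisers are the only subgroups of index `p`. -/
theorem result {α : Type*} [Fintype α] [DecidableEq α] {p : ℕ} [Fact p.Prime] (hα : Fintype.card α = p) (G : Subgroup (Equiv.Perm α)) [MulAction.IsPretransitive G α] (P : Sylow p G) (heven : Even (Nat.card (Subgroup.normalizer ((P : Subgroup G) : Set G)))) (H : Subgroup G) (hH : H.index = p) : ∃ a : α, H = MulAction.stabilizer G a := by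
  have hp : p.Prime := Fact.out
  have hα' : Nat.card α = p := by rw [Nat.card_eq_fintype_card, hα]
  obtain ⟨a⟩ := (Nat.card_pos_iff.1 (hα' ▸ hp.pos)).1
  have hpH : ¬ p ∣ Nat.card H := fun h => P.not_dvd_index (by
    have e := H.index_mul_card.trans (P : Subgroup G).card_mul_index.symm
    rw [hH, card_sylow_of_prime_degree hα' P] at e
    exact Nat.eq_of_mul_eq_mul_left hp.pos e ▸ h)
  have hnt : ∀ K : Subgroup G, K ≤ H → ¬ IsPretransitive K α := fun K hK ht =>
    hpH ((hα' ▸ Dvd.intro _ (card_eq_card_mul_card_stabilizer (G := K) a).symm).trans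
      (card_dvd_of_le hK))
  have := prim_of_prime_degree (G := G) hα'
  have hfix : ∀ x : α, (∀ h ∈ H, h • x = x) → ∃ a : α, H = stabilizer G a := fun x hx =>
    ⟨x, eq_of_le_of_card_ge hx (by
      have e := H.index_mul_card.trans (card_eq_card_mul_card_stabilizer x)
      rw [hH, hα'] at e
      exact (Nat.eq_of_mul_eq_mul_left hp.pos e).ge)⟩
  by_cases hs : Group.IsSolvable G
  · have : Nontrivial α := Finite.one_lt_card_iff_nontrivial.1 (hα' ▸ hp.one_lt)
    obtain ⟨g, hg⟩ := H1.corefree_coatom_conj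
      (IsPreprimitive.isCoatom_stabilizer_of_isPreprimitive G a) (H7.isCoatom_of_index_prime hH)
      (corefree_stabilizer a) (by
        by_contra h
        exact hnt _ (normalCore_le H) (normal_transitive_of_primitive _ h))
    exact ⟨g • a, by rw [stabilizer_smul_eq, hg]⟩
  have h3 := Cfsg.Agent.S0676.result hα G hs P heven
  by_contra hcon
  have hfix' : ∀ x : α, ∃ h ∈ H, h • x ≠ x := fun x => by
    by_contra h
    push Not at h
    exact hcon (hfix x h)
  obtain ⟨a, b, hab⟩ : ∃ a b : α, b ∉ orbit H a := by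
    by_contra h
    push Not at h
    exact hnt H le_rfl ⟨h⟩
  have key : ∀ b c : α, c ∉ orbit H b → ∀ g : G, g • b = a →
      p - 1 ≤ (orbit (stabilizer G a) (g : G ⧸ H)).ncard := by
    intro b c hbc g hg
    obtain ⟨h, hh, hb⟩ := hfix' b
    have h2 := (SubMulAction.ofStabilizer.isMultiplyPretransitive (a := a)).1 h3
    rw [← index_stabilizer, ← hα', ← card_ofStabilizer (G := G) a]
    refine card_le_index_of_inv h2 _ (Δ := {x | g⁻¹ • (x : α) ∈ orbit H b}) (fun k hk x hx => ?_)
      (y₀ := ⟨g • h • b, fun e => hb (smul_left_cancel g (e.trans hg.symm))⟩)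
      (y₁ := ⟨g • c, fun e => hbc ?_⟩) ?_ ?_
    · have h1 : g⁻¹ * k * g ∈ H := by
        have := QuotientGroup.eq.1 (show (((k : G) * g : G) : G ⧸ H) = g from hk).symm
        rwa [mul_assoc]
      have := mem_orbit_of_mem_orbit (⟨_, h1⟩ : H) hx
      change (g⁻¹ * k * g) • g⁻¹ • (x : α) ∈ _ at this
      rwa [mul_smul, smul_inv_smul, mul_smul] at this
    · rw [← smul_left_cancel g (hg.trans e.symm)]; exact mem_orbit_self _
    · exact ⟨⟨h, hh⟩, (inv_smul_smul g _).symm⟩
    · intro e
      simp only [Set.mem_setOf_eq, inv_smul_smul] at e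
      exact hbc e
  have hba : a ∉ orbit H b := fun e => hab (orbitRel_apply.1 ((orbitRel H α).symm e))
  obtain ⟨g, hg⟩ := exists_smul_eq G b a
  have k1 := key a b hab 1 (one_smul _ _)
  have k2 := key b a hba g hg
  have hd : Disjoint (orbit (stabilizer G a) ((1 : G) : G ⧸ H)) (orbit (stabilizer G a) (g : G ⧸ H)) := by
    rw [Set.disjoint_left]
    rintro _ ⟨k, rfl⟩ ⟨l, hl⟩
    have : ((l : G) * g)⁻¹ * (k * 1) ∈ H := QuotientGroup.eq.1 hl
    refine hab ⟨⟨_, this⟩, ?_⟩
    change (((l : G) * g)⁻¹ * (k * 1)) • a = b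
    rw [mul_one, mul_smul, show (k : G) • a = a from k.2, inv_smul_eq_iff, mul_smul, hg]
    exact l.2.symm
  have k3 := Set.ncard_le_card (orbit (stabilizer G a) ((1 : G) : G ⧸ H) ∪
    orbit (stabilizer G a) (g : G ⧸ H))
  rw [Set.ncard_union_eq hd, ← index, hH] at k3
  obtain ⟨h, hh, hb⟩ := hfix' b
  have k4 := Fintype.two_lt_card_iff.2 ⟨a, b, h • b, fun e => hba (e ▸ mem_orbit_self _),
    fun e => hba ⟨⟨h, hh⟩, e.symm⟩, hb.symm⟩
  omega

end Cfsg.Agent.S0677
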