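import Cfsg.Statements.S0680
import Mathlib
import Cfsg.Agent.H25.FrobPerm

set_option autoImplicit false
open Cfsg

namespace Cfsg.Agent.S0680

open MulAction H25

/-- A finite sharply doubly transitive permutation group has degree a prime power `p ^ j`; a Sylow `p`-subgroup is normal, elementary abelian and regular, and consists of the identity together with the elements without fixed points. (Frobenius' Theorem is not needed.) -/
theorem result {α : Type*} [Fintype α] [DecidableEq α] (G : Subgroup (Equiv.Perm α)) [MulAction.IsMultiplyPretransitive G α 2] (hsharp : ∀ x : Fin 2 ↪ α, MulAction.stabilizer G x = ⊥) (h2 : 2 ≤ Fintype.card α) : ∃ p j : ℕ, p.Prime ∧ 1 ≤ j ∧ Fintype.card α = p ^ j ∧ ∀ (hp : Fact p.Prime) (P : Sylow p G), (P : Subgroup G).Normal ∧ IsMulCommutative (P : Subgroup G) ∧ (∀ x ∈ (P : Subgroup G), x ^ p = 1) ∧ MulAction.IsPretransitive (P : Subgroup G) α ∧ (∀ a : α, MulAction.stabilizer (P : Subgroup G) a = ⊥) ∧ ∀ g : G, g ∈ (P : Subgroup G) ↔ g = 1 ∨ ∀ a : α, g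 • a ≠ a := by
  have : Nontrivial α := Fintype.one_lt_card_iff_nontrivial.1 h2
  have : IsPretransitive G α := isPretransitive_of_is_two_pretransitive
  have hs := (sharp_two_iff (G := G) (α := α)).1 hsharp
  obtain ⟨a, b, hab⟩ := exists_pair_ne α
  obtain ⟨N, hNn, hN, hNt, hNr⟩ := frobenius_perm (G := G) a hs
  obtain ⟨p, j, hp, hj, hcard, hcomm, hpow⟩ := elemAb_of_regular_normal inferInstance N hNt hNr
  refine ⟨p, j, hp, hj, by rw [← hcard, Nat.card_eq_fintype_card], fun _ P => ?_⟩
  have hNp : IsPGroup p N := fun x => ⟨1, Subtype.ext (by simpa using hpow x x.2)⟩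
  have hle : N ≤ P := hNp.le_sylow_of_normal P
  have hPN : (P : Subgroup G) = N := by
    refine le_antisymm (fun g hg => ?_) hle
    rw [hN]
    by_contra hcon
    push Not at hcon
    obtain ⟨hg1, x, hx⟩ := hcon
    have hQ : IsPGroup p (Subgroup.zpowers g) :=
      P.isPGroup'.to_le (by rwa [Subgroup.zpowers_le])
    obtain ⟨y, hy, hy'⟩ := exists_fixed_of_not_dvd (Subgroup.zpowers g) hQ {x}ᶜ (by
      rintro _ ⟨i, rfl⟩ y hy h
      apply hy
      have h1 : (g ^ i) • x = x := by
        have : g ^ i ∈ stabilizer G x := Subgroup.zpow_mem _ hx i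
        exact this
      rw [Set.mem_singleton_iff] at h ⊢
      rw [← h1] at h
      exact (smul_left_cancel_iff _).1 h) (by
      rw [Set.ncard_compl, Set.ncard_singleton, hcard]
      intro h
      have h1 : p ∣ p ^ j := dvd_pow_self p (by omega)
      have h2 := Nat.dvd_sub h1 h
      rw [Nat.sub_sub_self (Nat.one_le_pow _ _ hp.pos)] at h2
      exact hp.one_lt.ne' (Nat.dvd_one.1 h2))
    exact hg1 (hs x y (Ne.symm hy) g hx (hy' g (Subgroup.mem_zpowers g)))
  rw [hPN]
  exact ⟨hNn, ⟨⟨fun x y => Subtype.ext (hcomm _ x.2 _ y.2)⟩⟩, hpow, hNt, hNr, hN⟩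

end Cfsg.Agent.S0680
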