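import Cfsg.Statements.S0681
import Mathlib
import Cfsg.Agent.H25.Basic
import Cfsg.Agent.H25.NearField

set_option autoImplicit false
open Cfsg

namespace Cfsg.Agent.S0681

open H25 H25.NF

/-- The affine maps `x ↦ x * a + b`, `a ≠ 0`, of a near-field form a sharply doubly transitive permutation group. -/
theorem result {F : Type*} [Cfsg.NearField F] : ∃ H : Subgroup (Equiv.Perm F), (∀ σ : Equiv.Perm F, σ ∈ H ↔ ∃ a b : F, a ≠ 0 ∧ ∀ x : F, σ x = x * a + b) ∧ MulAction.IsMultiplyPretransitive H F 2 ∧ ∀ x : Fin 2 ↪ F, MulAction.stabilizer H x = ⊥ := by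
  let H : Subgroup (Equiv.Perm F) :=
    { carrier := {σ | ∃ a b : F, a ≠ 0 ∧ ∀ x : F, σ x = x * a + b}
      one_mem' := ⟨1, 0, one_ne_zero', fun x => by simp⟩
      mul_mem' := by
        rintro σ τ ⟨a, b, ha, hσ⟩ ⟨c, d, hc, hτ⟩
        refine ⟨c * a, d * a + b, mul_ne_zero' hc ha, fun x => ?_⟩
        rw [Equiv.Perm.mul_apply, hτ, hσ, add_mul', mul_assoc, add_assoc]
      inv_mem' := by
        rintro σ ⟨a, b, ha, hσ⟩
        obtain ⟨c, hc, hac, hca⟩ := exists_inv' ha
        refine ⟨c, (-b) * c, hc, fun x => ?_⟩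
        rw [Equiv.Perm.inv_eq_iff_eq, hσ, ← add_mul', mul_assoc, hca, mul_one, add_assoc,
          neg_add_cancel, add_zero] }
  refine ⟨H, fun σ => Iff.rfl, ?_, ?_⟩
  · have key : ∀ c d : F, c ≠ d → ∃ g : H, g • (0 : F) = c ∧ g • (1 : F) = d := by
      intro c d hcd
      have hne : d - c ≠ 0 := sub_ne_zero.2 hcd.symm
      obtain ⟨φ, hφ⟩ := exists_addEquiv hne
      refine ⟨⟨φ.toEquiv.trans (Equiv.addRight c), d - c, c, hne, fun x => ?_⟩, ?_, ?_⟩
      · change φ x + c = _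
        rw [hφ]
      · change φ 0 + c = _
        rw [map_zero, zero_add]
      · change φ 1 + c = _
        rw [hφ, one_mul, sub_add_cancel]
    rw [MulAction.is_two_pretransitive_iff]
    intro x y c d hxy hcd
    obtain ⟨g, hg1, hg2⟩ := key x y hxy
    obtain ⟨h, hh1, hh2⟩ := key c d hcd
    refine ⟨h * g⁻¹, ?_, ?_⟩
    · rw [← hg1, mul_smul, inv_smul_smul, hh1]
    · rw [← hg2, mul_smul, inv_smul_smul, hh2]
  · refine (sharp_two_iff (G := H) (α := F)).2 ?_
    rintro x y hxy ⟨σ, a, b, ha, hσ⟩ hx hy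
    change σ x = x at hx
    change σ y = y at hy
    rw [hσ] at hx hy
    have h1 : (x - y) * a = (x - y) * 1 := by
      rw [sub_mul', mul_one]
      conv_rhs => rw [← hx, ← hy]
      rw [add_sub_add_right_eq_sub]
    have ha1 : a = 1 := mul_left_cancel' (sub_ne_zero.2 hxy) h1
    rw [ha1, mul_one] at hx
    have hb : b = 0 := add_eq_left.1 hx
    apply Subtype.ext
    ext z
    change σ z = z
    rw [hσ, ha1, hb, mul_one, add_zero]

end Cfsg.Agent.S0681
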