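import Cfsg.Statements.S0682
import Mathlib
import Cfsg.Agent.H25.Fix
import Cfsg.Agent.H25.NearField

set_option autoImplicit false
open Cfsg

namespace Cfsg.Agent.S0682

open H25 H25.NF

/-- A finite near-field has prime-power order; its additive group is commutative of prime exponent. -/
theorem result {F : Type*} [Cfsg.NearField F] [Finite F] : ∃ p j : ℕ, p.Prime ∧ 1 ≤ j ∧ Nat.card F = p ^ j ∧ (∀ x y : F, x + y = y + x) ∧ ∀ x : F, p • x = 0 := by
  have : Nontrivial (Multiplicative F) := ⟨Multiplicative.ofAdd 1, Multiplicative.ofAdd 0,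
    fun h => one_ne_zero' (Multiplicative.ofAdd.injective h)⟩
  obtain ⟨p, j, hp, hj, hcard, hcomm, hpow⟩ := elemAb_of_trans_aut (N := Multiplicative F) (by
    intro x y hx hy
    have hx' : x.toAdd ≠ 0 := hx
    have hy' : y.toAdd ≠ 0 := hy
    obtain ⟨c, hc, hxc, -⟩ := exists_inv' hx'
    obtain ⟨φ, hφ⟩ := exists_addEquiv (mul_ne_zero' hc hy')
    refine ⟨AddEquiv.toMultiplicative φ, ?_⟩
    change Multiplicative.ofAdd (φ x.toAdd) = y
    rw [hφ, ← mul_assoc, hxc, one_mul]
    rfl)
  exact ⟨p, j, hp, hj, hcard, fun x y => hcomm (Multiplicative.ofAdd x) (Multiplicative.ofAdd y),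
    fun x => hpow (Multiplicative.ofAdd x)⟩

end Cfsg.Agent.S0682
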