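import Cfsg.Statements.S0683
import Mathlib
import Cfsg.Agent.H25.FrobPerm

set_option autoImplicit false
open Cfsg

namespace Cfsg.Agent.S0683

open MulAction H25

/-- A finite sharply doubly transitive permutation group is the affine group of a near-field: the permuted set carries a near-field structure for which the group consists exactly of the maps `x ↦ x * a + b` with `a ≠ 0`. -/
theorem result {α : Type*} [Fintype α] [DecidableEq α] (H : Subgroup (Equiv.Perm α)) [MulAction.IsMultiplyPretransitive H α 2] (hsharp : ∀ x : Fin 2 ↪ α, MulAction.stabilizer H x = ⊥) (h2 : 2 ≤ Fintype.card α) : ∃ _ : Cfsg.NearField α, ∀ σ : Equiv.Perm α, σ ∈ H ↔ ∃ a b : α, a ≠ 0 ∧ ∀ x : α, σ x = x * a + b := by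
  have : Nontrivial α := Fintype.one_lt_card_iff_nontrivial.1 h2
  have : IsPretransitive H α := isPretransitive_of_is_two_pretransitive
  have hs := (sharp_two_iff (G := H) (α := α)).1 hsharp
  obtain ⟨o, e, hoe⟩ := exists_pair_ne α
  obtain ⟨N, hNn, hN, hNt, hNr⟩ := frobenius_perm (G := H) o hs
  obtain ⟨p, j, -, -, -, hcomm, -⟩ := elemAb_of_regular_normal inferInstance N hNt hNr
  have hbij := bijective_smul_of_regular o (hNr o)
  let ν : α ≃ N := (Equiv.ofBijective _ hbij).symm
  have hν : ∀ x, ν x • o = x := fun x => (Equiv.ofBijective _ hbij).apply_symm_apply x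
  have hν' : ∀ n : N, ν (n • o) = n := fun n => (Equiv.ofBijective _ hbij).symm_apply_apply n
  letI A : AddGroup α := (ν.trans Additive.ofMul).addGroup
  have hadd : ∀ x y : α, x + y = ν y • x := by
    intro x y
    change (ν x * ν y) • o = _
    rw [show ν x * ν y = ν y * ν x from Subtype.ext (hcomm _ (ν x).2 _ (ν y).2), mul_smul, hν]
  have hzero : (0 : α) = o := one_smul N o
  have hex : ∀ a : α, ∃ h : H, a ≠ o → h • o = o ∧ h • e = a := by
    intro a
    by_cases ha : a = o
    · exact ⟨1, fun h => absurd ha h⟩
    · obtain ⟨h, hh⟩ := is_two_pretransitive_iff.1 (inferInstance : IsMultiplyPretransitive H α 2)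
        hoe (Ne.symm ha)
      exact ⟨h, fun _ => hh⟩
  choose η hη using hex
  have huniq : ∀ (h : H) (a : α), h • o = o → h • e = a → a ≠ o ∧ η a = h := by
    intro h a h1 h2
    have ha : a ≠ o := by
      rw [← h2]
      conv_rhs => rw [← h1]
      simpa using hoe.symm
    refine ⟨ha, ?_⟩
    have := hs o e hoe (h⁻¹ * η a) (by rw [mul_smul, (hη a ha).1, inv_smul_eq_iff, h1])
      (by rw [mul_smul, (hη a ha).2, inv_smul_eq_iff, h2])
    exact (inv_mul_eq_one.1 this).symm
  let M : Monoid α :=
    { mul := fun x a => if a = o then o else η a • x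
      one := e
      mul_assoc := fun x a b => by
        change (if b = o then o else η b • (if a = o then o else η a • x)) =
          if (if b = o then o else η b • a) = o then o else η (if b = o then o else η b • a) • x
        by_cases hb : b = o
        · simp [hb]
        by_cases ha : a = o
        · simp [hb, ha, (hη b hb).1]
        obtain ⟨h1, h2⟩ := huniq (η b * η a) (η b • a) (by rw [mul_smul, (hη a ha).1, (hη b hb).1])
          (by rw [mul_smul, (hη a ha).2])
        simp only [hb, ha, if_false, h1, h2, mul_smul]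
      one_mul := fun a => by
        change (if a = o then o else η a • e) = a
        by_cases ha : a = o
        · simp [ha]
        · simp only [ha, if_false, (hη a ha).2]
      mul_one := fun a => by
        change (if e = o then o else η e • a) = a
        rw [if_neg hoe.symm, (huniq 1 e (one_smul _ _) (one_smul _ _)).2, one_smul] }
  have hmul : ∀ x a : α, x * a = if a = o then o else η a • x := fun _ _ => rfl
  refine ⟨{ A, M with
    right_distrib := fun x y a => ?_
    mul_zero := fun a => ?_
    zero_ne_one := ?_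
    exists_inv := fun a ha => ?_ }, fun σ => ?_⟩
  · rw [hmul, hmul, hmul]
    by_cases ha : a = o
    · simp only [ha, if_true]
      rw [← hzero, add_zero]
    · simp only [ha, if_false, hadd]
      have h1 : ν (η a • y) = MulAut.conjNormal (η a) (ν y) := by
        rw [← hν' (MulAut.conjNormal (η a) (ν y))]
        congr 1
        change _ = (η a * ν y * (η a)⁻¹) • o
        rw [mul_smul, inv_smul_eq_iff.2 (hη a ha).1.symm, mul_smul]
        exact congrArg _ (hν y).symm
      rw [h1]
      change _ = (η a * ν y * (η a)⁻¹) • η a • x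
      rw [mul_smul, inv_smul_smul, mul_smul]
      rfl
  · rw [hmul, hzero, if_pos rfl]
  · rw [hzero]; exact hoe
  · rw [hzero] at ha
    obtain ⟨h1, h2⟩ := huniq (η a)⁻¹ ((η a)⁻¹ • e) (by rw [inv_smul_eq_iff, (hη a ha).1]) rfl
    refine ⟨(η a)⁻¹ • e, ?_, ?_⟩
    · rw [hmul, if_neg h1, h2, inv_smul_eq_iff]
      exact (hη a ha).2.symm
    · rw [hmul, if_neg ha, smul_inv_smul]; rfl
  · change σ ∈ H ↔ ∃ a b : α, a ≠ 0 ∧ ∀ x, σ x = x * a + b
    rw [hzero]
    constructor
    · intro hσ
      obtain ⟨h1, h2⟩ := huniq (((ν (σ o))⁻¹ : N) * ⟨σ, hσ⟩) _ (by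
        rw [mul_smul]
        exact inv_smul_eq_iff.2 (hν _).symm) rfl
      refine ⟨_, σ o, h1, fun x => ?_⟩
      rw [hadd, hmul, if_neg h1, h2, mul_smul]
      exact (smul_inv_smul (ν (σ o)) _).symm
    · rintro ⟨a, b, ha, h⟩
      have : σ = ((ν b : H) * η a : H) := by
        ext x
        rw [h, hadd, hmul, if_neg ha]
        rfl
      rw [this]
      exact Subtype.prop _

end Cfsg.Agent.S0683
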