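import Cfsg.Statements.S0684
import Cfsg.Agent.H25.Hup4

set_option autoImplicit false
open Cfsg

namespace Cfsg.Agent.S0684

/-- Point stabiliser of a sharply doubly transitive group not of semilinear type: a maximal normal abelian subgroup `A` of a linear group `H` that is regular on non-zero vectors and has no irreducible cyclic normal subgroup is cyclic and reducible, and the order of `A` divides `p ^ k - 1` for `k` the dimension of a minimal `A`-invariant subspace. -/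
theorem result {p : ℕ} [Fact p.Prime] {V : Type*} [AddCommGroup V] [Module (ZMod p) V] [Finite V] (H : Subgroup (V ≃ₗ[ZMod p] V)) (hreg : ∀ v w : V, v ≠ 0 → w ≠ 0 → ∃! h : H, (h : V ≃ₗ[ZMod p] V) v = w) (hI : ∀ A : Subgroup H, A.Normal → IsCyclic A → ∃ W : Submodule (ZMod p) V, W ≠ ⊥ ∧ W ≠ ⊤ ∧ ∀ a ∈ A, ∀ v ∈ W, ((a : H) : V ≃ₗ[ZMod p] V) v ∈ W) (A : Subgroup H) (hAn : A.Normal) (hAc : IsMulCommutative A) (hAmax : ∀ B : Subgroup H, B.Normal → IsMulCommutative B → A ≤ B → B = A) : IsCyclic A ∧ ∃ W : Submodule (ZMod p) V, W ≠ ⊥ ∧ W ≠ ⊤ ∧ (∀ a ∈ A, ∀ v ∈ W, ((a : H) : V ≃ₗ[ZMod p] V) v ∈ W) ∧ (∀ W' : Submodule (ZMod p) V, W' ≤ W → (∀ a ∈ A, ∀ v ∈ W', ((a : H) : V ≃ₗ[ZMod p] V) v ∈ W') → W' = ⊥ ∨ W' = W) ∧ Nat.card A ∣ p ^ Module.finrank (ZMod p) W - 1 := by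
  obtain ⟨_, hI'⟩ := H25.nontrivial_of_red hI
  obtain ⟨-, h1, h2⟩ := H25.reg_facts hreg
  have h3 := h2.isCyclic A hAc
  obtain ⟨W₀, h4, h5, h6⟩ := hI A hAn h3
  obtain ⟨W, ⟨h7, h8, h9⟩, h10⟩ := wellFounded_lt.has_min {W : Submodule (ZMod p) V | W ≠ ⊥ ∧ W ≠ ⊤ ∧
    ∀ a ∈ A, ∀ v ∈ W, ((a : H) : V ≃ₗ[ZMod p] V) v ∈ W} ⟨W₀, h4, h5, h6⟩
  refine ⟨h3, W, h7, h8, h9, fun W' h h' => or_iff_not_imp_left.2 fun h0 =>
    h.eq_or_lt.resolve_right (h10 W' ⟨h0, ne_top_of_le_ne_top h8 h, h'⟩), ?_⟩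
  have := H25.card_dvd_of_semireg h1 h9
  rwa [Module.natCard_eq_pow_finrank (K := ZMod p) (V := W), Nat.card_zmod] at this

end Cfsg.Agent.S0684
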