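import Cfsg.Statements.S0686
import Cfsg.Agent.H25.Hup4

set_option autoImplicit false
open Cfsg

namespace Cfsg.Agent.S0686

open Subgroup
open scoped commutatorElement

/-- In a linear group over the prime field that is regular on non-zero vectors and has no irreducible cyclic normal subgroup, let `A` be a maximal normal abelian subgroup and `N` a normal subgroup centralising `A` that is minimal among non-abelian normal subgroups centralising `A`. Then `N` is quaternion of order 8 or isomorphic to `SL(2,5)`. -/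
theorem result {p : ℕ} [Fact p.Prime] {V : Type*} [AddCommGroup V] [Module (ZMod p) V] [Finite V] (H : Subgroup (V ≃ₗ[ZMod p] V)) (hreg : ∀ v w : V, v ≠ 0 → w ≠ 0 → ∃! h : H, (h : V ≃ₗ[ZMod p] V) v = w) (hI : ∀ A : Subgroup H, A.Normal → IsCyclic A → ∃ W : Submodule (ZMod p) V, W ≠ ⊥ ∧ W ≠ ⊤ ∧ ∀ a ∈ A, ∀ v ∈ W, ((a : H) : V ≃ₗ[ZMod p] V) v ∈ W) (A : Subgroup H) (hAn : A.Normal) (hAc : IsMulCommutative A) (hAmax : ∀ B : Subgroup H, B.Normal → IsMulCommutative B → A ≤ B → B = A) (N : Subgroup H) (hNn : N.Normal) (hNle : N ≤ Subgroup.centralizer (A : Set H)) (hNna : ¬ IsMulCommutative N) (hNmin : ∀ M : Subgroup H, M.Normal → M ≤ N → ¬ IsMulCommutative M → M = N) : Nonempty (N ≃* QuaternionGroup 2) ∨ Nonempty (N ≃* Matrix.SpecialLinearGroup (Fin 2) (ZMod 5)) := by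
  obtain ⟨_, -⟩ := H25.nontrivial_of_red hI
  obtain ⟨-, -, hF⟩ := H25.reg_facts hreg
  by_cases hp : commutator N = ⊤
  · have : Nontrivial N := not_subsingleton_iff_nontrivial.1 fun _ =>
      hNna ⟨⟨fun _ _ => Subsingleton.elim _ _⟩⟩
    exact Or.inr ((hF.sub N).equiv_sl25 hp)
  have key : ∀ M : Subgroup H, M.Normal → M ≤ N → M ≠ N → M ≤ A := fun M h1 h2 h3 => by
    have h4 : IsMulCommutative M := by_contra fun h => h3 (hNmin M h1 h2 h)
    have h5 := h2.trans hNle
    exact le_sup_left.trans (hAmax (M ⊔ A) inferInstance (le_centralizer_iff_isMulCommutative.1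
      (sup_le (le_centralizer_iff.1 (sup_le (le_centralizer M) (le_centralizer_iff.1 h5)))
        (le_centralizer_iff.1 (sup_le h5 (le_centralizer A))))) le_sup_right).le
  have h1 : ⁅N, N⁆ ≤ A := key _ inferInstance (commutator_le_left N N) fun e => hp
    (map_injective N.subtype_injective (by
      rw [map_subtype_commutator, e, ← MonoidHom.range_eq_map, range_subtype]))
  have h2 := H1.isNilpotent_of_commutator_commutator_eq_bot (M := N)
    (commutator_eq_bot_iff_le_centralizer.2 (h1.trans (le_centralizer_iff.1 hNle)))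
  obtain ⟨⟨q, hq⟩, h3⟩ : ∃ q : Nat.Primes, (pCore q N).map N.subtype = N := by
    by_contra h
    push Not at h
    have h4 : N ≤ A := by
      rw [← range_subtype N, MonoidHom.range_eq_map, ← H1.iSup_pCore_eq_top, Subgroup.map_iSup]
      exact iSup_le fun q => key _ inferInstance (map_subtype_le _) (h q)
    exact hNna ⟨⟨fun a b => Subtype.ext (hNle b.2 a (h4 a.2))⟩⟩
  have := Fact.mk hq
  have h4 : IsPGroup q N := h3 ▸ (H1.isPGroup_pCore q).map _
  rcases hF.pgroup h4 with h5 | ⟨-, _ | _ | n, ⟨e⟩⟩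
  · exact (hNna inferInstance).elim
  · have := QuaternionGroup.quaternionGroup_one_isCyclic
    have := isCyclic_of_injective e.toMonoidHom e.injective
    exact (hNna inferInstance).elim
  · exact Or.inl ⟨e⟩
  obtain ⟨a, b, ha, hb, a1, -, a2, -⟩ := H6.exists_gens_of_quaternion_subgroup e
  have h5 := hNle hb _ (h1 (commutator_mem_commutator hb ha))
  rw [commutatorElement_def, a2, ← mul_inv_rev, ← pow_two, ← inv_pow, eq_comm,
    ← mul_inv_eq_iff_eq_mul, ← conj_pow, ← conj_inv, a2, inv_inv, inv_pow, eq_inv_iff_mul_eq_one,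
    ← pow_add, ← orderOf_dvd_iff_pow_eq_one, a1, pow_succ, pow_succ] at h5
  have := Nat.le_of_dvd (by norm_num) h5
  have : 0 < 2 ^ n := by positivity
  omega

end Cfsg.Agent.S0686
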