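import Cfsg.Statements.S0689
import Cfsg.Agent.H25.Hup4

set_option autoImplicit false
open Cfsg

namespace Cfsg.Agent.S0689

open Subgroup H25 Module

theorem arith {p a d i m : ℕ} (hp : p.Prime) (hd : 1 < d) (hi : i = 1 ∨ i = 2) (hm : m.Coprime 30)
    (h1 : 1 < p ^ a) (h2 : 2 * m ∣ p ^ a - 1) (h3 : (p ^ a) ^ d - 1 = 120 * m * i) :
    i = 1 ∧ ((p ^ a) ^ d = 121 ∧ m = 1 ∨ (p ^ a) ^ d = 841 ∧ m = 7 ∨ (p ^ a) ^ d = 3481 ∧ m = 29) := by
  have h4 : p ^ a ≠ 119 := fun e => by
    have h7 := (Nat.prime_dvd_prime_iff_eq (by norm_num) hp).1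
      ((show Nat.Prime 7 by norm_num).dvd_of_dvd_pow (show 7 ∣ p ^ a by rw [e]; norm_num))
    have h17 := (Nat.prime_dvd_prime_iff_eq (by norm_num) hp).1
      ((show Nat.Prime 17 by norm_num).dvd_of_dvd_pow (show 17 ∣ p ^ a by rw [e]; norm_num))
    omega
  generalize p ^ a = q at *
  obtain ⟨c, hc⟩ := h2
  have h5 := Nat.geomSum_eq h1 d
  have h6 : (∑ k ∈ Finset.range d, q ^ k) * c = 60 * i := by
    have := Nat.div_mul_cancel (Nat.sub_one_dvd_pow_sub_one q d)
    rw [← h5, h3, hc] at this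
    exact Nat.eq_of_mul_eq_mul_left (show 0 < 2 * m by
      rcases m with _ | m; · simp at hm
      omega) (by linarith)
  have h7 : q.Coprime 120 := by
    have : (q ^ d).Coprime (q ^ d - 1) :=
      (Nat.coprime_self_sub_right (Nat.one_le_pow _ _ (by omega))).2 (by simp)
    rw [h3] at this
    exact Nat.Coprime.coprime_dvd_left (dvd_pow_self q (by omega))
      (this.coprime_dvd_right ⟨m * i, by ring⟩)
  have h8 : ∑ k ∈ Finset.range d, q ^ k ∣ 120 :=
    (Dvd.intro _ h6).trans (by rcases hi with rfl | rfl <;> norm_num)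
  have h9 : d = 2 := by
    by_contra h
    have e1 : ∑ k ∈ Finset.range 3, q ^ k ≤ 120 := (Finset.sum_le_sum_of_subset
      (Finset.range_mono (by omega))).trans (Nat.le_of_dvd (by norm_num) h8)
    simp only [Finset.sum_range_succ, Finset.range_zero, Finset.sum_empty] at e1
    have e2 : q = 7 := by
      have : q ≤ 10 := by nlinarith
      clear e1 h8 h6 h5 hc h3
      interval_cases q <;> first | rfl | exact absurd h7 (by decide)
    subst e2
    by_cases h3 : d = 3
    · subst h3; revert h8; decide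
    · exact absurd ((Finset.sum_le_sum_of_subset (Finset.range_mono (by omega : 4 ≤ d))).trans
        (Nat.le_of_dvd (by norm_num) h8)) (by decide)
  subst h9
  simp only [Finset.sum_range_succ, Finset.range_zero, Finset.sum_empty] at h8
  have h10 : ∀ q < 120, (1 < q ∧ q ≠ 119 ∧ q.gcd 120 = 1 ∧ 0 + q ^ 0 + q ^ 1 ∣ 120) →
      q ∈ [7, 11, 19, 23, 29, 59] := by decide +kernel
  have h11 := h10 q (by have := Nat.le_of_dvd (by norm_num) h8; simp at this; omega) ⟨h1, h4, h7, h8⟩
  simp only [List.mem_cons, List.not_mem_nil, or_false] at h11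
  have h12 : m ≠ 3 := by rintro rfl; exact absurd hm (by decide)
  rcases hi with rfl | rfl <;> rcases h11 with rfl | rfl | rfl | rfl | rfl | rfl <;> omega

/-- The insoluble sharply doubly transitive groups: a non-solvable linear group over the prime field that is regular on the non-zero vectors of `V` occurs only for `|V| = 11², 29², 59²`, and is `SL(2,5) × C_m` with `m = 1, 7, 29` respectively. -/
theorem result {p : ℕ} [Fact p.Prime] {V : Type*} [AddCommGroup V] [Module (ZMod p) V] [Finite V] (H : Subgroup (V ≃ₗ[ZMod p] V)) (hreg : ∀ v w : V, v ≠ 0 → w ≠ 0 → ∃! h : H, (h : V ≃ₗ[ZMod p] V) v = w) (hsolv : ¬ Group.IsSolvable H) : (Nat.card V = 121 ∧ Nonempty (H ≃* Matrix.SpecialLinearGroup (Fin 2) (ZMod 5))) ∨ (Nat.card V = 841 ∧ Nonempty (H ≃* Matrix.SpecialLinearGroup (Fin 2) (ZMod 5) × Multiplicative (ZMod 7))) ∨ (Nat.card V = 3481 ∧ Nonempty (H ≃* Matrix.SpecialLinearGroup (Fin 2) (ZMod 5) × Multiplicative (ZMod 29))) := by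
  rcases subsingleton_or_nontrivial V with _ | _
  · exact (hsolv inferInstance).elim
  obtain ⟨ht, h1, hF⟩ := reg_facts hreg
  have hσ := linRep_inj H
  obtain ⟨f, M, hf, hn, -, h2, h3, h4, h5⟩ := hF.nonsolvable_structure hsolv
  have h6 : ¬ IsMulCommutative f.range := fun h => absurd (hf ((map_mul f sx sy).trans
    ((congrArg Subtype.val (h.1.1 ⟨_, sx, rfl⟩ ⟨_, sy, rfl⟩)).trans (map_mul f sy sx).symm))) (by decide)
  have h7 := (ht.irr_of_not_comm hσ h6).centralizer_comm hσ
  obtain ⟨K, _, _, _, _, hK⟩ := exists_scalar_field _ (ht.inj_of_comm h7)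
  have : Finite K := finite_scalars K V
  have : Module.Finite (ZMod p) K := Module.Finite.of_finite
  have : Module.Finite K V := Module.Finite.of_finite
  have h8 : 1 < finrank K V := by
    have : finrank K V ≠ 1 := fun e => by
      have := (ScalF.irr_of_finrank hK e).centralizer_comm hσ
      have e : f.range ≤ _ := le_centralizer_iff.1 le_rfl
      exact h6 ⟨⟨fun a b => Subtype.ext (setLike_mul_comm (e a.2) (e b.2))⟩⟩
    have : 0 < finrank K V := finrank_pos
    omega
  have hM : M ≤ centralizer (f.range : Set H) := le_sup_right.trans h2.le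
  let ψ : SL25 × M →* H := f.noncommCoprod M.subtype fun s m => hM m.2 _ ⟨s, rfl⟩
  have hψ : Function.Injective ψ := (MonoidHom.noncommCoprod_injective _ _ _).2
    ⟨hf, M.subtype_injective, by rw [range_subtype]; exact disjoint_iff.2 h4⟩
  have hr : ψ.range = f.range ⊔ M := (MonoidHom.noncommCoprod_range _ _ _).trans (by rw [range_subtype])
  have h9 := ψ.range.card_mul_index
  rw [← Nat.card_congr (MonoidHom.ofInjective hψ).toEquiv, Nat.card_prod, card_sl25, hr,
    card_of_reg ht h1] at h9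
  have h10 : 2 * Nat.card M ∣ Nat.card K - 1 := by
    refine (Nat.Coprime.mul_dvd_of_dvd_of_dvd (h5.coprime_dvd_right (by norm_num)).symm ?_
      (card_dvd_of_le hM)).trans (ScalF.card_dvd hK hσ)
    exact (dvd_of_eq ((orderOf_injective f hf _).trans
      (orderOf_eq_prime (by decide) sl25_neg_ne)).symm).trans
      (orderOf_dvd_natCard _ (h2.le (mem_sup_left (mem_zpowers _))))
  have e1 : Nat.card K = p ^ finrank (ZMod p) K := by
    rw [natCard_eq_pow_finrank (K := ZMod p), Nat.card_zmod]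
  have e2 := natCard_eq_pow_finrank (K := K) (V := V)
  rw [e1] at e2 h10
  obtain ⟨e3, e4⟩ := arith Fact.out h8 (i := (f.range ⊔ M).index) (by
    have := (f.range ⊔ M).index_ne_zero_of_finite
    omega) h5 (e1 ▸ Finite.one_lt_card) h10 (e2 ▸ h9.symm)
  let e := (MulEquiv.ofBijective ψ
    ⟨hψ, MonoidHom.range_eq_top.1 (hr.trans (index_eq_one.1 e3))⟩).symm
  rw [← e2] at e4
  rcases e4 with ⟨e4, e5⟩ | ⟨e4, e5⟩ | ⟨e4, e5⟩
  · have := (Nat.card_eq_one_iff_unique.1 e5).1
    have := uniqueOfSubsingleton (1 : M)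
    exact Or.inl ⟨e4, ⟨e.trans MulEquiv.prodUnique⟩⟩
  · have : Fact (Nat.Prime 7) := ⟨by norm_num⟩
    exact Or.inr (Or.inl ⟨e4, ⟨e.trans ((MulEquiv.refl _).prodCongr
      (mulEquivOfPrimeCardEq e5 (by simp)))⟩⟩)
  · have : Fact (Nat.Prime 29) := ⟨by norm_num⟩
    exact Or.inr (Or.inr ⟨e4, ⟨e.trans ((MulEquiv.refl _).prodCongr
      (mulEquivOfPrimeCardEq e5 (by simp)))⟩⟩)

end Cfsg.Agent.S0689
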