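import Cfsg.Statements.S0691
import Mathlib
import Cfsg.Agent.H25.RegCert

set_option autoImplicit false
open Cfsg

namespace Cfsg.Agent.S0691

def tT : ℕ := 0x3040102000304010200030401020003040102000103020400
def tU : ℕ := 0x2020202040101010102040404040303030303010000000000
def tD : ℕ := 0x4020204020103030301020404030303030302000102020300

theorem check : H25.regCheck 5 tT tU tD [(2, 0, 0, 3), (0, 4, 1, 0), (1, 2, 1, 3)] = true := by decide +kernel
theorem checkT : H25.tab tT 8 5 = 0 := by decide +kernel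
theorem checkU : H25.tab tU 8 5 = 1 := by decide +kernel

/-- An exceptional sharply doubly transitive group of degree 5^2: the listed matrices generate a subgroup of GL(2,5) of order 24 acting regularly on the non-zero vectors. -/
theorem result (A : Matrix.GeneralLinearGroup (Fin 2) (ZMod 5)) (B : Matrix.GeneralLinearGroup (Fin 2) (ZMod 5)) (C : Matrix.GeneralLinearGroup (Fin 2) (ZMod 5)) (hA : (A : Matrix (Fin 2) (Fin 2) (ZMod 5)) = !![2, 0; 0, -2]) (hB : (B : Matrix (Fin 2) (Fin 2) (ZMod 5)) = !![0, -1; 1, 0]) (hC : (C : Matrix (Fin 2) (Fin 2) (ZMod 5)) = !![1, 2; 1, -2]) : Nat.card (Subgroup.closure ({A, B, C} : Set (Matrix.GeneralLinearGroup (Fin 2) (ZMod 5)))) = 24 ∧ ∀ v w : Fin 2 → ZMod 5, v ≠ 0 → w ≠ 0 → ∃! h : Subgroup.closure ({A, B, C} : Set (Matrix.GeneralLinearGroup (Fin 2) (ZMod 5))), Matrix.mulVec ((h : Matrix.GeneralLinearGroup (Fin 2) (ZMod 5)) : Matrix (Fin 2) (Fin 2) (ZMod 5)) v = w := by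
  have hA' : (A : Matrix (Fin 2) (Fin 2) (ZMod 5)) = !![((2 : ℕ) : ZMod 5), ((0 : ℕ) : ZMod 5); ((0 : ℕ) : ZMod 5), ((3 : ℕ) : ZMod 5)] := by
    rw [hA]; decide +kernel
  have hB' : (B : Matrix (Fin 2) (Fin 2) (ZMod 5)) = !![((0 : ℕ) : ZMod 5), ((4 : ℕ) : ZMod 5); ((1 : ℕ) : ZMod 5), ((0 : ℕ) : ZMod 5)] := by
    rw [hB]; decide +kernel
  have hC' : (C : Matrix (Fin 2) (Fin 2) (ZMod 5)) = !![((1 : ℕ) : ZMod 5), ((2 : ℕ) : ZMod 5); ((1 : ℕ) : ZMod 5), ((3 : ℕ) : ZMod 5)] := by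
    rw [hC]; decide +kernel
  have : Fact (Nat.Prime 5) := ⟨by norm_num⟩
  refine H25.regular_of_cert 5 tT tU tD _ check checkT checkU _ ?_ ?_
  · rintro g (rfl | rfl | rfl)
    · exact ⟨(2, 0, 0, 3), by simp, hA'⟩
    · exact ⟨(0, 4, 1, 0), by simp, hB'⟩
    · exact ⟨(1, 2, 1, 3), by simp, hC'⟩
  · intro t ht
    simp only [List.mem_cons, List.not_mem_nil, or_false] at ht
    rcases ht with rfl | rfl | rfl
    · exact ⟨A, by simp, hA'⟩
    · exact ⟨B, by simp, hB'⟩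
    · exact ⟨C, by simp, hC'⟩

end Cfsg.Agent.S0691
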