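import Cfsg.Statements.S0692
import Mathlib
import Cfsg.Agent.H25.RegCert

set_option autoImplicit false
open Cfsg

namespace Cfsg.Agent.S0692

def tT : ℕ := 0xa010407050608020309000709080a050600020301040709080a02050304060001000608070901040203050a090a050706080003010204090a080003050406010207060809070a020403050001000507080609010302040a0a0809000506010302040702080903050604070a01000106040309020807050a00
def tU : ℕ := 0x90100050202000404010a0303060301010502020a050202040203060303030707080003040004040101040806060501080502090606020505020906030a06050509070a0a07070007080003030408080805080907090904010909060a0a08050808060a070700090906000a02010004010a0407010a070000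
def tD : ℕ := 0x706080b0a070902050402040a0b03090805090b0705010c0a060b05090b0909080804080c060b0c03040c090a07080a0506070c06070709080a0504070c060908050b02050c09080b0a06060a070b090b070c040c0a030a05090b030607050a0802070603040709080a0a0805000108070806040a09060300

theorem check : H25.regCheck 11 tT tU tD [(0, 10, 1, 0), (2, 4, 1, 8)] = true := by decide +kernel
theorem checkT : H25.tab tT 8 11 = 0 := by decide +kernel
theorem checkU : H25.tab tU 8 11 = 1 := by decide +kernel

/-- An exceptional sharply doubly transitive group of degree 11^2: the listed matrices generate a subgroup of GL(2,11) of order 120 acting regularly on the non-zero vectors. -/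
theorem result (A : Matrix.GeneralLinearGroup (Fin 2) (ZMod 11)) (B : Matrix.GeneralLinearGroup (Fin 2) (ZMod 11)) (hA : (A : Matrix (Fin 2) (Fin 2) (ZMod 11)) = !![0, -1; 1, 0]) (hB : (B : Matrix (Fin 2) (Fin 2) (ZMod 11)) = !![2, 4; 1, -3]) : Nat.card (Subgroup.closure ({A, B} : Set (Matrix.GeneralLinearGroup (Fin 2) (ZMod 11)))) = 120 ∧ ∀ v w : Fin 2 → ZMod 11, v ≠ 0 → w ≠ 0 → ∃! h : Subgroup.closure ({A, B} : Set (Matrix.GeneralLinearGroup (Fin 2) (ZMod 11))), Matrix.mulVec ((h : Matrix.GeneralLinearGroup (Fin 2) (ZMod 11)) : Matrix (Fin 2) (Fin 2) (ZMod 11)) v = w := by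
  have hA' : (A : Matrix (Fin 2) (Fin 2) (ZMod 11)) = !![((0 : ℕ) : ZMod 11), ((10 : ℕ) : ZMod 11); ((1 : ℕ) : ZMod 11), ((0 : ℕ) : ZMod 11)] := by
    rw [hA]; decide +kernel
  have hB' : (B : Matrix (Fin 2) (Fin 2) (ZMod 11)) = !![((2 : ℕ) : ZMod 11), ((4 : ℕ) : ZMod 11); ((1 : ℕ) : ZMod 11), ((8 : ℕ) : ZMod 11)] := by
    rw [hB]; decide +kernel
  have : Fact (Nat.Prime 11) := ⟨by norm_num⟩
  refine H25.regular_of_cert 11 tT tU tD _ check checkT checkU _ ?_ ?_
  · rintro g (rfl | rfl)
    · exact ⟨(0, 10, 1, 0), by simp, hA'⟩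
    · exact ⟨(2, 4, 1, 8), by simp, hB'⟩
  · intro t ht
    simp only [List.mem_cons, List.not_mem_nil, or_false] at ht
    rcases ht with rfl | rfl
    · exact ⟨A, by simp, hA'⟩
    · exact ⟨B, by simp, hB'⟩

end Cfsg.Agent.S0692
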