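import Cfsg.Statements.S0694
import Mathlib

set_option autoImplicit false
open Cfsg

namespace Cfsg.Agent.S0694

open Finset

theorem modEq_iff (q n i : ℕ) (hq : 2 ≤ q) :
    q ^ i ≡ 1 [MOD n * (q - 1)] ↔ n ∣ ∑ k ∈ range i, q ^ k := by
  have h1 : 1 ≤ q ^ i := Nat.one_le_pow _ _ (by omega)
  rw [Nat.ModEq.comm, Nat.modEq_iff_dvd' h1, ← geom_sum_mul_of_one_le (by omega : 1 ≤ q)]
  exact Nat.mul_dvd_mul_iff_right (by omega)

theorem val_geom (q r i : ℕ) [hr : Fact r.Prime] (hq : 2 ≤ q) (hi : i ≠ 0) (hrq : r ∣ q - 1)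
    (h2 : r = 2 → 4 ∣ q - 1) : padicValNat r (∑ k ∈ range i, q ^ k) = padicValNat r i := by
  have hS : (∑ k ∈ range i, q ^ k) ≠ 0 := by
    have : 0 < ∑ k ∈ range i, q ^ k :=
      Finset.sum_pos (fun k _ => by positivity) (by simpa using hi)
    omega
  have hnd : ¬ r ∣ q := fun h => hr.out.one_lt.ne' (Nat.dvd_one.1 (by
    have := Nat.dvd_sub h hrq
    rwa [show q - (q - 1) = 1 by omega] at this))
  have key : padicValNat r (q ^ i - 1) = padicValNat r (q - 1) + padicValNat r i := by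
    rcases hr.out.eq_two_or_odd' with rfl | hodd
    · rcases Nat.even_or_odd i with he | ho
      · have h3 := padicValNat.pow_two_sub_one (x := q) (by omega) hnd hi he
        have h4 : padicValNat 2 (q + 1) = 1 := by
          obtain ⟨m, hm⟩ := h2 rfl
          have : q + 1 = 2 * (2 * m + 1) := by omega
          rw [this, padicValNat.mul (by norm_num) (by omega), padicValNat.self (by norm_num),
            padicValNat.eq_zero_of_not_dvd (by omega)]
        omega
      · have h5 : padicValNat 2 i = 0 := padicValNat.eq_zero_of_not_dvd (by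
          rcases ho with ⟨m, hm⟩; omega)
        rw [h5, add_zero, ← geom_sum_mul_of_one_le (by omega : 1 ≤ q),
          padicValNat.mul hS (by omega), padicValNat.eq_zero_of_not_dvd, zero_add]
        have hqo : Odd q := by rwa [← Nat.not_even_iff_odd, even_iff_two_dvd]
        rw [← even_iff_two_dvd, Nat.not_even_iff_odd, Finset.odd_sum_iff_odd_card_odd]
        rw [Finset.filter_true_of_mem (fun k _ => hqo.pow)]
        simpa using ho
    · simpa using padicValNat.pow_sub_pow (p := r) hodd (x := q) (y := 1) (by omega) hrq hnd hi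
  rw [← geom_sum_mul_of_one_le (by omega : 1 ≤ q), padicValNat.mul hS (by omega)] at key
  omega

theorem dvd_geom_iff (q n i : ℕ) (hq : 2 ≤ q) (hn : n ≠ 0) (hi : i ≠ 0)
    (h1 : ∀ r : ℕ, r.Prime → r ∣ n → r ∣ q - 1) (h2 : 4 ∣ n → 4 ∣ q - 1) :
    n ∣ ∑ k ∈ range i, q ^ k ↔ n ∣ i := by
  have hS : (∑ k ∈ range i, q ^ k) ≠ 0 := by
    have : 0 < ∑ k ∈ range i, q ^ k :=
      Finset.sum_pos (fun k _ => by positivity) (by simpa using hi)
    omega
  rw [← Nat.factorization_prime_le_iff_dvd hn hS, ← Nat.factorization_prime_le_iff_dvd hn hi]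
  refine forall_congr' fun r => forall_congr' fun hr => ?_
  have := Fact.mk hr
  by_cases hrn : r ∣ n
  swap
  · simp [Nat.factorization_eq_zero_of_not_dvd hrn]
  by_cases h4 : r = 2 → 4 ∣ q - 1
  · rw [Nat.factorization_def _ hr, Nat.factorization_def _ hr, Nat.factorization_def _ hr,
      val_geom q r i hq hi (h1 r hr hrn) h4]
  · push Not at h4
    obtain ⟨rfl, h4⟩ := h4
    have h5 : ¬ 4 ∣ n := fun h => h4 (h2 h)
    have h6 : n.factorization 2 = 1 := by
      apply le_antisymm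
      · by_contra h
        apply h5
        exact (hr.pow_dvd_iff_le_factorization hn (k := 2)).2 (by omega)
      · exact (hr.dvd_iff_one_le_factorization hn).1 hrn
    rw [h6, ← hr.dvd_iff_one_le_factorization hS, ← hr.dvd_iff_one_le_factorization hi]
    have hqo : Odd q := by
      obtain ⟨m, hm⟩ := h1 2 hr hrn
      exact ⟨m, by omega⟩
    rw [← even_iff_two_dvd, ← even_iff_two_dvd, ← Nat.not_odd_iff_even, ← Nat.not_odd_iff_even,
      Finset.odd_sum_iff_odd_card_odd, Finset.filter_true_of_mem (fun k _ => hqo.pow)]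
    simp

theorem surj (q n : ℕ) (hq : 2 ≤ q) (hn : 1 < n) (hcop : Nat.Coprime n q)
    (h : ∀ i, 0 < i → i < n → ¬ n ∣ ∑ k ∈ range i, q ^ k) (m : ℕ) :
    ∃ i, ∑ k ∈ range i, q ^ k ≡ m [MOD n] := by
  have : NeZero n := ⟨by omega⟩
  have hlt : ∀ i j : Fin n, i < j →
      ((∑ k ∈ range i, q ^ k : ℕ) : ZMod n) ≠ ((∑ k ∈ range j, q ^ k : ℕ) : ZMod n) := by
    intro i j hij heq
    obtain ⟨d, hd⟩ := Nat.exists_eq_add_of_lt (show (i : ℕ) < j from hij)
    rw [ZMod.natCast_eq_natCast_iff, hd, add_assoc, Finset.sum_range_add] at heq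
    have h1 := (Nat.modEq_iff_dvd' (Nat.le_add_right _ _)).1 heq
    rw [Nat.add_sub_cancel_left] at h1
    simp only [pow_add, ← Finset.mul_sum] at h1
    refine h (d + 1) (by omega) (by have := j.2; omega) ?_
    exact (Nat.Coprime.pow_right _ hcop).dvd_of_dvd_mul_left h1
  have hinj : Function.Injective fun i : Fin n => ((∑ k ∈ range i, q ^ k : ℕ) : ZMod n) := by
    intro i j hij
    rcases lt_trichotomy i j with h | h | h
    · exact absurd hij (hlt i j h)
    · exact h
    · exact absurd hij.symm (hlt j i h)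
  have hsurj := ((Fintype.bijective_iff_injective_and_card _).2 ⟨hinj, by simp⟩).2
  obtain ⟨i, hi⟩ := hsurj (m : ZMod n)
  exact ⟨i, (ZMod.natCast_eq_natCast_iff _ _ _).1 hi⟩

/-- The Dickson pair condition: for a prime power `q` and `n > 1`, (every prime factor of `n` divides `q - 1`, and `4 ∣ n → 4 ∣ q - 1`) holds exactly when `q ^ n ≡ 1` modulo `n * (q - 1)` but `q ^ i` is not, for `0 < i < n`. -/
theorem result (q n : ℕ) (hq : IsPrimePow q) (hn : 1 < n) : ((∀ r : ℕ, r.Prime → r ∣ n → r ∣ q - 1) ∧ (4 ∣ n → 4 ∣ q - 1)) ↔ (q ^ n ≡ 1 [MOD n * (q - 1)] ∧ ∀ i : ℕ, 0 < i → i < n → ¬ q ^ i ≡ 1 [MOD n * (q - 1)]) := by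
  have hq2 : 2 ≤ q := hq.two_le
  simp only [modEq_iff _ _ _ hq2]
  constructor
  · rintro ⟨h1, h2⟩
    refine ⟨(dvd_geom_iff q n n hq2 (by omega) (by omega) h1 h2).2 dvd_rfl, fun i hi hin h => ?_⟩
    rw [dvd_geom_iff q n i hq2 (by omega) (by omega) h1 h2] at h
    exact absurd (Nat.le_of_dvd hi h) (by omega)
  · rintro ⟨h1, h2⟩
    have hgeom : ∀ i, (∑ k ∈ range i, q ^ k) * (q - 1) + 1 = q ^ i := fun i => by
      rw [geom_sum_mul_of_one_le (by omega : 1 ≤ q)]
      have : 1 ≤ q ^ i := Nat.one_le_pow _ _ (by omega)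
      omega
    have hcop : Nat.Coprime n q := by
      apply Nat.Coprime.symm
      apply Nat.Coprime.coprime_dvd_left (dvd_pow_self q (by omega : n ≠ 0))
      rw [← hgeom]
      obtain ⟨c, hc⟩ := h1
      rw [hc, mul_assoc]
      simp
    have hs := surj q n hq2 hn hcop h2
    have h3 : ∀ r : ℕ, r.Prime → r ∣ n → r ∣ q - 1 := by
      intro r hr hrn
      by_contra hrq
      have := Fact.mk hr
      have hu : ((q - 1 : ℕ) : ZMod r) ≠ 0 := by rwa [Ne, ZMod.natCast_eq_zero_iff]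
      obtain ⟨i, hi⟩ := hs (-((q - 1 : ℕ) : ZMod r)⁻¹).val
      have hi' := (ZMod.natCast_eq_natCast_iff _ _ _).2 (hi.of_dvd hrn)
      have h4 := congrArg (Nat.cast : ℕ → ZMod r) (hgeom i)
      rw [Nat.cast_add, Nat.cast_mul, hi', ZMod.natCast_zmod_val, neg_mul, inv_mul_cancel₀ hu] at h4
      simp only [Nat.cast_one, neg_add_cancel] at h4
      have h5 : r ∣ q := hr.dvd_of_dvd_pow ((ZMod.natCast_eq_zero_iff _ _).1 h4.symm)
      exact hr.one_lt.ne' (Nat.eq_one_of_dvd_coprimes hcop hrn h5)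
    refine ⟨h3, fun h4 => ?_⟩
    by_contra h5
    obtain ⟨m, hm⟩ := h3 2 Nat.prime_two (dvd_trans (by norm_num) h4)
    have hq3 : q % 4 = 3 := by omega
    obtain ⟨i, hi⟩ := hs 2
    have hi' : (∑ k ∈ range i, q ^ k) % 4 = 2 := hi.of_dvd h4
    have key : ∀ j, ((∑ k ∈ range j, q ^ k) % 4 = 0 ∧ q ^ j % 4 = 1) ∨
        ((∑ k ∈ range j, q ^ k) % 4 = 1 ∧ q ^ j % 4 = 3) := by
      intro j
      induction j with
      | zero => simp
      | succ j ih =>
        rw [Finset.sum_range_succ, pow_succ, Nat.mul_mod, hq3]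
        rcases ih with ⟨a, b⟩ | ⟨a, b⟩
        · right; rw [b]; omega
        · left; rw [b]; omega
    have := key i
    omega

end Cfsg.Agent.S0694
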