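import Cfsg.Statements.S0695
import Mathlib
import Cfsg.Agent.H25.Prim

set_option autoImplicit false
open Cfsg

namespace Cfsg.Agent.S0695

open MulAction H25

/-- A regular normal subgroup of a doubly primitive group of finite degree at least 2 is an elementary abelian 2-group (and the degree is a power of 2), unless the degree is 3. -/
theorem result {G : Type*} [Group G] {X : Type*} [Fintype X] [MulAction G X] (hX : 2 ≤ Fintype.card X) (h2 : MulAction.IsMultiplyPreprimitive G X 2) (N : Subgroup G) [N.Normal] (htrans : MulAction.IsPretransitive N X) (hreg : ∀ x : X, MulAction.stabilizer N x = ⊥) : Fintype.card X = 3 ∨ (IsMulCommutative N ∧ (∀ n ∈ N, n ^ 2 = 1) ∧ ∃ m : ℕ, Fintype.card X = 2 ^ m) := by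
  have : Nontrivial X := Fintype.one_lt_card_iff_nontrivial.1 hX
  obtain ⟨p, j, hp, hj, hcard, hcomm, hpow⟩ :=
    elemAb_of_regular_normal h2.isMultiplyPretransitive N htrans hreg
  rcases hp.eq_two_or_odd' with rfl | hodd
  · right
    exact ⟨⟨⟨fun x y => Subtype.ext (hcomm _ x.2 _ y.2)⟩⟩, hpow, j, by
      rw [← hcard, Nat.card_eq_fintype_card]⟩
  left
  obtain ⟨a, b, hab⟩ := exists_pair_ne X
  have hbij := bijective_smul_of_regular a (hreg a)
  obtain ⟨n, rfl⟩ := hbij.2 b
  have hn1 : n ≠ 1 := by rintro rfl; exact hab (one_smul _ _).symm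
  have hnn : n ≠ n⁻¹ := by
    intro h
    have h2 : n ^ 2 = 1 := by rw [sq]; nth_rewrite 1 [h]; exact inv_mul_cancel n
    have h3 : n ^ p = 1 := Subtype.ext (hpow _ n.2)
    obtain ⟨m, rfl⟩ := hodd
    rw [pow_succ, pow_mul, h2, one_pow, one_mul] at h3
    exact hn1 h3
  have hprim := h2.isPreprimitive_ofFixingSubgroup (s := {a}) (by simp; rfl)
  have hconj : ∀ g : G, g • a = a → ∀ m : N, g • m • a = (MulAut.conjNormal g m) • a := by
    intro g hg m
    change g • (m : G) • a = (g * m * g⁻¹) • a
    rw [mul_smul, inv_smul_eq_iff.2 hg.symm, mul_smul]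
  have hne : ∀ z : N, z ≠ 1 → z • a ≠ a := fun z hz h => hz (hbij.1 (by simpa using h))
  rcases block_of_fixing hprim (B := {n • a, n⁻¹ • a}) (by
    rintro x (rfl | rfl)
    · exact hne n hn1
    · exact hne _ (inv_ne_one.2 hn1)) (by
    intro g hg x hx hx' y hy
    have hg' := hg a rfl
    have key : MulAut.conjNormal g n = n ∨ MulAut.conjNormal g n = n⁻¹ := by
      rcases hx with rfl | rfl <;> rw [hconj g hg'] at hx' <;> rcases hx' with h | h
      · exact Or.inl (hbij.1 h)
      · exact Or.inr (hbij.1 h)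
      · right
        have := hbij.1 h
        rwa [map_inv, inv_eq_iff_eq_inv] at this
      · left
        have := hbij.1 h
        rwa [map_inv, inv_inj] at this
    rcases hy with rfl | rfl <;> rw [hconj g hg'] <;> rcases key with h | h <;> simp [h]) with h | h
  · exact absurd (hbij.1 (h (Or.inl rfl) (Or.inr rfl))) hnn
  · have h1 := congrArg Set.ncard h
    rw [Set.ncard_pair (fun h => hnn (hbij.1 h)), Set.ncard_compl, Set.ncard_singleton,
      Nat.card_eq_fintype_card] at h1
    omega

end Cfsg.Agent.S0695
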