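import Cfsg.Statements.S0696
import Mathlib
import Cfsg.Agent.H25.Prim
import Cfsg.Agent.S0695

set_option autoImplicit false
open Cfsg

namespace Cfsg.Agent.S0696

open MulAction H25

/-- A triply primitive group of degree at least 3 having a regular normal subgroup has degree 3 or 4. -/
theorem result {G : Type*} [Group G] {X : Type*} [Fintype X] [MulAction G X] (hX : 3 ≤ Fintype.card X) (h3 : MulAction.IsMultiplyPreprimitive G X 3) (N : Subgroup G) [N.Normal] (htrans : MulAction.IsPretransitive N X) (hreg : ∀ x : X, MulAction.stabilizer N x = ⊥) : Fintype.card X = 3 ∨ Fintype.card X = 4 := by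
  classical
  have h2 : IsMultiplyPreprimitive G X 2 := isMultiplyPreprimitive_of_le G X h3 (by norm_num) (by
    simpa using hX)
  rcases Cfsg.Agent.S0695.result (by omega) h2 N htrans hreg with h | ⟨hcomm, hpow, -⟩
  · exact Or.inl h
  right
  obtain ⟨a, b, c, hab, hac, hbc⟩ := Fintype.two_lt_card_iff.1 hX
  have hbij := bijective_smul_of_regular a (hreg a)
  obtain ⟨n, rfl⟩ := hbij.2 b
  obtain ⟨m, rfl⟩ := hbij.2 c
  have hn1 : n ≠ 1 := by rintro rfl; exact hab (one_smul _ _).symm
  have hm1 : m ≠ 1 := by rintro rfl; exact hac (one_smul _ _).symm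
  have hnm : n ≠ m := by rintro rfl; exact hbc rfl
  have hsq : ∀ z : N, z * z = 1 := fun z => by rw [← sq]; exact Subtype.ext (hpow _ z.2)
  have hprim := h3.isPreprimitive_ofFixingSubgroup (s := {a, n • a}) (by
    rw [Set.encard_pair hab]; rfl)
  have hconj : ∀ g : G, g • a = a → ∀ m : N, g • m • a = (MulAut.conjNormal g m) • a := by
    intro g hg m
    change g • (m : G) • a = (g * m * g⁻¹) • a
    rw [mul_smul, inv_smul_eq_iff.2 hg.symm, mul_smul]
  have hne : ∀ z : N, z ≠ 1 → z • a ≠ a := fun z hz h => hz (hbij.1 (by simpa using h))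
  have hmn : m ≠ m * n := by simpa using hn1
  rcases block_of_fixing hprim (B := {m • a, (m * n) • a}) (by
    rintro x (rfl | rfl) (h | h)
    · exact hne m hm1 h
    · exact hnm (hbij.1 h).symm
    · refine hne _ (fun h' => hnm ?_) h
      rw [← hsq m] at h'
      exact mul_left_cancel h'
    · have := hbij.1 h
      exact hm1 (by simpa using this)) (by
    intro g hg x hx hx' y hy
    have hg' := hg a (Or.inl rfl)
    have hgn : MulAut.conjNormal g n = n := by
      apply hbij.1
      have := hg _ (Or.inr rfl)
      rwa [hconj g hg'] at this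
    have key : MulAut.conjNormal g m = m ∨ MulAut.conjNormal g m = m * n := by
      rcases hx with rfl | rfl <;> rw [hconj g hg'] at hx' <;> rcases hx' with h | h
      · exact Or.inl (hbij.1 h)
      · exact Or.inr (hbij.1 h)
      · right
        have := hbij.1 h
        rw [map_mul, hgn] at this
        conv_rhs => rw [← this, mul_assoc, hsq, mul_one]
      · left
        have := hbij.1 h
        rwa [map_mul, hgn, mul_left_inj] at this
    rcases hy with rfl | rfl <;> rw [hconj g hg'] <;> rcases key with h | h <;>
      simp [h, hgn, mul_assoc, hsq]) with h | h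
  · exact absurd (hbij.1 (h (Or.inl rfl) (Or.inr rfl))) hmn
  · have h1 := congrArg Set.ncard h
    rw [Set.ncard_pair (fun h => hmn (hbij.1 h)), Set.ncard_compl, Set.ncard_pair hab,
      Nat.card_eq_fintype_card] at h1
    omega

end Cfsg.Agent.S0696
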