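import Cfsg.Statements.S0701
import Mathlib

set_option autoImplicit false
open Cfsg

namespace Cfsg.Agent.S0701

/-- The centraliser in the full symmetric group of a transitive permutation group `G` is semiregular, and it is transitive if and only if `G` is regular. -/
theorem result {α : Type*} (G : Subgroup (Equiv.Perm α)) [MulAction.IsPretransitive G α] : (∀ c ∈ Subgroup.centralizer (G : Set (Equiv.Perm α)), ∀ a : α, c a = a → c = 1) ∧ (MulAction.IsPretransitive (Subgroup.centralizer (G : Set (Equiv.Perm α))) α ↔ ∀ a : α, MulAction.stabilizer G a = ⊥) := by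
  have h1 : ∀ c ∈ Subgroup.centralizer (G : Set (Equiv.Perm α)), ∀ a : α, c a = a → c = 1 := by
    intro c hc a ha
    ext b
    obtain ⟨g, rfl⟩ := MulAction.exists_smul_eq G a b
    have := congrArg (fun σ : Equiv.Perm α => σ a) (hc g g.2)
    simp only [Equiv.Perm.coe_mul, Function.comp_apply, ha] at this
    exact this.symm
  refine ⟨h1, ?_, ?_⟩
  · intro ht a
    rw [eq_bot_iff]
    intro g hg
    have hg' : (g : Equiv.Perm α) a = a := hg
    rw [Subgroup.mem_bot]
    ext b
    obtain ⟨c, rfl⟩ := MulAction.exists_smul_eq (Subgroup.centralizer (G : Set (Equiv.Perm α))) a b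
    have := congrArg (fun σ : Equiv.Perm α => σ a) (c.2 g g.2)
    simp only [Equiv.Perm.coe_mul, Function.comp_apply, hg'] at this
    exact this
  · intro hreg
    refine ⟨fun a b => ?_⟩
    have key : ∀ (g h : G) (x : α), g • x = h • x → g = h := by
      intro g h x hx
      have : h⁻¹ * g ∈ MulAction.stabilizer G x := by
        rw [MulAction.mem_stabilizer_iff, mul_smul, hx, inv_smul_smul]
      rw [hreg, Subgroup.mem_bot] at this
      exact (inv_mul_eq_one.1 this).symm
    have bij : ∀ x : α, Function.Bijective fun g : G => g • x := fun x =>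
      ⟨fun g h hgh => key g h x hgh, fun y => MulAction.exists_smul_eq G x y⟩
    let ea := Equiv.ofBijective _ (bij a)
    let eb := Equiv.ofBijective _ (bij b)
    have hc : ∀ g : G, (ea.symm.trans eb) (g • a) = g • b := by
      intro g
      have : ea.symm (g • a) = g := ea.symm_apply_eq.2 rfl
      simp only [Equiv.trans_apply, this]; rfl
    refine ⟨⟨ea.symm.trans eb, ?_⟩, ?_⟩
    · intro g hg
      ext x
      obtain ⟨h, rfl⟩ := MulAction.exists_smul_eq G a x
      simp only [Equiv.Perm.coe_mul, Function.comp_apply]
      rw [hc h]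
      have := hc (⟨g, hg⟩ * h)
      rw [mul_smul, mul_smul] at this
      exact this.symm
    · have := hc 1
      simp only [one_smul] at this
      exact this

end Cfsg.Agent.S0701
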