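import Cfsg.Statements.S0702
import Mathlib
import Cfsg.Agent.S0701

set_option autoImplicit false
open Cfsg

namespace Cfsg.Agent.S0702

open MulAction

theorem exists_cent {α : Type*} (G : Subgroup (Equiv.Perm α)) [MulAction.IsPretransitive G α]
    (a b : α) (h : stabilizer G a = stabilizer G b) :
    ∃ c : Subgroup.centralizer (G : Set (Equiv.Perm α)), (c : Equiv.Perm α) a = b := by
  choose r hr using fun x => exists_smul_eq G a x
  choose r' hr' using fun x => exists_smul_eq G b x
  have key : ∀ g g' : G, g • a = g' • a ↔ g • b = g' • b := by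
    intro g g'
    have h1 : ∀ x : α, g • x = g' • x ↔ g'⁻¹ * g ∈ stabilizer G x := by
      intro x
      rw [mem_stabilizer_iff, mul_smul, inv_smul_eq_iff]
    rw [h1, h1, h]
  let c : Equiv.Perm α :=
    { toFun := fun x => r x • b
      invFun := fun x => r' x • a
      left_inv := fun x => by
        have := (key (r' (r x • b)) (r x)).2 (hr' _)
        simp only [this, hr]
      right_inv := fun x => by
        have := (key (r (r' x • a)) (r' x)).1 (hr _)
        simp only [this, hr'] }
  have hc : ∀ g : G, c (g • a) = g • b := fun g => (key _ _).1 (hr _)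
  refine ⟨⟨c, ?_⟩, by simpa using hc 1⟩
  intro g hg
  ext x
  obtain ⟨h, rfl⟩ := MulAction.exists_smul_eq G a x
  simp only [Equiv.Perm.coe_mul, Function.comp_apply]
  rw [hc h]
  have := hc (⟨g, hg⟩ * h)
  rw [mul_smul, mul_smul] at this
  exact this.symm

theorem cent_comm {α : Type*} (G : Subgroup (Equiv.Perm α))
    (c : Subgroup.centralizer (G : Set (Equiv.Perm α))) (g : G) (x : α) :
    (c : Equiv.Perm α) (g • x) = g • (c : Equiv.Perm α) x :=
  (congrArg (fun σ : Equiv.Perm α => σ x) (c.2 g g.2)).symm

theorem stab_cent {α : Type*} (G : Subgroup (Equiv.Perm α))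
    (c : Subgroup.centralizer (G : Set (Equiv.Perm α))) (x : α) :
    stabilizer G ((c : Equiv.Perm α) x) = stabilizer G x := by
  ext g
  rw [mem_stabilizer_iff, mem_stabilizer_iff, ← cent_comm, (c : Equiv.Perm α).injective.eq_iff]

theorem mem_normalizer_iff_stab {G α : Type*} [Group G] [MulAction G α] (a : α) (n : G) :
    n ∈ Subgroup.normalizer ((stabilizer G a : Subgroup G) : Set G) ↔
      stabilizer G (n⁻¹ • a) = stabilizer G a := by
  rw [Subgroup.mem_normalizer_iff, Subgroup.ext_iff]
  refine forall_congr' fun g => ?_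
  simp only [mem_stabilizer_iff, mul_smul]
  rw [smul_eq_iff_eq_inv_smul n]
  exact Iff.comm

/-- For a transitive permutation group `G` on a finite set, the centraliser of `G` in the symmetric group is isomorphic to `N_G(G_ω)/G_ω`, and its orbit of `ω` is the set of fixed points of `G_ω`. -/
theorem result {α : Type*} [Finite α] (G : Subgroup (Equiv.Perm α)) [MulAction.IsPretransitive G α] (a : α) : Nonempty (Subgroup.centralizer (G : Set (Equiv.Perm α)) ≃* Subgroup.normalizer ((MulAction.stabilizer G a : Subgroup G) : Set G) ⧸ (MulAction.stabilizer G a).subgroupOf (Subgroup.normalizer ((MulAction.stabilizer G a : Subgroup G) : Set G))) ∧ MulAction.orbit (Subgroup.centralizer (G : Set (Equiv.Perm α))) a = MulAction.fixedPoints (MulAction.stabilizer G a) α := by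
  have huniq : ∀ c d : Subgroup.centralizer (G : Set (Equiv.Perm α)),
      (c : Equiv.Perm α) a = (d : Equiv.Perm α) a → c = d := by
    intro c d h
    have := (Cfsg.Agent.S0701.result G).1 (d⁻¹ * c : Subgroup.centralizer (G : Set (Equiv.Perm α)))
      (d⁻¹ * c).2 a (by simp [h])
    have h2 : d⁻¹ * c = 1 := Subtype.ext this
    exact (inv_mul_eq_one.1 h2).symm
  constructor
  · choose φ hφ using fun n : Subgroup.normalizer ((stabilizer G a : Subgroup G) : Set G) =>
      exists_cent G a ((n : G)⁻¹ • a) ((mem_normalizer_iff_stab a (n : G)).1 n.2).symm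
    let ψ : Subgroup.normalizer ((stabilizer G a : Subgroup G) : Set G) →*
        Subgroup.centralizer (G : Set (Equiv.Perm α)) := MonoidHom.mk' φ (by
      intro n m
      apply huniq
      rw [hφ]
      simp only [Subgroup.coe_mul, mul_inv_rev, Equiv.Perm.coe_mul, Function.comp_apply]
      rw [hφ, cent_comm, hφ, mul_smul])
    have hsurj : Function.Surjective ψ := by
      intro c
      obtain ⟨h, hh⟩ := exists_smul_eq G a ((c : Equiv.Perm α) a)
      refine ⟨⟨h⁻¹, ?_⟩, huniq _ _ ?_⟩
      · rw [mem_normalizer_iff_stab, inv_inv, hh, stab_cent]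
      · change (φ _ : Equiv.Perm α) a = _
        rw [hφ]; simp [hh]
    have hker : ψ.ker = (MulAction.stabilizer G a).subgroupOf
        (Subgroup.normalizer ((MulAction.stabilizer G a : Subgroup G) : Set G)) := by
      ext n
      rw [MonoidHom.mem_ker, Subgroup.mem_subgroupOf, mem_stabilizer_iff]
      constructor
      · intro h
        have h1 : (φ n : Equiv.Perm α) a = a := by
          change (ψ n : Equiv.Perm α) a = a
          rw [h]; rfl
        rw [hφ, inv_smul_eq_iff] at h1
        exact h1.symm
      · intro h
        apply huniq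
        change (φ n : Equiv.Perm α) a = a
        rw [hφ, inv_smul_eq_iff, h]
    exact ⟨((QuotientGroup.quotientMulEquivOfEq hker).symm.trans
      (QuotientGroup.quotientKerEquivOfSurjective ψ hsurj)).symm⟩
  · ext b
    constructor
    · rintro ⟨c, rfl⟩ g
      have : (g : G) ∈ stabilizer G ((c : Equiv.Perm α) a) := by rw [stab_cent]; exact g.2
      exact this
    · intro hb
      have hle : stabilizer G a ≤ stabilizer G b := fun g hg => hb ⟨g, hg⟩
      obtain ⟨h, rfl⟩ := exists_smul_eq G a b
      have hcard : Nat.card (stabilizer G (h • a)) = Nat.card (stabilizer G a) :=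
        (Nat.card_congr (stabilizerEquivStabilizer (g := h) rfl).toEquiv).symm
      obtain ⟨c, hc⟩ := exists_cent G a (h • a)
        (Subgroup.eq_of_le_of_card_ge hle hcard.le)
      exact ⟨c, hc⟩

end Cfsg.Agent.S0702
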