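import Cfsg.Statements.S0703
import Mathlib
import Cfsg.Agent.S0701

set_option autoImplicit false
open Cfsg

namespace Cfsg.Agent.S0703

/-- An abelian transitive minimal normal subgroup `M` of a permutation group on a finite set is self-centralising in the symmetric group, regular, elementary abelian, and is the unique minimal normal subgroup. -/
theorem result {α : Type*} [Finite α] (G : Subgroup (Equiv.Perm α)) (M : Subgroup G) [M.Normal] (hM : M ≠ ⊥) (hmin : ∀ L : Subgroup G, L.Normal → L ≤ M → L = ⊥ ∨ L = M) (hab : IsMulCommutative M) (htrans : MulAction.IsPretransitive M α) : Subgroup.centralizer ((M.map G.subtype : Subgroup (Equiv.Perm α)) : Set (Equiv.Perm α)) = M.map G.subtype ∧ (∀ a : α, MulAction.stabilizer M a = ⊥) ∧ (∃ p : ℕ, p.Prime ∧ ∀ m ∈ M, m ^ p = 1) ∧ ∀ L : Subgroup G, L.Normal → L ≠ ⊥ → (∀ L' : Subgroup G, L'.Normal → L' ≤ L → L' = ⊥ ∨ L' = L) → L = M := by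
  have htrans' : MulAction.IsPretransitive (M.map G.subtype) α := ⟨fun a b => by
    obtain ⟨m, hm⟩ := htrans.exists_smul_eq a b
    exact ⟨⟨((m : G) : Equiv.Perm α), ⟨m, m.2, rfl⟩⟩, hm⟩⟩
  have hsemi := (Cfsg.Agent.S0701.result (M.map G.subtype)).1
  have hle : M.map G.subtype ≤
      Subgroup.centralizer ((M.map G.subtype : Subgroup (Equiv.Perm α)) : Set (Equiv.Perm α)) := by
    rintro _ ⟨m, hm, rfl⟩ _ ⟨n, hn, rfl⟩
    have := congrArg (fun x : M => ((x : G) : Equiv.Perm α))
      (hab.is_comm.comm (⟨n, hn⟩ : M) ⟨m, hm⟩)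
    simpa using this
  have hcent : Subgroup.centralizer ((M.map G.subtype : Subgroup (Equiv.Perm α)) :
      Set (Equiv.Perm α)) = M.map G.subtype := by
    refine le_antisymm (fun c hc => ?_) hle
    by_cases hα : Nonempty α
    · obtain ⟨a⟩ := hα
      obtain ⟨m, hm⟩ := htrans'.exists_smul_eq a (c a)
      have hm' : (m : Equiv.Perm α) a = c a := hm
      have := hsemi ((m : Equiv.Perm α)⁻¹ * c) (Subgroup.mul_mem _ (Subgroup.inv_mem _ (hle m.2)) hc)
        a (by simp [← hm'])
      rw [← inv_mul_eq_one.1 this]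
      exact m.2
    · rw [not_nonempty_iff] at hα
      rw [Subsingleton.elim c 1]
      exact Subgroup.one_mem _
  refine ⟨hcent, fun a => ?_, ?_, ?_⟩
  · rw [eq_bot_iff]
    intro m hm
    have := hsemi ((m : G) : Equiv.Perm α) (hle ⟨m, m.2, rfl⟩) a hm
    rw [Subgroup.mem_bot]
    exact Subtype.ext (Subtype.ext this)
  · have hnt : Nontrivial M := (Subgroup.nontrivial_iff_ne_bot M).2 hM
    obtain ⟨p, hp, hpd⟩ := Nat.exists_prime_and_dvd (Finite.one_lt_card (α := M)).ne'
    have := Fact.mk hp
    obtain ⟨x, hx⟩ := exists_prime_orderOf_dvd_card' p hpd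
    refine ⟨p, hp, ?_⟩
    let L : Subgroup G :=
      { carrier := {g | g ∈ M ∧ g ^ p = 1}
        one_mem' := ⟨M.one_mem, one_pow p⟩
        mul_mem' := by
          rintro a b ⟨ha, ha'⟩ ⟨hb, hb'⟩
          refine ⟨M.mul_mem ha hb, ?_⟩
          have : Commute a b := congrArg Subtype.val (hab.is_comm.comm (⟨a, ha⟩ : M) ⟨b, hb⟩)
          rw [this.mul_pow, ha', hb', one_mul]
        inv_mem' := by
          rintro a ⟨ha, ha'⟩
          exact ⟨M.inv_mem ha, by rw [inv_pow, ha', inv_one]⟩ }
    have hLn : L.Normal := ⟨fun n hn g => ⟨Subgroup.Normal.conj_mem inferInstance n hn.1 g, by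
      rw [conj_pow, hn.2]; simp⟩⟩
    rcases hmin L hLn (fun g hg => hg.1) with h | h
    · exfalso
      have hxL : (x : G) ∈ L := ⟨x.2, by
        have := pow_orderOf_eq_one x
        rw [hx] at this
        exact congrArg Subtype.val this⟩
      rw [h, Subgroup.mem_bot] at hxL
      have : x = 1 := Subtype.ext hxL
      rw [this, orderOf_one] at hx
      exact hp.one_lt.ne hx
    · intro m hm
      rw [← h] at hm
      exact hm.2
  · intro L hLn hL hLmin
    by_contra hne
    have hinf : L ⊓ M = ⊥ := by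
      rcases hLmin (L ⊓ M) inferInstance inf_le_left with h | h
      · exact h
      · rcases hmin L hLn (by rw [← h]; exact inf_le_right) with h' | h'
        · exact absurd h' hL
        · exact absurd h' hne
    apply hL
    rw [← hinf]
    refine le_antisymm (le_inf le_rfl fun l hl => ?_) inf_le_left
    have : (l : Equiv.Perm α) ∈ Subgroup.centralizer ((M.map G.subtype : Subgroup (Equiv.Perm α)) :
        Set (Equiv.Perm α)) := by
      rintro _ ⟨m, hm, rfl⟩
      have := Subgroup.commute_of_normal_of_disjoint L M hLn inferInstance (disjoint_iff.2 hinf)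
        l m hl hm
      exact congrArg Subtype.val this.symm
    rw [hcent] at this
    obtain ⟨m, hm, hml⟩ := this
    rwa [← Subtype.ext hml]

end Cfsg.Agent.S0703
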