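import Cfsg.Statements.S0704
import Mathlib
import Cfsg.Agent.S0701

set_option autoImplicit false
open Cfsg

namespace Cfsg.Agent.S0704

theorem aux {α : Type*} (G : Subgroup (Equiv.Perm α)) (M N : Subgroup G) [M.Normal] [N.Normal]
    (hd : Disjoint M N) (hMt : MulAction.IsPretransitive M α)
    (hNt : MulAction.IsPretransitive N α) : (∀ a : α, MulAction.stabilizer N a = ⊥) ∧
    Subgroup.centralizer ((M.map G.subtype : Subgroup (Equiv.Perm α)) : Set (Equiv.Perm α)) =
      N.map G.subtype := by
  have htrans' : MulAction.IsPretransitive (M.map G.subtype) α := ⟨fun a b => by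
    obtain ⟨m, hm⟩ := hMt.exists_smul_eq a b
    exact ⟨⟨((m : G) : Equiv.Perm α), ⟨m, m.2, rfl⟩⟩, hm⟩⟩
  have hsemi := (Cfsg.Agent.S0701.result (M.map G.subtype)).1
  have hle : N.map G.subtype ≤
      Subgroup.centralizer ((M.map G.subtype : Subgroup (Equiv.Perm α)) : Set (Equiv.Perm α)) := by
    rintro _ ⟨n, hn, rfl⟩ _ ⟨m, hm, rfl⟩
    have := Subgroup.commute_of_normal_of_disjoint M N inferInstance inferInstance hd m n hm hn
    exact congrArg Subtype.val this
  constructor
  · intro a
    rw [eq_bot_iff]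
    intro m hm
    have := hsemi ((m : G) : Equiv.Perm α) (hle ⟨m, m.2, rfl⟩) a hm
    rw [Subgroup.mem_bot]
    exact Subtype.ext (Subtype.ext this)
  · refine le_antisymm (fun c hc => ?_) hle
    by_cases hα : Nonempty α
    · obtain ⟨a⟩ := hα
      obtain ⟨m, hm⟩ := hNt.exists_smul_eq a (c a)
      have hm' : ((m : G) : Equiv.Perm α) a = c a := hm
      have := hsemi (((m : G) : Equiv.Perm α)⁻¹ * c)
        (Subgroup.mul_mem _ (Subgroup.inv_mem _ (hle ⟨m, m.2, rfl⟩)) hc) a (by simp [← hm'])
      rw [← inv_mul_eq_one.1 this]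
      exact ⟨m, m.2, rfl⟩
    · rw [not_nonempty_iff] at hα
      rw [Subsingleton.elim c 1]
      exact Subgroup.one_mem _

theorem disj {G : Type*} [Group G] (M N : Subgroup G) [M.Normal] [N.Normal] (hM : M ≠ ⊥)
    (hMmin : ∀ L : Subgroup G, L.Normal → L ≤ M → L = ⊥ ∨ L = M)
    (hNmin : ∀ L : Subgroup G, L.Normal → L ≤ N → L = ⊥ ∨ L = N) (hMN : M ≠ N) :
    Disjoint M N := by
  rw [disjoint_iff]
  rcases hMmin (M ⊓ N) inferInstance inf_le_left with h | h
  · exact h
  · rcases hNmin M inferInstance (by rw [← h]; exact inf_le_right) with h' | h'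
    · exact absurd h' hM
    · exact absurd h' hMN

/-- Two distinct transitive minimal normal subgroups `M`, `N` of a permutation group are regular, non-abelian, isomorphic, each other's centraliser in the symmetric group, and the only minimal normal subgroups. -/
theorem result {α : Type*} (G : Subgroup (Equiv.Perm α)) (M N : Subgroup G) [M.Normal] [N.Normal] (hM : M ≠ ⊥) (hN : N ≠ ⊥) (hMmin : ∀ L : Subgroup G, L.Normal → L ≤ M → L = ⊥ ∨ L = M) (hNmin : ∀ L : Subgroup G, L.Normal → L ≤ N → L = ⊥ ∨ L = N) (hMN : M ≠ N) (hMt : MulAction.IsPretransitive M α) (hNt : MulAction.IsPretransitive N α) : (∀ a : α, MulAction.stabilizer M a = ⊥) ∧ (∀ a : α, MulAction.stabilizer N a = ⊥) ∧ ¬ IsMulCommutative M ∧ Nonempty (M ≃* N) ∧ Subgroup.centralizer ((M.map G.subtype : Subgroup (Equiv.Perm α)) : Set (Equiv.Perm α)) = N.map G.subtype ∧ Subgroup.centralizer ((N.map G.subtype : Subgroup (Equiv.Perm α)) : Set (Equiv.Perm α)) = M.map G.subtype ∧ ∀ L : Subgroup G, L.Normal → L ≠ ⊥ → (∀ L' : Subgroup G, L'.Normal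 → L' ≤ L → L' = ⊥ ∨ L' = L) → L = M ∨ L = N := by
  have hd := disj M N hM hMmin hNmin hMN
  obtain ⟨hNr, hMc⟩ := aux G M N hd hMt hNt
  obtain ⟨hMr, hNc⟩ := aux G N M hd.symm hNt hMt
  refine ⟨hMr, hNr, ?_, ?_, hMc, hNc, ?_⟩
  · intro hab
    apply hM
    rw [eq_bot_iff]
    intro m hm
    have : (m : Equiv.Perm α) ∈ N.map G.subtype := by
      rw [← hMc]
      rintro _ ⟨n, hn, rfl⟩
      have := congrArg (fun x : M => ((x : G) : Equiv.Perm α))
        (hab.is_comm.comm (⟨n, hn⟩ : M) ⟨m, hm⟩)
      simpa using this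
    obtain ⟨n, hn, hnm⟩ := this
    have hmN : m ∈ N := by rwa [← Subtype.ext hnm]
    exact hd.le_bot ⟨hm, hmN⟩
  · have hα : Nonempty α := by
      by_contra hα
      rw [not_nonempty_iff] at hα
      apply hM
      rw [eq_bot_iff]
      intro m _
      exact Subtype.ext (Subsingleton.elim _ _)
    obtain ⟨a⟩ := hα
    have bij : ∀ (K : Subgroup G), MulAction.IsPretransitive K α →
        (∀ a : α, MulAction.stabilizer K a = ⊥) → Function.Bijective fun g : K => g • a := by
      intro K hK hr
      refine ⟨fun g h hgh => ?_, fun y => hK.exists_smul_eq a y⟩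
      have : h⁻¹ * g ∈ MulAction.stabilizer K a := by
        simp only at hgh
        rw [MulAction.mem_stabilizer_iff, mul_smul, hgh, inv_smul_smul]
      rw [hr, Subgroup.mem_bot] at this
      exact (inv_mul_eq_one.1 this).symm
    let eM := Equiv.ofBijective _ (bij M hMt hMr)
    let eN := Equiv.ofBijective _ (bij N hNt hNr)
    let e : M ≃ N := (Equiv.inv M).trans (eM.trans eN.symm)
    have he : ∀ m : M, (e m) • a = m⁻¹ • a := fun m => eN.apply_symm_apply _
    refine ⟨MulEquiv.mk e fun x y => (bij N hNt hNr).1 ?_⟩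
    change e (x * y) • a = (e x * e y) • a
    rw [he, mul_smul, he, mul_inv_rev, mul_smul, ← he x]
    have := Subgroup.commute_of_normal_of_disjoint M N inferInstance inferInstance hd
      (y⁻¹ : M) (e x) (y⁻¹).2 (e x).2
    change ((y⁻¹ : M) : G) • ((e x : N) : G) • a = ((e x : N) : G) • ((y⁻¹ : M) : G) • a
    rw [smul_smul, smul_smul, this.eq]
  · intro L hLn hL hLmin
    by_contra hcon
    push Not at hcon
    have hd' := disj L M hL hLmin hMmin hcon.1
    have hle : L ≤ N := by
      intro l hl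
      have : (l : Equiv.Perm α) ∈ N.map G.subtype := by
        rw [← hMc]
        rintro _ ⟨m, hm, rfl⟩
        have := Subgroup.commute_of_normal_of_disjoint L M hLn inferInstance hd' l m hl hm
        exact congrArg Subtype.val this.symm
      obtain ⟨n, hn, hnm⟩ := this
      rwa [← Subtype.ext hnm]
    rcases hNmin L hLn hle with h | h
    · exact hL h
    · exact hcon.2 h

end Cfsg.Agent.S0704
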