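import Cfsg.Statements.S0705
import Mathlib
import Cfsg.Agent.H25.Basic

set_option autoImplicit false
open scoped Pointwise
open Cfsg

namespace Cfsg.Agent.S0705

theorem gen' {α : Type*} [Fintype α] [DecidableEq α] (G : Subgroup (Equiv.Perm α)) {k : ℕ}
    (hgen : ∀ s : Finset α, s.card = k + 1 → ∀ σ : Equiv.Perm ↥s, ∃ g ∈ G, ∀ x : ↥s, g (x : α) = σ x)
    (t : Finset α) (ht : t.card = k + 1) (τ : Equiv.Perm α) (hτ : ∀ x ∈ t, τ x ∈ t) :
    ∃ g ∈ G, ∀ x ∈ t, g x = τ x := by
  obtain ⟨g, hg, h⟩ := hgen t ht (τ.subtypePermOfFintype (p := fun x => x ∈ t) hτ)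
  exact ⟨g, hg, fun x hx => h ⟨x, hx⟩⟩

/-- A generously `k`-transitive permutation group (every `(k+1)`-subset has its full symmetric group induced by the setwise stabiliser) of degree greater than `k` is `k`-transitive, and for a `k`-subset the setwise and pointwise stabilisers have the same orbits outside it. -/
theorem result {α : Type*} [Fintype α] [DecidableEq α] (G : Subgroup (Equiv.Perm α)) {k : ℕ} (hk : k < Fintype.card α) (hgen : ∀ s : Finset α, s.card = k + 1 → ∀ σ : Equiv.Perm ↥s, ∃ g ∈ G, ∀ x : ↥s, g (x : α) = σ x) : MulAction.IsMultiplyPretransitive G α k ∧ ∀ s : Finset α, s.card = k → ∀ a b : α, a ∉ s → b ∉ s → (∃ g ∈ G, g • s = s ∧ g a = b) → ∃ g ∈ G, (∀ x ∈ s, g x = x) ∧ g a = b := by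
  constructor
  · have key : ∀ j, j ≤ k → MulAction.IsMultiplyPretransitive G α j := by
      intro j
      induction j with
      | zero => intro _; exact MulAction.is_zero_pretransitive'
      | succ j ih =>
        intro hj
        refine H25.multi_succ_of_fix (ih (by omega)) fun s hs a b ha hb => ?_
        obtain ⟨t, hst, -, htc⟩ := Finset.exists_subsuperset_card_eq
          (Finset.subset_univ (insert a (insert b s))) (n := k + 1)
          (le_trans (Finset.card_insert_le _ _) (by
            have := Finset.card_insert_le b s; omega)) (by simpa using hk)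
        have hat : a ∈ t := hst (by simp)
        have hbt : b ∈ t := hst (by simp)
        obtain ⟨g, hg, h⟩ := gen' G hgen t htc (Equiv.swap a b) (fun x hx => by
          rw [Equiv.swap_apply_def]; split_ifs <;> assumption)
        refine ⟨⟨g, hg⟩, fun x hx => ?_, ?_⟩
        · change g x = x
          rw [h x (hst (by simp [hx])), Equiv.swap_apply_of_ne_of_ne]
          · rintro rfl; exact ha hx
          · rintro rfl; exact hb hx
        · change g a = b
          rw [h a hat, Equiv.swap_apply_left]
    exact key k le_rfl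
  · rintro s hs a b ha hb ⟨g, hg, hgs, hgab⟩
    have hmem : ∀ x ∈ s, g x ∈ s := fun x hx => hgs ▸ Finset.smul_mem_smul_finset hx
    have hsw : ∀ x ∈ s, Equiv.swap a b x = x := fun x hx =>
      Equiv.swap_apply_of_ne_of_ne (by rintro rfl; exact ha hx) (by rintro rfl; exact hb hx)
    obtain ⟨h, hh, hh'⟩ := gen' G hgen (insert a s) (by rw [Finset.card_insert_of_notMem ha, hs])
      (Equiv.swap a b * g) (by
        intro x hx
        rcases Finset.mem_insert.1 hx with rfl | hx
        · simp [hgab]
        · simp [hsw _ (hmem x hx), hmem x hx])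
    refine ⟨g * h⁻¹, G.mul_mem hg (G.inv_mem hh), fun x hx => ?_, ?_⟩
    · rw [← hgs] at hx
      obtain ⟨y, hy, rfl⟩ := Finset.mem_smul_finset.1 hx
      have := hh' y (by simp [hy])
      rw [Equiv.Perm.mul_apply, hsw _ (hmem y hy)] at this
      change g (h⁻¹ (g y)) = g y
      congr 1
      rw [← this]; simp
    · have := hh' a (by simp)
      rw [Equiv.Perm.mul_apply, hgab, Equiv.swap_apply_right] at this
      change g (h⁻¹ a) = b
      conv_lhs => rw [← this]
      simp [hgab]

end Cfsg.Agent.S0705
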