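import Cfsg.Statements.S0706
import Mathlib
import Cfsg.Agent.H25.Basic
import Cfsg.Agent.H25.Fix
import Cfsg.Agent.S0705

set_option autoImplicit false
open Cfsg

namespace Cfsg.Agent.S0706

open MulAction
open scoped Pointwise

/-- In a generously `k`-transitive permutation group, for a prime `p ≤ k` and a `k`-set `Γ`, there are no `p` points outside `Γ` lying in distinct orbits of the pointwise stabiliser of `Γ` all of length prime to `p` (at most `p - 1` such orbits). -/
theorem result {α : Type*} [Fintype α] [DecidableEq α] (G : Subgroup (Equiv.Perm α)) {k : ℕ} (hk : k < Fintype.card α) (hgen : ∀ s : Finset α, s.card = k + 1 → ∀ σ : Equiv.Perm ↥s, ∃ g ∈ G, ∀ x : ↥s, g (x : α) = σ x) {p : ℕ} (hp : p.Prime) (hpk : p ≤ k) (Γ : Finset α) (hΓ : Γ.card = k) (f : Fin p → α) (hf : ∀ i, f i ∉ Γ) (hdist : ∀ i j, i ≠ j → f j ∉ MulAction.orbit (fixingSubgroup G (Γ : Set α)) (f i)) : ∃ i, p ∣ Nat.card (MulAction.orbit (fixingSubgroup G (Γ : Set α)) (f i)) := by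
  by_contra hcon
  push Not at hcon
  have := Fact.mk hp
  obtain ⟨htrans, horb⟩ := Cfsg.Agent.S0705.result G hk hgen
  have hkn : k ≤ Nat.card α := by rw [Nat.card_eq_fintype_card]; exact hk.le
  obtain ⟨Γ₀, hΓ₀, hc₀⟩ := Finset.exists_subset_card_eq (s := Γ) (n := k - p) (by omega)
  set H := fixingSubgroup G (Γ : Set α) with hH
  let X : Subgroup G := stabilizer G Γ ⊓ fixingSubgroup G (Γ₀ : Set α)
  have hcD : (Γ \ Γ₀).card = p := by rw [Finset.card_sdiff_of_subset hΓ₀]; omega
  obtain ⟨δ, hδ⟩ : (Γ \ Γ₀).Nonempty := by rw [← Finset.card_pos, hcD]; exact hp.pos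
  have hδ' := Finset.mem_sdiff.1 hδ
  have hHX : H ≤ X := by
    intro g hg
    rw [mem_fixingSubgroup_iff] at hg
    refine ⟨?_, ?_⟩
    · change g • Γ = Γ
      ext x
      rw [Finset.mem_smul_finset]
      exact ⟨by rintro ⟨y, hy, rfl⟩; rwa [hg y hy], fun hx => ⟨x, hx, hg x hx⟩⟩
    · change g ∈ fixingSubgroup G (Γ₀ : Set α)
      rw [mem_fixingSubgroup_iff]
      exact fun y hy => hg y (hΓ₀ hy)
  have horbX : orbit X δ = (Γ \ Γ₀ : Finset α) := by
    ext y
    constructor
    · rintro ⟨⟨g, hg1, hg2⟩, rfl⟩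
      have hg1' : g • Γ = Γ := hg1
      have hg2' : g ∈ fixingSubgroup G (Γ₀ : Set α) := hg2
      rw [mem_fixingSubgroup_iff] at hg2'
      change g • δ ∈ _
      simp only [Finset.coe_sdiff, Set.mem_diff, Finset.mem_coe]
      refine ⟨hg1' ▸ Finset.smul_mem_smul_finset hδ'.1, fun h => hδ'.2 ?_⟩
      have := hg2' _ h
      rw [smul_left_cancel_iff] at this
      rwa [← this]
    · intro hy
      have hy' := Finset.mem_sdiff.1 hy
      obtain ⟨g, hg⟩ := H25.exists_smul_eq_on_finset htrans hkn Γ hΓ.le (Equiv.swap δ y)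
        (Equiv.swap δ y).injective.injOn
      refine ⟨⟨g, ?_, ?_⟩, ?_⟩
      · change g • Γ = Γ
        apply Finset.eq_of_subset_of_card_le
        · intro x hx
          obtain ⟨z, hz, rfl⟩ := Finset.mem_smul_finset.1 hx
          rw [hg z hz, Equiv.swap_apply_def]
          split_ifs
          exacts [hy'.1, hδ'.1, hz]
        · rw [Finset.card_smul_finset]
      · change g ∈ fixingSubgroup G (Γ₀ : Set α)
        rw [mem_fixingSubgroup_iff]
        intro z hz
        rw [hg z (hΓ₀ hz), Equiv.swap_apply_of_ne_of_ne]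
        · rintro rfl; exact hδ'.2 hz
        · rintro rfl; exact hy'.2 hz
      · change g • δ = y
        rw [hg δ hδ'.1, Equiv.swap_apply_left]
  have hdvd : p * Nat.card H ∣ Nat.card X := by
    rw [← H25.ncard_orbit_mul_card_stabilizer (G := X) δ, horbX, Set.ncard_coe_finset, hcD]
    apply Nat.mul_dvd_mul_left
    rw [← Nat.card_congr (Subgroup.subgroupOfEquivOfLe hHX).toEquiv]
    apply Subgroup.card_dvd_of_le
    intro g hg
    rw [Subgroup.mem_subgroupOf, mem_fixingSubgroup_iff] at hg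
    exact hg δ hδ'.1
  obtain ⟨Q⟩ : Nonempty (Sylow p X) := inferInstance
  let Q' : Subgroup G := (Q : Subgroup X).map X.subtype
  have hQ' : IsPGroup p Q' := Q.isPGroup'.map _
  have hQX : Q' ≤ X := Subgroup.map_subtype_le _
  have hfix : ∀ i, ∃ x ∈ orbit H (f i), ∀ q ∈ Q', q • x = x := by
    intro i
    refine H25.exists_fixed_of_not_dvd Q' hQ' _ ?_ (hcon i)
    rintro q hq _ ⟨h, rfl⟩
    have hqΓ : q • Γ = Γ := (hQX hq).1
    have hhΓ : (h : G) • Γ = Γ := (hHX h.2).1
    have hnot : (q * h) • f i ∉ Γ := by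
      intro h'
      rw [← hqΓ, ← hhΓ, smul_smul, Finset.smul_mem_smul_finset_iff] at h'
      exact hf i h'
    obtain ⟨g, hg, hg1, hg2⟩ := horb Γ hΓ (f i) ((q * h) • f i) (hf i) hnot
      ⟨(q * h : G), (q * h).2, by
        change (q * h : G) • Γ = Γ
        rw [mul_smul, hhΓ, hqΓ], rfl⟩
    refine ⟨⟨⟨g, hg⟩, ?_⟩, ?_⟩
    · rw [mem_fixingSubgroup_iff]
      exact hg1
    · change g (f i) = q • (h : G) • f i
      rw [hg2, mul_smul]
  choose x hx hxfix using hfix
  have hxinj : Function.Injective x := by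
    intro i j hij
    by_contra hne
    apply hdist i j hne
    have h1 := hx i
    have h2 := hx j
    rw [← hij] at h2
    rw [← orbit_eq_iff] at h1 h2
    rw [← h1, h2]
    exact mem_orbit_self _
  have hxΓ : ∀ i, x i ∉ Γ := by
    intro i hi
    obtain ⟨h, hh⟩ := hx i
    have hhΓ : (h : G) • Γ = Γ := (hHX h.2).1
    rw [← hh, ← hhΓ] at hi
    exact hf i (Finset.smul_mem_smul_finset_iff (h : G) |>.1 hi)
  let Γ' : Finset α := Γ₀ ∪ Finset.univ.image x
  have hΓ' : Γ'.card = k := by
    rw [Finset.card_union_of_disjoint, Finset.card_image_of_injective _ hxinj]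
    · simp only [Finset.card_univ, Fintype.card_fin]; omega
    · rw [Finset.disjoint_right]
      intro y hy hy'
      obtain ⟨i, -, rfl⟩ := Finset.mem_image.1 hy
      exact hxΓ i (hΓ₀ hy')
  have hQle : Q' ≤ fixingSubgroup G (Γ' : Set α) := by
    intro q hq
    rw [mem_fixingSubgroup_iff]
    intro y hy
    rcases Finset.mem_union.1 hy with hy | hy
    · have : q ∈ fixingSubgroup G (Γ₀ : Set α) := (hQX hq).2
      rw [mem_fixingSubgroup_iff] at this
      exact this y hy
    · obtain ⟨i, -, rfl⟩ := Finset.mem_image.1 hy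
      exact hxfix i q hq
  have hcardeq : Nat.card (fixingSubgroup G (Γ' : Set α)) = Nat.card H := by
    have h1 := IsMultiplyPretransitive.index_of_fixingSubgroup_eq (G := G) (Γ' : Set α)
      (by rw [Set.ncard_coe_finset, hΓ']; exact htrans)
    have h2 := IsMultiplyPretransitive.index_of_fixingSubgroup_eq (G := G) (Γ : Set α)
      (by rw [Set.ncard_coe_finset, hΓ]; exact htrans)
    rw [Set.ncard_coe_finset, hΓ'] at h1
    rw [Set.ncard_coe_finset, hΓ, ← h1] at h2
    have h3 := (fixingSubgroup G (Γ' : Set α)).card_mul_index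
    rw [← H.card_mul_index, h2] at h3
    exact Nat.eq_of_mul_eq_mul_right (Nat.pos_of_ne_zero Subgroup.FiniteIndex.index_ne_zero) h3
  have h1 : Nat.card Q' ∣ Nat.card H := hcardeq ▸ Subgroup.card_dvd_of_le hQle
  have h2 : Nat.card Q' = Nat.card Q := Subgroup.card_map_of_injective X.subtype_injective
  rw [h2, Q.card_eq_multiplicity] at h1
  have h3 : p ^ ((Nat.card X).factorization p + 1) ∣ Nat.card X := by
    rw [pow_succ']
    exact (Nat.mul_dvd_mul_left p h1).trans hdvd
  exact Nat.pow_succ_factorization_not_dvd Nat.card_pos.ne' hp h3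

end Cfsg.Agent.S0706
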