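import Cfsg.Statements.S0707
import Mathlib

set_option autoImplicit false
open Cfsg

namespace Cfsg.Agent.S0707

/-- In a primitive permutation group, distinct points have distinct stabilisers unless the group is regular of prime degree. -/
theorem result {α : Type*} (G : Subgroup (Equiv.Perm α)) [MulAction.IsPreprimitive G α] (h : ¬ (Nat.card α).Prime ∨ ∃ a : α, MulAction.stabilizer G a ≠ ⊥) {a b : α} (hab : a ≠ b) : MulAction.stabilizer G a ≠ MulAction.stabilizer G b := by
  intro heq
  open MulAction in
  have hnt : Nontrivial α := ⟨a, b, hab⟩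
  -- the set of points with the same stabiliser as `a` is a block
  have hblock : IsBlock G {x : α | stabilizer G x = stabilizer G a} := by
    rw [isBlock_iff_smul_eq_of_nonempty]
    rintro g ⟨x, ⟨y, hy, rfl⟩, hx⟩
    simp only [Set.mem_ofPred_eq] at hx hy
    have hc : ∀ z : α, stabilizer G (g • z) = stabilizer G a ↔ stabilizer G z = stabilizer G a := by
      intro z
      rw [stabilizer_smul_eq_stabilizer_map_conj] at hx ⊢
      conv_lhs => rw [← hx, hy]
      exact (Subgroup.map_injective (MulAut.conj g).injective).eq_iff
    ext z
    rw [Set.mem_smul_set_iff_inv_smul_mem]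
    simp only [Set.mem_ofPred_eq]
    rw [← hc, smul_inv_smul]
  rcases hblock.subsingleton_or_eq_univ with h1 | h1
  · exact hab (h1 (rfl : stabilizer G a = stabilizer G a) heq.symm)
  have hall : ∀ x : α, stabilizer G x = ⊥ := by
    have h2 : ∀ x : α, stabilizer G x = stabilizer G a := fun x => by
      have : x ∈ {x : α | stabilizer G x = stabilizer G a} := h1 ▸ Set.mem_univ x
      exact this
    intro x
    rw [eq_bot_iff]
    intro g hg
    rw [Subgroup.mem_bot]
    ext y
    have : g ∈ stabilizer G y := by rw [h2, ← h2 x]; exact hg
    exact this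
  rcases h with h | ⟨x, hx⟩
  · apply h
    have hco : IsCoatom (stabilizer G a) := IsPreprimitive.isCoatom_stabilizer_of_isPreprimitive _ a
    rw [hall] at hco
    have hso : IsSimpleOrder (Subgroup G) := isSimpleOrder_iff_isCoatom_bot.2 hco
    have hcard : Nat.card α = Nat.card G := by
      symm
      apply Nat.card_congr
      refine Equiv.ofBijective (fun g : G => g • a) ⟨fun g h hgh => ?_, fun y => exists_smul_eq G a y⟩
      have : h⁻¹ * g ∈ stabilizer G a := by
        simp only at hgh
        rw [mem_stabilizer_iff, mul_smul, hgh, inv_smul_smul]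
      rw [hall, Subgroup.mem_bot] at this
      exact (inv_mul_eq_one.1 this).symm
    rw [hcard]
    have hnG : Nontrivial G := (Subgroup.nontrivial_iff).1 inferInstance
    have hcyc : IsCyclic G := by
      obtain ⟨g, hg⟩ := exists_ne (1 : G)
      rcases eq_bot_or_eq_top (Subgroup.zpowers g) with h3 | h3
      · exact absurd (Subgroup.zpowers_eq_bot.1 h3) hg
      · exact ⟨g, fun x => by
          have : x ∈ Subgroup.zpowers g := h3 ▸ Subgroup.mem_top x
          exact this⟩
    have hsimple : IsSimpleGroup G := ⟨fun H _ => eq_bot_or_eq_top H⟩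
    let := hcyc.commGroup
    exact IsSimpleGroup.prime_card
  · exact hx (hall x)

end Cfsg.Agent.S0707
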