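import Cfsg.Statements.S0708
import Cfsg.Agent.H25.JSet
import Cfsg.Agent.H25.Fix

set_option autoImplicit false
open Cfsg

namespace Cfsg.Agent.S0708

open MulAction H25

/-- Tits' argument: a sharply 4-transitive group (no finiteness assumed) has finite degree at most 11, and at most 6 when the degree is even. -/
theorem result {G : Type*} [Group G] {Ω : Type*} [MulAction G Ω] (h4 : MulAction.IsMultiplyPretransitive G Ω 4) (hsharp : ∀ x : Fin 4 ↪ Ω, MulAction.stabilizer G x = ⊥) (hne : Nonempty (Fin 4 ↪ Ω)) : Finite Ω ∧ Nat.card Ω ≤ 11 ∧ (Even (Nat.card Ω) → Nat.card Ω ≤ 6) := by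
  rw [four_trans_iff] at h4
  rw [sharp_four_iff] at hsharp
  obtain ⟨p, q, a, b, h1, h2, h3, h4', h5, h6⟩ : ∃ p q a b : Ω, p ≠ q ∧ p ≠ a ∧ p ≠ b ∧ q ≠ a ∧
      q ≠ b ∧ a ≠ b := by
    obtain ⟨x⟩ := hne
    exact ⟨x 0, x 1, x 2, x 3, by simp, by simp, by simp, by simp, by simp, by simp⟩
  obtain ⟨u, up, uq, ua, ub⟩ := h4 p q a b p q b a h1 h2 h3 h4' h5 h6 h1 h3 h2 h5 h4' h6.symm
  have uu : u * u = 1 := hsharp p q a b h1 h2 h3 h4' h5 h6 _ (by rw [mul_smul, up, up])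
    (by rw [mul_smul, uq, uq]) (by rw [mul_smul, ua, ub]) (by rw [mul_smul, ub, ua])
  have uu' : ∀ w : Ω, u • u • w = w := fun w => by rw [← mul_smul, uu, one_smul]
  have u1 : u ≠ 1 := by rintro rfl; exact h6 (by simpa using ua)
  set F : Set Ω := {w | u • w = w} with hF
  set M : Set Ω := {c | u • c ≠ c ∧ c ≠ a ∧ c ≠ b} with hM
  obtain ⟨z, hz⟩ : ∃ z, F ⊆ {p, q, z} := by
    by_cases h : F ⊆ {p, q}
    · exact ⟨p, h.trans (by simp [Set.insert_subset_iff])⟩
    · obtain ⟨z, hz, hz'⟩ := Set.not_subset.1 h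
      simp only [Set.mem_insert_iff, Set.mem_singleton_iff, not_or] at hz'
      refine ⟨z, fun w hw => ?_⟩
      by_contra h'
      simp only [Set.mem_insert_iff, Set.mem_singleton_iff, not_or] at h'
      exact u1 (hsharp p q z w h1 (Ne.symm hz'.1) (Ne.symm h'.1) (Ne.symm hz'.2) (Ne.symm h'.2.1)
        (Ne.symm h'.2.2) u up uq hz hw)
  have hFf : F.Finite := (Set.toFinite _).subset hz
  have hF3 : F.ncard ≤ 3 := (Set.ncard_le_ncard hz).trans ((Set.ncard_insert_le _ _).trans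
    (Nat.succ_le_succ ((Set.ncard_insert_le _ _).trans (by simp))))
  have hF2 : 2 ≤ F.ncard := (Set.one_lt_ncard hFf).2 ⟨p, up, q, uq, h1⟩
  have hinj : ∃ f : Ω → Ω × Ω, (∀ c ∈ M, f c ∈ F.offDiag) ∧ Set.InjOn f M := by
    rcases M.eq_empty_or_nonempty with h | ⟨c₀, hc₀⟩
    · exact ⟨fun c => (c, c), by simp [h], by simp [h]⟩
    have ne : ∀ c ∈ M, a ≠ c ∧ a ≠ u • c ∧ b ≠ c ∧ b ≠ u • c ∧ c ≠ u • c := fun c hc =>
      ⟨hc.2.1.symm, fun h => hc.2.2 (by rw [← ua, h, uu']), hc.2.2.symm,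
        fun h => hc.2.1 (by rw [← ub, h, uu']), hc.1.symm⟩
    have key : ∀ c ∈ M, ∃ g : G, g • a = a ∧ g • b = b ∧ g • c₀ = c ∧ ∀ w ∈ F, g • w ∈ F := by
      intro c hc
      obtain ⟨n1, n2, n3, n4, n5⟩ := ne c₀ hc₀
      obtain ⟨m1, m2, m3, m4, m5⟩ := ne c hc
      obtain ⟨g, g1, g2, g3, g4⟩ := h4 a b c₀ (u • c₀) a b c (u • c) h6 n1 n2 n3 n4 n5 h6 m1 m2 m3
        m4 m5
      have : g⁻¹ * u * g * u = 1 := hsharp a b c₀ (u • c₀) h6 n1 n2 n3 n4 n5 _
        (by rw [mul_smul, mul_smul, mul_smul, ua, g2, ub, inv_smul_eq_iff, g1])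
        (by rw [mul_smul, mul_smul, mul_smul, ub, g1, ua, inv_smul_eq_iff, g2])
        (by rw [mul_smul, mul_smul, mul_smul, g4, uu', inv_smul_eq_iff, g3])
        (by rw [mul_smul, mul_smul, mul_smul, uu', g3, inv_smul_eq_iff, g4])
      refine ⟨g, g1, g2, g3, fun w hw => ?_⟩
      have e := congrArg (· • w) this
      simp only [mul_smul, one_smul, inv_smul_eq_iff, show u • w = w from hw] at e
      exact e
    choose! g g1 g2 g3 g4 using key
    refine ⟨fun c => (g c • p, g c • q), fun c hc => ⟨g4 c hc p up, g4 c hc q uq,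
      (MulAction.injective _).ne h1⟩, fun c hc d hd h => ?_⟩
    simp only [Prod.mk.injEq] at h
    have : (g d)⁻¹ * g c = 1 := hsharp p q a b h1 h2 h3 h4' h5 h6 _
      (by rw [mul_smul, h.1, inv_smul_smul]) (by rw [mul_smul, h.2, inv_smul_smul])
      (by rw [mul_smul, g1 c hc, inv_smul_eq_iff, g1 d hd])
      (by rw [mul_smul, g2 c hc, inv_smul_eq_iff, g2 d hd])
    rw [← g3 c hc, ← g3 d hd, inv_mul_eq_one.1 this]
  obtain ⟨f, hf1, hf2⟩ := hinj
  have hMf : M.Finite := Set.Finite.of_finite_image (hFf.offDiag.subset (by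
    rintro _ ⟨c, hc, rfl⟩; exact hf1 c hc)) hf2
  have huniv : (Set.univ : Set Ω) ⊆ F ∪ ({a, b} ∪ M) := fun w _ => by
    simp only [hF, hM, Set.mem_union, Set.mem_setOf_eq, Set.mem_insert_iff, Set.mem_singleton_iff]
    tauto
  have hfin : Finite Ω := Set.finite_univ_iff.1
    ((hFf.union ((Set.toFinite _).union hMf)).subset huniv)
  have e1 := Set.ncard_le_ncard_of_injOn f hf1 hf2 (Set.toFinite _)
  rw [ncard_offDiag] at e1
  have e2 := (Set.ncard_le_ncard huniv).trans ((Set.ncard_union_le _ _).trans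
    (Nat.add_le_add_left (Set.ncard_union_le _ _) _))
  rw [Set.ncard_univ, Set.ncard_pair h6] at e2
  have : Fact (Nat.Prime 2) := ⟨Nat.prime_two⟩
  have e3 := ncard_modEq_fixed (p := 2) (Subgroup.zpowers u) (IsPGroup.of_card (n := 1) (by
    rw [Nat.card_zpowers, pow_one]; exact orderOf_eq_prime (by rw [sq, uu]) u1)) (Set.univ : Set Ω)
    (Set.toFinite _) (fun _ _ _ _ => trivial)
  have e4 : {x ∈ (Set.univ : Set Ω) | ∀ q ∈ Subgroup.zpowers u, q • x = x} = F := by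
    ext w
    simp only [Set.mem_univ, true_and, Set.mem_setOf_eq, hF]
    exact ⟨fun h => h u (Subgroup.mem_zpowers u), fun h => Subgroup.zpowers_le.2
      (show u ∈ stabilizer G w from h)⟩
  rw [e4, Set.ncard_univ] at e3
  unfold Nat.ModEq at e3
  refine ⟨hfin, ?_, fun ⟨r, hr⟩ => ?_⟩ <;> generalize F.ncard = k at * <;> interval_cases k <;> omega

end Cfsg.Agent.S0708
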