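import Cfsg.Statements.S0709
import Cfsg.Agent.H25.Basic

set_option autoImplicit false
open Cfsg

namespace Cfsg.Agent.S0709

open MulAction Subgroup

theorem mem_dcoset {X : Type*} [Group X] [Finite X] {K L : Subgroup X} {σ τ : X} (hLK : L ≤ K)
    (hτ : τ ∈ K) (hσ2 : σ ^ 2 ∈ L) (hb : (τ * σ) ^ 3 ∈ K) (hn : ∀ v ∈ L, σ * v * σ⁻¹ ∈ L)
    (hdec : ∀ a ∈ K, a ∈ L ∨ ∃ u ∈ L, ∃ v ∈ L, a = u * τ * v) (A : Set X)
    (hA : ∀ a ∈ A, a ∈ K ∨ a = σ) {g : X} (hg : g ∈ closure A) :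
    g ∈ K ∨ ∃ a ∈ K, ∃ b ∈ K, g = a * σ * b := by
  let S : Set X := {g | g ∈ K ∨ ∃ a ∈ K, ∃ b ∈ K, g = a * σ * b}
  let T : Submonoid X :=
    { carrier := {g | ∀ x ∈ S, g * x ∈ S}
      one_mem' := fun x hx => by rwa [one_mul]
      mul_mem' := fun {a b} ha hb x hx => by rw [mul_assoc]; exact ha _ (hb x hx) }
  have key : g ∈ T := by
    induction hg using closure_induction with
    | one => exact T.one_mem
    | mul a b _ _ ha hb => exact T.mul_mem ha hb
    | inv a _ ha =>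
      obtain ⟨n, hn⟩ := mem_powers_iff_mem_zpowers.2 (inv_mem (mem_zpowers a))
      rw [← hn]
      exact T.pow_mem ha _
    | mem k hk =>
      rcases hA k hk with hk | rfl
      · rintro x (hx | ⟨a, ha, b, hb, rfl⟩)
        · exact Or.inl (K.mul_mem hk hx)
        · exact Or.inr ⟨k * a, K.mul_mem hk ha, b, hb, by group⟩
      · rintro x (hx | ⟨a, ha, b, hb', rfl⟩)
        · exact Or.inr ⟨1, K.one_mem, x, hx, by group⟩
        · rcases hdec a ha with ha | ⟨u, hu, v, hv, rfl⟩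
          · left
            rw [show k * (a * k * b) = (k * a * k⁻¹) * k ^ 2 * b by rw [sq]; group]
            exact K.mul_mem (K.mul_mem (hLK (hn a ha)) (hLK hσ2)) hb'
          · refine Or.inr ⟨(k * u * k⁻¹) * τ⁻¹ * (τ * k) ^ 3 * (k ^ 2)⁻¹, K.mul_mem (K.mul_mem
              (K.mul_mem (hLK (hn u hu)) (K.inv_mem hτ)) hb) (K.inv_mem (hLK hσ2)),
              τ⁻¹ * ((k ^ 2)⁻¹ * (k * v * k⁻¹) * k ^ 2) * b, K.mul_mem (K.mul_mem (K.inv_mem hτ)
              (hLK (L.mul_mem (L.mul_mem (L.inv_mem hσ2) (hn v hv)) hσ2))) hb', ?_⟩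
            simp only [pow_succ, pow_zero, one_mul]
            group
  have := key 1 (Or.inl K.one_mem)
  rwa [mul_one] at this

/-- Witt's Lemma for constructing transitive extensions. Points `q 1, …, q t` (`t ≥ 2`) of a finite set are given; `G` fixes `q i` for `i ≥ 3` and is doubly transitive on the remaining points; `s 1 ∈ G` swaps `q 1, q 2`; for `2 ≤ i ≤ t-1`, `s i` swaps `q i, q (i+1)` and fixes the other `q j`; with `H` the stabiliser of `q 1, q 2` in `G`: `s i ^ 2 ∈ H`, `(s i * s (i+1)) ^ 3 ∈ H`, `(s i * s j) ^ 2 ∈ H` for `j ≥ i + 2`, and `s i` (`i ≥ 2`) normalises the stabiliser of `q 2` in `G`. Then `G` and the `s i` generate a `t`-transitive group whose pointwise stabiliser of the `q`'s is `H`. -/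
theorem result {α : Type*} [Fintype α] [DecidableEq α] (t : ℕ) (ht : 2 ≤ t) (q : ℕ → α) (hq : ∀ i j : ℕ, 1 ≤ i → i ≤ t → 1 ≤ j → j ≤ t → q i = q j → i = j) (G : Subgroup (Equiv.Perm α)) (hfix : ∀ g ∈ G, ∀ i : ℕ, 3 ≤ i → i ≤ t → g (q i) = q i) (h2 : ∀ a b c d : α, (∀ i, 3 ≤ i → i ≤ t → a ≠ q i ∧ b ≠ q i ∧ c ≠ q i ∧ d ≠ q i) → a ≠ b → c ≠ d → ∃ g ∈ G, g a = c ∧ g b = d) (s : ℕ → Equiv.Perm α) (hs1 : s 1 ∈ G) (hs1q : s 1 (q 1) = q 2 ∧ s 1 (q 2) = q 1) (hsq : ∀ i : ℕ, 2 ≤ i → i + 1 ≤ t → s i (q i) = q (i + 1) ∧ s i (q (i + 1)) = q i ∧ ∀ j : ℕ, 1 ≤ j → j ≤ t → j ≠ i → j ≠ i + 1 → s i (q j) = q j) (H : Subgroup (Equiv.Perm α)) (hH : H = G ⊓ MulAction.stabilizer (Equiv.Perm α) (q 1) ⊓ MulAction.stabilizer (Equiv.Perm α) (q 2)) (hsq2 : ∀ i : ℕ, 1 ≤ i → i + 1 ≤ t → s i ^ 2 ∈ H) (hbraid : ∀ i : ℕ, 1 ≤ i → i + 2 ≤ t → (s i * s (i + 1)) ^ 3 ∈ H) (hcomm : ∀ i j : ℕ, 1 ≤ i → i + 2 ≤ j → j + 1 ≤ t → (s i * s j) ^ 2 ∈ H ∧ (s j * s i) ^ 2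 ∈ H) (hnorm : ∀ i : ℕ, 2 ≤ i → i + 1 ≤ t → ∀ g ∈ G ⊓ MulAction.stabilizer (Equiv.Perm α) (q 2), s i * g * (s i)⁻¹ ∈ G ⊓ MulAction.stabilizer (Equiv.Perm α) (q 2)) : MulAction.IsMultiplyPretransitive ↥(Subgroup.closure ((G : Set (Equiv.Perm α)) ∪ {x | ∃ i : ℕ, 2 ≤ i ∧ i + 1 ≤ t ∧ x = s i})) α t ∧ Subgroup.closure ((G : Set (Equiv.Perm α)) ∪ {x | ∃ i : ℕ, 2 ≤ i ∧ i + 1 ≤ t ∧ x = s i}) ⊓ fixingSubgroup (Equiv.Perm α) {x | ∃ i : ℕ, 1 ≤ i ∧ i ≤ t ∧ x = q i} = H := by
  set G₁ := G ⊓ stabilizer (Equiv.Perm α) (q 2) with hG₁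
  let K : ℕ → Subgroup (Equiv.Perm α) := fun i =>
    closure ((G₁ : Set (Equiv.Perm α)) ∪ {x | ∃ j : ℕ, 1 ≤ j ∧ j + 1 ≤ i ∧ x = s j})
  have hne : ∀ i j : ℕ, 1 ≤ i → i ≤ t → 1 ≤ j → j ≤ t → i ≠ j → q i ≠ q j :=
    fun i j a b c d e f => e (hq i j a b c d f)
  have hHG : H ≤ G₁ := hH ▸ fun g hg => ⟨hg.1.1, hg.2⟩
  have hG₁K : ∀ i, G₁ ≤ K i := fun i g hg => subset_closure (Or.inl hg)
  have hsK : ∀ i j, 1 ≤ j → j + 1 ≤ i → s j ∈ K i := fun i j a b =>
    subset_closure (Or.inr ⟨j, a, b, rfl⟩)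
  have hmono : ∀ i, K i ≤ K (i + 1) := fun i => closure_mono (Set.union_subset_union_right _
    fun _ ⟨j, a, b, c⟩ => ⟨j, a, by omega, c⟩)
  have hsw : ∀ i, 1 ≤ i → i + 1 ≤ t → s i (q (i + 1)) = q i := fun i a b => by
    rcases Nat.eq_or_lt_of_le a with rfl | a
    · exact hs1q.2
    · exact (hsq i a b).2.1
  have hA : ∀ i j, 1 ≤ i → i < j → j ≤ t → ∀ g ∈ K i, g (q j) = q j := by
    intro i j a b c
    refine fun g hg => (closure_le (stabilizer (Equiv.Perm α) (q j))).2 ?_ hg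
    rintro x (hx | ⟨l, d, e, rfl⟩)
    · rcases Nat.eq_or_lt_of_le (show 2 ≤ j by omega) with rfl | h
      · exact hx.2
      · exact hfix x hx.1 j h c
    · rcases Nat.eq_or_lt_of_le d with rfl | d
      · exact hfix _ hs1 j (by omega) c
      · exact (hsq l d (by omega)).2.2 j (by omega) c (by omega) (by omega)
  have hK1 : K 1 ≤ G₁ := (closure_le _).2 (by
    rintro x (hx | ⟨l, d, e, rfl⟩)
    · exact hx
    · omega)
  have hK2 : K 2 ≤ G := (closure_le _).2 (by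
    rintro x (hx | ⟨l, d, e, rfl⟩)
    · exact hx.1
    · obtain rfl : l = 1 := by omega
      exact hs1)
  have hB : ∀ i, 1 ≤ i → i ≤ t → ∀ a, (∀ j, i < j → j ≤ t → a ≠ q j) → ∃ g ∈ K i, g (q i) = a := by
    intro i hi
    induction i, hi using Nat.le_induction with
    | base =>
      intro _ a ha
      obtain ⟨g, hg, h1, h2⟩ := h2 (q 1) (q 2) a (q 2) (fun i b c => ⟨hne _ _ le_rfl (by omega)
        (by omega) c (by omega), hne _ _ (by omega) ht (by omega) c (by omega), ha i (by omega) c,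
        hne _ _ (by omega) ht (by omega) c (by omega)⟩) (hne _ _ le_rfl (by omega) (by omega) ht
        (by omega)) (ha 2 (by omega) ht)
      exact ⟨g, hG₁K 1 ⟨hg, h2⟩, h1⟩
    | succ i hi ih =>
      intro hit a ha
      by_cases h : a = q (i + 1)
      · exact ⟨1, one_mem _, h.symm⟩
      · obtain ⟨g, hg, h1⟩ := ih (by omega) a fun j b c => by
          rcases Nat.eq_or_lt_of_le b with rfl | b
          · exact h
          · exact ha j b c
        exact ⟨g * s i, mul_mem (hmono i hg) (hsK _ i hi le_rfl), by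
          rw [Equiv.Perm.mul_apply, hsw i hi hit, h1]⟩
  have hdec : ∀ i, 1 ≤ i → i + 1 ≤ t → ∀ L : Subgroup (Equiv.Perm α), K (i + 1) ≤ L →
      (∀ g ∈ L, ∀ j, i + 1 < j → j ≤ t → g (q j) = q j) →
      (∀ g ∈ L, g (q (i + 1)) = q (i + 1) → g ∈ K i) →
      ∀ a ∈ L, a ∈ K i ∨ ∃ u ∈ K i, ∃ v ∈ K i, a = u * s i * v := by
    intro i hi hit L hL hL' hC a ha
    by_cases h : a (q (i + 1)) = q (i + 1)
    · exact Or.inl (hC a ha h)
    obtain ⟨u, hu, h1⟩ := hB i hi (by omega) (a (q (i + 1))) fun j b c => by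
      rcases Nat.eq_or_lt_of_le b with rfl | b
      · exact h
      · rw [← hL' a ha j b c]
        exact a.injective.ne (hne _ _ (by omega) hit (by omega) c (by omega))
    refine Or.inr ⟨u, hu, (u * s i)⁻¹ * a, hC _ (mul_mem (inv_mem (hL (mul_mem (hmono i hu)
      (hsK _ i hi le_rfl)))) ha) ?_, by group⟩
    rw [Equiv.Perm.mul_apply, Equiv.Perm.inv_eq_iff_eq, Equiv.Perm.mul_apply, hsw i hi hit, h1]
  have hGK : G ≤ K 2 := fun g hg => by
    rcases hdec 1 le_rfl ht G hK2 (fun g hg j a b => hfix g hg j a b)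
      (fun g hg h => hG₁K 1 ⟨hg, h⟩) g hg with h | ⟨u, hu, v, hv, rfl⟩
    · exact hmono 1 h
    · exact mul_mem (mul_mem (hmono 1 hu) (hsK 2 1 le_rfl le_rfl)) (hmono 1 hv)
  have hC : ∀ i, 1 ≤ i → i + 1 ≤ t → ∀ g ∈ K (i + 1), g (q (i + 1)) = q (i + 1) → g ∈ K i := by
    intro i hi
    induction i, hi using Nat.le_induction with
    | base => exact fun _ g hg h => hG₁K 1 ⟨hK2 hg, h⟩
    | succ i hi ih =>
      intro hit g hg h
      have hσ2 := hG₁K i (hHG (hsq2 (i + 1) (by omega) hit))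
      rcases mem_dcoset (σ := s (i + 1)) (hmono i) (hsK _ i hi le_rfl) hσ2
        (hG₁K _ (hHG (hbraid i hi hit))) (fun v hv => (closure_le ((K i).comap
          (MulAut.conj (s (i + 1))).toMonoidHom)).2 (by
            rintro x (hx | ⟨l, d, e, rfl⟩)
            · exact hG₁K i (hnorm (i + 1) (by omega) hit x hx)
            · change s (i + 1) * s l * (s (i + 1))⁻¹ ∈ K i
              rw [show s (i + 1) * s l * (s (i + 1))⁻¹ =
                (s (i + 1) * s l) ^ 2 * (s l)⁻¹ * (s (i + 1) ^ 2)⁻¹ by simp only [sq]; group]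
              exact mul_mem (mul_mem (hG₁K i (hHG (hcomm l (i + 1) d (by omega) hit).2))
                (inv_mem (hsK i l d e))) (inv_mem hσ2)) hv)
        (hdec i hi (by omega) _ le_rfl (fun g hg j a b => hA _ j (by omega) a b g hg)
          (ih (by omega))) _ (by
            rintro x (hx | ⟨l, d, e, rfl⟩)
            · exact Or.inl (hG₁K _ hx)
            · rcases Nat.eq_or_lt_of_le e with e | e
              · right; congr 1; omega
              · exact Or.inl (hsK _ l d (by omega))) hg with h' | ⟨a, ha, b, hb, rfl⟩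
      · exact h'
      · exfalso
        rw [Equiv.Perm.mul_apply, Equiv.Perm.mul_apply, hA (i + 1) _ (by omega) (by omega) hit b hb,
          hsw _ (by omega) hit, ← hA (i + 1) (i + 1 + 1) (by omega) (by omega) hit a ha] at h
        exact hne _ _ (by omega) (by omega) (by omega) hit (by omega) (a.injective h)
  have hmono' : ∀ i j, i ≤ j → K i ≤ K j := fun i j h => monotone_nat_of_le_succ hmono h
  have hKt : closure ((G : Set (Equiv.Perm α)) ∪ {x | ∃ i : ℕ, 2 ≤ i ∧ i + 1 ≤ t ∧ x = s i}) = K t := by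
    refine le_antisymm ((closure_le _).2 ?_) ((closure_le _).2 ?_)
    · rintro x (hx | ⟨l, d, e, rfl⟩)
      · exact hmono' 2 t ht (hGK hx)
      · exact hsK t l (by omega) e
    · rintro x (hx | ⟨l, d, e, rfl⟩)
      · exact subset_closure (Or.inl hx.1)
      · rcases Nat.eq_or_lt_of_le d with rfl | d
        · exact subset_closure (Or.inl hs1)
        · exact subset_closure (Or.inr ⟨l, d, e, rfl⟩)
  rw [hKt]
  have hD : ∀ i, i ≤ t → ∀ f : ℕ → α, (∀ j l, 1 ≤ j → j ≤ i → 1 ≤ l → l ≤ i → f j = f l → j = l) →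
      (∀ j l, 1 ≤ j → j ≤ i → i < l → l ≤ t → f j ≠ q l) →
      ∃ g ∈ K i, (i = 0 → g = 1) ∧ ∀ j, 1 ≤ j → j ≤ i → g (q j) = f j := by
    intro i
    induction i with
    | zero => exact fun _ f _ _ => ⟨1, one_mem _, fun _ => rfl, fun j a b => by omega⟩
    | succ i ih =>
      intro hit f hf hf'
      obtain ⟨x, hx, h1⟩ := hB (i + 1) (by omega) hit (f (i + 1)) fun j a b =>
        hf' _ j (by omega) le_rfl a b
      obtain ⟨g, hg, h0, h2⟩ := ih (by omega) (fun j => x⁻¹ (f j))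
        (fun j l a b c d e => hf j l a (by omega) c (by omega) (x⁻¹.injective e))
        (fun j l a b c d e => by
          rw [Equiv.Perm.inv_eq_iff_eq] at e
          rcases Nat.eq_or_lt_of_le c with rfl | c
          · have := hf _ _ a (by omega) (by omega) le_rfl (e.trans h1)
            omega
          · rw [hA (i + 1) l (by omega) c d x hx] at e
            exact hf' j l a (by omega) c d e)
      refine ⟨x * g, mul_mem hx (hmono i hg), by omega, fun j a b => ?_⟩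
      rw [Equiv.Perm.mul_apply]
      rcases Nat.eq_or_lt_of_le b with rfl | b
      · rcases Nat.eq_zero_or_pos i with rfl | hi
        · rw [h0 rfl]; exact h1
        · rw [hA i _ hi (by omega) hit g hg, h1]
      · rw [h2 j a (by omega)]; simp
  constructor
  · rw [H25.multi_iff_fun]
    have key : ∀ x : Fin t → α, Function.Injective x → ∃ g : K t, ∀ i : Fin t, g • q (i + 1) = x i := by
      intro x hx
      obtain ⟨g, hg, -, h⟩ := hD t le_rfl (fun j => x ⟨(j - 1) % t, Nat.mod_lt _ (by omega)⟩)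
        (fun j l a b c d e => by
          have := congrArg Fin.val (hx e)
          simp only [Nat.mod_eq_of_lt (show j - 1 < t by omega),
            Nat.mod_eq_of_lt (show l - 1 < t by omega)] at this
          omega) (fun j l a b c d => by omega)
      refine ⟨⟨g, hg⟩, fun i => (h (i + 1) (by omega) i.2).trans ?_⟩
      congr 1
      simp [Nat.mod_eq_of_lt i.2]
    intro x y hx hy
    obtain ⟨g, hg⟩ := key x hx
    obtain ⟨k, hk⟩ := key y hy
    exact ⟨k * g⁻¹, fun i => by rw [← hg, mul_smul, inv_smul_smul, hk]⟩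
  · refine le_antisymm (fun g hg => ?_) fun g hg => ⟨hG₁K t (hHG hg), ?_⟩
    · have h1 : ∀ j, 1 ≤ j → j ≤ t → g (q j) = q j := fun j a b =>
        (mem_fixingSubgroup_iff _).1 hg.2 _ ⟨j, a, b, rfl⟩
      have h2 : ∀ i, i + 1 ≤ t → g ∈ K (t - i) := by
        intro i
        induction i with
        | zero => exact fun _ => hg.1
        | succ i ih =>
          intro hi
          have e : t - i = t - (i + 1) + 1 := by omega
          exact hC _ (by omega) (by omega) g (e ▸ ih (by omega)) (h1 _ (by omega) (by omega))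
      have h3 := h2 (t - 1) (by omega)
      rw [show t - (t - 1) = 1 by omega] at h3
      exact hH ▸ ⟨⟨(hK1 h3).1, h1 1 le_rfl (by omega)⟩, (hK1 h3).2⟩
    · refine (mem_fixingSubgroup_iff _).2 ?_
      rintro _ ⟨j, a, b, rfl⟩
      rcases Nat.eq_or_lt_of_le a with rfl | a
      · exact (hH ▸ hg).1.2
      · exact hA 1 j le_rfl a b g (hG₁K 1 (hHG hg))

end Cfsg.Agent.S0709
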