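import Cfsg.Statements.S0710
import Cfsg.Agent.H25.PrimeSyl

set_option autoImplicit false
open Cfsg

namespace Cfsg.Agent.S0710

/-- No transitive permutation group on 13 points has order `13 * 12 * 11 * 10 * 9 * 8`. -/
theorem result {α : Type*} [Fintype α] [DecidableEq α] (hα : Fintype.card α = 13) (G : Subgroup (Equiv.Perm α)) [MulAction.IsPretransitive G α] : Nat.card G ≠ 13 * 12 * 11 * 10 * 9 * 8 := by
  intro h
  have : Fact (Nat.Prime 13) := ⟨by norm_num⟩
  obtain ⟨P⟩ : Nonempty (Sylow 13 G) := inferInstance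
  obtain ⟨d, n, hd, hn, -, h'⟩ := H25.sylow_count_prime_degree (α := α)
    (by rw [Nat.card_eq_fintype_card, hα]) P
  rw [h] at h'
  have := Nat.le_of_dvd (by norm_num) hd
  unfold Nat.ModEq at hn
  interval_cases d <;> omega

end Cfsg.Agent.S0710
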