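import Cfsg.Statements.S0712
import Mathlib
import Cfsg.Agent.H25.Prim

set_option autoImplicit false
open Cfsg

namespace Cfsg.Agent.S0712

open MulAction H25
open scoped Pointwise

/-- Jordan: a primitive group in which the pointwise stabiliser of a set `s` is doubly transitive on the complement of `s` (which has at least 2 points) is `(|s| + 2)`-transitive. -/
theorem result {α : Type*} [Fintype α] [DecidableEq α] (G : Subgroup (Equiv.Perm α)) (hG : MulAction.IsPreprimitive G α) (s : Set α) {m : ℕ} (hsm : s.ncard = m) (hm : m + 2 ≤ Fintype.card α) (h2 : MulAction.IsMultiplyPretransitive (fixingSubgroup G s) (SubMulAction.ofFixingSubgroup G s) 2) : MulAction.IsMultiplyPretransitive G α (m + 2) := by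
  have h2' := fixing_two_trans_iff.1 h2
  have hm1 : IsMultiplyPretransitive G α (m + 1) := by
    rcases m with _ | m
    · rw [zero_add, is_one_pretransitive_iff]; infer_instance
    · have := hG.isMultiplyPreprimitive hsm (by rw [Nat.card_eq_fintype_card]; omega)
        (isPreprimitive_of_is_two_pretransitive h2)
      exact this.isMultiplyPretransitive
  refine multi_succ_of_fix hm1 fun t ht a b ha hb => ?_
  obtain ⟨c, hc⟩ : t.Nonempty := by rw [← Finset.card_pos]; omega
  have hsf : s.toFinite.toFinset.card = (t.erase c).card := by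
    rw [← Set.ncard_eq_toFinset_card, hsm, Finset.card_erase_of_mem hc, ht]; rfl
  obtain ⟨g, hg⟩ := exists_smul_eq_of_multi_card_le hm1 (by rw [Nat.card_eq_fintype_card]; omega)
    (ι := t.erase c) (by rw [Fintype.card_coe, Finset.card_erase_of_mem hc]; omega)
    (fun x => ((Finset.equivOfCardEq hsf).symm x : α)) Subtype.val
    (Subtype.val_injective.comp (Equiv.injective _)) Subtype.val_injective
  have hgs : ∀ x : α, g • x ∈ t.erase c ↔ x ∈ s := by
    intro x
    constructor
    · intro hx
      have := hg ⟨_, hx⟩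
      simp only [smul_left_cancel_iff] at this
      rw [← this]
      exact (Set.Finite.mem_toFinset _).1 ((Finset.equivOfCardEq hsf).symm ⟨_, hx⟩).2
    · intro hx
      have := hg (Finset.equivOfCardEq hsf ⟨x, by simpa using hx⟩)
      simp only [Equiv.symm_apply_apply] at this
      rw [this]
      exact Subtype.prop _
  have hnot : ∀ x : α, x ∉ t.erase c → g⁻¹ • x ∉ s := fun x hx h => hx (by
    rw [← hgs, smul_inv_smul] at h; exact h)
  obtain ⟨h, hh1, hh2, hh3⟩ := h2' (g⁻¹ • c) (g⁻¹ • a) (g⁻¹ • c) (g⁻¹ • b) (hnot c (by simp))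
    (hnot a (by simp [ha])) (hnot c (by simp)) (hnot b (by simp [hb]))
    (by rw [Ne, smul_left_cancel_iff]; rintro rfl; exact ha hc)
    (by rw [Ne, smul_left_cancel_iff]; rintro rfl; exact hb hc)
  refine ⟨g * h * g⁻¹, fun x hx => ?_, by rw [mul_smul, mul_smul, hh3, smul_inv_smul]⟩
  rw [mul_smul, mul_smul]
  by_cases hxc : x = c
  · rw [hxc, hh2, smul_inv_smul]
  · rw [hh1, smul_inv_smul]
    rw [← hgs, smul_inv_smul]
    simp [hxc, hx]

end Cfsg.Agent.S0712
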