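import Cfsg.Statements.S0714
import Mathlib
import Cfsg.Agent.H25.Prim

set_option autoImplicit false
open Cfsg

namespace Cfsg.Agent.S0714

open MulAction H25 Equiv

theorem comp_mem {α : Type*} [Fintype α] [DecidableEq α] {K : Type*} [Field K]
    (W : Subrepresentation (Cfsg.permRep K (alternatingGroup α) α)) {f : α → K}
    (hf : f ∈ W.toSubmodule) {a b c d : α} (hab : a ≠ b) (hcd : c ≠ d) :
    (fun x => f (swap a b (swap c d x))) ∈ W.toSubmodule :=
  W.apply_mem_toSubmodule (⟨swap a b * swap c d, by
    rw [Perm.mem_alternatingGroup]; simp [hab, hcd]⟩ : alternatingGroup α)⁻¹ hf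

theorem sumZero_le {α : Type*} [Fintype α] [DecidableEq α] {K : Type*} [Field K]
    (W : Submodule K (α → K)) (a : α) (h : ∀ b, (Pi.single b 1 - Pi.single a 1 : α → K) ∈ W)
    (f : α → K) (hf : ∑ x, f x = 0) : f ∈ W := by
  have : f = ∑ b, f b • (Pi.single b 1 - Pi.single a 1 : α → K) := by
    simp only [smul_sub, Finset.sum_sub_distrib, ← Finset.sum_smul, hf, zero_smul, sub_zero]
    ext x
    simp [Finset.sum_apply, Pi.single_apply]
  rw [this]
  exact W.sum_mem fun b _ => W.smul_mem _ (h b)

/-- Over any field, the permutation module of the alternating group of degree at least 5 has exactly four invariant subspaces: zero, the constant functions, the functions with coordinate sum zero, and everything. -/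
theorem result {α : Type*} [Fintype α] [DecidableEq α] (hα : 5 ≤ Fintype.card α) {K : Type*} [Field K] (W : Subrepresentation (Cfsg.permRep K (alternatingGroup α) α)) : W.toSubmodule = ⊥ ∨ W = Cfsg.permConstants K (alternatingGroup α) α ∨ W = Cfsg.permSumZero K (alternatingGroup α) α ∨ W.toSubmodule = ⊤ := by
  by_cases hconst : ∀ f ∈ W.toSubmodule, ∀ a b, f a = f b
  · by_cases h0 : W.toSubmodule = ⊥
    · exact Or.inl h0
    right; left
    obtain ⟨a⟩ : Nonempty α := Fintype.card_pos_iff.1 (by omega)
    apply Subrepresentation.toSubmodule_injective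
    apply le_antisymm
    · intro f hf
      exact Submodule.mem_span_singleton.2 ⟨f a, funext fun x => by simp [hconst f hf a x]⟩
    · obtain ⟨f, hf, hf0⟩ := Submodule.exists_mem_ne_zero_of_ne_bot h0
      have hfa : f a ≠ 0 := fun h => hf0 (funext fun x => by rw [hconst f hf x a, h]; rfl)
      change Submodule.span K _ ≤ _
      rw [Submodule.span_singleton_le_iff_mem]
      convert W.toSubmodule.smul_mem (f a)⁻¹ hf using 1
      ext x
      simp [hconst f hf x a, hfa]
  right; right
  push Not at hconst
  obtain ⟨f, hf, a, b, hfab⟩ := hconst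
  have hab : a ≠ b := by rintro rfl; exact hfab rfl
  obtain ⟨c, d, e, hc, hd, he, hcd, hce, hde⟩ :=
    Finset.two_lt_card_iff.1 (show 2 < ((Finset.univ.erase a).erase b).card by
      rw [Finset.card_erase_of_mem (by simp [hab.symm]), Finset.card_erase_of_mem (by simp),
        Finset.card_univ]; omega)
  simp only [Finset.mem_erase, Finset.mem_univ, and_true] at hc hd he
  obtain ⟨hcb, hca⟩ := hc
  obtain ⟨hdb, hda⟩ := hd
  obtain ⟨heb, hea⟩ := he
  have h1 := W.toSubmodule.sub_mem hf (comp_mem W hf hab hcd)
  have h2 := W.toSubmodule.sub_mem h1 (comp_mem W h1 hab hea.symm)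
  have h3 := W.toSubmodule.smul_mem (f a - f b)⁻¹
    (W.toSubmodule.sub_mem h2 (comp_mem W h2 hca.symm hda.symm))
  have h4 : (Pi.single a 1 - Pi.single c 1 : α → K) ∈ W.toSubmodule := by
    convert h3 using 1
    have hne : f a - f b ≠ 0 := sub_ne_zero.2 hfab
    ext x
    rw [Pi.smul_apply, smul_eq_mul, eq_inv_mul_iff_mul_eq₀ hne]
    by_cases hxa : x = a
    · subst hxa
      simp [swap_apply_def, *, hab.symm, hca.symm, hda.symm, hea.symm, hcb.symm, hdb.symm,
        heb.symm, hcd.symm, hce.symm, hde.symm]
    by_cases hxb : x = b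
    · subst hxb
      simp [swap_apply_def, *, hab.symm, hca.symm, hda.symm, hea.symm, hcb.symm, hdb.symm,
        heb.symm, hcd.symm, hce.symm, hde.symm]
    by_cases hxc : x = c
    · subst hxc
      simp [swap_apply_def, *, hab.symm, hca.symm, hda.symm, hea.symm, hcb.symm, hdb.symm,
        heb.symm, hcd.symm, hce.symm, hde.symm]
    by_cases hxd : x = d
    · subst hxd
      simp [swap_apply_def, *, hab.symm, hca.symm, hda.symm, hea.symm, hcb.symm, hdb.symm,
        heb.symm, hcd.symm, hce.symm, hde.symm]
    by_cases hxe : x = e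
    · subst hxe
      simp [swap_apply_def, *, hab.symm, hca.symm, hda.symm, hea.symm, hcb.symm, hdb.symm,
        heb.symm, hcd.symm, hce.symm, hde.symm]
    simp [swap_apply_def, *]
  have h2t : IsMultiplyPretransitive (alternatingGroup α) α 2 := by
    have := alternatingGroup.isMultiplyPretransitive α
    exact isMultiplyPretransitive_of_le (n := Nat.card α - 2)
      (by rw [Nat.card_eq_fintype_card]; omega) (by omega)
  have h5 : ∀ y, (Pi.single y 1 - Pi.single c 1 : α → K) ∈ W.toSubmodule := by
    intro y
    by_cases hyc : y = c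
    · simp [hyc]
    obtain ⟨g, hg1, hg2⟩ := is_two_pretransitive_iff.1 h2t hca.symm hyc
    convert W.apply_mem_toSubmodule g h4 using 1
    ext x
    change _ = (Pi.single a 1 - Pi.single c 1 : α → K) (g⁻¹ • x)
    simp only [Pi.sub_apply, Pi.single_apply, inv_smul_eq_iff, hg1, hg2]
  have h6 := sumZero_le W.toSubmodule c h5
  by_cases h7 : ∀ f ∈ W.toSubmodule, ∑ x, f x = 0
  · left
    apply Subrepresentation.toSubmodule_injective
    exact le_antisymm h7 h6
  · right
    push Not at h7
    obtain ⟨g, hg, hg0⟩ := h7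
    rw [eq_top_iff]
    intro h _
    have := W.toSubmodule.add_mem (h6 (h - ((∑ x, h x) * (∑ x, g x)⁻¹) • g) (by
      simp only [Pi.sub_apply, Pi.smul_apply, smul_eq_mul, Finset.sum_sub_distrib,
        ← Finset.mul_sum]
      field_simp
      simp)) (W.toSubmodule.smul_mem ((∑ x, h x) * (∑ x, g x)⁻¹) hg)
    simpa using this

end Cfsg.Agent.S0714
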