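import Cfsg.Statements.S0718
import Cfsg.Agent.H25.CentR

set_option autoImplicit false
open Cfsg

namespace Cfsg.Agent.S0718

/-- Multiplicity-freeness of the permutation character is equivalent to commutativity of the centraliser ring, i.e. of the algebra of `G`-equivariant endomorphisms of the complex permutation module. -/
theorem result {G : Type*} [Group G] [Fintype G] {Ω : Type*} [Fintype Ω] [MulAction G Ω] : (∀ χ : G → ℂ, Cfsg.IsIrrCharacter G χ → Cfsg.classInner (fun g : G => (Nat.card (MulAction.fixedBy Ω g) : ℂ)) χ = 0 ∨ Cfsg.classInner (fun g : G => (Nat.card (MulAction.fixedBy Ω g) : ℂ)) χ = 1) ↔ ∀ S T : (Ω → ℂ) →ₗ[ℂ] (Ω → ℂ), S ∈ ((Cfsg.permRep ℂ G Ω).linHom (Cfsg.permRep ℂ G Ω)).invariants → T ∈ ((Cfsg.permRep ℂ G Ω).linHom (Cfsg.permRep ℂ G Ω)).invariants → S ∘ₗ T = T ∘ₗ S := by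
  have key : ∀ S : (Ω → ℂ) →ₗ[ℂ] (Ω → ℂ),
      S ∈ ((Cfsg.permRep ℂ G Ω).linHom (Cfsg.permRep ℂ G Ω)).invariants ↔
      ∀ g, Commute (S : Module.End ℂ (Ω → ℂ)) (Cfsg.permRep ℂ G Ω g) := by
    intro S
    rw [Representation.mem_invariants]
    simp only [Representation.linHom_apply]
    rw [Representation.mem_linHom_invariants_iff_isIntertwining]
    exact ⟨fun h g => LinearMap.ext fun v => h.isIntertwining g v,
      fun h => ⟨fun g v => LinearMap.congr_fun (h g).eq v⟩⟩
  rw [← H25.char_permRep]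
  constructor
  · intro h S T hS hT
    exact (H25.comm_of_mult_free _ h S T ((key S).1 hS) ((key T).1 hT)).eq
  · intro h χ hχ
    exact H25.mult_free_of_comm _ (fun S T hS hT => h S T ((key S).2 hS) ((key T).2 hT)) hχ

end Cfsg.Agent.S0718
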