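import Cfsg.Statements.S0719
import Cfsg.Agent.H25.CentR2
import Cfsg.Agent.H25.Stab

set_option autoImplicit false
open Cfsg

namespace Cfsg.Agent.S0719

open H17 MulAction

theorem fix_all {G Ω : Type*} [Group G] [Finite G] [MulAction G Ω] [IsPreprimitive G Ω] {a b : Ω}
    (hab : a ≠ b) (h : stabilizer G a ≤ stabilizer G b) (g : stabilizer G a) (x : Ω) :
    g • x = x := by
  have : Nontrivial Ω := ⟨a, b, hab⟩
  have hc := IsPreprimitive.isCoatom_stabilizer_of_isPreprimitive G a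
  have he : stabilizer G a = stabilizer G b :=
    Subgroup.eq_of_le_of_card_ge h (H25.card_stabilizer_eq b a).le
  obtain ⟨k, rfl⟩ := exists_smul_eq G a b
  have hg : k ∈ Subgroup.normalizer (stabilizer G a : Set G) := by
    rw [Subgroup.mem_normalizer_iff]
    intro x
    conv_rhs => rw [he]
    simp [mul_smul]
  have hN : Subgroup.normalizer (stabilizer G a : Set G) = ⊤ :=
    hc.2 _ (lt_of_le_of_ne Subgroup.le_normalizer fun h' => hab (by
      rw [← h'] at hg; exact (mem_stabilizer_iff.1 hg).symm))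
  have := Subgroup.normalizer_eq_top_iff.1 hN
  obtain ⟨k, rfl⟩ := exists_smul_eq G a x
  have h1 : (k⁻¹ * g * k⁻¹⁻¹) • a = a := this.conj_mem _ g.2 k⁻¹
  rwa [inv_inv, mul_smul, mul_smul, inv_smul_eq_iff] at h1

theorem sum_one {s : Finset ℂ} {n : ℂ → ℕ} (h : ∑ μ ∈ s, n μ = 1) :
    ∃ ν ∈ s, ∀ F : ℂ → ℂ, ∑ μ ∈ s, F μ * n μ = F ν := by
  classical
  obtain ⟨ν, hν, h0⟩ := Finset.exists_ne_zero_of_sum_ne_zero (h ▸ one_ne_zero)
  refine ⟨ν, hν, fun F => ?_⟩
  rw [← Finset.add_sum_erase _ _ hν] at h ⊢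
  have h1 : n ν = 1 := by omega
  have h2 : ∑ μ ∈ s.erase ν, n μ = 0 := by omega
  rw [h1, Finset.sum_eq_zero fun μ hμ => by rw [Finset.sum_eq_zero_iff.1 h2 μ hμ]; simp]
  simp

theorem int_of_rat {z : ℂ} (h : IsIntegral ℤ z) {q : ℚ} (hq : z = q) : ∃ y : ℤ, z = y := by
  rw [hq, ← eq_ratCast (algebraMap ℚ ℂ), isIntegral_algebraMap_iff (algebraMap ℚ ℂ).injective] at h
  obtain ⟨y, hy⟩ := IsIntegrallyClosed.isIntegral_iff.1 h
  exact ⟨y, by rw [hq, ← hy]; simp⟩

theorem arith {m k r t : ℤ} (hm : 2 ≤ m) (hk : 2 ≤ k) (hk' : k + 3 ≤ 2 * m)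
    (h1 : k + r * (m - 1) + t * m = 0) (h2 : k ^ 2 + r ^ 2 * (m - 1) + t ^ 2 * m = 2 * m * k) :
    ∃ a : ℕ, m = 2 * a ^ 2 + 2 * a + 1 ∧ (k = a * (2 * a + 1) ∨ k = (a + 1) * (2 * a + 1)) := by
  obtain ⟨u, hu⟩ : ∃ u, u = -(r + t) := ⟨_, rfl⟩
  obtain rfl : r = -t - u := by linarith
  obtain rfl : k = -t - u + m * u := by linarith
  have h3 : 2 * (t * (t + 1)) = (m - 1) * (u * (2 - u)) := by
    apply mul_left_cancel₀ (show m ≠ 0 by omega)
    linarith
  have h4 : 0 ≤ t * (t + 1) := by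
    rcases le_or_gt 0 t with h | h
    · positivity
    · exact mul_nonneg_of_nonpos_of_nonpos h.le (by omega)
  have h5 : 0 ≤ u * (2 - u) := by
    by_contra h
    have := mul_neg_of_pos_of_neg (show 0 < m - 1 by omega) (not_le.1 h)
    linarith
  have h6 : 0 ≤ u := by nlinarith
  have h7 : u ≤ 2 := by nlinarith
  interval_cases u
  · exfalso
    rcases mul_eq_zero.1 (show t * (t + 1) = 0 by linarith) with h | h <;> omega
  · rcases Int.eq_nat_or_neg t with ⟨n, rfl | rfl⟩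
    · exact ⟨n, by linarith, Or.inl (by linarith)⟩
    · rcases n with _ | n
      · simp at h3; omega
      · push_cast at h3 ⊢
        exact ⟨n, by linarith, Or.inr (by linarith)⟩
  · exfalso
    rcases mul_eq_zero.1 (show t * (t + 1) = 0 by linarith) with h | h <;> omega

/-- Groups of Wielandt type: if a primitive group of degree `2m` has rank 3 and permutation character `1 + χ₁ + χ₂` with irreducible `χ₁, χ₂` of degrees `m - 1` and `m`, then `m = 2a² + 2a + 1` for some positive integer `a` and the two non-trivial subdegrees are `a(2a+1)` and `(a+1)(2a+1)`. -/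
theorem result {G : Type*} [Group G] [Fintype G] {Ω : Type*} [Fintype Ω] [MulAction G Ω] (hprim : MulAction.IsPreprimitive G Ω) {m : ℕ} (hm : Fintype.card Ω = 2 * m) (a₀ : Ω) (hrank : Nat.card (MulAction.orbitRel.Quotient (MulAction.stabilizer G a₀) Ω) = 3) (χ₁ χ₂ : G → ℂ) (h₁ : Cfsg.IsIrrCharacter G χ₁) (h₂ : Cfsg.IsIrrCharacter G χ₂) (hπ : (fun g : G => (Nat.card (MulAction.fixedBy Ω g) : ℂ)) = fun g => 1 + χ₁ g + χ₂ g) (hd₁ : χ₁ 1 = (m : ℂ) - 1) (hd₂ : χ₂ 1 = m) : ∃ a : ℕ, 0 < a ∧ m = 2 * a ^ 2 + 2 * a + 1 ∧ ∀ b : Ω, b ≠ a₀ → Nat.card (MulAction.orbit (MulAction.stabilizer G a₀) b) = a * (2 * a + 1) ∨ Nat.card (MulAction.orbit (MulAction.stabilizer G a₀) b) = (a + 1) * (2 * a + 1) := by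
  classical
  have : Nonempty Ω := ⟨a₀⟩
  have hπ' : ∀ {ψ₁ ψ₂ : G → ℂ}, (fun g : G => (Nat.card (fixedBy Ω g) : ℂ)) =
      (fun g => 1 + ψ₁ g + ψ₂ g) → ∀ χ, classInner (fun g : G => (Nat.card (fixedBy Ω g) : ℂ)) χ =
      classInner (fun _ => 1) χ + classInner ψ₁ χ + classInner ψ₂ χ := by
    intro ψ₁ ψ₂ h χ
    rw [h, ← classInner_add_left, ← classInner_add_left]
    rfl
  have hne : ∀ {ψ₁ ψ₂ : G → ℂ}, IsIrrCharacter G ψ₁ → IsIrrCharacter G ψ₂ →
      (fun g : G => (Nat.card (fixedBy Ω g) : ℂ)) = (fun g => 1 + ψ₁ g + ψ₂ g) →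
      ψ₁ ≠ (fun _ => 1) ∧ ψ₂ ≠ (fun _ => 1) := by
    intro ψ₁ ψ₂ k₁ k₂ h
    have := hπ' h (fun _ => 1)
    rw [classInner_perm_one, H25.card_orbits_eq_one, classInner_one_one, k₁.inner_eq_ite isIrr_one,
      k₂.inner_eq_ite isIrr_one] at this
    split_ifs at this with c1 c2 c2
    · norm_num [add_assoc] at this
    · norm_num at this
    · norm_num at this
    · exact ⟨c1, c2⟩
  obtain ⟨n1, n2⟩ := hne h₁ h₂ hπ
  have n3 : χ₁ ≠ χ₂ := by
    intro h
    rw [h, hd₂, eq_sub_iff_add_eq] at hd₁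
    simp at hd₁
  have hin : ∀ χ, IsIrrCharacter G χ → classInner (fun g : G => (Nat.card (fixedBy Ω g) : ℂ)) χ =
      if χ = (fun _ => 1) ∨ χ = χ₁ ∨ χ = χ₂ then 1 else 0 := by
    intro χ hχ
    rw [hπ' hπ, isIrr_one.inner_eq_ite hχ, h₁.inner_eq_ite hχ, h₂.inner_eq_ite hχ]
    by_cases c0 : χ = fun _ => 1
    · simp [c0, n1, n2]
    by_cases c1 : χ = χ₁
    · simp [c1, n1.symm, n3.symm]
    by_cases c2 : χ = χ₂
    · simp [c2, n2.symm, n3]
    simp [c0, c1, c2, Ne.symm c0, Ne.symm c1, Ne.symm c2]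
  have i₁ : ∀ g, ∃ z : ℤ, χ₁ g = z := by
    intro g
    refine h₁.isGen.exists_int_of_pow fun k hk => ?_
    have k₁ := h₁.comp_pow hk
    have k₂ := h₂.comp_pow hk
    have e : (fun g : G => (Nat.card (fixedBy Ω g) : ℂ)) =
        fun g => 1 + χ₁ (g ^ k) + χ₂ (g ^ k) := by
      ext g
      rw [← congrFun hπ (g ^ k)]
      exact ((isCharacter_perm (G := G) Ω).isGen.apply_pow_of_rat
        (q := Nat.card (fixedBy Ω g)) (by simp)
        (hk.coprime_dvd_right (orderOf_dvd_natCard g))).symm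
    have h3 := hπ' e (fun g => χ₁ (g ^ k))
    rw [hin _ k₁, k₁.inner_self, isIrr_one.inner_eq_ite k₁, k₂.inner_eq_ite k₁,
      if_neg (hne k₁ k₂ e).1.symm] at h3
    by_cases c : (fun g => χ₁ (g ^ k)) = χ₁
    · exact congrFun c g
    exfalso
    have c2 : (fun g => χ₁ (g ^ k)) ≠ χ₂ := by
      intro h
      have := congrFun h 1
      rw [one_pow, hd₁, hd₂, sub_eq_self] at this
      exact one_ne_zero this
    rw [if_neg (by simp [c, c2, (hne k₁ k₂ e).1])] at h3
    split_ifs at h3 <;> norm_num at h3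
  have i₂ : ∀ g, ∃ z : ℤ, χ₂ g = z := by
    intro g
    obtain ⟨z, hz⟩ := i₁ g
    refine ⟨Nat.card (fixedBy Ω g) - 1 - z, ?_⟩
    push_cast
    rw [congrFun hπ g, hz]; ring
  have hsp : ∀ a b : Ω, ∃ g : G, g • a = b ∧ g • b = a := by
    refine H25.self_paired_iff_char.2 fun χ hχ h0 => ?_
    rw [hin χ hχ] at h0 ⊢
    split_ifs at h0 ⊢ with c
    · refine ⟨rfl, fun g => ?_⟩
      rcases c with rfl | rfl | rfl
      · simp
      · obtain ⟨z, hz⟩ := i₁ g; simp [hz]
      · obtain ⟨z, hz⟩ := i₂ g; simp [hz]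
    · exact absurd rfl h0
  have hm2 : 2 ≤ m := by
    obtain ⟨n, hn, h⟩ := h₁.exists_pos_one
    rw [hd₁, sub_eq_iff_eq_add] at h
    have : m = n + 1 := by exact_mod_cast h
    omega
  have hk2 : ∀ b, b ≠ a₀ → 2 ≤ Nat.card (orbit (stabilizer G a₀) b) := by
    intro b hb
    have h0 := H25.card_orbit_pos (stabilizer G a₀) b
    by_contra hk
    have hk : Nat.card (orbit (stabilizer G a₀) b) = 1 := by omega
    have hle : stabilizer G a₀ ≤ stabilizer G b := by
      intro g hg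
      have := (Nat.card_eq_one_iff_unique.1 hk).1
      exact congrArg Subtype.val (this.elim (⟨_, ⟨g, hg⟩, rfl⟩ : orbit (stabilizer G a₀) b)
        ⟨b, mem_orbit_self b⟩)
    have : Nat.card Ω = Nat.card (orbitRel.Quotient (stabilizer G a₀) Ω) := by
      refine Nat.card_eq_of_bijective (Quotient.mk _) ⟨fun x y h => ?_, Quotient.mk_surjective⟩
      obtain ⟨g, hg⟩ : x ∈ orbit (stabilizer G a₀) y := Quotient.exact h
      exact hg.symm.trans (fix_all hb.symm hle g y)
    rw [Nat.card_eq_fintype_card, hm, hrank] at this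
    omega
  have hk3 : ∀ b, b ≠ a₀ → Nat.card (orbit (stabilizer G a₀) b) + 3 ≤ 2 * m := by
    intro b hb
    have ha : ∀ b, b ≠ a₀ → a₀ ∉ orbit (stabilizer G a₀) b := by
      rintro b hb ⟨g, hg⟩
      exact hb (smul_left_cancel g (hg.trans g.2.symm))
    obtain ⟨c, hc, hcb⟩ : ∃ c, c ≠ a₀ ∧ c ∉ orbit (stabilizer G a₀) b := by
      by_contra hn
      push Not at hn
      have h1 : (Set.univ : Set (orbitRel.Quotient (stabilizer G a₀) Ω)) ⊆
          {Quotient.mk _ a₀, Quotient.mk _ b} := by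
        intro q _
        induction q using Quotient.inductionOn with | _ c => ?_
        by_cases h : c = a₀
        · left; rw [h]
        · right; exact Quotient.sound (hn c h)
      have h2 := Set.ncard_le_ncard h1
      rw [Set.ncard_univ, hrank] at h2
      have := Set.ncard_insert_le (Quotient.mk (orbitRel (stabilizer G a₀) Ω) a₀)
        {Quotient.mk _ b}
      rw [Set.ncard_singleton] at this
      exact absurd (h2.trans this) (by norm_num)
    have hd : Disjoint (orbit (stabilizer G a₀) b) (orbit (stabilizer G a₀) c) :=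
      (orbit.eq_or_disjoint b c).resolve_left fun h => hcb (h ▸ mem_orbit_self c)
    have h1 := Set.ncard_le_card (insert a₀ (orbit (stabilizer G a₀) b ∪ orbit (stabilizer G a₀) c))
    rw [Set.ncard_insert_of_notMem (fun h => h.elim (ha b hb) (ha c hc)), Set.ncard_union_eq hd,
      Nat.card_eq_fintype_card, hm, ← Nat.card_coe_set_eq, ← Nat.card_coe_set_eq] at h1
    have := hk2 c hc
    omega
  have key : ∀ b, b ≠ a₀ → ∃ a : ℕ, m = 2 * a ^ 2 + 2 * a + 1 ∧
      (Nat.card (orbit (stabilizer G a₀) b) = a * (2 * a + 1) ∨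
      Nat.card (orbit (stabilizer G a₀) b) = (a + 1) * (2 * a + 1)) := by
    intro b hb
    obtain ⟨s, θ, t1, t2, t3, t4⟩ := H25.exists_orb_decomp (G := G) a₀ b
    have hA := H25.orbM_inv (G := G) (R := ℂ) a₀ b
    have one : ∀ χ, IsIrrCharacter G χ → (χ = (fun _ => 1) ∨ χ = χ₁ ∨ χ = χ₂) →
        ∃ ν, IsIntegral ℤ ν ∧ ∀ k, classInner (∑ μ ∈ s, μ ^ k • θ μ) χ = ν ^ k := by
      intro χ hχ hc
      have := hin χ hχ
      rw [if_pos hc, t3, classInner_sum_left] at this
      choose n hn using fun μ => (t1 μ).inner_nat hχ.isCharacter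
      simp only [hn] at this
      obtain ⟨ν, hν, h⟩ := sum_one (s := s) (n := n) (by exact_mod_cast this)
      refine ⟨ν, t2 ν hν, fun k => ?_⟩
      simp only [classInner_sum_left, classInner_smul_left, hn]
      exact h (· ^ k)
    have zero : ∀ χ, IsIrrCharacter G χ → ¬ (χ = (fun _ => 1) ∨ χ = χ₁ ∨ χ = χ₂) →
        ∀ k, classInner (∑ μ ∈ s, μ ^ k • θ μ) χ = 0 := by
      intro χ hχ hc k
      have := hin χ hχ
      rw [if_neg hc, t3, classInner_sum_left] at this
      choose n hn using fun μ => (t1 μ).inner_nat hχ.isCharacter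
      simp only [hn] at this
      have h0 : ∑ μ ∈ s, n μ = 0 := by exact_mod_cast this
      simp only [classInner_sum_left, classInner_smul_left, hn]
      exact Finset.sum_eq_zero fun μ hμ => by simp [Finset.sum_eq_zero_iff.1 h0 μ hμ]
    obtain ⟨κ, -, hκ⟩ := one _ isIrr_one (Or.inl rfl)
    obtain ⟨r, hr, hr'⟩ := one _ h₁ (Or.inr (Or.inl rfl))
    obtain ⟨t, ht, ht'⟩ := one _ h₂ (Or.inr (Or.inr rfl))
    have hΘ : ∀ k, ∑ μ ∈ s, μ ^ k • θ μ = κ ^ k • (fun _ => 1) + r ^ k • χ₁ + t ^ k • χ₂ := by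
      intro k
      refine (isClassFunction_sum _ _ fun μ _ => (t1 μ).isClassFunction.smul _).ext_inner
        ((((isClassFunction_const 1).smul _).add (h₁.isClassFunction.smul _)).add
          (h₂.isClassFunction.smul _)) fun χ hχ => ?_
      simp only [classInner_add_left, classInner_smul_left]
      rw [isIrr_one.inner_eq_ite hχ, h₁.inner_eq_ite hχ, h₂.inner_eq_ite hχ]
      by_cases c0 : χ = fun _ => 1
      · simp [c0, n1, n2, hκ]
      by_cases c1 : χ = χ₁
      · simp [c1, n1.symm, n3.symm, hr']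
      by_cases c2 : χ = χ₂
      · simp [c2, n2.symm, n3, ht']
      simp [zero χ hχ (by simp [c0, c1, c2]), Ne.symm c0, Ne.symm c1, Ne.symm c2]
    have e0 : κ = Nat.card (orbit (stabilizer G a₀) b) := by
      have := hκ 1
      rw [← t4, pow_one, pow_one, hA.inner_one a₀, H25.orbM_row] at this
      exact this.symm
    have e1 := congrFun ((t4 1).trans (hΘ 1)) 1
    have e2 := congrFun ((t4 2).trans (hΘ 2)) 1
    simp only [H25.trace_permRep_mul, pow_one, inv_one, one_smul, H25.orbM_diag hb,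
      Finset.sum_const_zero, Pi.add_apply, Pi.smul_apply, smul_eq_mul, mul_one, hd₁, hd₂] at e1 e2
    have e3 : ∀ u, (H25.orbM G ℂ a₀ b ^ 2) u u = Nat.card (orbit (stabilizer G a₀) b) := by
      intro u
      rw [pow_two, Matrix.mul_apply, ← H25.orbM_row, ← hA.row_const u a₀]
      exact Finset.sum_congr rfl fun v _ => by
        rw [(H25.self_paired_iff.1 hsp).2 _ hA v u, H25.orbM_sq]
    simp only [e3, Finset.sum_const, Finset.card_univ, hm, nsmul_eq_mul] at e2
    obtain ⟨r', rfl⟩ : ∃ y : ℤ, r = y := by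
      choose z hz using i₁
      refine int_of_rat hr (q := (Nat.card G : ℚ)⁻¹ *
        ∑ g : G, (∑ u, H25.orbM G ℚ a₀ b (g⁻¹ • u) u) * z g) ?_
      have := hr' 1
      rw [← t4, pow_one, pow_one, classInner_def] at this
      rw [← this]
      have hc : ∀ u v, ((H25.orbM G ℚ a₀ b u v : ℚ) : ℂ) = H25.orbM G ℂ a₀ b u v := by
        intro u v; unfold H25.orbM; split_ifs <;> simp
      simp only [H25.trace_permRep_mul, hz, map_intCast]
      push_cast
      simp only [hc]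
    obtain ⟨t', rfl⟩ : ∃ y : ℤ, t = y := by
      refine int_of_rat ht (q := -(Nat.card (orbit (stabilizer G a₀) b) + r' * (m - 1)) / m) ?_
      have : (m : ℂ) ≠ 0 := by exact_mod_cast (show m ≠ 0 by omega)
      push_cast
      rw [eq_div_iff this, ← e0]
      linear_combination -e1
    rw [e0] at e1 e2
    obtain ⟨a, ha1, ha2⟩ := arith (m := m) (k := Nat.card (orbit (stabilizer G a₀) b)) (r := r')
      (t := t') (by exact_mod_cast hm2) (by exact_mod_cast hk2 b hb) (by exact_mod_cast hk3 b hb)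
      (by exact_mod_cast e1.symm) (by exact_mod_cast e2.symm)
    exact ⟨a, by exact_mod_cast ha1, by exact_mod_cast ha2⟩
  have : Nontrivial Ω := Fintype.one_lt_card_iff_nontrivial.1 (by omega)
  obtain ⟨b, hb⟩ := exists_ne a₀
  obtain ⟨a, ha, -⟩ := key b hb
  refine ⟨a, Nat.pos_of_ne_zero (by rintro rfl; omega), ha, fun c hc => ?_⟩
  obtain ⟨a', ha', h⟩ := key c hc
  obtain rfl : a = a' := by nlinarith
  exact h

end Cfsg.Agent.S0719
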