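import Cfsg.Statements.S0722
import Mathlib

set_option autoImplicit false
open Cfsg

namespace Cfsg.Agent.S0722

/-- In a primitive group `H`, with `N` a minimal normal subgroup and `K` a point stabiliser, `K ⊓ N` is maximal among proper `K`-invariant subgroups of `N`. -/
theorem result {α : Type*} [Finite α] (H : Subgroup (Equiv.Perm α)) [MulAction.IsPreprimitive H α] (N : Subgroup H) [N.Normal] (hN : N ≠ ⊥) (hmin : ∀ M : Subgroup H, M.Normal → M ≤ N → M = ⊥ ∨ M = N) (a : α) (X : Subgroup H) (hX : X ≤ N) (hKX : MulAction.stabilizer H a ⊓ N ≤ X) (hinv : MulAction.stabilizer H a ≤ Subgroup.normalizer (X : Set H)) : X = MulAction.stabilizer H a ⊓ N ∨ X = N := by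
  open MulAction in
  by_cases hnt : Nontrivial α
  swap
  · exfalso
    rw [not_nontrivial_iff_subsingleton] at hnt
    apply hN
    rw [eq_bot_iff]
    intro g _
    rw [Subgroup.mem_bot]
    ext y
    exact Subsingleton.elim _ _
  have hco : IsCoatom (stabilizer H a) := IsPreprimitive.isCoatom_stabilizer_of_isPreprimitive _ a
  by_cases hXK : X ≤ stabilizer H a
  · left
    exact le_antisymm (le_inf hXK hX) hKX
  · right
    have htop : Subgroup.normalizer (X : Set H) = ⊤ := by
      apply hco.2
      refine lt_of_le_of_ne hinv fun h => hXK ?_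
      rw [h]
      exact Subgroup.le_normalizer
    have hXn : X.Normal := Subgroup.normalizer_eq_top_iff.1 htop
    rcases hmin X hXn hX with h | h
    · exact absurd (h ▸ bot_le) hXK
    · exact h

end Cfsg.Agent.S0722
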