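import Cfsg.Statements.S0723
import Mathlib
import Cfsg.Agent.H25.Fix
import Cfsg.Agent.H25.MinNormal
import Cfsg.Agent.H25.Subdirect
import Cfsg.Agent.S0722

set_option autoImplicit false
open Cfsg

namespace Cfsg.Agent.S0723

open MulAction H25

/-- The core of the O'Nan–Scott Theorem. Let `H` be a primitive permutation group on a finite set whose unique minimal normal subgroup `N` is non-abelian, and `K` a point stabiliser. Then there are a non-abelian simple group `T` and an isomorphism `N ≃* T^m` (`m ≥ 1`) under which `K ⊓ N` becomes either a product `∏ K_i` of proper subgroups `K_i < T`, or the set of functions constant on each block of a partition of the index set into blocks of one common size `k ≥ 2`. -/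
theorem result {α : Type*} [Finite α] (H : Subgroup (Equiv.Perm α)) [MulAction.IsPreprimitive H α] (N : Subgroup H) [N.Normal] (hN : N ≠ ⊥) (hmin : ∀ M : Subgroup H, M.Normal → M ≤ N → M = ⊥ ∨ M = N) (huniq : ∀ L : Subgroup H, L.Normal → L ≠ ⊥ → (∀ M : Subgroup H, M.Normal → M ≤ L → M = ⊥ ∨ M = L) → L = N) (hnab : ¬ IsMulCommutative N) (a : α) : ∃ (T : Type) (_ : Group T) (m : ℕ) (e : N ≃* (Fin m → T)), IsSimpleGroup T ∧ ¬ IsMulCommutative T ∧ 0 < m ∧ ((∃ K : Fin m → Subgroup T, (∀ i, K i ≠ ⊤) ∧ ∀ n : N, (n : H) ∈ MulAction.stabilizer H a ↔ ∀ i, e n i ∈ K i) ∨ (∃ (k : ℕ) (c : Fin m → Fin m), 2 ≤ k ∧ (∀ j : Fin m, Nat.card {i : Fin m // c i = j} = k ∨ Nat.card {i : Fin m // c i = j} = 0) ∧ ∀ n : N, (n : H) ∈ MulAction.stabilizer H a ↔ ∀ i j : Fin m, c i = c j → e n i = e n j)) := by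
  classical
  obtain ⟨T, _, m, e₀, hT, hm, htr⟩ := exists_pi_simple_decomp_minimal_normal N hN hmin
  have hTna : ¬ IsMulCommutative T := fun h => hnab ⟨⟨fun x y => e₀.injective (by
    rw [map_mul, map_mul]; exact funext fun i => h.is_comm.comm _ _)⟩⟩
  obtain ⟨t₀, ht₀⟩ := exists_ne (1 : T)
  have hNtr : IsPretransitive N α := normal_transitive_of_primitive N hN
  let Rel : H → Fin m → Fin m → Prop := fun k i j =>
    ∀ n : N, e₀ n i = 1 ↔ e₀ (MulAut.conjNormal k n) j = 1
  have hA : ∀ k j, ∃ i, Rel k i j := by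
    intro k j
    obtain ⟨i, hi⟩ := exists_ker_eq_ker_eval hTna
      ((Pi.evalMonoidHom (fun _ : Fin m => T) j).comp
        (e₀.symm.trans ((MulAut.conjNormal k).trans e₀)).toMonoidHom)
      (Function.Surjective.comp (g := Pi.evalMonoidHom (fun _ : Fin m => T) j)
        (fun t => ⟨fun _ => t, rfl⟩)
        (e₀.symm.trans ((MulAut.conjNormal k).trans e₀)).surjective)
    exact ⟨i, fun n => by simpa using (hi (e₀ n)).symm⟩
  have hinv : ∀ k i j, Rel k i j → Rel k⁻¹ j i := by
    intro k i j h n
    rw [h]; simp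
  have hA' : ∀ k i, ∃ j, Rel k i j := fun k i => by
    obtain ⟨j, hj⟩ := hA k⁻¹ i
    exact ⟨j, by simpa using hinv _ _ _ hj⟩
  have hC : ∀ k i i' j, Rel k i j → Rel k i' j → i = i' := by
    intro k i i' j h h'
    by_contra hne
    have h1 := (h' (e₀.symm (Pi.mulSingle i t₀))).1 (by simp [Pi.mulSingle_eq_of_ne' hne])
    rw [← h] at h1
    exact ht₀ (by simpa using h1)
  have hB : ∀ i j, ∃ k ∈ stabilizer H a, Rel k i j := by
    intro i j
    obtain ⟨h, hh⟩ := htr i j
    obtain ⟨n, hn⟩ := hNtr.exists_smul_eq (h • a) a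
    obtain ⟨j', hj'⟩ := hA' h i
    have hjj : j' = j := by
      by_contra hne
      have h1 := hh (e₀.symm (Pi.mulSingle i t₀))
        (fun l hl => by simp [Pi.mulSingle_eq_of_ne hl]) j' hne
      rw [← hj'] at h1
      exact ht₀ (by simpa using h1)
    subst hjj
    refine ⟨n * h, by rw [mem_stabilizer_iff, mul_smul]; exact hn, fun x => ?_⟩
    rw [hj', map_mul]
    have : MulAut.conjNormal (n : H) (MulAut.conjNormal h x) = n * MulAut.conjNormal h x * n⁻¹ := rfl
    rw [MulAut.mul_apply, this, map_mul, map_mul, map_inv]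
    simp
  let D : Subgroup N := (stabilizer H a).subgroupOf N
  have hD : ∀ k ∈ stabilizer H a, ∀ d ∈ D, MulAut.conjNormal k d ∈ D := fun k hk d hd =>
    (stabilizer H a).mul_mem ((stabilizer H a).mul_mem hk hd) ((stabilizer H a).inv_mem hk)
  have hRel : ∀ k i j, Rel k i j → ∀ x y : N, e₀ x i = e₀ y i →
      e₀ (MulAut.conjNormal k x) j = e₀ (MulAut.conjNormal k y) j := by
    intro k i j h x y hxy
    have := (h (x⁻¹ * y)).1 (by simp [hxy])
    rw [map_mul, map_inv, map_mul, map_inv, Pi.mul_apply, Pi.inv_apply, inv_mul_eq_one] at this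
    exact this
  let f : Fin m → D →* T := fun i =>
    (Pi.evalMonoidHom (fun _ : Fin m => T) i).comp (e₀.toMonoidHom.comp D.subtype)
  have hDtop : D ≠ ⊤ := by
    intro h
    apply hN
    rw [eq_bot_iff]
    intro n hn
    have hall : ∀ x, x = a := fun x => by
      obtain ⟨y, rfl⟩ := hNtr.exists_smul_eq a x
      have : y ∈ D := h ▸ Subgroup.mem_top y
      exact this
    rw [Subgroup.mem_bot]
    ext x
    rw [hall x]
    exact hall _
  by_cases hsurj : ∀ i, Function.Surjective (f i)
  swap
  · -- the stabiliser meets the socle in a product of proper subgroups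
    refine ⟨T, inferInstance, m, e₀, hT, hTna, hm, Or.inl ⟨fun i => (f i).range, ?_, ?_⟩⟩
    · push Not at hsurj
      obtain ⟨j, hj⟩ := hsurj
      intro i hi
      apply hj
      obtain ⟨k, hk, hrel⟩ := hB i j
      intro t
      obtain ⟨n, hn⟩ := ((MulAut.conjNormal (H := N) k).trans e₀).surjective fun _ => t
      obtain ⟨d, hd⟩ := MonoidHom.range_eq_top.1 hi (e₀ n i)
      exact ⟨⟨_, hD k hk d d.2⟩, (hRel k i j hrel d n hd).trans (congrFun hn j)⟩
    · let X : Subgroup N := (Subgroup.pi Set.univ fun i => (f i).range).comap e₀.toMonoidHom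
      have hX : ∀ n : N, n ∈ X ↔ ∀ i, e₀ n i ∈ (f i).range := fun n =>
        ⟨fun h i => h i trivial, fun h i _ => h i⟩
      have hXinv : ∀ k ∈ stabilizer H a, ∀ n ∈ X, MulAut.conjNormal k n ∈ X := by
        intro k hk n hn
        rw [hX] at hn ⊢
        intro j
        obtain ⟨i, hi⟩ := hA k j
        obtain ⟨d, hd⟩ := hn i
        exact ⟨⟨_, hD k hk d d.2⟩, hRel k i j hi d n hd⟩
      rcases Cfsg.Agent.S0722.result H N hN hmin a (X.map N.subtype) (Subgroup.map_subtype_le X)
        (fun d hd => ⟨⟨d, hd.2⟩, (hX _).2 fun i => ⟨⟨⟨d, hd.2⟩, hd.1⟩, rfl⟩, rfl⟩) (by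
          intro k hk
          rw [Subgroup.mem_normalizer_iff]
          intro n
          constructor
          · rintro ⟨x, hx, rfl⟩
            exact ⟨_, hXinv k hk x hx, rfl⟩
          · rintro ⟨x, hx, hxn⟩
            refine ⟨_, hXinv k⁻¹ ((stabilizer H a).inv_mem hk) x hx, ?_⟩
            change k⁻¹ * N.subtype x * k⁻¹⁻¹ = n
            rw [hxn]; group) with h | h
      · intro n
        rw [← hX]
        constructor
        · intro hn
          have : (n : H) ∈ X.map N.subtype := h ▸ ⟨hn, n.2⟩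
          obtain ⟨x, hx, hxn⟩ := this
          rwa [← Subtype.ext hxn]
        · intro hn
          have : (n : H) ∈ X.map N.subtype := ⟨n, hn, rfl⟩
          rw [h] at this
          exact this.1
      · exfalso
        apply hsurj
        intro i t
        have : ((e₀.symm fun _ => t : N) : H) ∈ X.map N.subtype := by rw [h]; exact Subtype.prop _
        obtain ⟨x, hx, hxn⟩ := this
        rw [Subtype.ext hxn, SetLike.mem_coe, hX] at hx
        simpa using hx i
  · -- the stabiliser meets the socle in a product of diagonals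
    have : Nonempty (Fin m) := ⟨⟨0, hm⟩⟩
    let c : Fin m → Fin m := fun i => Classical.epsilon fun j => (f j).ker = (f i).ker
    have hc1 : ∀ i, (f (c i)).ker = (f i).ker := fun i =>
      Classical.epsilon_spec (p := fun j => (f j).ker = (f i).ker) ⟨i, rfl⟩
    have hc2 : ∀ i j, c i = c j ↔ (f i).ker = (f j).ker := fun i j =>
      ⟨fun h => by rw [← hc1 i, h, hc1], fun h => by simp only [c, h]⟩
    have hc3 : ∀ i, c (c i) = c i := fun i => (hc2 _ _).2 (hc1 i)
    choose β hβ using fun i => exists_mulEquiv_of_ker_eq (f i) (f (c i)) (hsurj i) (hsurj _)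
      (hc1 i).symm
    have hcrt : ∀ t : Fin m → T, ∃ d : D, ∀ i, f (c i) d = t (c i) := by
      intro t
      obtain ⟨d, hd⟩ := crt_simple hTna f hsurj (Finset.univ.image c) (by
        intro i hi j hj h
        obtain ⟨i, -, rfl⟩ := Finset.mem_image.1 hi
        obtain ⟨j, -, rfl⟩ := Finset.mem_image.1 hj
        rw [← hc3 i, ← hc3 j, hc2, h]) t
      exact ⟨d, fun i => hd _ (by simp)⟩
    have hsize : ∀ i j, Nat.card {l // c l = c i} ≤ Nat.card {l // c l = c j} := by
      intro i j
      obtain ⟨k, hk, hrel⟩ := hB i j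
      choose σ hσ using hA' k
      refine Nat.card_le_card_of_injective (fun l => ⟨σ l, ?_⟩) ?_
      · have h1 := (hc2 _ _).1 l.2
        rw [hc2]
        ext d
        let d' : D := ⟨_, hD k⁻¹ ((stabilizer H a).inv_mem hk) d d.2⟩
        have h2 : d' ∈ (f l).ker ↔ d' ∈ (f i).ker := by rw [h1]
        exact (hinv _ _ _ (hσ l) d).trans (h2.trans (hinv _ _ _ hrel d).symm)
      · intro l l' h
        have h1 : σ l = σ l' := congrArg Subtype.val h
        exact Subtype.ext (hC k _ _ _ (hσ l) (h1 ▸ hσ l'))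
    refine ⟨T, inferInstance, m, e₀.trans (MulEquiv.piCongrRight β), hT, hTna, hm,
      Or.inr ⟨Nat.card {l // c l = c ⟨0, hm⟩}, c, ?_, ?_, ?_⟩⟩
    · by_contra hlt
      have hci : ∀ i, c i = i := by
        intro i
        have h1 : Nat.card {l // c l = c i} ≤ 1 := (hsize i ⟨0, hm⟩).trans (by omega)
        have := Finite.card_le_one_iff_subsingleton.1 h1
        exact congrArg Subtype.val
          (Subsingleton.elim (⟨c i, hc3 i⟩ : {l // c l = c i}) ⟨i, rfl⟩)
      apply hDtop
      rw [eq_top_iff]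
      intro n _
      obtain ⟨d, hd⟩ := hcrt (e₀ n)
      simp only [hci] at hd
      have : (d : N) = n := e₀.injective (funext hd)
      exact this ▸ d.2
    · intro j
      by_cases hj : ∃ i, c i = j
      · obtain ⟨i, rfl⟩ := hj
        exact Or.inl (le_antisymm (hsize _ _) (hsize _ _))
      · right
        push Not at hj
        have : IsEmpty {i // c i = j} := ⟨fun i => hj i i.2⟩
        exact Nat.card_of_isEmpty
    · intro n
      constructor
      · intro hn i j hij
        change β i (f i ⟨n, hn⟩) = β j (f j ⟨n, hn⟩)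
        rw [hβ, hβ, hij]
      · intro h
        obtain ⟨d, hd⟩ := hcrt (e₀.trans (MulEquiv.piCongrRight β) n)
        have : (d : N) = n := e₀.injective (funext fun i => (β i).injective (by
          change β i (f i d) = _
          rw [hβ, hd, h _ i (hc3 i)]
          rfl))
        exact this ▸ d.2

end Cfsg.Agent.S0723
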