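import Cfsg.Statements.S0726
import Mathlib

set_option autoImplicit false
open Cfsg

namespace Cfsg.Agent.S0726

/-- The left and right regular permutation representations of a group are each other's centralisers in the symmetric group: the centraliser of the left regular image is the right regular image, and a transitive subgroup centralising the left regular image is the whole right regular image. -/
theorem result {G : Type*} [Group G] : Subgroup.centralizer ((MulAction.toPermHom G G).range : Set (Equiv.Perm G)) = (MulAction.toPermHom Gᵐᵒᵖ G).range ∧ ∀ H : Subgroup (Equiv.Perm G), H ≤ Subgroup.centralizer ((MulAction.toPermHom G G).range : Set (Equiv.Perm G)) → MulAction.IsPretransitive H G → H = (MulAction.toPermHom Gᵐᵒᵖ G).range := by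
  have h1 : Subgroup.centralizer ((MulAction.toPermHom G G).range : Set (Equiv.Perm G)) =
      (MulAction.toPermHom Gᵐᵒᵖ G).range := by
    ext c
    constructor
    · intro hc
      refine ⟨MulOpposite.op (c 1), ?_⟩
      ext x
      have := congrArg (fun σ : Equiv.Perm G => σ 1) (hc (MulAction.toPermHom G G x) ⟨x, rfl⟩)
      simpa using this
    · rintro ⟨h, rfl⟩ _ ⟨g, rfl⟩
      ext x
      simp [mul_assoc]
  refine ⟨h1, fun H hH ht => le_antisymm (h1 ▸ hH) ?_⟩
  rintro _ ⟨h, rfl⟩
  obtain ⟨k, hk⟩ := MulAction.exists_smul_eq H (1 : G) h.unop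
  obtain ⟨h', hh'⟩ : (k : Equiv.Perm G) ∈ (MulAction.toPermHom Gᵐᵒᵖ G).range := h1 ▸ hH k.2
  have hk' : (k : Equiv.Perm G) 1 = h.unop := hk
  rw [← hh'] at hk'
  have : h' = h := by
    apply MulOpposite.unop_injective
    simpa using hk'
  rw [← this, hh']
  exact k.2

end Cfsg.Agent.S0726
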