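import Cfsg.Statements.S0727
import Cfsg.Agent.H26.ZS7

set_option autoImplicit false
open Cfsg

namespace Cfsg.Agent.S0727


/-- A sharply triply transitive permutation group of degree `2^f + 1` is isomorphic to the projective general linear group of degree 2 over the field with `2^f` elements. -/
theorem result {α : Type*} [Fintype α] [DecidableEq α] {f : ℕ} (hf : 1 ≤ f) (hα : Fintype.card α = 2 ^ f + 1) (G : Subgroup (Equiv.Perm α)) (h3 : MulAction.IsMultiplyPretransitive G α 3) (hsharp : ∀ x : Fin 3 ↪ α, MulAction.stabilizer G x = ⊥) : ∃ (F : Type) (_ : Field F) (_ : Fintype F), Fintype.card F = 2 ^ f ∧ Nonempty (G ≃* Matrix.ProjGenLinGroup (Fin 2) F) := by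
  have h1 : 2 ≤ 2 ^ f := Nat.pow_le_pow_right two_pos hf
  have hZ := H26.z3_of_sharp (by omega) G h3 hsharp
  obtain ⟨a, b, hab⟩ := Fintype.exists_pair_of_one_lt_card (show 1 < Fintype.card α by omega)
  obtain ⟨H, hK⟩ := hZ.exists_ker hab.symm
  have h2 := hK.card_Ω hab.symm
  rw [Nat.card_eq_fintype_card, hα] at h2
  obtain ⟨K, _, _, h4, h5⟩ := hZ.pgl_of_odd h3 hK hab.symm (by
    rw [Nat.card_eq_fintype_card, hα]
    exact (Nat.even_pow.2 ⟨even_two, by omega⟩).add_one)
  exact ⟨K, inferInstance, inferInstance, by omega, h5⟩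

end Cfsg.Agent.S0727
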