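import Cfsg.Statements.S0728
import Cfsg.Agent.H26.ZS5
import Cfsg.Agent.H26.ZS7

set_option autoImplicit false
open Cfsg

namespace Cfsg.Agent.S0728


/-- In a sharply triply transitive group of even degree at least 6 (degree `q + 1`, `q` odd), a two-point stabiliser has at most one subgroup of order 3. -/
theorem result {α : Type*} [Fintype α] [DecidableEq α] (heven : Even (Fintype.card α)) (h6 : 6 ≤ Fintype.card α) (G : Subgroup (Equiv.Perm α)) (h3 : MulAction.IsMultiplyPretransitive G α 3) (hsharp : ∀ x : Fin 3 ↪ α, MulAction.stabilizer G x = ⊥) {a b : α} (hab : a ≠ b) (A B : Subgroup G) (hA : A ≤ MulAction.stabilizer G a ⊓ MulAction.stabilizer G b) (hB : B ≤ MulAction.stabilizer G a ⊓ MulAction.stabilizer G b) (hA3 : Nat.card A = 3) (hB3 : Nat.card B = 3) : A = B := by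
  have hZ := H26.z3_of_sharp (by omega) G h3 hsharp
  have aux : ∀ C : Subgroup G, Nat.card C = 3 → ∃ c : G, orderOf c = 3 ∧ C = Subgroup.zpowers c := by
    intro C hC
    haveI : Fact (Nat.Prime 3) := ⟨Nat.prime_three⟩
    obtain ⟨c, hc⟩ := exists_prime_orderOf_dvd_card' (G := C) 3 (by rw [hC])
    have h1 : orderOf (c : G) = 3 := by rw [Subgroup.orderOf_coe, hc]
    refine ⟨c, h1, (Subgroup.eq_of_le_of_card_ge (Subgroup.zpowers_le.2 c.2) ?_).symm⟩
    rw [Nat.card_zpowers, h1, hC]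
  obtain ⟨x, h1, rfl⟩ := aux A hA3
  obtain ⟨y, h2, rfl⟩ := aux B hB3
  have hx := hA (Subgroup.mem_zpowers x)
  have h4 := hZ.card_three_le hab.symm (fun e => by
    have : x ∈ H26.D2 G a b := hx
    rw [e, Subgroup.mem_bot] at this
    rw [this, orderOf_one] at h1; omega)
  have h5 : x⁻¹ ≠ x := fun h => by
    have := orderOf_dvd_of_pow_eq_one (x := x) (n := 2)
      (by rw [pow_two]; nth_rewrite 1 [← h]; simp)
    rw [h1] at this; omega
  have h6' : ({x, x⁻¹} : Set G) = {d ∈ H26.D2 G a b | orderOf d = 3} :=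
    Set.eq_of_subset_of_ncard_le (by
      rintro _ (rfl | rfl)
      · exact ⟨hx, h1⟩
      · exact ⟨inv_mem hx, by simpa using h1⟩) (by rw [Set.ncard_pair h5.symm]; exact h4)
  rcases (h6' ▸ ⟨hB (Subgroup.mem_zpowers y), h2⟩ : y ∈ ({x, x⁻¹} : Set G)) with rfl | rfl
  · rfl
  · exact Subgroup.zpowers_inv.symm

end Cfsg.Agent.S0728
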