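import Cfsg.Statements.S0733
import Mathlib

set_option autoImplicit false
open Cfsg

namespace Cfsg.Agent.S0733

/-- A permutation group of affine type — generated by the translations of a finite vector space `V` over `ZMod p` together with a group `G₀` of linear automorphisms — is primitive on `V` if and only if `G₀` is irreducible on `V`. -/
theorem result {p : ℕ} [Fact p.Prime] {V : Type*} [AddCommGroup V] [Module (ZMod p) V] [Finite V] [Nontrivial V] (G₀ : Subgroup (V ≃ₗ[ZMod p] V)) (G : Subgroup (Equiv.Perm V)) (hG : ∀ σ : Equiv.Perm V, σ ∈ G ↔ ∃ g ∈ G₀, ∃ b : V, ∀ x : V, σ x = (g : V ≃ₗ[ZMod p] V) x + b) : MulAction.IsPreprimitive G V ↔ ∀ W : Submodule (ZMod p) V, (∀ g ∈ G₀, ∀ v ∈ W, (g : V ≃ₗ[ZMod p] V) v ∈ W) → W = ⊥ ∨ W = ⊤ := by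
  open MulAction in
  have htr : ∀ b : V, Equiv.addRight b ∈ G := fun b =>
    (hG _).2 ⟨1, G₀.one_mem, b, fun x => by simp⟩
  have hlin : ∀ g ∈ G₀, (g : V ≃ₗ[ZMod p] V).toEquiv ∈ G := fun g hg =>
    (hG _).2 ⟨g, hg, 0, fun x => by simp⟩
  constructor
  · intro hprim W hW
    have hblock : IsBlock G (W : Set V) := by
      rw [isBlock_iff_smul_eq_of_mem]
      rintro ⟨σ, hσ⟩ a ha ha'
      obtain ⟨g, hg, b, hb⟩ := (hG σ).1 hσ
      have hb' : b ∈ W := by
        have h1 : σ a ∈ W := ha'
        rw [hb] at h1
        simpa using W.sub_mem h1 (hW g hg a ha)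
      apply Set.eq_of_subset_of_ncard_le
      · rintro _ ⟨x, hx, rfl⟩
        change σ x ∈ W
        rw [hb]
        exact W.add_mem (hW g hg x hx) hb'
      · rw [Set.ncard_smul_set]
      · exact Set.toFinite _
    rcases hblock.subsingleton_or_eq_univ with h | h
    · left
      rw [eq_bot_iff]
      intro x hx
      exact h hx W.zero_mem
    · right
      exact SetLike.coe_injective h
  · intro hirr
    have : IsPretransitive G V := ⟨fun a b => ⟨⟨_, htr (b - a)⟩, by
      change a + (b - a) = b
      simp⟩⟩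
    apply IsPreprimitive.of_isTrivialBlock_base (0 : V)
    intro B h0 hB
    rw [isBlock_iff_smul_eq_of_mem] at hB
    have hadd : ∀ b ∈ B, ∀ x, x + b ∈ B ↔ x ∈ B := by
      intro b hb x
      have := hB (g := ⟨_, htr b⟩) h0 (by change (0 : V) + b ∈ B; simpa using hb)
      conv_lhs => rw [← this]
      exact Set.smul_mem_smul_set_iff (a := (⟨_, htr b⟩ : G))
    let A : AddSubgroup V :=
      { carrier := B
        zero_mem' := h0
        add_mem' := fun {a b} ha hb => (hadd b hb a).2 ha
        neg_mem' := fun {a} ha => (hadd a ha (-a)).1 (by simpa using h0) }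
    rcases hirr (AddSubgroup.toZModSubmodule p A) (fun g hg v hv => by
      have := hB (g := ⟨_, hlin g hg⟩) h0 (by change g 0 ∈ B; simpa using h0)
      change g v ∈ B
      rw [← this]
      exact Set.smul_mem_smul_set (a := (⟨_, hlin g hg⟩ : G)) hv) with h | h
    · left
      have : ∀ x ∈ B, x = 0 := fun x hx => by
        have : x ∈ AddSubgroup.toZModSubmodule p A := hx
        rwa [h] at this
      intro x hx y hy
      rw [this x hx, this y hy]
    · right
      rw [Set.eq_univ_iff_forall]
      intro x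
      have : x ∈ AddSubgroup.toZModSubmodule p A := h ▸ Submodule.mem_top
      exact this

end Cfsg.Agent.S0733
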