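import Cfsg.Statements.S0735
import Mathlib

set_option autoImplicit false
open Cfsg

namespace Cfsg.Agent.S0735

open scoped Pointwise

theorem pair {G α : Type*} [Group G] [MulAction G α] [DecidableEq α]
    (h2 : MulAction.IsPretransitive G (Set.powersetCard α 2)) {a b c d : α} (hab : a ≠ b)
    (hcd : c ≠ d) : ∃ g : G, (g • a = c ∧ g • b = d) ∨ (g • a = d ∧ g • b = c) := by
  obtain ⟨g, hg⟩ := h2.exists_smul_eq ⟨{a, b}, Finset.card_pair hab⟩ ⟨{c, d}, Finset.card_pair hcd⟩
  have hg' : g • ({a, b} : Finset α) = {c, d} := congrArg Subtype.val hg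
  refine ⟨g, ?_⟩
  have ha : g • a ∈ ({c, d} : Finset α) := hg' ▸ Finset.smul_mem_smul_finset (by simp)
  have hb : g • b ∈ ({c, d} : Finset α) := hg' ▸ Finset.smul_mem_smul_finset (by simp)
  have hne : g • a ≠ g • b := fun h => hab ((smul_left_cancel_iff g).1 h)
  simp only [Finset.mem_insert, Finset.mem_singleton] at ha hb
  rcases ha with ha | ha <;> rcases hb with hb | hb
  · exact absurd (ha.trans hb.symm) hne
  · exact Or.inl ⟨ha, hb⟩
  · exact Or.inr ⟨ha, hb⟩
  · exact absurd (ha.trans hb.symm) hne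

/-- A 2-homogeneous permutation group (transitive on 2-subsets) of even order is doubly transitive; a non-trivial 2-homogeneous group is primitive. -/
theorem result {α : Type*} [Fintype α] [DecidableEq α] (G : Subgroup (Equiv.Perm α)) (h2 : MulAction.IsPretransitive G (Set.powersetCard α 2)) (hα : 3 ≤ Fintype.card α) : (Even (Nat.card G) → MulAction.IsMultiplyPretransitive G α 2) ∧ (G ≠ ⊥ → MulAction.IsPreprimitive G α) := by
  open MulAction in
  constructor
  · intro heven
    obtain ⟨t, ht⟩ := exists_prime_orderOf_dvd_card' 2 heven.two_dvd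
    have ht1 : t ≠ 1 := by
      rintro rfl
      simp at ht
    have ht2 : t * t = 1 := by rw [← sq, ← ht, pow_orderOf_eq_one]
    obtain ⟨a, ha⟩ : ∃ a : α, t • a ≠ a := by
      by_contra h
      push Not at h
      exact ht1 (Subtype.ext (Equiv.ext h))
    have key : ∀ c d : α, c ≠ d → ∃ g : G, g • a = c ∧ g • t • a = d := by
      intro c d hcd
      obtain ⟨g, hg | hg⟩ := pair h2 ha.symm hcd
      · exact ⟨g, hg⟩
      · refine ⟨g * t, by rw [mul_smul, hg.2], ?_⟩
        rw [smul_smul, mul_assoc, ht2, mul_one, hg.1]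
    rw [is_two_pretransitive_iff]
    intro x y c d hxy hcd
    obtain ⟨g, hg1, hg2⟩ := key x y hxy
    obtain ⟨h, hh1, hh2⟩ := key c d hcd
    refine ⟨h * g⁻¹, ?_, ?_⟩
    · rw [← hg1, mul_smul, inv_smul_smul, hh1]
    · rw [← hg2, mul_smul, inv_smul_smul, hh2]
  · intro hne
    apply IsPreprimitive.mk'
    · intro h
      apply hne
      rw [eq_bot_iff]
      intro g hg
      rw [Subgroup.mem_bot]
      ext x
      have : x ∈ fixedPoints G α := h ▸ Set.mem_univ x
      exact this ⟨g, hg⟩
    · intro B hB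
      rcases B.subsingleton_or_nontrivial with h1 | ⟨a, ha, b, hb, hab⟩
      · exact Or.inl h1
      right
      rw [isBlock_iff_smul_eq_of_mem] at hB
      rw [Set.eq_univ_iff_forall]
      intro c
      by_cases hac : a = c
      · exact hac ▸ ha
      obtain ⟨g, hg | hg⟩ := pair h2 hab hac
      · rw [← hB ha (hg.1.symm ▸ ha), ← hg.2]
        exact Set.smul_mem_smul_set hb
      · rw [← hB hb (hg.2.symm ▸ ha), ← hg.1]
        exact Set.smul_mem_smul_set ha

end Cfsg.Agent.S0735
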