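import Cfsg.Statements.S0737
import Cfsg.Agent.H25.Hup4
import Cfsg.Agent.H25.Homog
import Cfsg.Agent.H25.Aff
import Cfsg.Agent.Lead.FT

set_option autoImplicit false
open Cfsg

namespace Cfsg.Agent.S0737

open Subgroup H25 Module MulAction

/-- A non-trivial 2-homogeneous permutation group that is not doubly transitive has odd order and degree `p^f ≡ 3 (mod 4)`, and is permutation-isomorphic to a group of semi-affine transformations `x ↦ a φ(x) + b` of the field with `p^f` elements containing all translations. -/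
theorem result {α : Type*} [Fintype α] [DecidableEq α] (G : Subgroup (Equiv.Perm α)) (hne : G ≠ ⊥) (h2 : MulAction.IsPretransitive G (Set.powersetCard α 2)) (hn2 : ¬ MulAction.IsMultiplyPretransitive G α 2) : Odd (Nat.card G) ∧ ∃ (p f : ℕ) (_ : Fact p.Prime), p ≠ 2 ∧ Fintype.card α = p ^ f ∧ p ^ f % 4 = 3 ∧ ∃ e : α ≃ GaloisField p f, (∀ g : G, e.symm.trans (((g : Equiv.Perm α)).trans e) ∈ Cfsg.semiaffineGroup (GaloisField p f)) ∧ ∀ b : GaloisField p f, ∃ g : G, ∀ x : α, e ((g : Equiv.Perm α) x) = e x + b := by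
  have h3 : ∀ a b c d : α, a ≠ b → c ≠ d →
      ∃ g : G, (g • a = c ∧ g • b = d) ∨ (g • a = d ∧ g • b = c) := fun a b c d h h' => by
    obtain ⟨g, π, hg⟩ := homog_tuple h2 (inj_vec2 h) (inj_vec2 h')
    have e : (π 0 = 0 ∧ π 1 = 1) ∨ (π 0 = 1 ∧ π 1 = 0) := by clear hg; revert π; decide
    have e0 := hg 0
    have e1 := hg 1
    exact ⟨g, e.imp (fun e => by rw [e.1] at e0; rw [e.2] at e1; exact ⟨e0, e1⟩)
      fun e => by rw [e.1] at e0; rw [e.2] at e1; exact ⟨e0, e1⟩⟩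
  have h4 : ∀ g : G, g ≠ 1 → ∃ x : α, g • x ≠ x := fun g hg => by
    by_contra h; push Not at h; exact hg (Subtype.ext (Equiv.ext h))
  have hodd : Odd (Nat.card G) := by
    rw [← Nat.not_even_iff_odd, even_iff_two_dvd]
    intro h
    obtain ⟨t, ht⟩ := exists_prime_orderOf_dvd_card' 2 h
    obtain ⟨x, hx⟩ := h4 t (by rintro rfl; simp at ht)
    have e : t • t • x = x := by rw [← mul_smul, ← pow_two, ← ht, pow_orderOf_eq_one, one_smul]
    have key : ∀ a b : α, a ≠ b → ∃ g : G, g • a = x ∧ g • b = t • x := fun a b h => by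
      obtain ⟨g, h | h⟩ := h3 a b x _ h hx.symm
      exacts [⟨g, h⟩, ⟨t * g, by rw [mul_smul, h.1, e], by rw [mul_smul, h.2]⟩]
    refine hn2 (is_two_pretransitive_iff.2 fun {a b c d} h h' => ?_)
    obtain ⟨g, g1, g2⟩ := key a b h
    obtain ⟨k, k1, k2⟩ := key c d h'
    exact ⟨k⁻¹ * g, by rw [mul_smul, g1, inv_smul_eq_iff, k1], by rw [mul_smul, g2, inv_smul_eq_iff, k2]⟩
  refine ⟨hodd, ?_⟩
  have := FT.odd_solvable G hodd
  have := (nontrivial_iff_ne_bot G).2 hne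
  obtain ⟨N, p, hN, n0, -, hp, hc, hNp, -⟩ :=
    H1.exists_minimal_normal_elementary (⊤ : Subgroup G) inferInstance top_ne_bot
  have := Fact.mk hp
  obtain ⟨⟨n, hn⟩, n1⟩ := ne_bot_iff_exists_ne_one.1 n0
  obtain ⟨a, ha⟩ := h4 n fun e => n1 (Subtype.ext e)
  have h5 : ∀ c d : α, ∃ m ∈ N, m • c = d := fun c d => by
    by_cases h : c = d
    · exact ⟨1, one_mem _, by rw [one_smul, h]⟩
    obtain ⟨g, ⟨e1, e2⟩ | ⟨e1, e2⟩⟩ := h3 a _ c d ha.symm h
    · exact ⟨_, hN.conj_mem n hn g, by rw [← e1, ← e2, mul_smul, mul_smul, inv_smul_smul]⟩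
    · exact ⟨_, hN.conj_mem _ (inv_mem hn) g, by
        rw [← e1, ← e2, mul_smul, mul_smul, inv_smul_smul, inv_smul_smul]⟩
  obtain ⟨V, _, _, β, ρ, h8, h7, h6, -, h12⟩ := exists_affine N hc hNp h5 a
  have := Finite.of_equiv _ β.symm
  have : Nontrivial α := ⟨⟨_, _, ha⟩⟩
  have := β.nontrivial
  let ν : V ≃ₗ[ZMod p] V := LinearEquiv.neg _
  let ψ := (ρ).noncommCoprod (zpowersHom _ ν) fun g k =>
    Commute.zpow_right (LinearEquiv.ext fun v => map_neg (ρ g) v) k.toAdd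
  have := solvable_of_surjective ψ.rangeRestrict_surjective
  have ht : LTrans (linRep ψ.range) := fun v w hv hw => by
    obtain ⟨g, ⟨e1, e2⟩ | ⟨e1, e2⟩⟩ := h3 a (β v) a (β w) (h8 ▸ β.injective.ne hv.symm)
      (h8 ▸ β.injective.ne hw.symm)
    · rw [h7, e1, ← h8, β.symm_apply_apply, add_zero] at e2
      exact ⟨⟨_, (g, 1), rfl⟩, β.injective e2⟩
    · rw [h7, e1, ← h8, β.symm_apply_apply] at e2
      exact ⟨⟨_, (g, .ofAdd 1), rfl⟩,
        (map_neg (ρ g) v).trans (neg_eq_of_add_eq_zero_right (β.injective e2))⟩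
  have h9 : Nat.card α = Nat.card (V) := (Nat.card_congr β).symm
  have h10 : Nat.card α % 4 = 3 := by
    have e1 := card_eq_choose_mul h2 (s := {a, n • a}) (Finset.card_pair ha.symm)
    have e2 : Odd (Nat.card α) := hodd.of_dvd_nat (h9 ▸ h12 ▸ card_subgroup_dvd_card N)
    have e3 := hodd.of_dvd_nat (Dvd.intro _ e1.symm)
    obtain ⟨k, hk⟩ := e2
    rw [hk, Nat.choose_two_right, Nat.add_sub_cancel, mul_left_comm,
      Nat.mul_div_cancel_left _ two_pos] at e3
    have := Nat.odd_iff.1 (e3.of_dvd_nat (dvd_mul_left _ _))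
    omega
  rcases huppert (linRep_inj ψ.range) ht with ⟨f, -, h11, e, he⟩ | ⟨K, _, _, _, _, A, M, r, h, -⟩
  swap
  · obtain ⟨-, -, -, ⟨-, h1⟩ | ⟨-, h1, rfl | rfl | rfl | rfl | rfl⟩⟩ := h.card_cases ht <;> omega
  rw [← h9] at h11
  refine ⟨p, f, inferInstance, ?_, Nat.card_eq_fintype_card.symm.trans h11, h11 ▸ h10,
    β.symm.trans e.toEquiv, fun g => ?_, fun b => ?_⟩
  · rintro rfl
    rcases f with _ | f <;> omega
  · obtain ⟨c, τ, hc⟩ := he ⟨_, (g, 1), rfl⟩
    have c0 : c ≠ 0 := by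
      rintro rfl
      obtain ⟨v, hv⟩ := exists_ne (0 : V)
      exact rep_ne_zero _ _ hv (e.map_eq_zero_iff.1 ((hc v).trans (zero_mul _)))
    refine ⟨Units.mk0 c c0, e (β.symm (g • a)), τ, fun x => ?_⟩
    obtain ⟨v, rfl⟩ := e.surjective x
    change e (β.symm (g • β (e.symm (e v)))) = _
    rw [e.symm_apply_apply, h7, β.symm_apply_apply, map_add]
    exact congrArg (· + _) (hc v)
  · obtain ⟨m, -, hm⟩ := h6 (e.symm b)
    refine ⟨m, fun x => ?_⟩
    obtain ⟨v, rfl⟩ := β.surjective x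
    change e (β.symm (m • β v)) = e (β.symm (β v)) + b
    rw [hm, β.symm_apply_apply, β.symm_apply_apply, map_add, e.apply_symm_apply]

end Cfsg.Agent.S0737
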