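import Cfsg.Statements.S0739
import Cfsg.Agent.H26.ZS4

set_option autoImplicit false
open Cfsg

namespace Cfsg.Agent.S0739


/-- In a finite Zassenhaus group whose two-point stabiliser `H = G_{a,b}` has odd order `d`, and which has no normal `q`-complement for any prime `q ∣ d`, `H` is cyclic, `C_G(H) = H`, and every element swapping `a` and `b` inverts each element of `H`. -/
theorem result {G Ω : Type*} [Group G] [Finite G] [MulAction G Ω] [Fintype Ω] (hZ : Cfsg.IsZassenhausGroup G Ω) {a b : Ω} (hab : a ≠ b) (hodd : Odd (Nat.card ↥(MulAction.stabilizer G a ⊓ MulAction.stabilizer G b))) (hnil : ∀ q : ℕ, q.Prime → q ∣ Nat.card ↥(MulAction.stabilizer G a ⊓ MulAction.stabilizer G b) → ¬ ∃ N : Subgroup G, N.Normal ∧ N.index = q ^ (Nat.card G).factorization q) : IsCyclic ↥(MulAction.stabilizer G a ⊓ MulAction.stabilizer G b) ∧ Subgroup.centralizer ((MulAction.stabilizer G a ⊓ MulAction.stabilizer G b : Subgroup G) : Set G) = MulAction.stabilizer G a ⊓ MulAction.stabilizer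 G b ∧ ∀ s : G, s • a = b → s • b = a → ∀ h ∈ MulAction.stabilizer G a ⊓ MulAction.stabilizer G b, s * h * s⁻¹ = h⁻¹ := by
  have h3 := H26.z3_of_zas hZ
  have hD := H26.Zas.D_ne_bot hZ hab.symm
  have hinv : ∀ s ∈ H26.Swap G a b, ∀ d ∈ H26.D2 G a b, s * d * s⁻¹ = d⁻¹ := fun s hs d hd =>
    h3.inverts_of_no_compl hab.symm hodd hnil hs hd
  obtain ⟨t, ht, -⟩ := h3.exists_swap hab.symm
  have hc := H26.Z3.comm_of_inverts (hinv t ht)
  refine ⟨h3.cyclic_of_comm hab.symm hodd hc, le_antisymm (fun g hg => ?_) (Subgroup.le_centralizer _),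
    fun s h1 h2 => hinv s ⟨h1, h2⟩⟩
  obtain ⟨⟨d, hd⟩, hd1⟩ := Subgroup.ne_bot_iff_exists_ne_one.1 hD
  exact h3.cent_D hab.symm hD hodd hinv hd (by simpa using hd1) (hg d hd).symm

end Cfsg.Agent.S0739
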