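import Cfsg.Statements.S0740
import Cfsg.Agent.H26.ZS3

set_option autoImplicit false
open Cfsg

namespace Cfsg.Agent.S0740


/-- In a finite Zassenhaus group any two points `a ≠ b` are swapped by an involution; every such involution has exactly one fixed point when the degree is odd and 0 or 2 fixed points when the degree is even; and if the two-point stabiliser has even order, some such involution has exactly 2 fixed points. -/
theorem result {G Ω : Type*} [Group G] [Finite G] [MulAction G Ω] [Fintype Ω] (hZ : Cfsg.IsZassenhausGroup G Ω) {a b : Ω} (hab : a ≠ b) : (∃ s : G, orderOf s = 2 ∧ s • a = b ∧ s • b = a) ∧ (∀ s : G, orderOf s = 2 → s • a = b → s • b = a → (Odd (Fintype.card Ω) → Nat.card (MulAction.fixedBy Ω s) = 1) ∧ (Even (Fintype.card Ω) → Nat.card (MulAction.fixedBy Ω s) = 0 ∨ Nat.card (MulAction.fixedBy Ω s) = 2)) ∧ (Even (Fintype.card Ω) → Even (Nat.card ↥(MulAction.stabilizer G a ⊓ MulAction.stabilizer G b)) → ∃ s : G, orderOf s = 2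 ∧ s • a = b ∧ s • b = a ∧ Nat.card (MulAction.fixedBy Ω s) = 2) := by
  have h3 := H26.z3_of_zas hZ
  have hne : ∀ s : G, s • a = b → s ≠ 1 := fun s h e => hab (by rw [← h, e, one_smul])
  refine ⟨?_, fun s hs _ _ => ?_, fun he hd => ?_⟩
  · obtain ⟨s, hs, h⟩ := h3.exists_swap hab.symm
    exact ⟨s, H26.orderOf_eq_two_iff'.2 ⟨hne s hs.1, h⟩, hs.1, hs.2⟩
  · obtain ⟨h1, h2⟩ := H26.orderOf_eq_two_iff'.1 hs
    rw [← Nat.card_eq_fintype_card]
    exact ⟨fun h => h3.fix_one_of_odd h h1 h2, fun h => h3.fix_of_even h h1 h2⟩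
  · obtain ⟨c, hc, hcb⟩ := h3.exists_third hab.symm (H26.Zas.D_ne_bot hZ hab.symm)
    obtain ⟨s, hs, h, hsc⟩ := h3.exists_swap_fix hab.symm hd hc hcb
    refine ⟨s, H26.orderOf_eq_two_iff'.2 ⟨hne s hs.1, h⟩, hs.1, hs.2, ?_⟩
    rw [← Nat.card_eq_fintype_card] at he
    refine (h3.fix_of_even he (hne s hs.1) h).resolve_left ?_
    haveI : Nonempty (MulAction.fixedBy Ω s) := ⟨⟨c, hsc⟩⟩
    exact Nat.card_pos.ne'

end Cfsg.Agent.S0740
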