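import Cfsg.Statements.S0742
import Cfsg.Agent.H26.ZS7

set_option autoImplicit false
open Cfsg

namespace Cfsg.Agent.S0742


/-- A finite Zassenhaus group of degree `n + 1` with two-point stabilisers of even order `d` satisfying `2d ≤ n - 1` has `n = p^f` for an odd prime `p` and is isomorphic to `PSL(2, p^f)`. -/
theorem result {G Ω : Type*} [Group G] [Finite G] [MulAction G Ω] [Fintype Ω] (hZ : Cfsg.IsZassenhausGroup G Ω) {a b : Ω} (hab : a ≠ b) (heven : Even (Nat.card ↥(MulAction.stabilizer G a ⊓ MulAction.stabilizer G b))) (hd : 2 * Nat.card ↥(MulAction.stabilizer G a ⊓ MulAction.stabilizer G b) ≤ Fintype.card Ω - 2) : ∃ (p f : ℕ) (K : Type) (_ : Field K) (_ : Fintype K), p.Prime ∧ p ≠ 2 ∧ Fintype.card K = p ^ f ∧ Fintype.card Ω = p ^ f + 1 ∧ Nonempty (G ≃* Matrix.ProjectiveSpecialLinearGroup (Fin 2) K) := by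
  have h3 := H26.z3_of_zas hZ
  obtain ⟨H, hK⟩ := h3.exists_ker hab.symm
  have h1 := hK.card_Ω hab.symm
  have h2 := h3.card_le_of_even hab.symm heven
  rw [← Nat.card_eq_fintype_card] at hd ⊢
  have h4 : ∀ s ∈ H26.Swap G a b, s * s = 1 := fun s hs => (h3.swap_sq_of_even hab.symm heven hd hs).1
  obtain ⟨s, hs, hs2⟩ := h3.exists_swap hab.symm
  have h0 : 0 < Nat.card H := Nat.card_pos
  obtain ⟨K, _, _, h5, h6, h7⟩ := h3.psl_of_half hK hab.symm (by
    change 2 * Nat.card (H26.D2 G a b) ≤ _ at hd; omega) hs hs2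
    fun d hd => H26.Z3.inverts_of_swap_sq h4 hs hd
  obtain ⟨f, hp, hf⟩ := FiniteField.card K (ringChar K)
  exact ⟨ringChar K, f, K, inferInstance, inferInstance, hp, h6, hf, by rw [h1, ← h5, hf], h7⟩

end Cfsg.Agent.S0742
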