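import Cfsg.Statements.S0744
import Mathlib
import Cfsg.Agent.H25.Prim
import Cfsg.Agent.S0743

set_option autoImplicit false
open Cfsg

namespace Cfsg.Agent.S0744

open MulAction H25

/-- If for some `k > 1` the pointwise stabilisers of all `(k-1)`-subsets have the same order `> 1` and those of all `k`-subsets have the same order, then the group is `(k-1)`-transitive. -/
theorem result {α : Type*} [Fintype α] [DecidableEq α] (G : Subgroup (Equiv.Perm α)) {k : ℕ} (hk : 1 < k) (hkn : k ≤ Fintype.card α) (l m : ℕ) (hl : 1 < l) (hkm1 : ∀ s : Finset α, s.card = k - 1 → Nat.card (fixingSubgroup G (s : Set α)) = l) (hkm : ∀ s : Finset α, s.card = k → Nat.card (fixingSubgroup G (s : Set α)) = m) : MulAction.IsMultiplyPretransitive G α (k - 1) := by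
  have hstab : ∀ (s : Finset α) (x : α), s.card = k - 1 → x ∉ s →
      Nat.card (stabilizer (fixingSubgroup G (s : Set α)) x) = m := by
    intro s x hs hx
    rw [← hkm (insert x s) (by rw [Finset.card_insert_of_notMem hx]; omega),
      ← Subgroup.card_map_of_injective (fixingSubgroup G (s : Set α)).subtype_injective]
    congr 2
    ext g
    rw [Finset.coe_insert, SubMulAction.mem_fixingSubgroup_insert_iff]
    constructor
    · rintro ⟨g, hg, rfl⟩
      exact ⟨hg, g.2⟩
    · rintro ⟨h1, h2⟩
      exact ⟨⟨g, h2⟩, h1, rfl⟩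
  obtain ⟨s₀, -, hs₀⟩ := Finset.exists_subset_card_eq (s := (Finset.univ : Finset α)) (n := k - 1)
    (by simp; omega)
  obtain ⟨x₀, hx₀⟩ : ∃ x, x ∉ s₀ := by
    by_contra h
    push Not at h
    have := Finset.eq_univ_iff_forall.2 h
    rw [this, Finset.card_univ] at hs₀
    omega
  have hm0 : 0 < m := by rw [← hstab s₀ x₀ hs₀ hx₀]; exact Nat.card_pos
  have horb : ∀ (s : Finset α) (x : α), s.card = k - 1 → x ∉ s →
      (orbit (fixingSubgroup G (s : Set α)) x).ncard * m = l := by
    intro s x hs hx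
    rw [← hstab s x hs hx, ncard_orbit_mul_card_stabilizer, hkm1 s hs]
  set r := (orbit (fixingSubgroup G (s₀ : Set α)) x₀).ncard with hr
  have hrm : r * m = l := horb s₀ x₀ hs₀ hx₀
  have hr1 : r ≠ 1 := by
    intro h1
    rw [h1, one_mul] at hrm
    have : fixingSubgroup G (s₀ : Set α) = ⊥ := by
      rw [eq_bot_iff]
      intro g hg
      rw [Subgroup.mem_bot]
      ext x
      by_cases hx : x ∈ s₀
      · exact (mem_fixingSubgroup_iff G).1 hg x hx
      · have h2 : stabilizer (fixingSubgroup G (s₀ : Set α)) x = ⊤ :=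
          Subgroup.eq_top_of_card_eq _ (by rw [hstab s₀ x hs₀ hx, hkm1 s₀ hs₀, hrm])
        have : (⟨g, hg⟩ : fixingSubgroup G (s₀ : Set α)) ∈
            stabilizer (fixingSubgroup G (s₀ : Set α)) x := h2 ▸ Subgroup.mem_top _
        exact this
    have h3 := hkm1 s₀ hs₀
    rw [this, Subgroup.card_bot] at h3
    omega
  obtain ⟨p, hp, hpr⟩ := Nat.exists_prime_and_dvd hr1
  have := Fact.mk hp
  refine Cfsg.Agent.S0743.result G hp (by omega) (by omega) fun s hs => ?_
  obtain ⟨P⟩ : Nonempty (Sylow p (fixingSubgroup G (s : Set α))) := inferInstance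
  refine ⟨(P : Subgroup _).map (fixingSubgroup G (s : Set α)).subtype, P.isPGroup'.map _, ?_⟩
  ext x
  constructor
  · intro hx
    by_contra hxs
    have hle : (P : Subgroup _) ≤ stabilizer (fixingSubgroup G (s : Set α)) x := fun g hg =>
      hx ⟨g, g, hg, rfl⟩
    have h1 := Subgroup.card_dvd_of_le hle
    rw [hstab s x hs hxs, P.card_eq_multiplicity, hkm1 s hs] at h1
    have h3 : p ^ (l.factorization p + 1) ∣ l := by
      rw [pow_succ']
      conv_rhs => rw [← hrm]
      exact Nat.mul_dvd_mul hpr h1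
    exact Nat.pow_succ_factorization_not_dvd (by omega) hp h3
  · rintro hx ⟨_, g, hg, rfl⟩
    exact (mem_fixingSubgroup_iff G).1 g.2 x hx

end Cfsg.Agent.S0744
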