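import Cfsg.Statements.S0745
import Cfsg.Agent.H25.Homog
import Cfsg.Agent.H25.PrimeSyl
import Cfsg.Agent.S0744
import Cfsg.Agent.S0735
import Cfsg.Agent.S0678

set_option autoImplicit false
open Cfsg

namespace Cfsg.Agent.S0745

open MulAction Subgroup H25 Equiv
set_option synthInstance.maxSize 2000

theorem sylow_count_cycle {α : Type*} [Fintype α] [DecidableEq α] (G : Subgroup (Perm α)) {p : ℕ}
    (hp : p.Prime) (hn : Fintype.card α < 2 * p) (h1 : p ∣ Nat.card G) (h2 : ¬ p ^ 2 ∣ Nat.card G)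
    {j : ℕ} (hj : j ≤ p)
    (htriv : ∀ s : Finset α, s.card = j → ∀ g : G, (∀ x ∈ s, g • x = x) → g = 1) :
    ∃ d n, d ∣ p - 1 ∧ n ≡ 1 [MOD p] ∧ Nat.card G = p * d * n := by
  have := Fact.mk hp
  obtain ⟨P⟩ : Nonempty (Sylow p G) := inferInstance
  have hP := card_sylow_eq_prime h1 h2 P
  obtain ⟨σ, hσ⟩ := exists_prime_orderOf_dvd_card' p (dvd_of_eq hP.symm)
  have ho : orderOf ((σ : G) : Perm α) = p := by rw [orderOf_coe, orderOf_coe, hσ]
  have hc : ((σ : G) : Perm α).IsCycle := Perm.isCycle_of_prime_order' (by rwa [ho]) (by rwa [ho])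
  obtain ⟨d, n, a, b, -, c⟩ := sylow_count P hP fun g hg => by
    obtain ⟨i, hi⟩ := Cfsg.Agent.S0713.agree (c := g) hc (congrArg Subtype.val (hg σ σ.2).symm)
    obtain ⟨s, hs, hs'⟩ := Finset.exists_subset_card_eq (s := ((σ : G) : Perm α).support) (n := j)
      (by rw [← hc.orderOf, ho]; exact hj)
    have := htriv s hs' (((σ : G) ^ i)⁻¹ * g) fun x hx => by
      rw [mul_smul, inv_smul_eq_iff]; exact hi x (hs hx)
    rw [← inv_mul_eq_one.1 this]
    exact zpow_mem σ.2 i
  exact ⟨d, n, a, b, c⟩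

theorem two_pow_of_solvable {G α : Type*} [Group G] [Finite G] [Finite α] [MulAction G α]
    [FaithfulSMul G α] (h3 : IsMultiplyPretransitive G α 3) (h4 : 4 ≤ Nat.card α)
    (hs : Group.IsSolvable G) : 2 ∣ Nat.card α := by
  have h2 : IsMultiplyPretransitive G α 2 := isMultiplyPretransitive_of_le (n := 3) (by omega)
    (by omega)
  have := isPreprimitive_of_is_two_pretransitive h2
  obtain ⟨a, b, hab⟩ := (Finite.one_lt_card_iff_nontrivial (α := α)).1 (by omega)
  obtain ⟨M, q, hMn, hM, -, -, hc, -⟩ := H1.exists_minimal_normal_elementary (⊤ : Subgroup G)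
    inferInstance (fun h => by
      obtain ⟨g, rfl⟩ := exists_smul_eq G a b
      exact hab (by rw [mem_bot.1 (h.le (mem_top g)), one_smul]))
  have := normal_transitive_of_primitive (α := α) M hM
  have : FaithfulSMul M α := ⟨fun h => Subtype.ext (eq_of_smul_eq_smul h)⟩
  have hreg := stabilizer_eq_bot_of_comm (G := M) (fun x y => mul_comm' x y) a
  obtain ⟨x, rfl⟩ := exists_smul_eq M a b
  rw [← card_eq_of_regular a hreg, ← H6.ord2_of (x := x)
    (Subtype.ext (sq_eq_one_of_regular h3 h4 M hreg x.2)) (by rintro rfl; simp at hab)]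
  exact orderOf_dvd_natCard x

theorem dvd_of_fix {α : Type*} [Fintype α] [DecidableEq α] {G : Subgroup (Perm α)} {k : ℕ}
    (h : IsPretransitive G (Set.powersetCard α k)) (s : Finset α) {p : ℕ} (hp : p.Prime)
    (hd : p ∣ Nat.card (fixingSubgroup G (s : Set α))) (h1 : p ≤ k) (h2 : k ≤ p + s.card) :
    (Fintype.card α).choose k * p ∣ Nat.card G := by
  have := Fact.mk hp
  obtain ⟨σ, hσ⟩ := exists_prime_orderOf_dvd_card' p hd
  have ho : orderOf ((σ : G) : Perm α) = p := by rw [orderOf_coe, orderOf_coe, hσ]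
  obtain ⟨c, hc, h3, h4⟩ := support_prime_order hp ho
  have h5 := Finset.card_le_card (show ((σ : G) : Perm α).support ⊆ sᶜ from fun y hy =>
    Finset.mem_compl.2 fun h => Perm.mem_support.1 hy ((mem_fixingSubgroup_iff _).1 σ.2 y h))
  have h6 := s.card_le_univ
  rw [Finset.card_compl] at h5
  obtain ⟨t, ht, ht'⟩ := (exists_invariant_iff hp ho h4 k).2 ⟨1, k - p, hc, by omega, by omega⟩
  have := choose_mul_orderOf_dvd h ht (g := σ) fun x hx => ht' ▸ Finset.mem_image_of_mem _ hx
  rwa [orderOf_coe, hσ, Nat.card_eq_fintype_card] at this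

/-- Let `G` have degree `n` and `3 ≤ k ≤ n`; suppose `G` is `(k-2)`-transitive but not `(k-1)`-transitive, and is `(k-1)`-homogeneous and `k`-homogeneous. Then `k = n` and `G` is the alternating group, or `n = 5, k = 4, |G| = 20`, or `n = 6, k = 5, |G| = 120`, or `n = 9, k = 5, |G| ∈ {504, 1512}`. -/
theorem result {α : Type*} [Fintype α] [DecidableEq α] (G : Subgroup (Equiv.Perm α)) {k : ℕ} (hk : 3 ≤ k) (hkn : k ≤ Fintype.card α) (ht : MulAction.IsMultiplyPretransitive G α (k - 2)) (hnt : ¬ MulAction.IsMultiplyPretransitive G α (k - 1)) (hh1 : MulAction.IsPretransitive G (Set.powersetCard α (k - 1))) (hh : MulAction.IsPretransitive G (Set.powersetCard α k)) : (k = Fintype.card α ∧ G = alternatingGroup α) ∨ (Fintype.card α = 5 ∧ k = 4 ∧ Nat.card G = 20) ∨ (Fintype.card α = 6 ∧ k = 5 ∧ Nat.card G = 120) ∨ (Fintype.card α = 9 ∧ k = 5 ∧ (Nat.card G = 504 ∨ Nat.card G = 1512)) := by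
  have hα := Nat.card_eq_fintype_card (α := α)
  obtain ⟨t, rfl⟩ : ∃ t, k = t + 2 := ⟨k - 2, by omega⟩
  change IsMultiplyPretransitive G α t at ht
  change ¬ IsMultiplyPretransitive G α (t + 1) at hnt
  change IsPretransitive G (Set.powersetCard α (t + 1)) at hh1
  have ex : ∀ j ≤ Fintype.card α, ∃ s : Finset α, s.card = j := fun j hj =>
    (Finset.exists_subset_card_eq (s := (Finset.univ : Finset α)) hj).imp fun _ h => h.2
  have htriv : ∀ s : Finset α, s.card = t + 1 → ∀ g : G, (∀ x ∈ s, g • x = x) → g = 1 := by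
    intro s hs g hg
    obtain ⟨s', hs'⟩ := ex _ hkn
    by_contra h1
    exact hnt (Cfsg.Agent.S0744.result G (k := t + 2) (by omega) hkn _ _
      (Finite.one_lt_card_iff_nontrivial.2 ((nontrivial_iff_ne_bot _).2 fun e =>
        h1 (mem_bot.1 (e.le ((mem_fixingSubgroup_iff G).2 hg)))))
      (fun u hu => card_fixing_eq hh1 hu hs) fun u hu => card_fixing_eq hh hu hs')
  rcases hkn.eq_or_lt with hn | hn
  · refine Or.inl ⟨hn, ?_⟩
    have h1 := IsMultiplyPretransitive.alternatingGroup_le α G (by rwa [hα, ← hn])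
    have : Nontrivial α := Fintype.one_lt_card_iff_nontrivial.1 (by omega)
    have : Fact (Nat.Prime 2) := ⟨Nat.prime_two⟩
    refine h1.eq_or_lt.elim Eq.symm fun h => (hnt ?_).elim
    have := (H7.isCoatom_of_index_prime alternatingGroup.index_eq_two).2 G h
    subst this
    exact multi_iff_fun.2 fun x y hx hy => by
      obtain ⟨g, hg⟩ := multi_iff_fun.1 (Perm.isMultiplyPretransitive α (t + 1)) x y hx hy
      exact ⟨⟨g, trivial⟩, hg⟩
  right
  have ht4 : t < 4 := by
    by_contra h
    exact hnt (multi_succ_of_homog (by omega) hn ht hh1)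
  obtain ⟨s, hs⟩ := ex t (by omega)
  set l := Nat.card (fixingSubgroup G (s : Set α)) with hl
  have hG : Nat.card G = (Fintype.card α).descFactorial t * l := by
    rw [← (fixingSubgroup G (s : Set α)).index_mul_card, IsMultiplyPretransitive.index_of_fixingSubgroup_eq
      _ (by simpa [hs]), Nat.descFactorial_eq_factorial_mul_choose, hα, Set.ncard_coe_finset, hs,
      mul_comm t.factorial]
  have horb : ∀ u : Finset α, u.card = t → ∀ x ∉ u,
      (orbit (fixingSubgroup G (u : Set α)) x).ncard = l := fun u hu x hx => by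
    rw [hl, card_fixing_eq (Set.powersetCard.isPretransitive_of_isMultiplyPretransitive G ht) hs hu,
      ← ncard_orbit_mul_card_stabilizer (G := fixingSubgroup G (u : Set α)) x,
      show stabilizer (fixingSubgroup G (u : Set α)) x = ⊥ from eq_bot_iff.2 fun g hg =>
        mem_bot.2 (Subtype.ext (htriv (insert x u) (by rw [Finset.card_insert_of_notMem hx, hu]) g
          (by simpa using ⟨hg, (mem_fixingSubgroup_iff G).1 g.2⟩))), card_bot, mul_one]
  have hinv : ∀ u : Finset α, ∀ g : fixingSubgroup G (u : Set α), ∀ x ∈ (u : Set α)ᶜ,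
      g • x ∈ (u : Set α)ᶜ := fun u g x hx h =>
    hx (smul_left_cancel g ((mem_fixingSubgroup_iff G).1 g.2 _ h) ▸ h)
  have hcc : ∀ u : Finset α, u.card = t → ((u : Set α)ᶜ).ncard = Fintype.card α - t := fun u hu => by
    have := Set.ncard_add_ncard_compl (u : Set α)
    rw [Set.ncard_coe_finset] at this
    omega
  obtain ⟨r, hr⟩ := dvd_ncard_of_orbits l _ (Set.toFinite _) (hinv s) fun x hx =>
    dvd_of_eq (horb s hs x hx).symm
  rw [hcc s hs] at hr
  have hr1 : r ≠ 1 := by
    rintro rfl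
    refine hnt (multi_succ_of_fix ht fun u hu a b ha hb => ?_)
    have := Set.eq_of_subset_of_ncard_le (s := orbit (fixingSubgroup G (u : Set α)) a)
      (t := (u : Set α)ᶜ) (by rintro _ ⟨g, rfl⟩; exact hinv u g a ha)
      (by rw [horb u hu a ha, hcc u hu]; omega)
    obtain ⟨g, hg⟩ := this.ge hb
    exact ⟨g, (mem_fixingSubgroup_iff G).1 g.2, hg⟩
  obtain ⟨s1, hs1⟩ := ex (t + 1) (by omega)
  obtain ⟨s2, hs2⟩ := ex (t + 2) hkn
  have hl0 : 0 < l := Nat.card_pos
  have hd0 : 0 < (Fintype.card α).descFactorial t := Nat.descFactorial_pos.2 (by omega)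
  have d1 : r ∣ (t + 1).factorial := by
    have := Nat.mul_dvd_mul_left (t + 1).factorial (Dvd.intro _ (card_eq_choose_mul hh1 hs1).symm)
    rw [← Nat.descFactorial_eq_factorial_mul_choose, hα, Nat.descFactorial_succ, hG, hr] at this
    refine Nat.dvd_of_mul_dvd_mul_left (Nat.mul_pos hd0 hl0) ?_
    convert this using 1 <;> ring
  obtain ⟨d, hd⟩ : ∃ d, Fintype.card α = t + 1 + d := ⟨Fintype.card α - (t + 1), by omega⟩
  have d2 : r * d ∣ (t + 2).factorial := by
    have := Nat.mul_dvd_mul_left (t + 2).factorial (Dvd.intro _ (card_eq_choose_mul hh hs2).symm)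
    rw [← Nat.descFactorial_eq_factorial_mul_choose, hα, Nat.descFactorial_succ,
      Nat.descFactorial_succ, hG, hr, show Fintype.card α - (t + 1) = d by omega] at this
    refine Nat.dvd_of_mul_dvd_mul_left (Nat.mul_pos hd0 hl0) ?_
    convert this using 1 <;> ring
  have d3 : d + 1 = l * r := by omega
  have d4 : r ∣ d + 1 := Dvd.intro_left _ d3.symm
  have d5 : 2 ≤ d := by omega
  have d6 := Nat.le_of_dvd (Nat.factorial_pos _) d1
  have d7 := Nat.le_of_dvd (Nat.factorial_pos _) ((Dvd.intro_left _ rfl).trans d2)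
  have fix2 := dvd_of_fix hh1 s Nat.prime_two
  have fix3 := dvd_of_fix hh1 s Nat.prime_three
  rw [← hl, hs, hG, hd] at fix2 fix3
  rw [hd] at hG
  clear_value l
  interval_cases t
  · omega
  · exfalso
    have key : ∀ d ≤ 6, ∀ r ≤ 2, 2 ≤ d → r ≠ 1 → r * d ∣ 6 → r ∣ d + 1 → d = 3 ∧ r = 2 := by
      decide +kernel
    obtain ⟨rfl, rfl⟩ := key d d7 r d6 d5 hr1 d2 d4
    obtain rfl : l = 2 := by omega
    exact hnt ((Cfsg.Agent.S0735.result G hh1 (by omega)).1 (by rw [hG]; decide))
  · have key : ∀ d ≤ 24, ∀ r ≤ 6, (2 ≤ d ∧ r ≠ 1 ∧ r ∣ 6 ∧ r * d ∣ 24 ∧ r ∣ d + 1) →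
        (d = 2 ∧ r = 3) ∨ (d = 3 ∧ r = 2) ∨ (d = 8 ∧ r = 3) := by decide +kernel
    rcases key d d7 r d6 ⟨d5, hr1, d1, d2, d4⟩ with ⟨rfl, rfl⟩ | ⟨rfl, rfl⟩ | ⟨rfl, rfl⟩
    · obtain rfl : l = 1 := by omega
      exact Or.inl ⟨hd, rfl, hG⟩
    · have e : l = 2 := by omega
      rw [e] at fix2
      exact absurd (fix2 dvd_rfl (by omega) (by omega)) (by decide)
    · have e : l = 3 := by omega
      rw [e] at fix3
      exact absurd (fix3 dvd_rfl (by omega) (by omega)) (by decide)
  · have key : ∀ d ≤ 120, ∀ r ≤ 24, (2 ≤ d ∧ r ≠ 1 ∧ r ∣ 24 ∧ r * d ∣ 120 ∧ r ∣ d + 1) →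
        (d = 2 ∧ r = 3) ∨ d = 3 ∨ (d = 5 ∧ (r = 2 ∨ r = 6)) ∨ (d = 5 ∧ r = 3) ∨ (d = 8 ∧ r = 3) ∨
        (d = 15 ∧ (r = 2 ∨ r = 4 ∨ r = 8)) ∨ (d = 20 ∧ r = 3) := by decide +kernel
    rcases key d d7 r d6 ⟨d5, hr1, d1, d2, d4⟩ with ⟨rfl, rfl⟩ | rfl | ⟨rfl, h⟩ | ⟨rfl, rfl⟩ |
      ⟨rfl, rfl⟩ | ⟨rfl, h⟩ | ⟨rfl, rfl⟩
    · have e : l = 1 := by omega
      rw [e] at hG
      exact Or.inr (Or.inl ⟨hd, rfl, hG⟩)
    · exfalso
      by_cases hs : Group.IsSolvable G
      · have := two_pow_of_solvable ht (by omega) hs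
        omega
      · have : IsPretransitive G α := is_one_pretransitive_iff.1
          (isMultiplyPretransitive_of_le (n := 3) (by omega) (by omega))
        have h0 : r ≠ 0 := by rintro rfl; omega
        have h1 : l ≤ 2 := by nlinarith [show 2 ≤ r by omega]
        norm_num [Nat.descFactorial] at hG
        have := (Cfsg.Agent.S0678.result hd G hs fun h => by
          have h2 := card_le_of_le h
          have : Nontrivial α := Fintype.one_lt_card_iff_nontrivial.1 (by omega)
          have h3 := two_mul_nat_card_alternatingGroup (α := α)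
          rw [Nat.card_perm, hα, hd] at h3
          change _ = 5040 at h3
          omega).1
        omega
    · refine Or.inr (Or.inr ⟨hd, rfl, ?_⟩)
      norm_num [Nat.descFactorial] at hG
      rcases h with rfl | rfl <;> omega
    · exfalso
      have e : l = 2 := by omega
      rw [e] at hG
      obtain ⟨d, n, h1, h2, h3⟩ := sylow_count_cycle G (p := 7) (by norm_num) (by omega)
        (by rw [hG]; decide) (by rw [hG]; decide) (by omega) htriv
      rw [hG] at h3
      have := Nat.le_of_dvd (by norm_num) h1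
      unfold Nat.ModEq at h2
      norm_num [Nat.descFactorial] at h3
      interval_cases d <;> omega
    · have e : l = 3 := by omega
      rw [e] at fix3
      exact absurd (fix3 dvd_rfl (by omega) (by omega)) (by decide +kernel)
    · exfalso
      have e : l = 8 ∨ l = 4 ∨ l = 2 := by rcases h with rfl | rfl | rfl <;> omega
      norm_num [Nat.descFactorial] at hG
      obtain ⟨d, n, h1, h2, h3⟩ := sylow_count_cycle G (p := 19) (by norm_num) (by omega)
        (by omega) (by omega) (by omega) htriv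
      rw [hG] at h3
      have := Nat.le_of_dvd (by norm_num) h1
      unfold Nat.ModEq at h2
      interval_cases d <;> omega
    · exfalso
      have e : l = 7 := by omega
      rw [e] at hG
      obtain ⟨d, n, h1, h2, h3⟩ := sylow_count_cycle G (p := 23) (by norm_num) (by omega)
        (by rw [hG]; decide) (by rw [hG]; decide) (by omega) htriv
      rw [hG] at h3
      have := Nat.le_of_dvd (by norm_num) h1
      unfold Nat.ModEq at h2
      norm_num [Nat.descFactorial] at h3
      interval_cases d <;> omega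

end Cfsg.Agent.S0745
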