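import Cfsg.Statements.S0746
import Cfsg.Agent.S0745
import Cfsg.Agent.S0736

set_option autoImplicit false
open Cfsg

namespace Cfsg.Agent.S0746

open MulAction

/-- The Livingstone–Wagner Theorem, first form: a `k`-homogeneous group of degree `n` with `4 ≤ 2k ≤ n` is `(k-1)`-transitive. -/
theorem result {α : Type*} [Fintype α] [DecidableEq α] (G : Subgroup (Equiv.Perm α)) {k : ℕ} (hk : 2 ≤ k) (hkn : 2 * k ≤ Fintype.card α) (hh : MulAction.IsPretransitive G (Set.powersetCard α k)) : MulAction.IsMultiplyPretransitive G α (k - 1) := by
  have h1 : ∀ i, i ≤ k → IsPretransitive G (Set.powersetCard α (k - i)) := by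
    intro i
    induction i with
    | zero => exact fun _ => hh
    | succ i ih =>
      intro hi
      have := ih (by omega)
      rw [show k - i = k - (i + 1) + 1 by omega] at this
      exact H25.homog_pred this (by rw [Nat.card_eq_fintype_card]; omega) fun q _ hq => by
        have := Nat.le_of_dvd (by omega) hq
        rw [Nat.card_eq_fintype_card]; omega
  have h2 : ∀ j, j ≤ k → IsPretransitive G (Set.powersetCard α j) := fun j hj => by
    have := h1 (k - j) (by omega)
    rwa [show k - (k - j) = j by omega] at this
  have h3 : ∀ j, j + 2 ≤ k → IsMultiplyPretransitive G α (j + 1) := by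
    intro j
    induction j with
    | zero =>
      intro _
      refine is_one_pretransitive_iff.2 ⟨fun a b => ?_⟩
      obtain ⟨g, hg⟩ := H25.homog_iff.1 (h2 1 (by omega)) {a} {b} rfl rfl
      exact ⟨g, by simpa using hg⟩
    | succ j ih =>
      intro hj
      by_contra h
      rcases Cfsg.Agent.S0745.result G (k := j + 3) (by omega) (by omega) (ih (by omega)) h
        (h2 _ (by omega)) (h2 _ (by omega)) with h | h | h | h <;> omega
  have := h3 (k - 2) (by omega)
  rwa [show k - 2 + 1 = k - 1 by omega] at this

end Cfsg.Agent.S0746
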