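import Cfsg.Statements.S0747
import Cfsg.Agent.H25.AltInd

set_option autoImplicit false
open scoped Pointwise
open Cfsg

namespace Cfsg.Agent.S0747

/-- In a `k`-transitive permutation group with `4 ≤ k < n`, some `(k+1)`-subset `Δ` has the property that every even permutation of `Δ` is induced by an element of the group stabilising `Δ`. -/
theorem result {α : Type*} [Fintype α] [DecidableEq α] (G : Subgroup (Equiv.Perm α)) {k : ℕ} (hk : 4 ≤ k) (hkn : k < Fintype.card α) (hG : MulAction.IsMultiplyPretransitive G α k) : ∃ Δ : Finset α, Δ.card = k + 1 ∧ ∀ σ : Equiv.Perm ↥Δ, σ ∈ alternatingGroup ↥Δ → ∃ g ∈ G, ∀ x : ↥Δ, g (x : α) = σ x := by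
  obtain ⟨x, hx, hA⟩ := H25.exists_altOn hk _ G rfl hkn hG
  refine ⟨Finset.univ.map ⟨x, hx⟩, by simp, fun σ hσ => ?_⟩
  let e : Fin (k + 1) ≃ ↥(Finset.univ.map ⟨x, hx⟩) := Equiv.ofBijective
    (fun i => ⟨x i, by simp⟩) ⟨fun i j h => hx (congrArg Subtype.val h), fun ⟨y, hy⟩ => by
      obtain ⟨i, -, rfl⟩ := Finset.mem_map.1 hy
      exact ⟨i, rfl⟩⟩
  obtain ⟨g, hg⟩ := hA (e.symm.permCongr σ) (by rw [Equiv.Perm.sign_permCongr]; exact hσ)
  refine ⟨g, g.2, fun y => ?_⟩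
  obtain ⟨i, rfl⟩ := e.surjective y
  exact (hg i).trans (congrArg Subtype.val (e.apply_symm_apply (σ (e i))))

end Cfsg.Agent.S0747
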