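import Cfsg.Statements.S0752
import Cfsg.Agent.H23.Classify

set_option autoImplicit false
open Cfsg

namespace Cfsg.Agent.S0752


/-- Classification of alternating forms: for an alternating bilinear form B on a finite-dimensional space over any field there is a basis indexed by (Fin m ⊕ Fin m) ⊕ Fin k such that B (e_i, f_j) = δ_ij, the e's are pairwise orthogonal, the f's are pairwise orthogonal, and the last k basis vectors are orthogonal to everything (they span the radical). -/
theorem result {F V : Type*} [Field F] [AddCommGroup V] [Module F V] [FiniteDimensional F V] (B : LinearMap.BilinForm F V) (hA : B.IsAlt) : ∃ (m k : ℕ) (b : Module.Basis ((Fin m ⊕ Fin m) ⊕ Fin k) F V), (∀ i j : Fin m, B (b (Sum.inl (Sum.inl i))) (b (Sum.inl (Sum.inr j))) = if i = j then 1 else 0) ∧ (∀ i j : Fin m, B (b (Sum.inl (Sum.inl i))) (b (Sum.inl (Sum.inl j))) = 0) ∧ (∀ i j : Fin m, B (b (Sum.inl (Sum.inr i))) (b (Sum.inl (Sum.inr j))) = 0) ∧ (∀ (j : Fin k) (v : V), B (b (Sum.inr j)) v = 0) := by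
  obtain ⟨U, hU⟩ := Submodule.exists_isCompl (LinearMap.ker B)
  have hA' : (B.restrict U).IsAlt := fun x => hA.self_eq_zero _
  have hnd : (H23.Form.ofAlt _ hA').Nondeg := by
    intro x hx
    have : (x : V) ∈ LinearMap.ker B := by
      rw [LinearMap.mem_ker]
      ext y
      obtain ⟨a, ha, b, hb, rfl⟩ := Submodule.mem_sup.1 (hU.sup_eq_top ▸ Submodule.mem_top (x := y))
      have h1 : B x a = 0 := hA.isRefl.eq_zero (by rw [LinearMap.mem_ker.1 ha]; rfl)
      have h2 : B x b = 0 := hx ⟨b, hb⟩
      simp [h1, h2]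
    exact Subtype.ext ((Submodule.disjoint_def.1 hU.disjoint) _ this x.2)
  obtain ⟨m, b, h1, h2, h3⟩ := H23.exists_symplectic_basis hA' hnd
  let c := Module.finBasis F (LinearMap.ker B)
  refine ⟨m, _, (b.prod c).map (Submodule.prodEquivOfIsCompl _ _ hU.symm), ?_, ?_, ?_, ?_⟩
  · intro i j; simpa using h1 i j
  · intro i j; simpa using h2 i j
  · intro i j; simpa using h3 i j
  · intro j v
    have := LinearMap.mem_ker.1 (c j).2
    simp [this]

end Cfsg.Agent.S0752
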