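import Cfsg.Statements.S0757
import Cfsg.Agent.H23.Disc

set_option autoImplicit false
open Cfsg

namespace Cfsg.Agent.S0757


/-- The two diagonal forms Σ x_i^2 and Σ_(i<n) x_i^2 + α x_n^2 on F^(n+1), with α a non-square and 2 ≠ 0 in F, are inequivalent quadratic forms (so over a finite field of odd order there are exactly two classes of non-singular symmetric bilinear forms in each dimension). -/
theorem result {F : Type*} [Field F] (h2 : (2 : F) ≠ 0) (n : ℕ) (α : F) (hα : ¬ IsSquare α) : ¬ (QuadraticMap.weightedSumSquares F (fun _ : Fin (n + 1) => (1 : F))).Equivalent (QuadraticMap.weightedSumSquares F (fun i : Fin (n + 1) => if i = Fin.last n then α else (1 : F))) := by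
  rintro ⟨e⟩
  have := invertibleOfNonzero h2
  have h := QuadraticForm.discr'_comp (Q := QuadraticMap.weightedSumSquares F (fun i : Fin (n + 1) => if i = Fin.last n then α else (1 : F))) e.toLinearEquiv.toLinearMap
  have h1 : (QuadraticMap.weightedSumSquares F (fun i : Fin (n + 1) => if i = Fin.last n then α else (1 : F))).comp e.toLinearEquiv.toLinearMap = QuadraticMap.weightedSumSquares F (fun _ : Fin (n + 1) => (1 : F)) := by
    ext x
    exact e.map_app x
  have key : ∀ w : Fin (n + 1) → F, QuadraticForm.discr' (QuadraticMap.weightedSumSquares F w) = ∏ i, w i := by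
    intro w
    rw [← Matrix.det_diagonal, QuadraticForm.discr']
    congr 1
    ext i j
    rw [QuadraticForm.toMatrix', LinearMap.toMatrix₂'_apply, QuadraticMap.associated_apply]
    by_cases hij : i = j
    · subst hij
      simp [Pi.single_apply, add_mul, mul_add, Finset.sum_add_distrib]
      field_simp
      ring
    · simp [Pi.single_apply, add_mul, mul_add, Finset.sum_add_distrib, hij, Ne.symm hij]
  rw [h1, key, key] at h
  simp at h
  apply hα
  have h0 : LinearMap.det e.toLinearEquiv.toLinearMap ≠ 0 := by
    intro h0
    simp [h0] at h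
  refine ⟨(LinearMap.det e.toLinearEquiv.toLinearMap)⁻¹, ?_⟩
  field_simp
  linear_combination -h

end Cfsg.Agent.S0757
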