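import Cfsg.Statements.S0758
import Cfsg.Agent.H23.Classify

set_option autoImplicit false
open Cfsg

namespace Cfsg.Agent.S0758


/-- For a finite field F of odd order q and a non-square α: the form x² + y² is isotropic iff q ≡ 1 mod 4, and the form x² + α y² is isotropic iff q ≡ 3 mod 4. -/
theorem result {F : Type*} [Field F] [Fintype F] (h2 : (2 : F) ≠ 0) (α : F) (hα : ¬ IsSquare α) : ((∃ x y : F, (x ≠ 0 ∨ y ≠ 0) ∧ x ^ 2 + y ^ 2 = 0) ↔ Fintype.card F % 4 = 1) ∧ ((∃ x y : F, (x ≠ 0 ∨ y ≠ 0) ∧ x ^ 2 + α * y ^ 2 = 0) ↔ Fintype.card F % 4 = 3) := by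
  have hodd := H23.odd_card_of_two_ne_zero h2
  have hα0 : α ≠ 0 := by rintro rfl; simp at hα
  have key : ∀ β : F, β ≠ 0 → ((∃ x y : F, (x ≠ 0 ∨ y ≠ 0) ∧ x ^ 2 + β * y ^ 2 = 0) ↔ IsSquare (-β)) := by
    intro β hβ
    constructor
    · rintro ⟨x, y, h1, h3⟩
      have hy : y ≠ 0 := by
        rintro rfl
        simp at h3 h1
        exact h1 h3
      refine ⟨x / y, ?_⟩
      field_simp
      linear_combination -h3
    · rintro ⟨r, hr⟩
      exact ⟨r, 1, Or.inr one_ne_zero, by linear_combination -hr⟩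
  constructor
  · have := key 1 one_ne_zero
    simp only [one_mul] at this
    rw [this, FiniteField.isSquare_neg_one_iff]
    omega
  · rw [key α hα0]
    have h1 := FiniteField.isSquare_neg_one_iff (F := F)
    constructor
    · intro h
      by_contra hc
      apply hα
      simpa using (h1.2 hc).mul h
    · intro h
      simpa using H23.isSquare_mul_of_not_isSquare (a := -1) (fun hc => h1.1 hc h) hα

end Cfsg.Agent.S0758
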