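import Cfsg.Statements.S0759
import Cfsg.Agent.H23.Disc

set_option autoImplicit false
open Cfsg

namespace Cfsg.Agent.S0759


/-- Type of the orthonormal form: over a finite field of odd order q and for m ≥ 1, the quadratic form Σ_(i<2m) x_i² on F^(2m) admits an m-dimensional subspace on which it vanishes identically if and only if it is not the case that q ≡ 3 (mod 4) and m is odd. -/
theorem result {F : Type*} [Field F] [Fintype F] (h2 : (2 : F) ≠ 0) (m : ℕ) (hm : 1 ≤ m) : (∃ W : Submodule F (Fin (2 * m) → F), Module.finrank F W = m ∧ ∀ w ∈ W, ∑ i, w i ^ 2 = 0) ↔ ¬ (Fintype.card F % 4 = 3 ∧ Odd m) := by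
  let Q : QuadraticForm F (Fin (2 * m) → F) := QuadraticMap.weightedSumSquares F (fun _ => (1 : F))
  have hQ : ∀ w, Q w = ∑ i, w i ^ 2 := fun w => by simp [Q, sq]
  let c := Pi.basisFun F (Fin (2 * m))
  let B : LinearMap.BilinForm F (Fin (2 * m) → F) := Matrix.toBilin c 1
  have hBc : B.toMatrix c = 1 := LinearMap.BilinForm.toMatrix_toBilin _ _
  have hB : ∀ x y, B x y = ∑ i, x i * y i := fun x y => by
    simp [B, c, Matrix.toBilin_apply, Matrix.one_apply]
  have hBs : B.IsSymm := ⟨fun x y => by simp [hB, mul_comm]⟩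
  have hBn : B.Nondegenerate := by
    rw [LinearMap.BilinForm.nondegenerate_iff_det_ne_zero c, hBc]; simp
  have key := H23.plus_iff_isSquare_disc h2 hBs hBn c (m := m) (by simp)
  rw [hBc, Matrix.det_one, mul_one] at key
  have h1 : (∃ W : Submodule F (Fin (2 * m) → F), Module.finrank F W = m ∧ ∀ w ∈ W, ∑ i, w i ^ 2 = 0) ↔ (∃ X : Submodule F (Fin (2 * m) → F), Module.finrank F X = m ∧ ∀ x ∈ X, ∀ y ∈ X, B x y = 0) := by
    refine exists_congr fun W => and_congr_right fun _ => ⟨fun h x hx y hy => ?_, fun h w hw => ?_⟩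
    · have h3 := h _ (W.add_mem hx hy)
      have h4 := h _ hx
      have h5 := h _ hy
      simp only [Pi.add_apply, add_sq, Finset.sum_add_distrib, h4, h5, mul_assoc,
        ← Finset.mul_sum] at h3
      rw [hB]
      simpa [h2] using h3
    · simpa [hB, sq] using h w hw w hw
  rw [h1, key]
  rcases Nat.even_or_odd m with hm | hm
  · simp [hm.neg_one_pow, Nat.not_odd_iff_even.2 hm]
  · simp [hm.neg_one_pow, hm, FiniteField.isSquare_neg_one_iff]

end Cfsg.Agent.S0759
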