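import Cfsg.Statements.S0760
import Cfsg.Agent.H23.Hyperbolic

set_option autoImplicit false
open Cfsg

namespace Cfsg.Agent.S0760


/-- Witt index is well defined: if Q is a quadratic form on a finite-dimensional space V over a finite field with non-degenerate polar form, and W₁, W₂ are subspaces on which Q vanishes that are maximal with this property, then W₁ and W₂ have the same dimension, and twice this dimension is at most dim V. -/
theorem result {F V : Type*} [Field F] [Finite F] [AddCommGroup V] [Module F V] [FiniteDimensional F V] (Q : QuadraticForm F V) (hQ : (QuadraticMap.polarBilin Q).Nondegenerate) (W₁ W₂ : Submodule F V) (h₁ : ∀ w ∈ W₁, Q w = 0) (h₂ : ∀ w ∈ W₂, Q w = 0) (hmax₁ : ∀ W : Submodule F V, W₁ ≤ W → (∀ w ∈ W, Q w = 0) → W = W₁) (hmax₂ : ∀ W : Submodule F V, W₂ ≤ W → (∀ w ∈ W, Q w = 0) → W = W₂) : Module.finrank F W₁ = Module.finrank F W₂ ∧ 2 * Module.finrank F W₁ ≤ Module.finrank F V := by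
  have h := H23.Form.ofQuad_nondeg hQ
  have key : ∀ W₁ W₂ : Submodule F V, (∀ w ∈ W₁, Q w = 0) → (∀ w ∈ W₂, Q w = 0) →
      (∀ W : Submodule F V, W₁ ≤ W → (∀ w ∈ W, Q w = 0) → W = W₁) →
      Module.finrank F W₁ ≤ Module.finrank F W₂ → Module.finrank F W₁ = Module.finrank F W₂ := by
    intro W₁ W₂ h₁ h₂ hmax hle
    obtain ⟨g, hg, h3⟩ := h.exists_map_le (H23.Form.totSing_ofQuad.2 h₁)
      (H23.Form.totSing_ofQuad.2 h₂) hle
    have h4 := hmax (W₂.map g⁻¹.toLinearMap) (fun w hw => ⟨g w, h3 ⟨w, hw, rfl⟩, by simp⟩)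
      (H23.Form.totSing_ofQuad.1 ((H23.Form.totSing_ofQuad.2 h₂).map (Subgroup.inv_mem _ hg)))
    rw [← h4, LinearEquiv.finrank_map_eq]
  refine ⟨?_, h.two_mul_finrank_le (H23.Form.totSing_ofQuad.2 h₁)⟩
  rcases le_total (Module.finrank F W₁) (Module.finrank F W₂) with hle | hle
  · exact key W₁ W₂ h₁ h₂ hmax₁ hle
  · exact (key W₂ W₁ h₂ h₁ hmax₂ hle).symm

end Cfsg.Agent.S0760
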