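import Cfsg.Statements.S0763
import Cfsg.Agent.H23.Hyperbolic

set_option autoImplicit false
open Cfsg

namespace Cfsg.Agent.S0763


/-- Binary quadratic forms in characteristic two over a finite field: if Q is a quadratic form on a 2-dimensional space whose polar form is non-degenerate, then either there are vectors v, w with Q v = Q w = 0 and polar value 1 (Q is xy in these coordinates), or there are v, w and μ with Q v = 1, Q w = μ, polar value 1 and x² + x + μ without roots in F (Q is x² + xy + μy²). -/
theorem result {F V : Type*} [Field F] [Finite F] [CharP F 2] [AddCommGroup V] [Module F V] (Q : QuadraticForm F V) (h2 : Module.finrank F V = 2) (hQ : (QuadraticMap.polarBilin Q).Nondegenerate) : (∃ v w : V, LinearIndependent F ![v, w] ∧ Q v = 0 ∧ Q w = 0 ∧ QuadraticMap.polar Q v w = 1) ∨ (∃ (v w : V) (μ : F), LinearIndependent F ![v, w] ∧ (∀ x : F, x ^ 2 + x + μ ≠ 0) ∧ Q v = 1 ∧ Q w = μ ∧ QuadraticMap.polar Q v w = 1) := by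
  have : FiniteDimensional F V := Module.finite_of_finrank_eq_succ h2
  have h := H23.Form.ofQuad_nondeg hQ
  have hself : ∀ v, QuadraticMap.polar Q v v = 0 := fun v => by
    simp [CharTwo.two_eq_zero]
  have hli : ∀ v w : V, QuadraticMap.polar Q v w = 1 → LinearIndependent F ![v, w] := by
    intro v w hvw
    refine H23.Form.linearIndependent_of_dual (Φ := H23.Form.ofQuad Q) (w := ![w, v]) ?_ ?_
    · intro i j; fin_cases i <;> fin_cases j <;> simp [CharTwo.two_eq_zero]
    · intro i; fin_cases i <;> simp [hvw, QuadraticMap.polar_comm Q w v]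
  by_cases hs : ∃ v : V, v ≠ 0 ∧ Q v = 0
  · obtain ⟨v, hv0, hv⟩ := hs
    obtain ⟨w, -, h3, h4, -⟩ := h.exists_partner (Z := ⊥) (x := v) (by simpa) (hself v) hv (by simp)
    exact Or.inl ⟨v, w, hli v w h4, hv, h3, h4⟩
  · push Not at hs
    have : Nontrivial V := Module.nontrivial_of_finrank_pos (R := F) (by omega)
    obtain ⟨u, hu⟩ := exists_ne (0 : V)
    obtain ⟨c, hc⟩ := FiniteField.isSquare_of_char_two (F := F) (ringChar.eq F 2) (Q u)⁻¹
    have hv : Q (c • u) = 1 := by
      rw [QuadraticMap.map_smul, ← hc, smul_eq_mul, inv_mul_cancel₀ (hs u hu)]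
    have hv0 : c • u ≠ 0 := by intro h0; simp [h0] at hv
    obtain ⟨w, hw⟩ := h.exists_ne hv0
    have hw' : QuadraticMap.polar Q (c • u) w = 1 := hw
    refine Or.inr ⟨c • u, w, Q w, hli _ _ hw', fun x hx => ?_, hv, rfl, hw'⟩
    refine hs (x • c • u + w) (fun h0 => ?_) ?_
    · have := congrArg (QuadraticMap.polar Q (c • u)) h0
      rw [QuadraticMap.polar_add_right, QuadraticMap.polar_smul_right, hself, hw'] at this
      simp at this
    · rw [QuadraticMap.map_add Q, QuadraticMap.map_smul, QuadraticMap.polar_smul_left, hv, hw']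
      simp only [smul_eq_mul]
      linear_combination hx

end Cfsg.Agent.S0763
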