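import Cfsg.Statements.S0766
import Cfsg.Agent.H23.SpGen

set_option autoImplicit false
open Cfsg

namespace Cfsg.Agent.S0766


/-- The subgroup generated by the symplectic transvections acts transitively on ordered pairs (u, v) with f(u, v) = 1. -/
theorem result {F : Type*} [Field F] (m : ℕ) (u v u' v' : Fin m ⊕ Fin m → F) (h : Cfsg.sympForm m F u v = 1) (h' : Cfsg.sympForm m F u' v' = 1) : ∃ A ∈ Subgroup.closure {A : Matrix.symplecticGroup (Fin m) F | ∃ (w : Fin m ⊕ Fin m → F) (c : F), (A : Matrix (Fin m ⊕ Fin m) (Fin m ⊕ Fin m) F) = Cfsg.sympTransvection m w c}, (A : Matrix (Fin m ⊕ Fin m) (Fin m ⊕ Fin m) F).mulVec u = u' ∧ (A : Matrix (Fin m ⊕ Fin m) (Fin m ⊕ Fin m) F).mulVec v = v' := by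
  have hli : ∀ u v : Fin m ⊕ Fin m → F, Cfsg.sympForm m F u v = 1 → LinearIndependent F ![u, v] := by
    intro u v h
    refine H23.Form.linearIndependent_of_dual (Φ := H23.spForm m F) (w := ![v, u]) ?_ ?_
    · intro i j; fin_cases i <;> fin_cases j <;> simp [H23.sympForm_self]
    · intro i; fin_cases i <;> simp [h, H23.sympForm_comm m v u]
  obtain ⟨g, hg, h1⟩ := (H23.spForm_nondeg m).witt_fin (hli u v h) (hli u' v' h') (by
    intro i j; fin_cases i <;> fin_cases j <;>
      simp [H23.sympForm_self, h, h', H23.sympForm_comm m v u, H23.sympForm_comm m v' u'])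
    (by simp)
  obtain ⟨A, rfl⟩ := H23.exists_matE_sp_eq hg
  exact ⟨A, by rw [H23.sp_closure_transvections]; trivial, h1 0, h1 1⟩

end Cfsg.Agent.S0766
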