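import Cfsg.Statements.S0767
import Cfsg.Agent.H23.Mat

set_option autoImplicit false
open Cfsg

namespace Cfsg.Agent.S0767


/-- The root group of a point: T_v(c) T_v(d) = T_v(c + d), and for A in the symplectic group with A v = a v, the conjugate A T_v(c) A⁻¹ is again some T_v(d). -/
theorem result {F : Type*} [Field F] (m : ℕ) (v : Fin m ⊕ Fin m → F) : (∀ c d : F, Cfsg.sympTransvection m v c * Cfsg.sympTransvection m v d = Cfsg.sympTransvection m v (c + d)) ∧ ∀ (A : Matrix (Fin m ⊕ Fin m) (Fin m ⊕ Fin m) F) (a : F), A ∈ Matrix.symplecticGroup (Fin m) F → A.mulVec v = a • v → ∀ c : F, ∃ d : F, A * Cfsg.sympTransvection m v c * A⁻¹ = Cfsg.sympTransvection m v d := by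
  refine ⟨fun c d => H23.matrix_ext_mulVec fun x => ?_, fun A a hA hv c => ⟨a * a * c, ?_⟩⟩
  · rw [← Matrix.mulVec_mulVec]
    simp only [H23.sympTransvection_mulVec, ← H23.spForm_B, map_add, LinearMap.add_apply,
      H23.Form.B_smul_left]
    simp only [H23.spForm_B, H23.sympForm_self]
    module
  · have hu := SymplecticGroup.symplectic_det hA
    have key : A * Cfsg.sympTransvection m v c = Cfsg.sympTransvection m v (a * a * c) * A := by
      refine H23.matrix_ext_mulVec fun x => ?_
      rw [← Matrix.mulVec_mulVec, ← Matrix.mulVec_mulVec]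
      simp only [H23.sympTransvection_mulVec, Matrix.mulVec_add, Matrix.mulVec_smul, hv]
      rw [← H23.mem_symplecticGroup_iff.1 hA x v, hv, ← H23.spForm_B, ← H23.spForm_B, map_smul]
      simp only [smul_eq_mul, smul_smul]
      congr 2
      ring
    rw [key, Matrix.mul_nonsing_inv_cancel_right _ _ hu]

end Cfsg.Agent.S0767
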