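import Cfsg.Statements.S0768
import Cfsg.Agent.H23.SpGen

set_option autoImplicit false
open scoped LinearAlgebra.Projectivization
open Cfsg

namespace Cfsg.Agent.S0768


/-- Primitivity: for m ≥ 1 and F finite, the symplectic group of the form sympForm (as a subgroup of the general linear group) acts primitively on the projective space of F^(2m). -/
theorem result {F : Type*} [Field F] [Finite F] (m : ℕ) (hm : 1 ≤ m) : MulAction.IsPreprimitive ↥(Cfsg.spGL m F) (ℙ F (Fin m ⊕ Fin m → F)) := by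
  have hnd := H23.spForm_nondeg (F := F) m
  have hA : ∀ v, (H23.spForm m F).B v v = 0 := fun v => by simp [H23.sympForm_self]
  have lift : ∀ g ∈ (H23.spForm m F).O, ∃ A : Cfsg.spGL m F, ∀ v (hv : v ≠ 0) w (hw : w ≠ 0),
      g v = w → A • Projectivization.mk F v hv = Projectivization.mk F w hw := by
    intro g hg
    refine ⟨⟨(H23.glE _ F).symm g, H23.mem_spGL_iff.2 (by simpa using hg)⟩, ?_⟩
    rintro v hv w hw rfl
    refine (Projectivization.smul_mk ((H23.glE _ F).symm g) hv).trans ?_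
    congr 1
    exact H23.glE_symm_mulVec g v
  have htr : MulAction.IsPretransitive ↥(Cfsg.spGL m F) (ℙ F (Fin m ⊕ Fin m → F)) := by
    constructor
    intro x y
    induction x using Projectivization.ind with | h x hx => ?_
    induction y using Projectivization.ind with | h y hy => ?_
    obtain ⟨g, hg, h⟩ := hnd.witt_one hx hy (by rw [hA, hA]) rfl
    obtain ⟨A, hA⟩ := lift g hg
    exact ⟨A, hA _ _ _ _ h⟩
  refine { htr with isTrivialBlock_of_isBlock := fun {B} hB => ?_ }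
  rw [MulAction.isBlock_iff_smul_eq_of_mem] at hB
  by_cases hs : B.Subsingleton
  · exact Or.inl hs
  right
  let S : Set (Fin m ⊕ Fin m → F) := {v | ∃ hv : v ≠ 0, Projectivization.mk F v hv ∈ B}
  have hS : ∀ x ∈ S, ∀ y ∈ S, ∀ z, y ∉ F ∙ x → z ∉ F ∙ x →
      (H23.spForm m F).B y x = (H23.spForm m F).B z x → z ∈ S := by
    rintro x ⟨hx, hxB⟩ y ⟨hy, hyB⟩ z hy' hz' h
    have hz : z ≠ 0 := by rintro rfl; simp at hz'
    obtain ⟨g, hg, h1, h2⟩ := hnd.exists_step hy' hz' (fun v hv => by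
      obtain ⟨c, rfl⟩ := Submodule.mem_span_singleton.1 hv
      rw [map_smul, map_smul, h]) (by rw [hA, hA]) rfl
    obtain ⟨A, hA⟩ := lift g hg
    have h3 := hB (g := A) hxB (by
      rwa [hA x hx x hx (h2 x (Submodule.mem_span_singleton_self x))])
    refine ⟨hz, ?_⟩
    rw [← h3, ← hA y hy z hz h1]
    exact Set.smul_mem_smul_set hyB
  have hsm : ∀ x ∈ S, ∀ c : F, c ≠ 0 → c • x ∈ S := by
    rintro x ⟨hx, hxB⟩ c hc
    refine ⟨smul_ne_zero hc hx, ?_⟩
    convert hxB using 1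
    exact (Projectivization.mk_eq_mk_iff' F _ _ _ _).2 ⟨c, rfl⟩
  have hne : ∀ x y : Fin m ⊕ Fin m → F, (H23.spForm m F).B y x ≠ 0 → y ∉ F ∙ x := by
    intro x y h hy
    obtain ⟨c, rfl⟩ := Submodule.mem_span_singleton.1 hy
    exact h (by rw [H23.Form.B_smul_left, hA, mul_zero])
  have h1 : ∀ x ∈ S, ∀ y ∈ S, (H23.spForm m F).B y x ≠ 0 → ∀ z, (H23.spForm m F).B z x ≠ 0 →
      z ∈ S := by
    intro x hx y hy hxy z hz
    refine hS x hx _ (hsm y hy ((H23.spForm m F).B z x / (H23.spForm m F).B y x)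
      (div_ne_zero hz hxy)) z (hne _ _ ?_) (hne _ _ hz) ?_
    · rw [H23.Form.B_smul_left]; simpa [-H23.spForm_B, hxy] using hz
    · rw [H23.Form.B_smul_left]; simp [-H23.spForm_B, hxy]
  have h2 : ∀ x ∈ S, ∀ y ∈ S, (H23.spForm m F).B y x ≠ 0 → ∀ z, z ≠ 0 → z ∈ S := by
    intro x hx y hy hxy z hz
    obtain ⟨t, -, ht1, ht2⟩ := hnd.exists_perp_ne_ne (H := ⊥) (x := x) (y := z)
      (by simpa using hx.1) (by simpa using hz)
    exact h1 t (h1 x hx y hy hxy t ht1) x hx
      (fun h => ht1 ((H23.spForm m F).B_eq_zero_symm h)) z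
      (fun h => ht2 ((H23.spForm m F).B_eq_zero_symm h))
  rw [Set.not_subsingleton_iff] at hs
  obtain ⟨x, hx, y, hy, hxy⟩ := hs
  induction x using Projectivization.ind with | h x hx0 => ?_
  induction y using Projectivization.ind with | h y hy0 => ?_
  have hyx : y ∉ F ∙ x := by
    intro h
    obtain ⟨c, rfl⟩ := Submodule.mem_span_singleton.1 h
    exact hxy ((Projectivization.mk_eq_mk_iff' F _ _ _ _).2 ⟨c, rfl⟩).symm
  have h3 : ∀ z, z ≠ 0 → z ∈ S := by
    by_cases h : (H23.spForm m F).B y x = 0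
    · obtain ⟨w, hw1, hw2⟩ := hnd.exists_perp_eq_one hyx
      by_cases hwx : w ∈ F ∙ x
      · obtain ⟨c, rfl⟩ := Submodule.mem_span_singleton.1 hwx
        rw [H23.Form.B_smul_left, (H23.spForm m F).B_eq_zero_symm h] at hw2
        simp at hw2
      have hw : w ∈ S := hS x ⟨hx0, hx⟩ y ⟨hy0, hy⟩ w hyx hwx
        (by rw [h, hw1 x (Submodule.mem_span_singleton_self x)])
      exact h2 y ⟨hy0, hy⟩ w hw (by rw [hw2]; exact one_ne_zero)
    · exact h2 x ⟨hx0, hx⟩ y ⟨hy0, hy⟩ h
  rw [Set.eq_univ_iff_forall]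
  intro z
  induction z using Projectivization.ind with | h z hz0 => ?_
  exact (h3 z hz0).2

end Cfsg.Agent.S0768
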