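import Cfsg.Statements.S0770
import Cfsg.Agent.H23.Mono

set_option autoImplicit false
open Cfsg

namespace Cfsg.Agent.S0770


/-- For a field with at least 3 elements, an invertible matrix normalises the subgroup of invertible diagonal matrices of GL_n if and only if it is monomial (exactly one non-zero entry in each row). -/
theorem result {F : Type*} [Field F] (hF : ∃ a : F, a ≠ 0 ∧ a ≠ 1) (n : ℕ) (g : Matrix.GeneralLinearGroup (Fin n) F) : g ∈ Subgroup.normalizer ((Units.map (Matrix.diagonalRingHom (Fin n) F).toMonoidHom).range : Subgroup (Matrix.GeneralLinearGroup (Fin n) F)) ↔ ∀ i : Fin n, ∃! j : Fin n, (g : Matrix (Fin n) (Fin n) F) i j ≠ 0 := by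
  obtain ⟨a, ha0, ha1⟩ := hF
  have hmem : ∀ x : Matrix.GeneralLinearGroup (Fin n) F,
      x ∈ (Units.map (Matrix.diagonalRingHom (Fin n) F).toMonoidHom).range ↔
        ∃ d, x.1 = Matrix.diagonal d := fun x => by
    constructor
    · rintro ⟨d, rfl⟩; exact ⟨d.1, rfl⟩
    · rintro ⟨d, hd⟩
      have h1 := x.det_ne_zero
      rw [hd, Matrix.det_diagonal, Finset.prod_ne_zero_iff] at h1
      exact ⟨⟨d, d⁻¹, funext fun i => mul_inv_cancel₀ (h1 i (Finset.mem_univ _)),
        funext fun i => inv_mul_cancel₀ (h1 i (Finset.mem_univ _))⟩, Units.ext hd.symm⟩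
  have hc : ∀ (x : Matrix.GeneralLinearGroup (Fin n) F) (B : Matrix (Fin n) (Fin n) F),
      (g * x * g⁻¹).1 = B ↔ g.1 * x.1 = B * g.1 := fun x B => by
    rw [Units.val_mul, Units.mul_inv_eq_iff_eq_mul, Units.val_mul]
  rw [Subgroup.mem_normalizer_iff]
  simp only [hmem, hc]
  constructor
  · intro h i
    obtain ⟨j, hj⟩ := H23.exists_ne_zero_row g.mul_inv i
    refine ⟨j, hj, fun k hk => ?_⟩
    by_contra hkj
    obtain ⟨d, hd⟩ := (h (Matrix.GeneralLinearGroup.mkOfDetNeZero
      (Matrix.diagonal fun l => if l = j then a else 1) (by simp [ha0]))).1 ⟨_, rfl⟩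
    have h1 := H23.eq_of_mul_diagonal hd hj
    have h2 := H23.eq_of_mul_diagonal hd hk
    simp only [if_true, if_neg hkj] at h1 h2
    exact ha1 (h1.trans h2.symm)
  · intro h x
    obtain ⟨π, hπ⟩ := H23.exists_perm_of_mono g.inv_mul h
    constructor
    · rintro ⟨d, hd⟩
      exact ⟨_, hd ▸ H23.mul_diagonal_of_mono hπ d⟩
    · rintro ⟨d, hd⟩
      refine ⟨d ∘ π.symm, (Units.mul_right_inj g).1 ?_⟩
      rw [hd, H23.mul_diagonal_of_mono hπ]
      congr 2
      ext; simp

end Cfsg.Agent.S0770
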