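import Cfsg.Statements.S0771
import Cfsg.Agent.H23.Tri

set_option autoImplicit false
open Cfsg

namespace Cfsg.Agent.S0771


/-- Maximal parabolic of GL_n(q): the stabiliser of the coordinate subspace spanned by the first k basis vectors has order q^(k(n-k)) · |GL_k(q)| · |GL_(n-k)(q)| (unipotent radical of order q^(k(n-k)) and Levi complement GL_k × GL_(n-k)). -/
theorem result {F : Type*} [Field F] [Fintype F] {q : ℕ} (hF : Fintype.card F = q) (n k : ℕ) (hk : k ≤ n) : Nat.card ↥(Cfsg.stabilizing (Cfsg.glToMat (Fin n) F) {v : Fin n → F | ∀ i : Fin n, k ≤ (i : ℕ) → v i = 0}) = q ^ (k * (n - k)) * (∏ i : Fin k, (q ^ k - q ^ (i : ℕ))) * ∏ i : Fin (n - k), (q ^ (n - k) - q ^ (i : ℕ)) := by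
  subst hF
  have h1 : Cfsg.stabilizing (Cfsg.glToMat (Fin n) F) {v : Fin n → F | ∀ i : Fin n, k ≤ (i : ℕ) → v i = 0} =
      (H23.stabL (H23.coordSub F fun i : Fin n => k ≤ (i : ℕ))).comap (H23.glE (Fin n) F).toMonoidHom :=
    Subgroup.ext fun g => H23.mem_stabilizing_gl_iff (W := H23.coordSub F fun i : Fin n => k ≤ (i : ℕ))
  rw [h1, H23.card_comap_of_injective (H23.glE (Fin n) F).injective,
    MonoidHom.range_eq_top.2 (H23.glE (Fin n) F).surjective, top_inf_eq]
  exact H23.card_stabL (H23.finrank_coordSub_le hk) (by simp; omega)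

end Cfsg.Agent.S0771
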