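import Cfsg.Statements.S0772
import Cfsg.Agent.H23.Tri

set_option autoImplicit false
open Cfsg

namespace Cfsg.Agent.S0772


/-- Maximal parabolics are maximal: over a finite field, for 0 < k < n the stabiliser in GL_n of the span of the first k coordinate vectors is a maximal proper subgroup. -/
theorem result {F : Type*} [Field F] [Finite F] (n k : ℕ) (hk0 : 0 < k) (hkn : k < n) : IsCoatom (Cfsg.stabilizing (Cfsg.glToMat (Fin n) F) {v : Fin n → F | ∀ i : Fin n, k ≤ (i : ℕ) → v i = 0}) := by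
  let W := H23.coordSub F fun i : Fin n => k ≤ (i : ℕ)
  have hW : Module.finrank F W = k := H23.finrank_coordSub_le hkn.le
  have h0 : W ≠ ⊥ := by intro h; rw [h] at hW; simp at hW; omega
  have h1 : W ≠ ⊤ := by intro h; rw [h] at hW; simp at hW; omega
  refine H23.isCoatom_of_isMaximalIn (H23.isMaximalIn_of_iff (H23.glE (Fin n) F) (K' := ⊤)
    (M' := H23.stabL W) ?_ (by simp) (fun g => H23.mem_stabilizing_gl_iff (W := W)))
  obtain ⟨g, -, hg⟩ := H23.exists_SLv_not_mem_stabL h0 h1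
  refine H23.isMaximalIn_of le_top ⟨g, trivial, hg⟩ fun H h2 _ g hg hg' x _ => ?_
  have h3 := H23.SLv_le_of_stabL (inf_le_left.trans h2) hg hg'
  obtain ⟨y, h4, h5⟩ := H23.exists_det_eq_fix h1 (H23.det_equiv_ne_zero x)
  rw [show x = x * y⁻¹ * y by group]
  refine H.mul_mem (h3 (H23.mem_SLv.2 ?_)) (h2 (H23.fixL_le_stabL W h5))
  rw [H23.Form.det_mul_equiv, H23.Form.det_inv_equiv, h4, mul_inv_cancel₀ (H23.det_equiv_ne_zero x)]

end Cfsg.Agent.S0772
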