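import Cfsg.Statements.S0773
import Cfsg.Agent.H23.Tri

set_option autoImplicit false
open Cfsg

namespace Cfsg.Agent.S0773

open Matrix in
def theta {F : Type*} [Field F] (n : ℕ) (g : GL (Fin n) F) : GL (Fin n) F :=
  ⟨(g⁻¹).1ᵀ.submatrix Fin.revPerm Fin.revPerm, g.1ᵀ.submatrix Fin.revPerm Fin.revPerm, by
    rw [submatrix_mul_equiv, ← transpose_mul]; simp, by
    rw [submatrix_mul_equiv, ← transpose_mul]; simp⟩

open Matrix in
def thetaE {F : Type*} [Field F] (n : ℕ) : GL (Fin n) F ≃* GL (Fin n) F where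
  toFun := theta n
  invFun := theta n
  left_inv g := Units.ext (by ext i j; simp [theta])
  right_inv g := Units.ext (by ext i j; simp [theta])
  map_mul' g h := Units.ext (by
    simp only [theta, Units.val_mul, _root_.mul_inv_rev, submatrix_mul_equiv, transpose_mul])

theorem mem_iff {F : Type*} [Field F] (n k : ℕ) (g : Matrix.GeneralLinearGroup (Fin n) F) :
    g ∈ Cfsg.stabilizing (Cfsg.glToMat (Fin n) F) {v : Fin n → F | ∀ i : Fin n, k ≤ (i : ℕ) → v i = 0} ↔
      ∀ i j : Fin n, k ≤ (i : ℕ) → ¬ k ≤ (j : ℕ) → g.1 i j = 0 :=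
  (H23.mem_stabilizing_submodule_of_le _ (H23.coordSub F fun i : Fin n => k ≤ (i : ℕ)) g).trans
    H23.mulVec_mem_coordSub_iff

theorem theta_mem {F : Type*} [Field F] {n k l : ℕ} (h : k + l = n) {g : Matrix.GeneralLinearGroup (Fin n) F}
    (hg : g ∈ Cfsg.stabilizing (Cfsg.glToMat (Fin n) F) {v : Fin n → F | ∀ i : Fin n, k ≤ (i : ℕ) → v i = 0}) :
    theta n g ∈ Cfsg.stabilizing (Cfsg.glToMat (Fin n) F) {v : Fin n → F | ∀ i : Fin n, l ≤ (i : ℕ) → v i = 0} := by
  have h1 := (mem_iff n k _).1 (inv_mem hg)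
  rw [mem_iff]
  intro i j hi hj
  exact h1 j.rev i.rev (by rw [Fin.val_rev]; omega) (by rw [Fin.val_rev]; omega)

theorem le_of_stabL_le {F V : Type*} [Field F] [AddCommGroup V] [Module F V] [FiniteDimensional F V]
    {W U : Submodule F V} (hU : U ≠ ⊥) (h : H23.stabL W ≤ H23.stabL U) : W ≤ U := by
  intro x hx
  by_contra hx'
  obtain ⟨w, hw, hw0⟩ := (Submodule.ne_bot_iff U).1 hU
  have : w ∉ F ∙ x := fun h => by
    obtain ⟨c, rfl⟩ := Submodule.mem_span_singleton.1 h
    have hc : c ≠ 0 := by rintro rfl; simp at hw0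
    exact hx' ((U.smul_mem_iff hc).1 hw)
  obtain ⟨φ, h2, h3⟩ := H23.exists_dual_pair this
  have h4 : H23.tv φ x h2 ∈ H23.stabL W :=
    H23.mem_stabL_of_le.2 fun y hy => W.add_mem hy (W.smul_mem _ hx)
  have := H23.apply_mem_of_mem_stabL (h h4) hw
  rw [H23.tv_apply, h3, one_smul] at this
  exact hx' ((U.add_mem_iff_right hw).1 this)


/-- The stabilisers in GL_n(F), F finite, of the coordinate subspaces of dimensions k and n − k are isomorphic groups, but when 2k ≠ n (and 0 < k < n) no element of GL_n conjugates one onto the other. -/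
theorem result {F : Type*} [Field F] [Finite F] (n k : ℕ) (hk0 : 0 < k) (hkn : k < n) (h2 : 2 * k ≠ n) : Nonempty (↥(Cfsg.stabilizing (Cfsg.glToMat (Fin n) F) {v : Fin n → F | ∀ i : Fin n, k ≤ (i : ℕ) → v i = 0}) ≃* ↥(Cfsg.stabilizing (Cfsg.glToMat (Fin n) F) {v : Fin n → F | ∀ i : Fin n, n - k ≤ (i : ℕ) → v i = 0})) ∧ ∀ g : Matrix.GeneralLinearGroup (Fin n) F, (Cfsg.stabilizing (Cfsg.glToMat (Fin n) F) {v : Fin n → F | ∀ i : Fin n, k ≤ (i : ℕ) → v i = 0}).map (MulAut.conj g).toMonoidHom ≠ Cfsg.stabilizing (Cfsg.glToMat (Fin n) F) {v : Fin n → F | ∀ i : Fin n, n - k ≤ (i : ℕ) → v i = 0} := by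
  refine ⟨⟨((thetaE n).subgroupMap _).trans (MulEquiv.subgroupCongr ?_)⟩, fun g hg => ?_⟩
  · ext g
    constructor
    · rintro ⟨g, hg, rfl⟩
      exact theta_mem (by omega) hg
    · exact fun hg => ⟨theta n g, theta_mem (by omega) hg, (thetaE n).left_inv g⟩
  · let W := H23.coordSub F fun i : Fin n => k ≤ (i : ℕ)
    let U := H23.coordSub F fun i : Fin n => n - k ≤ (i : ℕ)
    have hW : Module.finrank F W = k := H23.finrank_coordSub_le hkn.le
    have hU : Module.finrank F U = n - k := H23.finrank_coordSub_le (by omega)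
    let W' := W.map (H23.glE _ F g).toLinearMap
    have hW' : Module.finrank F W' = k := by rw [LinearEquiv.finrank_map_eq, hW]
    have key : H23.stabL W' = H23.stabL U := by
      ext x
      obtain ⟨x, rfl⟩ := (H23.glE _ F).surjective x
      rw [← H23.mem_stabilizing_gl_iff (W := U)]
      erw [← hg]
      rw [Subgroup.mem_map_equiv]
      erw [H23.mem_stabilizing_gl_iff (W := W)]
      simp only [H23.mem_stabL_of_le, MulAut.conj_symm_apply, map_mul, map_inv, W',
        Submodule.mem_map_equiv]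
      constructor
      · intro h u hu
        exact h (H23.glE _ F g u) (by rwa [LinearEquiv.symm_apply_apply])
      · intro h u hu
        simpa using h _ hu
    have h1 := Submodule.finrank_mono (le_of_stabL_le (by intro h; rw [h] at hU; simp at hU; omega) key.le)
    have h2 := Submodule.finrank_mono (le_of_stabL_le (by intro h; rw [h] at hW'; simp at hW'; omega) key.ge)
    omega

end Cfsg.Agent.S0773
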