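import Cfsg.Statements.S0774
import Cfsg.Agent.H23.Tri

set_option autoImplicit false
open Cfsg

namespace Cfsg.Agent.S0774


/-- Borel subgroup of the symplectic group: the elements of Sp_2m(q) stabilising each of the totally isotropic coordinate subspaces ⟨e_0, ..., e_k⟩ (k < m) form a subgroup of order q^(m²) (q − 1)^m. -/
theorem result {F : Type*} [Field F] [Fintype F] {q : ℕ} (hF : Fintype.card F = q) (m : ℕ) : Nat.card ↥(⨅ k : Fin m, Cfsg.stabilizing (Cfsg.spToMat m F) {v : Fin m ⊕ Fin m → F | (∀ i : Fin m, (k : ℕ) < (i : ℕ) → v (Sum.inl i) = 0) ∧ ∀ i : Fin m, v (Sum.inr i) = 0}) = q ^ (m ^ 2) * (q - 1) ^ m := by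
  subst hF
  have hΦ := H23.spForm_nondeg (F := F) m
  let W := H23.coordSub F fun i : Fin m ⊕ Fin m => i.isRight
  let U : Fin m → Submodule F (Fin m ⊕ Fin m → F) := fun k =>
    H23.coordSub F (Sum.elim (fun i : Fin m => (k : ℕ) < i) fun _ => True)
  have hUW : ∀ k, U k ≤ W := fun k v hv i hi => hv i (by cases i <;> simp_all)
  have hT : (H23.spForm m F).TotSing W := ⟨fun u hu v hv => by
    simp [H23.sympForm_eq, hu (Sum.inr _) rfl, hv (Sum.inr _) rfl], fun _ _ => rfl⟩
  let e : W ≃ₗ[F] (Fin m → F) :=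
    { toFun := fun v i => v.1 (Sum.inl i)
      map_add' := fun _ _ => rfl
      map_smul' := fun _ _ => rfl
      invFun := fun w => ⟨Sum.elim w 0, fun i hi => by cases i <;> simp_all⟩
      left_inv := fun v => Subtype.ext (funext fun i => by
        cases i
        · rfl
        · exact (v.2 _ rfl).symm)
      right_inv := fun w => rfl }
  have hW : Module.finrank F W = m := by rw [e.finrank_eq]; simp
  obtain ⟨D, -, hD, hD1, hD2⟩ := hΦ.exists_card_Fix_totSing hT hW (d := 0) (by simp; omega)
  let ρ : (H23.spForm m F).Stab W →* Matrix.GeneralLinearGroup (Fin m) F :=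
    ((H23.conjE e).trans (H23.glE _ F).symm).toMonoidHom.comp ((H23.spForm m F).resHom W)
  have hρ : Function.Surjective ρ :=
    ((H23.conjE e).trans (H23.glE _ F).symm).surjective.comp (hΦ.resHom_surjective hT)
  let B : Subgroup (Matrix.GeneralLinearGroup (Fin m) F) := ⨅ k : Fin m,
    Cfsg.stabilizing (Cfsg.glToMat _ F) (H23.coordSub F fun i : Fin m => (k : ℕ) < i)
  have hB : ∀ g, g ∈ B ↔ ∀ i j : Fin m, j < i → g.1 i j = 0 := fun g => by
    simp only [B, Subgroup.mem_iInf, H23.mem_stabilizing_submodule_of_le]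
    refine (forall_congr' fun k => H23.mulVec_mem_coordSub_iff).trans
      ⟨fun h i j hij => h j i j hij (lt_irrefl _), fun h k i j h1 h2 => h i j (by omega)⟩
  have h1 : (⨅ k : Fin m, Cfsg.stabilizing (Cfsg.spToMat m F) {v : Fin m ⊕ Fin m → F | (∀ i : Fin m, (k : ℕ) < (i : ℕ) → v (Sum.inl i) = 0) ∧ ∀ i : Fin m, v (Sum.inr i) = 0}) =
      ((B.comap ρ).map (Subgroup.subtype _)).comap (H23.spE m F).toMonoidHom := by
    ext g
    have h2 : ∀ k : Fin m, {v : Fin m ⊕ Fin m → F | (∀ i : Fin m, (k : ℕ) < (i : ℕ) → v (Sum.inl i) = 0) ∧ ∀ i : Fin m, v (Sum.inr i) = 0} = U k :=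
      fun k => by ext; simp [U, H23.coe_coordSub]
    simp only [h2, Subgroup.mem_iInf, H23.mem_stabilizing_submodule_of_le, Subgroup.mem_comap,
      Subgroup.mem_map, B]
    have h3 : ∀ (x : (H23.spForm m F).Stab W) (v : Fin m → F) (i : Fin m),
        (Cfsg.glToMat _ F (ρ x)).mulVec v i = x.1.1 (Sum.elim v 0) (Sum.inl i) := fun x v i =>
      congrFun (H23.glE_symm_mulVec _ v) i
    constructor
    · intro h
      refine ⟨⟨H23.spE m F g, H23.Form.mem_Stab_of_le.2 fun u hu => ?_⟩, fun k v hv i hi => ?_, rfl⟩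
      · rcases m with _ | m
        · exact fun i => isEmptyElim i
        · refine hUW (Fin.last m) (h _ u fun i hi => hu i ?_)
          rcases i with i | i
          · exact absurd hi (by simpa using Nat.lt_succ_iff.1 i.2)
          · rfl
      · rw [h3]
        exact h k _ (by rintro (j | j) hj; exacts [hv j hj, rfl]) (Sum.inl i) hi
    · rintro ⟨x, hx, hx'⟩ k v hv
      have h4 : ∀ w, (Cfsg.spToMat m F g).mulVec w = x.1.1 w := fun w => by
        rw [show x.1 = H23.spE m F g from hx']; rfl
      rw [h4]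
      rintro (i | i) hi
      · have := hx k (fun j => v (Sum.inl j)) (fun j hj => hv (Sum.inl j) hj) i hi
        rw [h3] at this
        convert this
        ext j
        rcases j with j | j
        · rfl
        · exact hv _ trivial
      · exact H23.Form.apply_mem_of_mem_Stab x.2 (hUW k hv) _ rfl
  have : Subsingleton D := Module.finrank_zero_iff.1 hD1
  rw [h1, H23.card_comap_of_injective (H23.spE m F).injective,
    MonoidHom.range_eq_top.2 (H23.spE m F).surjective, top_inf_eq, Subgroup.card_subtype,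
    H23.card_comap_of_surjective hρ,
    MonoidHom.ker_comp_of_injective _ _ ((H23.conjE e).trans (H23.glE _ F).symm).injective,
    H23.Form.card_ker_resHom, hD2, H22.tr_alt _ rfl rfl, H22.card_O_of_subsingleton,
    Nat.card_congr (Equiv.subtypeEquivRight hB), H23.card_upperTriangular]
  have e3 : m ^ 2 = 2 * (m * (m - 1) / 2) + m := by
    rw [Nat.mul_div_cancel' (Nat.even_mul_pred_self m).two_dvd]
    rcases m with _ | m
    · simp
    · simp; ring
  rw [e3]
  ring

end Cfsg.Agent.S0774
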