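import Cfsg.Statements.S0776
import Cfsg.Agent.H23.Iso

set_option autoImplicit false
open Cfsg

namespace Cfsg.Agent.S0776


/-- If W ≤ F^(2m) is a 2k-dimensional subspace on which the symplectic form is non-degenerate, then the stabiliser of W in Sp_2m(F) is isomorphic to Sp_2k(F) × Sp_(2m−2k)(F). -/
theorem result {F : Type*} [Field F] (m k : ℕ) (hk : k ≤ m) (W : Submodule F (Fin m ⊕ Fin m → F)) (hWk : Module.finrank F W = 2 * k) (hW : ∀ u ∈ W, (∀ v ∈ W, Cfsg.sympForm m F u v = 0) → u = 0) : Nonempty (↥(Cfsg.stabilizing (Cfsg.spToMat m F) (W : Set (Fin m ⊕ Fin m → F))) ≃* Matrix.symplecticGroup (Fin k) F × Matrix.symplecticGroup (Fin (m - k)) F) := by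
  have hΦ := H23.spForm_nondeg (F := F) m
  have h1 : ((H23.spForm m F).restrict W).Nondeg := fun x hx =>
    Subtype.ext (hW x x.2 fun v hv => by simpa using hx ⟨v, hv⟩)
  have h2 := (H23.Form.nondeg_restrict_iff _).1 h1
  obtain ⟨e1, h3, h4⟩ := H23.exists_equiv_spForm h1 rfl rfl hWk
  obtain ⟨e2, h5, h6⟩ := H23.exists_equiv_spForm (hΦ.nondeg_restrict_perp h2) rfl rfl (m := m - k)
    (by rw [hΦ.finrank_perp, hWk]; simp; omega)
  exact ⟨(H23.stabilizingEquiv (H23.spE m F) H23.spE_coe W).trans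
    ((H23.Form.stabEquivProd (hΦ.isCompl_perp h2)).trans (MulEquiv.prodCongr
      ((H23.spE k F).trans (H22.oCongr _ _ e1 h3 h4)).symm
      ((H23.spE (m - k) F).trans (H22.oCongr _ _ e2 h5 h6)).symm))⟩

end Cfsg.Agent.S0776
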