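import Cfsg.Statements.S0777
import Cfsg.Agent.H23.Mono

set_option autoImplicit false
open Cfsg

namespace Cfsg.Agent.S0777

open Matrix

variable {F : Type*} [Field F] {m : ℕ}

def eta (F : Type*) [Field F] {m : ℕ} : Fin m ⊕ Fin m → F := Sum.elim (fun _ => -1) fun _ => 1

theorem eta_swap (a : Fin m ⊕ Fin m) : eta F a.swap = -eta F a := by cases a <;> simp [eta]

theorem eta_sq (a : Fin m ⊕ Fin m) : eta F a * eta F a = 1 := by cases a <;> simp [eta]

theorem eta_ne (a : Fin m ⊕ Fin m) : eta F a ≠ 0 := by cases a <;> simp [eta]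

theorem J_apply (a b : Fin m ⊕ Fin m) : J (Fin m) F a b = if b = a.swap then eta F a else 0 := by
  cases a <;> cases b <;> simp [J, eta, one_apply, eq_comm, apply_ite]

def mono (π : Equiv.Perm (Fin m ⊕ Fin m)) (w : Fin m ⊕ Fin m → F) :
    Matrix (Fin m ⊕ Fin m) (Fin m ⊕ Fin m) F := of fun i j => if j = π i then w i else 0

theorem mono_mem {π : Equiv.Perm (Fin m ⊕ Fin m)} {w : Fin m ⊕ Fin m → F} :
    mono π w ∈ symplecticGroup (Fin m) F ↔
      ∀ a, π a.swap = (π a).swap ∧ w a * w a.swap * eta F (π a) = eta F a := by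
  rw [SymplecticGroup.mem_iff, ← Matrix.ext_iff]
  have : ∀ a b, (mono π w * J (Fin m) F * (mono π w)ᵀ) a b = w a * w b * J (Fin m) F (π a) (π b) := by
    intro a b
    simp [mono, mul_apply, -Fintype.sum_sum_type]
    ring
  simp only [this, J_apply]
  constructor
  · intro h a
    have h1 := h a a.swap
    rw [if_pos rfl] at h1
    split_ifs at h1 with h2
    · exact ⟨h2, h1⟩
    · exact absurd h1.symm (by simpa using eta_ne a)
  · intro h a b
    by_cases hb : b = a.swap
    · rw [hb, if_pos (h a).1, if_pos rfl, (h a).2]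
    · rw [if_neg hb, if_neg, mul_zero]
      rw [← (h a).1]
      exact fun h => hb (π.injective h)

theorem card_cent (m : ℕ) : Nat.card (Subgroup.centralizer
    {(Equiv.sumComm (Fin m) (Fin m) : Equiv.Perm (Fin m ⊕ Fin m))}) = 2 ^ m * m.factorial := by
  set s : Equiv.Perm (Fin m ⊕ Fin m) := Equiv.sumComm (Fin m) (Fin m)
  have h1 : s ^ 2 = 1 := by ext x; simp [s, sq]
  have h2 := Equiv.Perm.cycleType_of_pow_prime_eq_one h1
  have h3 : s.support = Finset.univ := by
    ext x; cases x <;> simp [s]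
  have h4 := s.sum_cycleType
  rw [h3, h2] at h4
  simp at h4
  rw [Equiv.Perm.nat_card_centralizer, h2, show s.cycleType.card = m by omega]
  rcases m with _ | m
  · simp
  · rw [Multiset.toFinset_replicate]; simp [show m + 1 + (m + 1) - (2 + m * 2) = 0 by omega, pow_succ']


/-- Weyl group of type C_m: for q ≥ 4 the diagonal matrices of Sp_2m(q) form a torus T ≅ (C_(q−1))^m (the elements stabilising every coordinate axis), and the normaliser of T in Sp_2m(q) has order 2^m · m! · (q − 1)^m. -/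
theorem result {F : Type*} [Field F] [Fintype F] {q : ℕ} (hF : Fintype.card F = q) (hq : 4 ≤ q) (m : ℕ) : Nat.card ↥(Subgroup.normalizer (⨅ i : Fin m ⊕ Fin m, Cfsg.stabilizing (Cfsg.spToMat m F) ((Submodule.span F {(Pi.single i (1 : F) : Fin m ⊕ Fin m → F)} : Submodule F (Fin m ⊕ Fin m → F)) : Set (Fin m ⊕ Fin m → F)) : Set (Matrix.symplecticGroup (Fin m) F))) = 2 ^ m * Nat.factorial m * (q - 1) ^ m := by
  subst hF
  obtain ⟨a, ha0, ha⟩ := H22.exists_sq_ne_one_of_four_le hq
  have ha1 : a ≠ 1 := by rintro rfl; simp at ha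
  have ha2 : a ≠ a⁻¹ := fun h => ha (by rw [sq]; nth_rewrite 2 [h]; exact mul_inv_cancel₀ ha0)
  set T := (⨅ i : Fin m ⊕ Fin m, Cfsg.stabilizing (Cfsg.spToMat m F) ((Submodule.span F {(Pi.single i (1 : F) : Fin m ⊕ Fin m → F)} : Submodule F (Fin m ⊕ Fin m → F)) : Set (Fin m ⊕ Fin m → F))) with hT
  have hT' : (⨅ i : Fin m ⊕ Fin m, Cfsg.stabilizing (Cfsg.spToMat m F) ((Submodule.span F {(Pi.single i (1 : F) : Fin m ⊕ Fin m → F)} : Submodule F (Fin m ⊕ Fin m → F)) : Set (Fin m ⊕ Fin m → F)) : Set (Matrix.symplecticGroup (Fin m) F)) = T := by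
    ext x; simp [T]
  have hmem : ∀ x, x ∈ T ↔ ∃ d, x.1 = diagonal d := fun x => by
    have : ∀ i : Fin m ⊕ Fin m, Submodule.span F {(Pi.single i (1 : F) : Fin m ⊕ Fin m → F)} =
        H23.coordSub F (· ≠ i) := fun i => by
      ext v
      rw [Submodule.mem_span_singleton, H23.mem_coordSub]
      refine ⟨by rintro ⟨c, rfl⟩ j hj; simp [hj], fun h => ⟨v i, funext fun j => ?_⟩⟩
      by_cases hj : j = i
      · simp [hj]
      · simp [hj, h j hj]
    simp only [T, Subgroup.mem_iInf, this, H23.mem_stabilizing_submodule_of_le]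
    refine (forall_congr' fun k => H23.mulVec_mem_coordSub_iff).trans
      ⟨fun h => ⟨fun i => x.1 i i, ?_⟩, ?_⟩
    · ext i j
      by_cases hij : i = j
      · simp [hij]
      · rw [diagonal_apply_ne _ hij]; exact h j i j hij (by simp)
    · rintro ⟨d, hd⟩ k i j h1 h2
      change x.1 i j = 0
      rw [hd, diagonal_apply_ne]
      rintro rfl; exact h2 h1
  have hinv : ∀ g : symplecticGroup (Fin m) F, (g⁻¹).1 * g.1 = 1 := fun g => by
    rw [← Submonoid.coe_mul]; simp
  have hinv' : ∀ g : symplecticGroup (Fin m) F, g.1 * (g⁻¹).1 = 1 := fun g => by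
    rw [← Submonoid.coe_mul]; simp
  have hc : ∀ (g x : symplecticGroup (Fin m) F) (B : Matrix _ _ F),
      (g * x * g⁻¹).1 = B ↔ g.1 * x.1 = B * g.1 := fun g x B => by
    simp only [Submonoid.coe_mul]
    constructor
    · rintro rfl; rw [Matrix.mul_assoc, hinv, Matrix.mul_one]
    · intro h; rw [h, Matrix.mul_assoc, hinv', Matrix.mul_one]
  have hN : ∀ g, g ∈ Subgroup.normalizer (T : Set (symplecticGroup (Fin m) F)) ↔
      ∀ i, ∃! j, g.1 i j ≠ 0 := fun g => by
    constructor
    · intro h i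
      obtain ⟨j, hj⟩ := H23.exists_ne_zero_row (hinv' g) i
      refine ⟨j, hj, fun k hk => ?_⟩
      by_contra hkj
      let w : Fin m ⊕ Fin m → F := fun l => if l = j then a else if l = j.swap then a⁻¹ else 1
      have hw : mono 1 w = diagonal w := by ext k l; simp [mono, diagonal_apply, eq_comm]
      have hjj : ∀ l : Fin m ⊕ Fin m, l.swap ≠ l := fun l => by cases l <;> simp
      have hsw : ∀ l : Fin m ⊕ Fin m, l.swap = j ↔ l = j.swap := fun l => by
        cases l <;> cases j <;> simp
      obtain ⟨d, hd⟩ := (hmem _).1 ((Subgroup.mem_normalizer_iff.1 h ⟨mono 1 w, mono_mem.2 fun l =>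
        ⟨rfl, by
          by_cases h1 : l = j
          · simp [w, h1, hjj, ha0]
          · by_cases h2 : l = j.swap
            · simp [w, h2, hjj, ha0]
            · simp [w, h1, h2, hsw, Sum.swap_leftInverse.injective.eq_iff]⟩⟩).1 ((hmem _).2 ⟨w, hw⟩))
      replace hd : g.1 * diagonal w = diagonal d * g.1 := hw ▸ (hc _ _ _).1 hd
      have h1 := H23.eq_of_mul_diagonal hd hj
      have h2 := H23.eq_of_mul_diagonal hd hk
      simp only [w, if_true, if_neg hkj] at h1 h2
      split_ifs at h2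
      · exact ha2 (h1.trans h2.symm)
      · exact ha1 (h1.trans h2.symm)
    · intro h
      obtain ⟨π, hπ⟩ := H23.exists_perm_of_mono (hinv g) h
      refine Subgroup.mem_normalizer_fintype fun x hx => ?_
      obtain ⟨d, hd⟩ := (hmem _).1 hx
      exact (hmem _).2 ⟨_, (hc _ _ _).2 (hd ▸ H23.mul_diagonal_of_mono hπ d)⟩
  let C := Subgroup.centralizer {(Equiv.sumComm (Fin m) (Fin m) : Equiv.Perm (Fin m ⊕ Fin m))}
  have hC : ∀ π, π ∈ C ↔ ∀ l, π l.swap = (π l).swap := fun π => by
    simp [C, Subgroup.mem_centralizer_singleton_iff, Equiv.ext_iff, -Sum.forall]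
  let ww : C × (Fin m → Fˣ) → Fin m ⊕ Fin m → F := fun p =>
    Sum.elim (fun k => p.2 k) fun k => -eta F (p.1.1 (Sum.inl k)) * (p.2 k : F)⁻¹
  have hww : ∀ p l, ww p l ≠ 0 := by rintro p (l | l) <;> simp [ww, eta_ne]
  let f : C × (Fin m → Fˣ) → Subgroup.normalizer (T : Set (symplecticGroup (Fin m) F)) := fun p =>
    ⟨⟨mono p.1.1 (ww p), mono_mem.2 fun l => ⟨(hC _).1 p.1.2 l, by
      rcases l with l | l
      · have := eta_sq (F := F) (p.1.1 (Sum.inl l))
        simp only [ww, Sum.swap_inl, Sum.elim_inl, Sum.elim_inr]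
        rw [show eta F (Sum.inl l) = -1 from rfl]
        field_simp
        linear_combination -this
      · have := eta_sq (F := F) (p.1.1 (Sum.inl l))
        have h2 : p.1.1 (Sum.inr l) = (p.1.1 (Sum.inl l)).swap := (hC _).1 p.1.2 (Sum.inl l)
        simp only [ww, Sum.swap_inr, Sum.elim_inl, Sum.elim_inr, h2, eta_swap]
        rw [show eta F (Sum.inr l) = 1 from rfl]
        field_simp
        linear_combination this⟩⟩, (hN _).2 fun i => ⟨p.1.1 i, by simp [mono, hww], fun j hj => by
          by_contra h; simp [mono, h] at hj⟩⟩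
  have hf : Function.Bijective f := by
    constructor
    · rintro ⟨π, c⟩ ⟨π', c'⟩ h
      have h1 : ∀ i j, mono π.1 (ww (π, c)) i j = mono π'.1 (ww (π', c')) i j := fun i j =>
        congrArg (fun x => x.1.1 i j) h
      have h2 : π = π' := Subtype.ext (Equiv.ext fun i => by
        by_contra h3
        have := h1 i (π.1 i)
        simp [mono, h3, hww] at this)
      subst h2
      refine Prod.ext rfl (funext fun k => Units.ext ?_)
      simpa [mono, ww] using h1 (Sum.inl k) (π.1 (Sum.inl k))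
    · rintro ⟨g, hg⟩
      obtain ⟨π, hπ⟩ := H23.exists_perm_of_mono (hinv g) ((hN g).1 hg)
      have h1 : g.1 = mono π fun i => g.1 i (π i) := by
        ext i j
        by_cases hj : j = π i
        · simp [mono, hj]
        · simp [mono, hj, not_not.1 (mt (hπ i j).1 hj)]
      have h2 := mono_mem.1 (h1 ▸ g.2)
      refine ⟨(⟨π, (hC _).2 fun l => (h2 l).1⟩, fun k => Units.mk0 _ ((hπ (Sum.inl k) _).2 rfl)),
        Subtype.ext (Subtype.ext ?_)⟩
      change mono _ _ = g.1
      refine Eq.trans ?_ h1.symm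
      congr 1
      ext l
      rcases l with l | l
      · rfl
      · have h3 := (h2 (Sum.inl l)).2
        have h4 := (hπ (Sum.inl l) _).2 rfl
        have h5 := eta_sq (F := F) (π (Sum.inl l))
        rw [show eta F (Sum.inl l) = -1 from rfl, Sum.swap_inl] at h3
        simp only [ww, Sum.elim_inr, Units.val_mk0]
        field_simp
        linear_combination -eta F (π (Sum.inl l)) * h3 +
          (g.1 (Sum.inl l) (π (Sum.inl l)) * g.1 (Sum.inr l) (π (Sum.inr l))) * h5
  rw [hT', ← Nat.card_eq_of_bijective f hf, Nat.card_prod, card_cent, Nat.card_pi, H22.card_units_field]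
  simp

end Cfsg.Agent.S0777
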