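import Cfsg.Statements.S0779
import Cfsg.Agent.H23.SuGen2

set_option autoImplicit false
open Cfsg

namespace Cfsg.Agent.S0779


/-- Unitary transvections: let |F| = q², h the standard Hermitian form Σ x_i y_i^q and v ≠ 0 with h(v, v) = 0. The linear map x ↦ x + c h(x, v) v is an isometry of h if and only if c = 0 or c^(q−1) = −1. -/
theorem result {F : Type*} [Field F] [Fintype F] {q : ℕ} (hF : Fintype.card F = q ^ 2) (n : ℕ) (v : Fin n → F) (hv : v ≠ 0) (hv0 : Cfsg.hermForm n F q v v = 0) (c : F) : (∀ x y : Fin n → F, Cfsg.hermForm n F q ((Cfsg.unitaryTransvection n q v c).mulVec x) ((Cfsg.unitaryTransvection n q v c).mulVec y) = Cfsg.hermForm n F q x y) ↔ (c = 0 ∨ c ^ (q - 1) = -1) := by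
  have h2 := H23.two_le_of_card_eq_sq hF
  have key : c + c ^ q = 0 ↔ (c = 0 ∨ c ^ (q - 1) = -1) := by
    obtain ⟨r, rfl⟩ : ∃ r, q = r + 1 := ⟨q - 1, by omega⟩
    rw [Nat.add_sub_cancel, ← add_eq_zero_iff_eq_neg, ← mul_eq_zero]
    constructor <;> intro h <;> linear_combination h
  rw [← key]
  simp only [H23.unitaryTransvection_mulVec hF, ← H23.huForm_B hF]
  constructor
  · intro h
    obtain ⟨x, hx⟩ := (H23.huForm_nondeg hF n).exists_ne hv
    have hx' : (H23.huForm hF n).B x v = 1 := by rw [H23.Form.symm, hx]; simp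
    have hvv : (H23.huForm hF n).B v v = 0 := hv0
    have := h x x
    simp only [H23.Form.qrefl_apply, map_add, LinearMap.add_apply, H23.Form.B_smul_left,
      H23.Form.B_smul_right, hx, hx', hvv, mul_one, H23.conj_apply] at this
    linear_combination this
  · intro h x y
    exact H23.Form.qrefl_B _ (by simp [hv0, h]) _ _

end Cfsg.Agent.S0779
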