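import Cfsg.Statements.S0782
import Cfsg.Agent.H23.Det

set_option autoImplicit false
open Cfsg

namespace Cfsg.Agent.S0782


/-- Maximal parabolics of SU_n(q): if W is a k-dimensional subspace of F^n (n ≥ 1, |F| = q²) on which the Hermitian form vanishes, then (q + 1) times the order of its stabiliser in SU_n(q) equals q^(k(2n−3k)) · |GL_k(q²)| · |GU_(n−2k)(q)|, where |GU_m(q)| = q^(m(m−1)/2) Π_(i=1..m) (q^i − (−1)^i). -/
theorem result {F : Type*} [Field F] [Fintype F] {q : ℕ} (hF : Fintype.card F = q ^ 2) (n k : ℕ) (hn : 1 ≤ n) (hk : 2 * k ≤ n) (W : Submodule F (Fin n → F)) (hWk : Module.finrank F W = k) (hW : ∀ u ∈ W, ∀ v ∈ W, Cfsg.hermForm n F q u v = 0) : (q + 1) * Nat.card ↥((Cfsg.stabilizing (Cfsg.slToMat n F) (W : Set (Fin n → F))).subgroupOf (Cfsg.SU n F q)) = q ^ (k * (2 * n - 3 * k)) * (∏ i : Fin k, ((q ^ 2) ^ k - (q ^ 2) ^ (i : ℕ))) * (q ^ ((n - 2 * k) * ((n - 2 * k) - 1) / 2) * ∏ i ∈ Finset.range (n - 2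 * k), (if Even i then q ^ (i + 1) + 1 else q ^ (i + 1) - 1)) := by
  have hΦ := H23.huForm_nondeg hF n
  have : Nonempty (Fin n) := ⟨⟨0, hn⟩⟩
  have hT : (H23.huForm hF n).TotSing W :=
    ⟨fun u hu v hv => by simpa using hW v hv u hu, fun _ _ => rfl⟩
  obtain ⟨D, -, hD, hD1, hD2⟩ := hΦ.exists_card_Fix_totSing hT hWk (d := n - 2 * k)
    (by simp; omega)
  rw [H23.stabilizing_subgroupOf, H23.stabilizing_eq_comap (H23.suH hF n) (H23.suH_coe hF),
    H23.card_comap_of_injective (H23.suH_injective hF n), H23.range_suH,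
    H23.succ_mul_card_ker_inf hF hΦ (H23.exists_det_Stab_totSing hF hΦ rfl hT),
    hΦ.card_Stab_totSing hT, hD2, H23.card_linearEquiv hWk, H22.tr_herm hF _ rfl rfl,
    H22.card_O_herm hF _ _ hD rfl rfl hD1, hF]
  obtain ⟨d, rfl⟩ : ∃ d, n = 2 * k + d := ⟨n - 2 * k, by omega⟩
  have e1 : 2 * k + d - 2 * k = d := by omega
  have e2 : 2 * (2 * k + d) - 3 * k = k + 2 * d := by omega
  have e3 : k * (k + 2 * d) = 2 * (k * d + k * (k - 1) / 2) + k := by
    rw [mul_add 2, Nat.mul_div_cancel' (Nat.even_mul_pred_self k).two_dvd]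
    rcases k with _ | k
    · simp
    · simp; ring
  rw [e1, e2, e3]
  ring

end Cfsg.Agent.S0782
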