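import Cfsg.Statements.S0783
import Cfsg.Agent.H23.Det

set_option autoImplicit false
open Cfsg

namespace Cfsg.Agent.S0783


/-- PGU_n(q)/PSU_n(q) is cyclic of order (n, q+1): for n ≥ 2 and |F| = q² there is a surjective homomorphism from GU_n(q) onto the cyclic group of order gcd(n, q + 1) whose kernel is generated by the determinant-one elements together with the centre. -/
theorem result {F : Type*} [Field F] [Fintype F] {q : ℕ} (hF : Fintype.card F = q ^ 2) (n : ℕ) (hn : 2 ≤ n) : ∃ φ : ↥(Cfsg.GU n F q) →* Multiplicative (ZMod (Nat.gcd n (q + 1))), Function.Surjective φ ∧ φ.ker = (Matrix.GeneralLinearGroup.det : Matrix.GeneralLinearGroup (Fin n) F →* Fˣ).ker.subgroupOf (Cfsg.GU n F q) ⊔ Subgroup.center ↥(Cfsg.GU n F q) := by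
  have hΦ := H23.huForm_nondeg hF n
  have : Nonempty (Fin n) := ⟨⟨0, by omega⟩⟩
  let Φ := H23.huForm hF n
  let μ : Subgroup Fˣ := (powMonoidHom (q + 1) : Fˣ →* Fˣ).ker
  let R : Subgroup μ := (powMonoidHom n : μ →* μ).range
  have hcyc : IsCyclic (μ ⧸ R) :=
    isCyclic_of_surjective (QuotientGroup.mk' R) (QuotientGroup.mk'_surjective R)
  have hcard : Nat.card (μ ⧸ R) = Nat.gcd n (q + 1) := by
    rw [← Subgroup.index_eq_card, IsCyclic.index_powMonoidHom_range, H23.card_ker_pow_succ hF,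
      Nat.gcd_comm]
  let e : Multiplicative (ZMod (Nat.gcd n (q + 1))) ≃* (μ ⧸ R) := hcard ▸ zmodCyclicMulEquiv hcyc
  let d : Φ.O →* μ := Φ.detO.codRestrict μ (H23.detO_mem_ker_pow hF hΦ)
  have hd : Function.Surjective d := by
    intro u
    obtain ⟨g, -, hg⟩ := H23.exists_det_Stab_totSing hF hΦ rfl H23.Form.totSing_bot u.1
      (by simpa using congrArg Units.val (MonoidHom.mem_ker.1 u.2))
    exact ⟨g, Subtype.ext (Units.ext (by rw [← hg]; exact H23.Form.coe_detO g))⟩
  have hdet : ∀ g : Cfsg.GU n F q, Φ.detO (H23.guE hF n g) = Matrix.GeneralLinearGroup.det g.1 :=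
    fun g => Units.ext (by rw [H23.Form.coe_detO, H23.guE_coe, H23.det_glE]; rfl)
  refine ⟨e.symm.toMonoidHom.comp ((QuotientGroup.mk' R).comp (d.comp (H23.guE hF n).toMonoidHom)),
    e.symm.surjective.comp ((QuotientGroup.mk'_surjective R).comp (hd.comp
      (H23.guE hF n).surjective)), ?_⟩
  have hmem : ∀ g : Cfsg.GU n F q, g ∈ (e.symm.toMonoidHom.comp ((QuotientGroup.mk' R).comp
      (d.comp (H23.guE hF n).toMonoidHom))).ker ↔ ∃ u : μ, (u ^ n).1 = Φ.detO (H23.guE hF n g) := by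
    intro g
    simp only [MonoidHom.mem_ker, MonoidHom.comp_apply, MulEquiv.coe_toMonoidHom,
      EmbeddingLike.map_eq_one_iff, QuotientGroup.mk'_apply, QuotientGroup.eq_one_iff]
    exact ⟨fun ⟨u, hu⟩ => ⟨u, congrArg Subtype.val hu⟩, fun ⟨u, hu⟩ => ⟨u, Subtype.ext hu⟩⟩
  apply le_antisymm
  · intro g hg
    obtain ⟨u, hu⟩ := (hmem g).1 hg
    have hu1 : H23.conj hF u.1 * u.1 = 1 := by
      simpa [pow_succ] using congrArg Units.val (MonoidHom.mem_ker.1 u.2)
    let z : Cfsg.GU n F q := (H23.guE hF n).symm (Φ.scalarO _ hu1)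
    have hz : z ∈ Subgroup.center (Cfsg.GU n F q) := by
      rw [← H22.map_center_equiv (H23.guE hF n).symm]
      exact ⟨_, H23.Form.mem_center_O_of_scalar (H23.Form.scalarO_apply _ hu1), rfl⟩
    have hz' : Matrix.GeneralLinearGroup.det z.1 = (u ^ n).1 := by
      rw [← hdet, MulEquiv.apply_symm_apply]
      apply Units.ext
      rw [H23.Form.coe_detO, H23.Form.det_of_scalar (H23.Form.scalarO_apply _ hu1)]
      simp
    rw [show g = g * z⁻¹ * z by group]
    refine Subgroup.mul_mem_sup ?_ hz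
    rw [Subgroup.mem_subgroupOf, MonoidHom.mem_ker]
    simp [hz', hu, hdet]
  · refine sup_le (fun g hg => (hmem g).2 ⟨1, ?_⟩) (fun z hz => (hmem z).2 ?_)
    · rw [hdet, MonoidHom.mem_ker.1 (Subgroup.mem_subgroupOf.1 hg)]; simp
    · obtain ⟨a, ha⟩ := H23.scalar_of_mem_center_herm hF hΦ rfl (by simpa using hn)
        (H23.guE hF n z) (fun g _ => by
          obtain ⟨g, rfl⟩ := (H23.guE hF n).surjective g
          rw [← map_mul, ← map_mul, Subgroup.mem_center_iff.1 hz])
      have h1 := hΦ.norm_of_scalar ha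
      have h0 : a ≠ 0 := by rintro rfl; simp at h1
      refine ⟨⟨Units.mk0 a h0, MonoidHom.mem_ker.2 (Units.ext (by simpa [pow_succ] using h1))⟩,
        Units.ext ?_⟩
      rw [H23.Form.coe_detO, H23.Form.det_of_scalar ha]
      simp

end Cfsg.Agent.S0783
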