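import Cfsg.Statements.S0787
import Cfsg.Agent.H22.OrthMat

set_option autoImplicit false
open Cfsg

namespace Cfsg.Agent.S0787

theorem aux {A B : Type*} [Group A] [Group B] (e : A ≃* B) (h : ∃! H : Subgroup B, H.index = 2) :
    ∃! H : Subgroup A, H.index = 2 := by
  obtain ⟨H, h1, h2⟩ := h
  refine ⟨H.comap (e : A →* B), (H22.index_comap_equiv _ _).trans h1, fun K hK => ?_⟩
  rw [← h2 (K.map (e : A →* B)) ((Subgroup.index_map_equiv _ _).trans hK),
    Subgroup.comap_map_eq_self_of_injective e.injective]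

/-- Existence and uniqueness of Ω: if F is finite, n ≥ 2, Q is a quadratic form on F^n with non-degenerate polar form and (|F|, n) ≠ (2, 4), then the group of isometries of determinant one has a unique subgroup of index 2. -/
theorem result {F : Type*} [Field F] [Fintype F] {n : ℕ} (hn : 2 ≤ n) (Q : QuadraticForm F (Fin n → F)) (hQ : (QuadraticMap.polarBilin Q).Nondegenerate) (h : Fintype.card F ≠ 2 ∨ n ≠ 4) : ∃! H : Subgroup ↥(Cfsg.specialIsometryGroup F ⇑Q), H.index = 2 := by
  have hΦ := H23.Form.ofQuad_nondeg hQ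
  have hκ := H23.Form.ofQuad_κ Q
  have hg := H22.genHyp_of_card hΦ hκ (by simpa using h)
  have : Nontrivial (Fin n → F) := by
    have : Nonempty (Fin n) := ⟨⟨0, by omega⟩⟩
    infer_instance
  obtain ⟨H, h1, h2⟩ := H22.existsUnique_index_two_SO hΦ hκ hg (by
    have := Subgroup.relIndex_mul_index (H22.commutator_le_SO (H23.Form.ofQuad Q))
    by_cases h2 : (2 : F) = 0
    · rw [H22.index_commutator_of_sq hΦ hκ hg (H22.isSquare_of_two_eq_zero h2)] at this
      rw [← this, H22.SO_eq_top hΦ h2]; simp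
    · rw [H22.index_commutator_odd hΦ hκ h2 (by simpa using hn), H22.index_SO hΦ hκ h2] at this
      omega)
  exact aux (H22.soEquiv Q) ⟨H, h1, h2⟩

end Cfsg.Agent.S0787
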