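import Cfsg.Statements.S0792
import Cfsg.Agent.H22.OrthMat

set_option autoImplicit false
open Cfsg

namespace Cfsg.Agent.S0792

/-- For q odd and Q with non-degenerate polar form on F^n, the determinant-one isometries form the subgroup generated by all products r_u r_v of two reflections (Q(u), Q(v) ≠ 0). -/
theorem result {F : Type*} [Field F] [Fintype F] (h2 : (2 : F) ≠ 0) {n : ℕ} (Q : QuadraticForm F (Fin n → F)) (hQ : (QuadraticMap.polarBilin Q).Nondegenerate) : Cfsg.specialIsometryGroup F ⇑Q = Subgroup.closure {g : ↥(Cfsg.isometryGroup F ⇑Q) | ∃ u v : Fin n → F, Q u ≠ 0 ∧ Q v ≠ 0 ∧ ((g : Matrix.GeneralLinearGroup (Fin n) F) : Matrix (Fin n) (Fin n) F) = Cfsg.reflectionMatrix ⇑Q u * Cfsg.reflectionMatrix ⇑Q v} := by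
  have hΦ := H23.Form.ofQuad_nondeg hQ
  have hκ := H23.Form.ofQuad_κ Q
  rw [H22.specialIsometryGroup_eq, H22.SO_eq_closure hΦ hκ h2]
  refine (H22.closure_eq_comap _ fun g => ?_).symm
  simp only [Set.mem_ofPred_eq]
  refine exists_congr fun u => exists_congr fun v => and_congr_right fun _ =>
    and_congr_right fun _ => H22.coe_eq_iff_isomEquiv fun x => ?_
  rw [← Matrix.mulVec_mulVec, H22.reflectionMatrix_mulVec, H22.reflectionMatrix_mulVec]
  rfl

end Cfsg.Agent.S0792
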