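import Cfsg.Statements.S0793
import Cfsg.Agent.H22.OrthMat

set_option autoImplicit false
open Cfsg

namespace Cfsg.Agent.S0793

/-- Root elements: if Q(u) = Q(v) = 0 and f(u, v) = 0 (f the polar form), then for every c the Siegel matrix T_(u,v)(c) preserves Q, fixes u and v, and T(c) T(d) = T(c + d). -/
theorem result {F : Type*} [Field F] {n : ℕ} (Q : QuadraticForm F (Fin n → F)) (u v : Fin n → F) (hu : Q u = 0) (hv : Q v = 0) (huv : QuadraticMap.polar ⇑Q u v = 0) : (∀ c x, Q ((Cfsg.siegelMatrix ⇑Q u v c).mulVec x) = Q x) ∧ (∀ c, (Cfsg.siegelMatrix ⇑Q u v c).mulVec u = u ∧ (Cfsg.siegelMatrix ⇑Q u v c).mulVec v = v) ∧ ∀ c d, Cfsg.siegelMatrix ⇑Q u v c * Cfsg.siegelMatrix ⇑Q u v d = Cfsg.siegelMatrix ⇑Q u v (c + d) := by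
  set Φ := H23.Form.ofQuad Q
  have hκ : Φ.κ = 1 := rfl
  have h1 : Φ.B u v = 0 := huv
  have h2 : Φ.B v u = 0 := Φ.B_eq_zero_symm h1
  have hu' : Φ.Q u = 0 := hu
  have hv' : Φ.Q v = 0 := hv
  have h3 : Φ.B u u = 0 := by rw [H22.B_self_quad hκ, hu', mul_zero]
  have h4 : Φ.B v v = 0 := by rw [H22.B_self_quad hκ, hv', mul_zero]
  refine ⟨fun c x => ?_, fun c => ?_, fun c d => H23.matrix_ext_mulVec fun x => ?_⟩
  · rw [H22.siegelMatrix_mulVec]
    change Φ.Q (x + (c * Φ.B u x) • v - (c * Φ.B v x) • u) = Φ.Q x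
    simp only [Φ.Q_sub, H22.Q_add_quad hκ, Φ.Q_smul, hu', hv', hκ, map_add, map_smul,
      LinearMap.add_apply, LinearMap.smul_apply, h2, H22.B_comm_quad hκ x u,
      H22.B_comm_quad hκ x v, smul_eq_mul]
    ring
  · simp only [H22.siegelMatrix_mulVec]
    simp only [Φ] at h1 h2 h3 h4
    simp only [h1, h2, h3, h4, mul_zero, zero_smul, add_zero, sub_zero, and_self]
  · simp only [← Matrix.mulVec_mulVec, H22.siegelMatrix_mulVec]
    simp only [Φ] at h1 h2 h3 h4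
    simp only [map_add, map_sub, map_smul, h1, h2, h3, h4]
    module

end Cfsg.Agent.S0793
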