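import Cfsg.Statements.S0794
import Cfsg.Agent.H22.OrthMat

set_option autoImplicit false
open Cfsg

namespace Cfsg.Agent.S0794

/-- For q odd, n ≥ 5 and Q with non-degenerate polar form: an isometry whose matrix is a Siegel transformation T_(u,v)(c) (u, v singular and orthogonal) is a commutator in the isometry group, so lies in Ω. -/
theorem result {F : Type*} [Field F] [Fintype F] (h2 : (2 : F) ≠ 0) {n : ℕ} (hn : 5 ≤ n) (Q : QuadraticForm F (Fin n → F)) (hQ : (QuadraticMap.polarBilin Q).Nondegenerate) (u v : Fin n → F) (hu : Q u = 0) (hv : Q v = 0) (huv : QuadraticMap.polar ⇑Q u v = 0) (c : F) (g : ↥(Cfsg.isometryGroup F ⇑Q)) (hg : ((g : Matrix.GeneralLinearGroup (Fin n) F) : Matrix (Fin n) (Fin n) F) = Cfsg.siegelMatrix ⇑Q u v c) : g ∈ commutatorSet ↥(Cfsg.isometryGroup F ⇑Q) ∧ g ∈ Cfsg.Omega F ⇑Q := by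
  have hΦ := H23.Form.ofQuad_nondeg hQ
  have hκ := H23.Form.ofQuad_κ Q
  have h1 : (H23.Form.ofQuad Q).B u ((-c) • v) = 0 := by simp [huv]
  replace hu : (H23.Form.ofQuad Q).Q u = 0 := hu
  have h3 : H22.isomEquiv Q g = H22.sieg hΦ hκ hu h1 := by
    refine (H22.coe_eq_iff_isomEquiv fun x => ?_).mp hg
    rw [H22.siegelMatrix_mulVec, H22.sieg_apply, H23.Form.Q_smul, H23.Form.B_smul_left,
      H23.Form.ofQuad_Q, hv, RingHom.id_apply]
    module
  obtain ⟨a, -, b, -, h⟩ := H22.exists_sieg_eq_commutator hΦ hκ (by simpa using hn) hu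
    (by rw [H23.Form.Q_smul, H23.Form.ofQuad_Q, hv, mul_zero]) h1
  have h4 : g ∈ commutatorSet _ := ⟨(H22.isomEquiv Q).symm a, (H22.isomEquiv Q).symm b, by
    rw [← map_commutatorElement, ← h, ← h3, MulEquiv.symm_apply_apply]⟩
  exact ⟨h4, by rw [Cfsg.Omega, commutator_eq_closure]; exact Subgroup.subset_closure h4⟩

end Cfsg.Agent.S0794
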