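import Cfsg.Statements.S0795
import Cfsg.Agent.H22.OrthMat
import Cfsg.Agent.S0794

set_option autoImplicit false
open Cfsg

namespace Cfsg.Agent.S0795

/-- Generation of Ω by root elements: for q odd, n ≥ 5 and Q with non-degenerate polar form on F^n, the commutator subgroup of the isometry group equals the subgroup generated by the isometries whose matrices are Siegel transformations T_(u,v)(c) with u, v singular and orthogonal. -/
theorem result {F : Type*} [Field F] [Fintype F] (h2 : (2 : F) ≠ 0) {n : ℕ} (hn : 5 ≤ n) (Q : QuadraticForm F (Fin n → F)) (hQ : (QuadraticMap.polarBilin Q).Nondegenerate) : Cfsg.Omega F ⇑Q = Subgroup.closure {g : ↥(Cfsg.isometryGroup F ⇑Q) | ∃ (u v : Fin n → F) (c : F), Q u = 0 ∧ Q v = 0 ∧ QuadraticMap.polar ⇑Q u v = 0 ∧ ((g : Matrix.GeneralLinearGroup (Fin n) F) : Matrix (Fin n) (Fin n) F) = Cfsg.siegelMatrix ⇑Q u v c} := by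
  have hΦ := H23.Form.ofQuad_nondeg hQ
  have hκ := H23.Form.ofQuad_κ Q
  have hV : 5 ≤ Module.finrank F (Fin n → F) := by simpa using hn
  apply le_antisymm
  · rw [Cfsg.Omega, H22.commutator_eq_comap (H22.isomEquiv Q),
      H22.commutator_eq_eichGrp_of_five_le hΦ hκ hV]
    refine (Subgroup.map_equiv_eq_comap_symm' (H22.isomEquiv Q).symm _).symm.le.trans ?_
    rw [Subgroup.map_le_iff_le_comap, H22.eichGrp, Subgroup.closure_le]
    intro g hg
    obtain ⟨u, e, hu, he, rfl⟩ := (H22.mem_eichSet_iff hΦ hκ).mp hg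
    refine H22.sieg_mem_of_sing hΦ hκ hV _ hu (fun s hs hQ => ?_) he
    rw [Subgroup.mem_comap]
    apply Subgroup.subset_closure
    refine ⟨u, s, -1, hu, hQ, hs, (H22.coe_eq_iff_isomEquiv fun x => ?_).mpr
        (MulEquiv.apply_symm_apply _ _)⟩
    rw [H22.siegelMatrix_mulVec, H22.sieg_apply, hQ]
    module
  · rw [Subgroup.closure_le]
    rintro g ⟨u, v, c, hu, hv, huv, hg⟩
    exact (Cfsg.Agent.S0794.result h2 hn Q hQ u v hu hv huv c g hg).2

end Cfsg.Agent.S0795
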