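import Cfsg.Statements.S0796
import Mathlib

set_option autoImplicit false
open Cfsg

namespace Cfsg.Agent.S0796

/-- If G is finite and acts faithfully and primitively on X, H is the stabiliser of a point, A is a normal subgroup of H whose normal closure in G is G, then for every non-trivial normal subgroup K of G the quotient G ⧸ K is isomorphic to A ⧸ B for some normal subgroup B of A. -/
theorem result {G X : Type*} [Group G] [Finite G] [MulAction G X] [FaithfulSMul G X] (hprim : MulAction.IsPreprimitive G X) (x : X) (A : Subgroup G) (hA : A ≤ MulAction.stabilizer G x) (hAn : (A.subgroupOf (MulAction.stabilizer G x)).Normal) (hgen : Subgroup.normalClosure (A : Set G) = ⊤) (K : Subgroup G) [K.Normal] (hK : K ≠ ⊥) : ∃ (B : Subgroup A) (_ : B.Normal), Nonempty (G ⧸ K ≃* A ⧸ B) := by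
  have hKt : MulAction.IsPretransitive K X := by
    refine MulAction.IsQuasiPreprimitive.isPretransitive_of_normal fun h => hK ?_
    rw [eq_bot_iff]
    intro g hg
    exact FaithfulSMul.eq_of_smul_eq_smul (α := X) fun y => by
      rw [one_smul]; exact (Set.eq_univ_iff_forall.mp h y) ⟨g, hg⟩
  have h1 : (A.map (QuotientGroup.mk' K)).Normal := by
    refine ⟨fun n hn g => ?_⟩
    obtain ⟨a, ha, rfl⟩ := hn
    obtain ⟨g, rfl⟩ := QuotientGroup.mk'_surjective K g
    obtain ⟨k, hk⟩ := MulAction.exists_smul_eq K (g • x) x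
    have h2 : (k : G) * g ∈ MulAction.stabilizer G x := by
      rw [MulAction.mem_stabilizer_iff, mul_smul]; exact hk
    refine ⟨(k * g) * a * (k * g)⁻¹, hAn.conj_mem ⟨a, hA ha⟩ ha ⟨_, h2⟩, ?_⟩
    have h3 : QuotientGroup.mk' K (k : G) = 1 := (QuotientGroup.eq_one_iff _).mpr k.2
    simp only [map_mul, map_inv, h3, one_mul]
  have h2 : Function.Surjective ((QuotientGroup.mk' K).comp A.subtype) := by
    intro y
    obtain ⟨g, rfl⟩ := QuotientGroup.mk'_surjective K y
    have : Subgroup.normalClosure (A : Set G) ≤ (A.map (QuotientGroup.mk' K)).comap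
        (QuotientGroup.mk' K) := Subgroup.normalClosure_le_normal (Subgroup.le_comap_map _ _)
    obtain ⟨a, ha, h⟩ := this (hgen ▸ Subgroup.mem_top g)
    exact ⟨⟨a, ha⟩, h⟩
  exact ⟨_, inferInstance, ⟨(QuotientGroup.quotientKerEquivOfSurjective _ h2).symm⟩⟩

end Cfsg.Agent.S0796
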