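import Cfsg.Statements.S0799
import Cfsg.Agent.H4.Dk5

set_option autoImplicit false
open Cfsg

namespace Cfsg.Agent.S0799

/-- Dickson's classification of the subgroups of PSL_2(q), q a power of the prime p, d = gcd(2, q − 1): every subgroup H is (a) cyclic or dihedral with k dividing (q+1)/d or (q−1)/d (cyclic of order k, or dihedral of order 2k), (b) isomorphic to a subgroup of the normaliser of a Sylow p-subgroup, (c) isomorphic to A_4, S_4 or A_5, or (d) isomorphic to PSL_2(K) or PGL_2(K) for a finite field K with |K|^m = q. -/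
theorem result {F : Type*} [Field F] [Fintype F] {q : ℕ} (hF : Fintype.card F = q) (p : ℕ) [Fact p.Prime] [CharP F p] (H : Subgroup (Matrix.ProjectiveSpecialLinearGroup (Fin 2) F)) : (∃ k : ℕ, (k ∣ (q + 1) / Nat.gcd 2 (q - 1) ∨ k ∣ (q - 1) / Nat.gcd 2 (q - 1)) ∧ ((IsCyclic H ∧ Nat.card H = k) ∨ Nonempty (H ≃* DihedralGroup k))) ∨ (∃ (P : Sylow p (Matrix.ProjectiveSpecialLinearGroup (Fin 2) F)) (K : Subgroup (Matrix.ProjectiveSpecialLinearGroup (Fin 2) F)), K ≤ Subgroup.normalizer ((P : Subgroup (Matrix.ProjectiveSpecialLinearGroup (Fin 2) F)) : Set (Matrix.ProjectiveSpecialLinearGroup (Fin 2) F)) ∧ Nonempty (H ≃* K)) ∨ Nonempty (H ≃* alternatingGroup (Fin 4)) ∨ Nonempty (H ≃* Equiv.Perm (Fin 4)) ∨ Nonempty (H ≃* alternatingGroup (Fin 5)) ∨ (∃ (K : Type) (_ : Field K) (_ : Fintype K) (m : ℕ), Fintype.card K ^ m = q ∧ (Nonempty (H ≃* Matrix.ProjectiveSpecialLinearGroup (Fin 2) K) ∨ Nonempty (H ≃* Matrix.ProjGenLinGroup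 (Fin 2) K))) := by
  subst hF
  have h1 := H4.map_psl_le H
  rcases H4.dickson_pgl p (H.map H4.psl2pgl) with ⟨x, hx⟩ | ⟨g, hg, h2⟩ | ⟨-, h | h | h⟩ | ⟨-, h⟩ |
    ⟨E, P, hE, h⟩
  · obtain ⟨P, -, hP⟩ := H4.exists_sylow_stab p x
    refine Or.inr (Or.inl ⟨P, H, le_trans ?_ hP, ⟨MulEquiv.refl _⟩⟩)
    rwa [Subgroup.map_le_iff_le_comap, H4.comap_stabilizer] at hx
  · obtain ⟨k, h3, h4⟩ := (H4.dih_pN_pL hg).sub_cases (le_inf h2 h1)
    refine Or.inl ⟨k, ?_, h4.imp (fun h => ⟨?_, H4.card_map_psl H ▸ h.2⟩) H4.equiv_of_map_psl⟩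
    · rw [H4.card_pT_pL' hg] at h3
      rcases H4.card_pT hg with h | h <;> rw [h] at h3
      exacts [Or.inl h3, Or.inr h3]
    · exact (H4.nonempty_map_psl H).some.isCyclic.2 h.1
  · exact Or.inr (Or.inr (Or.inl (H4.equiv_of_map_psl h)))
  · exact Or.inr (Or.inr (Or.inr (Or.inl (H4.equiv_of_map_psl h))))
  · exact Or.inr (Or.inr (Or.inr (Or.inr (Or.inl (H4.equiv_of_map_psl h)))))
  · exact Or.inr (Or.inr (Or.inr (Or.inr (Or.inl (H4.equiv_of_map_psl h)))))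
  · obtain ⟨K, _, _, f, h3, h4⟩ := H4.exists_type_subfield E
    obtain ⟨m, -, hm⟩ := H4.exists_card_pow E
    refine Or.inr (Or.inr (Or.inr (Or.inr (Or.inr ⟨K, inferInstance, inferInstance, m,
      by rw [h4, ← hm, Nat.card_eq_fintype_card], h.imp (fun h => ?_) fun h => ?_⟩))))
    · exact H4.equiv_of_map_psl (by rw [h, ← h3]; exact H4.equiv_cj (H4.nonempty_pslS_equiv f) P)
    · exact H4.equiv_of_map_psl (by rw [h, ← h3]; exact H4.equiv_cj (H4.nonempty_pglS_equiv f) P)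

end Cfsg.Agent.S0799
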