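import Cfsg.Statements.S0800
import Cfsg.Agent.H4.M2c

set_option autoImplicit false
open Cfsg

namespace Cfsg.Agent.S0800

/-- Tori of SL_2(q): if g ∈ SL_2(q) has order coprime to the characteristic p, then the order of g divides q − 1 or q + 1. -/
theorem result {F : Type*} [Field F] [Fintype F] {q : ℕ} (hF : Fintype.card F = q) (p : ℕ) [Fact p.Prime] [CharP F p] (g : Matrix.SpecialLinearGroup (Fin 2) F) (hg : Nat.Coprime (orderOf g) p) : orderOf g ∣ q - 1 ∨ orderOf g ∣ q + 1 := by
  subst hF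
  rcases H4.m2_cases g.1 with h | ⟨a, h⟩ | ⟨a, b, h⟩ | h
  · left
    by_cases h2 : (2 : F) = 0
    · rcases H4.sl_sc_iff.1 h with rfl | rfl
      · simp
      · simp [H4.sl_neg_one_eq_one h2]
    · have h3 : orderOf g ∣ 2 := orderOf_dvd_of_pow_eq_one (by
        rcases H4.sl_sc_iff.1 h with rfl | rfl <;> simp)
      refine h3.trans ?_
      have := H4.odd_card_of_two_ne_zero h2
      omega
  · exact ((Fact.out : p.Prime).one_lt.ne' (Nat.eq_one_of_dvd_coprimes hg (h.char_dvd_orderOf p) dvd_rfl)).elim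
  · exact Or.inl (H4.card_slCent_sp h ▸ H4.orderOf_dvd_card_cent g)
  · exact Or.inr (H4.card_slCent_ell h ▸ H4.orderOf_dvd_card_cent g)

end Cfsg.Agent.S0800
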