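import Cfsg.Statements.S0801
import Cfsg.Agent.H4.Dk6

set_option autoImplicit false
open Cfsg

namespace Cfsg.Agent.S0801

/-- Let F be a finite field of odd characteristic and λ ≠ 0 an element generating F as a field. Then the lower and upper unitriangular matrices with off-diagonal entries 1 and λ generate SL_2(F), unless |F| = 9 and λ² = −1, in which case they generate a subgroup of order 120. -/
theorem result {F : Type*} [Field F] [Fintype F] (h2 : (2 : F) ≠ 0) (lam : F) (hlam : lam ≠ 0) (hgen : Subfield.closure ({lam} : Set F) = ⊤) : (Subgroup.closure {g : Matrix.SpecialLinearGroup (Fin 2) F | (g : Matrix (Fin 2) (Fin 2) F) = !![1, 0; 1, 1] ∨ (g : Matrix (Fin 2) (Fin 2) F) = !![1, lam; 0, 1]} = ⊤ ∧ ¬ (Fintype.card F = 9 ∧ lam ^ 2 = -1)) ∨ (Fintype.card F = 9 ∧ lam ^ 2 = -1 ∧ Nat.card ↥(Subgroup.closure {g : Matrix.SpecialLinearGroup (Fin 2) F | (g : Matrix (Fin 2) (Fin 2) F) = !![1, 0; 1, 1] ∨ (g : Matrix (Fin 2) (Fin 2) F) = !![1, lam; 0,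 1]}) = 120) := by
  have h : {g : Matrix.SpecialLinearGroup (Fin 2) F | (g : Matrix (Fin 2) (Fin 2) F) = !![1, 0; 1, 1] ∨
      (g : Matrix (Fin 2) (Fin 2) F) = !![1, lam; 0, 1]} = {H4.loT 1, H4.upT lam} :=
    Set.ext fun g => or_congr ⟨fun h => Subtype.ext h, fun h => congrArg Subtype.val h⟩
      ⟨fun h => Subtype.ext h, fun h => congrArg Subtype.val h⟩
  rw [h]
  by_cases h9 : Fintype.card F = 9 ∧ lam ^ 2 = -1
  · refine Or.inr ⟨h9.1, h9.2, H4.card_closure_nine ?_ h9.2⟩
    have := FiniteField.cast_card_eq_zero F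
    rw [h9.1] at this
    exact pow_eq_zero_iff (n := 2) two_ne_zero |>.1 (by rw [← this]; norm_num)
  · exact Or.inl ⟨(H4.gen_cases h2 hlam hgen (H4.left_mem_V4 _ _)
      (H4.right_mem_V4 _ _)).resolve_right h9, h9⟩

end Cfsg.Agent.S0801
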