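import Cfsg.Statements.S0802
import Cfsg.Agent.H4.Dk4

set_option autoImplicit false
open Cfsg

namespace Cfsg.Agent.S0802

/-- PSL_2(p^n) has a subgroup isomorphic to A_4 if and only if it is not the case that p = 2 and n is odd. -/
theorem result {F : Type*} [Field F] [Fintype F] (p n : ℕ) [Fact p.Prime] [CharP F p] (hF : Fintype.card F = p ^ n) : (∃ H : Subgroup (Matrix.ProjectiveSpecialLinearGroup (Fin 2) F), Nonempty (H ≃* alternatingGroup (Fin 4))) ↔ ¬ (p = 2 ∧ Odd n) := by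
  have hp : p.Prime := Fact.out
  rw [H4.exists_psl_iff]
  have hn : n ≠ 0 := by
    rintro rfl
    exact (H4.one_lt_card' (F := F)).ne' (by simpa using hF)
  constructor
  · rintro ⟨H, -, h⟩ ⟨rfl, ho⟩
    have hc := (H4.card_of_equiv h).trans H4.card_a4
    have h2 : (2 : F) = 0 := by simpa using CharP.cast_eq_zero F 2
    have he := H4.even_card_of_two h2
    have h3 : Fintype.card F % 3 = 2 := by
      obtain ⟨k, rfl⟩ := ho
      rw [hF, pow_succ, pow_mul, Nat.mul_mod, Nat.pow_mod]; simp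
    rcases H4.dickson_pgl 2 H with ⟨x, hx⟩ | ⟨g, hg, h1⟩ | ⟨h1, -⟩ | ⟨h1, -⟩ | ⟨E, P, hE, h1⟩
    · have h4 := Subgroup.card_dvd_of_le hx
      rw [hc, H4.card_stab] at h4
      have h5 := Nat.prime_three.dvd_mul.1 ((by norm_num : 3 ∣ 12).trans h4)
      omega
    · exact (H4.has4_of_a4 h).not_le_dih (H4.dih_pN hg) h1
    · exact h1 (by rw [hc]; norm_num)
    · omega
    · rw [← H4.pslS_eq_pglS h2, or_self] at h1
      rw [h1, H4.card_cj, H4.card_pslS_even h2] at hc
      have : 3 * 8 ≤ Nat.card E * (Nat.card E ^ 2 - 1) :=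
        Nat.mul_le_mul hE (by have : 9 ≤ Nat.card E ^ 2 := by nlinarith
                              omega)
      omega
  · intro h
    by_cases hp2 : p = 2
    · subst hp2
      obtain ⟨k, rfl⟩ := Nat.not_odd_iff_even.1 fun ho => h ⟨rfl, ho⟩
      obtain ⟨A, h1, h2⟩ := H4.exists_a5_le (E := (⊤ : Subfield F)) (by
        rw [H4.card_subfield_top, Nat.card_eq_fintype_card, H4.five_dvd_iff Fintype.card_pos, hF,
          ← two_mul, pow_mul]
        have h1 : k = 2 * (k / 2) ∨ k = 2 * (k / 2) + 1 := by omega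
        rcases h1 with h1 | h1
        · rw [h1, pow_mul, Nat.pow_mod]; simp
        · rw [h1, pow_succ, pow_mul, Nat.mul_mod, Nat.pow_mod]; simp)
      obtain ⟨B, h3, h4⟩ := H4.exists_a4_le_a5 h2
      exact ⟨B, h3.trans (h1.trans (H4.pslS_le_pL _)), h4⟩
    · obtain ⟨B, h3, h4⟩ := H4.exists_a4 (H4.two_ne_zero_of_char p hp2) (⊤ : Subfield F)
      exact ⟨B, h3.trans (H4.pslS_le_pL _), h4⟩

end Cfsg.Agent.S0802
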