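import Cfsg.Statements.S0803
import Cfsg.Agent.H4.Dk4

set_option autoImplicit false
open Cfsg

namespace Cfsg.Agent.S0803

/-- PSL_2(q) has a subgroup isomorphic to S_4 iff q² ≡ 1 (mod 16). -/
theorem result {F : Type*} [Field F] [Fintype F] {q : ℕ} (hF : Fintype.card F = q) : (∃ H : Subgroup (Matrix.ProjectiveSpecialLinearGroup (Fin 2) F), Nonempty (H ≃* Equiv.Perm (Fin 4))) ↔ q ^ 2 % 16 = 1 := by
  subst hF
  rw [H4.exists_psl_iff]
  have key : ∀ q : ℕ, q ^ 2 % 16 = 1 ↔ (q % 8 = 1 ∨ q % 8 = 7) := fun q => by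
    rw [Nat.pow_mod, ← Nat.mod_mod_of_dvd q (by norm_num : 8 ∣ 16)]
    have : q % 16 < 16 := Nat.mod_lt _ (by norm_num)
    generalize q % 16 = a at *
    interval_cases a <;> simp
  rw [key]
  by_cases h2 : (2 : F) = 0
  · have he := H4.even_card_of_two h2
    refine ⟨fun ⟨H, _, ⟨e⟩⟩ => ?_, fun h => by omega⟩
    exfalso
    have : CharP F 2 := CharTwo.of_one_ne_zero_of_two_eq_zero one_ne_zero h2
    have h4 : orderOf (finRotate 4) = 4 := orderOf_eq_prime_pow (p := 2) (n := 1) (by decide) (by decide)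
    have h5 : orderOf ((e.symm (finRotate 4) : H) : Matrix.ProjGenLinGroup (Fin 2) F) = 4 := by
      rw [Subgroup.orderOf_coe, e.symm.orderOf_eq, h4]
    have hq := H4.one_lt_card' (F := F)
    rcases H4.pgl_pow_cases 2 ((e.symm (finRotate 4) : H) : Matrix.ProjGenLinGroup (Fin 2) F)
      with h | h | h <;> have h6 := orderOf_dvd_of_pow_eq_one h <;> rw [h5] at h6 <;> omega
  · refine ⟨fun ⟨H, h1, h⟩ => (H4.s4_le_pL_iff h2 h).1 h1, fun h => ?_⟩
    obtain ⟨S, -, hS⟩ := H4.exists_s4 h2 (⊤ : Subfield F)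
    exact ⟨S, (H4.s4_le_pL_iff h2 hS).2 h, hS⟩

end Cfsg.Agent.S0803
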