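import Cfsg.Statements.S0805
import Cfsg.Agent.H4.Dk5

set_option autoImplicit false
open Cfsg

namespace Cfsg.Agent.S0805

/-- Subfield subgroups: let F be a finite field of odd order q and K a finite field with |K|^m = q, m ≥ 1. Then PSL_2(F) has a subgroup isomorphic to PSL_2(K), and has a subgroup isomorphic to PGL_2(K) if and only if m is even. -/
theorem result {F K : Type*} [Field F] [Fintype F] [Field K] [Fintype K] {q : ℕ} (hF : Fintype.card F = q) (hodd : Odd q) (m : ℕ) (hm : 1 ≤ m) (hK : Fintype.card K ^ m = q) : (∃ H : Subgroup (Matrix.ProjectiveSpecialLinearGroup (Fin 2) F), Nonempty (H ≃* Matrix.ProjectiveSpecialLinearGroup (Fin 2) K)) ∧ ((∃ H : Subgroup (Matrix.ProjectiveSpecialLinearGroup (Fin 2) F), Nonempty (H ≃* Matrix.ProjGenLinGroup (Fin 2) K)) ↔ Even m) := by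
  subst hF
  have h2 := H4.two_ne_zero_of_odd hodd
  obtain ⟨p, hp⟩ := CharP.exists F
  have : Fact p.Prime := ⟨CharP.char_is_prime F p⟩
  obtain ⟨f⟩ := H4.exists_hom_of_card (F := F) (K := K) (m := m)
    (by rw [Nat.card_eq_fintype_card, Nat.card_eq_fintype_card, hK])
  have hE : Fintype.card F = Nat.card f.fieldRange ^ m := by
    rw [H4.card_fieldRange, Nat.card_eq_fintype_card, hK]
  rw [H4.exists_psl_iff, H4.exists_psl_iff]
  refine ⟨⟨_, H4.pslS_le_pL _, H4.nonempty_pslS_equiv f⟩, fun ⟨H, h1, h⟩ => ?_, fun h =>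
    ⟨_, (H4.pglS_le_pL_iff h2 hE).2 h, H4.nonempty_pglS_equiv f⟩⟩
  obtain ⟨e⟩ : Nonempty (H4.pglS f.fieldRange ≃* H) :=
    ⟨(H4.nonempty_pglS_equiv f).some.trans h.some.symm⟩
  generalize f.fieldRange = E at *
  have hc : Nat.card (H4.pglS E) = Nat.card H := Nat.card_congr e.toEquiv
  have hp2 := H4.char_ne_two p h2
  obtain ⟨S, h3, ⟨e'⟩⟩ := H4.exists_s4 h2 E
  have hS : Nonempty (((S.subgroupOf (H4.pglS E)).map e.toMonoidHom).map H.subtype ≃*
      Equiv.Perm (Fin 4)) :=
    ⟨((((Subgroup.equivMapOfInjective _ _ H.subtype_injective).symm.trans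
      (Subgroup.equivMapOfInjective _ _ e.injective).symm).trans
        (Subgroup.subgroupOfEquivOfLe h3)).trans e')⟩
  have hd := Subgroup.card_dvd_of_le (Subgroup.map_subtype_le
    ((S.subgroupOf (H4.pglS E)).map e.toMonoidHom))
  rw [H4.card_of_equiv hS, H4.card_s4] at hd
  have hpE := (H4.char_dvd_card_pslS p E).trans (Subgroup.card_dvd_of_le (H4.pslS_le_pglS E))
  rcases H4.over_has4 p hp2 (H4.has4_of_s4 hS) (Subgroup.map_subtype_le _) with h4 | h4 | h4 |
    ⟨E', P, -, h4⟩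
  · rw [H4.card_of_equiv h4, H4.card_a4] at hd; norm_num at hd
  · have h5 := H4.card_pglS E
    rw [hc, H4.card_of_equiv h4, H4.card_s4] at h5
    have h6 : Nat.card E = 3 := by
      have := H4.odd_card_sub h2 E
      have := H4.one_lt_card_subfield E
      by_contra h7
      have h8 : 5 ≤ Nat.card E := by omega
      have h10 : 25 ≤ Nat.card E ^ 2 := by nlinarith
      have : 5 * 24 ≤ Nat.card E * (Nat.card E ^ 2 - 1) := Nat.mul_le_mul h8 (by omega)
      omega
    obtain ⟨g, hg⟩ := H4.s4_conj h2 h4 (H4.pglS_equiv_s4 h6)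
    rw [hg, H4.cj_le_pL_iff] at h1
    exact (H4.pglS_le_pL_iff h2 hE).1 h1
  · rw [H4.card_of_equiv h4, H4.card_a5] at hd; norm_num at hd
  · have h5 : E ≤ E' := H4.subfield_le_of_dvd
      ((Subgroup.card_dvd_of_le (H4.pslS_le_pglS E)).trans (by
        rw [hc]
        rcases h4 with h4 | h4 <;> rw [h4, H4.card_cj]
        exact Subgroup.card_dvd_of_le (H4.pslS_le_pglS E')))
    have h6 : E' ≤ E := H4.subfield_le_of_dvd (by
        rw [hc]
        rcases h4 with h4 | h4 <;> rw [h4, H4.card_cj]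
        exact Subgroup.card_dvd_of_le (H4.pslS_le_pglS E'))
    obtain rfl := le_antisymm h5 h6
    rcases h4 with h4 | h4
    · rw [h4, H4.card_cj] at hc
      exact absurd hc (H4.pslS_ne_pglS h2 E).ne'
    · rw [h4, H4.cj_le_pL_iff] at h1
      exact (H4.pglS_le_pL_iff h2 hE).1 h1

end Cfsg.Agent.S0805
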