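import Cfsg.Statements.S0808
import Cfsg.Agent.H4.Dk6

set_option autoImplicit false
open Cfsg

namespace Cfsg.Agent.S0808

/-- Conjugacy classes of four-groups in PSL_2(q), q odd: if q ≡ 3 or 5 (mod 8) all Klein four-subgroups are conjugate; if q ≡ 1 or 7 (mod 8) there are two Klein four-subgroups which are not conjugate, and every Klein four-subgroup is conjugate to one of them. -/
theorem result {F : Type*} [Field F] [Fintype F] {q : ℕ} (hF : Fintype.card F = q) (hodd : Odd q) : ((q % 8 = 3 ∨ q % 8 = 5) → ∀ V W : Subgroup (Matrix.ProjectiveSpecialLinearGroup (Fin 2) F), IsKleinFour V → IsKleinFour W → ∃ g : Matrix.ProjectiveSpecialLinearGroup (Fin 2) F, W = V.map (MulAut.conj g).toMonoidHom) ∧ ((q % 8 = 1 ∨ q % 8 = 7) → ∃ V₁ V₂ : Subgroup (Matrix.ProjectiveSpecialLinearGroup (Fin 2) F), IsKleinFour V₁ ∧ IsKleinFour V₂ ∧ (¬ ∃ g : Matrix.ProjectiveSpecialLinearGroup (Fin 2) F, V₂ = V₁.map (MulAut.conj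 g).toMonoidHom) ∧ ∀ W : Subgroup (Matrix.ProjectiveSpecialLinearGroup (Fin 2) F), IsKleinFour W → (∃ g : Matrix.ProjectiveSpecialLinearGroup (Fin 2) F, W = V₁.map (MulAut.conj g).toMonoidHom) ∨ (∃ g : Matrix.ProjectiveSpecialLinearGroup (Fin 2) F, W = V₂.map (MulAut.conj g).toMonoidHom)) := by
  subst hF
  have h2 := H4.two_ne_zero_of_odd hodd
  refine ⟨fun h V W hV hW => H4.psl_cj_iff.2 ?_, fun h => ?_⟩
  · have hV' := H4.klein_map_psl_iff.2 hV
    obtain ⟨g, hg⟩ := H4.klein_conj h2 (H4.map_psl_le V) hV' (H4.map_psl_le W)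
      (H4.klein_map_psl_iff.2 hW)
    by_cases h1 : g ∈ H4.pL F
    · exact ⟨g, h1, hg⟩
    obtain ⟨n, hn, h3⟩ := SetLike.not_le_iff_exists.1 ((H4.s4_le_pL_iff h2
      (H4.normalizer_klein_equiv h2 (H4.map_psl_le V) hV')).not.2 (by omega))
    exact ⟨g * n, H4.mul_mem_pL h2 h1 h3, by rw [← H4.cj_cj, H4.cj_eq_self_iff.2 hn, hg]⟩
  · obtain ⟨V, hV, h1⟩ := H4.exists_klein h2
    obtain ⟨c, -, hc⟩ := SetLike.exists_of_lt (lt_top_iff_ne_top.2
      (H4.pL_ne_top (Nat.odd_iff.1 hodd)))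
    have h3 := H4.map_comap_psl hV
    have h4 := H4.map_comap_psl ((H4.cj_le_pL_iff (g := c)).2 hV)
    have h5 := (H4.s4_le_pL_iff h2 (H4.normalizer_klein_equiv h2 hV h1)).2 h
    refine ⟨V.comap H4.psl2pgl, (H4.cj V c).comap H4.psl2pgl,
      H4.klein_map_psl_iff.1 (by rwa [h3]), H4.klein_map_psl_iff.1
        (by rw [h4]; exact H4.klein_of_equiv (H4.nonempty_map_conj V c) h1), fun h6 => ?_,
        fun W hW => ?_⟩
    · obtain ⟨g, h7, h8⟩ := H4.psl_cj_iff.1 h6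
      rw [h3, h4, H4.cj_eq_cj_iff] at h8
      exact hc (inv_mem_iff.1 ((mul_mem_cancel_right h7).1 (h5 h8)))
    · obtain ⟨g, hg⟩ := H4.klein_conj h2 hV h1 (H4.map_psl_le W) (H4.klein_map_psl_iff.2 hW)
      by_cases h6 : g ∈ H4.pL F
      · exact Or.inl (H4.psl_cj_iff.2 ⟨g, h6, by rwa [h3]⟩)
      · exact Or.inr (H4.psl_cj_iff.2 ⟨g * c⁻¹, H4.mul_mem_pL h2 h6 (by rwa [inv_mem_iff]),
          by rw [h4, H4.cj_cj, inv_mul_cancel_right, hg]⟩)

end Cfsg.Agent.S0808
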