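import Cfsg.Statements.S0810
import Cfsg.Agent.H4.Dk5

set_option autoImplicit false
open Cfsg

namespace Cfsg.Agent.S0810

/-- PSL_2(q) is minimal simple iff q is 2^r (r prime), 3^r (r an odd prime), a prime greater than 5 congruent to 2 or 3 mod 5, or 5. -/
theorem result {F : Type*} [Field F] [Fintype F] {q : ℕ} (hF : Fintype.card F = q) : Cfsg.IsMinimalSimple (Matrix.ProjectiveSpecialLinearGroup (Fin 2) F) ↔ ((∃ r : ℕ, r.Prime ∧ q = 2 ^ r) ∨ (∃ r : ℕ, r.Prime ∧ r ≠ 2 ∧ q = 3 ^ r) ∨ (q.Prime ∧ 5 < q ∧ (q % 5 = 2 ∨ q % 5 = 3)) ∨ q = 5) := by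
  subst hF
  obtain ⟨p, hp⟩ := CharP.exists F
  have : Fact p.Prime := ⟨CharP.char_is_prime F p⟩
  have hp : p.Prime := Fact.out
  obtain ⟨E₀, h0⟩ := H4.exists_prime_subfield (F := F) p
  obtain ⟨m, hm0, hm⟩ := H4.exists_card_pow E₀
  have hm' : Fintype.card F = p ^ m := by rw [← Nat.card_eq_fintype_card, hm, h0]
  have hq1 := H4.one_lt_card' (F := F)
  constructor
  · rintro ⟨h1, h2, h3⟩
    have h4 : ∀ M ≤ H4.pL F, M ≠ H4.pL F → Group.IsSolvable M := fun M h4 h5 => by
      rw [← H4.map_comap_psl h4]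
      refine H4.isSolvable_of_equiv ⟨(H4.nonempty_map_psl _).some.symm⟩ (h3 _ fun h => h5 ?_)
      rw [← H4.map_comap_psl h4, h]
      exact (MonoidHom.range_eq_map _).symm
    have h5 : ¬ Group.IsSolvable (H4.pL F) := fun h =>
      h2 ⟨⟨IsSimpleGroup.comm_iff_isSolvable.2
        (H4.isSolvable_of_equiv ⟨H4.pL_equiv.some.symm⟩ h)⟩⟩
    have h6 : 4 ≤ Fintype.card F := by
      rcases H4.solvable_or p (H4.pL F) with h | ⟨-, -, h⟩ | ⟨E, P, h, -⟩
      · exact (h5 h).elim
      · have := (H4.five_dvd_iff Fintype.card_pos).1 (H4.five_dvd_of_a5' h)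
        omega
      · exact h.trans (Nat.card_eq_fintype_card (α := F) ▸
          Nat.card_le_card_of_injective _ E.subtype.injective)
    have h7 : ∀ E : Subfield F, 4 ≤ Nat.card E → E = ⊤ := fun E hE => by
      by_contra h
      exact H4.not_isSolvable_pslS hE (h4 _ (H4.pslS_le_pL E) fun h0 =>
        h (H4.eq_top_of_pL_le (P := 1) (by rw [H4.cj_one, ← h0]; exact H4.pslS_le_pglS E)))
    have h8 : 6 ≤ Fintype.card F → Fintype.card F % 5 = 2 ∨ Fintype.card F % 5 = 3 := fun h => by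
      by_contra h9
      obtain ⟨B, -, hB⟩ := H4.exists_a5_le (E := (⊤ : Subfield F)) (by
        rw [H4.card_subfield_top, Nat.card_eq_fintype_card, H4.five_dvd_iff Fintype.card_pos]
        omega)
      exact H4.not_isSolvable_a5 (H4.isSolvable_of_equiv ⟨hB.some.symm⟩ (h4 B (H4.a5_le_pL hB)
        (H4.ne_pL_of_card h (by rw [H4.card_of_equiv hB, H4.card_a5]; norm_num))))
    have h9 : m ≠ 1 → m.Prime := fun h => by
      obtain ⟨r, hr, a, rfl⟩ := Nat.exists_prime_and_dvd h
      obtain ⟨E, -, hE⟩ := H4.exists_subfield_between E₀ hm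
      have h10 := H4.card_eq_of_top (h7 E (by
        rw [hE, h0]
        calc 4 = 2 ^ 2 := rfl
          _ ≤ p ^ 2 := Nat.pow_le_pow_left hp.two_le 2
          _ ≤ _ := Nat.pow_le_pow_right hp.pos hr.two_le))
      rw [hE, h0, hm'] at h10
      rwa [Nat.pow_right_injective hp.two_le h10]
    by_cases hp2 : p = 2
    · subst hp2
      exact Or.inl ⟨m, h9 fun h => by rw [h] at hm'; omega, hm'⟩
    by_cases hp3 : p = 3
    · subst hp3
      exact Or.inr (Or.inl ⟨m, h9 fun h => by rw [h] at hm'; omega, fun h => by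
        rw [h] at hm'; omega, hm'⟩)
    have h10 := (H4.card_eq_of_top (h7 E₀ (by have := hp.two_le; omega))).trans h0
    by_cases hp5 : p = 5
    · exact Or.inr (Or.inr (Or.inr (h10.trans hp5)))
    · have h11 : p ≠ 4 := by rintro rfl; exact absurd hp (by decide)
      exact Or.inr (Or.inr (Or.inl ⟨h10 ▸ hp, by omega, h8 (by omega)⟩))
  · intro h
    have hpq := H4.char_dvd_card (F := F) p
    have h4 : 4 ≤ Fintype.card F := by
      rcases h with ⟨r, hr, h⟩ | ⟨r, hr, -, h⟩ | h | h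
      · exact h ▸ Nat.pow_le_pow_right two_pos hr.two_le
      · exact h ▸ (by norm_num : 4 ≤ 3 ^ 2).trans (Nat.pow_le_pow_right three_pos hr.two_le)
      · omega
      · omega
    have h5 := H22.PSL_fin_isSimpleGroup (F := F) 2 le_rfl fun _ => h4
    refine ⟨h5, fun h6 => H4.not_comm_pslS (⊤ : Subfield F) fun a b => ?_, fun H hH => ?_⟩
    · obtain ⟨e⟩ := H4.pslS_top (F := F) ▸ H4.pL_equiv (F := F)
      exact e.injective (by rw [map_mul, map_mul, h6.1.1])
    refine H4.isSolvable_of_equiv (H4.nonempty_map_psl H) ?_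
    rcases H4.solvable_or p (H.map H4.psl2pgl) with h6 | ⟨h6, h7, h8⟩ | ⟨E, P, h6, h7⟩
    · exact h6
    · exfalso
      have h9 := (H4.five_dvd_iff Fintype.card_pos).1 (H4.five_dvd_of_a5' h8)
      rcases h with ⟨r, hr, h⟩ | ⟨r, hr, hr2, h⟩ | h | h
      · exact h6 ((Nat.prime_dvd_prime_iff_eq hp Nat.prime_two).1 (hp.dvd_of_dvd_pow (h ▸ hpq)))
      · have := H4.three_pow_mod (hr.eq_two_or_odd.resolve_left hr2)
        omega
      · omega
      · exact h7 ((Nat.prime_dvd_prime_iff_eq hp Nat.prime_five).1 (h ▸ hpq))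
    · refine (H4.map_psl_ne hH (H4.eq_pL_of_top (H4.map_psl_le H) (P := P) ?_)).elim
      suffices h8 : E = ⊤ by rwa [h8] at h7
      have k : ∀ s r : ℕ, s.Prime → s < 4 → r.Prime → Fintype.card F = s ^ r → E = ⊤ :=
        fun s r hs hs4 hr h => by
          have h8 := (Nat.prime_dvd_prime_iff_eq hp hs).1 (hp.dvd_of_dvd_pow (h ▸ hpq))
          subst h8
          refine (H4.subfield_eq_or hr (by rw [Nat.card_eq_fintype_card, h, h0])
            (H4.le_prime_subfield p h0 E)).resolve_left fun h9 => ?_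
          rw [h9] at h6
          omega
      rcases h with ⟨r, hr, h⟩ | ⟨r, hr, -, h⟩ | h | h
      · exact k 2 r Nat.prime_two (by norm_num) hr h
      · exact k 3 r Nat.prime_three (by norm_num) hr h
      · exact H4.eq_top_of_prime (by rw [Nat.card_eq_fintype_card]; exact h.1) E
      · exact H4.eq_top_of_prime (by rw [Nat.card_eq_fintype_card, h]; exact Nat.prime_five) E

end Cfsg.Agent.S0810
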