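import Cfsg.Statements.S0811
import Cfsg.Agent.H4.Dk4

set_option autoImplicit false
open Cfsg

namespace Cfsg.Agent.S0811

/-- For q ∉ {2, 7, 9}, PSL_2(q) has a maximal subgroup isomorphic to the dihedral group of order 2(q + 1)/d, d = gcd(2, q − 1). -/
theorem result {F : Type*} [Field F] [Fintype F] {q : ℕ} (hF : Fintype.card F = q) (hq : q ∉ ({2, 7, 9} : Finset ℕ)) : ∃ H : Subgroup (Matrix.ProjectiveSpecialLinearGroup (Fin 2) F), IsCoatom H ∧ Nonempty (H ≃* DihedralGroup ((q + 1) / Nat.gcd 2 (q - 1))) := by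
  subst hF
  simp only [Finset.mem_insert, Finset.mem_singleton, not_or] at hq
  obtain ⟨g, hg⟩ := H4.exists_ell_gl (F := F)
  have hT := H4.card_pT_ell hg
  have hd : H4.disc g.1 ≠ 0 := hg.disc_ne_zero
  refine H4.exists_coatom_of (H4.covBy_pN_ell hd hT hq.1 hq.2.1 hq.2.2) ?_
  have := H4.pN_pL_equiv hd
  rwa [H4.card_pT_pL' hd, hT] at this

end Cfsg.Agent.S0811
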