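import Cfsg.Statements.S0819
import Cfsg.Agent.H22.IsoE

set_option autoImplicit false
open Cfsg

namespace Cfsg.Agent.S0819

open H22 Matrix MatrixGroups

/-- coefficients of the powers -/
def co (a b c : GF4) : ℕ → GF4 × GF4 × GF4
  | 0 => (0, 0, 1)
  | n + 1 => ((co a b c n).1 * a + (co a b c n).2.1, (co a b c n).1 * b + (co a b c n).2.2,
      (co a b c n).1 * c)

theorem pow_eq {A : Matrix (Fin 3) (Fin 3) GF4} {a b c : GF4} (h : A ^ 3 = a • A ^ 2 + b • A + c • 1)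
    (n : ℕ) : A ^ n = (co a b c n).1 • A ^ 2 + (co a b c n).2.1 • A + (co a b c n).2.2 • 1 := by
  induction n with
  | zero => simp [co]
  | succ n ih =>
    rw [pow_succ, ih]
    simp only [add_mul, smul_mul_assoc, ← pow_succ, h, co, ← sq, one_mul]
    module

theorem ch {R : Type*} [CommRing R] (A : Matrix (Fin 3) (Fin 3) R) :
    ∃ a b : R, A ^ 3 = a • A ^ 2 + b • A + A.det • 1 := by
  refine ⟨A 0 0 + A 1 1 + A 2 2, A 0 1 * A 1 0 + A 0 2 * A 2 0 + A 1 2 * A 2 1 - A 0 0 * A 1 1 -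
    A 0 0 * A 2 2 - A 1 1 * A 2 2, ?_⟩
  ext i j
  fin_cases i <;> fin_cases j <;> simp [pow_succ, mul_apply, Fin.sum_univ_three, det_fin_three] <;>
    ring

theorem co1 : ∀ a b : GF4, (co a b 1 15).1 = 0 → (co a b 1 15).2.1 = 0 →
    ((co a b 1 5).1 = 0 ∧ (co a b 1 5).2.1 = 0) ∨ ((co a b 1 3).1 = 0 ∧ (co a b 1 3).2.1 = 0) := by
  decide +kernel

theorem co2 : ∀ s t : GF4, ∃ n ∈ [2, 3, 5], (co s t 0 n).1 * s + (co s t 0 n).2.1 = 0 ∨ t = 0 := by
  decide +kernel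

theorem key (g : SL(3, GF4)) (h : g ^ 15 ∈ Subgroup.center _) :
    ∃ n ∈ [2, 3, 5], g ^ n ∈ Subgroup.center _ := by
  have hc : ∀ (n : ℕ) (c : GF4), g.1 ^ n = c • 1 → g ^ n ∈ Subgroup.center _ := fun n c h =>
    Subgroup.mem_center_iff.mpr fun k => Subtype.ext (by simp [h])
  have h2 : ∀ s t : GF4, g.1 ^ 2 = s • g.1 + t • 1 → ∃ n ∈ [2, 3, 5], g ^ n ∈ Subgroup.center _ := by
    intro s t h
    obtain ⟨n, hn, h1 | rfl⟩ := co2 s t
    · refine ⟨n, hn, hc n ((co s t 0 n).1 * t + (co s t 0 n).2.2) ?_⟩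
      rw [pow_eq (a := s) (b := t) (c := 0) (by
        rw [pow_succ, h, add_mul, smul_mul_assoc, ← sq, h]; simp), h]
      linear_combination (norm := module) h1 • g.1
    · refine ⟨2, by simp, pow_mem (pow_one g ▸ hc 1 s ?_) 2⟩
      have := congrArg (· * (g⁻¹).1) h
      have e : g.1 * (g⁻¹).1 = 1 := congrArg Subtype.val (mul_inv_cancel g)
      simpa only [sq, mul_assoc, e, mul_one, zero_smul, add_zero, smul_mul_assoc, pow_one] using this
  obtain ⟨a, b, h3⟩ : ∃ a b : GF4, g.1 ^ 3 = a • g.1 ^ 2 + b • g.1 + (1 : GF4) • 1 := by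
    simpa only [g.2] using ch g.1
  obtain ⟨r, -, hr⟩ := Matrix.SpecialLinearGroup.mem_center_iff.mp h
  have h4 := pow_eq h3 15
  rw [← Matrix.SpecialLinearGroup.coe_pow, ← hr, scalar_apply, ← smul_one_eq_diagonal] at h4
  by_cases h5 : (co a b 1 15).1 = 0
  · by_cases h6 : (co a b 1 15).2.1 = 0
    · rcases co1 a b h5 h6 with h | h
      · exact ⟨5, by simp, hc _ _ (by rw [pow_eq h3, h.1, h.2, zero_smul, zero_smul, zero_add,
          zero_add])⟩
      · exact ⟨3, by simp, hc _ _ (by rw [pow_eq h3, h.1, h.2, zero_smul, zero_smul, zero_add,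
          zero_add])⟩
    · refine ⟨2, by simp, pow_mem (pow_one g ▸ hc 1 ((co a b 1 15).2.1⁻¹ * (r - (co a b 1 15).2.2))
        ?_) 2⟩
      rw [mul_smul, eq_inv_smul_iff₀ h6, sub_smul, h4, h5]
      simp
  · refine h2 (-(co a b 1 15).1⁻¹ * (co a b 1 15).2.1) ((co a b 1 15).1⁻¹ * (r - (co a b 1 15).2.2)) ?_
    rw [neg_mul_comm, mul_smul, mul_smul, ← smul_add, eq_inv_smul_iff₀ h5, sub_smul, h4]
    module

/-- No element of PSL_3(4) has order 15. -/
theorem result {F : Type*} [Field F] [Fintype F] (hF : Fintype.card F = 4) (g : Matrix.ProjectiveSpecialLinearGroup (Fin 3) F) : orderOf g ≠ 15 := by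
  intro hg
  let e := quotCenterCongr (slCongr (FiniteField.ringEquivOfCardEq (hF.trans card_GF4.symm)) (Fin 3))
  rw [← e.orderOf_eq] at hg
  generalize e g = x at hg
  obtain ⟨x, rfl⟩ := QuotientGroup.mk_surjective x
  obtain ⟨n, hn, h⟩ := key x (by
    rw [← QuotientGroup.eq_one_iff, QuotientGroup.mk_pow, ← hg, pow_orderOf_eq_one])
  rw [← QuotientGroup.eq_one_iff, QuotientGroup.mk_pow, ← orderOf_dvd_iff_pow_eq_one, hg] at h
  revert n
  decide

end Cfsg.Agent.S0819
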