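import Cfsg.Statements.S2579
import Cfsg.Agent.H16.LA4
-- import your own Cfsg.Agent.* helpers here

set_option autoImplicit false
open Cfsg

namespace Cfsg.Agent.S2579

open H16 Polynomial in
/-- In SL_n(F) with n ≥ 3, over a finite field F, any two transvections (matrices t with t − 1 of rank one and square zero) are conjugate by an element of SL_n(F). -/
theorem result {F : Type*} [Field F] [Finite F] {n : ℕ} (hn : 3 ≤ n) (s t : Matrix.SpecialLinearGroup (Fin n) F) (hs : Cfsg.IsTransvection (s : Matrix (Fin n) (Fin n) F)) (ht : Cfsg.IsTransvection (t : Matrix (Fin n) (Fin n) F)) : IsConj s t := by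
  have h3 := (edM_of_sq_zero (A := s.1) (by rw [pow_two]; exact hs.2)).1
  have h4 := (edM_of_sq_zero (A := t.1) (by rw [pow_two]; exact ht.2)).1
  rw [hs.1] at h3
  rw [ht.1] at h4
  refine SL_isConj_of_edM (h3.trans h4.symm) fun c hc => ?_
  have hq : (X - C 1 : F[X]) ^ 1 ∈ edM s.1 := by
    rw [h3]
    refine Multiset.mem_map_of_mem _ (Multiset.mem_add.2 (Or.inr ?_))
    rw [Multiset.mem_replicate, Fintype.card_fin]; omega
  simpa [-map_one] using exists_comm_det_powM hq c

end Cfsg.Agent.S2579
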