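import Cfsg.Statements.S0820
import Cfsg.Agent.H22.IsoE
import Cfsg.Agent.S2579

set_option autoImplicit false
open Cfsg

namespace Cfsg.Agent.S0820

open Matrix MatrixGroups in
theorem lift {F : Type*} [Field F] [Fintype F] (hF : Fintype.card F = 4) (x : PSL(3, F))
    (hx : orderOf x = 2) : ∃ t : SL(3, F), IsTransvection t.1 ∧ (t : PSL(3, F)) = x := by
  obtain ⟨g, rfl⟩ := QuotientGroup.mk_surjective x
  have h2 : (2 : F) = 0 := by
    by_contra h
    exact absurd (hF ▸ H22.odd_card_of_two_ne_zero h) (by decide)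
  have h1 : g ^ 2 ∈ Subgroup.center _ := by
    rw [← QuotientGroup.eq_one_iff, QuotientGroup.mk_pow, ← hx, pow_orderOf_eq_one]
  have h3 : (g ^ 2) ^ 3 = 1 := by
    have := pow_card_eq_one' (x := (⟨_, h1⟩ : Subgroup.center _))
    rw [H22.card_center_SL 3 (by omega), hF] at this
    exact congrArg Subtype.val this
  have h4 : ((g ^ 3 : SL(3, F)) : PSL(3, F)) = g := by
    rw [pow_succ, QuotientGroup.mk_mul, (QuotientGroup.eq_one_iff _).mpr h1, one_mul]
  have h5 : ((g ^ 3).1 - 1) * ((g ^ 3).1 - 1) = 0 := by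
    have : (g ^ 3).1 * (g ^ 3).1 = 1 := by
      rw [← pow_mul, show 2 * 3 = 3 + 3 from rfl, pow_add] at h3
      exact congrArg Subtype.val h3
    rw [sub_mul, mul_sub, mul_sub, this, mul_one, one_mul, one_mul, sub_sub_sub_eq, ← two_smul F,
      ← two_smul F, h2]
    simp
  refine ⟨g ^ 3, ⟨?_, h5⟩, h4⟩
  have h6 := rank_add_rank_le_card_of_mul_eq_zero h5
  have h7 : ((g ^ 3).1 - 1).rank ≠ 0 := fun h => by
    have h := sub_eq_zero.mp (toLin'.injective ((LinearMap.range_eq_bot.mp
      (Submodule.finrank_eq_zero.mp h)).trans (map_zero _).symm))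
    rw [← h4, show g ^ 3 = 1 from Subtype.ext h] at hx
    simp at hx
  rw [Fintype.card_fin] at h6
  omega

/-- Any two elements of order 2 of PSL_3(4) are conjugate. -/
theorem result {F : Type*} [Field F] [Fintype F] (hF : Fintype.card F = 4) (x y : Matrix.ProjectiveSpecialLinearGroup (Fin 3) F) (hx : orderOf x = 2) (hy : orderOf y = 2) : IsConj x y := by
  obtain ⟨s, hs, rfl⟩ := lift hF x hx
  obtain ⟨t, ht, rfl⟩ := lift hF y hy
  exact (QuotientGroup.mk' _).map_isConj (S2579.result le_rfl s t hs ht)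

end Cfsg.Agent.S0820
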