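import Cfsg.Statements.S0821
import Cfsg.Agent.H22.FldH

set_option autoImplicit false
open Cfsg

namespace Cfsg.Agent.S0821

open Module H22 H23 H23.Form

/-- PSp_2m(q) ≇ PΩ_(2m+1)(q) for q odd and m ≥ 3 (they have the same order). -/
theorem result {F : Type*} [Field F] [Fintype F] (hodd : Odd (Fintype.card F)) (m : ℕ) (hm : 3 ≤ m) : IsEmpty (Cfsg.PSp m F ≃* Cfsg.POmega F (Cfsg.quadFormOdd m F)) := by
  refine ⟨fun α => ?_⟩
  have h2 := H22.two_ne_zero_of_odd_card hodd
  have m₁ := oddModel h2 (show 2 ≤ m by omega)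
  have m₂ := spModel (F := F) m (by omega)
  obtain ⟨p, _, n, hp, hn⟩ := FiniteField.card' F
  have := Fact.mk hp
  have := m₁.finite
  have := m₂.finite
  have H := m₁.corr α.symm m₂
  have hAB : ∀ a : F, a = (ofQuad (qOdd m F)).ε * RingHom.id F a := fun a => (one_mul a).symm
  rcases H.exists_rel_AB (p := p) hAB with ⟨e, e', h⟩ | ⟨e, X, -, -, -, a4, -, a6⟩
  · have hΦ := H22.spForm_nondeg (F := F) m
    obtain ⟨u, hu, hu'⟩ := exists_perp_not_mem hΦ H.p₂.three e'
    obtain ⟨u₁, h1, u₂, h3, h4⟩ := exists_B_ne_of_not_le hΦ (X := F ∙ e') fun h =>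
      hu' (h (by simpa [mem_perp_span_singleton] using hu))
    have d : ∀ u ∈ (H22.spForm m F).perp (F ∙ e'), EichData (H22.spForm m F) e' u 0 := fun u hu =>
      ⟨h.s₂, hu _ (Submodule.mem_span_singleton_self _), by simp [H22.spForm_B, H22.sympForm_eq, mul_comm], by simp⟩
    obtain ⟨γ₁, a1, a2⟩ := H.symm.lift_eich (p := p) (d u₁ h1)
    obtain ⟨γ₂, a3, a4⟩ := H.symm.lift_eich (p := p) (d u₂ h3)
    have := ((H.liftOK (p := p)).commute a1 (radX_single_comm (qOdd_nondeg h2 m) hAB h.s₁ h.n₁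
      (H.symm.rad h.symm a1 (a2 ▸ eich_mem_radX_single _ _))
      (H.symm.rad h.symm a3 (a4 ▸ eich_mem_radX_single _ _)))).map
      ((spEquiv m F).toMonoidHom.comp (pb₂ α.symm))
    rw [a2, a4] at this
    obtain ⟨f, hf⟩ := hΦ.exists_ne h.n₂
    have h5 := congrArg (fun g : (H22.spForm m F).O => g.1 f) this.eq
    have h6 := (H22.spForm m F).symm u₁ u₂
    simp only [O_mul_apply, eich_apply, map_add, map_smul, (d u₁ h1).perp, (d u₂ h3).perp, h.s₂.1,
      (H22.spForm m F).B_eq_zero_symm (d u₁ h1).perp, (H22.spForm m F).B_eq_zero_symm (d u₂ h3).perp, hf,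
      smul_eq_mul, h6] at h5
    refine h.n₂ ((smul_eq_zero (r := 2 * (H22.spForm m F).B u₁ u₂)).mp ?_ |>.resolve_left
      (mul_ne_zero h2 h4))
    simp at h5
    linear_combination (norm := module) h5
  · have b1 := finrank_of_perp_eq (H22.spForm_nondeg m) a4
    simp at b1
    have := a6 (by omega)
    rw [tr_quad (ofQuad _) rfl, tr_alt _ rfl rfl, ← pow_add, mul_one,
      Nat.pow_le_pow_iff_right Fintype.one_lt_card] at this
    simp at this
    omega

end Cfsg.Agent.S0821
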