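import Cfsg.Statements.S0828
import Cfsg.Agent.H23.Count2

set_option autoImplicit false
open Cfsg

namespace Cfsg.Agent.S0828

theorem card_diff {F V : Type*} [Field F] [Fintype F] [AddCommGroup V] [Module F V]
    [FiniteDimensional F V] {U W : Submodule F V} (h : U ≤ W) :
    Nat.card {w // w ∈ W ∧ w ∉ U} + Fintype.card F ^ Module.finrank F U =
      Fintype.card F ^ Module.finrank F W := by
  have : Finite V := Module.finite_of_finite F
  rw [← Nat.card_eq_fintype_card, ← Module.natCard_eq_pow_finrank, ← Module.natCard_eq_pow_finrank]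
  exact Set.ncard_sdiff_add_ncard_of_subset (s := (U : Set V)) (t := W) h


/-- The symplectic generalised quadrangle over a field with q elements: the number of 2-dimensional subspaces of F^4 on which the symplectic form vanishes is (q + 1)(q² + 1), and every non-zero vector lies in exactly q + 1 of them. -/
theorem result {F : Type*} [Field F] [Fintype F] {q : ℕ} (hF : Fintype.card F = q) : Nat.card {W : Submodule F (Fin 2 ⊕ Fin 2 → F) // Module.finrank F W = 2 ∧ ∀ u ∈ W, ∀ v ∈ W, Cfsg.sympForm 2 F u v = 0} = (q + 1) * (q ^ 2 + 1) ∧ ∀ v : Fin 2 ⊕ Fin 2 → F, v ≠ 0 → Nat.card {W : Submodule F (Fin 2 ⊕ Fin 2 → F) // Module.finrank F W = 2 ∧ v ∈ W ∧ ∀ u ∈ W, ∀ w ∈ W, Cfsg.sympForm 2 F u w = 0} = q + 1 := by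
  have hΦ := H23.spForm_nondeg (F := F) 2
  set Φ := H23.spForm 2 F
  have hB : ∀ u v, Φ.B u v = sympForm 2 F u v := H23.spForm_B 2
  have hq : 1 < q := hF ▸ Fintype.one_lt_card
  obtain ⟨r, rfl⟩ : ∃ r, q = r + 1 := ⟨q - 1, by omega⟩
  have hr : 0 < r := by omega
  have hV : Module.finrank F (Fin 2 ⊕ Fin 2 → F) = 4 := by simp
  have h2 : ∀ v : Fin 2 ⊕ Fin 2 → F, v ≠ 0 → Nat.card {W : Submodule F (Fin 2 ⊕ Fin 2 → F) //
      Module.finrank F W = 2 ∧ v ∈ W ∧ ∀ u ∈ W, ∀ w ∈ W, Cfsg.sympForm 2 F u w = 0} = r + 1 + 1 := by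
    intro v hv
    let f : {w // w ∈ Φ.perp (F ∙ v) ∧ w ∉ F ∙ v} → {W : Submodule F (Fin 2 ⊕ Fin 2 → F) //
        Module.finrank F W = 2 ∧ v ∈ W ∧ ∀ u ∈ W, ∀ w ∈ W, Cfsg.sympForm 2 F u w = 0} := fun w =>
      ⟨(F ∙ v) ⊔ F ∙ w.1, by
        rw [H23.Form.finrank_sup_span_of_notMem w.2.2, finrank_span_singleton hv],
        Submodule.mem_sup_left (Submodule.mem_span_singleton_self v), by
        have := ((H23.Form.totSing_span_singleton (Φ := Φ) (v := v)
          ((hB _ _).trans (H23.sympForm_self _ _)) rfl).sup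
          (H23.Form.totSing_span_singleton (v := w.1) ((hB _ _).trans (H23.sympForm_self _ _)) rfl)
          ((Submodule.span_singleton_le_iff_mem _ _).2 w.2.1)).1
        simpa only [hB] using this⟩
    have h1 := Nat.card_congr (Equiv.sigmaFiberEquiv f)
    have h3 : ∀ W, Nat.card {w // f w = W} = (r + 1) * r := by
      rintro ⟨W, hW1, hW2, hW3⟩
      have hle : F ∙ v ≤ W := (Submodule.span_singleton_le_iff_mem _ _).2 hW2
      have h4 := card_diff hle
      rw [hW1, finrank_span_singleton hv, hF] at h4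
      have : Nat.card {w // f w = ⟨W, hW1, hW2, hW3⟩} = Nat.card {w // w ∈ W ∧ w ∉ F ∙ v} := by
        refine Nat.card_congr ⟨fun w => ⟨w.1.1, ?_, w.1.2.2⟩, fun w => ⟨⟨w.1, ?_, w.2.2⟩, ?_⟩,
          fun _ => rfl, fun _ => rfl⟩
        · exact (show _ = W from congrArg Subtype.val w.2).le
            (Submodule.mem_sup_right (Submodule.mem_span_singleton_self _))
        · exact Φ.mem_perp_span_singleton.2 ((hB _ _).trans (hW3 _ hW2 _ w.2.1))
        · refine Subtype.ext (Submodule.eq_of_le_of_finrank_eq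
            (sup_le hle ((Submodule.span_singleton_le_iff_mem _ _).2 w.2.1)) ?_)
          simp only [f]
          rw [H23.Form.finrank_sup_span_of_notMem w.2.2, finrank_span_singleton hv, hW1]
      rw [this]; nlinarith
    have h4 := card_diff (H23.Form.totSing_span_singleton (Φ := Φ) (v := v)
          ((hB _ _).trans (H23.sympForm_self _ _)) rfl).le_perp
    rw [hΦ.finrank_perp, finrank_span_singleton hv, hV, hF, ← h1] at h4
    have := Fintype.ofFinite {W : Submodule F (Fin 2 ⊕ Fin 2 → F) //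
        Module.finrank F W = 2 ∧ v ∈ W ∧ ∀ u ∈ W, ∀ w ∈ W, Cfsg.sympForm 2 F u w = 0}
    rw [Nat.card_sigma] at h4
    simp only [h3, Finset.sum_const, Finset.card_univ, smul_eq_mul] at h4
    rw [Nat.card_eq_fintype_card]
    refine Nat.eq_of_mul_eq_mul_right (show 0 < (r + 1) * r by positivity) ?_
    norm_num at h4
    nlinarith
  refine ⟨?_, h2⟩
  obtain ⟨⟨W, hW, -, hW'⟩⟩ := (Nat.card_ne_zero.1 ((h2 1 one_ne_zero).trans_ne (by omega))).1
  have hT : Φ.TotSing W := ⟨fun u hu v hv => (hB _ _).trans (hW' u hu v hv), fun _ _ => rfl⟩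
  obtain ⟨D, -, hD, hD1, hD2⟩ := hΦ.exists_card_Fix_totSing hT hW (d := 0) (by simp)
  have h := hΦ.card_totSing_mul hT
  rw [hΦ.card_Stab_totSing hT, hD2, H23.card_linearEquiv hW, H22.tr_alt _ rfl rfl,
    H22.card_O_alt 0 _ hD rfl rfl hD1, H22.card_O_alt 2 _ hΦ rfl rfl hV, hF, hW] at h
  have e : Nat.card {W : Submodule F (Fin 2 ⊕ Fin 2 → F) // Module.finrank F W = 2 ∧
      ∀ u ∈ W, ∀ v ∈ W, Cfsg.sympForm 2 F u v = 0} =
      Nat.card {U : Submodule F (Fin 2 ⊕ Fin 2 → F) // Module.finrank F U = 2 ∧ Φ.TotSing U} :=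
    Nat.card_congr (Equiv.subtypeEquivRight fun W => and_congr_right fun _ =>
      ⟨fun h => ⟨fun u hu v hv => (hB _ _).trans (h u hu v hv), fun _ _ => rfl⟩,
        fun h u hu v hv => (hB _ _).symm.trans (h.1 u hu v hv)⟩)
  rw [e]
  simp only [Finset.prod_range_succ, Finset.prod_range_zero, Fin.prod_univ_two] at h
  norm_num at h
  have e2 : (r + 1) ^ 2 - (r + 1) = (r + 1) * r := Nat.sub_eq_of_eq_add (by ring)
  have e3 : (r + 1) ^ 2 - 1 = r * (r + 2) := Nat.sub_eq_of_eq_add (by ring)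
  have e4 : (r + 1) ^ 4 - 1 = r * (r + 2) * (r ^ 2 + 2 * r + 2) := Nat.sub_eq_of_eq_add (by ring)
  rw [e2, e3, e4] at h
  refine Nat.eq_of_mul_eq_mul_right (by positivity) (h.trans ?_)
  ring

end Cfsg.Agent.S0828
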