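import Cfsg.Statements.S0831
import Cfsg.Agent.H23.Count
import Cfsg.Agent.H22.Orders

set_option autoImplicit false
open Cfsg

namespace Cfsg.Agent.S0831


/-- The two families of maximal totally singular subspaces of the hyperbolic quadric: for the form Σ x_i y_i on F^(2m), m ≥ 1, and m-dimensional subspaces U, W, X on which it vanishes, the parities of m − dim(U ∩ W), m − dim(W ∩ X) and m − dim(U ∩ X) sum to an even number (so 'even codimension of the intersection' is an equivalence relation), and there exist two such subspaces meeting in codimension 1 (so there are exactly two classes). -/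
theorem result {F : Type*} [Field F] (m : ℕ) (hm : 1 ≤ m) : (∀ U W X : Submodule F (Fin m ⊕ Fin m → F), (Module.finrank F U = m ∧ ∀ w ∈ U, Cfsg.quadFormPlus m F w = 0) → (Module.finrank F W = m ∧ ∀ w ∈ W, Cfsg.quadFormPlus m F w = 0) → (Module.finrank F X = m ∧ ∀ w ∈ X, Cfsg.quadFormPlus m F w = 0) → Even ((m - Module.finrank F ↥(U ⊓ W)) + (m - Module.finrank F ↥(W ⊓ X)) + (m - Module.finrank F ↥(U ⊓ X)))) ∧ ∃ U W : Submodule F (Fin m ⊕ Fin m → F), (Module.finrank F U = m ∧ ∀ w ∈ U, Cfsg.quadFormPlus m F w = 0) ∧ (Module.finrank F W = m ∧ ∀ w ∈ W, Cfsg.quadFormPlus m F w = 0) ∧ Module.finrank F ↥(U ⊓ W) + 1 = m := by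
  have hΦ := H22.qPlus_nondeg (F := F) m
  have hV : Module.finrank F (Fin m ⊕ Fin m → F) = 2 * m := by simp; ring
  have hT : ∀ {W : Submodule F (Fin m ⊕ Fin m → F)}, (H23.Form.ofQuad (H22.qPlus m F)).TotSing W ↔
      ∀ w ∈ W, Cfsg.quadFormPlus m F w = 0 := H23.Form.totSing_ofQuad
  constructor
  · intro U W X hU hW hX
    have h1 : Module.finrank F ↥(U ⊓ W) ≤ m := (Submodule.finrank_mono inf_le_left).trans hU.1.le
    exact H23.Form.even_families hΦ rfl hV (hT.2 hW.2) (hT.2 hX.2) hW.1 hX.1 _ U (hT.2 hU.2) hU.1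
      (by omega)
  · let U : Submodule F (Fin m ⊕ Fin m → F) := LinearMap.ker (LinearMap.funLeft F F Sum.inr)
    have hU : ∀ w ∈ U, Cfsg.quadFormPlus m F w = 0 := fun w hw => by
      have : ∀ i, w (Sum.inr i) = 0 := congrFun hw
      simp [Cfsg.quadFormPlus, this]
    have hUm : Module.finrank F U = m := by
      have h1 := LinearMap.finrank_range_add_finrank_ker
        (LinearMap.funLeft F F (Sum.inr : Fin m → Fin m ⊕ Fin m))
      rw [LinearMap.range_eq_top.2 (LinearMap.funLeft_surjective_of_injective F F _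
        Sum.inr_injective), hV] at h1
      simp at h1
      dsimp only [U]; omega
    obtain ⟨W, h1, h2, h3, -⟩ := H23.Form.exists_adj hΦ (hT.2 hU) hV hUm
      (w := Pi.single (Sum.inr ⟨0, hm⟩) 1) (H22.sing_ofQuad.2 (by simp [H22.qPlus_apply]))
      (fun h => by simpa using congrFun h ⟨0, hm⟩)
    exact ⟨U, W, ⟨hUm, hU⟩, ⟨h2, hT.1 h1⟩, h3⟩

end Cfsg.Agent.S0831
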