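import Cfsg.Statements.S0832
import Cfsg.Agent.H23.Count
import Cfsg.Agent.H22.Orders

set_option autoImplicit false
open Cfsg

namespace Cfsg.Agent.S0832


/-- For the form Σ x_i y_i on F^(2m) over a finite field, m ≥ 1: an (m−1)-dimensional subspace on which the form vanishes is contained in exactly two m-dimensional subspaces on which it vanishes. -/
theorem result {F : Type*} [Field F] [Finite F] (m : ℕ) (hm : 1 ≤ m) (U : Submodule F (Fin m ⊕ Fin m → F)) (hU : Module.finrank F U + 1 = m ∧ ∀ u ∈ U, Cfsg.quadFormPlus m F u = 0) : Nat.card {W : Submodule F (Fin m ⊕ Fin m → F) // Module.finrank F W = m ∧ (∀ w ∈ W, Cfsg.quadFormPlus m F w = 0) ∧ U ≤ W} = 2 := by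
  have hΦ := H22.qPlus_nondeg (F := F) m
  set Φ := H23.Form.ofQuad (H22.qPlus m F)
  have hV : Module.finrank F (Fin m ⊕ Fin m → F) = 2 * m := by simp; ring
  have hT : ∀ {W : Submodule F (Fin m ⊕ Fin m → F)}, Φ.TotSing W ↔
      ∀ w ∈ W, Cfsg.quadFormPlus m F w = 0 := H23.Form.totSing_ofQuad
  let U0 : Submodule F (Fin m ⊕ Fin m → F) := LinearMap.ker (LinearMap.funLeft F F Sum.inr)
  have hU0 : ∀ w ∈ U0, Cfsg.quadFormPlus m F w = 0 := fun w hw => by
    have : ∀ i, w (Sum.inr i) = 0 := congrFun hw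
    simp [Cfsg.quadFormPlus, this]
  have hUm : Module.finrank F U0 = m := by
    have h1 := LinearMap.finrank_range_add_finrank_ker
      (LinearMap.funLeft F F (Sum.inr : Fin m → Fin m ⊕ Fin m))
    rw [LinearMap.range_eq_top.2 (LinearMap.funLeft_surjective_of_injective F F _
      Sum.inr_injective), hV] at h1
    simp at h1
    dsimp only [U0]; omega
  have hUT := hT.2 hU.2
  obtain ⟨g, hg, h1⟩ := hΦ.exists_map_le hUT (hT.2 hU0) (by omega)
  obtain ⟨A, hA, hAm, hUA⟩ : ∃ A, Φ.TotSing A ∧ Module.finrank F A = m ∧ U ≤ A :=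
    ⟨U0.map g⁻¹.toLinearMap, (hT.2 hU0).map (inv_mem hg), (LinearEquiv.finrank_map_eq _ _).trans hUm,
      fun u hu => ⟨g u, h1 ⟨u, hu, rfl⟩, g.symm_apply_apply u⟩⟩
  obtain ⟨e, he, heU⟩ := SetLike.exists_of_lt (lt_of_le_of_ne hUA fun h => by
    rw [h] at hU; omega)
  obtain ⟨f, hf1, hf2, hf3, hf4⟩ := hΦ.exists_partner heU (hA.1 e he e he) (hA.2 e he)
    fun z hz => hA.1 e he z (hUA hz)
  have hfA : f ∉ A := fun h => by simp [hA.1 e he f h] at hf3
  obtain ⟨B, hB, hBm, hAB, hfB, hB2⟩ := H23.Form.exists_adj hΦ hA hV hAm ⟨hf1, hf2⟩ hfA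
  have hUB : U ≤ B := fun u hu => hB2 ⟨hUA hu, Φ.mem_perp_span_singleton.2
    (Φ.B_eq_zero_symm (hf4 u hu))⟩
  have hI : U = A ⊓ B := Submodule.eq_of_le_of_finrank_eq (le_inf hUA hUB) (by omega)
  rw [Nat.card_eq_two_iff]
  refine ⟨⟨A, hAm, hT.1 hA, hUA⟩, ⟨B, hBm, hT.1 hB, hUB⟩, fun h => hfA ?_, ?_⟩
  · rw [show A = B from congrArg Subtype.val h]; exact hfB
  · rw [Set.eq_univ_iff_forall]
    rintro ⟨W, hWm, hW, hUW⟩
    obtain ⟨w, hw, hwU⟩ := SetLike.exists_of_lt (lt_of_le_of_ne hUW fun h => by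
      rw [h] at hU; omega)
    have key : ∀ {C : Submodule F (Fin m ⊕ Fin m → F)}, Module.finrank F C = m → U ≤ C → w ∈ C →
        U ⊔ F ∙ w = C := fun h1 h2 h3 => Submodule.eq_of_le_of_finrank_eq
      (sup_le h2 ((Submodule.span_singleton_le_iff_mem _ _).2 h3))
      (by rw [H23.Form.finrank_sup_span_of_notMem hwU]; omega)
    rcases H23.Form.mem_or_mem_of_adj hΦ rfl hA hB hV hAm hBm hAB (v := w)
      (hI ▸ fun u hu => (hT.2 hW).1 u (hUW hu) w hw) (hW w hw) with h | h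
    · exact Or.inl (Subtype.ext ((key hWm hUW hw).symm.trans (key hAm hUA h)))
    · exact Or.inr (Subtype.ext ((key hWm hUW hw).symm.trans (key hBm hUB h)))

end Cfsg.Agent.S0832
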