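import Cfsg.Statements.S0833
import Cfsg.Agent.H23.Disc

set_option autoImplicit false
open Cfsg

namespace Cfsg.Agent.S0833


/-- If B₁, B₂ are non-degenerate alternating forms on U (dim 2k) and W (dim 2l), then B₁ ⊗ B₂ on U ⊗ W is symmetric, non-degenerate, and vanishes identically on some subspace of dimension 2kl (half of dim U ⊗ W). -/
theorem result {F U W : Type*} [Field F] [Fintype F] [AddCommGroup U] [Module F U] [FiniteDimensional F U] [AddCommGroup W] [Module F W] [FiniteDimensional F W] (B₁ : LinearMap.BilinForm F U) (B₂ : LinearMap.BilinForm F W) (h₁ : B₁.Nondegenerate) (h₂ : B₂.Nondegenerate) (hA₁ : B₁.IsAlt) (hA₂ : B₂.IsAlt) (k l : ℕ) (hU : Module.finrank F U = 2 * k) (hW : Module.finrank F W = 2 * l) : (B₁.tmul B₂).IsSymm ∧ (B₁.tmul B₂).Nondegenerate ∧ (∃ X : Submodule F (TensorProduct F U W), Module.finrank F X = 2 * k * l ∧ ∀ x ∈ X, ∀ y ∈ X, (B₁.tmul B₂) x y = 0) := by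
  refine ⟨⟨fun x y => ?_⟩, H23.nondegenerate_tmul h₁ h₂, ?_⟩
  · simp only [RingHom.id_apply]
    induction x using TensorProduct.induction_on with
    | zero => simp
    | add a b ha hb => simp [ha, hb]
    | tmul a b =>
      induction y using TensorProduct.induction_on with
      | zero => simp
      | add a b ha hb => simp [ha, hb]
      | tmul c d => simp [← hA₁.neg_eq a c, ← hA₂.neg_eq b d]
  · obtain ⟨m, b, -, hb, -⟩ := H23.exists_symplectic_basis hA₁ h₁.1
    have hm : m = k := by
      have := Module.finrank_eq_card_basis b
      simp at this; omega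
    subst hm
    let c := Module.finBasisOfFinrankEq F W hW
    let v : Fin m × Fin (2 * l) → TensorProduct F U W := fun p => b (Sum.inl p.1) ⊗ₜ c p.2
    have hli : LinearIndependent F v := by
      have := (b.tensorProduct c).linearIndependent.comp
        (fun p : Fin m × Fin (2 * l) => (Sum.inl p.1, p.2)) (by
          rintro ⟨i, j⟩ ⟨i', j'⟩ h; simpa using h)
      have h2 : v = (b.tensorProduct c) ∘ (fun p : Fin m × Fin (2 * l) => (Sum.inl p.1, p.2)) := by
        ext p
        simp [v]
      rw [h2]
      exact this
    refine ⟨Submodule.span F (Set.range v), ?_, ?_⟩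
    · rw [finrank_span_eq_card hli]; simp; ring
    · intro x hx y hy
      induction hx using Submodule.span_induction with
      | zero => simp
      | add a b _ _ ha hb => simp [ha, hb]
      | smul c a _ ha => simp [ha]
      | mem x hx =>
        induction hy using Submodule.span_induction with
        | zero => simp
        | add a b _ _ ha hb => simp [ha, hb]
        | smul c a _ ha => simp [ha]
        | mem y hy =>
          obtain ⟨p, rfl⟩ := hx
          obtain ⟨p', rfl⟩ := hy
          simp [v, hb]

end Cfsg.Agent.S0833
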