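import Cfsg.Statements.S0837
import Cfsg.Agent.H23.Iso

set_option autoImplicit false
open Cfsg

namespace Cfsg.Agent.S0837


/-- If W ≤ F^n (|F| = q²) is a k-dimensional subspace on which the Hermitian form Σ x_i y_i^q is non-degenerate, then the stabiliser of W in GU_n(q) is isomorphic to GU_k(q) × GU_(n−k)(q). -/
theorem result {F : Type*} [Field F] [Fintype F] {q : ℕ} (hF : Fintype.card F = q ^ 2) (n k : ℕ) (hk : k ≤ n) (W : Submodule F (Fin n → F)) (hWk : Module.finrank F W = k) (hW : ∀ u ∈ W, (∀ v ∈ W, Cfsg.hermForm n F q u v = 0) → u = 0) : Nonempty (↥((Cfsg.stabilizing (Cfsg.glToMat (Fin n) F) (W : Set (Fin n → F))).subgroupOf (Cfsg.GU n F q)) ≃* ↥(Cfsg.GU k F q) × ↥(Cfsg.GU (n - k) F q)) := by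
  have hΦ := H23.huForm_nondeg hF n
  have h1 : ((H23.huForm hF n).restrict W).Nondeg := fun x hx =>
    Subtype.ext (hW x x.2 fun v hv => by
      simpa using (H23.huForm hF n).B_eq_zero_symm (hx ⟨v, hv⟩))
  have h2 := (H23.Form.nondeg_restrict_iff _).1 h1
  obtain ⟨e1, h3, h4⟩ := H23.exists_equiv_huForm hF h1 rfl hWk
  obtain ⟨e2, h5, h6⟩ := H23.exists_equiv_huForm hF (hΦ.nondeg_restrict_perp h2) rfl (n := n - k)
    (by rw [hΦ.finrank_perp, hWk]; simp)
  rw [H23.stabilizing_subgroupOf]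
  exact ⟨(H23.stabilizingEquiv (H23.guE hF n) (fun h => rfl) W).trans
    ((H23.Form.stabEquivProd (hΦ.isCompl_perp h2)).trans (MulEquiv.prodCongr
      ((H23.guE hF k).trans (H22.oCongr _ _ e1 h3 h4)).symm
      ((H23.guE hF (n - k)).trans (H22.oCongr _ _ e2 h5 h6)).symm))⟩

end Cfsg.Agent.S0837
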