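import Cfsg.Statements.S0838
import Cfsg.Agent.H23.Disc

set_option autoImplicit false
open Cfsg

namespace Cfsg.Agent.S0838


/-- Over a finite field with 2 ≠ 0 and n odd: two quadratic forms Q₁, Q₂ on F^n with non-degenerate polar forms are similar — there are an invertible linear map g and a scalar c ≠ 0 with Q₂ (g v) = c · Q₁ v for all v. -/
theorem result {F : Type*} [Field F] [Fintype F] (h2 : (2 : F) ≠ 0) {n : ℕ} (hn : Odd n) (Q₁ Q₂ : QuadraticForm F (Fin n → F)) (h₁ : (QuadraticMap.polarBilin Q₁).Nondegenerate) (h₂ : (QuadraticMap.polarBilin Q₂).Nondegenerate) : ∃ (g : (Fin n → F) ≃ₗ[F] (Fin n → F)) (c : F), c ≠ 0 ∧ ∀ v, Q₂ (g v) = c * Q₁ v := by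
  let b := Pi.basisFun F (Fin n)
  let B₁ : LinearMap.BilinForm F (Fin n → F) := QuadraticMap.polarBilin Q₁
  let B₂ : LinearMap.BilinForm F (Fin n → F) := QuadraticMap.polarBilin Q₂
  have ha : (B₁.toMatrix b).det ≠ 0 := H23.gram_det_ne_zero h₁ b
  have hb : (B₂.toMatrix b).det ≠ 0 := H23.gram_det_ne_zero h₂ b
  let c := (B₁.toMatrix b).det * (B₂.toMatrix b).det
  have hc : c ≠ 0 := mul_ne_zero ha hb
  have hdet : ((c • B₁).toMatrix b).det = c ^ n * (B₁.toMatrix b).det := by simp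
  obtain ⟨e, he⟩ := H23.exists_isometry_of_disc h2 (B := c • B₁) (C := B₂)
    ((H23.isSymm_polarBilin Q₁).smul c) (H23.isSymm_polarBilin Q₂)
    (by rw [LinearMap.BilinForm.nondegenerate_iff_det_ne_zero b, hdet]
        exact mul_ne_zero (pow_ne_zero _ hc) ha) h₂ b b rfl (by
      obtain ⟨k, rfl⟩ := hn
      rw [hdet]
      exact ⟨c ^ (k + 1), by simp only [c]; ring⟩)
  refine ⟨e, c, hc, fun v => ?_⟩
  have := he v v
  simp only [B₁, B₂, QuadraticMap.polarBilin_apply_apply, QuadraticMap.polar_self,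
    LinearMap.smul_apply, smul_eq_mul, nsmul_eq_mul, Nat.cast_ofNat] at this
  exact mul_left_cancel₀ h2 (by linear_combination this)

end Cfsg.Agent.S0838
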