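import Cfsg.Statements.S0839
import Cfsg.Agent.H23.Lin

set_option autoImplicit false
open Cfsg

namespace Cfsg.Agent.S0839


/-- Every transvection t ∈ SL_(n+2)(F) (rank(t − 1) = 1, (t − 1)² = 0) is conjugate in SL_(n+2)(F) to 1 + v·e_0ᵀ for some column vector v with v_0 = 0 (the group A of matrices that are the identity except in the first column below the diagonal); the dimension is written n + 2 ≥ 2. -/
theorem result {F : Type*} [Field F] (n : ℕ) (t : Matrix.SpecialLinearGroup (Fin (n + 2)) F) (ht : Cfsg.IsTransvection (t : Matrix (Fin (n + 2)) (Fin (n + 2)) F)) : ∃ (g : Matrix.SpecialLinearGroup (Fin (n + 2)) F) (v : Fin (n + 2) → F), v 0 = 0 ∧ ((g⁻¹ * t * g : Matrix.SpecialLinearGroup (Fin (n + 2)) F) : Matrix (Fin (n + 2)) (Fin (n + 2)) F) = 1 + Matrix.vecMulVec v (Pi.single 0 1) := by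
  obtain ⟨h1, h2⟩ := ht
  set A : Matrix (Fin (n + 2)) (Fin (n + 2)) F := t.1 - 1 with hA
  obtain ⟨a, ha0, ha⟩ := finrank_eq_one_iff'.1 h1
  choose φ hφ using fun j => ha ⟨A.mulVec (Pi.single j 1), _, rfl⟩
  have h3 : A = Matrix.vecMulVec a.1 φ := by
    ext i j
    have := congrFun (congrArg Subtype.val (hφ j)) i
    simp only [SetLike.val_smul, Pi.smul_apply, smul_eq_mul, Matrix.mulVec_single_one,
      Matrix.col_apply] at this
    rw [Matrix.vecMulVec_apply, ← this, mul_comm]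
  have ha0' : a.1 ≠ 0 := fun h => ha0 (Subtype.ext h)
  have hφ0 : φ ≠ 0 := by
    rintro rfl
    rw [h3] at h1
    simp at h1
  have h4 : φ ⬝ᵥ a.1 = 0 := by
    rw [h3, Matrix.vecMulVec_mul_vecMulVec, Matrix.vecMulVec_eq_zero] at h2
    simpa [ha0', hφ0] using h2
  obtain ⟨g, hg, h5⟩ := H23.exists_SLv_map_one (F := F) (by simp) hφ0
    (w := (Pi.single 0 1 : Fin (n + 2) → F)) (by simp)
  let B : Matrix.SpecialLinearGroup (Fin (n + 2)) F :=
    ⟨((H23.glE _ F).symm g).1.transpose, by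
      rw [Matrix.det_transpose, H23.det_glE_symm, H23.mem_SLv.1 hg]⟩
  have h6 : Matrix.vecMul φ B.1 = Pi.single 0 1 := by
    rw [Matrix.vecMul_transpose, H23.glE_symm_mulVec, h5]
  have h7 : B.1 * (B⁻¹).1 = 1 := by rw [← Matrix.SpecialLinearGroup.coe_mul]; simp
  have h8 : (B⁻¹).1 * B.1 = 1 := by rw [← Matrix.SpecialLinearGroup.coe_mul]; simp
  refine ⟨B, (B⁻¹).1.mulVec a.1, ?_, ?_⟩
  · rw [← h4, ← single_one_dotProduct 0 ((B⁻¹).1.mulVec a.1), ← h6, Matrix.dotProduct_mulVec,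
      Matrix.vecMul_vecMul, h7, Matrix.vecMul_one]
  · have : t.1 = 1 + Matrix.vecMulVec a.1 φ := by rw [← h3, hA]; abel
    rw [Matrix.SpecialLinearGroup.coe_mul, Matrix.SpecialLinearGroup.coe_mul, this, mul_add, add_mul,
      mul_one, h8, Matrix.mul_vecMulVec, Matrix.vecMulVec_mul, h6]

end Cfsg.Agent.S0839
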