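import Cfsg.Statements.S0840
import Cfsg.Agent.H18.Pair
import Cfsg.Agent.H21.Basic
open H17 Cfsg H15 CF H21 H18 Subgroup
open scoped ComplexConjugate

set_option autoImplicit false
open scoped ComplexConjugate
open Cfsg

namespace Cfsg.Agent.S0840



/-- Class multiplication coefficients from the character table: for elements a, b, c of a finite group G, the number of ordered pairs (x, y) with x conjugate to a, y conjugate to b and x * y = c equals the product of the sizes of the conjugacy classes of a and b, divided by the order of G, times the sum over the irreducible characters χ of χ a * χ b * conj (χ c) / χ 1. -/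
theorem result {G : Type*} [Group G] [Finite G] (a b c : G) : (Nat.card {p : G × G // IsConj a p.1 ∧ IsConj b p.2 ∧ p.1 * p.2 = c} : ℂ) = (Nat.card {x : G // IsConj a x} : ℂ) * (Nat.card {x : G // IsConj b x} : ℂ) / (Nat.card G : ℂ) * ∑ᶠ χ : Cfsg.IrrCharacter G, (χ : G → ℂ) a * (χ : G → ℂ) b * conj ((χ : G → ℂ) c) / (χ : G → ℂ) 1 := by
  classical
  have := Fintype.ofFinite G
  have e1 : (Nat.card {p : G × G // IsConj a p.1 ∧ IsConj b p.2 ∧ p.1 * p.2 = c} : ℂ) =
      ∑ u ∈ fs (ccls a), ∑ v ∈ fs (ccls b), if u * v * c⁻¹ = 1 then (1 : ℂ) else 0 := by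
    rw [Nat.card_eq_fintype_card, Fintype.card_subtype, ← Finset.sum_product', Finset.sum_boole]
    congr 2
    ext p
    simp only [Finset.mem_filter, Finset.mem_univ, true_and, Finset.mem_product, mem_fs,
      mem_ccls_iff, mul_inv_eq_one, and_assoc]
  have e2 : ∀ x : G, (Nat.card {y : G // IsConj x y} : ℂ) = (ccls x).ncard := fun x => by
    rw [← Nat.card_coe_set_eq]
    congr 1
    exact Nat.card_congr (Equiv.subtypeEquivRight fun y => mem_ccls_iff.symm)
  rw [e1, e2, e2, finsum_eq_sum_of_fintype]
  simp only [ite_eq_one_eq_sum, ← Finset.mul_sum]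
  rw [Finset.sum_congr rfl fun u _ => Finset.sum_comm, Finset.sum_comm, div_eq_mul_inv,
    mul_comm _ (Nat.card G : ℂ)⁻¹, mul_assoc, Finset.mul_sum _ _ (_ * _)]
  congr 1
  refine Finset.sum_congr rfl fun χ _ => ?_
  have hχ := mem_Irr_top.2 χ.2
  have h0 := irr_one_ne hχ
  simp only [← Finset.mul_sum]
  rw [Finset.sum_comm]
  simp only [mul_assoc, sum_ccls_mul hχ]
  simp only [div_eq_mul_inv, ← Finset.sum_mul, ← Finset.mul_sum, sum_ccls_mul hχ,
    (irr_char hχ).conj_apply]
  field_simp

end Cfsg.Agent.S0840
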