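import Cfsg.Statements.S0841
import Mathlib

set_option autoImplicit false
open Cfsg
open scoped commutatorElement

namespace Cfsg.Agent.S0841

/-- If the commutator subgroup of G lies in the centre, then for all x, y in G and every natural number n one has (x * y) ^ n = x ^ n * y ^ n * c ^ (n * (n - 1) / 2) with c = y⁻¹ * x⁻¹ * y * x. -/
theorem result {G : Type*} [Group G] (hG : commutator G ≤ Subgroup.center G) (x y : G) (n : ℕ) : (x * y) ^ n = x ^ n * y ^ n * (y⁻¹ * x⁻¹ * y * x) ^ (n * (n - 1) / 2) := by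
  set c := y⁻¹ * x⁻¹ * y * x with hc
  have hcc : c ∈ Subgroup.center G := by
    apply hG
    have : c = ⁅y⁻¹, x⁻¹⁆ := by simp [commutatorElement_def, hc]
    rw [this]
    exact Subgroup.commutator_mem_commutator (Subgroup.mem_top _) (Subgroup.mem_top _)
  have hcomm : ∀ g : G, Commute c g := fun g => ((Subgroup.mem_center_iff.mp hcc) g).symm
  have h1 : y * x = x * y * c := by simp [hc, mul_assoc]
  have h2 : ∀ m : ℕ, y ^ m * x = x * y ^ m * c ^ m := by
    intro m
    induction m with
    | zero => simp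
    | succ m ih =>
      calc y ^ (m + 1) * x = y * (y ^ m * x) := by rw [pow_succ', mul_assoc]
        _ = y * x * y ^ m * c ^ m := by rw [ih]; simp [mul_assoc]
        _ = x * y * (c * y ^ m) * c ^ m := by rw [h1]; simp [mul_assoc]
        _ = x * y * (y ^ m * c) * c ^ m := by rw [(hcomm (y ^ m)).eq]
        _ = x * y ^ (m + 1) * c ^ (m + 1) := by rw [pow_succ', pow_succ']; simp [mul_assoc]
  induction n with
  | zero => simp
  | succ n ih =>
    have h3 : (n + 1) * (n + 1 - 1) / 2 = n + n * (n - 1) / 2 := by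
      have := Nat.triangle_succ n
      simp only [Nat.add_sub_cancel] at this ⊢
      omega
    rw [h3, pow_succ, ih]
    set k := n * (n - 1) / 2
    calc x ^ n * y ^ n * c ^ k * (x * y) = x ^ n * y ^ n * (c ^ k * (x * y)) := by simp [mul_assoc]
      _ = x ^ n * y ^ n * ((x * y) * c ^ k) := by rw [((hcomm (x * y)).pow_left k).eq]
      _ = x ^ n * (y ^ n * x) * y * c ^ k := by simp [mul_assoc]
      _ = x ^ n * x * y ^ n * (c ^ n * y) * c ^ k := by rw [h2]; simp [mul_assoc]
      _ = x ^ n * x * y ^ n * (y * c ^ n) * c ^ k := by rw [((hcomm y).pow_left n).eq]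
      _ = x ^ (n + 1) * y ^ (n + 1) * c ^ (n + k) := by
        rw [pow_succ, pow_succ, pow_add]; simp [mul_assoc]

end Cfsg.Agent.S0841
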