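import Cfsg.Statements.S0842
import Cfsg.Agent.H6.QBig
import Cfsg.Agent.H5.Subnormal

set_option autoImplicit false
open Cfsg

namespace Cfsg.Agent.S0842

/-- Suppose a Sylow 2-subgroup S of the finite group G is generalized quaternion of order at least 16, and let D be the commutator subgroup of S, C its centralizer and N its normalizer in G. Then there is a subgroup K of odd order, contained in C and normalized by N, with K ⊔ S = N and K ⊔ (S ⊓ C) = C, and C has index 2 in N. -/
theorem result {G : Type*} [Group G] [Finite G] (S : Sylow 2 G) (n : ℕ) (e : (S : Subgroup G) ≃* QuaternionGroup (2 ^ (n + 2))) (D : Subgroup G) (hD : D = ⁅(S : Subgroup G), (S : Subgroup G)⁆) : ∃ K : Subgroup G, Odd (Nat.card K) ∧ K ≤ Subgroup.centralizer (D : Set G) ∧ Subgroup.normalizer (D : Set G) ≤ Subgroup.normalizer (K : Set G) ∧ K ⊔ (S : Subgroup G) = Subgroup.normalizer (D : Set G) ∧ K ⊔ ((S : Subgroup G) ⊓ Subgroup.centralizer (D : Set G)) = Subgroup.centralizer (D : Set G) ∧ ((Subgroup.centralizer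 (D : Set G)).subgroupOf (Subgroup.normalizer (D : Set G))).index = 2 := by
  obtain ⟨a, b, h⟩ := H19.exists_QS (H10.isSylowIn_top S) e
  rw [H6.qs_commutator h] at hD
  subst hD
  have haa : a * a ∈ Subgroup.zpowers a := mul_mem (Subgroup.mem_zpowers a) (Subgroup.mem_zpowers a)
  have hsyl := h.sylow_cent haa (H6.qs_sq_ne h)
  have hnpc := h.npc_cent haa (H6.qs_sq_ne h)
  rw [← H6.centralizer_zpowers'] at hsyl hnpc
  set C := Subgroup.centralizer ((Subgroup.zpowers (a * a) : Subgroup G) : Set G) with hC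
  set N := Subgroup.normalizer ((Subgroup.zpowers (a * a) : Subgroup G) : Set G) with hN
  have hCN : C ≤ N := H6.centralizer_le_normalizer' _
  have hSN : (S : Subgroup G) ≤ N := h.le_nrm haa
  have hmem : ∀ g, g ∈ C ↔ g * (a * a) * g⁻¹ = a * a := fun g => by
    rw [hC, H6.centralizer_zpowers', H6.mem_cent_iff_commute, H6.conj_eq_iff_commute]
  have hbinv : b * (a * a) * b⁻¹ = (a * a)⁻¹ := by
    have := H6.conj_pow_of_inverts h.inv 2
    rwa [pow_two] at this
  have hbC : b ∉ C := by
    rw [hmem, hbinv]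
    intro h1
    exact H6.qs_sq_ne h (mul_eq_one_iff_eq_inv.2 h1.symm)
  have hcases : ∀ g ∈ N, g * b ∈ C ∨ g ∈ C := by
    intro g hg
    have h1 := H6.mem_normalizer_zpowers_iff.1 hg
    rcases (h.isConj_iff' haa (Subgroup.zpowers_le.2 haa h1)).1 (isConj_iff.2 ⟨g, rfl⟩) with h2 | h2
    · exact Or.inr ((hmem g).2 h2)
    · left
      rw [hmem]
      calc g * b * (a * a) * (g * b)⁻¹ = g * (b * (a * a) * b⁻¹) * g⁻¹ := by group
        _ = (g * (a * a) * g⁻¹)⁻¹ := by rw [hbinv]; group
        _ = _ := by rw [h2, inv_inv]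
  set K := (Cfsg.pResidual 2 C).map C.subtype with hK
  have hKC : K ≤ C := Subgroup.map_subtype_le _
  have h5 : K ⊔ ((S : Subgroup G) ⊓ C) = C := by
    refine le_antisymm (sup_le hKC inf_le_right) ?_
    have h1 := congrArg (Subgroup.map C.subtype) (H3.pResidual_sup_sylow hsyl.toSylow)
    rw [Subgroup.map_sup, hsyl.map_toSylow, ← MonoidHom.range_eq_map, Subgroup.range_subtype] at h1
    rw [← h1]
    exact sup_le_sup_left (le_inf (Subgroup.zpowers_le.2 h.ha) (h1.symm ▸ hsyl.le)) _
  refine ⟨K, ?_, hKC, ?_, ?_, h5, H6.relIndex_eq_two_of (hSN h.hb) hbC hcases⟩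
  · rw [hK, Subgroup.card_map_of_injective C.subtype_injective]
    exact H6.coprime_two_iff.1 (H3.hasNormalPComplement_iff_coprime.1 hnpc)
  · intro g hg
    rw [hK, H3.map_pResidual_eq_closure]
    apply H6.mem_normalizer_closure
    rintro x ⟨hx, hx'⟩
    refine ⟨?_, by rwa [H6.orderOf_conj']⟩
    rw [hC, H6.mem_centralizer_iff_commute] at hx ⊢
    intro d hd
    have h1 := hx _ (H3.conj_mem_of_mem_normalizer' hg hd)
    have := h1.conj g
    simpa [mul_assoc] using this
  · refine le_antisymm (sup_le (hKC.trans hCN) hSN) fun g hg => ?_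
    have hCle : C ≤ K ⊔ S := by rw [← h5]; exact sup_le_sup_left inf_le_left _
    rcases hcases g hg with h1 | h1
    · have := mul_mem (hCle h1) (Subgroup.mem_sup_right (inv_mem h.hb) : b⁻¹ ∈ K ⊔ S)
      simpa using this
    · exact hCle h1

end Cfsg.Agent.S0842
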