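import Cfsg.Statements.S0843
import Cfsg.Agent.H6.QBig

set_option autoImplicit false
open Cfsg

namespace Cfsg.Agent.S0843

/-- Suppose a Sylow 2-subgroup S of the finite group G is generalized quaternion of order at least 16; let D be the commutator subgroup of S and X the set of elements of the centralizer of D whose order is divisible by the order of D. Then D is contained in the cyclic subgroup generated by any element of X; an element of G conjugating some element of X into the centralizer of D normalizes D; and the normalizer of D maps X to itself under conjugation. -/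
theorem result {G : Type*} [Group G] [Finite G] (S : Sylow 2 G) (n : ℕ) (e : (S : Subgroup G) ≃* QuaternionGroup (2 ^ (n + 2))) (D : Subgroup G) (hD : D = ⁅(S : Subgroup G), (S : Subgroup G)⁆) : (∀ y : G, y ∈ Subgroup.centralizer (D : Set G) → Nat.card D ∣ orderOf y → D ≤ Subgroup.zpowers y) ∧ (∀ g y : G, y ∈ Subgroup.centralizer (D : Set G) → Nat.card D ∣ orderOf y → g * y * g⁻¹ ∈ Subgroup.centralizer (D : Set G) → g ∈ Subgroup.normalizer (D : Set G)) ∧ (∀ g y : G, g ∈ Subgroup.normalizer (D : Set G) → y ∈ Subgroup.centralizer (D : Set G) → Nat.card D ∣ orderOf y → g * y * g⁻¹ ∈ Subgroup.centralizer (D : Set G) ∧ Nat.card D ∣ orderOf (g * y * g⁻¹)) := by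
  obtain ⟨a, b, h⟩ := H19.exists_QS (H10.isSylowIn_top S) e
  rw [H6.qs_commutator h] at hD
  subst hD
  have haa : a * a ∈ Subgroup.zpowers a := mul_mem (Subgroup.mem_zpowers a) (Subgroup.mem_zpowers a)
  have hsyl := h.sylow_cent haa (H6.qs_sq_ne h)
  have key : ∀ y : G, y ∈ Subgroup.centralizer ((Subgroup.zpowers (a * a) : Subgroup G) : Set G) →
      Nat.card (Subgroup.zpowers (a * a)) ∣ orderOf y → Subgroup.zpowers (a * a) ≤ Subgroup.zpowers y := by
    intro y hy hd
    rw [H6.centralizer_zpowers'] at hy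
    obtain ⟨x, hx⟩ := H19.exists_isPPart 2 y
    have hxC := H19.isPPart_mem hx hy
    obtain ⟨c, hc, hc'⟩ := hsyl.exists_cj_le (H19.isPPart_isPElt hx).isPGroup_zpowers (Subgroup.zpowers_le.2 hxC)
    have h1 : c * x * c⁻¹ ∈ Subgroup.zpowers a := hc' ⟨_, Subgroup.mem_zpowers _, rfl⟩
    rw [Nat.card_zpowers] at hd
    have h2 : orderOf (a * a) ∣ orderOf x := by
      have h3 : y = x * (x⁻¹ * y) := by group
      have h4 : Commute x (x⁻¹ * y) := ((Commute.refl x).inv_right).mul_right (H19.isPPart_commute hx)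
      have h5 : orderOf y ∣ orderOf x * orderOf (x⁻¹ * y) := by
        conv_lhs => rw [h3]
        exact h4.orderOf_mul_dvd_mul_orderOf
      exact ((h.pelt haa).coprime (H19.isPPart_preg hx)).dvd_of_dvd_mul_right (hd.trans h5)
    have h6 := H8.mem_zpowers_of_isCyclic inferInstance h1 haa (by rwa [H6.orderOf_conj'])
    obtain ⟨k, hk⟩ := Subgroup.mem_zpowers_iff.1 h6
    rw [Subgroup.zpowers_le]
    have h7 : a * a = x ^ k := by
      have h8 := H6.conj_eq_iff_commute.2 (H6.mem_cent_iff_commute.1 (inv_mem hc))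
      rw [← h8, ← hk, conj_zpow]; group
    rw [h7]
    exact zpow_mem (H19.isPPart_mem_zpowers hx) k
  refine ⟨key, fun g y hy hd hg => ?_, fun g y hg hy hd => ⟨?_, by rwa [H6.orderOf_conj']⟩⟩
  · have h1 := key _ hg (by rwa [H6.orderOf_conj'])
    have h2 := key y hy hd
    rw [H6.mem_normalizer_zpowers_iff]
    have h3 : g * (a * a) * g⁻¹ ∈ Subgroup.zpowers (g * y * g⁻¹) := by
      rw [← H6.map_conj_zpowers, H6.conj_mem_map_conj]
      exact h2 (Subgroup.mem_zpowers _)
    exact H8.mem_zpowers_of_isCyclic inferInstance (h1 (Subgroup.mem_zpowers _)) h3 (by rw [H6.orderOf_conj'])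
  · rw [H6.mem_centralizer_iff_commute] at hy ⊢
    intro d hd
    have h1 := hy _ (H3.conj_mem_of_mem_normalizer' hg hd)
    have := h1.conj g
    simpa [mul_assoc] using this

end Cfsg.Agent.S0843
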