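import Cfsg.Statements.S0845
import Cfsg.Agent.H6.QBig

set_option autoImplicit false
open Cfsg

namespace Cfsg.Agent.S0845

/-- Suppose a Sylow 2-subgroup S of the finite group G is generalized quaternion of order at least 16. Then G has a normal subgroup M of even order such that G / M is non-abelian, that is, M does not contain the commutator subgroup of G. -/
theorem result {G : Type*} [Group G] [Finite G] (S : Sylow 2 G) (n : ℕ) (e : (S : Subgroup G) ≃* QuaternionGroup (2 ^ (n + 2))) : ∃ M : Subgroup G, M.Normal ∧ Even (Nat.card M) ∧ ¬ commutator G ≤ M := by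
  obtain ⟨a, b, h⟩ := H19.exists_QS (H10.isSylowIn_top S) e
  have hw := H6.qs_wc h
  have hz : ∀ z ∈ Subgroup.zpowers (a ^ 2 ^ (n + 2)), ∀ g : G, g * z * g⁻¹ * z⁻¹ ∈ Cfsg.pPrimeCore 2 G := by
    intro z hz g
    rcases (H6.mem_zpowers_ord2 (H6.ord2_mul_self h.ord2)).1 hz with rfl | rfl
    · simp
    · exact H6.zstar2 hw g
  refine ⟨_, H6.normal_sup_of_comm hz,
    H6.even_card_of_ord2_mem (Subgroup.mem_sup_right (Subgroup.mem_zpowers _)) h.ord2, fun hle => ?_⟩
  have h1 : a * a ∈ commutator G := by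
    have : a * a ∈ ⁅(S : Subgroup G), (S : Subgroup G)⁆ := H6.qs_commutator h ▸ Subgroup.mem_zpowers _
    exact Subgroup.commutator_mono le_top le_top this
  obtain ⟨o, ho, z, hz', hoz⟩ := Subgroup.mem_sup_of_normal_left.1 (hle h1)
  have hzS : z ∈ (S : Subgroup G) := Subgroup.zpowers_le.2 hw.1 hz'
  have hoS : o ∈ (S : Subgroup G) := by
    have : o = a * a * z⁻¹ := by rw [← hoz]; group
    rw [this]
    exact mul_mem (mul_mem h.ha h.ha) (inv_mem hzS)
  rw [H6.eq_one_of_mem_core S.isPGroup' hoS ho, one_mul] at hoz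
  apply H6.qs_sq_ne h
  rw [← hoz]
  rcases (H6.mem_zpowers_ord2 (H6.ord2_mul_self h.ord2)).1 hz' with rfl | rfl
  · simp
  · exact H6.ord2_mul_self h.ord2

end Cfsg.Agent.S0845
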