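import Cfsg.Statements.S0846
import Cfsg.Agent.H6.QBig

set_option autoImplicit false
open Cfsg

namespace Cfsg.Agent.S0846

/-- Suppose a Sylow 2-subgroup S of the finite group G is generalized quaternion of order at least 16. Then every Sylow 2-subgroup of the subgroup generated by the involutions of G is cyclic. -/
theorem result {G : Type*} [Group G] [Finite G] (S : Sylow 2 G) (n : ℕ) (e : (S : Subgroup G) ≃* QuaternionGroup (2 ^ (n + 2))) (Q : Sylow 2 ↥(Subgroup.closure {g : G | orderOf g = 2})) : IsCyclic Q := by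
  obtain ⟨a, b, h⟩ := H19.exists_QS (H10.isSylowIn_top S) e
  have hw := H6.qs_wc h
  set t := a ^ 2 ^ (n + 2) with ht
  have ht2 := H6.ord2_mul_self h.ord2
  have hle : Subgroup.closure {g : G | orderOf g = 2} ≤ Cfsg.pPrimeCore 2 G ⊔ Subgroup.zpowers t := by
    rw [Subgroup.closure_le]
    intro x hx
    obtain ⟨g, hg⟩ := H6.exists_conj_mem_sylow_ord2 S hx
    have h1 := h.unique hg (H6.ord2_conj hx g)
    have h2 : x = (g⁻¹ * t * g⁻¹⁻¹ * t⁻¹) * t := by rw [ht, ← h1]; group
    rw [h2]
    exact mul_mem (Subgroup.mem_sup_left (H6.zstar2 hw _)) (Subgroup.mem_sup_right (Subgroup.mem_zpowers _))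
  let f : Q →* G ⧸ Cfsg.pPrimeCore 2 G := (QuotientGroup.mk' _).comp
    ((Subgroup.closure {g : G | orderOf g = 2}).subtype.comp (Q : Subgroup (Subgroup.closure {g : G | orderOf g = 2})).subtype)
  have hf : Function.Injective f := by
    rw [injective_iff_map_eq_one]
    intro x hx
    have h1 : ((x : Subgroup.closure {g : G | orderOf g = 2}) : G) ∈ Cfsg.pPrimeCore 2 G :=
      (QuotientGroup.eq_one_iff _).1 hx
    have h2 := H6.eq_one_of_mem_core (Q.isPGroup'.map (Subgroup.closure {g : G | orderOf g = 2}).subtype)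
      (Subgroup.mem_map_of_mem _ x.2) h1
    exact Subtype.ext (Subtype.ext h2)
  have hr : f.range ≤ Subgroup.zpowers (QuotientGroup.mk t : G ⧸ Cfsg.pPrimeCore 2 G) := by
    rintro _ ⟨x, rfl⟩
    obtain ⟨o, ho, z, ⟨k, rfl⟩, hoz⟩ := Subgroup.mem_sup_of_normal_left.1 (hle (x : Subgroup.closure {g : G | orderOf g = 2}).2)
    refine ⟨k, ?_⟩
    show _ = QuotientGroup.mk ((x : Subgroup.closure {g : G | orderOf g = 2}) : G)
    rw [← hoz, QuotientGroup.mk_mul, (QuotientGroup.eq_one_iff o).2 ho, one_mul]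
    rfl
  have := H6.isCyclic_of_le' inferInstance hr
  exact (MonoidHom.ofInjective hf).isCyclic.2 this

end Cfsg.Agent.S0846
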