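import Cfsg.Statements.S0847
import Cfsg.Agent.H6.QBig

set_option autoImplicit false
open Cfsg

namespace Cfsg.Agent.S0847

/-- The Brauer–Suzuki Theorem in the case of order at least 16: if a Sylow 2-subgroup S of the finite group G is generalized quaternion of order at least 16 and G has no nontrivial normal subgroup of odd order, then the centre of G has order 2. -/
theorem result {G : Type*} [Group G] [Finite G] (S : Sylow 2 G) (n : ℕ) (e : (S : Subgroup G) ≃* QuaternionGroup (2 ^ (n + 2))) (hO : ∀ N : Subgroup G, N.Normal → Odd (Nat.card N) → N = ⊥) : Nat.card (Subgroup.center G) = 2 := by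
  obtain ⟨a, b, h⟩ := H19.exists_QS (H10.isSylowIn_top S) e
  have hw := H6.qs_wc h
  have hO' : Cfsg.pPrimeCore 2 G = ⊥ := hO _ inferInstance (H6.coprime_two_iff.1 (H1.coprime_card_pPrimeCore 2))
  have ht := hw.mem_center hO'
  have hc : Subgroup.center G = Subgroup.zpowers (a ^ 2 ^ (n + 2)) := by
    refine le_antisymm (fun x hx => ?_) (Subgroup.zpowers_le.2 ht)
    obtain ⟨k, hk⟩ := H6.exists_odd_part x
    have h1 : x ^ 2 ^ k = 1 := by
      have h2 : Subgroup.zpowers (x ^ 2 ^ k) ≤ Subgroup.center G := Subgroup.zpowers_le.2 (pow_mem hx _)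
      have := hO _ (H6.normal_of_le_center' h2) (by rwa [Nat.card_zpowers])
      rwa [Subgroup.zpowers_eq_bot] at this
    obtain ⟨g, hg⟩ := H6.exists_conj_mem_sylow S h1
    rw [Subgroup.mem_center_iff.1 hx g, mul_inv_cancel_right] at hg
    rcases h.conj_eq hg with h3 | h3
    · obtain ⟨i, rfl⟩ := Subgroup.mem_zpowers_iff.1 h3
      have h4 := H6.conj_zpow_of_inverts h.inv i
      rw [Subgroup.mem_center_iff.1 hx b, mul_inv_cancel_right] at h4
      by_cases h5 : a ^ i = 1
      · show a ^ i ∈ _
        rw [h5]; exact one_mem _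
      · show a ^ i ∈ _
        rw [h.unique hg (H6.ord2_of (mul_eq_one_iff_eq_inv.2 h4) h5)]
        exact Subgroup.mem_zpowers _
    · exfalso
      have h4 := h3 a (Subgroup.mem_zpowers a)
      rw [← Subgroup.mem_center_iff.1 hx a, mul_inv_cancel_right] at h4
      apply H6.qs_sq_ne h
      rw [mul_eq_one_iff_eq_inv.2 h4, mul_one]
  rw [hc, Nat.card_zpowers, h.ord2]

end Cfsg.Agent.S0847
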