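import Cfsg.Statements.S0849
import Cfsg.Agent.H18.TI

set_option autoImplicit false
open Cfsg

namespace Cfsg.Agent.S0849



/-- Let H be a subgroup of a finite group G and S a subset of H that is mapped to itself under conjugation by H, is disjoint from its conjugate by any element outside H, and is closed under inverses. Let φ be a class function of H vanishing on H away from S, and let u, v be involutions of G. Then the sum of the induced function of φ over all products a * b with a conjugate to u and b conjugate to v equals the index of H times the sum of φ (a * b) over such pairs with a and b in H. -/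
theorem result {G : Type*} [Group G] [Fintype G] (H : Subgroup G) (S : Set G) (hSH : S ⊆ H) (hHS : ∀ h ∈ H, ∀ s ∈ S, h * s * h⁻¹ ∈ S) (hTI : ∀ g : G, g ∉ H → ∀ s ∈ S, g * s * g⁻¹ ∉ S) (hinv : ∀ s ∈ S, s⁻¹ ∈ S) (φ : H → ℂ) (hφ : Cfsg.IsClassFunction H φ) (hφS : ∀ x : H, (x : G) ∉ S → φ x = 0) (u v : G) (hu : orderOf u = 2) (hv : orderOf v = 2) : ∑ᶠ p ∈ {p : G × G | IsConj u p.1 ∧ IsConj v p.2}, Cfsg.indFun H φ (p.1 * p.2) = (H.index : ℂ) * ∑ᶠ p ∈ {p : H × H | IsConj u (p.1 : G) ∧ IsConj v (p.2 : G)}, φ (p.1 * p.2) := by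
  classical
  rw [H18.finsum_setOf_eq_sum_ite, H18.finsum_setOf_eq_sum_ite]
  -- the sum of the extension by zero
  set F : ℂ := ∑ p : G × G, if IsConj u p.1 ∧ IsConj v p.2 then
    Cfsg.extendByZero H φ (p.1 * p.2) else 0 with hF
  have h1 : ∀ x : G, (∑ p : G × G, if IsConj u p.1 ∧ IsConj v p.2 then
      Cfsg.extendByZero H φ (x * (p.1 * p.2) * x⁻¹) else 0) = F := by
    intro x
    rw [hF]
    symm
    rw [← Equiv.sum_comp ((MulAut.conj x).toEquiv.prodCongr (MulAut.conj x).toEquiv)]
    refine Finset.sum_congr rfl fun p _ => ?_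
    have hc : ∀ a b : G, IsConj a (x * b * x⁻¹) ↔ IsConj a b := fun a b =>
      ⟨fun h => h.trans (isConj_iff.mpr ⟨x, rfl⟩).symm, fun h => h.trans (isConj_iff.mpr ⟨x, rfl⟩)⟩
    simp only [MulEquiv.toEquiv_eq_coe, Equiv.prodCongr_apply, EquivLike.coe_coe, Prod.map_fst,
      Prod.map_snd, MulAut.conj_apply, hc]
    congr 2
    group
  have h2 : (∑ p : G × G, if IsConj u p.1 ∧ IsConj v p.2 then Cfsg.indFun H φ (p.1 * p.2) else 0)
      = H.index * F := by
    have : ∀ p : G × G, (if IsConj u p.1 ∧ IsConj v p.2 then Cfsg.indFun H φ (p.1 * p.2) else 0) =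
        (Nat.card H : ℂ)⁻¹ * ∑ x : G, if IsConj u p.1 ∧ IsConj v p.2 then
          Cfsg.extendByZero H φ (x * (p.1 * p.2) * x⁻¹) else 0 := by
      intro p
      split_ifs
      · rw [H18.ind_apply']
      · simp
    simp only [this, ← Finset.mul_sum]
    rw [Finset.sum_comm]
    simp only [h1, Finset.sum_const, Finset.card_univ, nsmul_eq_mul]
    rw [← Nat.card_eq_fintype_card, ← H.card_mul_index]
    have := H18.card_ne_zero H
    push_cast; field_simp
  rw [h2]
  congr 1
  rw [hF]
  symm
  refine Finset.sum_bij_ne_zero (fun p _ _ => ((p.1 : G), (p.2 : G))) (fun _ _ _ => Finset.mem_univ _)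
    ?_ ?_ ?_
  · intro a _ _ b _ _ h
    exact Prod.ext (Subtype.ext (congrArg Prod.fst h)) (Subtype.ext (congrArg Prod.snd h))
  · rintro ⟨a, b⟩ _ hne
    dsimp only at hne
    split_ifs at hne with hc
    swap
    · exact absurd rfl hne
    have hab : a * b ∈ H := by
      by_contra h; exact hne (H18.ext0_not_mem H φ h)
    rw [H18.ext0_mem H φ hab] at hne
    have habS : a * b ∈ S := by
      by_contra h; exact hne (hφS _ h)
    have hsq : ∀ w x : G, orderOf w = 2 → IsConj w x → x * x = 1 := by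
      intro w x hw hwx
      obtain ⟨c, rfl⟩ := isConj_iff.mp hwx
      have : w * w = 1 := by rw [← pow_two, ← hw, pow_orderOf_eq_one]
      calc c * w * c⁻¹ * (c * w * c⁻¹) = c * (w * w) * c⁻¹ := by group
        _ = 1 := by rw [this]; group
    have ha2 := hsq u a hu hc.1
    have hb2 := hsq v b hv hc.2
    have ha : a ∈ H := by
      by_contra h
      apply hTI a h _ habS
      have : a * (a * b) * a⁻¹ = (a * b)⁻¹ := by
        rw [← mul_assoc, ha2, one_mul, mul_inv_rev, ← eq_inv_of_mul_eq_one_left hb2]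
      rw [this]; exact hinv _ habS
    have hb : b ∈ H := by simpa using H.mul_mem (H.inv_mem ha) hab
    refine ⟨(⟨a, ha⟩, ⟨b, hb⟩), Finset.mem_univ _, ?_, rfl⟩
    dsimp only
    rw [if_pos hc]
    exact hne
  · intro p _ _
    dsimp only
    split_ifs
    · rw [← Subgroup.coe_mul, H18.ext0_coe]
    · rfl

end Cfsg.Agent.S0849
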