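import Cfsg.Statements.S0850
import Cfsg.Agent.H18.TI

set_option autoImplicit false
open Cfsg

namespace Cfsg.Agent.S0850



/-- Let K be a subgroup of the finite group G that meets each conjugate by an element outside its normalizer N trivially, is properly contained in N, and contains the centralizer of each of its non-identity elements (a T.I. subgroup with Frobenius normalizer). Then no element of N outside K is conjugate in G to an element of K, and for every class function ϑ of N that vanishes on N away from K and at the identity, the function induced from ϑ to G agrees with ϑ on all of N. -/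
theorem result {G : Type*} [Group G] [Fintype G] (K : Subgroup G) (hTI : ∀ g : G, g ∉ Subgroup.normalizer (K : Set G) → ∀ k ∈ K, g * k * g⁻¹ ∈ K → k = 1) (hlt : K < Subgroup.normalizer (K : Set G)) (hC : ∀ k ∈ K, k ≠ 1 → Subgroup.centralizer ({k} : Set G) ≤ K) : (∀ x ∈ Subgroup.normalizer (K : Set G), x ∉ K → ∀ g : G, g * x * g⁻¹ ∉ K) ∧ ∀ (ϑ : Subgroup.normalizer (K : Set G) → ℂ), Cfsg.IsClassFunction (Subgroup.normalizer (K : Set G)) ϑ → (∀ x : Subgroup.normalizer (K : Set G), (x : G) ∉ K → ϑ x = 0) → ϑ 1 = 0 → ∀ x : Subgroup.normalizer (K : Set G), Cfsg.indFun (Subgroup.normalizer (K : Set G)) ϑ x = ϑ x := by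
  have h1 : ∀ x ∈ Subgroup.normalizer (K : Set G), x ∉ K → ∀ g : G, g * x * g⁻¹ ∉ K := by
    intro x hx hxK g hg
    apply hxK
    have hcop := H18.coprime_card_index_of_centralizer_le
      (K.subgroupOf (Subgroup.normalizer (K : Set G))) (by
        intro k hk hk1 c hc
        rw [Subgroup.mem_subgroupOf] at hk ⊢
        apply hC k hk (fun h => hk1 (Subtype.ext h))
        rw [Subgroup.mem_centralizer_singleton_iff] at hc ⊢
        exact congrArg Subtype.val hc)
    have h2 : (⟨x, hx⟩ : Subgroup.normalizer (K : Set G)) ∈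
        K.subgroupOf (Subgroup.normalizer (K : Set G)) := by
      apply H18.mem_of_coprime_index
      refine Nat.Coprime.coprime_dvd_left ?_ hcop
      rw [Nat.card_congr (Subgroup.subgroupOfEquivOfLe hlt.le).toEquiv, ← Subgroup.orderOf_coe]
      have h3 : orderOf (g * x * g⁻¹) = orderOf x := (MulAut.conj g).orderOf_eq x
      show orderOf x ∣ _
      rw [← h3]
      exact K.orderOf_dvd_natCard hg
    exact h2
  refine ⟨h1, fun ϑ hϑ hϑK hϑ1 x => ?_⟩
  by_cases hx1 : x = 1
  · rw [hx1, OneMemClass.coe_one, H18.ind_one, hϑ1, mul_zero]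
  by_cases hxK : (x : G) ∈ K
  · exact H18.ind_eq_self_of_TI _ (K : Set G) hTI hϑ hϑK x hxK hx1
  · rw [hϑK x hxK]
    apply H18.ind_eq_zero
    intro g hg
    exact hϑK _ (h1 x x.2 hxK g)

end Cfsg.Agent.S0850
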