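import Cfsg.Statements.S0853
import Cfsg.Agent.H18.CG5
open H17 Cfsg H15 CF H21 H18

set_option autoImplicit false
open Cfsg

namespace Cfsg.Agent.S0853



/-- Let K be a subgroup of the finite group G that meets each conjugate by an element outside its normalizer N trivially, is properly contained in N, and contains the centralizer of each of its non-identity elements (a T.I. subgroup with Frobenius normalizer). Let S be the set of irreducible characters of N taking at some element of K a value different from their degree, suppose S has at least two members, and let star be a linear isometry on the integer span of S into the generalized characters of G that agrees with induction on the members vanishing at the identity (so S is coherent, with star as the extending isometry). Then there is a single integer m such that star χ k - χ k = m * χ 1 / e for every χ in S and every non-identity element k of K, where e is the index of K in N. -/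
theorem result {G : Type*} [Group G] [Fintype G] (K : Subgroup G) (hTI : ∀ g : G, g ∉ Subgroup.normalizer (K : Set G) → ∀ k ∈ K, g * k * g⁻¹ ∈ K → k = 1) (hlt : K < Subgroup.normalizer (K : Set G)) (hC : ∀ k ∈ K, k ≠ 1 → Subgroup.centralizer ({k} : Set G) ≤ K) [Fintype ↥(Subgroup.normalizer (K : Set G))] (S : Set (↥(Subgroup.normalizer (K : Set G)) → ℂ)) (hS : S = {χ : ↥(Subgroup.normalizer (K : Set G)) → ℂ | Cfsg.IsIrrCharacter ↥(Subgroup.normalizer (K : Set G)) χ ∧ ∃ k : ↥(Subgroup.normalizer (K : Set G)), (k : G) ∈ K ∧ χ k ≠ χ 1}) (htwo : ∃ χ ∈ S, ∃ ξ ∈ S, χ ≠ ξ) (star : (↥(Subgroup.normalizer (K : Set G)) → ℂ) → (G → ℂ)) (hstar : Cfsg.IsLinearIsometryOn (Cfsg.zspan S) star) (hext : ∀ α ∈ Cfsg.zspanOn S ({1}ᶜ : Set ↥(Subgroup.normalizer (K : Set G))), star α = Cfsg.indFun (Subgroup.normalizer (K : Set G)) α) : ∃ m : ℤ, ∀ χ ∈ S, ∀ k : ↥(Subgroup.normalizer (K : Set G)), (k : G) ∈ K → k ≠ 1 → star χ k - χ k = (m : ℂ) * χ 1 / ((K.subgroupOf (Subgroup.normalizer (K : Set G))).index : ℂ) := by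
  subst hS
  obtain ⟨χ, hχ, ξ, hξ, n⟩ := htwo
  have hK : K ≠ ⊥ := by
    rintro rfl
    obtain ⟨-, k, hk, n⟩ := hχ
    exact n (by rw [show k = 1 from Subtype.ext hk])
  have hF := frobK_of_cent hK hlt hC
  obtain ⟨ν, hν, e⟩ := exists_cohWith_amb (T := IrrD (Subgroup.normalizer (K : Set G)) K ⊥)
    (τ' := Ind ⊤ (Subgroup.normalizer (K : Set G))) (fun θ h => res_mem_of_IrrD hF.leK h)
    (fun θ h => cf_le_supp _ (irr_cf (IrrD_irr h))) hstar
    (fun α hα => by rw [hext α hα, Ind_top_ext0])
  obtain ⟨m, hm⟩ := exc_int hF (exc_nti hK hTI) hν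
  refine ⟨m, fun θ hθ k hk k1 => ?_⟩
  have := hm _ ((ext0_mem_IrrD hF.leK).2 hθ) k hk fun e => k1 (Subtype.ext e)
  rwa [e _ (mem_Z_of_mem' ((ext0_mem_IrrD hF.leK).2 hθ)), res_ext0, ext0_coe, ext0_one] at this

end Cfsg.Agent.S0853
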