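import Cfsg.Statements.S0855
import Cfsg.Agent.S4456
import Cfsg.Agent.H21.CD3
open H17 Cfsg H15 CF H21

set_option autoImplicit false
open Cfsg

namespace Cfsg.Agent.S0855



/-- For a finite group G and a prime p: every irreducible character of G has degree a power of p if and only if G has an abelian normal subgroup whose order is prime to p and whose index is a power of p. -/
theorem result {G : Type*} [Group G] [Finite G] (p : ℕ) (hp : p.Prime) : (∀ χ : Cfsg.IrrCharacter G, ∃ k : ℕ, (χ : G → ℂ) 1 = (p : ℂ) ^ k) ↔ ∃ A : Subgroup G, A.Normal ∧ (∀ a ∈ A, ∀ b ∈ A, a * b = b * a) ∧ Nat.Coprime (Nat.card A) p ∧ ∃ k : ℕ, A.index = p ^ k := by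
  constructor
  · intro h
    have h1 : ∀ χ : IrrCharacter G, ∃ k : ℕ, charDegree (χ : G → ℂ) = p ^ k := fun χ => by
      obtain ⟨k, hk⟩ := h χ
      exact ⟨k, charDegree_eq_of_one (by rw [hk]; norm_cast)⟩
    obtain ⟨N, hN, hc, hk⟩ := Cfsg.Agent.S4456.result p hp (G := G) fun χ h0 => by
      obtain ⟨k, hk⟩ := h1 χ
      rw [hk] at h0 ⊢
      exact dvd_pow_self p fun e => h0 (by rw [e, pow_zero])
    have hcomm : IsMulCommutative N := comm_of_deg fun θ hθ => by
      obtain ⟨χ, hχ⟩ := over_nonempty le_top hθ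
      obtain ⟨m, -, hm⟩ := deg_over le_top (top_le_norm N) hθ hχ
      obtain ⟨k, hk⟩ := h1 ⟨χ, mem_Irr_top.1 (mem_over.1 hχ).1⟩
      have h2 : charDegree θ ∣ p ^ k := by
        rw [← hk]; exact Dvd.intro_left _ hm.symm
      exact Nat.eq_one_of_dvd_coprimes (hc.symm.pow_left k) h2 (deg_dvd_card hθ)
    exact ⟨N, hN, fun a ha b hb => congrArg Subtype.val (hcomm.is_comm.comm ⟨a, ha⟩ ⟨b, hb⟩), hc, hk⟩
  · rintro ⟨A, hA, hc, -, k, hk⟩ χ
    obtain ⟨n, hn⟩ := χ.2.isCharacter.exists_nat_one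
    have h1 := χ.2.degree_dvd_index_of_comm hn A ⟨⟨fun a b => Subtype.ext (hc a a.2 b b.2)⟩⟩
    rw [hk] at h1
    obtain ⟨j, -, hj⟩ := (Nat.dvd_prime_pow hp).1 h1
    exact ⟨j, by rw [hn, hj]; norm_cast⟩

end Cfsg.Agent.S0855
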