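import Cfsg.Statements.S0856
import Cfsg.Agent.H21.Gall

set_option autoImplicit false
open Cfsg

open H17 Cfsg H15 CF H21

namespace Cfsg.Agent.S0856

/-- Let N be a normal subgroup of the finite group G and φ, ϑ irreducible characters of N that are invariant under conjugation by G, such that the pointwise product φ * ϑ is irreducible and ϑ is the restriction of an irreducible character χ of G. Then multiplication by χ is a bijection from the set of irreducible characters of G having nonzero inner product with the function induced from φ onto the set of those having nonzero inner product with the function induced from φ * ϑ. -/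
theorem result {G : Type*} [Group G] [Fintype G] (N : Subgroup G) [hN : N.Normal] (φ ϑ : N → ℂ) (hφ : Cfsg.IsIrrCharacter N φ) (hϑ : Cfsg.IsIrrCharacter N ϑ) (hφinv : ∀ (g : G) (n : N), φ ⟨g * n * g⁻¹, hN.conj_mem (n : G) n.2 g⟩ = φ n) (hϑinv : ∀ (g : G) (n : N), ϑ ⟨g * n * g⁻¹, hN.conj_mem (n : G) n.2 g⟩ = ϑ n) (hprod : Cfsg.IsIrrCharacter N (φ * ϑ)) (χ : G → ℂ) (hχ : Cfsg.IsIrrCharacter G χ) (hext : ∀ n : N, χ n = ϑ n) : Set.BijOn (fun β : G → ℂ => β * χ) {β : G → ℂ | Cfsg.IsIrrCharacter G β ∧ Cfsg.classInner (Cfsg.indFun N φ) β ≠ 0} {ψ : G → ℂ | Cfsg.IsIrrCharacter G ψ ∧ Cfsg.classInner (Cfsg.indFun N (φ * ϑ)) ψ ≠ 0} := by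
  have h1 := ext0_mem_Irr.2 hφ
  have hs : ⊤ ≤ stab (extendByZero N φ) := fun g _ => (mem_stab_ext0 hN φ g).2 (hφinv g)
  have hc := irr_char (mem_Irr_top.2 hχ)
  have e : extendByZero N φ * χ = extendByZero N (φ * ϑ) := by
    refine eq_of_res_eq (fun x hx => ?_) (mem_Irr.1 (ext0_mem_Irr.2 hprod)).1 ?_
    · rw [Pi.mul_apply, (mem_Irr.1 h1).1 x hx, zero_mul]
    · rw [res_mul, res_ext0, res_ext0]
      congr 1
      exact funext hext
  have hp : extendByZero N φ * χ ∈ Irr N := e ▸ ext0_mem_Irr.2 hprod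
  have key : ∀ (a : N → ℂ) (β : G → ℂ), (IsIrrCharacter G β ∧ classInner (indFun N a) β ≠ 0) ↔
      β ∈ IrrO ⊤ N (extendByZero N a) := fun a β => by
    rw [mem_over' le_top, mem_Irr_top, Ind_top_ext0, dot_top]
  simp only [key, ← e]
  have hm := @gall_mem _ _ _ _ _ le_top (top_le_norm N) _ _ h1 hs hc hp
  exact ⟨fun β h => hm.2 ⟨β, h, rfl⟩,
    fun a ha b hb h => gall_inj le_top (top_le_norm N) h1 hs hc hp ha hb h, fun ψ h => hm.1 h⟩

end Cfsg.Agent.S0856
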