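import Cfsg.Statements.S0857
import Cfsg.Agent.H18.CG1
import Cfsg.Agent.H17.FrobIrr
open H17 Cfsg H15 CF H21 H18

set_option autoImplicit false
open Cfsg

namespace Cfsg.Agent.S0857



/-- Let L < K be normal subgroups of the finite group G with no normal subgroup of G strictly between them and with K / L abelian (the commutator subgroup of K lies in L). Let ϑ be an irreducible character of K invariant under conjugation by G. Then the restriction of ϑ to L is irreducible; or it equals e times an irreducible character of L with e ^ 2 equal to the index of L in K; or it is the sum of a family of pairwise distinct irreducible characters of L indexed by a set whose size is the index of L in K. -/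
theorem result {G : Type*} [Group G] [Fintype G] (K L : Subgroup G) [hK : K.Normal] [L.Normal] (hLK : L < K) (hchief : ∀ M : Subgroup G, M.Normal → L ≤ M → M ≤ K → M = L ∨ M = K) (hab : ⁅K, K⁆ ≤ L) (ϑ : K → ℂ) (hϑ : Cfsg.IsIrrCharacter K ϑ) (hinv : ∀ (g : G) (n : K), ϑ ⟨g * n * g⁻¹, hK.conj_mem (n : G) n.2 g⟩ = ϑ n) : Cfsg.IsIrrCharacter L (fun x : L => ϑ ⟨(x : G), hLK.le x.2⟩) ∨ (∃ (φ : L → ℂ) (e : ℕ), Cfsg.IsIrrCharacter L φ ∧ (fun x : L => ϑ ⟨(x : G), hLK.le x.2⟩) = (e : ℂ) • φ ∧ e ^ 2 = L.relIndex K) ∨ (∃ F : Finset (L → ℂ), (∀ φ ∈ F, Cfsg.IsIrrCharacter L φ) ∧ F.card = L.relIndex K ∧ (fun x : L => ϑ ⟨(x : G), hLK.le x.2⟩) = ∑ φ ∈ F, φ) := by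
  classical
  have hθ := ext0_mem_Irr.2 hϑ
  have e0 : ∀ f : G → ℂ, Res (L : Set G) (extendByZero K ϑ) = f →
      (fun x : L => ϑ ⟨(x : G), hLK.le x.2⟩) = res L f := by
    rintro _ rfl
    funext x
    simp only [res_def, Res_of_mem _ x.2, ext0_mem K ϑ (hLK.le x.2)]
  rcases gdown (M := ⊤) hLK.le hab (top_le_norm L) (top_le_norm K) le_top
    (fun U a b c => hchief U (normal_of_top c) a b) hθ
    (fun g _ => (mem_stab_ext0 hK ϑ g).2 (hinv g)) with h | ⟨φ, hφ, e, h, h'⟩ | ⟨φ, hφ, h, h'⟩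
  · left
    rw [e0 _ rfl]
    exact irr_res h
  · exact Or.inr (Or.inl ⟨res L φ, e, irr_res hφ, by rw [e0 _ h, res_smul], h'⟩)
  · have hn : K ≤ 𝒩(L) := le_top.trans (top_le_norm L)
    have h1 := Ind_eq_of_dot_ne hLK.le hθ (Ind_mem_Irr_of_stab hLK.le hn hφ h'.le) h
    have h2 := clifford hLK.le hn hθ hφ h
    have h3 : dot L (extendByZero K ϑ) φ = 1 := by
      rw [← dot_Ind_right hLK.le _ (irr_cf hθ), h1, dot_irr_self hθ]
    rw [h3, one_smul] at h2
    have hi : Set.InjOn (res L) (orb K φ : Set (G → ℂ)) := fun a ha b hb e =>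
      eq_of_res_eq (mem_Irr.1 (orb_subset_Irr hn hφ ha)).1 (mem_Irr.1 (orb_subset_Irr hn hφ hb)).1 e
    refine Or.inr (Or.inr ⟨(orb K φ).image (res L), fun η hη => ?_, ?_, ?_⟩)
    · obtain ⟨a, ha, rfl⟩ := Finset.mem_image.1 hη
      exact irr_res (orb_subset_Irr hn hφ ha)
    · rw [Finset.card_image_of_injOn hi, card_orb_of_stab_le hLK.le (irr_cf hφ) h'.le]
    · rw [e0 _ h2, res_sum, Finset.sum_image hi]

end Cfsg.Agent.S0857
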