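import Cfsg.Statements.S0859
import Cfsg.Agent.H18.CG1
open H17 Cfsg H15 CF H21 H18

set_option autoImplicit false
open Cfsg

namespace Cfsg.Agent.S0859



/-- Let G be a finite solvable group and N a normal subgroup such that for every prime p every Sylow p-subgroup of N is abelian. Suppose every irreducible character of G is induced from an irreducible character of some subgroup containing N whose restriction to N is irreducible. Then every irreducible character of G is induced from a character of degree 1 of some subgroup. -/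
theorem result {G : Type*} [Group G] [Fintype G] [Group.IsSolvable G] (N : Subgroup G) [N.Normal] (hab : ∀ (p : ℕ) [Fact p.Prime] (P : Sylow p N), ∀ a ∈ P, ∀ b ∈ P, a * b = b * a) (hrel : ∀ χ : G → ℂ, Cfsg.IsIrrCharacter G χ → ∃ (H : Subgroup G) (hNH : N ≤ H) (ψ : H → ℂ), Cfsg.IsIrrCharacter H ψ ∧ Cfsg.indFun H ψ = χ ∧ Cfsg.IsIrrCharacter N (fun n : N => ψ ⟨(n : G), hNH n.2⟩)) (χ : G → ℂ) (hχ : Cfsg.IsIrrCharacter G χ) : ∃ (U : Subgroup G) (lam : U → ℂ), Cfsg.IsCharacter U lam ∧ lam 1 = 1 ∧ Cfsg.indFun U lam = χ := by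
  obtain ⟨H, hNH, ψ, hψ, rfl, h⟩ := hrel χ hχ
  obtain ⟨U, hU, l, hl, e⟩ := mono_of_rel (N := N) (H := H) (ψ := extendByZero H ψ) inferInstance
    (fun p hp P hP hPp => by
      have := Fact.mk hp
      obtain ⟨Q, hQ, h1⟩ := H16.sy_exists_ge hP (H16.pg_iff.2 hPp)
      obtain ⟨S, rfl⟩ := H16.sylow_of_sy hQ
      refine H16.comm_of_le (H16.comm_iff.2 ?_) h1
      rintro _ ⟨a, ha, rfl⟩
      rw [H16.mem_cent]
      rintro _ ⟨b, hb, rfl⟩
      exact congrArg Subtype.val (hab p S b hb a ha)) hNH (ext0_mem_Irr.2 hψ) (by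
      refine mem_Irr.2 ⟨fun x hx => Res_of_not_mem _ hx, ?_⟩
      rw [res_Res_of_le le_rfl]
      convert h using 2 with x
      exact ext0_mem H ψ (hNH x.2))
  refine ⟨U, res U l, hl.char.2, hl.one_apply, ?_⟩
  rw [← Ind_top_eq, ← Ind_top_ext0, ← e, Ind_Ind hU le_top]

end Cfsg.Agent.S0859
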