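import Cfsg.Statements.S0860
import Cfsg.Agent.H17.Square
open H17 Cfsg

set_option autoImplicit false
open Cfsg

namespace Cfsg.Agent.S0860



/-- Let a group A act on the set of irreducible characters and on the set of conjugacy classes of a finite group G in such a way that (a • χ) evaluated on the class a • C equals χ evaluated on C, for all a, χ and C. Then every element of A fixes exactly as many irreducible characters as it fixes conjugacy classes. -/
theorem result {G : Type*} [Group G] [Finite G] {A : Type*} [Group A] [MulAction A (Cfsg.IrrCharacter G)] [MulAction A (ConjClasses G)] (hcompat : ∀ (a : A) (χ : Cfsg.IrrCharacter G) (g g' : G), ConjClasses.mk g' = a • ConjClasses.mk g → ((a • χ : Cfsg.IrrCharacter G) : G → ℂ) g' = (χ : G → ℂ) g) (a : A) : Nat.card {χ : Cfsg.IrrCharacter G // a • χ = χ} = Nat.card {C : ConjClasses G // a • C = C} := by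
  have h1 : ∀ g : G, ∃ x : G, ConjClasses.mk x = a⁻¹ • ConjClasses.mk g := fun g =>
    ConjClasses.mk_surjective _
  choose α hα using h1
  have h2 : ∀ χ : IrrCharacter G, (fun g => (χ : G → ℂ) (α g)) = ((a • χ : IrrCharacter G) : G → ℂ) :=
    fun χ => funext fun g => (hcompat a χ (α g) g (by rw [hα, smul_inv_smul])).symm
  rw [← card_fixed_irr_eq α (fun χ h => by
    have := h2 ⟨χ, h⟩
    exact this ▸ (a • (⟨χ, h⟩ : IrrCharacter G)).2) (fun C => a • C = C) fun g => by
      rw [← ConjClasses.mk_eq_mk_iff_isConj, hα, inv_smul_eq_iff, eq_comm]]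
  refine Nat.card_congr (Equiv.subtypeEquivRight fun χ => ?_)
  rw [h2]
  exact Subtype.ext_iff

end Cfsg.Agent.S0860
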