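import Cfsg.Statements.S0861
import Cfsg.Agent.H21.CD3
import Cfsg.Agent.H19.BrChar
open H17 Cfsg H15 CF H21

set_option autoImplicit false
open Cfsg

namespace Cfsg.Agent.S0861



/-- Let P be a normal abelian Sylow p-subgroup of the finite group G and suppose some element g of P has centralizer exactly P. Then the number of irreducible characters of G is at most the order of P, and if equality holds then G / P is abelian (the commutator subgroup lies in P). -/
theorem result {G : Type*} [Group G] [Finite G] (p : ℕ) [Fact p.Prime] (P : Sylow p G) [(P : Subgroup G).Normal] (hab : ∀ a ∈ P, ∀ b ∈ P, a * b = b * a) (g : G) (hg : g ∈ P) (hC : Subgroup.centralizer ({g} : Set G) = P) : Nat.card (Cfsg.IrrCharacter G) ≤ Nat.card P ∧ (Nat.card (Cfsg.IrrCharacter G) = Nat.card P → commutator G ≤ P) := by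
  classical
  have hp : p.Prime := Fact.out
  set S : Finset G := fs {x | x ∈ (P : Subgroup G) ∧ 𝒞₁(x) = P} with hS
  have h0 : 0 < S.card := Finset.card_pos.2 ⟨g, mem_fs.2 ⟨hg, hC⟩⟩
  have h1 : ∀ χ ∈ Irr (⊤ : Subgroup G), (S.card : ℝ) ≤ ∑ x ∈ S, ‖χ x‖ ^ 2 := fun χ hχ => by
    have h := mem_Irr_top.1 hχ
    refine h.isCharacter.isGen.card_le_sum_norm_sq S (fun k hk x hx => ?_) fun x hx h0 => ?_
    · obtain ⟨a, b⟩ := mem_fs.1 hx
      refine mem_fs.2 ⟨pow_mem a k, ?_⟩
      rw [← b, ← cent_zpowers, ← cent_zpowers, le_antisymm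
        (Subgroup.zpowers_le.2 (pow_mem (Subgroup.mem_zpowers x) k))
        (Subgroup.zpowers_le.2 (mem_zpowers_pow_iff.2
          (hk.coprime_dvd_right (orderOf_dvd_natCard x))))]
    · obtain ⟨n, hn⟩ := h.isCharacter.exists_nat_one
      have h2 := h.degree_dvd_index_of_comm hn P ⟨⟨fun a b => Subtype.ext (hab a a.2 b b.2)⟩⟩
      have h3 := H19.char_nat_modEq h.isCharacter (H19.isPElt_of_mem P.2 (mem_fs.1 hx).1)
        (m := 0) (n := n) (by simpa using h0) (by simpa using hn)
      rw [zero_sub, dvd_neg, Int.natCast_dvd_natCast] at h3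
      exact P.not_dvd_index (h3.trans h2)
  have h2 : ∑ χ ∈ Irr (⊤ : Subgroup G), ∑ x ∈ S, ‖χ x‖ ^ 2 = Nat.card P * S.card := by
    rw [Finset.sum_comm, Finset.sum_congr rfl (g := fun _ => (Nat.card P : ℝ)) fun x hx => by
      rw [sum_normSq_Irr (Subgroup.mem_top x), top_inf_eq, (mem_fs.1 hx).2]]
    simp [mul_comm]
  have h3 : Nat.card (IrrCharacter G) = (Irr (⊤ : Subgroup G)).card := by
    rw [← Nat.card_eq_finsetCard]
    exact Nat.card_congr (Equiv.subtypeEquivRight fun χ => mem_Irr_top.symm)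
  have h4 : (0 : ℝ) < S.card := by exact_mod_cast h0
  rw [h3]
  constructor
  · have := Finset.sum_le_sum h1
    rw [h2, Finset.sum_const, nsmul_eq_mul] at this
    exact_mod_cast le_of_mul_le_mul_right this h4
  · intro h
    refine der_le_of_deg le_top (top_le_norm _) fun χ hχ => ?_
    obtain ⟨a, b⟩ := mem_IrrQ.1 hχ
    have h5 := (Finset.sum_eq_sum_iff_of_le h1).1
      (by rw [h2, Finset.sum_const, nsmul_eq_mul, h]) χ a
    rw [Finset.sum_congr rfl (g := fun _ => (charDegree χ : ℝ) ^ 2) fun x hx => by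
      rw [cfker_apply (b (mem_fs.1 hx).1), ← deg_cast a, Complex.norm_natCast],
      Finset.sum_const, nsmul_eq_mul, eq_comm, mul_eq_left₀ h4.ne'] at h5
    exact_mod_cast (pow_eq_one_iff_of_nonneg (by positivity) two_ne_zero).1 h5

end Cfsg.Agent.S0861
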