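import Cfsg.Statements.S0868
import Cfsg.Agent.H21.Ext3

set_option autoImplicit false
open scoped ComplexConjugate
open Cfsg

open H17 Cfsg H15 CF H21

namespace Cfsg.Agent.S0868

/-- Let N be a normal subgroup of the finite group G, χ an irreducible character of G whose restriction ϑ to N is irreducible, and ψ an irreducible character of G. Define η on G by η g = (1 / order of N) * Σ over n in N of ψ (n * g) * conj (χ (n * g)). Then: if the restriction of ψ to N has nonzero inner product with ϑ, η is an irreducible character of G; if that inner product is zero, η vanishes identically; and if ψ = χ then η is identically 1. -/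
theorem result {G : Type*} [Group G] [Fintype G] (N : Subgroup G) [N.Normal] [Fintype N] (χ : G → ℂ) (hχ : Cfsg.IsIrrCharacter G χ) (hχN : Cfsg.IsIrrCharacter N (fun n : N => χ n)) (ψ : G → ℂ) (hψ : Cfsg.IsIrrCharacter G ψ) (η : G → ℂ) (hη : η = fun g => (Nat.card N : ℂ)⁻¹ * ∑ n : N, ψ ((n : G) * g) * conj (χ ((n : G) * g))) : (Cfsg.classInner (fun n : N => ψ n) (fun n : N => χ n) ≠ 0 → Cfsg.IsIrrCharacter G η) ∧ (Cfsg.classInner (fun n : N => ψ n) (fun n : N => χ n) = 0 → η = 0) ∧ (ψ = χ → η = fun _ => 1) := by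
  classical
  have hc := mem_Irr_top.2 hχ
  have hp := mem_Irr_top.2 hψ
  have hR : Res (N : Set G) χ ∈ Irr N := by rw [← ext0_res]; exact ext0_mem_Irr.2 hχN
  have hn := top_le_norm N
  have e : η = ∑ β ∈ IrrQ ⊤ N, dot ⊤ ψ (β * χ) • β := by
    funext g
    have := sum_coset_eq le_top hn (mul_mem_cf (irr_cf hp) (star_mem_cf (irr_cf hc))) g
    rw [sum_sub_eq] at this
    simp only [hη, Finset.sum_apply, Pi.smul_apply, smul_eq_mul]
    rw [inv_mul_eq_iff_eq_mul₀ (card_ne N)]
    simp only [dot_mul_left, star_star] at this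
    exact this
  have key : ∀ β ∈ IrrQ ⊤ N, β * χ = ψ → η = β := fun β hβ h => by
    rw [e, ← h, Finset.sum_eq_single_of_mem β hβ fun γ hγ hne => by
      rw [gall1_dot le_top hn (irr_char hc) hR hβ hγ, if_neg hne.symm, zero_smul],
      gall1_dot le_top hn (irr_char hc) hR hβ hβ, if_pos rfl, one_smul]
  have hd : classInner (fun n : N => ψ n) (fun n : N => χ n) = dot N ψ (Res (N : Set G) χ) := by
    rw [dot_Res_right, dot_eq]; rfl
  rw [hd]
  refine ⟨fun h => ?_, fun h => ?_, fun h => ?_⟩
  · obtain ⟨β, hβ, h1⟩ := (gall1_mem le_top hn (irr_char hc) hR).1 (mem_over.2 ⟨hp, h⟩)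
    rw [key β hβ h1]
    exact mem_Irr_top.1 (mem_IrrQ.1 hβ).1
  · rw [e]
    refine Finset.sum_eq_zero fun β hβ => ?_
    rw [dot_irr_ne hp (gall1_irr le_top hn (irr_char hc) hR hβ), zero_smul]
    exact fun h1 => (mem_over.1 ((gall1_mem le_top hn (irr_char hc) hR).2 ⟨β, hβ, h1.symm⟩)).2 h
  · rw [key _ (one_mem_IrrQ le_top) (by rw [one_top, one_mul, h]), one_top]
    rfl

end Cfsg.Agent.S0868
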