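import Cfsg.Statements.S0869
import Mathlib

set_option autoImplicit false
open Cfsg

namespace Cfsg.Agent.S0869



/-- Let S be a nonempty finite type and R an additive subgroup of the integer-valued functions on S that is closed under pointwise multiplication. If the constant function 1 is not in R, then there exist a point x of S and a prime p such that p divides f x for every f in R. -/
theorem result {S : Type*} [Finite S] [Nonempty S] (R : AddSubgroup (S → ℤ)) (hmul : ∀ f ∈ R, ∀ g ∈ R, f * g ∈ R) (h1 : (1 : S → ℤ) ∉ R) : ∃ (x : S) (p : ℕ), p.Prime ∧ ∀ f ∈ R, (p : ℤ) ∣ f x := by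
  classical
  by_contra hcon
  push Not at hcon
  have := Fintype.ofFinite S
  have h2 : ∀ x : S, ∃ f ∈ R, f x = 1 := by
    intro x
    let I : AddSubgroup ℤ := R.map (Pi.evalAddMonoidHom (fun _ : S => ℤ) x)
    obtain ⟨a, ha⟩ := Int.subgroup_cyclic I
    have hmem : ∀ f ∈ R, a ∣ f x := by
      intro f hf
      have : f x ∈ I := ⟨f, hf, rfl⟩
      rw [ha, AddSubgroup.mem_closure_singleton] at this
      obtain ⟨n, hn⟩ := this
      exact ⟨n, by rw [← hn, smul_eq_mul, mul_comm]⟩
    by_cases h1 : a.natAbs = 1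
    · have : (1 : ℤ) ∈ I := by
        rw [ha, AddSubgroup.mem_closure_singleton]
        refine ⟨a, ?_⟩
        rw [smul_eq_mul]
        rcases Int.natAbs_eq_iff.mp h1 with h | h <;> simp [h]
      obtain ⟨f, hf, hfx⟩ := this
      exact ⟨f, hf, hfx⟩
    · obtain ⟨p, hp, hpa⟩ := Nat.exists_prime_and_dvd h1
      obtain ⟨f, hf, hfp⟩ := hcon x p hp
      exact absurd ((Int.natCast_dvd.mpr hpa).trans (hmem f hf)) hfp
  choose f hf hfx using h2
  have h3 : ∀ s : Finset S, 1 - ∏ x ∈ s, (1 - f x) ∈ R := by
    intro s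
    induction s using Finset.induction_on with
    | empty => simp
    | insert a s ha ih =>
      rw [Finset.prod_insert ha]
      have : 1 - (1 - f a) * ∏ x ∈ s, (1 - f x) =
          (1 - ∏ x ∈ s, (1 - f x)) + f a - f a * (1 - ∏ x ∈ s, (1 - f x)) := by ring
      rw [this]
      exact R.sub_mem (R.add_mem ih (hf a)) (hmul _ (hf a) _ ih)
  have h4 : ∏ x : S, (1 - f x) = 0 := by
    funext y
    rw [Finset.prod_apply]
    exact Finset.prod_eq_zero (Finset.mem_univ y) (by simp [hfx])
  have := h3 Finset.univ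
  rw [h4, sub_zero] at this
  exact h1 this

end Cfsg.Agent.S0869
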