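import Cfsg.Statements.S0872
import Cfsg.Agent.H18.Brauer1

set_option autoImplicit false
open Cfsg

namespace Cfsg.Agent.S0872



/-- For a finite group G and a prime p there are an integer m not divisible by p and a ℤ-linear combination of functions induced from the constant function 1 on subgroups H, each having a cyclic normal subgroup of order prime to p and p-power index in H, that equals the constant function m. -/
theorem result {G : Type*} [Group G] [Fintype G] (p : ℕ) (hp : p.Prime) : ∃ (m : ℤ) (a : Subgroup G → ℤ), ¬ (p : ℤ) ∣ m ∧ (∀ H, a H ≠ 0 → (∃ C : Subgroup G, C ≤ H ∧ H ≤ Subgroup.normalizer (C : Set G) ∧ IsCyclic C ∧ Nat.Coprime (Nat.card C) p ∧ ∃ k : ℕ, C.relIndex H = p ^ k)) ∧ (fun _ : G => (m : ℂ)) = ∑ H : Subgroup G, (a H : ℂ) • Cfsg.indFun H (fun _ => 1) := by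
  classical
  obtain ⟨m, hm, h⟩ := H18.solomon (G := G) hp
  obtain ⟨c, hc⟩ := (Submodule.mem_span_range_iff_exists_fun ℤ).mp h
  refine ⟨m, Function.extend Subtype.val c 0, hm, ?_, ?_⟩
  · intro H hH
    by_contra h'
    refine hH (Function.extend_apply' _ _ _ ?_)
    rintro ⟨K, rfl⟩
    exact h' K.2
  · rw [← hc, ← Finset.sum_subset (Finset.subset_univ
      (Finset.univ.map (Function.Embedding.subtype (H18.IsQE p)))), Finset.sum_map]
    · refine Finset.sum_congr rfl fun H _ => ?_
      simp only [Function.Embedding.coe_subtype, Int.cast_smul_eq_zsmul]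
      rw [Subtype.val_injective.extend_apply]
    · intro H _ hH
      rw [Function.extend_apply', Pi.zero_apply, Int.cast_zero, zero_smul]
      rintro ⟨K, rfl⟩
      apply hH; simp [K.2]

end Cfsg.Agent.S0872
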