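import Cfsg.Statements.S0873
import Cfsg.Agent.H1.Coprime
import Cfsg.Agent.H17.Ker
open H17

set_option autoImplicit false
open Cfsg

namespace Cfsg.Agent.S0873



/-- Let C be a normal subgroup of the finite group G of order prime to p and P a p-subgroup with C ⊔ P = G. Let λ be a character of C of degree 1 invariant under conjugation by G and equal to 1 at every element of C centralized by P. Then λ is identically 1. -/
theorem result {G : Type*} [Group G] [Finite G] (p : ℕ) [Fact p.Prime] (C P : Subgroup G) [hC : C.Normal] (hP : IsPGroup p P) (hcop : Nat.Coprime (Nat.card C) p) (hCP : C ⊔ P = ⊤) (lam : C → ℂ) (hlam : Cfsg.IsCharacter C lam ∧ lam 1 = 1) (hinv : ∀ (g : G) (c : C), lam ⟨g * c * g⁻¹, hC.conj_mem (c : G) c.2 g⟩ = lam c) (hker : ∀ c : C, (c : G) ∈ Subgroup.centralizer (P : Set G) → lam c = 1) : lam = fun _ => 1 := by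
  obtain ⟨μ, rfl⟩ := hlam.1.exists_linear hlam.2
  have hcop' : (Nat.card P).Coprime (Nat.card C) := by
    obtain ⟨k, hk⟩ := IsPGroup.iff_card.mp hP
    rw [hk]; exact (Nat.Coprime.pow_right k hcop).symm
  have hs : Group.IsSolvable P := by
    have := hP.isNilpotent
    infer_instance
  have hle : ⁅C, P⁆ ≤ μ.ker.map C.subtype := by
    rw [Subgroup.commutator_le]
    intro c hc a ha
    have h1 : c * (a * c⁻¹ * a⁻¹) ∈ C := C.mul_mem hc (hC.conj_mem _ (C.inv_mem hc) a)
    refine ⟨⟨c, hc⟩ * ⟨a * c⁻¹ * a⁻¹, hC.conj_mem _ (C.inv_mem hc) a⟩, ?_, ?_⟩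
    · have h2 := hinv a ⟨c, hc⟩⁻¹
      rw [SetLike.mem_coe, MonoidHom.mem_ker, map_mul]
      have h3 : μ ⟨a * c⁻¹ * a⁻¹, hC.conj_mem _ (C.inv_mem hc) a⟩ = μ ⟨c, hc⟩⁻¹ :=
        Units.val_injective h2
      rw [h3, map_inv, mul_inv_cancel]
    · simp [commutatorElement_def, mul_assoc]
  funext c
  obtain ⟨z, hz, x, hx, hzx⟩ := H1.exists_centralizer_mul_commutator (A := P) (K := C)
    Subgroup.le_normalizer_of_normal hcop' (Or.inl hs) c.2
  obtain ⟨y, hy, rfl⟩ := hle hx
  have : c = ⟨z, hz.1⟩ * y := Subtype.ext hzx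
  rw [this, map_mul, show μ y = 1 from hy, mul_one]
  exact hker ⟨z, hz.1⟩ hz.2

end Cfsg.Agent.S0873
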