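import Cfsg.Statements.S0874
import Cfsg.Agent.H18.CG3
open H17 Cfsg H15 CF H21 H18

set_option autoImplicit false
open Cfsg

namespace Cfsg.Agent.S0874



/-- For a finite group G and a prime p there are an integer m not divisible by p and a list of triples (E, φ, c), with E a p-elementary subgroup, φ a character of E and c an integer, such that the constant function m on G equals the sum of the c • (function induced from φ). -/
theorem result {G : Type*} [Group G] [Fintype G] (p : ℕ) (hp : p.Prime) : ∃ (m : ℤ) (l : List ((E : Subgroup G) × ((E → ℂ) × ℤ))), ¬ (p : ℤ) ∣ m ∧ (∀ t ∈ l, Cfsg.IsElementary p t.1 ∧ Cfsg.IsCharacter t.1 t.2.1) ∧ (fun _ : G => (m : ℂ)) = (l.map fun t => (t.2.2 : ℂ) • Cfsg.indFun t.1 t.2.1).sum := by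
  obtain ⟨m, h1, h2⟩ := brauer_loc (G := G) hp
  suffices h : ∀ φ ∈ elSpan p (⊤ : Subgroup G), ∃ l : List ((E : Subgroup G) × ((E → ℂ) × ℤ)),
      (∀ t ∈ l, IsElementary p t.1 ∧ IsCharacter t.1 t.2.1) ∧
      φ = (l.map fun t => (t.2.2 : ℂ) • indFun t.1 t.2.1).sum by
    obtain ⟨l, a, b⟩ := h _ h2
    exact ⟨m, l, h1, a, b⟩
  intro φ hφ
  refine Z_induction hφ ?_ ⟨[], by simp, by simp⟩ ?_ ?_
  · rintro _ ⟨E, -, a, θ, b, rfl⟩
    exact ⟨[⟨E, res E θ, 1⟩], by simpa using ⟨a, b.2⟩, by simp [Ind_top_eq]⟩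
  · rintro _ _ - - ⟨l, a, rfl⟩ ⟨l', a', rfl⟩
    exact ⟨l ++ l', fun t ht => (List.mem_append.1 ht).elim (a t) (a' t), by simp⟩
  · rintro _ - ⟨l, a, rfl⟩
    refine ⟨l.map fun t => ⟨t.1, t.2.1, -t.2.2⟩, fun t ht => ?_, ?_⟩
    · obtain ⟨s, hs, rfl⟩ := List.mem_map.1 ht
      exact a s hs
    · clear a
      induction l with
      | nil => simp
      | cons s l ih => simp only [List.map_cons, List.sum_cons, neg_add, ih]; simp

end Cfsg.Agent.S0874
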