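import Cfsg.Statements.S0876
import Cfsg.Agent.H18.CG4
open H17 Cfsg H15 CF H21 H18

set_option autoImplicit false
open Cfsg

namespace Cfsg.Agent.S0876



/-- Let G be a finite group, p a prime and M a maximal ideal of the ring of algebraic integers containing p. Let x, y be elements with p-parts a and b (so a⁻¹ * x and b⁻¹ * y are their p-regular parts). Then a⁻¹ * x and b⁻¹ * y are conjugate in G if and only if, for every irreducible character χ, the difference χ x - χ y lies in the local ideal at M. -/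
theorem result {G : Type*} [Group G] [Finite G] (p : ℕ) (M : Ideal Cfsg.AlgInt) (hM : Cfsg.IsPModular p M) (x y a b : G) (ha : Cfsg.IsPPart p x a) (hb : Cfsg.IsPPart p y b) : IsConj (a⁻¹ * x) (b⁻¹ * y) ↔ ∀ χ : Cfsg.IrrCharacter G, Cfsg.MemLocalIdeal M ((χ : G → ℂ) x - (χ : G → ℂ) y) := by
  classical
  have hp := Fact.mk hM.1
  obtain ⟨O, hO, _⟩ := H19.exists_over hM
  have key : ∀ {θ : G → ℂ}, θ ∈ H19.GC O.toSubring G → ∀ {x a : G}, IsPPart p x a →
      θ x - θ (a⁻¹ * x) ∈ O.nonunits := fun h x a ha => by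
    simpa using H19.GC_mul_sub_mem h (H19.isPPart_isPElt ha)
      ((Commute.refl a).inv_right.mul_right (H19.isPPart_commute ha))
  simp only [fun χ : IrrCharacter G => hO.memLocalIdeal_iff_of_isIntegral
    ((χ.2.isCharacter.isIntegral x).sub (χ.2.isCharacter.isIntegral y))]
  constructor
  · intro h χ
    obtain ⟨c, hc⟩ := isConj_iff.1 h
    have h1 := sub_mem (key (H19.irr_mem_GC χ) ha) (key (H19.irr_mem_GC χ) hb)
    rw [← hc, χ.2.isCharacter.isClassFunction] at h1
    simpa using h1
  · intro h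
    obtain ⟨k, n, hn, hG⟩ := Nat.exists_eq_pow_mul_and_not_dvd (Nat.card_pos (α := G)).ne' p
      hM.1.one_lt.ne'
    have hc : (p ^ k).Coprime n := ((Nat.Prime.coprime_iff_not_dvd hM.1).2 hn).pow_left k
    obtain ⟨e, he, he'⟩ := exists_part_exp hc
    have h1 := H19.GC_mono (H19.ZB_le O) (sec_mem_GC hG hc he (a⁻¹ * x))
    have h2 : ∀ θ ∈ H19.GC O.toSubring G, θ x - θ y ∈ O.nonunits := fun θ hθ => by
      refine H19.GC_induction (P := fun θ => θ x - θ y ∈ O.nonunits) hθ h (by simp) ?_ ?_
      · intro φ ψ h1 h2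
        convert add_mem h1 h2 using 1
        simp only [Pi.add_apply]; ring
      · intro c hc φ h1
        convert H19.nonunits_mul_left hc h1 using 1
        simp only [Pi.smul_apply, smul_eq_mul]; ring
    have h3 : ∀ {x a : G}, IsPPart p x a → (a⁻¹ * x) ^ e = a⁻¹ * x := fun ha =>
      pow_eq_self_of_modEq he' (pow_eq_one_of_cop (hG.trans (mul_comm _ _))
        (((Nat.Prime.coprime_iff_not_dvd hM.1).2 (H19.isPPart_preg ha)).symm.pow_right k))
    have h4 := add_mem (sub_mem (h2 _ h1) (key h1 ha)) (key h1 hb)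
    simp only [h3 ha, h3 hb, IsConj.refl, if_true] at h4
    by_contra h5
    rw [if_neg (fun h : IsConj (b⁻¹ * y) (a⁻¹ * x) => h5 h.symm)] at h4
    exact hn ((H19.natCast_mem_nonunits_iff (O := O) p n).1 (by convert h4 using 1; ring))

end Cfsg.Agent.S0876
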