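import Cfsg.Statements.S0879
import Cfsg.Agent.H26.ZS3

set_option autoImplicit false
open Cfsg

namespace Cfsg.Agent.S0879


/-- Let G be a Zassenhaus group on the finite set Ω and E the stabilizer of two distinct points a, b. Then an element outside the normalizer of E conjugates no non-identity element of E into E, and E has index 2 in its normalizer. -/
theorem result {G Ω : Type*} [Group G] [Finite G] [MulAction G Ω] [Fintype Ω] (hZ : Cfsg.IsZassenhausGroup G Ω) {a b : Ω} (hab : a ≠ b) : (∀ g : G, g ∉ Subgroup.normalizer ((MulAction.stabilizer G a ⊓ MulAction.stabilizer G b : Subgroup G) : Set G) → ∀ x ∈ (MulAction.stabilizer G a ⊓ MulAction.stabilizer G b : Subgroup G), g * x * g⁻¹ ∈ (MulAction.stabilizer G a ⊓ MulAction.stabilizer G b : Subgroup G) → x = 1) ∧ ((MulAction.stabilizer G a ⊓ MulAction.stabilizer G b : Subgroup G).subgroupOf (Subgroup.normalizer ((MulAction.stabilizer G a ⊓ MulAction.stabilizer G b : Subgroup G) : Set G))).index = 2 := by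
  have h3 := H26.z3_of_zas hZ
  have hD := H26.Zas.D_ne_bot hZ hab.symm
  refine ⟨fun g hg x hx h => ?_, ?_⟩
  · by_contra h1
    exact hg ((h3.mem_norm_D hab.symm hD).2 (h3.conj_cases hab.symm hx h1 h))
  · obtain ⟨s, hs, -⟩ := h3.exists_swap hab.symm
    refine Subgroup.index_eq_two_iff.2 ⟨⟨s, (h3.mem_norm_D hab.symm hD).2 (Or.inr hs)⟩, fun x => ?_⟩
    rcases (h3.mem_norm_D hab.symm hD).1 x.2 with h | h
    · refine Or.inr ⟨h, fun h' => hab ?_⟩
      have : ((x : G) * s) • a = a := h'.1
      rw [mul_smul, hs.1, h.2] at this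
      exact this.symm
    · refine Or.inl ⟨H26.Z3.swap_mul h.1 h.2 hs.1 hs.2, fun h' => hab ?_⟩
      exact (show (x : G) • a = a from h'.1).symm.trans h.1

end Cfsg.Agent.S0879
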