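import Cfsg.Statements.S0881
import Cfsg.Agent.H26.ZS10

set_option autoImplicit false
open Cfsg

namespace Cfsg.Agent.S0881


/-- Let G be a finite simple Zassenhaus group on Ω with n points, a ≠ b points with two-point stabilizer E of odd order less than n - 2, and let H be the subgroup of the stabilizer of a consisting of the identity and the elements fixing no point other than a (given here as a subgroup of the stabilizer of order one less than the number of points whose non-identity elements fix only a; it is the Frobenius kernel of the stabilizer). Let μ be a character of degree 1 of the stabilizer of a that is identically 1 on H but not identically 1. Then the function induced from μ to G is an irreducible character of G, and it takes the value 1 at every non-identity element of H. -/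
theorem result {G Ω : Type*} [Group G] [Fintype G] [MulAction G Ω] [Fintype Ω] (hZ : Cfsg.IsZassenhausGroup G Ω) {a b : Ω} (hab : a ≠ b) [IsSimpleGroup G] (hodd : Odd (Nat.card ↥(MulAction.stabilizer G a ⊓ MulAction.stabilizer G b : Subgroup G))) (hlt : Nat.card ↥(MulAction.stabilizer G a ⊓ MulAction.stabilizer G b : Subgroup G) < Fintype.card Ω - 2) (H : Subgroup G) (hHa : H ≤ MulAction.stabilizer G a) (hHcard : Nat.card H + 1 = Fintype.card Ω) (hHfix : ∀ u ∈ H, u ≠ 1 → ∀ c : Ω, u • c = c → c = a) (μ : MulAction.stabilizer G a → ℂ) (hμ : Cfsg.IsCharacter (MulAction.stabilizer G a) μ ∧ μ 1 = 1) (hμH : ∀ u : MulAction.stabilizer G a, (u : G) ∈ H → μ u = 1) (hμne : μ ≠ fun _ => 1) : Cfsg.IsIrrCharacter G (Cfsg.indFun (MulAction.stabilizer G a) μ) ∧ ∀ u ∈ H, u ≠ 1 → Cfsg.indFun (MulAction.stabilizer G a) μ u = 1 := by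
  have hO := H26.Zas.zo hZ hab.symm hodd
  have hK := hO.toZ3.ker_of_card hab.symm hHa (by rw [hHcard, Nat.card_eq_fintype_card]) hHfix
  have hl : CF.IsLin (MulAction.stabilizer G a) (extendByZero _ μ) :=
    ⟨CF.isChar_ext0.2 hμ.1, (H17.extendByZero_coe μ 1).trans hμ.2⟩
  have h1 : extendByZero _ μ ∈ CF.IrrQ (MulAction.stabilizer G a) H :=
    CF.mem_IrrQ.2 ⟨hl.mem_Irr, fun u hu => hl.mem_cfker.2
      ((H17.extendByZero_coe μ ⟨u, hHa hu⟩).trans (hμH _ hu))⟩
  have h2 : extendByZero _ μ ≠ CF.one (MulAction.stabilizer G a) := fun e => hμne (by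
    rw [← CF.res_ext0 _ μ, e, CF.res_one])
  rw [← CF.Ind_top_ext0]
  exact ⟨CF.mem_Irr_top.1 (hO.Ind_irr hK hab.symm h1 h2), fun u => hO.Ind_lin_ker hK hab.symm h1⟩

end Cfsg.Agent.S0881
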