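import Cfsg.Statements.S0882
import Cfsg.Agent.H26.ZS5

set_option autoImplicit false
open Cfsg

namespace Cfsg.Agent.S0882


/-- Let G be a finite simple Zassenhaus group on Ω with n = h + 1 points whose two-point stabilizer E has odd order e with 2e < h - 1. Then any two involutions of G are conjugate, and the number of involutions is e * (h + 1) if h is even and e * h if h is odd. -/
theorem result {G Ω : Type*} [Group G] [Finite G] [MulAction G Ω] [Fintype Ω] (hZ : Cfsg.IsZassenhausGroup G Ω) {a b : Ω} (hab : a ≠ b) [IsSimpleGroup G] (h e : ℕ) (hh : Fintype.card Ω = h + 1) (he : Nat.card ↥(MulAction.stabilizer G a ⊓ MulAction.stabilizer G b : Subgroup G) = e) (hodd : Odd e) (hlt : 2 * e < h - 1) : (∀ x y : G, orderOf x = 2 → orderOf y = 2 → IsConj x y) ∧ Nat.card {x : G // orderOf x = 2} = (if Even h then e * (h + 1) else e * h) := by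
  subst he
  have hO := H26.Zas.zo hZ hab.symm hodd
  obtain ⟨H, hK⟩ := hO.toZ3.exists_ker hab.symm
  have h1 := hK.card_Ω hab.symm
  rw [Nat.card_eq_fintype_card, hh] at h1
  obtain rfl : h = Nat.card H := by omega
  refine ⟨fun x y hx hy => ?_, ?_⟩
  · obtain ⟨h1, h2⟩ := H26.orderOf_eq_two_iff'.1 hx
    obtain ⟨h3, h4⟩ := H26.orderOf_eq_two_iff'.1 hy
    exact hO.isConj_inv h2 h1 h4 h3
  · rw [← hO.card_inv hK hab.symm, ← Nat.card_coe_set_eq]
    refine Nat.card_congr (Equiv.subtypeEquivRight fun x => ?_)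
    rw [H26.orderOf_eq_two_iff']
    exact ⟨fun h => ⟨trivial, h⟩, fun h => h.2⟩

end Cfsg.Agent.S0882
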