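import Cfsg.Statements.S0885
import Cfsg.Agent.H26.ZS10

set_option autoImplicit false
open Cfsg

namespace Cfsg.Agent.S0885


/-- Let G be a finite Zassenhaus group on Ω with h + 1 points whose two-point stabilizer E has odd order e, and let H be the subgroup of the stabilizer of a consisting of the identity and the elements fixing no point other than a (given here as a subgroup of the stabilizer of order one less than the number of points whose non-identity elements fix only a; it is the Frobenius kernel of the stabilizer). Then either h - 1 ≤ 2 * e, or H is a non-abelian 2-group whose commutator subgroup has index at most 4 * e ^ 2 + 1 in H. -/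
theorem result {G Ω : Type*} [Group G] [Finite G] [MulAction G Ω] [Fintype Ω] (hZ : Cfsg.IsZassenhausGroup G Ω) {a b : Ω} (hab : a ≠ b) (h e : ℕ) (hh : Fintype.card Ω = h + 1) (he : Nat.card ↥(MulAction.stabilizer G a ⊓ MulAction.stabilizer G b : Subgroup G) = e) (hodd : Odd e) (H : Subgroup G) (hHa : H ≤ MulAction.stabilizer G a) (hHcard : Nat.card H + 1 = Fintype.card Ω) (hHfix : ∀ u ∈ H, u ≠ 1 → ∀ c : Ω, u • c = c → c = a) : h - 1 ≤ 2 * e ∨ (IsPGroup 2 H ∧ (∃ u v : H, u * v ≠ v * u) ∧ (commutator H).index ≤ 4 * e ^ 2 + 1) := by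
  subst he
  have hK := (H26.z3_of_zas hZ).ker_of_card hab.symm hHa (by rw [hHcard, Nat.card_eq_fintype_card]) hHfix
  obtain rfl : h = Nat.card H := by omega
  refine (H26.Zas.feit hZ hK hab.symm hodd).imp_right fun h => ⟨h.1, ?_, h.2.2.le.trans (Nat.le_succ _)⟩
  by_contra hc
  push Not at hc
  exact h.2.1 ⟨⟨hc⟩⟩

end Cfsg.Agent.S0885
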