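import Cfsg.Statements.S0887
import Cfsg.Agent.H21.Ext3

set_option autoImplicit false
open Cfsg

open H17 Cfsg H15 CF H21

namespace Cfsg.Agent.S0887

/-- Let N be a normal subgroup of the finite group G, χ an irreducible character of G and ϑ an irreducible character of N having nonzero inner product with the restriction of χ. If χ 1 = c and ϑ 1 = d as natural numbers, then d divides c and c / d divides the index of N. -/
theorem result {G : Type*} [Group G] [Fintype G] (N : Subgroup G) [N.Normal] [Fintype N] (χ : G → ℂ) (hχ : Cfsg.IsIrrCharacter G χ) (ϑ : N → ℂ) (hϑ : Cfsg.IsIrrCharacter N ϑ) (hcon : Cfsg.classInner (fun n : N => χ n) ϑ ≠ 0) (c d : ℕ) (hc : χ 1 = c) (hd : ϑ 1 = d) : d ∣ c ∧ c / d ∣ N.index := by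
  obtain ⟨m, h1, h2⟩ := exists_degree_dvd le_top (top_le_norm N) (ext0_mem_Irr.2 hϑ)
    (mem_over.2 ⟨mem_Irr_top.2 hχ, by rwa [dot_ext0_right]⟩)
  have h3 : extendByZero N ϑ 1 = d := (congrFun (res_ext0 N ϑ) 1).trans hd
  have h4 : d ≠ 0 := fun e => hϑ.one_ne_zero (by rw [hd, e, Nat.cast_zero])
  rw [hc, h3, ← Nat.cast_mul, Nat.cast_inj] at h2
  rw [Subgroup.relIndex_top_right] at h1
  subst h2
  exact ⟨dvd_mul_left _ _, by rwa [Nat.mul_div_cancel _ (Nat.pos_of_ne_zero h4)]⟩

end Cfsg.Agent.S0887
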