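import Cfsg.Statements.S0888
import Cfsg.Agent.H21.Ext2

set_option autoImplicit false
open Cfsg

open H17

namespace Cfsg.Agent.S0888

/-- Let N be a normal subgroup of the finite group G and ϑ an irreducible character of N invariant under conjugation by G. Suppose that for every prime p there are a subgroup P containing N, of index prime to p and with the index of N in P a power of p, and an irreducible character of P restricting to ϑ. Then ϑ is the restriction of an irreducible character of G. -/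
theorem result {G : Type*} [Group G] [Finite G] (N : Subgroup G) [hN : N.Normal] (ϑ : N → ℂ) (hϑ : Cfsg.IsIrrCharacter N ϑ) (hinv : ∀ (g : G) (n : N), ϑ ⟨g * n * g⁻¹, hN.conj_mem (n : G) n.2 g⟩ = ϑ n) (hsyl : ∀ p : ℕ, p.Prime → ∃ (P : Subgroup G) (hNP : N ≤ P) (η : P → ℂ), Nat.Coprime P.index p ∧ (∃ k : ℕ, N.relIndex P = p ^ k) ∧ Cfsg.IsIrrCharacter P η ∧ ∀ n : N, η ⟨(n : G), hNP n.2⟩ = ϑ n) : ∃ χ : G → ℂ, Cfsg.IsIrrCharacter G χ ∧ ∀ n : N, χ n = ϑ n := by
  obtain ⟨d, hd⟩ := hϑ.isCharacter.exists_nat_one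
  refine H21.ext_of_primes hϑ hinv hd fun p hp _ _ => ?_
  obtain ⟨P, hP, η, h1, -, h2, h3⟩ := hsyl p hp
  exact ⟨P, hP, η, (Nat.Prime.coprime_iff_not_dvd hp).1 h1.symm, h2.isCharacter, h3⟩

end Cfsg.Agent.S0888
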