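import Cfsg.Statements.S0890
import Cfsg.Agent.H18.CG2
open H17 Cfsg H15 CF H21 H18

set_option autoImplicit false
open Cfsg

namespace Cfsg.Agent.S0890



/-- Let L ≤ H < G with L normal in G, H a maximal subgroup and G / L solvable. Let ϑ be an irreducible character of H whose restriction to L is irreducible and whose induction χ to G is irreducible. Then there is a normal subgroup M of G containing L such that the restriction of χ to M is not a natural-number multiple of a single irreducible character of M. -/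
theorem result {G : Type*} [Group G] [Fintype G] (L H : Subgroup G) [L.Normal] (hLH : L ≤ H) (hmax : IsCoatom H) (hsolv : Group.IsSolvable (G ⧸ L)) (ϑ : H → ℂ) (hϑ : Cfsg.IsIrrCharacter H ϑ) (hϑL : Cfsg.IsIrrCharacter L (fun x : L => ϑ ⟨(x : G), hLH x.2⟩)) (hind : Cfsg.IsIrrCharacter G (Cfsg.indFun H ϑ)) : ∃ M : Subgroup G, M.Normal ∧ L ≤ M ∧ ¬ ∃ (φ : M → ℂ) (e : ℕ), Cfsg.IsIrrCharacter M φ ∧ (fun m : M => Cfsg.indFun H ϑ m) = (e : ℂ) • φ := by
  by_contra hne
  push Not at hne
  obtain ⟨L', K, h1, h⟩ := exists_maxC (qsol_of_quot' hsolv ⊤) hLH hmax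
  have h2 := ext0_mem_Irr.2 hϑ
  refine h.not_hom h2 (((irr_char h2).Res h.le).mem_Irr_of_Res h1 ?_)
    (by rw [Ind_top_ext0]; exact mem_Irr_top.2 hind) fun M hM hL => ?_
  · rw [Res_Res_of_le h1]
    refine mem_Irr.2 ⟨fun x hx => Res_of_not_mem _ hx, ?_⟩
    rw [res_Res_of_le le_rfl]
    convert hϑL using 2 with x
    exact ext0_mem H ϑ (hLH x.2)
  · rw [Ind_top_ext0]
    exact hom_iff.2 (hne M hM (h1.trans hL))

end Cfsg.Agent.S0890
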