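import Cfsg.Statements.S0893
import Cfsg.Agent.H18.CG3
open H17 Cfsg H15 CF H21 H18

set_option autoImplicit false
open Cfsg

namespace Cfsg.Agent.S0893



/-- Let P be an extraspecial p-group of order p ^ (2 * n + 1), A an abelian subgroup of order p ^ (n + 1), and λ a character of A of degree 1 that is not identically 1 on the elements of A lying in the centre of P. Then the function induced from λ to P is an irreducible character of P and vanishes at every element outside the centre. -/
theorem result {P : Type*} [Group P] [Fintype P] (p n : ℕ) [Fact p.Prime] (hP : Cfsg.IsExtraspecial p P) (hcard : Nat.card P = p ^ (2 * n + 1)) (A : Subgroup P) (hab : ∀ a ∈ A, ∀ b ∈ A, a * b = b * a) (hA : Nat.card A = p ^ (n + 1)) (lam : A → ℂ) (hlam : Cfsg.IsCharacter A lam ∧ lam 1 = 1) (hZ : ∃ a : A, (a : P) ∈ Subgroup.center P ∧ lam a ≠ 1) : Cfsg.IsIrrCharacter P (Cfsg.indFun A lam) ∧ ∀ x : P, x ∉ Subgroup.center P → Cfsg.indFun A lam x = 0 := by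
  have hp : p.Prime := Fact.out
  have hl : IsLin A (extendByZero A lam) := isLin_of_irr
    ((isChar_ext0.2 hlam.1).mem_Irr_of_one (by rw [ext0_mem A lam A.one_mem]; exact hlam.2))
    (by rw [ext0_mem A lam A.one_mem]; exact hlam.2)
  obtain ⟨χ, hχ⟩ := over_nonempty le_top hl.mem_Irr
  obtain ⟨h1, h2⟩ := mem_over.1 hχ
  obtain ⟨a, ha, ha'⟩ := hZ
  obtain ⟨h3, h4⟩ := es_char hp hP hcard h1 fun h => ha' (by
    have := le_cfker_of_under (N := Subgroup.zpowers (a : P)) le_top (Subgroup.zpowers_le.2 a.2)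
      (irr_char h1) hl.mem_Irr h2 (Subgroup.zpowers_le.2 (h ha)) (Subgroup.mem_zpowers _)
    rwa [hl.mem_cfker, ext0_coe] at this)
  have h5 : Ind ⊤ A (extendByZero A lam) = χ := by
    refine (hl.char.Ind le_top).eq_irr_of_degree h1 ((mem_over' le_top).1 hχ).2 ?_
    have h6 := A.card_mul_index
    rw [hA, hcard, show 2 * n + 1 = n + 1 + n by ring, pow_add _ _ n] at h6
    rw [Ind_one le_top, hl.one_apply, h3, Subgroup.relIndex_top_right,
      mul_left_cancel₀ (pow_ne_zero _ hp.ne_zero) h6]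
    simp
  rw [← Ind_top_ext0, h5]
  exact ⟨mem_Irr_top.1 h1, h4⟩

end Cfsg.Agent.S0893
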