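import Cfsg.Statements.S0894
import Cfsg.Agent.H18.CG3
open H17 Cfsg H15 CF H21 H18

set_option autoImplicit false
open Cfsg

namespace Cfsg.Agent.S0894



/-- Let P be an extraspecial p-group of order p ^ (2 * n + 1). Then every irreducible character of P has degree 1 or p ^ n, and exactly p - 1 of them have degree p ^ n. -/
theorem result {P : Type*} [Group P] [Finite P] (p n : ℕ) [Fact p.Prime] (hP : Cfsg.IsExtraspecial p P) (hcard : Nat.card P = p ^ (2 * n + 1)) : (∀ χ : Cfsg.IrrCharacter P, (χ : P → ℂ) 1 = 1 ∨ (χ : P → ℂ) 1 = (p : ℂ) ^ n) ∧ Nat.card {χ : Cfsg.IrrCharacter P // (χ : P → ℂ) 1 = (p : ℂ) ^ n} = p - 1 := by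
  classical
  have hp : p.Prime := Fact.out
  have h1 : ∀ χ ∈ Irr (⊤ : Subgroup P), Subgroup.center P ≤ cfker χ → χ 1 = 1 := fun χ a b =>
    (irr_one_eq_one_iff a).2 (es_der hP ▸ b)
  refine ⟨fun χ => ?_, ?_⟩
  · have hχ := mem_Irr_top.2 χ.2
    by_cases h : Subgroup.center P ≤ cfker (χ : P → ℂ)
    · exact Or.inl (h1 _ hχ h)
    · exact Or.inr (es_char hp hP hcard hχ h).1
  · rw [← es_card hp hP hcard, ← Nat.card_eq_finsetCard]
    refine Nat.card_congr ((Equiv.subtypeSubtypeEquivSubtypeInter _ fun χ : P → ℂ =>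
      χ 1 = (p : ℂ) ^ n).trans (Equiv.subtypeEquivRight fun χ => ?_))
    rw [Finset.mem_sdiff, mem_IrrQ, ← mem_Irr_top]
    refine and_congr_right fun a => ⟨fun b c => ?_, fun b => (es_char hp hP hcard a
      fun c => b ⟨a, c⟩).1⟩
    rw [h1 χ a c.2] at b
    exact (Nat.one_lt_pow (es_ne_zero hp hP hcard) hp.one_lt).ne (by exact_mod_cast b)

end Cfsg.Agent.S0894
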