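import Cfsg.Statements.S0896
import Cfsg.Agent.H21.Dd1

set_option autoImplicit false
open scoped ComplexConjugate
open Cfsg

open H17 H15 CF H21

namespace Cfsg.Agent.S0896

/-- Let N be a normal subgroup of the finite group G with the index of N a power of the prime p, and ϑ an irreducible character of N invariant under conjugation by G. Then there are a p-elementary subgroup E of G with E ⊔ N = ⊤ and an irreducible character φ of the subgroup E ⊓ N, invariant under conjugation by E, such that the inner product of the restriction of ϑ to E ⊓ N with φ is an integer not divisible by p. -/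
theorem result {G : Type*} [Group G] [Fintype G] (p : ℕ) (hp : p.Prime) (N : Subgroup G) [hN : N.Normal] (hind : ∃ k : ℕ, N.index = p ^ k) (ϑ : N → ℂ) (hϑ : Cfsg.IsIrrCharacter N ϑ) (hinv : ∀ (g : G) (n : N), ϑ ⟨g * n * g⁻¹, hN.conj_mem (n : G) n.2 g⟩ = ϑ n) : ∃ (E : Subgroup G) (φ : ↥(E ⊓ N) → ℂ), Cfsg.IsElementary p E ∧ E ⊔ N = ⊤ ∧ Cfsg.IsIrrCharacter ↥(E ⊓ N) φ ∧ (∀ (g : G) (hg : g ∈ E) (x : ↥(E ⊓ N)), φ ⟨g * x * g⁻¹, ⟨(E.mul_mem (E.mul_mem hg x.2.1) (E.inv_mem hg)), hN.conj_mem (x : G) x.2.2 g⟩⟩ = φ x) ∧ ∃ m : ℕ, ¬ p ∣ m ∧ (Nat.card ↥(E ⊓ N) : ℂ)⁻¹ * ∑ᶠ x : ↥(E ⊓ N), ϑ ⟨(x : G), x.2.2⟩ * conj (φ x) = (m : ℂ) := by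
  haveI := Fact.mk hp
  obtain ⟨k, hk⟩ := hind
  have hs : ⊤ ≤ stab (extendByZero N ϑ) := fun g _ => mem_stab_iff.2 fun x => by
    by_cases hx : x ∈ N
    · rw [extendByZero_of_mem _ hx, extendByZero_of_mem _ (hN.conj_mem x hx g)]
      exact hinv g ⟨x, hx⟩
    · rw [extendByZero_of_not_mem _ hx, extendByZero_of_not_mem _ fun h => hx (by
        simpa [mul_assoc] using hN.conj_mem _ h g⁻¹)]
  obtain ⟨y, P, φ, hy, hP, hc, hyN, hj, hφ, hst, m, hm, e⟩ := dade_elem hk (ext0_mem_Irr.2 hϑ) hs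
  have hyE : y ∈ Subgroup.zpowers y ⊔ P := Subgroup.mem_sup_left (Subgroup.mem_zpowers y)
  have hcE : Subgroup.zpowers y ⊔ P ≤ 𝒞₁(y) :=
    sup_le (Subgroup.zpowers_le.2 (Subgroup.mem_centralizer_singleton_iff.2 rfl)) hc
  refine ⟨Subgroup.zpowers y ⊔ P, res _ φ, ⟨⟨y, hyE⟩, Subgroup.mem_center_iff.2 fun z =>
    Subtype.ext (Subgroup.mem_centralizer_singleton_iff.1 (hcE z.2)), ?_, ?_⟩,
    eq_top_iff.2 (hj.ge.trans (sup_le_sup_right le_sup_right _)), irr_res hφ, fun g hg x => ?_,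
    m, hm, ?_⟩
  · rw [Subgroup.orderOf_mk]
    exact ((Nat.Prime.coprime_iff_not_dvd hp).2 hy).symm
  · have h1 : Subgroup.zpowers (⟨y, hyE⟩ : ↥(Subgroup.zpowers y ⊔ P)) =
        (Subgroup.zpowers y).subgroupOf (Subgroup.zpowers y ⊔ P) := by
      ext x
      simp only [Subgroup.mem_subgroupOf, Subgroup.mem_zpowers_iff, Subtype.ext_iff,
        SubgroupClass.coe_zpow]
    have hn : P ≤ 𝒩(Subgroup.zpowers y) := le_norm_of_le_cent (by
      rwa [Subgroup.zpowers_eq_closure, Subgroup.centralizer_closure])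
    rw [h1, ← Subgroup.relIndex, sup_comm, H10.relIndex_sup_of_NN hn]
    exact hP.index _
  · exact mem_stab_iff.1 ((sup_le ((Subgroup.zpowers_le.2 (show y ∈ _ ⊓ N from ⟨hyE, hyN⟩)).trans
      (le_stab (irr_cf hφ))) hst) hg) x
  · have := Fintype.ofFinite ↥((Subgroup.zpowers y ⊔ P) ⊓ N)
    rw [← e, dot_def, sum_sub_eq, finsum_eq_sum_of_fintype]
    congr 1
    exact Finset.sum_congr rfl fun x _ => by rw [extendByZero_of_mem _ x.2.2]; rfl

end Cfsg.Agent.S0896
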