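import Cfsg.Statements.S0897
import Cfsg.Agent.H21.Dd1

set_option autoImplicit false
open Cfsg

open H17 H15 CF H21
open scoped commutatorElement

namespace Cfsg.Agent.S0897

/-- Let N be a normal subgroup of the finite group G with the index of N a power of the prime p, and P a Sylow p-subgroup of G such that P ⊓ N lies in the centre of P and every character of degree 1 of P ⊓ N is the restriction of a character of degree 1 of P. Then every irreducible character of N invariant under conjugation by G is the restriction of an irreducible character of G. -/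
theorem result {G : Type*} [Group G] [Fintype G] (p : ℕ) [Fact p.Prime] (N : Subgroup G) [hN : N.Normal] (hind : ∃ k : ℕ, N.index = p ^ k) (P : Sylow p G) (hcent : ∀ x ∈ (P : Subgroup G) ⊓ N, ∀ y ∈ (P : Subgroup G), x * y = y * x) (hlin : ∀ lam : ↥((P : Subgroup G) ⊓ N) → ℂ, Cfsg.IsCharacter ↥((P : Subgroup G) ⊓ N) lam → lam 1 = 1 → ∃ μ : ↥(P : Subgroup G) → ℂ, Cfsg.IsCharacter ↥(P : Subgroup G) μ ∧ μ 1 = 1 ∧ ∀ x : ↥((P : Subgroup G) ⊓ N), μ ⟨(x : G), x.2.1⟩ = lam x) (ϑ : N → ℂ) (hϑ : Cfsg.IsIrrCharacter N ϑ) (hinv : ∀ (g : G) (n : N), ϑ ⟨g * n * g⁻¹, hN.conj_mem (n : G) n.2 g⟩ = ϑ n) : ∃ χ : G → ℂ, Cfsg.IsIrrCharacter G χ ∧ ∀ n : N, χ n = ϑ n := by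
  obtain ⟨k, hk⟩ := hind
  have hs : ⊤ ≤ stab (extendByZero N ϑ) := fun g _ => mem_stab_iff.2 fun x => by
    by_cases hx : x ∈ N
    · rw [extendByZero_of_mem _ hx, extendByZero_of_mem _ (hN.conj_mem x hx g)]
      exact hinv g ⟨x, hx⟩
    · rw [extendByZero_of_not_mem _ hx, extendByZero_of_not_mem _ fun h => hx (by
        simpa [mul_assoc] using hN.conj_mem _ h g⁻¹)]
  have hc : (P : Subgroup G) ⊓ N ≤ 𝒞((P : Subgroup G)) := fun x hx y hy => (hcent x hx y hy).symm
  have hM : IsMulCommutative ↥((P : Subgroup G) ⊓ N) :=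
    comm_of_le_cent (hc.trans (Subgroup.centralizer_le inf_le_left))
  have hd : ⁅(P : Subgroup G), (P : Subgroup G)⁆ ⊓ N = ⊥ := by
    by_contra h0
    obtain ⟨l, h1, -, h2⟩ := exists_lin_not_le (H := (P : Subgroup G) ⊓ N) (N := ⊥)
      (le_cent_iff_comm.1 (le_cent_self hM)).le bot_le (mt le_bot_iff.1 h0)
    obtain ⟨μ, h3, h4, h5⟩ := hlin (res _ l) h1.char.2 h1.one_apply
    have h6 : IsLin P (extendByZero _ μ) := ⟨isChar_ext0.2 h3, by
      rw [extendByZero_of_mem _ (one_mem _)]; exact h4⟩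
    refine h2 fun x hx => h1.mem_cfker.2 ?_
    have hxP := commutator_le_of_le le_rfl le_rfl hx.1
    have h7 := h6.mem_cfker.1 (h6.commutator_le hx.1)
    rw [extendByZero_of_mem _ hxP] at h7
    exact (h5 ⟨x, hxP, hx.2⟩).symm.trans h7
  obtain ⟨χ, h1, h2⟩ := dade_ext hk (syl_top_sylow P) hc hd (ext0_mem_Irr.2 hϑ) hs
  exact ⟨χ, mem_Irr_top.1 h1, fun n => by
    rw [← Res_of_mem χ (A := N) n.2, h2, extendByZero_coe]⟩

end Cfsg.Agent.S0897
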