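import Cfsg.Statements.S0899
import Cfsg.Agent.H21.LD1
import Cfsg.Agent.H21.MS3
import Cfsg.Agent.H21.Jord2

set_option autoImplicit false
open Cfsg

open H17 H15 CF H21 Subgroup

namespace Cfsg.Agent.S0899

theorem pc_inj {G H : Type*} [Group G] [Group H] {p : ℕ} (e : G ≃* H) (h : PC p H) : PC p G := by
  obtain ⟨R, h1, h2, h3⟩ := h
  exact ⟨R.comap e.toMonoidHom, inferInstance, h2.comap_of_injective _ e.injective, by
    rwa [index_comap_of_surjective _ e.surjective]⟩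

theorem central_ker {G : Type*} [Group G] [Finite G] {χ : G → ℂ} (hχ : IsIrrCharacter G χ) {n p k : ℕ}
    (hn : χ 1 = n) (hpn : n.Coprime p) {z : G} (hz : z ∈ center G) (ho : z ^ p ^ k = 1)
    (h : ∀ l : G →* ℂˣ, l z = 1) : χ z = χ 1 := by
  have hz' := hχ.center_le_charCenter hz
  obtain ⟨m, ρ, rfl⟩ := hχ.isCharacter
  obtain ⟨ω, hω⟩ := (mem_charCenter_character ρ).1 hz'
  have hm : Module.finrank ℂ (Fin m → ℂ) = n := by
    rw [Representation.char_one] at hn; exact_mod_cast hn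
  have hn0 : (n : ℂ) ≠ 0 := hn ▸ hχ.one_ne_zero
  have h2 : (detHom ρ z : ℂ) = ω ^ n := by
    rw [detHom_apply, hω, LinearMap.det_smul, hm, LinearMap.det_id, mul_one]
  have h3 : ω ^ p ^ k = 1 := by
    have h4 : ρ (z ^ p ^ k) = ω ^ p ^ k • LinearMap.id := by
      rw [map_pow, hω, smul_pow]; congr 1; exact one_pow _
    have h5 : ρ.character (z ^ p ^ k) = ω ^ p ^ k * n := by
      rw [Representation.character, h4, map_smul, LinearMap.trace_id, hm, smul_eq_mul]
    rw [ho, hn] at h5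
    exact mul_right_cancel₀ hn0 (by rw [← h5, one_mul])
  rw [h] at h2
  have h4 : ω = 1 := by
    rw [← pow_one ω, ← (hpn.pow_right k).gcd_eq_one]
    exact pow_gcd_eq_one.2 ⟨h2.symm, h3⟩
  rw [hn, Representation.character, hω, map_smul, LinearMap.trace_id, hm, h4, one_smul]

universe u

theorem aux (p n : ℕ) [hp : Fact p.Prime] (hnp : n + 1 < p) (m : ℕ) : ∀ (G : Type u) [Group G] [Finite G]
    (χ : G → ℂ), Nat.card G = m → IsCharacter G χ → (∀ g, χ g = χ 1 → g = 1) → χ 1 = n →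
    ((n + 1) ^ 2 ≤ p ∨ ∀ K : Subgroup G, ¬ p ^ 2 ∣ Nat.card K → PC p K) → PC p G := by
  induction m using Nat.strong_induction_on with | _ m ih => ?_
  intro G _ _ χ hm hχ hf hn h
  by_contra hG
  have IH : ∀ K : Subgroup G, K ≠ ⊤ → PC p K := fun K hK =>
    ih _ (hm ▸ H1.card_lt_card_of_ne_top hK) K _ rfl (hχ.restrict K)
      (fun g hg => Subtype.ext (hf g hg)) hn (h.imp_right fun h L hL =>
        pc_inj (L.equivMapOfInjective K.subtype K.subtype_injective) (h _ (by rwa [card_map_of_injective K.subtype_injective])))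
  obtain ⟨P, hP⟩ := exists_syl p (⊤ : Subgroup G)
  have hc := isChar_top.2 hχ
  have hab : ∀ a ∈ P, ∀ b ∈ P, a * b = b * a := fun a ha b hb => congrArg Subtype.val
    ((hχ.restrict P).comm_of_small (charKer_eq_bot fun g hg => Subtype.ext (hf g hg)) (n := n) hn
      (fun q hq hd => by
        have := (H1.isPiNat_card_singleton_iff.2 hP.isPGroup) q hq hd
        rw [show q = p from this]
        omega) ⟨a, ha⟩ ⟨b, hb⟩)
  have hM : ∀ M : Subgroup G, M.Normal → P ≤ M → M = ⊤ := fun M _ hPM => by_contra fun e => by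
    obtain ⟨R, h1, h2⟩ := (IH M e).sub
    refine hG (pc_of_syl hP ?_)
    rw [h1.eq_of_normal ((le_norm_self M).trans h2) (hP.of_le hPM le_top)]
    exact (top_le_norm M).trans h2
  have hlin : ∀ l : G →* ℂˣ, ∀ x ∈ P, l x = 1 := fun l x hx => by_contra fun e => by
    obtain ⟨a, r, hr, e'⟩ := Nat.exists_eq_pow_mul_and_not_dvd (Nat.card_pos (α := G)).ne' p hp.out.ne_one
    obtain ⟨k, hk⟩ := hP.isPGroup ⟨x, hx⟩
    have hK : (l ^ r).ker ≠ ⊤ := fun h1 => e (by
      have h2 : x ∈ (l ^ r).ker := h1 ▸ mem_top x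
      rw [← pow_one (l x), ← ((hp.out.coprime_iff_not_dvd.2 hr).pow_left k).gcd_eq_one]
      exact pow_gcd_eq_one.2 ⟨by rw [← map_pow, show x ^ p ^ k = 1 from congrArg Subtype.val hk, map_one], h2⟩)
    obtain ⟨R, h1, h2, h3⟩ := IH _ hK
    have := (ito_fermat hp.out (H1.IsPSolvable.of_normal_quotient (l ^ r).ker
      (H1.IsPSolvable.of_normal_quotient R (H1.isPSolvable_of_isPGroup h2) (H1.isPSolvable_of_not_dvd h3))
      (H1.isPSolvable_of_isPGroup fun y => ⟨a, ?_⟩)) hG hc hn hf hnp.le).1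
    · omega
    obtain ⟨y, rfl⟩ := QuotientGroup.mk_surjective y
    rw [← QuotientGroup.mk_pow, QuotientGroup.eq_one_iff, MonoidHom.mem_ker, MonoidHom.pow_apply, ← map_pow,
      ← pow_mul, ← e', pow_card_eq_one', map_one]
  obtain ⟨c, hc1, hc2⟩ := hc.exists_coeff
  have hker : ∀ x, (∀ ψ ∈ Irr ⊤, dot ⊤ χ ψ ≠ 0 → ψ x = ψ 1) → x = 1 := fun x hx => hf x (by
    rw [cf_apply_eq_sum hc.cf x, cf_apply_eq_sum hc.cf 1]
    refine Finset.sum_congr rfl fun ψ hψ => ?_
    by_cases e : dot ⊤ χ ψ = 0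
    · simp [e]
    · rw [hx ψ hψ e])
  have hZ : P ⊓ center G = ⊥ := eq_bot_iff.2 fun z hz => hker z fun ψ hψ e => by
    obtain ⟨d, hd0, hd⟩ := irr_pos_one hψ
    obtain ⟨k, hk⟩ := hP.isPGroup ⟨z, hz.1⟩
    have := hc.irr_degree_le hψ e
    rw [hd, hn] at this
    have : d ≤ n := by exact_mod_cast this
    exact central_ker (mem_Irr_top.1 hψ) hd ((Nat.coprime_of_lt_prime hd0.ne' (by omega) hp.out).symm) hz.2
      (congrArg Subtype.val hk) fun l => hlin l z hz.1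
  have hTI : ∀ Q R, Syl(p, Q, (⊤ : Subgroup G)) → Syl(p, R, (⊤ : Subgroup G)) → Q ⊓ R ≠ ⊥ → Q = R := by
    intro Q R hQ hR e
    obtain ⟨y, hy, y1⟩ := (bot_or_exists_ne_one _).resolve_left e
    have h1 : ∀ Q, Syl(p, Q, (⊤ : Subgroup G)) → y ∈ Q → Q ≤ 𝒞₁(y) ∧ y ∉ center G := fun Q hQ hy => by
      obtain ⟨g, -, rfl⟩ := hP.exists_cj_eq hQ
      refine ⟨fun x hx => mem_cent1.2 ?_, fun h2 => y1 ?_⟩
      · have := hab _ (mem_cj.1 hx) _ (mem_cj.1 hy)
        calc _ = g * (g⁻¹ * x * g * (g⁻¹ * y * g)) * g⁻¹ := by group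
          _ = _ := by rw [this]; group
      · have : g⁻¹ * y * g ∈ (⊥ : Subgroup G) := hZ ▸ ⟨mem_cj.1 hy, Normal.conj_mem' inferInstance _ h2 _⟩
        calc _ = g * (g⁻¹ * y * g) * g⁻¹ := by group
          _ = _ := by rw [mem_bot.1 this]; group
    obtain ⟨S, h2, h3⟩ := (IH 𝒞₁(y) fun h2 => (h1 Q hQ hy.1).2 (mem_center_iff.2 fun g =>
      mem_cent1.1 (h2 ▸ mem_top g))).sub
    rw [h2.eq_of_normal ((le_norm_self _).trans h3) (hQ.of_le (h1 Q hQ hy.1).1 le_top),
      h2.eq_of_normal ((le_norm_self _).trans h3) (hR.of_le (h1 R hR hy.2).1 le_top)]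
  have hI : Isol P := fun g hg a b ha hb => by
    obtain ⟨S, h2, h3⟩ := (IH 𝒞₁(g) fun h2 => hg (mem_center_iff.2 fun g =>
      mem_cent1.1 (h2 ▸ mem_top g))).sub
    obtain ⟨T, hT, hST⟩ := exists_syl_ge h2.isPi (le_top (a := S))
    have h4 : ∀ a : G, 𝒞₁(g) ⊓ cj(a, P) ≠ ⊥ → cj(a, P) = T := fun a ha =>
      hTI _ _ (hP.cj_top a) hT fun e => ha (eq_bot_iff.2 (e ▸ le_inf inf_le_right
        ((h2.le_of_normal ((le_norm_self _).trans h3) ((hP.cj_top a).isPi.of_le inf_le_right) inf_le_left).trans hST)))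
    rw [h4 a ha, h4 b hb]
  have hP1 : P ≠ ⊥ := fun e => hG (pc_of_syl hP (by rw [e, norm_bot]))
  obtain ⟨x, hx, x1⟩ := (bot_or_exists_ne_one _).resolve_left hP1
  obtain ⟨ψ, hψ, e, h1⟩ : ∃ ψ ∈ Irr ⊤, dot ⊤ χ ψ ≠ 0 ∧ ψ x ≠ ψ 1 := by
    by_contra! h1
    exact x1 (hker x h1)
  have h2 := hI.bl2 hab hZ hψ (fun h2 => by
    obtain ⟨l, hl⟩ := (isLin_of_irr hψ h2).exists_hom
    refine h1 ?_
    have := hlin (l.comp topEquiv.symm.toMonoidHom) x hx
    rw [h2, hl, ofHom_apply l (mem_top x)]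
    exact congrArg Units.val this) hM
  have h3 := hc.irr_degree_le hψ e
  rw [hn, Complex.natCast_re] at h3
  have h4 : Nat.card P < (n + 1) ^ 2 := by
    have h0 := irr_one_re_pos hψ
    have : (Nat.card P : ℝ) < (n + 1) ^ 2 := by nlinarith
    exact_mod_cast this
  obtain ⟨k, hk⟩ := IsPGroup.iff_card.1 hP.isPGroup
  rcases h with h | h
  · have : k ≠ 0 := fun e => hP1 (card_eq_one.1 (by rw [hk, e, pow_zero]))
    have := Nat.le_self_pow this p
    omega
  · have h5 := Nat.le_of_dvd Nat.card_pos (hP.dvd_card_of_dvd (n := p ^ 2) ((H1.isPiNat_singleton_iff hp.out (pow_ne_zero 2 hp.out.ne_zero)).2 ⟨2, rfl⟩)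
      (by_contra fun e => hG (pc_inj topEquiv.symm (h ⊤ e))))
    nlinarith

/-- Let G be a finite group with a faithful complex representation of degree n (on Fin n → ℂ) and p a prime. Suppose either that (n + 1) ^ 2 ≤ p, or that n + 1 < p and every subgroup of G whose order is not divisible by p ^ 2 has a normal Sylow p-subgroup. Then every Sylow p-subgroup of G is normal. -/
theorem result {G : Type*} [Group G] [Finite G] (n : ℕ) (ρ : Representation ℂ G (Fin n → ℂ)) (hρ : Function.Injective ρ) (p : ℕ) [Fact p.Prime] (h : (n + 1) ^ 2 ≤ p ∨ (n + 1 < p ∧ ∀ K : Subgroup G, ¬ p ^ 2 ∣ Nat.card K → ∀ Q : Sylow p K, (Q : Subgroup K).Normal)) (P : Sylow p G) : (P : Subgroup G).Normal := by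
  have hp : p.Prime := Fact.out
  have hχ : IsCharacter G ρ.character := ⟨n, ρ, rfl⟩
  have hn : ρ.character 1 = n := by simp [Representation.char_one]
  have hf : ∀ g, ρ.character g = ρ.character 1 → g = 1 := fun g hg =>
    hρ (by rw [map_one]; exact MonoidHom.mem_ker.1 (charKer_character ρ ▸ hχ.mem_charKer.2 hg))
  rcases n.eq_zero_or_pos with rfl | h0
  · have : Subsingleton G := ⟨fun a b => hρ (Subsingleton.elim _ _)⟩
    exact ⟨fun _ _ _ => by rw [Subsingleton.elim (_ * _ * _) 1]; exact one_mem _⟩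
  refine (aux p n (h.elim (fun h => by nlinarith) And.left) _ G _ rfl hχ hf hn (h.imp_right fun h K hK => ?_)).normal P
  obtain ⟨Q⟩ : Nonempty (Sylow p K) := inferInstance
  exact ⟨Q, h.2 K hK Q, Q.isPGroup', Q.not_dvd_index⟩

end Cfsg.Agent.S0899
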