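import Cfsg.Statements.S0900
import Cfsg.Agent.H9.Ch1

set_option autoImplicit false
open Cfsg

namespace Cfsg.Agent.S0900

open Subgroup hiding one
open CF H15 H17 H21 H9

/-- Let N be a normal subgroup of the finite group G, χ an irreducible character of G and ϑ an irreducible character of N having nonzero inner product with the restriction of χ. Consider: (a) the restriction of χ to N is e • ϑ for a natural number e with e ^ 2 equal to the index of N; (b) χ vanishes outside N and ϑ is invariant under conjugation by G; (c) ϑ is invariant and every irreducible character of G having nonzero inner product with the function induced from ϑ equals χ. Then (a) ↔ (b) and (a) ↔ (c). -/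
theorem result {G : Type*} [Group G] [Fintype G] (N : Subgroup G) [hN : N.Normal] [Fintype N] (χ : G → ℂ) (hχ : Cfsg.IsIrrCharacter G χ) (ϑ : N → ℂ) (hϑ : Cfsg.IsIrrCharacter N ϑ) (hcon : Cfsg.classInner (fun n : N => χ n) ϑ ≠ 0) : ((∃ e : ℕ, (fun n : N => χ n) = (e : ℂ) • ϑ ∧ e ^ 2 = N.index) ↔ ((∀ g : G, g ∉ N → χ g = 0) ∧ ∀ (g : G) (n : N), ϑ ⟨g * n * g⁻¹, hN.conj_mem (n : G) n.2 g⟩ = ϑ n)) ∧ ((∃ e : ℕ, (fun n : N => χ n) = (e : ℂ) • ϑ ∧ e ^ 2 = N.index) ↔ (∀ (g : G) (n : N), ϑ ⟨g * n * g⁻¹, hN.conj_mem (n : G) n.2 g⟩ = ϑ n ∧ ∀ ψ : G → ℂ, Cfsg.IsIrrCharacter G ψ → Cfsg.classInner (Cfsg.indFun N ϑ) ψ ≠ 0 → ψ = χ)) := by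
  have hθ := ext0_mem_Irr.2 hϑ
  have hχ' := mem_Irr_top.2 hχ
  have hn := top_le_norm N
  have hR : ∀ e : ℕ, (fun n : N => χ n) = (e : ℂ) • ϑ ↔
      Res (N : Set G) χ = (e : ℂ) • extendByZero N ϑ := fun e => by
    rw [← ext0_res, ← ext0_apply N ϑ, ← map_smul, ext0_apply, (ext0_injective N).eq_iff]
    rfl
  have hS : (∀ (g : G) (n : N), ϑ ⟨g * n * g⁻¹, hN.conj_mem (n : G) n.2 g⟩ = ϑ n) ↔
      ⊤ ≤ stab (extendByZero N ϑ) :=
    ⟨fun h g _ => (mem_stab_ext0 hN ϑ g).2 (h g), fun h g => (mem_stab_ext0 hN ϑ g).1 (h trivial)⟩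
  have hA : ⊤ ≤ stab (extendByZero N ϑ) → ∃ e : ℕ,
      Res (N : Set G) χ = (e : ℂ) • extendByZero N ϑ := fun h => by
    obtain ⟨e, he⟩ := (irr_char hχ').dot_nat_of_le le_top (irr_char hθ)
    exact ⟨e, he ▸ Res_eq_smul_of_le_stab le_top hn hχ' hθ h (by rwa [dot_ext0_right])⟩
  have hB : ∀ e : ℕ, Res (N : Set G) χ = (e : ℂ) • extendByZero N ϑ →
      ⊤ ≤ stab (extendByZero N ϑ) := fun e he =>
    le_stab_of_Res_eq hn (irr_cf hχ') (fun h => hcon (by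
      rw [← dot_ext0_right, (dot_of_Res_eq hθ he).1, h])) he
  have hU : (∀ ψ : G → ℂ, IsIrrCharacter G ψ → classInner (indFun N ϑ) ψ ≠ 0 → ψ = χ) ↔
      ∀ ψ ∈ Irr ⊤, dot ⊤ (Ind ⊤ N (extendByZero N ϑ)) ψ ≠ 0 → ψ = χ := by
    simp only [mem_Irr_top, dot_top, Ind_top_ext0]
  simp only [hR, ← relIndex_top_right]
  refine ⟨⟨fun ⟨e, h1, h2⟩ => ⟨(sq_eq_iff_vanish le_top hχ' hθ h1).1 h2, hS.2 (hB e h1)⟩,
    fun ⟨h1, h2⟩ => (hA (hS.1 h2)).imp fun e he => ⟨he, (sq_eq_iff_vanish le_top hχ' hθ he).2 h1⟩⟩,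
    fun ⟨e, h1, h2⟩ g n => ⟨hS.2 (hB e h1) g n,
      hU.2 ((sq_eq_iff_unique le_top hn hχ' hθ (hB e h1) h1).1 h2)⟩, fun h => ?_⟩
  have h2 := hS.1 fun g n => (h g n).1
  exact (hA h2).imp fun e he =>
    ⟨he, (sq_eq_iff_unique le_top hn hχ' hθ h2 he).2 (hU.1 (h 1 1).2)⟩

end Cfsg.Agent.S0900
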