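import Cfsg.Statements.S0901
import Cfsg.Agent.H19.Val
import Cfsg.Agent.H17.Basic

set_option autoImplicit false
open Cfsg

namespace Cfsg.Agent.S0901
open H17 H19

/-- Let M be a maximal ideal of the ring of algebraic integers containing the prime p, and let U be the set of complex roots of unity of order prime to p. Then reduction modulo M is injective on U, and every algebraic integer not in M is congruent modulo M to an element of U (so U maps bijectively onto the nonzero residues). -/
theorem result (p : ℕ) [Fact p.Prime] (M : Ideal Cfsg.AlgInt) (hM : Cfsg.IsPModular p M) : (∀ ε₁ ε₂ : Cfsg.AlgInt, (∃ m : ℕ, ¬ p ∣ m ∧ (ε₁ : ℂ) ^ m = 1) → (∃ m : ℕ, ¬ p ∣ m ∧ (ε₂ : ℂ) ^ m = 1) → ε₁ - ε₂ ∈ M → ε₁ = ε₂) ∧ (∀ a : Cfsg.AlgInt, a ∉ M → ∃ ε : Cfsg.AlgInt, (∃ m : ℕ, ¬ p ∣ m ∧ (ε : ℂ) ^ m = 1) ∧ a - ε ∈ M) := by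
  obtain ⟨O, hO, _⟩ := exists_over hM
  constructor
  · rintro ε₁ ε₂ ⟨m, hm, h1⟩ ⟨n, hn, h2⟩ h
    have hp : p.Prime := Fact.out
    have hmn : ¬ p ∣ m * n := fun h => (hp.dvd_mul.1 h).elim hm hn
    have h0 : m * n ≠ 0 := by rintro h; exact hmn (h ▸ dvd_zero p)
    have e1 : (ε₁ : ℂ) ^ (m * n) = 1 := by rw [pow_mul, h1, one_pow]
    have e2 : (ε₂ : ℂ) ^ (m * n) = 1 := by rw [mul_comm, pow_mul, h2, one_pow]
    rw [hO.mem_iff] at h
    by_contra hne
    have hne' : (ε₁ : ℂ) - ε₂ ≠ 0 := fun h => hne (Subtype.ext (sub_eq_zero.1 h))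
    have h3 := Commute.geom_sum₂_mul (Commute.all (ε₁ : ℂ) ε₂) (m * n)
    rw [e1, e2, sub_self, mul_eq_zero, or_iff_left hne'] at h3
    have h4 := congrArg (res O) h3
    have a1 := algInt_mem O ε₁
    have a2 := algInt_mem O ε₂
    have h5 : res O ε₁ = res O ε₂ := (res_eq_res_iff a1 a2).2 (by simpa using h)
    rw [res_sum _ fun i _ => mul_mem (pow_mem a1 _) (pow_mem a2 _), res_zero,
      Finset.sum_congr rfl (g := fun _ => res O ε₂ ^ (m * n - 1)) fun i hi => by
        rw [res_mul (pow_mem a1 _) (pow_mem a2 _), res_pow a1, res_pow a2, h5, ← pow_add]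
        congr 1; have := Finset.mem_range.1 hi; omega] at h4
    simp only [Finset.sum_const, Finset.card_range, nsmul_eq_mul, mul_eq_zero] at h4
    rcases h4 with h4 | h4
    · exact hmn ((CharP.cast_eq_zero_iff (kk O) p _).1 h4)
    · exact not_mem_nonunits_of_pow_eq_one h0 e2
        ((res_eq_zero_iff a2).1 (eq_zero_of_pow_eq_zero h4))
  · intro a ha
    have hp : p.Prime := Fact.out
    rw [hO.mem_iff] at ha
    have a1 := algInt_mem O a
    set x := res O a with hx
    have hx0 : x ≠ 0 := fun h => ha ((res_eq_zero_iff a1).1 h)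
    let _ : Algebra (ZMod p) (kk O) := ZMod.algebra _ _
    have hint : IsIntegral (ZMod p) x := by
      obtain ⟨f, hf, hfa⟩ := a.2
      refine ⟨f.map (Int.castRingHom _), hf.map _, ?_⟩
      rw [Polynomial.eval₂_map, Polynomial.eval₂_eq_sum_range]
      rw [Polynomial.eval₂_eq_sum_range] at hfa
      have := congrArg (res O) hfa
      rw [res_sum _ fun i _ => mul_mem (by simp) (pow_mem a1 _), res_zero] at this
      rw [← this]
      refine Finset.sum_congr rfl fun i _ => ?_
      rw [res_mul (by simp) (pow_mem a1 _), res_pow a1]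
      simp [hx]
    let K := IntermediateField.adjoin (ZMod p) {x}
    have : FiniteDimensional (ZMod p) K := IntermediateField.adjoin.finiteDimensional hint
    have : Finite K := Module.finite_of_finite (ZMod p)
    have := Fintype.ofFinite K
    obtain ⟨n, -, hn⟩ := FiniteField.card K p
    have h1 := FiniteField.pow_card_sub_one_eq_one (⟨x, IntermediateField.mem_adjoin_simple_self _ x⟩ : K)
      (fun h => hx0 (congrArg Subtype.val h))
    set m := Fintype.card K - 1 with hm
    have hpm : ¬ p ∣ m := by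
      intro h
      have h2 : p ∣ Fintype.card K := hn ▸ dvd_pow_self p n.ne_zero
      have h3 : p ∣ Fintype.card K - m := Nat.dvd_sub h2 h
      have h4 : Fintype.card K - m = 1 := by have := Fintype.card_pos (α := K); omega
      exact hp.ne_one (Nat.dvd_one.1 (h4 ▸ h3))
    have hm0 : m ≠ 0 := by rintro h; exact hpm (h ▸ dvd_zero p)
    have h2 : x ^ m = 1 := by simpa using congrArg Subtype.val h1
    have h3 : (a : ℂ) ^ m - 1 ∈ O.nonunits := by
      rw [← res_eq_res_iff (pow_mem a1 m) (one_mem O), res_pow a1, res_one]; exact h2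
    have h4 := congrArg (Polynomial.eval (a : ℂ)) (Polynomial.X_pow_sub_one_eq_prod
      (Nat.pos_of_ne_zero hm0) (Complex.isPrimitiveRoot_exp m hm0))
    simp only [Polynomial.eval_sub, Polynomial.eval_pow, Polynomial.eval_X, Polynomial.eval_one,
      Polynomial.eval_prod, Polynomial.eval_C] at h4
    rw [h4] at h3
    have h5 : ∃ ε ∈ Polynomial.nthRootsFinset m (1 : ℂ), (a : ℂ) - ε ∈ O.nonunits := by
      by_contra hcon
      push Not at hcon
      exact Finset.prod_induction _ (· ∉ O.nonunits) (fun a b => mul_not_mem_nonunits)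
        one_not_mem_nonunits hcon h3
    obtain ⟨ε, hε, h6⟩ := h5
    rw [Polynomial.mem_nthRootsFinset (Nat.pos_of_ne_zero hm0)] at hε
    refine ⟨⟨ε, IsIntegral.of_pow (Nat.pos_of_ne_zero hm0) (hε ▸ isIntegral_one)⟩,
      ⟨m, hpm, hε⟩, ?_⟩
    rw [hO.mem_iff]; exact h6

end Cfsg.Agent.S0901
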