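import Cfsg.Statements.S0902
import Cfsg.Agent.H19.Basic

set_option autoImplicit false
open Cfsg

namespace Cfsg.Agent.S0902
open H17 H19

/-- If two irreducible characters of a finite group lie in the same block relative to one maximal ideal M of the algebraic integers containing the prime p, then at every element the difference of their central characters is an algebraic integer lying in every maximal ideal containing p; in particular they lie in the same block relative to any such ideal. -/
theorem result {G : Type*} [Group G] [Finite G] (p : ℕ) [Fact p.Prime] (M : Ideal Cfsg.AlgInt) (hM : Cfsg.IsPModular p M) (χ ψ : Cfsg.IrrCharacter G) (h : Cfsg.SameBlock M (χ : G → ℂ) (ψ : G → ℂ)) (M' : Ideal Cfsg.AlgInt) (hM' : Cfsg.IsPModular p M') (g : G) : ∃ r : Cfsg.AlgInt, r ∈ M' ∧ (r : ℂ) = Cfsg.centralChar (χ : G → ℂ) g - Cfsg.centralChar (ψ : G → ℂ) g := by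
  obtain ⟨O, hO, _⟩ := exists_over hM
  obtain ⟨O', hO', _⟩ := exists_over hM'
  rw [hO.sameBlock_iff] at h
  have h1 := (lam_eq_iff _ _).1 (lam_eq_of_lam_eq p O' h) g
  refine ⟨⟨_, (centralChar_isIntegral χ.2 g).sub (centralChar_isIntegral ψ.2 g)⟩, ?_, rfl⟩
  exact (hO'.mem_iff _).2 h1

end Cfsg.Agent.S0902
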