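import Cfsg.Statements.S0903
import Cfsg.Agent.H19.Ht5

set_option autoImplicit false
open Cfsg

namespace Cfsg.Agent.S0903
open H17 H19

/-- Let P be a p-subgroup of the finite group G, let c centralize P and let g, h ∈ G. The number of pairs (x, y) with x conjugate to g, y conjugate to h and x * y = c is congruent modulo p to the number of such pairs in which x and y both centralize P. (This is why the Brauer map on class sums is multiplicative.) -/
theorem result {G : Type*} [Group G] [Finite G] (p : ℕ) [Fact p.Prime] (P : Subgroup G) (hP : IsPGroup p P) (c : G) (hc : c ∈ Subgroup.centralizer (P : Set G)) (g h : G) : Nat.card {xy : G × G // IsConj g xy.1 ∧ IsConj h xy.2 ∧ xy.1 * xy.2 = c} ≡ Nat.card {xy : G × G // IsConj g xy.1 ∧ IsConj h xy.2 ∧ xy.1 * xy.2 = c ∧ xy.1 ∈ Subgroup.centralizer (P : Set G) ∧ xy.2 ∈ Subgroup.centralizer (P : Set G)} [MOD p] := by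
  classical
  have := Fintype.ofFinite G
  have h1 := H20.sum_eq_sum_fixed (M := ZMod p) (p := p) (fun m => by simp)
    (fun u (xy : G × G) => (u * xy.1 * u⁻¹, u * xy.2 * u⁻¹)) (by simp)
    (fun _ _ _ => by simp [mul_assoc]) hP (Finset.univ.filter fun xy : G × G =>
      IsConj g xy.1 ∧ IsConj h xy.2 ∧ xy.1 * xy.2 = c) (fun u hu xy hxy => ?_) (fun _ => 1)
    fun _ _ _ _ => rfl
  · rw [← ZMod.natCast_eq_natCast_iff, Nat.card_eq_fintype_card, Nat.card_eq_fintype_card,
      Fintype.card_subtype, Fintype.card_subtype]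
    simp only [Finset.sum_const, nsmul_eq_mul, mul_one, Finset.filter_filter] at h1
    rw [h1]
    congr 2
    ext xy
    simp only [Finset.mem_filter, Finset.mem_univ, true_and, H20.mem_cent, Prod.ext_iff, and_assoc,
      imp_and, forall_and]
  · simp only [Finset.mem_filter, Finset.mem_univ, true_and] at hxy ⊢
    refine ⟨hxy.1.trans (isConj_iff.2 ⟨u, rfl⟩), hxy.2.1.trans (isConj_iff.2 ⟨u, rfl⟩), ?_⟩
    rw [← H20.mem_cent.1 hc u hu, ← hxy.2.2]
    group

end Cfsg.Agent.S0903
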