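import Cfsg.Statements.S0907
import Cfsg.Agent.H19.Bridge
import Cfsg.Agent.H19.Vanish

set_option autoImplicit false
open scoped ComplexConjugate
open Cfsg

namespace Cfsg.Agent.S0907
open H17 H19

/-- Weak block orthogonality. Let B be a block of the finite group G relative to a maximal ideal M of the algebraic integers containing the prime p. If the order of x is prime to p and the order of y is divisible by p, then the sum over χ ∈ B of χ x * conj (χ y) is zero. -/
theorem result {G : Type*} [Group G] [Finite G] (p : ℕ) [Fact p.Prime] (M : Ideal Cfsg.AlgInt) (hM : Cfsg.IsPModular p M) (B : Set (Cfsg.IrrCharacter G)) (hB : Cfsg.IsPBlock M B) (x y : G) (hx : ¬ p ∣ orderOf x) (hy : p ∣ orderOf y) : ∑ᶠ χ ∈ B, (χ : G → ℂ) x * conj ((χ : G → ℂ) y) = 0 := by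
  classical
  obtain ⟨O, hO, _⟩ := exists_over hM
  obtain ⟨β, rfl⟩ := hO.exists_blk hB
  rw [finsum_mem_irr]
  simp only [irr_conj]
  exact weak_orth β hx hy

end Cfsg.Agent.S0907
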