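import Cfsg.Statements.S0910
import Cfsg.Agent.H19.Ht4

set_option autoImplicit false
open Cfsg

namespace Cfsg.Agent.S0910
open H17 H19

/-- Let G be a non-abelian finite simple group and p a prime. If an irreducible character χ lies in the principal block (relative to a maximal ideal of the algebraic integers containing p) and χ 1 is a power of p, then χ is the principal character. -/
theorem result {G : Type*} [Group G] [Finite G] (p : ℕ) [Fact p.Prime] (M : Ideal Cfsg.AlgInt) (hM : Cfsg.IsPModular p M) [IsSimpleGroup G] (hna : ∃ a b : G, a * b ≠ b * a) (χ : Cfsg.IrrCharacter G) (hχ : χ ∈ Cfsg.principalBlock M G) (k : ℕ) (hdeg : (χ : G → ℂ) 1 = (p : ℂ) ^ k) : (χ : G → ℂ) = fun _ => 1 := by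
  obtain ⟨O, hO, _⟩ := exists_over hM
  rw [hO.principalBlock_eq] at hχ
  rw [eq_triv_of_B0_of_pow hna hχ hdeg, coe_triv]

end Cfsg.Agent.S0910
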