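import Cfsg.Statements.S0916
import Cfsg.Agent.H19.Ht5

set_option autoImplicit false
open Cfsg

namespace Cfsg.Agent.S0916
open H17 H19

/-- Let P be a p-subgroup of the finite group G, C its centralizer and N its normalizer. Say that a conjugacy class (of G, or of N) has defect group P when P is a Sylow p-subgroup of the centralizer (in G, respectively in N) of some element of the class. Then: (i) if the class of g in G has defect group P, the elements of that class lying in C form a single N-class, again with defect group P; (ii) every N-class with defect group P arises this way from exactly one G-class with defect group P. -/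
theorem result {G : Type*} [Group G] [Finite G] (p : ℕ) [Fact p.Prime] (P : Subgroup G) (hP : IsPGroup p P) : (∀ g : G, (∃ S : Sylow p (Subgroup.centralizer ({g} : Set G)), (S : Subgroup (Subgroup.centralizer ({g} : Set G))).map (Subgroup.centralizer ({g} : Set G)).subtype = P) → (∃ c : G, IsConj g c ∧ c ∈ Subgroup.centralizer (P : Set G)) ∧ (∀ c₁ c₂ : G, IsConj g c₁ → IsConj g c₂ → c₁ ∈ Subgroup.centralizer (P : Set G) → c₂ ∈ Subgroup.centralizer (P : Set G) → ∃ n ∈ Subgroup.normalizer (P : Set G), n * c₁ * n⁻¹ = c₂)) ∧ (∀ c : G, c ∈ Subgroup.centralizer (P : Set G) → (∃ S : Sylow p (Subgroup.centralizer ({c} : Set G) ⊓ Subgroup.normalizer (P : Set G) : Subgroup G), (S : Subgroup ↥(Subgroup.centralizer ({c} : Set G) ⊓ Subgroup.normalizer (P : Set G))).map (Subgroup.centralizer ({c} : Set G) ⊓ Subgroup.normalizer (P : Set G)).subtype = P) → ∃ S : Sylow p (Subgroup.centralizer ({c} : Set G)), (S : Subgroup (Subgroup.centralizer ({c} : Set G))).map (Subgroup.centralizer ({c} : Set G)).subtype = P) :=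 by
  refine ⟨fun g ⟨S, hS⟩ => ?_, fun c _ ⟨S, hS⟩ =>
    (isSylowIn_of_inf_nrm (by have := H10.isSylowIn_map_subtype S; rwa [hS] at this)).exists_sylow⟩
  have h1 : H10.IsSylowIn p P (Subgroup.centralizer {g}) := hS ▸ H10.isSylowIn_map_subtype S
  have h2 : ∀ c, IsConj g c → c ∈ Subgroup.centralizer (P : Set G) →
      H10.IsSylowIn p P (Subgroup.centralizer {c}) := fun c hc h => by
    obtain ⟨T, hT, hle⟩ := H10.exists_isSylowIn_ge hP (H20.mem_cent_iff_le.1 h)
    refine H10.isSylowIn_of_card_ge hT hP (hle.trans hT.le) ?_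
    rw [hT.card_eq_pow, h1.card_eq_pow, card_centralizer_of_isConj hc]
  refine ⟨⟨g, IsConj.refl g, H20.mem_cent_iff_le.2 h1.le⟩, fun c₁ c₂ k1 k2 k3 k4 => ?_⟩
  obtain ⟨x, rfl⟩ := isConj_iff.1 (k1.symm.trans k2)
  have h3 := (h2 _ k1 k3).cj x
  rw [← H10.cj_def, ← H10.cj_def, ← H20.sc, ← H20.sc, sc_centralizer] at h3
  obtain ⟨y, hy, h4⟩ := h3.exists_cj (h2 _ k2 k4)
  refine ⟨y * x, H20.mem_nrm.2 ((H20.sc_mul y x P).trans h4), ?_⟩
  rw [Subgroup.mem_centralizer_singleton_iff] at hy
  rw [mul_inv_rev, ← mul_assoc, mul_inv_eq_iff_eq_mul, ← hy]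
  group

end Cfsg.Agent.S0916
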