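import Cfsg.Statements.S0917
import Cfsg.Agent.H19.Main1

set_option autoImplicit false
open Cfsg

namespace Cfsg.Agent.S0917
open H17 H19

/-- Let H be a subgroup of the finite group G, p a prime and M a maximal ideal of the algebraic integers containing p. If the block b of H induces the block B of G relative to M, then every defect group of b (a subgroup of H, viewed in G) is contained in some defect group of B. -/
theorem result {G : Type*} [Group G] [Finite G] (p : ℕ) [Fact p.Prime] (M : Ideal Cfsg.AlgInt) (hM : Cfsg.IsPModular p M) (H : Subgroup G) (b : Set (Cfsg.IrrCharacter H)) (hb : Cfsg.IsPBlock M b) (B : Set (Cfsg.IrrCharacter G)) (hB : Cfsg.IsPBlock M B) (hind : Cfsg.IsInducedBlock M H b B) (D : Subgroup H) (hD : Cfsg.IsDefectGroup p M b D) : ∃ E : Subgroup G, Cfsg.IsDefectGroup p M B E ∧ D.map H.subtype ≤ E := by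
  obtain ⟨O, hO, _⟩ := exists_over hM
  obtain ⟨b, β, rfl, rfl, h⟩ := hO.exists_of_isInducedBlock hind
  simp only [hO.isDefectGroup_iff hM] at hD ⊢
  exact h.exists_def_ge hD

end Cfsg.Agent.S0917
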