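import Cfsg.Statements.S0918
import Cfsg.Agent.H19.Main1

set_option autoImplicit false
open Cfsg

namespace Cfsg.Agent.S0918
open H17 H19
theorem aux {O : ValuationSubring ℂ} {M : Ideal AlgInt} (hO : Over O M) {G : Type*} [Group G]
    [Finite G] {P H : Subgroup G} (hHN : H ≤ H20.nrm P) (ξ : IrrCharacter H) (χ : IrrCharacter G)
    (g : G) : MemLocalIdeal M (brauerCentralChar P H (ξ : H → ℂ) g - centralChar (χ : G → ℂ) g) ↔
      lam O ξ (brZ hHN (cls (kk O) g)) = lam O χ (cls (kk O) g) := by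
  classical
  have h1 : brauerCentralChar P H (ξ : H → ℂ) g = om (ξ : H → ℂ) (brZ hHN (cls ℂ g)) := by
    rw [coe_brZ, coe_cls, classSum, br_setSum, resH_setSum, om_setSum]; rfl
  have h2 : ((brZ hHN (cls ℂ g) : ZZ ℂ H) : MonoidAlgebra ℂ H) ∈ OG O H := by
    rw [coe_brZ, coe_cls, classSum, br_setSum]; exact resH_mem_OG H (setSum_mem_OG _)
  have h3 : IsIntegral ℤ (om (ξ : H → ℂ) (brZ hHN (cls ℂ g))) := by
    refine om_isIntegral ξ.2 (Subtype.prop _) fun x => ?_
    rw [coe_brZ, coe_cls, classSum, br_setSum, coeff_resH, coeff_setSum]; split_ifs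
    exacts [⟨1, by simp⟩, ⟨0, by simp⟩]
  rw [h1, hO.memLocalIdeal_iff_of_isIntegral (h3.sub (centralChar_isIntegral χ.2 g)), lam_cls,
    lam_eq_of_red ξ (Subtype.prop _) h2,
    res_eq_res_iff (mem_of_isIntegral O h3) (centralChar_mem O χ.2 g)]
  simp only [coe_brZ, coe_cls, classSum, br_setSum, red_resH, red_setSum]

/-- Let P be a p-subgroup of the finite group G and H a subgroup with P·C_G(P) ≤ H ≤ N_G(P); let b be a block of H and B a block of G relative to a maximal ideal M of the algebraic integers containing p. Then b induces B if and only if, for every g ∈ G, every ξ ∈ b and every χ ∈ B, the central character of χ at g is congruent modulo the local ideal at M to the sum of ξ h / ξ 1 over the elements h of H conjugate in G to g and centralizing P. -/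
theorem result {G : Type*} [Group G] [Finite G] (p : ℕ) [Fact p.Prime] (M : Ideal Cfsg.AlgInt) (hM : Cfsg.IsPModular p M) (P H : Subgroup G) (hP : IsPGroup p P) (hPH : P ≤ H) (hCH : Subgroup.centralizer (P : Set G) ≤ H) (hHN : H ≤ Subgroup.normalizer (P : Set G)) (b : Set (Cfsg.IrrCharacter H)) (hb : Cfsg.IsPBlock M b) (B : Set (Cfsg.IrrCharacter G)) (hB : Cfsg.IsPBlock M B) : Cfsg.IsInducedBlock M H b B ↔ ∀ ξ ∈ b, ∀ χ ∈ B, ∀ g : G, Cfsg.MemLocalIdeal M (Cfsg.brauerCentralChar P H (ξ : H → ℂ) g - Cfsg.centralChar (χ : G → ℂ) g) := by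
  obtain ⟨O, hO, _⟩ := exists_over hM
  obtain ⟨β, rfl⟩ := hO.exists_blk hB
  obtain ⟨b, rfl⟩ := hO.exists_blk hb
  simp only [hO.isInducedBlock_iff, aux hO hHN, induces_iff_cls, blk_resZ_eq_brZ hP hPH hHN]
  constructor
  · intro h ξ hξ χ hχ g
    rw [mem_irr.1 hξ, mem_irr.1 hχ]; exact h g
  · intro h g
    obtain ⟨ξ, rfl⟩ := lam_surjective b
    obtain ⟨χ, rfl⟩ := lam_surjective β
    exact h ξ rfl χ rfl g

end Cfsg.Agent.S0918
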