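import Cfsg.Statements.S0920
import Cfsg.Agent.H19.Main1

set_option autoImplicit false
open Cfsg

namespace Cfsg.Agent.S0920
open H17 H19

/-- Brauer's First Main Theorem. Let D be a p-subgroup of the finite group G with normalizer N, and fix a maximal ideal M of the algebraic integers containing p. Then (i) every block b of N having D as a defect group induces some block B of G having D as a defect group; (ii) every block of G with defect group D is induced by exactly one block of N with defect group D. -/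
theorem result {G : Type*} [Group G] [Finite G] (p : ℕ) [Fact p.Prime] (M : Ideal Cfsg.AlgInt) (hM : Cfsg.IsPModular p M) (D : Subgroup G) (hD : IsPGroup p D) : (∀ b : Set (Cfsg.IrrCharacter (Subgroup.normalizer (D : Set G))), Cfsg.IsPBlock M b → Cfsg.IsDefectGroup p M b (D.subgroupOf (Subgroup.normalizer (D : Set G))) → ∃ B : Set (Cfsg.IrrCharacter G), Cfsg.IsPBlock M B ∧ Cfsg.IsDefectGroup p M B D ∧ Cfsg.IsInducedBlock M (Subgroup.normalizer (D : Set G)) b B) ∧ (∀ B : Set (Cfsg.IrrCharacter G), Cfsg.IsPBlock M B → Cfsg.IsDefectGroup p M B D → ∃! b : Set (Cfsg.IrrCharacter (Subgroup.normalizer (D : Set G))), Cfsg.IsPBlock M b ∧ Cfsg.IsDefectGroup p M b (D.subgroupOf (Subgroup.normalizer (D : Set G))) ∧ Cfsg.IsInducedBlock M (Subgroup.normalizer (D : Set G)) b B) := by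
  obtain ⟨O, hO, _⟩ := exists_over hM
  constructor
  · intro b hb hd
    obtain ⟨b, rfl⟩ := hO.exists_blk hb
    rw [hO.isDefectGroup_iff hM] at hd
    obtain ⟨β, hβ⟩ := exists_induces hD (H20.le_nrm_self D) (H20.cent_le_nrm D) le_rfl b
    exact ⟨irr β, hO.isPBlock_irr β, (hO.isDefectGroup_iff hM _ _).2 (hβ.isDef_of_nrm hd),
      (hO.isInducedBlock_iff _ _ _).2 hβ⟩
  · intro B hB hd
    obtain ⟨β, rfl⟩ := hO.exists_blk hB
    rw [hO.isDefectGroup_iff hM] at hd
    obtain ⟨b, h1, h2⟩ := hd.exists_induces (H20.le_nrm_self D) (H20.cent_le_nrm D) le_rfl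
    refine ⟨irr b, ⟨hO.isPBlock_irr b, (hO.isDefectGroup_iff hM _ _).2 h2,
      (hO.isInducedBlock_iff _ _ _).2 h1⟩, ?_⟩
    rintro c ⟨hc, -, h3⟩
    obtain ⟨c, rfl⟩ := hO.exists_blk hc
    rw [hd.induces_unique ((hO.isInducedBlock_iff _ _ _).1 h3) h1]

end Cfsg.Agent.S0920
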