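import Cfsg.Statements.S0925
import Cfsg.Agent.H19.Bridge
import Cfsg.Agent.H19.Vanish

set_option autoImplicit false
open Cfsg

namespace Cfsg.Agent.S0925
open H17 H19

/-- (i) Let ϑ be a class function on the finite group G and x a p-element, and suppose ϑ vanishes at every element whose p-part is conjugate to x. Then for every block B (relative to a maximal ideal M of the algebraic integers containing p) the B-part of ϑ — the sum over χ ∈ B of the inner product of ϑ with χ, times χ — also vanishes at every such element. (ii) Block orthogonality, its corollary: if the p-parts of g and h are not conjugate, then the sum over χ ∈ B of χ g * χ h⁻¹ is zero for every block B. -/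
theorem result {G : Type*} [Group G] [Finite G] (p : ℕ) [Fact p.Prime] (M : Ideal Cfsg.AlgInt) (hM : Cfsg.IsPModular p M) : (∀ (ϑ : G → ℂ), Cfsg.IsClassFunction G ϑ → ∀ x : G, (∃ k : ℕ, orderOf x = p ^ k) → (∀ u z : G, Cfsg.IsPPart p u z → IsConj x z → ϑ u = 0) → ∀ B : Set (Cfsg.IrrCharacter G), Cfsg.IsPBlock M B → ∀ u z : G, Cfsg.IsPPart p u z → IsConj x z → Cfsg.blockPart B ϑ u = 0) ∧ (∀ g h x y : G, Cfsg.IsPPart p g x → Cfsg.IsPPart p h y → ¬ IsConj x y → ∀ B : Set (Cfsg.IrrCharacter G), Cfsg.IsPBlock M B → ∑ᶠ χ ∈ B, (χ : G → ℂ) g * (χ : G → ℂ) h⁻¹ = 0) := by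
  classical
  obtain ⟨O, hO, _⟩ := exists_over hM
  have := Fintype.ofFinite G
  constructor
  · intro ϑ _ x _ hv B hB u z hu hxz
    obtain ⟨β, rfl⟩ := hO.exists_blk hB
    rw [blockPart_eq_sum]
    simp only [classInner_def, irr_conj, mul_assoc, Finset.sum_mul]
    rw [← Finset.mul_sum, Finset.sum_comm, Finset.sum_eq_zero, mul_zero]
    intro g _
    rw [← Finset.mul_sum]
    obtain ⟨y, hy⟩ := exists_isPPart p g
    by_cases hxy : IsConj x y
    · rw [hv g y hy hxy, zero_mul]
    · have := block_orth β hu hy fun h => hxy (hxz.trans h)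
      simp only [mul_comm ((_ : G → ℂ) g⁻¹), this, mul_zero]
  · intro g h x y hx hy hxy B hB
    obtain ⟨β, rfl⟩ := hO.exists_blk hB
    rw [finsum_mem_irr]
    exact block_orth β hx hy hxy

end Cfsg.Agent.S0925
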