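import Cfsg.Statements.S0932
import Cfsg.Agent.H19.Kern

set_option autoImplicit false
open Cfsg

namespace Cfsg.Agent.S0932
open H17 H19

/-- Let H be a subgroup of the finite group G and ξ a character of H. For every g ∈ G, the sum of ξ h / ξ 1 over the elements h ∈ H that are conjugate in G to g equals the central character at g of the character of G induced from ξ (class size times value divided by degree). -/
theorem result {G : Type*} [Group G] [Fintype G] (H : Subgroup G) (ξ : H → ℂ) (hξ : Cfsg.IsCharacter H ξ) (g : G) : Cfsg.inducedCentralChar H ξ g = Cfsg.centralChar (Cfsg.indFun H ξ) g := by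
  classical
  have h1 : (Nat.card H : ℂ) ≠ 0 := card_ne_zero_complex
  have h2 : (H.index : ℂ) ≠ 0 := by exact_mod_cast H.index_ne_zero_of_finite
  have h3 : ((Subgroup.centralizer ({g} : Set G)).index : ℂ) *
      Nat.card (Subgroup.centralizer ({g} : Set G)) = H.index * Nat.card H := by
    rw [← Nat.cast_mul, ← Nat.cast_mul, Subgroup.index_mul_card, Subgroup.index_mul_card]
  rw [inducedCentralChar, centralChar, indFun_eq_sum_filter, indFun_one, finsum_eq_sum_of_fintype,
    Finset.sum_filter, ← mul_assoc, mul_left_comm, h3, mul_comm (H.index : ℂ), ← mul_assoc,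
    inv_mul_cancel₀ h1, one_mul, mul_div_mul_left _ _ h2, Finset.sum_div]
  refine Finset.sum_congr rfl fun h _ => ?_
  rw [finsum_eq_if]
  simp only [Set.mem_ofPred_eq]
  split_ifs <;> simp

end Cfsg.Agent.S0932
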