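import Cfsg.Statements.S0940
import Cfsg.Agent.H19.Ht4

set_option autoImplicit false
open Cfsg

namespace Cfsg.Agent.S0940
open H17 H19

/-- Let G be a finite group and M a maximal ideal of the algebraic integers containing the prime p. For every p-regular g, the idempotent coefficient of the principal block at g (the inverse of the group order times the sum over χ in the principal block of χ 1 * conj (χ g)) is congruent modulo the local ideal at M to N / R, where N is the number of pairs (x, y) with x of p-power order, y of order prime to p and x * y = g, and R is the number of elements of G of order prime to p. -/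
theorem result {G : Type*} [Group G] [Finite G] (p : ℕ) [Fact p.Prime] (M : Ideal Cfsg.AlgInt) (hM : Cfsg.IsPModular p M) (g : G) (hg : ¬ p ∣ orderOf g) : Cfsg.MemLocalIdeal M (Cfsg.blockCoeff (Cfsg.principalBlock M G) g - (Nat.card {xy : G × G // (∃ k : ℕ, orderOf xy.1 = p ^ k) ∧ ¬ p ∣ orderOf xy.2 ∧ xy.1 * xy.2 = g} : ℂ) / (Nat.card {y : G // ¬ p ∣ orderOf y} : ℂ)) := by
  classical
  obtain ⟨O, hO, _⟩ := exists_over hM
  have := Fintype.ofFinite G
  have h1 := kulshammer (O := O) hg
  have h2 := kulshammer (O := O) (preg_one (G := G) (p := p))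
  have h3 : (Finset.univ.filter fun y : G => ¬ p ∣ orderOf y ∧ IsPElt p (y * 1⁻¹)) = {1} := by
    ext y
    simp only [inv_one, mul_one, Finset.mem_filter, Finset.mem_univ, true_and, Finset.mem_singleton]
    exact ⟨fun h => h.2.eq_one h.1, fun h => h ▸ ⟨preg_one, isPElt_one⟩⟩
  have h4 : Nat.card {xy : G × G // (∃ k : ℕ, orderOf xy.1 = p ^ k) ∧ ¬ p ∣ orderOf xy.2 ∧
      xy.1 * xy.2 = g} =
      (Finset.univ.filter fun y : G => ¬ p ∣ orderOf y ∧ IsPElt p (y * g⁻¹)).card := by
    rw [Nat.card_eq_fintype_card, Fintype.card_subtype]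
    refine Finset.card_bij' (fun xy _ => xy.2) (fun y _ => (g * y⁻¹, y)) ?_ ?_ ?_ ?_
    · simp only [Finset.mem_filter, Finset.mem_univ, true_and]
      rintro ⟨x, y⟩ ⟨k1, k2, rfl⟩
      exact ⟨k2, by simpa using IsPElt.inv k1⟩
    · simp only [Finset.mem_filter, Finset.mem_univ, true_and]
      exact fun y h => ⟨by simpa [IsPElt] using h.2.inv, h.1, by simp⟩
    · simp only [Finset.mem_filter, Finset.mem_univ, true_and]
      rintro ⟨x, y⟩ ⟨-, -, rfl⟩
      simp
    · simp
  rw [hO.principalBlock_eq, h4, Nat.card_eq_fintype_card, Fintype.card_subtype,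
    hO.memLocalIdeal_iff hM ((blockCoeff_isAlgebraic _ _).sub
      (isAlgebraic_div_natCast (isAlgebraic_natCast _) _))]
  rw [h3, Finset.card_singleton, Nat.cast_one] at h2
  generalize ((Finset.univ.filter fun y : G => ¬ p ∣ orderOf y).card : ℂ) = n at *
  have h5 : n ∉ O.nonunits := fun h => one_not_mem_nonunits (O := O) (by
    simpa using add_mem h2 (nonunits_mul_right h (blockCoeff_irr_mem (B0 O G) 1)))
  have h6 := ne_zero_of_not_nonunits h5
  convert nonunits_mul_left (neg_mem (inv_mem_of_not_nonunits h5)) h1 using 1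
  field_simp
  ring

end Cfsg.Agent.S0940
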