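import Cfsg.Statements.S0941
import Cfsg.Agent.H19.Kern

set_option autoImplicit false
open Cfsg

namespace Cfsg.Agent.S0941
open H17 H19

/-- Let P be a normal p-subgroup of the finite group G such that the index of C_G(P) is a power of p, and fix a maximal ideal M of the algebraic integers containing p. Then (i) two irreducible characters of G ⧸ P lie in the same block if and only if their inflations to G do, and (ii) every block of G contains the inflation of some irreducible character of G ⧸ P; so inflation induces a bijection between the blocks of G ⧸ P and the blocks of G. -/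
theorem result {G : Type*} [Group G] [Finite G] (p : ℕ) [Fact p.Prime] (M : Ideal Cfsg.AlgInt) (hM : Cfsg.IsPModular p M) (P : Subgroup G) [P.Normal] (hP : IsPGroup p P) (hC : ∃ k : ℕ, (Subgroup.centralizer (P : Set G)).index = p ^ k) : (∀ χ ψ : Cfsg.IrrCharacter (G ⧸ P), Cfsg.SameBlock M (χ : G ⧸ P → ℂ) (ψ : G ⧸ P → ℂ) ↔ Cfsg.SameBlock M ((χ : G ⧸ P → ℂ) ∘ QuotientGroup.mk) ((ψ : G ⧸ P → ℂ) ∘ QuotientGroup.mk)) ∧ ∀ B : Set (Cfsg.IrrCharacter G), Cfsg.IsPBlock M B → ∃ χ : Cfsg.IrrCharacter (G ⧸ P), ∃ θ ∈ B, (θ : G → ℂ) = (χ : G ⧸ P → ℂ) ∘ QuotientGroup.mk := by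
  obtain ⟨O, hO, _⟩ := exists_over hM
  obtain ⟨k, hk⟩ := hC
  have hk' : IsPGroup p (QuotientGroup.mk' P).ker := by rwa [QuotientGroup.ker_mk']
  have hc : ∀ y, ¬ p ∣ orderOf y → y ∈ H20.cent (QuotientGroup.mk' P).ker := fun y hy => by
    rw [QuotientGroup.ker_mk']
    exact mem_of_reg_of_isPGroup (N := Subgroup.centralizer (P : Set G)) (IsPGroup.of_card hk) hy
  constructor
  · intro χ ψ
    have h1 := hO.sameBlock_iff (infl (QuotientGroup.mk' P) (QuotientGroup.mk'_surjective P) χ)
      (infl (QuotientGroup.mk' P) (QuotientGroup.mk'_surjective P) ψ)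
    rw [lam_infl, lam_infl,
      (dom_injective_of_cent hk' hc (QuotientGroup.mk'_surjective P)).eq_iff] at h1
    exact (hO.sameBlock_iff _ _).trans h1.symm
  · intro B hB
    obtain ⟨β, rfl⟩ := hO.exists_blk hB
    obtain ⟨b, rfl⟩ := exists_dom_mk P hP β
    obtain ⟨χ, rfl⟩ := lam_surjective b
    exact ⟨χ, infl _ (QuotientGroup.mk'_surjective P) χ, lam_infl _ _ _, rfl⟩

end Cfsg.Agent.S0941
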