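import Cfsg.Statements.S0944
import Cfsg.Agent.H19.BS1

set_option autoImplicit false
open Cfsg

namespace Cfsg.Agent.S0944
open H17 H19

/-- Let χ be an irreducible character of the finite group G and u an involution. Then χ u is a rational integer n with n ≡ χ 1 (mod 2). -/
theorem result {G : Type*} [Group G] [Finite G] (χ : Cfsg.IrrCharacter G) (u : G) (hu : orderOf u = 2) : ∃ n : ℤ, (χ : G → ℂ) u = (n : ℂ) ∧ (2 : ℤ) ∣ (Cfsg.charDegree (χ : G → ℂ) : ℤ) - n := by
  obtain ⟨n, hn⟩ := exists_int_of_sq_eq_one χ.2.isGen (H6.ord2_mul_self hu)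
  refine ⟨n, hn, ?_⟩
  have := char_nat_modEq (p := 2) χ.2.isCharacter ⟨1, hu⟩ hn (n := charDegree (χ : G → ℂ))
    (by simp [cast_deg])
  exact dvd_sub_comm.1 this

end Cfsg.Agent.S0944
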