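import Cfsg.Statements.S0948
import Cfsg.Agent.H19.BS3

set_option autoImplicit false
open Cfsg

namespace Cfsg.Agent.S0948
open H17 H19

/-- Let the finite group G have a Sylow 2-subgroup P that is a Klein four-group, suppose all involutions of G are conjugate, and fix a maximal ideal M of the algebraic integers containing 2. Then the principal block consists of exactly four irreducible characters, the principal character and ζ₂, ζ₃, ζ₄, and there is a sign ε such that for every involution z: ζ₂ z = 1, ζ₃ z = ε, ζ₄ z = -1; moreover ζ₂ 1 ≡ 1, ζ₃ 1 ≡ ε, ζ₄ 1 ≡ -1 (mod 4), and 1 + ζ₂ y + ε ζ₃ y - ζ₄ y = 0 for every y of odd order. -/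
theorem result {G : Type*} [Group G] [Finite G] (M : Ideal Cfsg.AlgInt) (hM : Cfsg.IsPModular 2 M) (P : Sylow 2 G) (hP : IsKleinFour (P : Subgroup G)) (hone : ∀ s t : G, orderOf s = 2 → orderOf t = 2 → IsConj s t) : ∃ ζ₂ ζ₃ ζ₄ : Cfsg.IrrCharacter G, ∃ ε : ℤ, (ε = 1 ∨ ε = -1) ∧ (ζ₂ : G → ℂ) ≠ (fun _ => 1) ∧ (ζ₃ : G → ℂ) ≠ (fun _ => 1) ∧ ζ₂ ≠ ζ₃ ∧ ζ₂ ≠ ζ₄ ∧ ζ₃ ≠ ζ₄ ∧ Cfsg.principalBlock M G = {χ : Cfsg.IrrCharacter G | (χ : G → ℂ) = (fun _ => 1) ∨ χ = ζ₂ ∨ χ = ζ₃ ∨ χ = ζ₄} ∧ (∀ z : G, orderOf z = 2 → (ζ₂ : G → ℂ) z = 1 ∧ (ζ₃ : G → ℂ) z = (ε : ℂ) ∧ (ζ₄ : G → ℂ) z = -1) ∧ (4 : ℤ) ∣ (Cfsg.charDegree (ζ₂ : G → ℂ) : ℤ) - 1 ∧ (4 : ℤ) ∣ (Cfsg.charDegree (ζ₃ : G → ℂ) : ℤ) - ε ∧ (4 : ℤ) ∣ (Cfsg.charDegree (ζ₄ : G → ℂ) : ℤ) + 1 ∧ ∀ y : G, Odd (orderOf y) → 1 + (ζ₂ : G → ℂ) y + (ε : ℂ) * (ζ₃ : G → ℂ) y - (ζ₄ : G → ℂ) y = 0 := by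
  obtain ⟨O, hO, _⟩ := exists_over hM
  obtain ⟨ψ, ε, n, h1, h2, h3, hε, hs, hn, hn4, hr⟩ := klein_block O (H10.isSylowIn_top P) hP hone
  have hε' := fun i => Int.eq_one_or_neg_one_of_mul_eq_one (hε i)
  have hd : ∀ i, ε i * (charDegree (ψ i : G → ℂ) : ℤ) = n i := fun i => by
    apply Int.cast_injective (α := ℂ); push_cast; rw [cast_deg, hn]
  have hpos : ∀ i, 0 < (charDegree (ψ i : G → ℂ) : ℤ) := fun i => by
    exact_mod_cast Nat.pos_of_ne_zero (deg_ne_zero _)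
  have hsum : 1 + (n 0 + n 1 + n 2) = 0 := by
    have := hr 1 preg_one
    simp only [hn, Fin.sum_univ_three] at this
    exact_mod_cast this
  have key : ∀ i j k : Fin 3, i ≠ j → i ≠ k → j ≠ k → ε i = 1 → ε k = -1 →
      (∀ F : Fin 3 → ℂ, ∑ l, F l = F i + F j + F k) → (∀ l, l = i ∨ l = j ∨ l = k) →
      ∃ ζ₂ ζ₃ ζ₄ : Cfsg.IrrCharacter G, ∃ ε : ℤ, (ε = 1 ∨ ε = -1) ∧ (ζ₂ : G → ℂ) ≠ (fun _ => 1) ∧ (ζ₃ : G → ℂ) ≠ (fun _ => 1) ∧ ζ₂ ≠ ζ₃ ∧ ζ₂ ≠ ζ₄ ∧ ζ₃ ≠ ζ₄ ∧ Cfsg.principalBlock M G = {χ : Cfsg.IrrCharacter G | (χ : G → ℂ) = (fun _ => 1) ∨ χ = ζ₂ ∨ χ = ζ₃ ∨ χ = ζ₄} ∧ (∀ z : G, orderOf z = 2 → (ζ₂ : G → ℂ) z = 1 ∧ (ζ₃ : G → ℂ) z = (ε : ℂ) ∧ (ζ₄ : G → ℂ) z = -1) ∧ (4 : ℤ) ∣ (Cfsg.charDegree (ζ₂ : G → ℂ) : ℤ) - 1 ∧ (4 : ℤ) ∣ (Cfsg.charDegree (ζ₃ : G → ℂ) : ℤ) - ε ∧ (4 : ℤ) ∣ (Cfsg.charDegree (ζ₄ : G → ℂ) : ℤ) + 1 ∧ ∀ y : G, Odd (orderOf y) → 1 + (ζ₂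 : G → ℂ) y + (ε : ℂ) * (ζ₃ : G → ℂ) y - (ζ₄ : G → ℂ) y = 0 := by
    intro i j k a1 a2 a3 e1 e2 hF hl
    refine ⟨ψ i, ψ j, ψ k, ε j, hε' j, fun h => h2 i (Subtype.ext h), fun h => h2 j (Subtype.ext h),
      h1.ne a1, h1.ne a2, h1.ne a3, ?_, fun z hz => ?_, ?_, ?_, ?_, fun y hy => ?_⟩
    · rw [hO.principalBlock_eq]
      ext χ
      rw [h3]
      refine or_congr Subtype.ext_iff ⟨?_, ?_⟩
      · rintro ⟨l, rfl⟩
        rcases hl l with rfl | rfl | rfl <;> simp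
      · rintro (rfl | rfl | rfl) <;> exact ⟨_, rfl⟩
    · simp [hs _ z (by rw [hz]), e1, e2]
    · have := hn4 i; have := hd i; rw [e1] at this; omega
    · have := hn4 j; have := hd j; rcases hε' j with h | h <;> rw [h] at this ⊢ <;> omega
    · have := hn4 k; have := hd k; rw [e2] at this; omega
    · have := hr y hy.not_two_dvd_nat
      rw [hF, e1, e2] at this
      push_cast at this
      linear_combination this
  have h0 := hd 0; have h1 := hd 1; have h2 := hd 2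
  have p0 := hpos 0; have p1 := hpos 1; have p2 := hpos 2
  rcases hε' 0 with e0 | e0 <;> rcases hε' 1 with e1 | e1 <;> rcases hε' 2 with e2 | e2
  · rw [e0] at h0; rw [e1] at h1; rw [e2] at h2; omega
  · exact key 0 1 2 (by decide) (by decide) (by decide) e0 e2
      (fun F => by rw [Fin.sum_univ_three]) (by decide)
  · exact key 0 2 1 (by decide) (by decide) (by decide) e0 e1
      (fun F => by rw [Fin.sum_univ_three]; ring) (by decide)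
  · exact key 0 1 2 (by decide) (by decide) (by decide) e0 e2
      (fun F => by rw [Fin.sum_univ_three]) (by decide)
  · exact key 1 2 0 (by decide) (by decide) (by decide) e1 e0
      (fun F => by rw [Fin.sum_univ_three]; ring) (by decide)
  · exact key 1 2 0 (by decide) (by decide) (by decide) e1 e0
      (fun F => by rw [Fin.sum_univ_three]; ring) (by decide)
  · exact key 2 1 0 (by decide) (by decide) (by decide) e2 e0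
      (fun F => by rw [Fin.sum_univ_three]; ring) (by decide)
  · rw [e0] at h0; rw [e1] at h1; rw [e2] at h2; omega

end Cfsg.Agent.S0948
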