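import Cfsg.Statements.S0950
import Cfsg.Agent.H19.BS3

set_option autoImplicit false
open Cfsg

namespace Cfsg.Agent.S0950
open H17 H19

/-- Let S be a Sylow 2-subgroup of the finite group G that is isomorphic to the quaternion group of order 8, and suppose S has no normal complement in G. Then any two subgroups of order 4 of S are conjugate by an element of the normalizer of S. -/
theorem result {G : Type*} [Group G] [Finite G] (S : Sylow 2 G) (e : (S : Subgroup G) ≃* QuaternionGroup 2) (hnc : ∀ N : Subgroup G, N.Normal → ¬ Subgroup.IsComplement' N (S : Subgroup G)) (A B : Subgroup G) (hA : A ≤ S) (hB : B ≤ S) (hA4 : Nat.card A = 4) (hB4 : Nat.card B = 4) : ∃ n ∈ Subgroup.normalizer ((S : Subgroup G) : Set G), B = A.map (MulAut.conj n).toMonoidHom := by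
  obtain ⟨g, hg1, hg2, hg3⟩ := q8_exists_odd (H10.isSylowIn_top S) e fun hn => by
    obtain ⟨N, h1, h2⟩ := (H3.hasNormalPComplement_iff_sylow S).1 hn
    exact hnc N h1 h2
  obtain ⟨a, b, h⟩ := exists_QS (H10.isSylowIn_top S) e
  have key : ∀ C : Subgroup G, C ≤ S → Nat.card C = 4 →
      ∃ u ∈ C, u * u ≠ 1 ∧ C = Subgroup.zpowers u := fun C hC h4 => by
    obtain ⟨u, hu, hu2⟩ : ∃ u ∈ C, u * u ≠ 1 := by
      by_contra h1
      push Not at h1
      have h2 : C ≤ Subgroup.zpowers (a ^ 2) := fun x hx => by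
        by_cases hx1 : x = 1
        · rw [hx1]; exact one_mem _
        · rw [h.unique (hC hx) (H6.ord2_of (h1 x hx) hx1)]; exact Subgroup.mem_zpowers _
      have := Subgroup.card_le_of_le h2
      rw [Nat.card_zpowers, h.ord2] at this
      omega
    refine ⟨u, hu, hu2, (Subgroup.eq_of_le_of_card_ge (Subgroup.zpowers_le.2 hu) ?_).symm⟩
    rw [Nat.card_zpowers, H6.orderOf_eq_four_iff.2 ⟨H6.q8_pow_four e (hC hu), hu2⟩, h4]
  obtain ⟨u, hu, hu2, rfl⟩ := key A hA hA4
  obtain ⟨w, hw, hw2, rfl⟩ := key B hB hB4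
  obtain ⟨n, hn, h1⟩ := H6.q8_odd_conj e hg1 hg2 hg3 (hA hu) hu2 (hB hw) hw2
  exact ⟨n, sup_le (Subgroup.zpowers_le.2 hg2) Subgroup.le_normalizer hn,
    by rw [H6.map_conj_zpowers, h1]⟩

end Cfsg.Agent.S0950
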