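import Cfsg.Statements.S0953
import Cfsg.Agent.H19.Ht4

set_option autoImplicit false
open Cfsg

namespace Cfsg.Agent.S0953
open H17 H19

/-- Let P be a Sylow p-subgroup of the finite group G with normalizer N, and fix a maximal ideal M of the algebraic integers containing p. The number of blocks of G having P as a defect group equals the number of conjugacy classes of N consisting of elements of order prime to p that centralize P. -/
theorem result {G : Type*} [Group G] [Finite G] (p : ℕ) [Fact p.Prime] (M : Ideal Cfsg.AlgInt) (hM : Cfsg.IsPModular p M) (P : Sylow p G) : Nat.card {B : Set (Cfsg.IrrCharacter G) // Cfsg.IsPBlock M B ∧ Cfsg.IsDefectGroup p M B (P : Subgroup G)} = Nat.card {C : ConjClasses (Subgroup.normalizer ((P : Subgroup G) : Set G)) // ∀ n : Subgroup.normalizer ((P : Subgroup G) : Set G), ConjClasses.mk n = C → ¬ p ∣ orderOf n ∧ (n : G) ∈ Subgroup.centralizer ((P : Subgroup G) : Set G)} := by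
  obtain ⟨O, hO, _⟩ := exists_over hM
  have hP := H10.isSylowIn_top P
  have h1 : Nat.card {B : Set (IrrCharacter G) // IsPBlock M B ∧ IsDefectGroup p M B P} =
      Nat.card {β : Blk O G // IsDef p β P} := by
    refine (Nat.card_eq_of_bijective (fun β => ⟨irr β.1, hO.isPBlock_irr _,
      (hO.isDefectGroup_iff hM _ _).2 β.2⟩) ⟨fun a b h => ?_, fun ⟨B, h1, h2⟩ => ?_⟩).symm
    · exact Subtype.ext (irr_injective (Subtype.mk.inj h))
    · obtain ⟨β, rfl⟩ := hO.exists_blk h1
      exact ⟨⟨β, (hO.isDefectGroup_iff hM _ _).1 h2⟩, rfl⟩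
  rw [h1, card_isDef_of_sylow hP, card_blk_of_normal_sylow (H10.isSylowIn_subgroupOf_top
    (hP.of_le (H20.le_nrm_self _) le_top))]
  simp only [subgroupOf_cent (H20.le_nrm_self _), Subgroup.mem_subgroupOf]

end Cfsg.Agent.S0953
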