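import Cfsg.Statements.S0957
import Cfsg.Agent.H19.Ht5

set_option autoImplicit false
open Cfsg

namespace Cfsg.Agent.S0957
open H17 H19

/-- Let P be a Sylow p-subgroup of the finite group G, let g, h ∈ G and let p ^ d be the order of a Sylow p-subgroup of the centralizer of g. Then the number of pairs (y, z) with y conjugate to g, z conjugate to h and z * y⁻¹ ∈ P is divisible by the order of P divided by p ^ d. -/
theorem result {G : Type*} [Group G] [Finite G] (p : ℕ) [Fact p.Prime] (P : Sylow p G) (g h : G) (S : Sylow p (Subgroup.centralizer ({g} : Set G))) : Nat.card P / Nat.card S ∣ Nat.card {yz : G × G // IsConj g yz.1 ∧ IsConj h yz.2 ∧ yz.2 * yz.1⁻¹ ∈ (P : Subgroup G)} := by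
  classical
  have := Fintype.ofFinite G
  let inst : MulAction P (G × G) :=
    MulAction.compHom (G × G) (MulAut.conj.comp (P : Subgroup G).subtype)
  have hs : ∀ (u : P) (x : G × G), @HSMul.hSMul _ _ _ (@instHSMul _ _ inst.toSMul) u x = (u * x.1 * (u : G)⁻¹, u * x.2 * (u : G)⁻¹) :=
    fun _ _ => rfl
  have h1 := sum_mem_of_orbits (P := P) (Finset.univ.filter fun yz : G × G =>
    IsConj g yz.1 ∧ IsConj h yz.2 ∧ yz.2 * yz.1⁻¹ ∈ (P : Subgroup G)) (fun u x hx => ?_)
    (fun _ => 1) (fun _ _ _ => rfl) (AddSubmonoid.multiples (Nat.card P / Nat.card S))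
    fun x hx => ?_
  · rw [Finset.sum_const, smul_eq_mul, mul_one, ← Fintype.card_subtype,
      ← Nat.card_eq_fintype_card] at h1
    obtain ⟨n, hn⟩ := h1
    exact ⟨n, by rw [← hn, mul_comm]; rfl⟩
  · simp only [Finset.mem_filter, Finset.mem_univ, true_and, hs] at hx ⊢
    refine ⟨hx.1.trans (isConj_iff.2 ⟨u, rfl⟩), hx.2.1.trans (isConj_iff.2 ⟨u, rfl⟩), ?_⟩
    convert mul_mem (mul_mem u.2 hx.2.2) (inv_mem u.2) using 1
    group
  · obtain ⟨hx, -⟩ := (Finset.mem_filter.1 hx).2
    obtain ⟨a, ha⟩ := P.isPGroup'.exists_card_eq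
    obtain ⟨b, hb⟩ := (P.isPGroup'.to_subgroup (MulAction.stabilizer P x)).exists_card_eq
    have h2 : Nat.card (MulAction.stabilizer P x) ∣ Nat.card S := by
      rw [hb, S.card_eq_multiplicity, card_centralizer_of_isConj hx]
      refine pow_dvd_pow _ ((Nat.Prime.pow_dvd_iff_le_factorization Fact.out Nat.card_pos.ne').1 ?_)
      rw [← hb, ← Subgroup.card_map_of_injective (P : Subgroup G).subtype_injective]
      refine Subgroup.card_dvd_of_le ?_
      rintro _ ⟨u, hu, rfl⟩
      exact Subgroup.mem_centralizer_singleton_iff.2 (mul_inv_eq_iff_eq_mul.1 (congrArg Prod.fst hu))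
    have h3 : Nat.card S ∣ Nat.card P := by
      rw [S.card_eq_multiplicity, P.card_eq_multiplicity]
      exact pow_dvd_pow _ ((Nat.factorization_le_iff_dvd Nat.card_pos.ne' Nat.card_pos.ne').2
        (Subgroup.card_subgroup_dvd_card _) p)
    obtain ⟨n, hn⟩ : Nat.card P / Nat.card S ∣ (MulAction.stabilizer P x).index := by
      refine Nat.dvd_of_mul_dvd_mul_left (Nat.card_pos (α := MulAction.stabilizer P x)) ?_
      rw [Subgroup.card_mul_index]
      exact (Nat.mul_dvd_mul_right h2 _).trans (Nat.mul_div_cancel' h3).dvd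
    exact ⟨n, by rw [hn, smul_eq_mul, mul_one, mul_comm]; rfl⟩

end Cfsg.Agent.S0957
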