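import Cfsg.Statements.S0959
import Cfsg.Agent.H19.Defect

set_option autoImplicit false
open Cfsg

namespace Cfsg.Agent.S0959
open H17 H19

/-- Let B be a block of the finite group G with defect group D (relative to a maximal ideal M of the algebraic integers containing the prime p), and let P be a p-subgroup. Then there is an element g whose idempotent coefficient for B is a local integer outside the local ideal at M and which has a conjugate centralizing P, if and only if some conjugate of P is contained in D. -/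
theorem result {G : Type*} [Group G] [Finite G] (p : ℕ) [Fact p.Prime] (M : Ideal Cfsg.AlgInt) (hM : Cfsg.IsPModular p M) (B : Set (Cfsg.IrrCharacter G)) (hB : Cfsg.IsPBlock M B) (D : Subgroup G) (hD : Cfsg.IsDefectGroup p M B D) (P : Subgroup G) (hP : IsPGroup p P) : (∃ g : G, Cfsg.MemLocalRing M (Cfsg.blockCoeff B g) ∧ ¬ Cfsg.MemLocalIdeal M (Cfsg.blockCoeff B g) ∧ ∃ c : G, IsConj g c ∧ c ∈ Subgroup.centralizer (P : Set G)) ↔ ∃ x : G, P.map (MulAut.conj x).toMonoidHom ≤ D := by
  obtain ⟨O, hO, _⟩ := exists_over hM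
  obtain ⟨β, rfl⟩ := hO.exists_blk hB
  rw [hO.isDefectGroup_iff hM] at hD
  rw [← hD.br_ne_zero_iff hP, H20.br_ne_zero_iff]
  simp only [hO.memLocalRing_blockCoeff_irr hM, hO.memLocalIdeal_blockCoeff_irr hM, true_and]
  constructor
  · rintro ⟨g, h1, c, h2, h3⟩
    exact ⟨c, h3, by rwa [coeff_eq_of_isConj (eB β).2 h2]⟩
  · rintro ⟨c, h1, h2⟩
    exact ⟨c, h2, c, IsConj.refl c, h1⟩

end Cfsg.Agent.S0959
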