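import Cfsg.Statements.S0962
import Cfsg.Agent.H19.Ht4

set_option autoImplicit false
open Cfsg

namespace Cfsg.Agent.S0962
open H17 H19

/-- Fix a maximal ideal M of the algebraic integers containing the prime p and a natural number d. The number of blocks of the finite group G of defect at least d is at most the number of conjugacy classes of p-regular elements of G of defect at least d, where the defect of a class is the exponent of p in the order of the centralizer of any of its elements. -/
theorem result {G : Type*} [Group G] [Finite G] (p : ℕ) [Fact p.Prime] (M : Ideal Cfsg.AlgInt) (hM : Cfsg.IsPModular p M) (d : ℕ) : Nat.card {B : Set (Cfsg.IrrCharacter G) // Cfsg.IsPBlock M B ∧ d ≤ Cfsg.blockDefect p B} ≤ Nat.card {C : ConjClasses G // ∃ g : G, ConjClasses.mk g = C ∧ Cfsg.IsPRegular p g ∧ d ≤ (Nat.card (Subgroup.centralizer ({g} : Set G))).factorization p} := by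
  obtain ⟨O, hO, _⟩ := exists_over hM
  have h1 : Nat.card {B : Set (IrrCharacter G) // IsPBlock M B ∧ d ≤ blockDefect p B} =
      Nat.card {β : Blk O G // d ≤ blockDefect p (irr β)} := by
    refine (Nat.card_eq_of_bijective (fun β => ⟨irr β.1, hO.isPBlock_irr _, β.2⟩)
      ⟨fun a b h => ?_, fun ⟨B, h1, h2⟩ => ?_⟩).symm
    · exact Subtype.ext (irr_injective (Subtype.mk.inj h))
    · obtain ⟨β, rfl⟩ := hO.exists_blk h1
      exact ⟨⟨β, h2⟩, rfl⟩
  rw [h1]
  exact card_blk_le fun β γ g h1 _ h2 h3 =>
    ⟨g, rfl, preg_of_coeff_eB h2, h1.trans (H20.le_fact_cent_of_cls h3)⟩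

end Cfsg.Agent.S0962
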