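import Cfsg.Statements.S0964
import Cfsg.Agent.H20.Cov2
-- import your own Cfsg.Agent.* helpers here

set_option autoImplicit false
open Cfsg

namespace Cfsg.Agent.S0964

/-- Let N be a normal subgroup of the finite group G, B a block of G and b a block of N relative to a maximal ideal M of the algebraic integers containing the prime p. Suppose some χ ∈ B has a constituent θ ∈ b on restriction to N. Then for every χ' ∈ B and every constituent ψ of the restriction of χ' to N there are g ∈ G and θ' ∈ b with ψ n = θ' (g n g⁻¹) for all n ∈ N. -/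
theorem result {G : Type*} [Group G] [Fintype G] (p : ℕ) [Fact p.Prime] (M : Ideal Cfsg.AlgInt) (hM : Cfsg.IsPModular p M) (N : Subgroup G) [hN : N.Normal] [Fintype N] (B : Set (Cfsg.IrrCharacter G)) (hB : Cfsg.IsPBlock M B) (b : Set (Cfsg.IrrCharacter N)) (hb : Cfsg.IsPBlock M b) (χ : Cfsg.IrrCharacter G) (hχ : χ ∈ B) (θ : Cfsg.IrrCharacter N) (hθ : θ ∈ b) (hcon : Cfsg.classInner (fun n : N => (χ : G → ℂ) n) (θ : N → ℂ) ≠ 0) (χ' : Cfsg.IrrCharacter G) (hχ' : χ' ∈ B) (ψ : Cfsg.IrrCharacter N) (hψ : Cfsg.classInner (fun n : N => (χ' : G → ℂ) n) (ψ : N → ℂ) ≠ 0) : ∃ g : G, ∃ θ' ∈ b, ∀ n : N, (ψ : N → ℂ) n = (θ' : N → ℂ) ⟨g * n * g⁻¹, hN.conj_mem n n.2 g⟩ := by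
  obtain ⟨O, hO, hc⟩ := H19.exists_over hM
  obtain ⟨β, rfl⟩ := hO.exists_blk hB
  obtain ⟨γ, rfl⟩ := hO.exists_blk hb
  have h1 := (H20.cover_iff N β γ).1 ⟨χ, hχ, θ, hθ, hcon⟩
  have h2 := (H20.cover_iff N β (H19.lam O ψ)).1 ⟨χ', hχ', ψ, H19.mem_irr_lam ψ, hψ⟩
  obtain ⟨g, -, hg⟩ := H20.exists_conj_of_cover (H20.top_le_nrm N) le_top (H20.isBlk_eG β)
    (H20.isBlk_eA N γ) (H20.isBlk_eA N _) h1 h2
  obtain ⟨ξ, h3, h4⟩ := H20.exists_irr_of_cj
    (H20.sc_eq_of_nrm (H20.top_le_nrm N (Subgroup.mem_top g))) hg.symm (H19.mem_irr_lam ψ)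
  exact ⟨g⁻¹, ξ, h3, fun n => h4 _ _ (by simp [mul_assoc])⟩

end Cfsg.Agent.S0964
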