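import Cfsg.Statements.S0965
import Cfsg.Agent.H20.Cov2
-- import your own Cfsg.Agent.* helpers here

set_option autoImplicit false
open Cfsg

namespace Cfsg.Agent.S0965

/-- Let N be a normal subgroup of the finite group G and let B, b be blocks of G and of N relative to a maximal ideal M of the algebraic integers containing the prime p. Then some χ ∈ B has a constituent in b on restriction to N if and only if, for all χ ∈ B, θ ∈ b and n ∈ N, the central character of χ at n is congruent modulo the local ideal at M to the sum of θ m / θ 1 over the elements m ∈ N conjugate in G to n. -/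
theorem result {G : Type*} [Group G] [Fintype G] (p : ℕ) [Fact p.Prime] (M : Ideal Cfsg.AlgInt) (hM : Cfsg.IsPModular p M) (N : Subgroup G) [N.Normal] [Fintype N] (B : Set (Cfsg.IrrCharacter G)) (hB : Cfsg.IsPBlock M B) (b : Set (Cfsg.IrrCharacter N)) (hb : Cfsg.IsPBlock M b) : (∃ χ ∈ B, ∃ θ ∈ b, Cfsg.classInner (fun n : N => (χ : G → ℂ) n) (θ : N → ℂ) ≠ 0) ↔ ∀ χ ∈ B, ∀ θ ∈ b, ∀ n : N, Cfsg.MemLocalIdeal M (Cfsg.centralChar (χ : G → ℂ) (n : G) - Cfsg.inducedCentralChar N (θ : N → ℂ) (n : G)) := by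
  obtain ⟨O, hO, hc⟩ := H19.exists_over hM
  obtain ⟨β, rfl⟩ := hO.exists_blk hB
  obtain ⟨γ, rfl⟩ := hO.exists_blk hb
  rw [H20.cover_iff, H20.cover_iff_chr_cls (H20.isBlk_eG β) (H20.isBlk_eA N γ)]
  have key : ∀ (χ : IrrCharacter G) (θ : IrrCharacter N) (n : N),
      MemLocalIdeal M (centralChar (χ : G → ℂ) (n : G) - inducedCentralChar N (θ : N → ℂ) (n : G)) ↔
      H20.chr (H20.eG (H19.lam O χ)) (H19.classSum (H19.kk O) (n : G)) =
        H20.chr (H20.eA N (H19.lam O θ)) (H19.classSum (H19.kk O) (n : G)) := by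
    intro χ θ n
    have h1 := H19.centralChar_isIntegral χ.2 (n : G)
    have h2 := H19.inducedCentralChar_isIntegral N θ (n : G)
    rw [H20.chr_eG_cls, ← H20.trunc_eq_self_of_supp (H20.classSum_mem_supp_fixed n).1,
      H20.chr_eA_cls, H20.memLocalIdeal_sub_iff hO hM h1.isAlgebraic h2.isAlgebraic
        (H19.mem_of_isIntegral O h1) (H19.mem_of_isIntegral O h2)]
  constructor
  · intro h χ hχ θ hθ n
    rw [key, H19.mem_irr.1 hχ, H19.mem_irr.1 hθ]
    exact h n
  · intro h n
    obtain ⟨χ, rfl⟩ := H19.lam_surjective β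
    obtain ⟨θ, rfl⟩ := H19.lam_surjective γ
    exact (key χ θ n).1 (h χ (H19.mem_irr_lam _) θ (H19.mem_irr_lam _) n)

end Cfsg.Agent.S0965
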