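import Cfsg.Statements.S0966
import Cfsg.Agent.H20.Cov2
-- import your own Cfsg.Agent.* helpers here

set_option autoImplicit false
open Cfsg

namespace Cfsg.Agent.S0966

/-- Let N be a normal subgroup of p-power index in the finite group G and b a block of N relative to a maximal ideal M of the algebraic integers containing p. Then there is exactly one block B of G containing a character whose restriction to N has a constituent in b. -/
theorem result {G : Type*} [Group G] [Fintype G] (p : ℕ) [Fact p.Prime] (M : Ideal Cfsg.AlgInt) (hM : Cfsg.IsPModular p M) (N : Subgroup G) [N.Normal] [Fintype N] (hidx : ∃ k : ℕ, N.index = p ^ k) (b : Set (Cfsg.IrrCharacter N)) (hb : Cfsg.IsPBlock M b) : ∃! B : Set (Cfsg.IrrCharacter G), Cfsg.IsPBlock M B ∧ ∃ χ ∈ B, ∃ θ ∈ b, Cfsg.classInner (fun n : N => (χ : G → ℂ) n) (θ : N → ℂ) ≠ 0 := by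
  obtain ⟨O, hO, hc⟩ := H19.exists_over hM
  obtain ⟨γ, rfl⟩ := hO.exists_blk hb
  obtain ⟨n, hn⟩ := hidx
  have hγ := H20.isBlk_eA N γ
  obtain ⟨b, h1, h2⟩ := H20.exists_cover (H := ⊤) le_top hγ
  obtain ⟨β, rfl⟩ := h1.exists_eG
  refine ⟨H19.irr β, ⟨hO.isPBlock_irr β, (H20.cover_iff N β γ).2 h2⟩, ?_⟩
  rintro B ⟨hB, h3⟩
  obtain ⟨β', rfl⟩ := hO.exists_blk hB
  rw [H20.cover_iff] at h3
  have h4 := H20.isBlk_of_relIndex (H20.top_le_nrm N) le_top
    (by rw [Subgroup.relIndex_top_right, hn]) (hγ.osum_prim (H20.top_le_nrm N) le_top)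
  have key : ∀ β : H19.Blk O G, H20.eG β * H20.eA N γ ≠ 0 → H20.osum ⊤ (H20.eA N γ) = H20.eG β :=
    fun β h => (H20.isBlk_eG β).eq_of_mul_ne_zero' h4 (by
      rw [(H20.isBlk_eG β).mul_osum_eq hγ (H20.top_le_nrm N) le_top h]
      exact (H20.isBlk_eG β).ne_zero)
  rw [H20.eG_injective ((key β' h3).symm.trans (key β h2))]

end Cfsg.Agent.S0966
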