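import Cfsg.Statements.S0970
import Cfsg.Agent.H20.Ht2
-- import your own Cfsg.Agent.* helpers here

set_option autoImplicit false
open Cfsg

namespace Cfsg.Agent.S0970

/-- Let N be a normal subgroup of the finite group G and fix a maximal ideal M of the algebraic integers containing the prime p. Let b be a block of N that is invariant under conjugation by G, and B a block of G covering b (some χ ∈ B has a constituent in b) whose defect is at least that of every block covering b. If P is a defect group of B, then p does not divide the index of P ⊔ N, the subgroup P ∩ N of N is a defect group of b, and the defect of B equals the defect of b plus the exponent of p in the index of N. -/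
theorem result {G : Type*} [Group G] [Fintype G] (p : ℕ) [Fact p.Prime] (M : Ideal Cfsg.AlgInt) (hM : Cfsg.IsPModular p M) (N : Subgroup G) [hN : N.Normal] [Fintype N] (b : Set (Cfsg.IrrCharacter N)) (hb : Cfsg.IsPBlock M b) (hinv : ∀ g : G, ∀ θ ∈ b, ∀ θ' : Cfsg.IrrCharacter N, (∀ n : N, (θ' : N → ℂ) n = (θ : N → ℂ) ⟨g * n * g⁻¹, hN.conj_mem n n.2 g⟩) → θ' ∈ b) (B : Set (Cfsg.IrrCharacter G)) (hB : Cfsg.IsPBlock M B) (hcov : ∃ χ ∈ B, ∃ θ ∈ b, Cfsg.classInner (fun n : N => (χ : G → ℂ) n) (θ : N → ℂ) ≠ 0) (hmax : ∀ B' : Set (Cfsg.IrrCharacter G), Cfsg.IsPBlock M B' → (∃ χ ∈ B', ∃ θ ∈ b, Cfsg.classInner (fun n : N => (χ : G → ℂ) n) (θ : N → ℂ) ≠ 0) → Cfsg.blockDefect p B' ≤ Cfsg.blockDefect p B) (P : Subgroup G) (hP : Cfsg.IsDefectGroup p M B P) : ¬ p ∣ (P ⊔ N).index ∧ Cfsg.IsDefectGroup p M b ((P ⊓ N).subgroupOf N) ∧ Cfsg.blockDefect p B = Cfsg.blockDefect p b + N.index.factorization p := by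
  obtain ⟨O, hO, _⟩ := H19.exists_over hM
  obtain ⟨γ, rfl⟩ := hO.exists_blk hb
  obtain ⟨β, rfl⟩ := hO.exists_blk hB
  have h0 := (H20.cover_iff N β γ).1 hcov
  have hb := H20.isBlk_eG β
  have hc := H20.isBlk_eA N γ
  have hn := H20.top_le_nrm N
  have hf : H20.eA N γ ∈ H20.fixed (H19.kk O) ⊤ := fun g _ => H20.inv_normal_iff.1 (hinv g)
  have h1 := (H20.isDefectGroup_iff hO hM _ _).1 hP
  have h2 := H20.isDef_of_cover_max le_top hb hc hf h0 h1 fun b' P' hb' h3 h4 => by
    obtain ⟨β', rfl⟩ := hb'.exists_eG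
    rw [h4.card_eq_pow, h1.card_eq_pow]
    exact Nat.pow_le_pow_right hM.1.pos (hmax _ (hO.isPBlock_irr β') ((H20.cover_iff N β' γ).2 h3))
  have h3 := h2.not_dvd_relIndex hc hn le_top hf
  have h4 := h2.inf_normal hn le_top hc hf
  rw [Subgroup.relIndex_top_right] at h3
  refine ⟨h3, (H20.isDefectGroup_subgroupOf_iff_of_le hO hM γ inf_le_right).2 h4, ?_⟩
  have h5 := H10.card_sup_mul_card_inf (L := P) (N := N) (le_top.trans hn)
  have h6 : Nat.card P = Nat.card (P ⊓ N : Subgroup G) * (N.relIndex (P ⊔ N)) := by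
    rw [← H10.card_mul_relIndex (le_sup_right : N ≤ P ⊔ N)] at h5
    refine Nat.eq_of_mul_eq_mul_right (Nat.card_pos (α := N)) ?_
    rw [← h5]; ring
  have h7 := Subgroup.relIndex_mul_index (le_sup_right : N ≤ P ⊔ N)
  have h8 : N.relIndex (P ⊔ N) ≠ 0 := fun h => N.index_ne_zero_of_finite (by rw [← h7, h, zero_mul])
  rw [← h1.fact_card, h6, ← h7, Nat.factorization_mul Nat.card_pos.ne' h8,
    Nat.factorization_mul h8 (P ⊔ N).index_ne_zero_of_finite, h4.card_eq_pow_eA]
  simp [Nat.factorization_eq_zero_of_not_dvd h3, hM.1.factorization_self]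

end Cfsg.Agent.S0970
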