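import Cfsg.Statements.S0971
import Cfsg.Agent.H20.Cov2
-- import your own Cfsg.Agent.* helpers here

set_option autoImplicit false
open Cfsg

namespace Cfsg.Agent.S0971

/-- Let Q be a normal p-subgroup of the finite group G, let N = Q ⊔ C_G(Q) (a normal subgroup) and let b be a block of N relative to a maximal ideal M of the algebraic integers containing p. Then b induces some block of G, and every block B of G containing a character whose restriction to N has a constituent in b is induced by b. -/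
theorem result {G : Type*} [Group G] [Fintype G] (p : ℕ) [Fact p.Prime] (M : Ideal Cfsg.AlgInt) (hM : Cfsg.IsPModular p M) (Q : Subgroup G) [Q.Normal] (hQ : IsPGroup p Q) [Fintype ↥(Q ⊔ Subgroup.centralizer (Q : Set G))] (b : Set (Cfsg.IrrCharacter ↥(Q ⊔ Subgroup.centralizer (Q : Set G)))) (hb : Cfsg.IsPBlock M b) : Cfsg.InducedBlockDefined M (Q ⊔ Subgroup.centralizer (Q : Set G)) b ∧ ∀ B : Set (Cfsg.IrrCharacter G), Cfsg.IsPBlock M B → (∃ χ ∈ B, ∃ θ ∈ b, Cfsg.classInner (fun n : ↥(Q ⊔ Subgroup.centralizer (Q : Set G)) => (χ : G → ℂ) n) (θ : ↥(Q ⊔ Subgroup.centralizer (Q : Set G)) → ℂ) ≠ 0) → Cfsg.IsInducedBlock M (Q ⊔ Subgroup.centralizer (Q : Set G)) b B := by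
  obtain ⟨O, hO, hc⟩ := H19.exists_over hM
  obtain ⟨γ, rfl⟩ := hO.exists_blk hb
  have hγ := H20.isBlk_eA _ γ
  have h1 : Q ≤ H20.nrm (Q ⊔ H20.cent Q) := le_sup_left.trans (H20.le_nrm_self _)
  have h2 : ⊤ ⊓ H20.cent Q ≤ Q ⊔ H20.cent Q := inf_le_right.trans le_sup_right
  have h3 : Q ⊔ H20.cent Q ≤ H20.nrm Q := le_top.trans (H20.top_le_nrm Q)
  constructor
  · obtain ⟨f, hf⟩ := H20.exists_ind hQ le_top h1 h2 le_top h3 hγ
    obtain ⟨β, rfl⟩ := hf.right.exists_eG
    exact ⟨_, (H20.isInducedBlock_iff hO γ β).2 hf⟩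
  · intro B hB hcov
    obtain ⟨β, rfl⟩ := hO.exists_blk hB
    have hβ := H20.isBlk_eG β
    rw [H20.cover_iff] at hcov
    have h4 := hβ.br_eq_self_of_normal hQ le_top (H20.top_le_nrm Q)
    have h5 := hβ.supp_cent_of_normal hQ le_top (H20.top_le_nrm Q)
    rw [H20.isInducedBlock_iff hO, H20.ind_iff_br hQ le_top h1 h2 le_top h3 hγ hβ, h4]
    exact hγ.mul_eq_self' ⟨H20.supp_mono h2 h5, H20.fixed_anti le_top hβ.fixed⟩ hβ.idem hcov

end Cfsg.Agent.S0971
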