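import Cfsg.Statements.S0973
import Cfsg.Agent.H19.Main1
import Cfsg.Agent.H20.Dict

set_option autoImplicit false
open Cfsg

namespace Cfsg.Agent.S0973
open H17 H19

/-- Let B be a block of the finite group G with defect group P (relative to a maximal ideal M of the algebraic integers containing p), and let L = P ⊔ C_G(P). Then (i) some block b of L with defect group P (viewed in L) induces B, and (ii) if b and b' are blocks of L both inducing B, there is n ∈ N_G(P) carrying b to b': for every θ ∈ b there is θ' ∈ b' with θ' x = θ (n x n⁻¹) for all x ∈ L. -/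
theorem result {G : Type*} [Group G] [Finite G] (p : ℕ) [Fact p.Prime] (M : Ideal Cfsg.AlgInt) (hM : Cfsg.IsPModular p M) (B : Set (Cfsg.IrrCharacter G)) (hB : Cfsg.IsPBlock M B) (P : Subgroup G) (hP : Cfsg.IsDefectGroup p M B P) : (∃ b : Set (Cfsg.IrrCharacter ↥(P ⊔ Subgroup.centralizer (P : Set G))), Cfsg.IsDefectGroup p M b (P.subgroupOf (P ⊔ Subgroup.centralizer (P : Set G))) ∧ Cfsg.IsInducedBlock M (P ⊔ Subgroup.centralizer (P : Set G)) b B) ∧ ∀ b b' : Set (Cfsg.IrrCharacter ↥(P ⊔ Subgroup.centralizer (P : Set G))), Cfsg.IsInducedBlock M (P ⊔ Subgroup.centralizer (P : Set G)) b B → Cfsg.IsInducedBlock M (P ⊔ Subgroup.centralizer (P : Set G)) b' B → ∃ n ∈ Subgroup.normalizer (P : Set G), ∀ θ ∈ b, ∃ θ' ∈ b', ∀ x : ↥(P ⊔ Subgroup.centralizer (P : Set G)), ∀ hx : n * (x : G) * n⁻¹ ∈ P ⊔ Subgroup.centralizer (P : Set G), (θ' : ↥(P ⊔ Subgroup.centralizer (P : Set G)) → ℂ) x = (θ : ↥(P ⊔ Subgroup.centralizer (P : Set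 G)) → ℂ) ⟨n * (x : G) * n⁻¹, hx⟩ := by
  obtain ⟨O, hO, _⟩ := exists_over hM
  obtain ⟨β, rfl⟩ := hO.exists_blk hB
  rw [hO.isDefectGroup_iff hM] at hP
  have hHN : P ⊔ H20.cent P ≤ H20.nrm P := sup_le (H20.le_nrm_self P) (H20.cent_le_nrm P)
  constructor
  · obtain ⟨b, h1, h2⟩ := hP.exists_induces le_sup_left le_sup_right hHN
    exact ⟨irr b, (hO.isDefectGroup_iff hM _ _).2 h2, (hO.isInducedBlock_iff _ _ _).2 h1⟩
  · intro b b' hb hb'
    obtain ⟨b, rfl⟩ := hO.exists_blk hb.1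
    obtain ⟨b', rfl⟩ := hO.exists_blk hb'.1
    rw [hO.isInducedBlock_iff] at hb hb'
    obtain ⟨n, hn, e⟩ := hP.exists_conj_of_induces rfl hb hb'
    have hK : H20.sc n (P ⊔ H20.cent P) = P ⊔ H20.cent P := by
      rw [H20.sc_sup, ← H20.cent_sc, H20.sc_eq_of_nrm hn]
    refine ⟨n⁻¹, inv_mem hn, fun θ hθ => ⟨H20.cjIrr n hK θ, ?_, fun x hx => ?_⟩⟩
    · rw [mem_irr, ← H20.eA_inj, H20.eA_lam_cjIrr, mem_irr.1 hθ]
      exact e
    · exact H20.cjIrr_spec n hK θ _ _ (by simp [mul_assoc])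

end Cfsg.Agent.S0973
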