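import Cfsg.Statements.S0987
import Cfsg.Agent.H2.Sm1
import Mathlib.GroupTheory.Transfer

set_option autoImplicit false
open Cfsg

namespace Cfsg.Agent.S0987

/-- If a finite group has order pqr for primes p < q < r, then its Sylow r-subgroups are normal. -/
theorem result {G : Type*} [Group G] [Finite G] (p q r : ℕ) (hp : p.Prime) (hq : q.Prime) [Fact r.Prime] (hpq : p < q) (hqr : q < r) (hG : Nat.card G = p * q * r) (R : Sylow r G) : (R : Subgroup G).Normal := by
  have hr : r.Prime := Fact.out
  haveI := Fact.mk hp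
  obtain ⟨P⟩ := (inferInstance : Nonempty (Sylow p G))
  have hmin : (Nat.card G).minFac = p := by
    rw [hG]
    apply le_antisymm (Nat.minFac_le_of_dvd hp.two_le ⟨q * r, by ring⟩)
    have hne : p * q * r ≠ 1 := by
      have := hp.two_le; have := hq.two_le; have := hr.two_le
      nlinarith [Nat.mul_le_mul (Nat.mul_le_mul hp.two_le hq.two_le) hr.two_le]
    have h1 := Nat.minFac_prime hne
    rcases (h1.dvd_mul).mp (Nat.minFac_dvd (p * q * r)) with h | h
    · rcases (h1.dvd_mul).mp h with h | h
      · exact ((Nat.prime_dvd_prime_iff_eq h1 hp).mp h).ge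
      · rw [(Nat.prime_dvd_prime_iff_eq h1 hq).mp h]; omega
    · rw [(Nat.prime_dvd_prime_iff_eq h1 hr).mp h]; omega
  have hPc : Nat.card (P : Subgroup G) = p := by
    rw [P.card_eq_multiplicity, hG, mul_assoc, Nat.factorization_mul hp.ne_zero
      (Nat.mul_ne_zero hq.ne_zero hr.ne_zero), Nat.factorization_mul hq.ne_zero hr.ne_zero,
      hp.factorization, hq.factorization, hr.factorization]
    simp [hpq.ne', (hpq.trans hqr).ne']
  haveI : IsCyclic (P : Subgroup G) := isCyclic_of_prime_card hPc
  have hc := IsCyclic.isComplement' (G := G) (p := p) hmin (P := P) inferInstance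
  set K := (MonoidHom.transferSylow P (IsCyclic.normalizer_le_centralizer hmin inferInstance)).ker
  have hK : Nat.card K = q * r := by
    have := hc.card_mul
    rw [hPc, hG] at this
    apply Nat.eq_of_mul_eq_mul_right hp.pos
    rw [this]; ring
  have hKi : K.index = p := by
    have := K.index_mul_card
    rw [hK, hG, mul_assoc] at this
    exact Nat.eq_of_mul_eq_mul_right (Nat.mul_pos hq.pos hr.pos) this
  have hRK : (R : Subgroup G) ≤ K := by
    apply H2.sm_le_of_not_dvd_index R.isPGroup'
    rw [hKi]
    intro h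
    have := (Nat.prime_dvd_prime_iff_eq hr hp).mp h
    omega
  let R' := R.subtype hRK
  have hRi : (R' : Subgroup K).index ∣ q := by
    have h1 : r ∣ Nat.card (R' : Subgroup K) := R'.dvd_card_of_dvd_card (hK ▸ Dvd.intro_left _ rfl)
    obtain ⟨c, hc⟩ := h1
    have h2 := (R' : Subgroup K).index_mul_card
    rw [hK, hc] at h2
    refine ⟨c, Nat.eq_of_mul_eq_mul_right hr.pos ?_⟩
    rw [← h2]; ring
  have h1 : Nat.card (Sylow r K) = 1 := by
    have h2 := (R'.card_dvd_index).trans hRi
    have h3 := card_sylow_modEq_one r K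
    rcases (Nat.dvd_prime hq).mp h2 with h | h
    · exact h
    · rw [h] at h3
      unfold Nat.ModEq at h3
      rw [Nat.mod_eq_of_lt hqr, Nat.mod_eq_of_lt hr.one_lt] at h3
      exact absurd h3 hq.one_lt.ne'
  haveI : Subsingleton (Sylow r K) := (Nat.card_eq_one_iff_unique.mp h1).1
  haveI := R'.characteristic_of_subsingleton
  have := ConjAct.normal_of_characteristic_of_normal (H := K) (K := (R' : Subgroup K))
  rwa [Sylow.coe_subtype, Subgroup.subgroupOf_map_subtype, inf_eq_left.mpr hRK] at this

end Cfsg.Agent.S0987
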