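import Cfsg.Statements.S0988
import Cfsg.Agent.H2.Sm7

set_option autoImplicit false
open Cfsg

namespace Cfsg.Agent.S0988

/-- If a finite simple group has order p^2 * q * r with p, q and r prime, then its order is 60. -/
theorem result {G : Type*} [Group G] [Finite G] [IsSimpleGroup G] (p q r : ℕ) (hp : p.Prime) (hq : q.Prime) (hr : r.Prime) (hG : Nat.card G = p ^ 2 * q * r) : Nat.card G = 60 := by
  have hc := H2.sm_noncomm_of_card (G := G) (by
    rw [hG, sq, mul_assoc, mul_assoc]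
    exact Nat.not_prime_mul hp.ne_one fun e => hp.ne_one (Nat.eq_one_of_mul_eq_one_right e))
  have h1 : ∀ a b : ℕ, a.Prime → b.Prime → (p = a ∨ p = b) → (q = a ∨ q = b) → (r = a ∨ r = b) →
      False := fun a b ha hb h1 h2 h3 => H2.sm_not_two_primes hc ha hb fun s hs h => by
    rw [hG, hs.dvd_mul, hs.dvd_mul] at h
    rcases h with (h | h) | h
    exacts [(Nat.prime_dvd_prime_iff_eq hs hp).1 (hs.dvd_of_dvd_pow h) ▸ h1,
      (Nat.prime_dvd_prime_iff_eq hs hq).1 h ▸ h2, (Nat.prime_dvd_prime_iff_eq hs hr).1 h ▸ h3]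
  have hpq : p ≠ q := fun e => h1 p r hp hr (.inl rfl) (.inl e.symm) (.inr rfl)
  have hpr : p ≠ r := fun e => h1 p q hp hq (.inl rfl) (.inr rfl) (.inl e.symm)
  have hqr : q ≠ r := fun e => h1 p q hp hq (.inl rfl) (.inr rfl) (.inr e.symm)
  have h2 : ∀ a : ℕ, a.Prime → 2 ∣ a → a = 2 := fun a ha h =>
    ((Nat.prime_dvd_prime_iff_eq Nat.prime_two ha).1 h).symm
  obtain rfl : p = 2 := by_contra fun h => by
    have h3 := H2.sm_four_dvd hc
    rw [hG, mul_assoc] at h3
    replace h3 := (Nat.Coprime.pow 2 2 ((Nat.coprime_primes Nat.prime_two hp).2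
      (Ne.symm h))).dvd_of_dvd_mul_left h3
    by_cases h4 : q = 2
    · subst h4
      exact hqr (h2 r hr (by omega)).symm
    · have h5 := (Nat.Coprime.pow_left 2 ((Nat.coprime_primes Nat.prime_two hq).2
        (Ne.symm h4))).dvd_of_dvd_mul_left h3
      have := h2 r hr (by omega)
      omega
  have h3 : ∀ q r s : ℕ, q.Prime → r.Prime → Odd s → 3 < s → s * (s ^ 2 - 1) = 8 * (q * r) → q ∣ s →
      q * r = 15 := by
    rintro q r _ hq hr h3 h4 h5 ⟨s, rfl⟩
    rw [mul_assoc, mul_left_comm 8] at h5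
    replace h5 := Nat.eq_of_mul_eq_mul_left hq.pos h5
    have h6 : s ∣ r := (Nat.Coprime.pow_right 3 (Nat.coprime_two_right.2
      (Nat.Odd.of_mul_right h3))).dvd_of_dvd_mul_left (Dvd.intro _ h5)
    rcases (Nat.dvd_prime hr).1 h6 with rfl | rfl
    · rw [mul_one] at h3 h4 h5
      have h7 : ¬ 3 ∣ q := fun e => by
        have := (Nat.prime_dvd_prime_iff_eq Nat.prime_three hq).1 e
        omega
      have h8 : q ^ 2 % 3 = 1 := by
        rw [Nat.pow_mod]
        obtain h | h : q % 3 = 1 ∨ q % 3 = 2 := by omega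
        all_goals rw [h]
      obtain rfl := (Nat.prime_dvd_prime_iff_eq Nat.prime_three hr).1 (by omega)
      obtain rfl : q = 5 := Nat.pow_left_injective two_ne_zero (show q ^ 2 = 5 ^ 2 by omega)
      rfl
    · have := Nat.eq_of_mul_eq_mul_left hr.pos (h5.trans (mul_comm _ _))
      have : 4 ^ 2 ≤ _ := Nat.pow_le_pow_left h4 2
      omega
  rw [mul_assoc] at hG
  rcases H2.sm_known_card (H2.sm_known_four hc hG fun h => ((Nat.prime_two.dvd_mul).1 h).elim
    (fun h => hpq (h2 q hq h).symm) fun h => hpr (h2 r hr h).symm) with h4 | ⟨s, -, h4, h5, h6⟩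
  · have h5 : q * r = 2 * 315 := by omega
    exact (((Nat.prime_two.dvd_mul).1 (Dvd.intro _ h5.symm)).elim
      (fun h => hpq (h2 q hq h).symm) fun h => hpr (h2 r hr h).symm).elim
  have h7 : s ∣ q * r := (Nat.Coprime.pow_right 3 (Nat.coprime_two_right.2 h4)).dvd_of_dvd_mul_left
    (Dvd.intro (s ^ 2 - 1) (by omega))
  by_cases h8 : q ∣ s
  · have := h3 q r s hq hr h4 h5 (by omega) h8
    omega
  · obtain rfl | rfl := (Nat.dvd_prime hr).1
      (((Nat.Prime.coprime_iff_not_dvd hq).2 h8).symm.dvd_of_dvd_mul_left h7)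
    · omega
    have := h3 s q s hr hq h4 h5 (by rw [mul_comm s q]; omega) dvd_rfl
    rw [mul_comm] at this
    omega

end Cfsg.Agent.S0988
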