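import Cfsg.Statements.S0992
import Cfsg.Agent.H6.Fus3
import Cfsg.Agent.H6.Q8
import Cfsg.Agent.H6.SylN

set_option autoImplicit false
open Cfsg

namespace Cfsg.Agent.S0992

/-- Let G be a non-abelian finite simple group of even order not divisible by 8, and T a Sylow 2-subgroup. Then T is a Klein four-group and the centralizer of T has index 3 in the normalizer of T. -/
theorem result {G : Type*} [Group G] [Finite G] [IsSimpleGroup G] (hG : ¬ IsMulCommutative G) (h2 : Even (Nat.card G)) (h8 : ¬ 8 ∣ Nat.card G) (T : Sylow 2 G) : IsKleinFour ↥(T : Subgroup G) ∧ (Subgroup.centralizer ((T : Subgroup G) : Set G)).relIndex (Subgroup.normalizer ((T : Subgroup G) : Set G)) = 3 := by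
  open Subgroup in
  haveI : Fact (Nat.Prime 2) := ⟨Nat.prime_two⟩
  obtain ⟨E, hE, -, hn⟩ := H6.simple_exists_not_noOdd hG T
  obtain ⟨q, a, b, hq, hq2, -, ha, hb, h⟩ := H6.exists_modEq_of_not_noOdd (T.2.to_le hE) hn
  obtain ⟨c, hc⟩ := IsPGroup.iff_card.1 T.2
  have hc2 : c ≤ 2 := by
    by_contra h3
    exact h8 ((pow_dvd_pow 2 (show 3 ≤ c by omega)).trans (hc ▸ (T : Subgroup G).card_subgroup_dvd_card))
  have hac : a ≤ c := by
    have := card_le_of_le hE
    rw [ha, hc] at this
    exact (Nat.pow_le_pow_iff_right (by norm_num)).1 this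
  have ha2 : a = 2 := by
    by_contra h3
    obtain rfl : a = 1 := by omega
    obtain rfl : b = 0 := by omega
    have := (Nat.modEq_iff_dvd' (by norm_num)).1 h.symm
    exact hq.one_lt.ne' (by simpa using this)
  subst ha2
  obtain rfl : c = 2 := by omega
  obtain rfl : E = T := eq_of_le_of_card_ge hE (by rw [ha, hc])
  have hK : IsKleinFour (T : Subgroup G) := by
    refine H6.isKleinFour_of_card hc fun x hx => ?_
    by_contra hxx
    refine H6.simple_sylow_two_not_cyclic hG T ?_
    have h1 : orderOf (⟨x, hx⟩ : (T : Subgroup G)) ∣ 2 ^ 2 := hc ▸ orderOf_dvd_natCard _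
    obtain ⟨i, hi, h2⟩ := (Nat.dvd_prime_pow Nat.prime_two).1 h1
    refine isCyclic_of_orderOf_eq_card (⟨x, hx⟩ : (T : Subgroup G)) ?_
    rw [h2, hc]
    rw [← orderOf_coe] at h2
    have h3 : x ^ 2 ^ i = 1 := by rw [← h2]; exact pow_orderOf_eq_one _
    interval_cases i
    · exact (hxx (by rw [show x = 1 by simpa using h3, mul_one])).elim
    · exact (hxx (by rw [← pow_two]; simpa using h3)).elim
    · rfl
  refine ⟨hK, ?_⟩
  have h6 := H6.four_relIndex_dvd hK (le_refl (normalizer ((T : Subgroup G) : Set G)))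
  have hodd : ¬ 2 ∣ (centralizer ((T : Subgroup G) : Set G)).relIndex (normalizer ((T : Subgroup G) : Set G)) := by
    intro h2
    have h1 : (T : Subgroup G) ≤ centralizer ((T : Subgroup G) : Set G) := fun x hx =>
      H6.mem_centralizer_iff_commute.2 fun y hy => H6.kleinFour_commute hK hx hy
    exact T.not_dvd_index ((h2.trans (relIndex_dvd_of_le_left _ h1)).trans
      (relIndex_dvd_index_of_le le_normalizer))
  have h1 : (centralizer ((T : Subgroup G) : Set G)).relIndex (normalizer ((T : Subgroup G) : Set G)) ≠ 1 :=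
    fun h1 => hn fun g hg _ => relIndex_eq_one.1 h1 hg
  have := Nat.le_of_dvd (by norm_num) h6
  generalize (centralizer ((T : Subgroup G) : Set G)).relIndex (normalizer ((T : Subgroup G) : Set G)) = m at *
  interval_cases m <;> simp_all

end Cfsg.Agent.S0992
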