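import Cfsg.Statements.S0995
import Cfsg.Agent.H2.Sm2

set_option autoImplicit false
open Cfsg

namespace Cfsg.Agent.S0995

/-- Let G be a finite perfect group containing an element z of prime order p whose centralizer is the cyclic group it generates. Let t be the number of conjugacy classes of elements of order p. Then t divides p - 1, the number of Sylow p-subgroups has the form 1 + n * p, and |G| * t = (p - 1) * p * (1 + n * p). -/
theorem result {G : Type*} [Group G] [Finite G] (hperf : commutator G = ⊤) (p : ℕ) [Fact p.Prime] (z : G) (hz : orderOf z = p) (hC : Subgroup.centralizer ({z} : Set G) = Subgroup.zpowers z) : ∃ n t : ℕ, t = Nat.card {c : ConjClasses G // ∃ g : G, ConjClasses.mk g = c ∧ orderOf g = p} ∧ t ∣ p - 1 ∧ Nat.card (Sylow p G) = 1 + n * p ∧ Nat.card G * t = (p - 1) * p * (1 + n * p) := by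
  have hp : p.Prime := Fact.out
  obtain ⟨P, hP⟩ := H2.sm_sylow_of_selfcent hz hC
  have hc : Nat.card (P : Subgroup G) = p := by rw [hP, Nat.card_zpowers, hz]
  have h1 := H2.sm_classes_mul P hc
  have h2 := H2.sm_card_eq P
  have h3 : Nat.card (Subgroup.centralizer ((P : Subgroup G) : Set G)) = p := by
    rw [hP, H2.sm_cent_zpowers, hC, Nat.card_zpowers, hz]
  have h4 := card_sylow_modEq_one p G
  have h5 : 0 < Nat.card (Sylow p G) := Nat.card_pos
  obtain ⟨n, hn⟩ := (Nat.modEq_iff_dvd' h5).mp h4.symm
  have h6 : Nat.card (Sylow p G) = 1 + n * p := by rw [mul_comm, ← hn]; omega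
  refine ⟨n, _, rfl, Dvd.intro _ h1, h6, ?_⟩
  rw [h2, h3, ← h1, ← h6]; ring

end Cfsg.Agent.S0995
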