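import Cfsg.Statements.S0996
import Cfsg.Agent.H2.Br4

set_option autoImplicit false
open Cfsg

namespace Cfsg.Agent.S0996

/-- Let G be a finite perfect group containing an element z of prime order p whose centralizer is the cyclic group it generates, and suppose the number 1 + n * p of Sylow p-subgroups satisfies n < (p + 3) / 2. Then p > 3 and G is isomorphic to the projective special linear group of dimension 2 over the field with p elements, or p - 1 is a power of 2 and G is isomorphic to that group over the field with p - 1 elements. -/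
theorem result {G : Type*} [Group G] [Finite G] (hperf : commutator G = ⊤) (p : ℕ) [Fact p.Prime] (z : G) (hz : orderOf z = p) (hC : Subgroup.centralizer ({z} : Set G) = Subgroup.zpowers z) (hn : 2 * Nat.card (Sylow p G) < (p + 1) * (p + 2)) : (∃ (F : Type) (_ : Field F) (_ : Fintype F), Fintype.card F = p ∧ 3 < p ∧ Nonempty (G ≃* Matrix.ProjectiveSpecialLinearGroup (Fin 2) F)) ∨ (∃ (m : ℕ) (F : Type) (_ : Field F) (_ : Fintype F), Fintype.card F = 2 ^ m ∧ p = 2 ^ m + 1 ∧ 3 < p ∧ Nonempty (G ≃* Matrix.ProjectiveSpecialLinearGroup (Fin 2) F)) := by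
  obtain ⟨P, hPz⟩ := H2.sm_sylow_of_selfcent hz hC
  have hP : Nat.card (P : Subgroup G) = p := by rw [hPz, Nat.card_zpowers, hz]
  obtain ⟨n, hn'⟩ := H2.exists_card_sylow p G
  have hr : ¬ H2.BrRep p n := fun h => by
    have := Nat.mul_le_mul_right p (H2.br_rep_le h)
    rw [hn'] at hn
    nlinarith
  have hO : ∀ N : Subgroup G, N.Normal → ¬ p ∣ Nat.card N → N = ⊥ := fun N hN h => by
    have h1 := (H2.br_quot hperf P hP hn' hr N h).1
    rw [H20.cent, hPz, H2.sm_cent_zpowers, hC, ← hPz] at h1
    have h2 := Subgroup.card_dvd_of_le h1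
    rw [hP] at h2
    exact Subgroup.card_eq_one.1
      (((Nat.dvd_prime Fact.out).1 h2).resolve_right fun h3 => h (h3 ▸ dvd_rfl))
  obtain ⟨h3, ⟨-, F, _, _, h1, h2⟩ | ⟨-, m, F, _, _, h1, h2, h4⟩⟩ := H2.br_main hperf hO P hP hn' hr
  · exact Or.inl ⟨F, _, _, h1, h3, h2⟩
  · refine Or.inr ⟨m, F, _, _, h1, h2, h3, H2.z_psl_of_sl ?_ h4⟩
    rw [h1]
    exact even_two.pow_of_ne_zero (by rintro rfl; omega)

end Cfsg.Agent.S0996
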