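import Cfsg.Statements.S0997
import Cfsg.Agent.H2.Br5

set_option autoImplicit false
open Cfsg

namespace Cfsg.Agent.S0997

/-- Let G be a non-cyclic finite simple group of order p * q^b * g₀, where p and q are distinct primes and g₀ < p - 1. Then either p has the form 2^m + 1 or 2^m - 1 and G is isomorphic to the projective special linear group of dimension 2 over the field with p elements, or p = 2^m + 1 > 3 and G is isomorphic to that group over the field with 2^m elements. -/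
theorem result {G : Type*} [Group G] [Finite G] [IsSimpleGroup G] (hG : ¬ IsCyclic G) (p q b g₀ : ℕ) (hp : p.Prime) (hq : q.Prime) (hpq : p ≠ q) (hG' : Nat.card G = p * q ^ b * g₀) (hg : g₀ < p - 1) : (∃ (m : ℕ) (F : Type) (_ : Field F) (_ : Fintype F), Fintype.card F = p ∧ (p = 2 ^ m + 1 ∨ p = 2 ^ m - 1) ∧ Nonempty (G ≃* Matrix.ProjectiveSpecialLinearGroup (Fin 2) F)) ∨ (∃ (m : ℕ) (F : Type) (_ : Field F) (_ : Fintype F), Fintype.card F = 2 ^ m ∧ p = 2 ^ m + 1 ∧ 3 < p ∧ Nonempty (G ≃* Matrix.ProjectiveSpecialLinearGroup (Fin 2) F)) := by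
  haveI := Fact.mk hp
  obtain ⟨⟨h3, ⟨-, F, _, _, h1, h2⟩ | ⟨-, m, F, _, _, h1, h2, h4⟩⟩, k, hk⟩ :=
    H2.bt_main (H2.sm_noncomm_of_not_cyclic hG) hq hpq hG' hg
  · exact Or.inl ⟨k, F, _, _, h1, by omega, h2⟩
  · refine Or.inr ⟨m, F, _, _, h1, h2, h3, H2.z_psl_of_sl ?_ h4⟩
    rw [h1]
    exact even_two.pow_of_ne_zero (by rintro rfl; omega)

end Cfsg.Agent.S0997
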