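import Cfsg.Statements.S0999
import Cfsg.Agent.H2.Br4

set_option autoImplicit false
open Cfsg

namespace Cfsg.Agent.S0999

/-- Let G be a non-cyclic finite simple group and p a prime divisor of its order with p^3 > |G|. Then p > 3 and G is isomorphic to the projective special linear group of dimension 2 over the field with p elements, or p - 1 is a power of 2 and G is isomorphic to that group over the field with p - 1 elements. -/
theorem result {G : Type*} [Group G] [Finite G] [IsSimpleGroup G] (hG : ¬ IsCyclic G) (p : ℕ) (hp : p.Prime) (hdvd : p ∣ Nat.card G) (hbig : Nat.card G < p ^ 3) : (∃ (F : Type) (_ : Field F) (_ : Fintype F), Fintype.card F = p ∧ 3 < p ∧ Nonempty (G ≃* Matrix.ProjectiveSpecialLinearGroup (Fin 2) F)) ∨ (∃ (m : ℕ) (F : Type) (_ : Field F) (_ : Fintype F), Fintype.card F = 2 ^ m ∧ p = 2 ^ m + 1 ∧ 3 < p ∧ Nonempty (G ≃* Matrix.ProjectiveSpecialLinearGroup (Fin 2) F)) := by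
  haveI := Fact.mk hp
  obtain ⟨h3, ⟨-, F, _, _, h1, h2⟩ | ⟨-, m, F, _, _, h1, h2, h4⟩⟩ :=
    H2.br_simple_cube (H2.sm_noncomm_of_not_cyclic hG) hdvd hbig
  · exact Or.inl ⟨F, _, _, h1, h3, h2⟩
  · refine Or.inr ⟨m, F, _, _, h1, h2, h3, H2.z_psl_of_sl ?_ h4⟩
    rw [h1]
    exact even_two.pow_of_ne_zero (by rintro rfl; omega)

end Cfsg.Agent.S0999
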