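import Cfsg.Statements.S1003
import Cfsg.Agent.H3.L7b

set_option autoImplicit false
open Cfsg

namespace Cfsg.Agent.S1003

/-- A simple group of order 168 has exactly 21 Sylow 2-subgroups, 28 Sylow 3-subgroups and 8 Sylow 7-subgroups. -/
theorem result {G : Type*} [Group G] [Finite G] [IsSimpleGroup G] (h : Nat.card G = 168) : Nat.card (Sylow 2 G) = 21 ∧ Nat.card (Sylow 3 G) = 28 ∧ Nat.card (Sylow 7 G) = 8 := by
  classical
  obtain ⟨e⟩ := H3.L7.exists_equiv h
  obtain ⟨c8, -, -, -, -, -, c6⟩ := H3.L7.cards
  have : Fact (Nat.Prime 7) := ⟨by norm_num⟩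
  refine ⟨?_, ?_, ?_⟩
  · obtain ⟨S⟩ : Nonempty (Sylow 2 G) := inferInstance
    obtain ⟨g, hg⟩ := H3.L7.exists_sylow e S
    have hn : Subgroup.normalizer ((S : Subgroup G) : Set G) =
        H3.L7.im (e.trans (MulAut.conj g)) H3.L7.D := by
      rw [hg]; exact H3.L7.norm_im _ fun g => ⟨H3.L7.f_nD g, fun hg d hd =>
        mul_mem (mul_mem hg hd) (inv_mem hg)⟩
    have h1 := (Subgroup.normalizer ((S : Subgroup G) : Set G)).index_mul_card
    have h2 : Nat.card (Sylow 2 G) = (Subgroup.normalizer ((S : Subgroup G) : Set G)).index :=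
      S.card_eq_index_normalizer
    rw [← h2, hn, H3.L7.card_im, c8, h] at h1
    omega
  · have ho : orderOf (e H3.L7.x3) = 3 := by rw [H3.L7.ord_e]; decide +kernel
    have hc : Nat.card (Subgroup.zpowers (e H3.L7.x3)) = 3 ^ (Nat.card G).factorization 3 := by
      rw [Nat.card_zpowers, ho, h]; decide +kernel
    have hn : Subgroup.normalizer (Subgroup.zpowers (e H3.L7.x3) : Set G) =
        H3.L7.im e H3.L7.N3 := by
      ext g
      obtain ⟨g, rfl⟩ := e.surjective g
      rw [H3.L7.mem_im, ← H3.L7.f_n3]
      constructor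
      · intro hg
        have h1 := (Subgroup.mem_normalizer_iff.1 hg _).1 (Subgroup.mem_zpowers _)
        rw [mem_zpowers_iff_mem_range_orderOf, ho, Finset.mem_image] at h1
        obtain ⟨i, hi, h1⟩ := h1
        rw [← map_inv, ← map_mul, ← map_mul, ← map_pow, e.injective.eq_iff] at h1
        rw [Finset.mem_range] at hi
        interval_cases i
        · rw [pow_zero, eq_comm, mul_inv_eq_one, mul_eq_left] at h1
          exact absurd h1 (by decide +kernel)
        · exact .inl (by rw [← h1, pow_one])
        · exact .inr h1.symm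
      · intro hg
        refine Subgroup.mem_normalizer_fintype fun n hn => ?_
        obtain ⟨k, rfl⟩ := hn
        change e g * e H3.L7.x3 ^ k * (e g)⁻¹ ∈ Subgroup.zpowers (e H3.L7.x3)
        rw [← conj_zpow, ← map_inv, ← map_mul, ← map_mul]
        refine zpow_mem ?_ k
        rcases hg with h1 | h1 <;> rw [h1]
        · exact Subgroup.mem_zpowers _
        · rw [map_pow]; exact pow_mem (Subgroup.mem_zpowers _) 2
    have h1 := (Subgroup.normalizer (Subgroup.zpowers (e H3.L7.x3) : Set G)).index_mul_card
    have h2 : Nat.card (Sylow 3 G) =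
        (Subgroup.normalizer (Subgroup.zpowers (e H3.L7.x3) : Set G)).index :=
      (Sylow.ofCard _ hc).card_eq_index_normalizer
    rw [← h2, hn, H3.L7.card_im, c6, h] at h1
    omega
  · obtain ⟨S⟩ : Nonempty (Sylow 7 G) := inferInstance
    have hS : Nat.card (S : Subgroup G) = 7 := by
      rw [Sylow.card_eq_multiplicity, h]; decide +kernel
    have h1 := (S : Subgroup G).index_mul_card
    rw [hS, h] at h1
    have h2 := S.card_dvd_index
    rw [show (S : Subgroup G).index = 24 by omega] at h2
    have h3 := card_sylow_modEq_one 7 G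
    have h4 : Nat.card (Sylow 7 G) ≠ 1 := fun h4 => by
      have : Subsingleton (Sylow 7 G) := (Nat.card_eq_one_iff_unique.1 h4).1
      rcases (Sylow.normal_of_subsingleton S).eq_bot_or_eq_top with e' | e' <;> rw [e'] at hS
      · simp at hS
      · rw [Subgroup.card_top, h] at hS; omega
    have h5 := Nat.le_of_dvd (by norm_num) h2
    unfold Nat.ModEq at h3
    generalize Nat.card (Sylow 7 G) = n at *
    interval_cases n <;> omega

end Cfsg.Agent.S1003
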