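import Cfsg.Statements.S1004
import Cfsg.Agent.H3.L7b

set_option autoImplicit false
open Cfsg

namespace Cfsg.Agent.S1004

/-- Let G be a simple group of order 168 and T a Sylow 2-subgroup. Then T is dihedral of order 8, T is its own normalizer, and T is the centralizer of any non-identity element of T that commutes with every element of T. -/
theorem result {G : Type*} [Group G] [Finite G] [IsSimpleGroup G] (h : Nat.card G = 168) (T : Sylow 2 G) : Nonempty (↥(T : Subgroup G) ≃* DihedralGroup 4) ∧ Subgroup.normalizer ((T : Subgroup G) : Set G) = T ∧ ∀ z : G, z ∈ (T : Subgroup G) → z ≠ 1 → (∀ t ∈ (T : Subgroup G), t * z = z * t) → Subgroup.centralizer ({z} : Set G) = T := by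
  obtain ⟨e0⟩ := H3.L7.exists_equiv h
  obtain ⟨g, hg⟩ := H3.L7.exists_sylow e0 T
  generalize e0.trans (MulAut.conj g) = e at hg
  rw [hg]
  refine ⟨H3.L7.iso_im e H3.L7.iso_D, H3.L7.norm_im e fun g => ⟨H3.L7.f_nD g, fun hg d hd =>
    mul_mem (mul_mem hg hd) (inv_mem hg)⟩, fun z hz h1 hc => ?_⟩
  obtain ⟨z, rfl⟩ := e.surjective z
  ext x
  obtain ⟨x, rfl⟩ := e.surjective x
  rw [Subgroup.mem_centralizer_singleton_iff, H3.L7.mem_im, ← map_mul, ← map_mul,
    e.injective.eq_iff, eq_comm]
  exact H3.L7.f_cD z ((H3.L7.mem_im e).1 hz) (fun h => h1 (by rw [h, map_one]))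
    (fun t ht => e.injective (by rw [map_mul, map_mul]; exact hc _ ((H3.L7.mem_im e).2 ht))) x

end Cfsg.Agent.S1004
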