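import Cfsg.Statements.S1005
import Cfsg.Agent.H3.L7b

set_option autoImplicit false
open Cfsg

namespace Cfsg.Agent.S1005

/-- In a simple group of order 168 every element has order 1, 2, 3, 4 or 7; there are exactly 21 elements of order 2, and any two of them are conjugate. -/
theorem result {G : Type*} [Group G] [Finite G] [IsSimpleGroup G] (h : Nat.card G = 168) : (∀ g : G, orderOf g = 1 ∨ orderOf g = 2 ∨ orderOf g = 3 ∨ orderOf g = 4 ∨ orderOf g = 7) ∧ Nat.card {g : G // orderOf g = 2} = 21 ∧ ∀ s t : G, orderOf s = 2 → orderOf t = 2 → IsConj s t := by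
  obtain ⟨e⟩ := H3.L7.exists_equiv h
  refine ⟨fun g => ?_, ?_, fun s t hs ht => ?_⟩
  · obtain ⟨g, rfl⟩ := e.surjective g
    rw [H3.L7.ord_e]; exact H3.L7.f_ord g
  · rw [H3.L7.card_sub e (q := fun x => H3.L7.od x = 2) fun x => by rw [H3.L7.ord_e]]
    exact H3.L7.f_cnt.1
  · obtain ⟨s, rfl⟩ := e.surjective s
    obtain ⟨t, rfl⟩ := e.surjective t
    rw [H3.L7.ord_e] at hs ht
    obtain ⟨c, rfl⟩ := H3.L7.f_c2 s hs
    obtain ⟨d, rfl⟩ := H3.L7.f_c2 t ht
    exact isConj_iff.2 ⟨e (d * c⁻¹), by simp [mul_assoc]⟩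

end Cfsg.Agent.S1005
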