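import Cfsg.Statements.S1006
import Cfsg.Agent.H3.L7b

set_option autoImplicit false
open Cfsg

namespace Cfsg.Agent.S1006

/-- In a simple group of order 168 there are 56 elements of order 3, all conjugate; 42 elements of order 4, all conjugate; and 48 elements of order 7 falling into two conjugacy classes of size 24, an element of order 7 not being conjugate to its inverse. -/
theorem result {G : Type*} [Group G] [Finite G] [IsSimpleGroup G] (h : Nat.card G = 168) : Nat.card {g : G // orderOf g = 3} = 56 ∧ (∀ s t : G, orderOf s = 3 → orderOf t = 3 → IsConj s t) ∧ Nat.card {g : G // orderOf g = 4} = 42 ∧ (∀ s t : G, orderOf s = 4 → orderOf t = 4 → IsConj s t) ∧ Nat.card {g : G // orderOf g = 7} = 48 ∧ ∀ x : G, orderOf x = 7 → Nat.card {g : G // IsConj x g} = 24 ∧ ¬ IsConj x x⁻¹ := by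
  obtain ⟨e⟩ := H3.L7.exists_equiv h
  obtain ⟨-, c3, c4, c7, k1, k2⟩ := H3.L7.f_cnt
  have cnt : ∀ n, Nat.card {g : G // orderOf g = n} = Nat.card {g // H3.L7.od g = n} := fun n =>
    H3.L7.card_sub e fun x => by rw [H3.L7.ord_e]
  have cj : ∀ (n : ℕ) (x : H3.L7.T), (∀ g, H3.L7.od g = n → ∃ c, c * x * c⁻¹ = g) →
      ∀ s t : G, orderOf s = n → orderOf t = n → IsConj s t := fun n x hx s t hs ht => by
    obtain ⟨s, rfl⟩ := e.surjective s
    obtain ⟨t, rfl⟩ := e.surjective t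
    rw [H3.L7.ord_e] at hs ht
    obtain ⟨c, rfl⟩ := hx s hs
    obtain ⟨d, rfl⟩ := hx t ht
    exact isConj_iff.2 ⟨e (d * c⁻¹), by simp [mul_assoc]⟩
  have cl : ∀ c x : H3.L7.T, Nat.card {g : G // IsConj (e (c * x * c⁻¹)) g} =
      Nat.card {g // ∃ d, d * x * d⁻¹ = g} := fun c x => H3.L7.card_sub e fun y => by
    rw [isConj_iff]
    constructor
    · rintro ⟨d, rfl⟩; exact ⟨e (d * c⁻¹), by simp [mul_assoc]⟩
    · rintro ⟨d, hd⟩
      obtain ⟨d, rfl⟩ := e.surjective d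
      exact ⟨d * c, e.injective (by rw [← hd]; simp [mul_assoc])⟩
  refine ⟨(cnt 3).trans c3, cj 3 _ H3.L7.f_c3, (cnt 4).trans c4, cj 4 _ H3.L7.f_c4,
    (cnt 7).trans c7, fun x hx => ?_⟩
  obtain ⟨x, rfl⟩ := e.surjective x
  rw [H3.L7.ord_e] at hx
  obtain ⟨c, rfl | rfl⟩ := H3.L7.f_c7 x hx
  · refine ⟨(cl _ _).trans k1, fun hc => ?_⟩
    obtain ⟨d, hd⟩ := isConj_iff.1 hc
    obtain ⟨d, rfl⟩ := e.surjective d
    rw [← map_inv, ← map_inv, ← map_mul, ← map_mul, e.injective.eq_iff] at hd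
    refine H3.L7.f_nr (c⁻¹ * d * c) ?_
    calc _ = c⁻¹ * (d * (c * H3.L7.a * c⁻¹) * d⁻¹) * c := by group
      _ = _ := by rw [hd]; group
  · refine ⟨(cl _ _).trans k2, fun hc => ?_⟩
    obtain ⟨d, hd⟩ := isConj_iff.1 hc
    obtain ⟨d, rfl⟩ := e.surjective d
    rw [← map_inv, ← map_inv, ← map_mul, ← map_mul, e.injective.eq_iff] at hd
    refine H3.L7.f_nr (c⁻¹ * d * c) ?_
    calc _ = (c⁻¹ * (d * (c * H3.L7.a⁻¹ * c⁻¹) * d⁻¹) * c)⁻¹ := by group
      _ = _ := by rw [hd]; group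

end Cfsg.Agent.S1006
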