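import Cfsg.Statements.S1007
import Cfsg.Agent.H3.L7b

set_option autoImplicit false
open Cfsg

namespace Cfsg.Agent.S1007

/-- Let G be a simple group of order 168 and T a Sylow 2-subgroup. Then T contains exactly two subgroups that are Klein four-groups; they are not conjugate in G; and the normalizer of every Klein four-subgroup of G is isomorphic to the symmetric group of degree 4. -/
theorem result {G : Type*} [Group G] [Finite G] [IsSimpleGroup G] (h : Nat.card G = 168) (T : Sylow 2 G) : Nat.card {U : Subgroup G // U ≤ (T : Subgroup G) ∧ IsKleinFour ↥U} = 2 ∧ (∀ U W : Subgroup G, U ≤ (T : Subgroup G) → W ≤ (T : Subgroup G) → IsKleinFour ↥U → IsKleinFour ↥W → U ≠ W → ∀ g : G, U.map (MulAut.conj g).toMonoidHom ≠ W) ∧ ∀ U : Subgroup G, IsKleinFour ↥U → Nonempty (↥(Subgroup.normalizer (U : Set G)) ≃* Equiv.Perm (Fin 4)) := by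
  obtain ⟨e0⟩ := H3.L7.exists_equiv h
  obtain ⟨-, c1, c2, -⟩ := H3.L7.cards
  have nc : ∀ (e : H3.L7.T ≃* G) (g : G),
      (H3.L7.im e H3.L7.U1).map (MulAut.conj g).toMonoidHom ≠ H3.L7.im e H3.L7.U2 := by
    intro e g hg
    obtain ⟨g, rfl⟩ := e.surjective g
    obtain ⟨x, hx, hx'⟩ := H3.L7.f_UU g
    refine hx' ((H3.L7.mem_im e).1 (hg ▸ ⟨e x, (H3.L7.mem_im e).2 hx, by simp⟩))
  refine ⟨?_, fun U W hU hW kU kW hne g hg => ?_, fun U kU => ?_⟩
  · obtain ⟨g, hg⟩ := H3.L7.exists_sylow e0 T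
    generalize e0.trans (MulAut.conj g) = e at hg
    rw [hg, Nat.card_eq_two_iff]
    refine ⟨⟨_, Subgroup.map_mono fun x hx => (H3.L7.f_U.1 x hx).1,
      H3.L7.klein_im e c1 fun x hx => (H3.L7.f_U.1 x hx).2⟩,
      ⟨_, Subgroup.map_mono fun x hx => (H3.L7.f_U.2 x hx).1,
      H3.L7.klein_im e c2 fun x hx => (H3.L7.f_U.2 x hx).2⟩, fun h' => nc e 1 ?_, ?_⟩
    · rw [map_one]
      exact (Subgroup.map_id _).trans (congrArg Subtype.val h')
    · rw [Set.eq_univ_iff_forall]
      rintro ⟨U, hU, kU⟩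
      rcases H3.L7.klein_eq e hU kU with rfl | rfl
      · exact .inl rfl
      · exact .inr rfl
  · obtain ⟨g', hg'⟩ := H3.L7.exists_sylow e0 T
    generalize e0.trans (MulAut.conj g') = e at hg'
    rw [hg'] at hU hW
    rcases H3.L7.klein_eq e hU kU with rfl | rfl <;>
      rcases H3.L7.klein_eq e hW kW with h' | h'
    · exact hne h'.symm
    · exact nc e g (hg.trans h')
    · refine nc e g⁻¹ ?_
      rw [← h', ← hg, Subgroup.map_map]
      convert Subgroup.map_id _
      ext x; simp [mul_assoc]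
    · exact hne h'.symm
  · have hp : IsPGroup 2 U := IsPGroup.of_card (n := 2) kU.card_four
    obtain ⟨S, hS⟩ := hp.exists_le_sylow
    obtain ⟨g, hg⟩ := H3.L7.exists_sylow e0 S
    rw [hg] at hS
    rcases H3.L7.klein_eq _ hS kU with rfl | rfl
    · rw [H3.L7.norm_im _ fun g => (H3.L7.f_nU g).1]; exact H3.L7.iso_im _ H3.L7.iso_S1
    · rw [H3.L7.norm_im _ fun g => (H3.L7.f_nU g).2]; exact H3.L7.iso_im _ H3.L7.iso_S2

end Cfsg.Agent.S1007
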