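import Cfsg.Statements.S1008
import Cfsg.Agent.H3.L7b

set_option autoImplicit false
open Cfsg

namespace Cfsg.Agent.S1008

/-- In a simple group of order 168 every maximal subgroup is either isomorphic to the symmetric group of degree 4 or non-abelian of order 21; the maximal subgroups of order 21 form one conjugacy class and those isomorphic to the symmetric group of degree 4 form exactly two conjugacy classes. -/
theorem result {G : Type*} [Group G] [Finite G] [IsSimpleGroup G] (h : Nat.card G = 168) : (∀ M : Subgroup G, IsCoatom M → Nonempty (↥M ≃* Equiv.Perm (Fin 4)) ∨ (Nat.card ↥M = 21 ∧ ¬ IsMulCommutative ↥M)) ∧ (∀ M M' : Subgroup G, IsCoatom M → IsCoatom M' → Nat.card ↥M = 21 → Nat.card ↥M' = 21 → ∃ g : G, M' = M.map (MulAut.conj g).toMonoidHom) ∧ ∃ M₁ M₂ : Subgroup G, IsCoatom M₁ ∧ IsCoatom M₂ ∧ Nonempty (↥M₁ ≃* Equiv.Perm (Fin 4)) ∧ Nonempty (↥M₂ ≃* Equiv.Perm (Fin 4)) ∧ (∀ g : G, M₂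 ≠ M₁.map (MulAut.conj g).toMonoidHom) ∧ ∀ M : Subgroup G, IsCoatom M → Nonempty (↥M ≃* Equiv.Perm (Fin 4)) → ∃ g : G, M = M₁.map (MulAut.conj g).toMonoidHom ∨ M = M₂.map (MulAut.conj g).toMonoidHom := by
  obtain ⟨e⟩ := H3.L7.exists_equiv h
  obtain ⟨-, -, -, c1, c2, c3, -⟩ := H3.L7.cards
  refine ⟨fun M hM => ?_, fun M M' hM hM' k k' => ?_, _, _, H3.L7.coatom_im e c1,
    H3.L7.coatom_im e c2, H3.L7.iso_im _ H3.L7.iso_S1, H3.L7.iso_im _ H3.L7.iso_S2,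
    fun g hg => ?_, fun M hM ⟨f⟩ => ?_⟩
  · obtain ⟨g, rfl | rfl | rfl⟩ := H3.L7.coatom_eq e hM
    · exact .inl (H3.L7.iso_im _ H3.L7.iso_S1)
    · exact .inl (H3.L7.iso_im _ H3.L7.iso_S2)
    · refine .inr ⟨by rw [H3.L7.card_im, c3], fun hc => ?_⟩
      obtain ⟨x, hx, y, hy, hxy⟩ := H3.L7.f_F
      generalize e.trans (MulAut.conj g) = e' at hc
      refine hxy (e'.injective ?_)
      rw [map_mul, map_mul]
      exact congrArg Subtype.val (hc.is_comm.comm ⟨_, (H3.L7.mem_im e').2 hx⟩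
        ⟨_, (H3.L7.mem_im e').2 hy⟩)
  · obtain ⟨g, rfl | rfl | rfl⟩ := H3.L7.coatom_eq e hM <;> rw [H3.L7.card_im] at k <;>
      try omega
    obtain ⟨g', rfl | rfl | rfl⟩ := H3.L7.coatom_eq e hM' <;> rw [H3.L7.card_im] at k' <;>
      try omega
    refine ⟨g' * g⁻¹, ?_⟩
    rw [H3.L7.im_conj]
    congr 1
    ext x; simp [mul_assoc]
  · obtain ⟨g, rfl⟩ := e.surjective g
    obtain ⟨x, hx, hx'⟩ := H3.L7.f_SS g
    refine hx' ((H3.L7.mem_im e).1 (hg ▸ ⟨e x, (H3.L7.mem_im e).2 hx, by simp⟩))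
  · have k := (Nat.card_congr f.toEquiv).trans H3.L7.card_s4
    obtain ⟨g, rfl | rfl | rfl⟩ := H3.L7.coatom_eq e hM
    · exact ⟨g, .inl (H3.L7.im_conj _ _ _).symm⟩
    · exact ⟨g, .inr (H3.L7.im_conj _ _ _).symm⟩
    · rw [H3.L7.card_im] at k; omega

end Cfsg.Agent.S1008
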