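import Cfsg.Statements.S1010
import Cfsg.Agent.H6.SylN

set_option autoImplicit false
open Cfsg

namespace Cfsg.Agent.S1010

open Subgroup MulAction H6

instance fact5 : Fact (Nat.Prime 5) := ⟨by norm_num⟩
instance fact7 : Fact (Nat.Prime 7) := ⟨by norm_num⟩

theorem syl_card_mul {G : Type*} [Group G] [Finite G] {p : ℕ} [Fact p.Prime] (P : Sylow p G) :
    ∃ m, Nat.card G = Nat.card (P : Subgroup G) * m ∧ ¬ p ∣ m :=
  ⟨_, (P : Subgroup G).card_mul_index.symm, P.not_dvd_index⟩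

theorem arith1 {g e c m m' : ℕ} (he : e ∣ 5 - 1) (he1 : e ≠ 1) (h2c : 2 ∣ c) (h5c : 5 ∣ c)
    (hcd : c ∣ 15000) (hcard : g = 21 * e * c) (hm : g = 4 * m) (hm2 : ¬ 2 ∣ m)
    (hm' : g = 5 * m') (hm5 : ¬ 5 ∣ m') : g = 420 ∨ g = 1260 := by
  obtain ⟨c', rfl⟩ : 10 ∣ c := by omega
  have hle := Nat.le_of_dvd (by norm_num) he
  have hc' : c' ∣ 500 * 3 := Nat.dvd_of_mul_dvd_mul_left (by norm_num : 0 < 10) hcd
  have he2 : e = 2 := by
    interval_cases e <;> omega
  subst he2
  have h2 : Nat.Coprime c' 2 := (Nat.Prime.coprime_iff_not_dvd Nat.prime_two).2 (by omega) |>.symm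
  have h5 : Nat.Coprime c' 5 :=
    (Nat.Prime.coprime_iff_not_dvd Nat.prime_five).2 (by omega) |>.symm
  have h500 : Nat.Coprime c' 500 := (h2.pow_right 2).mul_right (h5.pow_right 3)
  have h3 := h500.dvd_of_dvd_mul_left hc'
  rcases (Nat.dvd_prime Nat.prime_three).1 h3 with rfl | rfl <;> omega

theorem arith2 {g n f d : ℕ} (hG' : g = 420 ∨ g = 1260) (hf : f ∣ 7 - 1) (hf1 : f ≠ 1)
    (hc7 : g = n * f * (7 * d)) (hn1 : n ≠ 1) (hn15 : n ≠ 1 + 2 * 7) (hmod : n ≡ 1 [MOD 7]) :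
    False := by
  unfold Nat.ModEq at hmod
  have hfle := Nat.le_of_dvd (by norm_num) hf
  have hnd : n ∣ 180 := by
    rcases hG' with h1 | h1
    · exact ⟨3 * (f * d), by nlinarith⟩
    · exact ⟨f * d, by nlinarith⟩
  have hnle := Nat.le_of_dvd (by norm_num) hnd
  have hn36 : n = 36 := by
    obtain ⟨j, rfl⟩ : ∃ j, n = 7 * j + 1 := ⟨n / 7, by omega⟩
    have : j ≤ 25 := by omega
    interval_cases j <;> omega
  subst hn36
  interval_cases f <;> omega

set_option maxHeartbeats 1600000 in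
theorem simple_case {G : Type*} [Group G] [Finite G] [IsSimpleGroup G] :
    Nat.card (Sylow 5 G) ≠ 21 := by
  intro h
  have hn : Nat.card (Sylow 5 G) ≠ 1 := by omega
  have hG := sn_noncomm hn
  obtain ⟨P⟩ : Nonempty (Sylow 5 G) := Sylow.nonempty
  have hP := sn_card_of_le_sq hn (by rw [h]; norm_num) P
  obtain ⟨S, hS⟩ := H7.exists_sylow_le_of_not_dvd_index (p := 2)
    (M := normalizer ((P : Subgroup G) : Set G)) (by rw [← H2.sm_card_sylow P, h]; omega)
  have hB : ({P}ᶜ : Set (Sylow 5 G)).ncard = 20 := by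
    have := Set.ncard_add_ncard_compl ({P} : Set (Sylow 5 G))
    rw [Set.ncard_singleton, h] at this
    omega
  have hNinv : ∀ x ∈ normalizer ((P : Subgroup G) : Set G), ∀ b ∈ ({P}ᶜ : Set (Sylow 5 G)),
      x • b ∈ ({P}ᶜ : Set (Sylow 5 G)) := by
    intro x hx b hb hxb
    apply hb
    have h1 : x • b = x • P := by rw [syl_smul_norm.2 hx]; exact hxb
    exact smul_left_cancel x h1
  have hPinv : ∀ x ∈ (P : Subgroup G), ∀ b ∈ ({P}ᶜ : Set (Sylow 5 G)),
      x • b ∈ ({P}ᶜ : Set (Sylow 5 G)) := fun x hx => hNinv x (le_normalizer hx)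
  have hPfree : ∀ x ∈ (P : Subgroup G), ∀ b ∈ ({P}ᶜ : Set (Sylow 5 G)), x • b = b → x = 1 := by
    intro x hx b hb hxb
    by_contra h1
    exact hb (po_syl_eq hP hx h1 hxb)
  -- (b)
  have hb : ∀ s ∈ (S : Subgroup G), s ∈ centralizer ((P : Subgroup G) : Set G) →
      ∀ Q : Sylow 5 G, Q ≠ P → s • Q = Q → s = 1 := by
    intro s hs hc Q hQ hsQ
    by_contra h1
    obtain ⟨t, ht, ht1, ht2⟩ := exists_inv_of_ne_one S.2 hs h1
    have htc : t ∈ centralizer ((P : Subgroup G) : Set G) := (zpowers_le.2 hc) ht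
    have h2 := po_cent_fixedBy hP htc
    have h3 := sn_four_dvd hn (Ω := Sylow 5 G) ht2
    have h4 := sn_fix_lt hn ht1
    rw [h] at h3 h4
    have h5 : 1 < (fixedBy (Sylow 5 G) t).ncard := by
      rw [Set.one_lt_ncard]
      have : zpowers s ≤ stabilizer G Q := zpowers_le.2 hsQ
      exact ⟨Q, this ht, P, cent_smul_syl htc, hQ⟩
    omega
  -- involutions with a second fixed point
  have hc : ∀ v ∈ (S : Subgroup G), v ≠ 1 → v ^ 2 = 1 → ∀ Q : Sylow 5 G, Q ≠ P → v • Q = Q →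
      (∀ x ∈ (P : Subgroup G), v * x * v⁻¹ = x⁻¹) ∧
      ∀ b : Sylow 5 G, b ≠ P → ∃ x ∈ (P : Subgroup G), ∃ a, v • a = a ∧ x • a = b := by
    intro v hv hv1 hv2 Q hQ hvQ
    have hvc : v ∉ centralizer ((P : Subgroup G) : Set G) := fun hc => hv1 (hb v hv hc Q hQ hvQ)
    have hvn : ∀ x ∈ (P : Subgroup G), v * x * v⁻¹ ∈ (P : Subgroup G) :=
      fun x hx => (mem_normalizer_iff.1 (hS hv) x).1 hx
    refine ⟨inverts_of_free (po_comm hP) hv2 hvn (po_free hP hvc), fun b hb' => ?_⟩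
    have h1 := po_fix_le hP (hS hv) hvc (Set.toFinite _) hPinv hPfree
    have h3 := sn_four_dvd hn (Ω := Sylow 5 G) hv2
    have h4 : fixedBy (Sylow 5 G) v = insert P ({P}ᶜ ∩ fixedBy (Sylow 5 G) v) := by
      ext R
      constructor
      · intro hR
        by_cases hRP : R = P
        · exact Or.inl hRP
        · exact Or.inr ⟨hRP, hR⟩
      · rintro (rfl | hR)
        · exact syl_smul_norm.2 (hS hv)
        · exact hR.2
    have h5 : 0 < ({P}ᶜ ∩ fixedBy (Sylow 5 G) v).ncard :=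
      (Set.ncard_pos (Set.toFinite _)).2 ⟨Q, hQ, hvQ⟩
    rw [h4, Set.ncard_insert_of_notMem (fun hh => hh.1 rfl), h] at h3
    rw [hB] at h1
    obtain ⟨x, hx, a, ha, hxa⟩ := exists_of_card_mul_ncard (y := v) hvn (po_free hP hvc)
      (A := {P}ᶜ ∩ fixedBy (Sylow 5 G) v) (B := {P}ᶜ) (Set.toFinite _) (fun a ha => ha.2)
      (fun x hx a ha => hPfree x hx a ha.1) (fun x hx a ha => hPinv x hx a ha.1)
      (by rw [hB, hP]; omega) b hb'
    exact ⟨x, hx, a, ha.2, hxa⟩
  have hfree : ∀ s ∈ (S : Subgroup G), ∀ b ∈ ({P}ᶜ : Set (Sylow 5 G)), s • b = b → s = 1 := by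
    intro s hs Q hQ hsQ
    by_contra h1
    obtain ⟨w, hw, hw1, hw2⟩ := exists_inv_of_ne_one S.2 hs h1
    have hwS : w ∈ (S : Subgroup G) := (zpowers_le.2 hs) hw
    have hwQ : w • Q = Q := (zpowers_le.2 hsQ : zpowers s ≤ stabilizer G Q) hw
    refine simple_not_wc hG S hw1 ⟨hwS, fun g hg => ?_⟩
    set v := g * w * g⁻¹ with hv
    have hv1 : v ≠ 1 := by
      intro h0; apply hw1
      have : w = g⁻¹ * v * g := by rw [hv]; group
      rw [this, h0]; simp
    have hv2 : v ^ 2 = 1 := by rw [hv, conj_pow, hw2]; simp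
    have hfix : ∀ R : Sylow 5 G, w • R = R → v • g • R = g • R := by
      intro R hR
      rw [hv, mul_smul, mul_smul, inv_smul_smul, hR]
    have : ∃ R : Sylow 5 G, R ≠ P ∧ v • R = R := by
      by_cases h2 : g • Q = P
      · refine ⟨g • P, fun h3 => hQ ?_, hfix P (syl_smul_norm.2 (hS hwS))⟩
        exact smul_left_cancel g (h2.trans h3.symm)
      · exact ⟨g • Q, h2, hfix Q hwQ⟩
    obtain ⟨R, hR, hvR⟩ := this
    obtain ⟨hvi, hvs⟩ := hc v hg hv1 hv2 R hR hvR
    obtain ⟨hwi, -⟩ := hc w hwS hw1 hw2 Q hQ hwQ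
    obtain ⟨x, hx, a, hva, hxa⟩ := hvs Q hQ
    have hcent : v * w ∈ centralizer ((P : Subgroup G) : Set G) := by
      intro y hy
      have h3 := hvi _ (inv_mem hy)
      rw [← hwi y hy] at h3
      rw [hwi y hy, inv_inv, ← hwi y hy] at h3
      calc y * (v * w) = (v * (w * y * w⁻¹) * v⁻¹) * (v * w) := by rw [h3]
        _ = v * w * y := by group
    have h4 : (x ^ 2 * (v * w)) • Q = Q := by
      have h5 : v * x = x⁻¹ * v := by rw [← hvi x hx]; group
      rw [mul_smul, mul_smul, hwQ, ← hxa, ← mul_smul v, h5, mul_smul, hva, ← mul_smul]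
      congr 1
      group
    have hcomm : Commute (x ^ 2) (v * w) := hcent _ (pow_mem hx 2)
    have h6 : (v * w) ^ 5 • Q = Q := by
      have h7 : (x ^ 2 * (v * w)) ^ 5 ∈ stabilizer G Q := pow_mem h4 5
      have h8 : (x ^ 2) ^ 5 = 1 := by
        have := pow_card_eq_one' (G := (P : Subgroup G)) (x := ⟨x ^ 2, pow_mem hx 2⟩)
        rw [hP] at this
        exact congrArg Subtype.val this
      rwa [hcomm.mul_pow, h8, one_mul] at h7
    have h9 := hb _ (pow_mem (mul_mem hg hwS) 5) (pow_mem hcent 5) Q hQ h6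
    obtain ⟨k, hk⟩ := S.2 ⟨v * w, mul_mem hg hwS⟩
    have hk' : (v * w) ^ 2 ^ k = 1 := congrArg Subtype.val hk
    have h10 : v * w = 1 := by
      have := Nat.dvd_gcd (orderOf_dvd_of_pow_eq_one h9) (orderOf_dvd_of_pow_eq_one hk')
      rw [Nat.Coprime.gcd_eq_one (Nat.Coprime.pow_right k (by norm_num)), Nat.dvd_one] at this
      exact orderOf_eq_one_iff.1 this
    have h11 : w * w = 1 := by rw [← sq, hw2]
    exact mul_right_cancel (h10.trans h11.symm)
  have hd := card_dvd_ncard_of_free (S : Subgroup G) _ (Set.toFinite _)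
    (fun x hx => hNinv x (hS hx)) hfree
  rw [hB] at hd
  have hnc := simple_sylow_two_not_cyclic hG S
  have hS4 : Nat.card (S : Subgroup G) = 4 := by
    obtain ⟨k, hk⟩ := IsPGroup.iff_card.1 S.2
    rw [hk] at hd
    have hk2 : k ≤ 2 := by
      by_contra hh
      have : 2 ^ 3 ∣ 20 := (pow_dvd_pow 2 (by omega)).trans hd
      omega
    interval_cases k
    · exfalso; apply hnc
      have : Subsingleton (S : Subgroup G) := (Nat.card_eq_one_iff_unique.1 hk).1
      infer_instance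
    · exact absurd (isCyclic_of_prime_card (p := 2) hk) hnc
    · exact hk
  have h2c : 2 ∣ Nat.card (centralizer ((P : Subgroup G) : Set G)) := by
    by_contra hh
    refine hnc (po_cyclic hP hS fun s hs hc => ?_)
    by_contra h1
    obtain ⟨t, ht, ht1, ht2⟩ := exists_inv_of_ne_one S.2 hs h1
    have htc : t ∈ centralizer ((P : Subgroup G) : Set G) := (zpowers_le.2 hc) ht
    have := orderOf_dvd_natCard _ htc
    rw [orderOf_eq_prime ht2 ht1] at this
    exact hh this
  have h5c : 5 ∣ Nat.card (centralizer ((P : Subgroup G) : Set G)) := by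
    have := card_dvd_of_le (H2.sm_le_cent hP)
    rwa [hP] at this
  have hcd : Nat.card (centralizer ((P : Subgroup G) : Set G)) ∣ 15000 := by
    obtain ⟨x, hx, h1⟩ := H2.sm_exists_ne_one hP
    have := card_centralizer_dvd (sn_inj hn) (p := 5) (r := 4) (x := x)
      (by rw [← H2.sm_orderOf_eq hP hx h1, pow_orderOf_eq_one])
      (by rw [po_fixedBy hP hx h1, Set.ncard_singleton, h])
    rw [po_fixedBy hP hx h1, Set.ncard_singleton, ← H2.sm_cent_eq hP hx h1] at this
    exact this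
  have he := H2.sm_e_dvd P hP
  have he1 := H2.sm_e_ne_one hG P (sn_dvd hn)
  have hcard := H2.sm_card_eq P
  obtain ⟨m, hm, hm2⟩ := syl_card_mul S
  obtain ⟨m', hm', hm5⟩ := syl_card_mul P
  rw [h] at hcard
  rw [hS4] at hm
  rw [hP] at hm'
  have hG' := arith1 he he1 h2c h5c hcd hcard hm hm2 hm' hm5
  obtain ⟨R⟩ : Nonempty (Sylow 7 G) := Sylow.nonempty
  have hR : Nat.card (R : Subgroup G) = 7 := by
    rcases hG' with h1 | h1
    · exact H2.sm_card_sylow_eq R (k := 1) (m := 60) h1 (by norm_num)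
    · exact H2.sm_card_sylow_eq R (k := 1) (m := 180) h1 (by norm_num)
  have h7 : 7 ∣ Nat.card G := by omega
  have hf := H2.sm_e_dvd R hR
  have hf1 := H2.sm_e_ne_one hG R h7
  have hc7 := H2.sm_card_eq R
  have hn1 := H2.sm_card_sylow_ne_one hG h7
  have hn15 := simple_card_sylow_ne (G := G) (p := 7) (by norm_num)
  have hmod := card_sylow_modEq_one 7 G
  obtain ⟨d, hd7⟩ : 7 ∣ Nat.card (centralizer ((R : Subgroup G) : Set G)) := by
    have := card_dvd_of_le (H2.sm_le_cent hR)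
    rwa [hR] at this
  rw [hd7] at hc7
  exact arith2 hG' hf hf1 hc7 hn1 hn15 hmod

/-- No finite group has exactly twenty-one Sylow 5-subgroups. -/
theorem result {G : Type*} [Group G] [Finite G] : Nat.card (Sylow 5 G) ≠ 21 := by
  intro h
  obtain ⟨S, _, _, _, hS⟩ := H6.exists_simple_of_card_sylow h (by norm_num)
    (by decide +kernel) (fun d hd h1 => by
      have := Nat.le_of_dvd (by norm_num) hd
      interval_cases d <;> omega)
  exact simple_case hS

end Cfsg.Agent.S1010
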