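import Cfsg.Statements.S1026
import Cfsg.Agent.H24.Bridge

set_option autoImplicit false
open Cfsg

namespace Cfsg.Agent.S1026

/-- Every element of `U` has a unique expression `∏_{r ∈ Φ⁺} x_r(t_r)`, the product over the positive roots in increasing index order (the coefficient family `t`, supported on the positive roots, exists and is unique); and conversely every such ordered product is the matrix of an element of `U`. -/
theorem result {F : Type*} [Field F] (D : Cfsg.Lie.ChevalleyDatum) (hD : D ∈ [Cfsg.Lie.chevG2, Cfsg.Lie.chevB2, Cfsg.Lie.chevD4, Cfsg.Lie.chevF4, Cfsg.Lie.chevE6, Cfsg.Lie.chevE7, Cfsg.Lie.chevE8]) :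
    (∀ g : GL D.Idx F, g ∈ D.posUnipotent F →
      ∃! t : ℕ → F, (∀ r, ¬ D.IsPosRoot r → t r = 0) ∧
        (g : Matrix D.Idx D.Idx F) = D.wordMat F (D.posRoots.map fun r => (r, t r))) ∧
    (∀ t : ℕ → F, ∃ g : GL D.Idx F, g ∈ D.posUnipotent F ∧
      (g : Matrix D.Idx D.Idx F) = D.wordMat F (D.posRoots.map fun r => (r, t r))) := by
  obtain ⟨T, h⟩ := H24.exists_tab hD
  obtain ⟨h1, h2, h3⟩ := h.posRoots_spec
  have key : ∀ t : ℕ → F, D.wordMat F (D.posRoots.map fun r => (r, t r)) =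
      ((h.st F).prod (D.posRoots.map h.fin) (fun r => t r) : GL D.Idx F) := fun t => by
    rw [h.wordMat_eq]
    · simp only [H24.St0.prod, List.map_map]
      congr 2
      refine List.map_congr_left fun r hr => ?_
      simp [h.val_fin (h.hn ▸ ((h3 r).1 hr).1)]
    · intro p hp
      obtain ⟨r, hr, rfl⟩ := List.mem_map.1 hp
      exact ((h3 r).1 hr).1
  rw [h.posUnipotent_eq F]
  refine ⟨fun g hg => ?_, fun t => ⟨_, (h.st F).prod_mem (fun r hr => (h2 r).1 hr) _, (key t).symm⟩⟩
  obtain ⟨t, rfl⟩ := (h.st F).exists_prod (f := H24.RS.htv) H24.RS.closed_pos (fun r hr => h.rsys.ht_pos hr)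
    h1 h2 hg
  refine ⟨fun r => if D.IsPosRoot r then t (h.fin r) else 0, ⟨fun r hr => if_neg hr, ?_⟩, ?_⟩
  · rw [key]; congr 1
    exact (h.st F).prod_congr fun r hr => by simp [(h.pos_iff r).1 ((h2 r).1 hr)]
  · rintro t' ⟨e1, e2⟩
    rw [key, Units.val_inj] at e2
    have := (h.st F).sep.prod_inj (T := {r | h.rsys.Pos r}) (f := H24.RS.htv) (fun r hr => h.rsys.ht_pos hr) h1
      (fun r hr => (h2 r).1 hr) e2
    funext r
    split_ifs with hr
    · rw [this _ (List.mem_map_of_mem ((h3 r).2 hr)), h.val_fin (h.hn ▸ hr.1)]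
    · exact e1 r hr

end Cfsg.Agent.S1026
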