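import Cfsg.Statements.S1027
import Cfsg.Agent.H24.Bridge

set_option autoImplicit false
open Cfsg

namespace Cfsg.Agent.S1027

/-- For the subgroup `U` generated by the root elements `x_r(t)` of the positive roots `r`: `|U| = q^N` over a field with `q` elements, where `N` is the number of positive roots (half the number of roots). -/
theorem result {F : Type*} [Field F] [Fintype F] (D : Cfsg.Lie.ChevalleyDatum) (hD : D ∈ [Cfsg.Lie.chevG2, Cfsg.Lie.chevB2, Cfsg.Lie.chevD4, Cfsg.Lie.chevF4, Cfsg.Lie.chevE6, Cfsg.Lie.chevE7, Cfsg.Lie.chevE8]) :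
    Nat.card (D.posUnipotent F) = Fintype.card F ^ (D.nroots / 2) := by
  obtain ⟨T, h⟩ := H24.exists_tab hD
  rw [h.posUnipotent_eq F, ← h.card_pos, ← Nat.card_eq_fintype_card]
  exact (h.st F).sep.card_XS (f := H24.RS.htv) H24.RS.closed_pos (fun r hr => h.rsys.ht_pos hr)

end Cfsg.Agent.S1027
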