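import Cfsg.Statements.S1029
import Cfsg.Agent.H24.Bridge

set_option autoImplicit false
open Cfsg

namespace Cfsg.Agent.S1029

/-- `U` is a nilpotent group (the subgroups generated by root subgroups of height at least `m` form a central series). -/
theorem result {F : Type*} [Field F] (D : Cfsg.Lie.ChevalleyDatum) (hD : D ∈ [Cfsg.Lie.chevG2, Cfsg.Lie.chevB2, Cfsg.Lie.chevD4, Cfsg.Lie.chevF4, Cfsg.Lie.chevE6, Cfsg.Lie.chevE7, Cfsg.Lie.chevE8]) : Group.IsNilpotent (D.posUnipotent F) := by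
  obtain ⟨T, h⟩ := H24.exists_tab hD
  rw [h.posUnipotent_eq F]
  exact (h.st F).isNilpotent_XS (f := H24.RS.htv) H24.RS.closed_pos (fun r hr => h.rsys.ht_pos hr)

end Cfsg.Agent.S1029
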