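import Cfsg.Statements.S1033
import Cfsg.Agent.H24.Bridge

set_option autoImplicit false
open Cfsg

namespace Cfsg.Agent.S1033

/-- `h_p(c)` (for a fundamental root `p = p_{i+1}` and `c ≠ 0`) is diagonal: it fixes each `h_{p_j}` and scales `e_s` by `c^{A_{p,s}}`. -/
theorem result {F : Type*} [Field F] (D : Cfsg.Lie.ChevalleyDatum) (hD : D ∈ [Cfsg.Lie.chevG2, Cfsg.Lie.chevB2, Cfsg.Lie.chevD4, Cfsg.Lie.chevF4, Cfsg.Lie.chevE6, Cfsg.Lie.chevE7, Cfsg.Lie.chevE8]) (i : ℕ) (hi : i < D.rank) (c : F) (hc : c ≠ 0) :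
    D.hMat F (D.simple i) c = Matrix.diagonal (Sum.elim (fun _ => (1 : F)) (fun s : Fin D.nroots => c ^ (D.cartan i s))) := by
  obtain ⟨T, h⟩ := H24.exists_tab hD
  have := congrArg Units.val (h.h_eq_dg (h.rsys.sim ⟨i, hi⟩) (Units.mk0 c hc))
  rw [← h.st_toSt0, h.coe_h, h.val_sim', h.coe_dg] at this
  refine this.trans ?_
  congr 1
  funext a
  have e := H24.RS.chi_zpow (Units.mk0 c hc) (h.rsys.Av (h.rsys.sim ⟨i, hi⟩)) (h.wv a)
  simp only [← h.rsys.rt_sim, ← H24.RS.A_def] at e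
  rw [e]
  rcases a with j | s
  · simp
  · simp [← H24.RS.A_def, h.A_sim']

end Cfsg.Agent.S1033
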