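import Cfsg.Statements.S1034
import Cfsg.Agent.H24.Torus

set_option autoImplicit false
open Cfsg

namespace Cfsg.Agent.S1034

/-- Every element of `H` is a product `h_{p_1}(c_1) ⋯ h_{p_l}(c_l)` over the fundamental roots, with non-zero `c_i`. -/
theorem result {F : Type*} [Field F] (D : Cfsg.Lie.ChevalleyDatum) (hD : D ∈ [Cfsg.Lie.chevG2, Cfsg.Lie.chevB2, Cfsg.Lie.chevD4, Cfsg.Lie.chevF4, Cfsg.Lie.chevE6, Cfsg.Lie.chevE7, Cfsg.Lie.chevE8]) (g : GL D.Idx F) (hg : g ∈ D.diagonalSubgroup F) :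
    ∃ c : ℕ → F, (∀ i < D.rank, c i ≠ 0) ∧
      (g : Matrix D.Idx D.Idx F) = D.wordMat F ((List.range D.rank).flatMap fun i => D.hWord (D.simple i) (c i)) := by
  obtain ⟨T, h⟩ := H24.exists_tab hD
  rw [h.diagonalSubgroup_eq F] at hg
  have h3 := (h.st F).r3_of_adj (h.adj F)
  obtain ⟨c, rfl⟩ := ((h.st F).range_hh h3).ge hg
  refine ⟨fun i => if hi : i < D.rank then c ⟨i, hi⟩ else 1, fun i hi => by simp [hi], ?_⟩
  have e : c = ((List.finRange D.rank).map fun i => Pi.mulSingle i (c i)).prod := by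
    rw [← Fin.prod_univ_def, Finset.univ_prod_mulSingle]
  conv_lhs => rw [e, map_list_prod, ← Units.coeHom_apply, map_list_prod]
  rw [← List.map_coe_finRange_eq_range, List.flatMap_map, List.map_map, List.map_map]
  induction List.finRange D.rank with
  | nil => rfl
  | cons a l ih =>
    rw [List.map_cons, List.prod_cons, ih, List.flatMap_cons]
    simp only [Function.comp_apply, H24.St.hh_single, Units.coeHom_apply, h.coe_h, h.cd_toRS, h.val_sim',
      Lie.ChevalleyDatum.hMat, Lie.ChevalleyDatum.wordMat, List.map_append, List.prod_append, a.2, dif_pos]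

end Cfsg.Agent.S1034
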