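import Cfsg.Statements.S1039
import Cfsg.Agent.H24.Facts

set_option autoImplicit false
open Cfsg

namespace Cfsg.Agent.S1039

theorem aux {F : Type*} [Field F] {D : Cfsg.Lie.ChevalleyDatum} {T : H24.Tab} (h : T.Chk D)
    (M : CoxeterMatrix (Fin D.rank)) (H : ∃ e : M.Group ≃* h.rsys.W, ∀ i, e (M.simple i) = h.rsys.sW i) :
    ∃ φ : ↥(D.monomialSubgroup F) →* M.Group, Function.Surjective φ ∧
      φ.ker = (D.diagonalSubgroup F).subgroupOf (D.monomialSubgroup F) ∧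
      ∀ (i : Fin D.rank) (g : ↥(D.monomialSubgroup F)),
        ((g : GL D.Idx F) : Matrix D.Idx D.Idx F) = D.nMat F (D.simple i) 1 → φ g = M.simple i := by
  obtain ⟨e, he⟩ := H
  rw [h.monomialSubgroup_eq F, h.diagonalSubgroup_eq F]
  refine ⟨e.symm.toMonoidHom.comp (h.st F).piW, e.symm.surjective.comp (h.st F).piW_surjective, ?_, ?_⟩
  · rw [← (h.st F).ker_piW]
    ext g
    exact e.symm.map_eq_one_iff
  · intro i g hg
    have : (g : GL D.Idx F) = (h.st F).n (h.cd.sim i) 1 := Units.ext (by rw [hg]; exact (h.coe_n_sim' F i 1).symm)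
    have h2 : (h.st F).piW g = h.rsys.sW i :=
      Subtype.ext ((h.st F).piW_eq (this ▸ (h.st F).n_rep_s i one_ne_zero))
    change e.symm ((h.st F).piW g) = _
    rw [h2, ← he]; exact e.symm_apply_apply _

/-- `N/H ≅ W`: there is a surjective homomorphism from `N` onto the Coxeter group of the type (Mathlib's Coxeter matrix G₂, B₂, F₄, E₆, E₇, E₈, nodes numbered as the fundamental roots) with kernel `H`, mapping each `n_{p_i}` to the `i`-th simple reflection. -/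
theorem result {F : Type*} [Field F]
    (p : Cfsg.Lie.ChevalleyDatum × (Σ n : ℕ, CoxeterMatrix (Fin n)))
    (hp : p ∈ [(Cfsg.Lie.chevG2, ⟨2, CoxeterMatrix.G₂⟩), (Cfsg.Lie.chevB2, ⟨2, CoxeterMatrix.B 2⟩), (Cfsg.Lie.chevD4, ⟨4, Cfsg.Lie.coxeterD4⟩), (Cfsg.Lie.chevF4, ⟨4, CoxeterMatrix.F₄⟩),
      (Cfsg.Lie.chevE6, ⟨6, CoxeterMatrix.E₆⟩), (Cfsg.Lie.chevE7, ⟨7, CoxeterMatrix.E₇⟩), (Cfsg.Lie.chevE8, ⟨8, CoxeterMatrix.E₈⟩)]) :
    ∃ φ : ↥(p.1.monomialSubgroup F) →* p.2.2.Group, Function.Surjective φ ∧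
      φ.ker = (p.1.diagonalSubgroup F).subgroupOf (p.1.monomialSubgroup F) ∧
      ∀ (i : Fin p.2.1) (g : ↥(p.1.monomialSubgroup F)),
        ((g : GL p.1.Idx F) : Matrix p.1.Idx p.1.Idx F) = p.1.nMat F (p.1.simple i) 1 → φ g = p.2.2.simple i := by
  simp only [List.mem_cons, List.not_mem_nil, or_false] at hp
  rcases hp with rfl | rfl | rfl | rfl | rfl | rfl | rfl
  · exact aux H24.tabG2_chk _ H24.coxG2
  · exact aux H24.tabB2_chk _ H24.coxB2
  · exact aux H24.tabD4_chk _ H24.coxD4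
  · exact aux H24.tabF4_chk _ H24.coxF4
  · exact aux H24.tabE6_chk _ H24.coxE6
  · exact aux H24.tabE7_chk _ H24.coxE7
  · exact aux H24.tabE8_chk _ H24.coxE8

end Cfsg.Agent.S1039
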