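import Cfsg.Statements.S1044
import Cfsg.Agent.H24.Torus

set_option autoImplicit false
open Cfsg

namespace Cfsg.Agent.S1044

/-- For a fundamental root `p` the set `B ∪ B n_p B` is (the carrier of) a subgroup of the general linear group. -/
theorem result {F : Type*} [Field F] (D : Cfsg.Lie.ChevalleyDatum) (hD : D ∈ [Cfsg.Lie.chevG2, Cfsg.Lie.chevB2, Cfsg.Lie.chevD4, Cfsg.Lie.chevF4, Cfsg.Lie.chevE6, Cfsg.Lie.chevE7, Cfsg.Lie.chevE8]) (i : ℕ) (hi : i < D.rank) (n : GL D.Idx F)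
    (hn : (n : Matrix D.Idx D.Idx F) = D.nMat F (D.simple i) 1) :
    ∃ P : Subgroup (GL D.Idx F), (P : Set (GL D.Idx F)) =
      (D.borelSubgroup F : Set (GL D.Idx F)) ∪ DoubleCoset.doubleCoset n (D.borelSubgroup F : Set (GL D.Idx F)) (D.borelSubgroup F) := by
  obtain ⟨T, h⟩ := H24.exists_tab hD
  rw [h.borelSubgroup_eq F]
  obtain rfl : n = (h.st F).n (h.rsys.sim ⟨i, hi⟩) 1 := Units.ext (by rw [hn]; exact (h.coe_n_sim' F ⟨i, hi⟩ 1).symm)
  refine ⟨(h.st F).PJ {⟨i, hi⟩}, ?_⟩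
  ext g
  rw [SetLike.mem_coe, H24.St.mem_PJ_iff, Set.mem_union, DoubleCoset.mem_doubleCoset]
  have hr := (h.st F).n_rep_s ⟨i, hi⟩ one_ne_zero
  have hm := (h.st F).n_mem (r := h.cd.sim ⟨i, hi⟩) one_ne_zero
  constructor
  · rintro ⟨w, hw, hg⟩
    have : w = 1 ∨ w = h.cd.s ⟨i, hi⟩ := by
      refine H24.RS.WJ_induction (fun w => w = 1 ∨ w = h.cd.s ⟨i, hi⟩) (Or.inl rfl) ?_ w hw
      rintro j rfl w - - (rfl | rfl)
      · exact Or.inr (mul_one _)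
      · exact Or.inl (h.cd.s_mul_s _)
    rcases this with rfl | rfl
    · exact Or.inl ((h.st F).BK_univ ▸ (h.st F).mem_cell_one.1 hg)
    · obtain ⟨b, hb, b', hb', e⟩ := (h.st F).exists_of_mem_cell hg hm hr
      rw [H24.St0.BK_univ] at hb hb'
      exact Or.inr ⟨b, hb, b', hb', e⟩
  · rintro (hg | ⟨b, hb, b', hb', rfl⟩)
    · exact ⟨1, Subgroup.one_mem _, (h.st F).mem_cell_one.2 ((h.st F).BK_univ ▸ hg)⟩
    · exact ⟨_, h.cd.s_mem_WJ rfl, (h.st F).canon_mem_cell hm hr hb hb'⟩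

end Cfsg.Agent.S1044
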