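import Cfsg.Statements.S1045
import Cfsg.Agent.H24.Torus

set_option autoImplicit false
open Cfsg

namespace Cfsg.Agent.S1045

/-- For a fundamental root `p`, the subgroup `U_p` generated by the `X_s`, `s` positive and `s ≠ p`, is normalised by `X_p` and `X_{-p}`, and `U = U_p ⊔ X_p`. -/
theorem result {F : Type*} [Field F] (D : Cfsg.Lie.ChevalleyDatum) (hD : D ∈ [Cfsg.Lie.chevG2, Cfsg.Lie.chevB2, Cfsg.Lie.chevD4, Cfsg.Lie.chevF4, Cfsg.Lie.chevE6, Cfsg.Lie.chevE7, Cfsg.Lie.chevE8]) (i : ℕ) (hi : i < D.rank) :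
    D.rootSubgroup F (D.simple i) ⊔ D.rootSubgroup F (D.neg (D.simple i)) ≤
        Subgroup.normalizer (Subgroup.closure {g : GL D.Idx F | ∃ (s : ℕ) (t : F), D.IsPosRoot s ∧ s ≠ D.simple i ∧
          (g : Matrix D.Idx D.Idx F) = D.x F s t} : Set (GL D.Idx F)) ∧
      Subgroup.closure {g : GL D.Idx F | ∃ (s : ℕ) (t : F), D.IsPosRoot s ∧ s ≠ D.simple i ∧
          (g : Matrix D.Idx D.Idx F) = D.x F s t} ⊔ D.rootSubgroup F (D.simple i) = D.posUnipotent F := by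
  obtain ⟨T, h⟩ := H24.exists_tab hD
  have e := h.closure_eq F (fun s => D.IsPosRoot s ∧ s ≠ D.simple i) fun r hr => hr.1.1
  simp only [and_assoc] at e
  have e2 : {r : Fin D.nroots | D.IsPosRoot r ∧ (r : ℕ) ≠ D.simple i} =
      {r | h.rsys.Pos r ∧ r ≠ h.rsys.sim ⟨i, hi⟩} := by
    simp only [h.pos_iff, ne_eq, Fin.ext_iff, h.val_sim']
  have e3 := h.rootSubgroup_eq F (h.rsys.neg (h.rsys.sim ⟨i, hi⟩))
  have e4 := h.rootSubgroup_eq F (h.rsys.sim ⟨i, hi⟩)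
  rw [h.val_neg'] at e3
  rw [h.val_sim'] at e3 e4
  rw [e, e2, e3, e4, h.posUnipotent_eq F, ← H24.St0.XS_union, ← H24.St0.XS_union]
  constructor
  · rw [← H24.RS.pos_not_InJ_singleton]
    refine (h.st F).XS_le_normalizer fun r hr => H24.RS.nml_UJ (Or.inr ?_)
    exact H24.RS.InJ_singleton.2 hr
  · rw [H24.St0.U]; congr 1; ext r
    simp only [Set.mem_union, Set.mem_ofPred_eq, Set.mem_singleton_iff, h.cd_toRS]
    exact ⟨by rintro (h1 | rfl); exacts [h1.1, h.rsys.pos_sim _], fun h1 => by tauto⟩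

end Cfsg.Agent.S1045
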