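import Cfsg.Statements.S1053
import Cfsg.Agent.H24.Bridge

set_option autoImplicit false
open Cfsg

namespace Cfsg.Agent.S1053

/-- There is `n₀ ∈ N` with `n₀ U n₀⁻¹ = V` (a representative of the longest element of the Weyl group). -/
theorem result {F : Type*} [Field F] (D : Cfsg.Lie.ChevalleyDatum) (hD : D ∈ [Cfsg.Lie.chevG2, Cfsg.Lie.chevB2, Cfsg.Lie.chevD4, Cfsg.Lie.chevF4, Cfsg.Lie.chevE6, Cfsg.Lie.chevE7, Cfsg.Lie.chevE8]) :
    ∃ n ∈ D.monomialSubgroup F, (D.posUnipotent F).map (MulAut.conj n).toMonoidHom = D.negUnipotent F := by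
  obtain ⟨T, h⟩ := H24.exists_tab hD
  rw [h.monomialSubgroup_eq F, h.negUnipotent_eq F, h.posUnipotent_eq F]
  obtain ⟨w, hw, e⟩ := h.rsys.exists_w0
  obtain ⟨n, hn, hr⟩ := (h.st F).exists_N_rep hw
  refine ⟨n, hn, (hr.map_XS _).trans ?_⟩
  congr 1
  ext r
  simp only [Set.mem_image, Set.mem_ofPred_eq]
  refine ⟨by rintro ⟨s, hs, rfl⟩; exact fun H => (e s).1 H hs, fun H => ⟨w⁻¹ r, ?_, by simp⟩⟩
  by_contra hc
  exact H (by simpa [h.cd_toRS] using (e _).2 hc)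

end Cfsg.Agent.S1053
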