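import Cfsg.Statements.S1058
import Cfsg.Agent.H15.F2
import Cfsg.Agent.S1060

set_option autoImplicit false
open Cfsg

namespace Cfsg.Agent.S1058

open Equiv in
/-- images of the root elements -/
def a (r : ℕ) : Perm (Fin 6) := [swap 0 2, swap 0 2 * swap 1 5 * swap 3 4, swap 0 2 * swap 1 3 * swap 4 5, swap 3 4, swap 4 5,
  swap 0 1 * swap 2 5 * swap 3 4, swap 0 1 * swap 2 3 * swap 4 5, swap 0 1].getD r 1

/-- B₂(2) ≅ S₆. -/
theorem result {F : Type*} [Field F] [Fintype F] (hF : Fintype.card F = 2) :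
    Nonempty (↥(Cfsg.Lie.chevB2.group F) ≃* Equiv.Perm (Fin 6)) := by
  obtain ⟨φ, hφ⟩ := H15.F2.exists_hom hF H24.tabB2_chk a (by decide +kernel) (by decide +kernel)
  have k : ∀ r : Fin 8, a r ∈ φ.range := fun r => ⟨_, hφ r⟩
  have hs : φ.range = ⊤ := by
    rw [eq_top_iff]
    intro x _
    have hx : x ∈ Submonoid.closure _ := Equiv.Perm.mclosure_swap_castSucc_succ 5 ▸ Submonoid.mem_top x
    refine (Submonoid.closure_le (S := φ.range.toSubmonoid)).2 ?_ hx
    rintro _ ⟨i, rfl⟩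
    have : ∀ i : Fin 5, ∃ r s : Fin 8, Equiv.swap i.castSucc i.succ = a s * a r * a s := by decide +kernel
    obtain ⟨r, s, e⟩ := this i
    have := mul_mem (mul_mem (k s) (k r)) (k s)
    rwa [← e] at this
  have hc := S1060.result hF
  have : Nat.card (Cfsg.Lie.chevB2.group F) = Nat.card (Equiv.Perm (Fin 6)) := by
    rw [Nat.card_perm, Nat.card_fin]; simpa [Nat.factorial] using hc
  exact ⟨MulEquiv.ofBijective φ ((Nat.bijective_iff_surjective_and_card φ).2 ⟨MonoidHom.range_eq_top.1 hs, this⟩)⟩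

end Cfsg.Agent.S1058
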