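import Cfsg.Statements.S1069
import Cfsg.Agent.H24.TwG2

set_option autoImplicit false
open Cfsg

namespace Cfsg.Agent.S1069

/-- `|²G₂(q)| = q³ (q - 1)(q³ + 1)` for `q = 3^(2m+1)` (θ = 3^m-th power map), every `m ≥ 0`. -/
theorem result {K : Type*} [Field K] [Fintype K] {m : ℕ} (hK : Fintype.card K = 3 ^ (2 * m + 1)) :
    Nat.card ↥(Cfsg.Lie.twistedG2 K (3 ^ m)) = (3 ^ (2 * m + 1)) ^ 3 * (3 ^ (2 * m + 1) - 1) * ((3 ^ (2 * m + 1)) ^ 3 + 1) := by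
  obtain ⟨h3, f, hf, hq⟩ := H24.G2.exists_f hK
  rw [(H24.G2.pack h3 f hf hq).card_eq]
  exact H24.G2.card_G1 h3 f hf hK (H24.G2.exists_sq hK)

end Cfsg.Agent.S1069
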