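import Cfsg.Statements.S1072
import Cfsg.Agent.H24.TwF4

set_option autoImplicit false
open Cfsg

namespace Cfsg.Agent.S1072

/-- ²F₄(2^(2m+1)) is simple for `m ≥ 1`. -/
theorem result {K : Type*} [Field K] [Fintype K] {m : ℕ} (hm : 1 ≤ m) (hK : Fintype.card K = 2 ^ (2 * m + 1)) :
    IsSimpleGroup ↥(Cfsg.Lie.twistedF4 K (2 ^ m)) ∧ ¬ IsMulCommutative ↥(Cfsg.Lie.twistedF4 K (2 ^ m)) := by
  obtain ⟨h2, f, hf, hq⟩ := H24.F4.exists_f hK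
  have : ∀ K : Finset (Fin 2), K.Nonempty → Kᶜ.Nonempty →
      ∃ p : Fin 2 × Fin 2, p.1 ∈ K ∧ p.2 ∉ K ∧ ¬ (if p.1 = p.2 then 1 else 8) ∣ 2 := by decide +kernel
  exact (H24.F4.pack h2 f hf hq).simple (H24.F4.perf h2 f hf (H24.exists_ne_zero_one K
    (hK ▸ Nat.pow_lt_pow_right (a := 2) (m := 1) (by omega) (by omega)))) _ (H24.F4.ord h2 f hf)
    fun K h1 h2 => let ⟨_, a, b, c⟩ := this K h1 h2; ⟨_, a, _, b, c⟩

end Cfsg.Agent.S1072
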