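import Cfsg.Statements.S1076
import Cfsg.Agent.H24.Bridge

set_option autoImplicit false
open Cfsg

namespace Cfsg.Agent.S1076

/-- `h_r(t₁) h_r(t₂) = h_r(t₁ t₂)` for non-zero `t₁, t₂` (the third family of defining relations), as a matrix identity. -/
theorem result {F : Type*} [Field F] (D : Cfsg.Lie.ChevalleyDatum) (hD : D ∈ [Cfsg.Lie.chevG2, Cfsg.Lie.chevB2, Cfsg.Lie.chevD4, Cfsg.Lie.chevF4, Cfsg.Lie.chevE6, Cfsg.Lie.chevE7, Cfsg.Lie.chevE8]) (r : ℕ) (hr : r < D.nroots) (t₁ t₂ : F) (h₁ : t₁ ≠ 0) (h₂ : t₂ ≠ 0) :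
    D.hMat F r t₁ * D.hMat F r t₂ = D.hMat F r (t₁ * t₂) := by
  obtain ⟨T, h⟩ := H24.exists_tab hD
  have e := fun (t : F) (ht : t ≠ 0) => congrArg Units.val (h.h_eq_dg ⟨r, hr⟩ (Units.mk0 t ht))
  simp only [← h.st_toSt0, h.coe_h, Units.val_mk0] at e
  rw [e _ h₁, e _ h₂, e _ (mul_ne_zero h₁ h₂), ← Units.val_mul, ← map_mul]
  congr 2
  funext j
  rw [Pi.mul_apply, ← mul_zpow, Units.mk0_mul]

end Cfsg.Agent.S1076
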