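import Cfsg.Statements.S1078
import Cfsg.Agent.H24.Stb

set_option autoImplicit false
open Cfsg

namespace Cfsg.Agent.S1078

/-- For G₂, F₄, E₈ the presented group has trivial centre (the universal and adjoint groups coincide). -/
theorem result {K : Type*} [Field K] (D : Cfsg.Lie.ChevalleyDatum) (hD : D ∈ [Cfsg.Lie.chevG2, Cfsg.Lie.chevF4, Cfsg.Lie.chevE8]) :
    Subgroup.center (D.SteinbergGroup K) = ⊥ := by
  have key : ∀ {D : Cfsg.Lie.ChevalleyDatum} {T : H24.Tab} (h : T.Chk D),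
      (∀ c, c ∈ (h.rsys.theta K).ker → c = 1) → Subgroup.center (D.SteinbergGroup K) = ⊥ := fun h hc => by
    rw [(h.stb K).center_eq (h.stb_Gr K), (h.stb K).Z_eq_map (h.stb_r3 K),
      show (h.cd.theta K).ker = ⊥ from eq_bot_iff.2 hc, Subgroup.map_bot]
  simp only [List.mem_cons, List.not_mem_nil, or_false] at hD
  rcases hD with rfl | rfl | rfl
  · refine key H24.tabG2_chk fun c hc => ?_
    obtain ⟨z, -, rfl⟩ := ((H24.thetaG2 K).2 c).1 hc
    funext i; simp
  · refine key H24.tabF4_chk fun c hc => ?_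
    obtain ⟨z, -, rfl⟩ := ((H24.thetaF4 K).2 c).1 hc
    funext i; simp
  · refine key H24.tabE8_chk fun c hc => ?_
    obtain ⟨z, -, rfl⟩ := ((H24.thetaE8 K).2 c).1 hc
    funext i; simp

end Cfsg.Agent.S1078
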