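import Cfsg.Statements.S1080
import Cfsg.Agent.H24.TwMor

set_option autoImplicit false
open Cfsg

namespace Cfsg.Agent.S1080

/-- Field automorphisms: for every field automorphism `f` there is a group automorphism sending each `x_r(t)` to `x_r(f t)`. -/
theorem result {F : Type*} [Field F] (D : Cfsg.Lie.ChevalleyDatum) (hD : D ∈ [Cfsg.Lie.chevG2, Cfsg.Lie.chevB2, Cfsg.Lie.chevD4, Cfsg.Lie.chevF4, Cfsg.Lie.chevE6, Cfsg.Lie.chevE7, Cfsg.Lie.chevE8]) (f : F ≃+* F) :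
    ∃ α : ↥(D.group F) ≃* ↥(D.group F), ∀ (g : ↥(D.group F)) (r : ℕ) (t : F), r < D.nroots →
      ((g : GL D.Idx F) : Matrix D.Idx D.Idx F) = D.x F r t → ((α g : GL D.Idx F) : Matrix D.Idx D.Idx F) = D.x F r (f t) := by
  obtain ⟨T, h⟩ := H24.exists_tab hD
  obtain ⟨α, hα⟩ := H24.TD.exists_aut (R := h.cd) ⟨0, H24.Mor.id _, f, Nat.cast_zero, 1, fun _ => rfl,
    fun r t => ⟨f.symm t, by simp [H24.Mor.id]⟩⟩ (h.grp F) (h.grp_Gr F) (h.grp_adj F)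
  refine ⟨α, fun g r t hr e => ?_⟩
  rw [h.eq_grp_x hr e, hα, h.coe_grp_x]
  simp [H24.Mor.id, H24.TD.τ]

end Cfsg.Agent.S1080
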