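import Cfsg.Statements.S1081
import Cfsg.Agent.H24.Graph

set_option autoImplicit false
open Cfsg

namespace Cfsg.Agent.S1081

set_option maxRecDepth 100000

/-- Graph automorphisms: for E₆ with ρ = (p₁ p₆)(p₃ p₅) and for D₄ with ρ the 3-cycle on the outer nodes there is a group automorphism sending `x_p(t) ↦ x_{ρ(p)}(t)` and `x_{-p}(t) ↦ x_{-ρ(p)}(t)` for every fundamental root `p`. -/
theorem result {F : Type*} [Field F] (p : Cfsg.Lie.ChevalleyDatum × List ℕ)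
    (hp : p ∈ [(Cfsg.Lie.chevE6, [5, 1, 4, 3, 2, 0]), (Cfsg.Lie.chevD4, [2, 1, 3, 0]), (Cfsg.Lie.chevD4, [3, 1, 0, 2])]) :
    ∃ α : ↥(p.1.group F) ≃* ↥(p.1.group F), ∀ (g : ↥(p.1.group F)) (i : ℕ) (t : F), i < p.1.rank →
      (((g : GL p.1.Idx F) : Matrix p.1.Idx p.1.Idx F) = p.1.x F (p.1.simple i) t →
        ((α g : GL p.1.Idx F) : Matrix p.1.Idx p.1.Idx F) = p.1.x F (p.1.simple (p.2.getD i 0)) t) ∧
      (((g : GL p.1.Idx F) : Matrix p.1.Idx p.1.Idx F) = p.1.x F (p.1.neg (p.1.simple i)) t →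
        ((α g : GL p.1.Idx F) : Matrix p.1.Idx p.1.Idx F) = p.1.x F (p.1.neg (p.1.simple (p.2.getD i 0))) t) := by
  simp only [List.mem_cons, List.not_mem_nil, or_false] at hp
  have key : ∀ {D : Cfsg.Lie.ChevalleyDatum} {T : H24.Tab} (h : T.Chk D) {m : H24.MorTab} (hm : m.Chk T T)
      (L : List ℕ) (π : Equiv.Perm (Fin D.rank)), m.p = 0 → m.e = 0 →
      (∀ i : Fin D.rank, m.ph (T.simple i) = T.simple (π i)) →
      (∀ i, i < D.rank → m.ph (D.simple i) = D.simple (L.getD i 0) ∧ m.ep (D.simple i) = 1 ∧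
        m.ph (D.neg (D.simple i)) = D.neg (D.simple (L.getD i 0)) ∧ m.ep (D.neg (D.simple i)) = 1) →
      ∃ α : ↥(D.group F) ≃* ↥(D.group F), ∀ (g : ↥(D.group F)) (i : ℕ) (t : F), i < D.rank →
      (((g : GL D.Idx F) : Matrix D.Idx D.Idx F) = D.x F (D.simple i) t →
        ((α g : GL D.Idx F) : Matrix D.Idx D.Idx F) = D.x F (D.simple (L.getD i 0)) t) ∧
      (((g : GL D.Idx F) : Matrix D.Idx D.Idx F) = D.x F (D.neg (D.simple i)) t →
        ((α g : GL D.Idx F) : Matrix D.Idx D.Idx F) = D.x F (D.neg (D.simple (L.getD i 0))) t) := by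
    intro D T h m hm L π h1 h2 h3 h4
    have he : ∀ r, m.ex r = 1 := fun r => by simp [H24.MorTab.ex, h2, H24.bits]
    obtain ⟨α, hα⟩ := h.exists_graph_aut hm (RingHom.id F) (by simp [h1]) π h3 fun r t => ⟨t, by simp [he]⟩
    refine ⟨α, fun g i t hi => ⟨fun e => ?_, fun e => ?_⟩⟩
    · rw [hα g _ t (h.simple_lt' hi) e, (h4 i hi).1, (h4 i hi).2.1, he]; simp
    · rw [hα g _ t (h.neg_lt' (h.simple_lt' hi)) e, (h4 i hi).2.2.1, (h4 i hi).2.2.2, he]; simp
  rcases hp with rfl | rfl | rfl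
  · exact key H24.tabE6_chk H24.morE6_chk _ (Equiv.swap (0 : Fin 6) 5 * Equiv.swap 2 4) rfl rfl
      (by decide +kernel) (by decide +kernel)
  · exact key H24.tabD4_chk H24.morD4a_chk _ (Equiv.swap (0 : Fin 4) 2 * Equiv.swap 2 3) rfl rfl
      (by decide +kernel) (by decide +kernel)
  · exact key H24.tabD4_chk H24.morD4b_chk _ (Equiv.swap (0 : Fin 4) 3 * Equiv.swap 2 3) rfl rfl
      (by decide +kernel) (by decide +kernel)

end Cfsg.Agent.S1081
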