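import Cfsg.Statements.S1082
import Cfsg.Agent.H7.CL6
import Cfsg.Agent.S1054

set_option autoImplicit false
open Cfsg

namespace Cfsg.Agent.S1082



/-- D₄(F) ≅ PΩ₈⁺(F), the commutator subgroup of the orthogonal group of `Σ xᵢ yᵢ` modulo its centre. -/
theorem result {F : Type*} [Field F] : Nonempty (↥(Cfsg.Lie.chevD4.group F) ≃* Cfsg.POmega F (Cfsg.quadFormPlus 4 F)) := by
  obtain ⟨S, hS, -⟩ := H7.exists_stPlus (F := F) (m := 2) (by omega)
  obtain ⟨S', hS'⟩ := H7.famD4.exists_st0 (m := 2) (.inl rfl) (fun _ => by omega) (by decide)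
    (H24.tabD4_chk.grp F).toSt0 (H24.tabD4_chk.grp_Gr F)
  have := H7.quot_simple_cdC S hS (.inl (by omega))
  exact H7.iso_of_st0 S hS (S1054.result _ (by simp)) S' hS'

end Cfsg.Agent.S1082
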