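import Cfsg.Statements.S1094
import Cfsg.Agent.H24.Facts

set_option autoImplicit false
open Cfsg

namespace Cfsg.Agent.S1094

theorem aux {D : Cfsg.Lie.ChevalleyDatum} {T : H24.Tab} (h : T.Chk D)
    (M : CoxeterMatrix (Fin D.rank)) (H : ∃ e : M.Group ≃* h.rsys.W, ∀ i, e (M.simple i) = h.rsys.sW i)
    (l : List (Fin D.rank)) : orderOf (l.map M.simple).prod = orderOf (h.rsys.wd l) := by
  obtain ⟨e, he⟩ := H
  rw [← e.orderOf_eq, ← h.rsys.coe_wp_sW, Subgroup.orderOf_coe, map_list_prod, List.map_map]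
  congr 2
  exact List.map_congr_left fun i _ => he i

/-- The Coxeter element `s₁ s₂ ⋯ s_l` of the Coxeter group of type B₂, G₂, D₄, F₄, E₆, E₇, E₈ has order `h = 2N/l` = 4, 6, 6, 12, 12, 18, 30. -/
theorem result (p : (Σ n : ℕ, CoxeterMatrix (Fin n)) × ℕ)
    (hp : p ∈ [(⟨2, CoxeterMatrix.B 2⟩, 4), (⟨2, CoxeterMatrix.G₂⟩, 6), (⟨4, Cfsg.Lie.coxeterD4⟩, 6), (⟨4, CoxeterMatrix.F₄⟩, 12),
      (⟨6, CoxeterMatrix.E₆⟩, 12), (⟨7, CoxeterMatrix.E₇⟩, 18), (⟨8, CoxeterMatrix.E₈⟩, 30)]) :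
    orderOf ((List.finRange p.1.1).map p.1.2.simple).prod = p.2 := by
  simp only [List.mem_cons, List.not_mem_nil, or_false] at hp
  rcases hp with rfl | rfl | rfl | rfl | rfl | rfl | rfl
  · exact (aux H24.tabB2_chk _ H24.coxB2 _).trans H24.ordB2
  · exact (aux H24.tabG2_chk _ H24.coxG2 _).trans H24.ordG2
  · exact (aux H24.tabD4_chk _ H24.coxD4 _).trans H24.ordD4
  · exact (aux H24.tabF4_chk _ H24.coxF4 _).trans H24.ordF4
  · exact (aux H24.tabE6_chk _ H24.coxE6 _).trans H24.ordE6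
  · exact (aux H24.tabE7_chk _ H24.coxE7 _).trans H24.ordE7
  · exact (aux H24.tabE8_chk _ H24.coxE8 _).trans H24.ordE8

end Cfsg.Agent.S1094
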