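import Cfsg.Statements.S1095
import Cfsg.Agent.H24.Bridge

set_option autoImplicit false
open Cfsg

namespace Cfsg.Agent.S1095

/-- `n_p` (p = p_{i+1} fundamental) is the signed monomial matrix `h_{p_j} ↦ h_{p_j} - A_{p_j,p} h_p`, `e_s ↦ η_s e_{w_p(s)}`, with `η_s = ±1`, `η_p = η_{-p} = -1`, `η_s η_{w_p(s)} = (-1)^{A_{p,s}}`, `η_s η_{-s} = 1`. -/
theorem result {F : Type*} [Field F] (D : Cfsg.Lie.ChevalleyDatum) (hD : D ∈ [Cfsg.Lie.chevG2, Cfsg.Lie.chevB2, Cfsg.Lie.chevD4, Cfsg.Lie.chevF4, Cfsg.Lie.chevE6, Cfsg.Lie.chevE7, Cfsg.Lie.chevE8]) (i : ℕ) (hi : i < D.rank) :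
    ∃ η : ℕ → ℤ, (∀ s < D.nroots, η s = 1 ∨ η s = -1) ∧ η (D.simple i) = -1 ∧ η (D.neg (D.simple i)) = -1 ∧
      (∀ s < D.nroots, η s * η (D.reflectRoot i s) = (-1) ^ (D.cartan i s).natAbs ∧ η s * η (D.neg s) = 1) ∧
      D.nMat F (D.simple i) 1 = Matrix.of (fun (row col : D.Idx) =>
        Sum.elim
          (fun j' : Fin D.rank => Sum.elim
            (fun j : Fin D.rank => (if j' = j then (1 : F) else 0) - (if (j' : ℕ) = i then ((D.cartan j (D.simple i) : ℤ) : F) else 0))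
            (fun _ => (0 : F)) col)
          (fun s' : Fin D.nroots => Sum.elim
            (fun _ => (0 : F))
            (fun s : Fin D.nroots => if (s' : ℕ) = D.reflectRoot i s then ((η s : ℤ) : F) else 0) col)
          row) := by
  obtain ⟨T, h⟩ := H24.exists_tab hD
  have hi' : i < T.l := h.hl ▸ hi
  have h1 : T.eta i (D.simple i) = -1 := by rw [h.simple_eq hi']; exact h.rs'.2.1 i hi'
  have h2 : ∀ s < D.nroots, T.eta i (D.neg s) = T.eta i s := fun s hs => by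
    rw [← h.val_neg' ⟨s, hs⟩]; exact h.eta_neg ⟨i, hi⟩ ⟨s, hs⟩
  refine ⟨T.eta i, fun s _ => T.eta_eq i s, h1, by rw [h2 _ (h.simple_lt' hi), h1], fun s hs => ⟨?_, ?_⟩, ?_⟩
  · have hs' : s < T.n := h.hn ▸ hs
    have e := h.reflectRoot_eq ⟨i, hi⟩ ⟨s, hs⟩
    rw [h.val_s] at e
    rw [e, ((h.rs'.2.2 s hs').2.2.2.2 i hi').2.2.2.2.2.2.1, h.cartan_eq hs' hi']
    split_ifs with h3
    · rw [Even.neg_one_pow (Nat.even_iff.2 h3)]
    · rw [Odd.neg_one_pow (Nat.odd_iff.2 (by omega))]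
  · rw [h2 s hs]; rcases T.eta_eq i s with e | e <;> simp [e]
  · rw [← h.coe_n_sim' F ⟨i, hi⟩, h.st_toSt0, h.coe_n_sim]
    ext a b
    rcases b with j | s
    · have := congrFun (h.Nm_inl (F := F) ⟨i, hi⟩ j) a
      rw [Matrix.mulVec_single_one, Matrix.col_apply] at this
      rw [this, ← h.val_sim' ⟨i, hi⟩]
      rcases a with k | u
      · simp [Pi.single_apply, ← h.A_sim', H24.RS.A_sim_sim, Fin.ext_iff]
      · simp
    · have := congrFun (h.Nm_inr (F := F) ⟨i, hi⟩ s) a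
      rw [Matrix.mulVec_single_one, Matrix.col_apply] at this
      rw [this]
      rcases a with k | u
      · simp
      · simp [Pi.single_apply, h.reflectRoot_eq ⟨i, hi⟩ s, Fin.ext_iff]

end Cfsg.Agent.S1095
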