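import Cfsg.Statements.S1096
import Cfsg.Agent.H24.Bridge

set_option autoImplicit false
open Cfsg

namespace Cfsg.Agent.S1096

/-- `n_p h_{p_j}(t) n_p⁻¹ = h_{w_p(p_j)}(t)` for fundamental `p`, `p_j` and `t ≠ 0`, stated as `n_p h_{p_j}(t) = h_{w_p(p_j)}(t) n_p`. -/
theorem result {F : Type*} [Field F] (D : Cfsg.Lie.ChevalleyDatum) (hD : D ∈ [Cfsg.Lie.chevG2, Cfsg.Lie.chevB2, Cfsg.Lie.chevD4, Cfsg.Lie.chevF4, Cfsg.Lie.chevE6, Cfsg.Lie.chevE7, Cfsg.Lie.chevE8]) (i j : ℕ) (hi : i < D.rank) (hj : j < D.rank) (t : F) (ht : t ≠ 0) :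
    D.nMat F (D.simple i) 1 * D.hMat F (D.simple j) t = D.hMat F (D.reflectRoot i (D.simple j)) t * D.nMat F (D.simple i) 1 := by
  obtain ⟨T, h⟩ := H24.exists_tab hD
  have e := h.n_mul_dg ⟨i, hi⟩ fun k => Units.mk0 t ht ^ h.rsys.A (h.rsys.sim ⟨j, hj⟩) (h.rsys.sim k)
  have e2 : (fun k => H24.RS.chi (fun k => Units.mk0 t ht ^ h.rsys.A (h.rsys.sim ⟨j, hj⟩) (h.rsys.sim k))
      (h.rsys.lin (h.rsys.s ⟨i, hi⟩) (Pi.single k 1))) =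
      fun k => Units.mk0 t ht ^ h.rsys.A (h.rsys.s ⟨i, hi⟩ (h.rsys.sim ⟨j, hj⟩)) (h.rsys.sim k) := by
    funext k
    have ha := h.rsys.s_mem_Aut ⟨i, hi⟩
    have := H24.RS.chi_zpow (Units.mk0 t ht) (h.rsys.Av (h.rsys.sim ⟨j, hj⟩))
      (h.rsys.lin (h.rsys.s ⟨i, hi⟩) (Pi.single k 1))
    simp only [← h.rsys.rt_sim, ← H24.RS.A_def, ha.1] at this ⊢
    rw [this, ← H24.RS.Aut.A ha, H24.RS.s_s]
  rw [e2, ← h.h_eq_dg, ← h.h_eq_dg, Units.ext_iff] at e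
  simp only [Units.val_mul, ← h.st_toSt0, h.coe_h, h.coe_n, ← h.reflectRoot_eq, h.val_sim', Units.val_mk0] at e
  exact e

end Cfsg.Agent.S1096
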