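import Cfsg.Statements.S1097
import Cfsg.Agent.H24.Stb

set_option autoImplicit false
open Cfsg

namespace Cfsg.Agent.S1097

/-- Any homomorphism from the presented group to the Chevalley group with `x̄_r(t) ↦ x_r(t)` has kernel contained in `H̄ = ⟨h̄_p(t) : p fundamental, t ≠ 0⟩`. -/
theorem result {K : Type*} [Field K] (D : Cfsg.Lie.ChevalleyDatum) (hD : D ∈ [Cfsg.Lie.chevG2, Cfsg.Lie.chevB2, Cfsg.Lie.chevD4, Cfsg.Lie.chevF4, Cfsg.Lie.chevE6, Cfsg.Lie.chevE7, Cfsg.Lie.chevE8]) (θ : D.SteinbergGroup K →* ↥(D.group K))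
    (hθ : ∀ (r : ℕ) (t : K), r < D.nroots → ((θ (D.stGen K r t) : GL D.Idx K) : Matrix D.Idx D.Idx K) = D.x K r t) :
    θ.ker ≤ Subgroup.closure {h | ∃ (i : ℕ) (t : K), i < D.rank ∧ t ≠ 0 ∧ h = PresentedGroup.mk (D.steinbergRels K) (D.stH (D.simple i) t)} := by
  obtain ⟨T, h⟩ := H24.exists_tab hD
  have e : ∀ r t, θ ((h.stb K).x r t) = (h.grp K).x r t := fun r t => by
    refine h.eq_grp_x r.2 ?_
    rw [← hθ r t r.2, h.stGen_eq K r.2]
  intro g hg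
  have h1 := (h.stb K).ker_le_center (h.stb_Gr K) (h.grp K) θ e hg
  rw [(h.stb K).center_eq (h.stb_Gr K)] at h1
  obtain ⟨c, rfl⟩ : g ∈ ((h.stb K).hh (h.stb_r3 K)).range := by rw [H24.St.range_hh]; exact h1.1
  refine (h.stb K).hh_induction (h.stb_r3 K) (fun c => (h.stb K).hh (h.stb_r3 K) c ∈ _) (fun i t => ?_)
    (by simp) (fun c d hc hd => by rw [map_mul]; exact Subgroup.mul_mem _ hc hd) c
  refine Subgroup.subset_closure ⟨i, t, i.2, t.ne_zero, ?_⟩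
  rw [H24.St.hh_single, ← h.val_sim', h.mk_stH]; rfl

end Cfsg.Agent.S1097
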