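import Cfsg.Statements.S1098
import Cfsg.Agent.H24.Graph

set_option autoImplicit false
open Cfsg

namespace Cfsg.Agent.S1098

set_option maxRecDepth 100000

/-- Graph automorphisms in characteristic 2 (K perfect): for B₂ (a short, b long) `x_a(t) ↦ x_b(t²)`, `x_b(t) ↦ x_a(t)`, and for F₄ (p₁, p₂ short, p₃, p₄ long) `x_{p₁}(t) ↦ x_{p₄}(t²)`, `x_{p₂}(t) ↦ x_{p₃}(t²)`, `x_{p₃}(t) ↦ x_{p₂}(t)`, `x_{p₄}(t) ↦ x_{p₁}(t)`, likewise on the negatives, extend to an automorphism of the group. -/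
theorem result {K : Type*} [Field K] [CharP K 2] (hperf : ∀ x : K, ∃ y : K, y ^ 2 = x)
    (p : Cfsg.Lie.ChevalleyDatum × List (ℕ × ℕ))
    (hp : p ∈ [(Cfsg.Lie.chevB2, [(1, 2), (0, 1)]), (Cfsg.Lie.chevF4, [(3, 2), (2, 2), (1, 1), (0, 1)])]) :
    ∃ α : ↥(p.1.group K) ≃* ↥(p.1.group K), ∀ (g : ↥(p.1.group K)) (i : ℕ) (t : K), i < p.1.rank →
      (((g : GL p.1.Idx K) : Matrix p.1.Idx p.1.Idx K) = p.1.x K (p.1.simple i) t →
        ((α g : GL p.1.Idx K) : Matrix p.1.Idx p.1.Idx K) = p.1.x K (p.1.simple (p.2.getD i (0, 1)).1) (t ^ (p.2.getD i (0, 1)).2)) ∧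
      (((g : GL p.1.Idx K) : Matrix p.1.Idx p.1.Idx K) = p.1.x K (p.1.neg (p.1.simple i)) t →
        ((α g : GL p.1.Idx K) : Matrix p.1.Idx p.1.Idx K) = p.1.x K (p.1.neg (p.1.simple (p.2.getD i (0, 1)).1)) (t ^ (p.2.getD i (0, 1)).2)) := by
  simp only [List.mem_cons, List.not_mem_nil, or_false] at hp
  have key : ∀ {D : Cfsg.Lie.ChevalleyDatum} {T : H24.Tab} (h : T.Chk D) {m : H24.MorTab} (hm : m.Chk T T)
      (L : List (ℕ × ℕ)) (π : Equiv.Perm (Fin D.rank)), m.p = 2 →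
      (∀ i : Fin D.rank, m.ph (T.simple i) = T.simple (π i)) →
      (∀ i, i < D.rank → m.ph (D.simple i) = D.simple (L.getD i (0, 1)).1 ∧ m.ep (D.simple i) = 1 ∧
        m.ex (D.simple i) = (L.getD i (0, 1)).2 ∧
        m.ph (D.neg (D.simple i)) = D.neg (D.simple (L.getD i (0, 1)).1) ∧ m.ep (D.neg (D.simple i)) = 1 ∧
        m.ex (D.neg (D.simple i)) = (L.getD i (0, 1)).2) →
      ∃ α : ↥(D.group K) ≃* ↥(D.group K), ∀ (g : ↥(D.group K)) (i : ℕ) (t : K), i < D.rank →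
      (((g : GL D.Idx K) : Matrix D.Idx D.Idx K) = D.x K (D.simple i) t →
        ((α g : GL D.Idx K) : Matrix D.Idx D.Idx K) = D.x K (D.simple (L.getD i (0, 1)).1) (t ^ (L.getD i (0, 1)).2)) ∧
      (((g : GL D.Idx K) : Matrix D.Idx D.Idx K) = D.x K (D.neg (D.simple i)) t →
        ((α g : GL D.Idx K) : Matrix D.Idx D.Idx K) =
          D.x K (D.neg (D.simple (L.getD i (0, 1)).1)) (t ^ (L.getD i (0, 1)).2)) := by
    intro D T h m hm L π h1 h3 h4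
    obtain ⟨α, hα⟩ := h.exists_graph_aut hm (RingHom.id K) (by rw [h1]; exact CharP.cast_eq_zero K 2) π h3
      fun r t => by
        rcases m.ex_spec hm.prime r with e | ⟨e, -⟩
        · exact ⟨t, by simp [e]⟩
        · obtain ⟨y, hy⟩ := hperf t
          exact ⟨y, by simp [e, h1, hy]⟩
    refine ⟨α, fun g i t hi => ⟨fun e => ?_, fun e => ?_⟩⟩
    · rw [hα g _ t (h.simple_lt' hi) e, (h4 i hi).1, (h4 i hi).2.1, (h4 i hi).2.2.1]; simp
    · rw [hα g _ t (h.neg_lt' (h.simple_lt' hi)) e, (h4 i hi).2.2.2.1, (h4 i hi).2.2.2.2.1, (h4 i hi).2.2.2.2.2]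
      simp
  rcases hp with rfl | rfl
  · exact key H24.tabB2_chk H24.morB2_chk _ (Equiv.swap (0 : Fin 2) (1 : Fin 2)) rfl (by decide +kernel) (by decide +kernel)
  · exact key H24.tabF4_chk H24.morF4_chk _ (Equiv.swap (0 : Fin 4) 3 * Equiv.swap 1 2) rfl
      (by decide +kernel) (by decide +kernel)

end Cfsg.Agent.S1098
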