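import Cfsg.Statements.S1099
import Cfsg.Agent.H24.Graph

set_option autoImplicit false
open Cfsg

namespace Cfsg.Agent.S1099

set_option maxRecDepth 100000

/-- Graph automorphism of G₂ in characteristic 3 (K perfect): `x_a(t) ↦ x_b(t³)`, `x_b(t) ↦ x_a(t)`, `x_{-a}(t) ↦ x_{-b}(t³)`, `x_{-b}(t) ↦ x_{-a}(t)` extend to an automorphism of the group. -/
theorem result {K : Type*} [Field K] [CharP K 3] (hperf : ∀ x : K, ∃ y : K, y ^ 3 = x) :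
    ∃ α : ↥(Cfsg.Lie.chevG2.group K) ≃* ↥(Cfsg.Lie.chevG2.group K), ∀ (g : ↥(Cfsg.Lie.chevG2.group K)) (t : K),
      (((g : GL Cfsg.Lie.chevG2.Idx K) : Matrix _ _ K) = Cfsg.Lie.chevG2.x K Cfsg.Lie.g2a t →
        ((α g : GL Cfsg.Lie.chevG2.Idx K) : Matrix _ _ K) = Cfsg.Lie.chevG2.x K Cfsg.Lie.g2b (t ^ 3)) ∧
      (((g : GL Cfsg.Lie.chevG2.Idx K) : Matrix _ _ K) = Cfsg.Lie.chevG2.x K Cfsg.Lie.g2b t →
        ((α g : GL Cfsg.Lie.chevG2.Idx K) : Matrix _ _ K) = Cfsg.Lie.chevG2.x K Cfsg.Lie.g2a t) ∧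
      (((g : GL Cfsg.Lie.chevG2.Idx K) : Matrix _ _ K) = Cfsg.Lie.chevG2.x K Cfsg.Lie.g2ma t →
        ((α g : GL Cfsg.Lie.chevG2.Idx K) : Matrix _ _ K) = Cfsg.Lie.chevG2.x K Cfsg.Lie.g2mb (t ^ 3)) ∧
      (((g : GL Cfsg.Lie.chevG2.Idx K) : Matrix _ _ K) = Cfsg.Lie.chevG2.x K Cfsg.Lie.g2mb t →
        ((α g : GL Cfsg.Lie.chevG2.Idx K) : Matrix _ _ K) = Cfsg.Lie.chevG2.x K Cfsg.Lie.g2ma t) := by
  obtain ⟨α, hα⟩ := H24.tabG2_chk.exists_graph_aut H24.morG2_chk (RingHom.id K) (CharP.cast_eq_zero K 3)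
    (Equiv.swap (0 : Fin 2) (1 : Fin 2)) (by decide +kernel) fun r t => by
      rcases H24.morG2.ex_spec H24.morG2_chk.prime r with e | ⟨e, -⟩
      · exact ⟨t, by simp [e]⟩
      · obtain ⟨y, hy⟩ := hperf t
        exact ⟨y, by simp only [e, RingHom.id_apply]; exact hy⟩
  have e : H24.morG2.ph Lie.g2a = Lie.g2b ∧ H24.morG2.ep Lie.g2a = 1 ∧ H24.morG2.ex Lie.g2a = 3 ∧
      H24.morG2.ph Lie.g2b = Lie.g2a ∧ H24.morG2.ep Lie.g2b = 1 ∧ H24.morG2.ex Lie.g2b = 1 ∧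
      H24.morG2.ph Lie.g2ma = Lie.g2mb ∧ H24.morG2.ep Lie.g2ma = 1 ∧ H24.morG2.ex Lie.g2ma = 3 ∧
      H24.morG2.ph Lie.g2mb = Lie.g2ma ∧ H24.morG2.ep Lie.g2mb = 1 ∧ H24.morG2.ex Lie.g2mb = 1 := by
    decide +kernel
  refine ⟨α, fun g t => ⟨fun h => ?_, fun h => ?_, fun h => ?_, fun h => ?_⟩⟩ <;>
    rw [hα g _ t (by decide) h] <;> simp [e]

end Cfsg.Agent.S1099
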