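import Cfsg.Statements.S1100
import Cfsg.Agent.H24.Torus

set_option autoImplicit false
open Cfsg

namespace Cfsg.Agent.S1100

/-- Canonical form `g = b n_w u` (`b ∈ B`, `u ∈ U_w⁻ = ⟨X_r : r > 0, n_w X_r n_w⁻¹ ≤ V⟩`): such a decomposition exists for every element of the group; the coset `n_w H` is determined by `g`; and for a fixed representative `n_w` the factors `b`, `u` are unique. -/
theorem result {F : Type*} [Field F] (D : Cfsg.Lie.ChevalleyDatum) (hD : D ∈ [Cfsg.Lie.chevG2, Cfsg.Lie.chevB2, Cfsg.Lie.chevD4, Cfsg.Lie.chevF4, Cfsg.Lie.chevE6, Cfsg.Lie.chevE7, Cfsg.Lie.chevE8]) :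
    (∀ g ∈ D.group F, ∃ b ∈ D.borelSubgroup F, ∃ n ∈ D.monomialSubgroup F,
      ∃ u ∈ Subgroup.closure {x : GL D.Idx F | ∃ (r : ℕ) (t : F), D.IsPosRoot r ∧
            (D.rootSubgroup F r).map (MulAut.conj n).toMonoidHom ≤ D.negUnipotent F ∧ (x : Matrix D.Idx D.Idx F) = D.x F r t},
        g = b * n * u) ∧
    (∀ (b b' n n' u u' : GL D.Idx F), b ∈ D.borelSubgroup F → b' ∈ D.borelSubgroup F →
      n ∈ D.monomialSubgroup F → n' ∈ D.monomialSubgroup F →
      u ∈ Subgroup.closure {x : GL D.Idx F | ∃ (r : ℕ) (t : F), D.IsPosRoot r ∧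
            (D.rootSubgroup F r).map (MulAut.conj n).toMonoidHom ≤ D.negUnipotent F ∧ (x : Matrix D.Idx D.Idx F) = D.x F r t} →
      u' ∈ Subgroup.closure {x : GL D.Idx F | ∃ (r : ℕ) (t : F), D.IsPosRoot r ∧
            (D.rootSubgroup F r).map (MulAut.conj n').toMonoidHom ≤ D.negUnipotent F ∧ (x : Matrix D.Idx D.Idx F) = D.x F r t} →
      b * n * u = b' * n' * u' → n⁻¹ * n' ∈ D.diagonalSubgroup F ∧ (n = n' → b = b' ∧ u = u')) := by
  obtain ⟨T, h⟩ := H24.exists_tab hD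
  have key : ∀ {n : GL D.Idx F} {w}, (h.st F).Rep n w → Subgroup.closure {x : GL D.Idx F | ∃ (r : ℕ) (t : F),
      D.IsPosRoot r ∧ (D.rootSubgroup F r).map (MulAut.conj n).toMonoidHom ≤ D.negUnipotent F ∧
      (x : Matrix D.Idx D.Idx F) = D.x F r t} = (h.st F).Um w := by
    intro n w hr
    have e := h.closure_eq F (fun r => D.IsPosRoot r ∧
      (D.rootSubgroup F r).map (MulAut.conj n).toMonoidHom ≤ D.negUnipotent F) fun r hr => hr.1.1
    simp only [and_assoc] at e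
    rw [e, H24.St0.Um]; congr 1; ext r
    simp only [Set.mem_ofPred_eq, h.cd_toRS, ← h.pos_iff, h.rootSubgroup_eq F, h.negUnipotent_eq F, hr.map_XS,
      Set.image_singleton, H24.St0.XS_le, Set.mem_singleton_iff, forall_eq, and_congr_right_iff]
    exact fun _ => ⟨fun H => (h.st F).not_pos_of_x_mem_V one_ne_zero (H 1), fun H t => (h.st F).x_mem_V H t⟩
  rw [h.borelSubgroup_eq F, h.group_eq F, h.monomialSubgroup_eq F, h.diagonalSubgroup_eq F]
  refine ⟨fun g hg => ?_, fun b b' n n' u u' hb hb' hn hn' hu hu' e => ?_⟩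
  · obtain ⟨w, hw, hg⟩ := (h.st F).mem_Gr_iff.1 hg
    obtain ⟨n, hn, hr⟩ := (h.st F).exists_N_rep hw
    obtain ⟨b, hb, u, hu, e⟩ := (h.st F).exists_canon hg hn hr
    exact ⟨b, hb, n, hn, u, key hr ▸ hu, e⟩
  · obtain ⟨w, -, hr⟩ := (h.st F).exists_rep hn
    obtain ⟨w', -, hr'⟩ := (h.st F).exists_rep hn'
    rw [key hr] at hu
    rw [key hr'] at hu'
    obtain rfl := (h.st F).cell_unique
      ((h.st F).canon_mem_cell hn hr hb ((h.st F).U_le_B ((h.st F).Um_le_U _ hu)))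
      (e ▸ (h.st F).canon_mem_cell hn' hr' hb' ((h.st F).U_le_B ((h.st F).Um_le_U _ hu')))
    refine ⟨(h.st F).mem_H_of_rep hn hn' hr hr', ?_⟩
    rintro rfl
    exact (h.st F).canon_unique hr hb hb' hu hu' e

end Cfsg.Agent.S1100
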