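import Cfsg.Statements.S1108
import Cfsg.Agent.H24.TwD4

set_option autoImplicit false
open Cfsg

namespace Cfsg.Agent.S1108

/-- ³D₄(q) equals its derived subgroup. -/
theorem result {K : Type*} [Field K] [Fintype K] {q : ℕ} (hq : IsPrimePow q) (hK : Fintype.card K = q ^ 3) : commutator ↥(Cfsg.Lie.twistedD4 K q) = ⊤ := by
  obtain ⟨f, hf, hq'⟩ := H24.D4.exists_f hq hK
  exact (H24.D4.pack f hf hq').perfect (H24.D4.perf f hf (H24.D4.exists_sq hq.one_lt hK))

end Cfsg.Agent.S1108
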