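import Cfsg.Statements.S1132
import Cfsg.Agent.H17.Sz2

set_option autoImplicit false
open Cfsg

namespace Cfsg.Agent.S1132

open H17 Cfsg

open H16 Subgroup

/-- In the rank-one set-up (`G` finite and doubly transitive on `Ω`, `t` an involution moving `a`, `Q` normal in `G_a` with `G_a = Q D`, `Q ⊓ D = 1` for the two-point stabiliser `D = G_a ⊓ G_{t • a}`, `|Q|` even, `|D|` odd), with the action faithful and `G` containing two distinct commuting involutions: a Sylow 2-subgroup of `Q` is abelian or a Suzuki 2-group. -/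
theorem result {G Ω : Type*} [Group G] [Finite G] [MulAction G Ω] [FaithfulSMul G Ω] {a : Ω} {t : G} {Q : Subgroup G}
    (hS : Cfsg.IsRankOneSetup G Ω a t Q)
    (h2 : ∃ x y : G, x ≠ 1 ∧ y ≠ 1 ∧ x ≠ y ∧ x * x = 1 ∧ y * y = 1 ∧ x * y = y * x)
    (S : Sylow 2 ↥Q) : IsMulCommutative (S : Subgroup ↥Q) ∨ Cfsg.IsSuzukiTwoGroup ↥(S : Subgroup ↥Q) := by
  have h : H17.SZ G Ω a t Q := ⟨hS, h2⟩
  have hsy := sy_of_sylow S
  set S' := (S : Subgroup Q).map Q.subtype
  have hn : N[Q] ≤ N[S'] := hl_nil_norm h.nil hsy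
  have hK : H17.KK a t ≤ N[S'] := H17.K_le.trans (h.D_norm.trans hn)
  have h0 : H17.Q0 Q ≤ S' := le_hl_normal hsy ((le_norm Q).trans hn) H17.Q0_le (pg_iff.2 h.pg_Q0)
  obtain ⟨n, -, _, e, -, H⟩ := h.exists_hig (map_subtype_le _) h0 (sy_pg hsy) hK
  set ρ := (S'.normalizerMonoidHom.comp (inclusion hK)).comp e.toMonoidHom
  let j : (S : Subgroup Q) ≃* S' := (S : Subgroup Q).equivMapOfInjective _ Q.subtype_injective
  by_cases hc : ∀ x y : (S : Subgroup Q), x * y = y * x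
  · exact Or.inl ⟨⟨hc⟩⟩
  push Not at hc
  refine Or.inr ⟨inferInstance, S.isPGroup', hc, ?_, ((MulAut.congr j.symm).toMonoidHom.comp ρ).range,
    isCyclic_of_surjective _ (MonoidHom.rangeRestrict_surjective _), ?_⟩
  · obtain ⟨x, y, hx, hy, hxy, -⟩ := h.r1.exists_four h.two
    refine ⟨j.symm ⟨x, h0 (h.inv_iff.1 hx).1⟩, j.symm ⟨y, h0 (h.inv_iff.1 hy).1⟩,
      fun e => hxy (congrArg Subtype.val (j.symm.injective e)), ?_, ?_, ?_, ?_⟩
    · exact fun e => hx.2.1 (congrArg Subtype.val ((map_eq_one_iff _ j.symm.injective).1 e))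
    · rw [← map_mul, map_eq_one_iff _ j.symm.injective]; exact Subtype.ext hx.2.2
    · exact fun e => hy.2.1 (congrArg Subtype.val ((map_eq_one_iff _ j.symm.injective).1 e))
    · rw [← map_mul, map_eq_one_iff _ j.symm.injective]; exact Subtype.ext hy.2.2
  · intro x y hx1 hx hy1 hy
    have hx1' : j x ≠ 1 := by simpa using hx1
    have hx' : j x * j x = 1 := by rw [← map_mul, hx, map_one]
    obtain ⟨k, hk⟩ := H.trans (j x) (j y) hx1' hx' (by simpa using hy1) (by rw [← map_mul, hy, map_one])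
    refine ⟨⟨_, k, rfl⟩, ?_, ?_⟩
    · show j.symm (ρ k (j x)) = y
      rw [hk]; simp
    · rintro ⟨_, l, rfl⟩ hl
      have hl' : j.symm (ρ l (j x)) = y := hl
      have h1 : ρ l (j x) = ρ k (j x) := by rw [hk, ← hl']; simp
      have h2 := H.free (k⁻¹ * l) (j x) hx1' hx' (by rw [map_mul, MulAut.mul_apply, h1]; simp)
      rw [inv_mul_eq_one.1 h2]

end Cfsg.Agent.S1132
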