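import Cfsg.Statements.S1141
import Cfsg.Agent.H6.U34b
import Cfsg.Agent.H22.SpSu

set_option autoImplicit false
open Cfsg

namespace Cfsg.Agent.S1141


open H6 Subgroup

attribute [-simp] H23.conj_apply

theorem transfer {P P' : Type*} [Group P] [Group P'] (e : P ≃* P') (h : Cfsg.IsSuzukiTwoGroup P') :
    Cfsg.IsSuzukiTwoGroup P := by
  obtain ⟨h1, h2, ⟨x, y, h3⟩, ⟨u, v, h4, h5, h6, h7, h8⟩, K, hK, h9⟩ := h
  refine ⟨Finite.of_equiv _ e.symm.toEquiv, h2.of_equiv e.symm, ⟨e.symm x, e.symm y, fun h => h3 (by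
    simpa using congrArg e h)⟩, ⟨e.symm u, e.symm v, by simpa, by simpa, by rw [← map_mul, h6, map_one], by simpa,
    by rw [← map_mul, h8, map_one]⟩, K.map (MulAut.congr e.symm).toMonoidHom,
    isCyclic_of_surjective _ ((MulAut.congr e.symm).toMonoidHom.subgroupMap_surjective K), fun x y a1 a2 a3 a4 => ?_⟩
  obtain ⟨k, hk, hk'⟩ := h9 (e x) (e y) (by simpa) (by rw [← map_mul, a2, map_one]) (by simpa)
    (by rw [← map_mul, a4, map_one])
  refine ⟨⟨_, k, k.2, rfl⟩, by simp [hk], ?_⟩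
  rintro ⟨_, l, hl, rfl⟩ h
  obtain rfl := hk' ⟨l, hl⟩ (by simpa using congrArg e h)
  rfl

theorem main {F : Type*} [Field F] [Fintype F] [CharP F 2] {q : ℕ} (hF : Fintype.card F = q ^ 2) (hq : 4 ≤ q)
    (h2 : IsPGroup 2 (UG hF)) : Nat.card (center (UG hF)) = q ∧ Cfsg.IsSuzukiTwoGroup (UG hF) := by
  have t0 : (2 : F) = 0 := CharTwo.two_eq_zero
  obtain ⟨u, hu⟩ : ∃ u : F, H23.conj hF u ≠ u := by
    by_contra! h
    exact H23.conj_ne_id hF (RingHom.ext h)
  have hex : ∀ a : F, ∃ x : UG hF, x.a = a := fun a => by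
    have := H23.card_trace_eq hF (μ := H23.conj hF a * a) (by
      rw [← H23.conj_apply hF, map_mul, H23.conj_conj, mul_comm])
    obtain ⟨s, hs⟩ := (Nat.card_ne_zero.1 (this ▸ (by omega : q ≠ 0))).1
    exact ⟨⟨a, s, hs⟩, rfl⟩
  have hc : ∀ x : UG hF, x ∈ center (UG hF) ↔ x.a = 0 := fun x => by
    refine ⟨fun h => ?_, fun h => mem_center_iff.2 fun y => UG.ext (add_comm _ _) (by simp [h, add_comm])⟩
    obtain ⟨y, hy⟩ := hex (x.a * u)
    have := congrArg UG.s (mem_center_iff.1 h y)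
    simp only [UG.mul_s, hy, map_mul] at this
    have h3 : H23.conj hF x.a * x.a * (H23.conj hF u - u) = 0 := by linear_combination this
    simpa [sub_ne_zero.2 hu] using h3
  have hcard : Nat.card (center (UG hF)) = q := by
    refine Eq.trans ?_ (H23.card_trace_zero hF)
    exact Nat.card_congr ⟨fun x => ⟨x.1.s, by simpa [(hc _).1 x.2, H23.conj_apply] using x.1.tr⟩,
      fun s => ⟨⟨0, s.1, by rw [mul_zero]; exact s.2⟩, (hc _).2 rfl⟩, fun x => Subtype.ext (UG.ext ((hc _).1 x.2).symm rfl),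
      fun _ => rfl⟩
  let τ : Fˣ →* MulAut (UG hF) := MonoidHom.mk' UG.tor fun k l => MulEquiv.ext fun x =>
    UG.ext (by simp [UG.tor, mul_assoc]) (by simp [UG.tor]; ring)
  have hfix : ∀ l : Fˣ, l ∈ (powMonoidHom (q - 1) : Fˣ →* Fˣ).ker ↔ H23.conj hF l = l := fun l => by
    rw [MonoidHom.mem_ker, powMonoidHom_apply, H23.conj_apply, ← Units.val_pow_eq_pow_val, Units.val_inj,
      show q = q - 1 + 1 by omega, pow_succ, mul_eq_right, Nat.add_sub_cancel]
  refine ⟨hcard, inferInstance, h2, ?_, ?_, (powMonoidHom (q - 1) : Fˣ →* Fˣ).ker.map τ,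
    isCyclic_of_surjective _ (τ.subgroupMap_surjective _), fun x y a1 a2 a3 a4 => ?_⟩
  · obtain ⟨x, hx⟩ := hex 1
    by_contra! h
    exact one_ne_zero (hx ▸ (hc x).1 (mem_center_iff.2 fun y => h y x))
  · have := Fintype.ofFinite (center (UG hF))
    obtain ⟨x, y, z, h1, h3, h4⟩ := (Fintype.two_lt_card_iff (α := center (UG hF))).1 (by
      rw [← Nat.card_eq_fintype_card]; omega)
    have h5 : ∀ x : center (UG hF), x.1 * x.1 = 1 := fun x => UG.mul_self_eq_one.2 ((hc _).1 x.2)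
    by_cases hx : x = 1
    · subst hx
      exact ⟨y, z, fun e => h4 (Subtype.ext e), fun e => h1 (Subtype.ext e.symm), h5 _,
        fun e => h3 (Subtype.ext e.symm), h5 _⟩
    by_cases hy : y = 1
    · subst hy
      exact ⟨x, z, fun e => h3 (Subtype.ext e), fun e => hx (Subtype.ext e), h5 _,
        fun e => h4 (Subtype.ext e.symm), h5 _⟩
    exact ⟨x, y, fun e => h1 (Subtype.ext e), fun e => hx (Subtype.ext e), h5 _, fun e => hy (Subtype.ext e), h5 _⟩
  have b1 := UG.mul_self_eq_one.1 a2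
  have b2 := UG.mul_self_eq_one.1 a4
  have c1 : x.s ≠ 0 := fun e => a1 (UG.ext b1 e)
  have c2 : y.s ≠ 0 := fun e => a3 (UG.ext b2 e)
  have d : ∀ x : UG hF, x.a = 0 → H23.conj hF x.s = x.s := fun x h => by
    have := x.tr
    rw [h, mul_zero] at this
    linear_combination this - x.s * t0
  have hsq : ∀ u v : F, u * u = v * v → u = v := fun u v h => by
    have : (u + v) ^ 2 = 0 := by linear_combination h + (u * v + v * v) * t0
    linear_combination (pow_eq_zero_iff two_ne_zero).1 this - v * t0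
  obtain ⟨l, hl⟩ := FiniteField.isSquare_of_char_two (ringChar.eq F 2) (y.s / x.s)
  have hl0 : l ≠ 0 := by rintro rfl; simp [c1, c2] at hl
  have hl1 : H23.conj hF l = l := hsq _ _ (by rw [← map_mul, ← hl, map_div₀, d x b1, d y b2])
  refine ⟨⟨_, Units.mk0 l hl0, (hfix _).2 hl1, rfl⟩, UG.ext (by simp [τ, UG.tor, b1, b2])
    (by simp [τ, UG.tor, hl1, ← hl, c1]), ?_⟩
  rintro ⟨_, k, hk, rfl⟩ h
  have := congrArg UG.s h
  simp only [τ, UG.tor, MonoidHom.mk'_apply, MulEquiv.coe_mk, Equiv.coe_fn_mk, (hfix k).1 hk] at this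
  exact Subtype.ext (congrArg τ (Units.ext (hsq _ _ (by rw [Units.val_mk0, ← hl, ← this]; field_simp))))

/-- Let `q = 2^n ≥ 4` and `|F| = q²`. A Sylow 2-subgroup `S` of `PSU₃(q)` has order `q³`, its centre has order `q`, and `S` is a Suzuki 2-group. -/
theorem result {F : Type*} [Field F] [Fintype F] {n : ℕ} (hn : 2 ≤ n)
    (hF : Fintype.card F = (2 ^ n) ^ 2) (S : Sylow 2 (Cfsg.PSU 3 F (2 ^ n))) :
    Nat.card S = (2 ^ n) ^ 3 ∧ Nat.card (Subgroup.center ↥(S : Subgroup (Cfsg.PSU 3 F (2 ^ n)))) = 2 ^ n ∧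
      Cfsg.IsSuzukiTwoGroup ↥(S : Subgroup (Cfsg.PSU 3 F (2 ^ n))) := by
  have := Fact.mk Nat.prime_two
  have : CharP F 2 := charP_of_card_eq_prime_pow (hF.trans (pow_mul 2 n 2).symm)
  have hq : 4 ≤ 2 ^ n := Nat.pow_le_pow_right (n := 2) two_pos hn
  have he : Even (2 ^ n) := Nat.even_pow.2 ⟨even_two, by omega⟩
  have h2 : IsPGroup 2 (UG hF) := IsPGroup.of_card (UG.card.trans (pow_mul 2 n 3).symm)
  have hz := H22.card_center_SU hF 3 (by norm_num)
  have hzo : Odd (Nat.card (center (SU 3 F (2 ^ n)))) := hz ▸ Odd.of_dvd_nat (by decide) (Nat.gcd_dvd_left _ _)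
  let f := (QuotientGroup.mk' (center (SU 3 F (2 ^ n)))).comp (UG.toSU (hF := hF))
  have hf : Function.Injective f := (injective_iff_map_eq_one _).2 fun x hx => by
    obtain ⟨k, hk⟩ := h2 x
    have h3 := hzo.of_dvd_nat (Subgroup.orderOf_dvd_natCard _ ((QuotientGroup.eq_one_iff _).1 hx))
    rw [orderOf_injective _ UG.toSU_injective] at h3
    exact orderOf_eq_one_iff.1 (Nat.Coprime.eq_one_of_dvd (Nat.Coprime.pow_right k
      (Nat.coprime_two_right.2 h3)) (orderOf_dvd_of_pow_eq_one hk))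
  have h4 := H22.card_SU hF 3 (by norm_num)
  have h5 : Nat.card f.range = (2 ^ n) ^ 3 := by rw [← Nat.card_congr (MonoidHom.ofInjective hf).toEquiv, UG.card]
  have h6 : ¬ 2 ∣ f.range.index := by
    rw [card_eq_card_quotient_mul_card_subgroup (center _), ← f.range.card_mul_index, h5] at h4
    simp only [Finset.prod_range_succ] at h4
    norm_num at h4
    have h7 : f.range.index * Nat.card (center (SU 3 F (2 ^ n))) = ((2 ^ n) ^ 2 - 1) * ((2 ^ n) ^ 3 + 1) :=
      Nat.eq_of_mul_eq_mul_left (show 0 < (2 ^ n + 1) * (2 ^ n) ^ 3 by positivity) (by linear_combination h4)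
    have h8 : Odd (((2 ^ n) ^ 2 - 1) * ((2 ^ n) ^ 3 + 1)) :=
      (Nat.Even.sub_odd (Nat.one_le_pow _ _ (by omega)) (he.pow_of_ne_zero two_ne_zero) odd_one).mul
        (he.pow_of_ne_zero three_ne_zero).add_one
    exact (Odd.of_dvd_nat (h7 ▸ h8) (dvd_mul_right _ _)).not_two_dvd_nat
  have e : S ≃* UG hF := (S.equiv ((h2.of_equiv (MonoidHom.ofInjective hf)).toSylow h6)).trans
    (MonoidHom.ofInjective hf).symm
  obtain ⟨h7, h8⟩ := main hF hq h2
  exact ⟨(Nat.card_congr e.toEquiv).trans UG.card, (Nat.card_congr (centerCongr e).toEquiv).trans h7, transfer e h8⟩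

end Cfsg.Agent.S1141
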