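import Cfsg.Statements.S1142
import Cfsg.Agent.H26.FH2

set_option autoImplicit false
open Cfsg

namespace Cfsg.Agent.S1142


/-- Feit–Higman: if a finite group has a (B,N)-pair of rank 2, its Weyl group `N/(B ⊓ N)` has order 4, 6, 8, 12 or 16. -/
theorem result {G : Type*} [Group G] [Finite G] (P : Cfsg.BNPair G)
    (h2 : P.rank = 2) :
    ((P.B ⊓ P.N).subgroupOf P.N).index ∈ ({4, 6, 8, 12, 16} : Set ℕ) := by
  obtain ⟨a, b, hab, h⟩ := Nat.card_eq_two_iff.1 h2
  have h3 : ∀ c : P.S, c = a ∨ c = b := fun c => by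
    have : c ∈ ({a, b} : Set P.S) := h ▸ Set.mem_univ c
    simpa using this
  have h4 : ((P.B ⊓ P.N).subgroupOf P.N).index = _ := H26.BN.card_W_two hab h3
  have h5 := H26.BN.orderOf_cases hab
  rw [h4]
  simp only [Set.mem_insert_iff, Set.mem_singleton_iff] at h5 ⊢
  omega

end Cfsg.Agent.S1142
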