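import Cfsg.Statements.S1147
import Cfsg.Agent.H26.ZS13

set_option autoImplicit false
open Cfsg

namespace Cfsg.Agent.S1147


/-- Let a finite simple Zassenhaus group `G` on `Ω` have a normal subgroup `U` of `G_a`, regular on `Ω` minus `a`, which is a non-abelian 2-group. Then `|Ω| = 2^(2n) + 1` with `n` odd, `n > 1`, a two-point stabiliser `G_a ⊓ G_b` is cyclic of order `2^n - 1`, and `U` is isomorphic to the type-A group over a field with `2^n` elements for some field automorphism `φ`. -/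
theorem result {G Ω : Type*} [Group G] [Finite G] [MulAction G Ω] [Finite Ω]
    (hZ : Cfsg.IsZassenhausGroup G Ω) [IsSimpleGroup G] {a b : Ω} (hab : a ≠ b)
    (U : Subgroup G) (hUle : U ≤ MulAction.stabilizer G a)
    (hUn : ∀ h ∈ MulAction.stabilizer G a, ∀ u ∈ U, h * u * h⁻¹ ∈ U)
    (hreg : ∀ c d : Ω, c ≠ a → d ≠ a → ∃! u : U, (u : G) • c = d)
    (hU2 : IsPGroup 2 U) (hUna : ∃ u ∈ U, ∃ v ∈ U, u * v ≠ v * u) :
    ∃ n : ℕ, Odd n ∧ 1 < n ∧ Nat.card Ω = 2 ^ (2 * n) + 1 ∧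
      IsCyclic ↥(MulAction.stabilizer G a ⊓ MulAction.stabilizer G b) ∧
      Nat.card ↥(MulAction.stabilizer G a ⊓ MulAction.stabilizer G b) = 2 ^ n - 1 ∧
      ∃ (F : Type) (_ : Field F) (_ : Fintype F) (φ : F ≃+* F), Fintype.card F = 2 ^ n ∧
        Nonempty (U ≃* Cfsg.suzukiTypeA F (φ : F →+* F)) := by
  have hZ : H26.Zas G Ω := hZ
  have hK := H26.ker_of_reg hUle hUn hreg
  obtain ⟨u, hu, v, hv, h⟩ := hUna
  obtain ⟨m, hm, h1, h2, -, h3⟩ := hZ.suzuki hK hab.symm fun hc => h (setLike_mul_comm hu hv)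
  have hO := hZ.zo_of_odd (by rw [hK.card_Ω hab.symm]; exact (hZ.even_of_two hK hU2).add_one)
  refine ⟨2 * m + 1, odd_two_mul_add_one m, by omega, ?_, hO.cyclic hab.symm, by rw [← h1]; rfl, h3⟩
  rw [hK.card_Ω hab.symm, h2, ← pow_mul, mul_comm]

end Cfsg.Agent.S1147
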