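import Cfsg.Statements.S1151
import Cfsg.Agent.H24.ReeF

set_option autoImplicit false
set_option maxHeartbeats 400000
open Cfsg

namespace Cfsg.Agent.S1151

/-- In the small Ree group ²G₂(q), q = 3^(2m+1), realised as G¹ inside the Chevalley group G₂ over the field with q elements (θ the 3^m-th power map), with H¹ = G¹ ∩ H and U¹ = G¹ ∩ U the intersections with the ambient diagonal and positive unipotent subgroups: `H¹` has exactly `(q - 1)/2` elements of odd order, and each non-identity one centralises no non-identity element of `U¹`. -/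
theorem result {K : Type*} [Field K] [Fintype K] {m : ℕ} (hK : Fintype.card K = 3 ^ (2 * m + 1)) :
    2 * Nat.card {h : ↥(Cfsg.Lie.chevG2.diagonalSubgroup K ⊓ Cfsg.Lie.twistedG2 K (3 ^ m)) // Odd (orderOf h)} = 3 ^ (2 * m + 1) - 1 ∧
      ∀ h ∈ (Cfsg.Lie.chevG2.diagonalSubgroup K ⊓ Cfsg.Lie.twistedG2 K (3 ^ m)), h ≠ 1 → Odd (orderOf h) →
        (Cfsg.Lie.chevG2.posUnipotent K ⊓ Cfsg.Lie.twistedG2 K (3 ^ m)) ⊓ Subgroup.centralizer {h} = ⊥ := by
  obtain ⟨R, hU, h, -⟩ := H24.G2.exists_ree hK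
  have := R.finite
  rw [h, hU, H24.G2.card_ord_map (Subgroup.subtype_injective _) _ Odd]
  refine ⟨H24.Ree.odd_H (H24.reeNum m) hK, ?_⟩
  rintro _ ⟨_, ⟨l, rfl⟩, rfl⟩ h1 h2
  rw [orderOf_injective _ (Subgroup.subtype_injective _)] at h2
  refine eq_bot_iff.2 ?_
  rintro _ ⟨⟨u, hu, rfl⟩, h3⟩
  rw [Subgroup.mem_bot.1 ((R.fpf (fun e => h1 (by rw [e, map_one])) h2).le ⟨hu,
    Subgroup.mem_centralizer_singleton_iff.2 (Subtype.ext (Subgroup.mem_centralizer_singleton_iff.1 h3))⟩), map_one]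
  exact one_mem _

end Cfsg.Agent.S1151
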