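import Cfsg.Statements.S1165
import Cfsg.Agent.H26.R1b

set_option autoImplicit false
open Cfsg

namespace Cfsg.Agent.S1165


/-- In the rank-one set-up (`G` finite and doubly transitive on `Ω`, `t` an involution moving `a`, `Q` normal in `G_a` with `G_a = Q D`, `Q ⊓ D = 1` for the two-point stabiliser `D = G_a ⊓ G_{t • a}`, `|Q|` even, `|D|` odd): every `x ∈ Q`, `x ≠ 1`, determines unique `g, f ∈ Q`, `h ∈ D` with `t x t = g h t f` (a consequence of the canonical form). For these: (H1) the `f`-part of `x⁻¹` is `g⁻¹`; (H2) the `f`-part of `f` is `x`; (H3) for `a ∈ D` the `f`-part of `a⁻¹ x a` is `(t a t)⁻¹ f (t a t)`; (H4) the `h`-part of `a⁻¹ x a` is `(t a t)⁻¹ h a`, that of `x⁻¹` is `t h⁻¹ t`, and that of `f` is `h⁻¹`. -/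
theorem result {G Ω : Type*} [Group G] [Finite G] [MulAction G Ω] {a : Ω} {t : G} {Q : Subgroup G}
    (hS : Cfsg.IsRankOneSetup G Ω a t Q)
    (x g h f : G) (hx : x ∈ Q) (hx1 : x ≠ 1) (hg : g ∈ Q) (hh : h ∈ (MulAction.stabilizer G a ⊓ MulAction.stabilizer G (t • a))) (hf : f ∈ Q)
    (heq : t * x * t = g * h * t * f) :
    (∀ g₁ h₁ f₁ : G, g₁ ∈ Q → h₁ ∈ (MulAction.stabilizer G a ⊓ MulAction.stabilizer G (t • a)) → f₁ ∈ Q → t * x⁻¹ * t = g₁ * h₁ * t * f₁ →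
        f₁ = g⁻¹ ∧ h₁ = t * h⁻¹ * t) ∧
      (∀ g₂ h₂ f₂ : G, g₂ ∈ Q → h₂ ∈ (MulAction.stabilizer G a ⊓ MulAction.stabilizer G (t • a)) → f₂ ∈ Q → t * f * t = g₂ * h₂ * t * f₂ →
        f₂ = x ∧ h₂ = h⁻¹) ∧
      ∀ c ∈ (MulAction.stabilizer G a ⊓ MulAction.stabilizer G (t • a)), ∀ g₃ h₃ f₃ : G, g₃ ∈ Q → h₃ ∈ (MulAction.stabilizer G a ⊓ MulAction.stabilizer G (t • a)) → f₃ ∈ Q →
        t * (c⁻¹ * x * c) * t = g₃ * h₃ * t * f₃ →
          f₃ = (t * c * t)⁻¹ * f * (t * c * t) ∧ h₃ = (t * c * t)⁻¹ * h * c := by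
  replace hS : H26.R1 G Ω a t Q := hS
  refine ⟨fun g₁ h₁ f₁ h1 h2 h3 e => ?_, fun g₂ h₂ f₂ h1 h2 h3 e => ?_, fun c hc g₃ h₃ f₃ h1 h2 h3 e => ?_⟩
  · have := hS.canon3_unique h1 (Q.inv_mem hf) h2 (hS.t_conj_mem_D (inv_mem hh)) h3 (Q.inv_mem hg) (by
      rw [← e]
      have := congrArg Inv.inv heq
      simpa only [mul_inv_rev, hS.t_inv, mul_assoc, hS.tt, mul_one, hS.t_mul_mul] using this)
    exact ⟨this.2.2, this.2.1⟩
  · have := hS.canon3_unique h1 (hS.conj' hh.1 (Q.inv_mem hg)) h2 (inv_mem hh) h3 hx (by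
      rw [← e]
      have : f = t * h⁻¹ * g⁻¹ * (t * x * t) := by
        rw [heq]; simp only [mul_assoc, inv_mul_cancel_left, hS.t_mul_mul]
      rw [this]
      simp only [mul_assoc, mul_inv_cancel_left, hS.t_mul_mul, hS.tt, mul_one])
    exact ⟨this.2.2, this.2.1⟩
  · have hc' := hS.t_conj_mem_D hc
    have := hS.canon3_unique h1 (hS.conj' hc'.1 hg) h2 (mul_mem (mul_mem (inv_mem hc') hh) hc) h3
      (hS.conj' hc'.1 hf) (by
      rw [← e]
      have : x = t * (g * h * t * f) * t := by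
        rw [← heq]; simp only [mul_assoc, hS.t_mul_mul, hS.tt, mul_one]
      rw [this]
      simp only [mul_assoc, mul_inv_cancel_left, hS.t_mul_mul, hS.tt, mul_one, mul_inv_rev, hS.t_inv])
    exact ⟨this.2.2, this.2.1⟩

end Cfsg.Agent.S1165
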