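import Cfsg.Statements.S1167
import Cfsg.Agent.H26.ZS10

set_option autoImplicit false
open Cfsg

namespace Cfsg.Agent.S1167


/-- Let `G` be a finite simple Zassenhaus group on `Ω`, `U` a normal subgroup of `G_a` regular on `Ω` minus `a` which is an abelian 2-group, and `v` an involution with `v • a ≠ a`. Then there is a unique `u₀ ∈ U`, `u₀ ≠ 1`, with `v u₀ v = u₀ v u₀`. -/
theorem result {G Ω : Type*} [Group G] [Finite G] [MulAction G Ω] [Finite Ω]
    (hZ : Cfsg.IsZassenhausGroup G Ω) [IsSimpleGroup G] {a : Ω}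
    (U : Subgroup G) (hUle : U ≤ MulAction.stabilizer G a)
    (hUn : ∀ h ∈ MulAction.stabilizer G a, ∀ u ∈ U, h * u * h⁻¹ ∈ U)
    (hreg : ∀ c d : Ω, c ≠ a → d ≠ a → ∃! u : U, (u : G) • c = d)
    (hU2 : IsPGroup 2 U) (hUab : ∀ u ∈ U, ∀ u' ∈ U, u * u' = u' * u)
    (v : G) (hv1 : v ≠ 1) (hv2 : v * v = 1) (hva : v • a ≠ a) :
    ∃! u₀ : G, u₀ ∈ U ∧ u₀ ≠ 1 ∧ v * u₀ * v = u₀ * v * u₀ := by
  have hZ : H26.Zas G Ω := hZ
  have hK := H26.ker_of_reg hUle hUn hreg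
  have hne := hZ.z3.ker_ne_bot hK hva (hZ.D_ne_bot hva)
  have he : Even (Nat.card U) := by
    obtain ⟨n, hn⟩ := IsPGroup.iff_card.1 hU2
    have h1 := (Subgroup.one_lt_card_iff_ne_bot _).2 hne
    rw [hn] at h1 ⊢
    refine (Nat.even_pow.2 ⟨even_two, ?_⟩)
    rintro rfl
    simp at h1
  have hO := hZ.zo_of_odd (by rw [hK.card_Ω hva]; exact he.add_one)
  have hS := hO.r1 hK hva he (t := v) ⟨rfl, by rw [← mul_smul, hv2, one_smul]⟩
  have hsq : ∀ u ∈ U, u * u = 1 := by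
    obtain ⟨-, p, hp, h⟩ := hZ.z3.elemAb hK hva (hZ.D_ne_bot hva)
      ((hZ.le_or hK hva).resolve_right fun h => h.2 ⟨⟨fun x y => Subtype.ext (hUab _ x.2 _ y.2)⟩⟩)
    obtain ⟨s, hs, h1, h2⟩ := hS.exists_inv
    have := orderOf_dvd_of_pow_eq_one (h s hs)
    rw [H26.orderOf_eq_two_iff'.2 ⟨h1, h2⟩, Nat.prime_dvd_prime_iff_eq Nat.prime_two hp] at this
    subst this
    simpa [sq] using h
  obtain ⟨s, r, hs, hr, e⟩ := hS.exists_struct
  have hsU := hS.inv_mem_Q hs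
  have h1 : r⁻¹ * (s * v) * r = (s * v) ^ 2 := by
    calc _ = r⁻¹ * s * v * r := by group
      _ = s * (r⁻¹ * v * r) := by rw [hUab _ (U.inv_mem hr) _ hsU]; group
      _ = _ := by rw [← e, sq]; group
  have h2 : s * v = (s * v) ^ 4 := by
    calc s * v = (r * r)⁻¹ * (s * v) * (r * r) := by rw [hsq r hr]; group
      _ = r⁻¹ * (r⁻¹ * (s * v) * r) * r := by group
      _ = (r⁻¹ * (s * v) * r) ^ 2 := by rw [h1, ← h1]; conv_lhs => rw [h1]
                                        simp only [sq]; group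
      _ = _ := by rw [h1, ← pow_mul]
  have e' : v * s * v = s * v * s := by
    have h3 : (s * v) ^ 3 = 1 := by rwa [pow_succ, right_eq_mul] at h2
    calc v * s * v = (s * s) * v * s * v * (s * (v * v) * s) := by rw [hv2, mul_one, hs.2.2]; group
      _ = s * (s * v) ^ 3 * v * s := by simp only [pow_succ]; group
      _ = _ := by rw [h3, mul_one]
  refine ⟨s, ⟨hsU, hs.2.1, e'⟩, fun u hu => ?_⟩
  exact (hS.struct_unique ⟨hK.le hu.1, hu.2.1, hsq u hu.1⟩ hu.1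
    (by rw [hu.2.2, inv_eq_of_mul_eq_one_right (hsq u hu.1)]) hs hr e).1

end Cfsg.Agent.S1167
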