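import Cfsg.Statements.S1176
import Cfsg.Agent.H6.Iso

set_option autoImplicit false
open Cfsg
open scoped commutatorElement

namespace Cfsg.Agent.S1176

/-- Let x₀ be an involution of the finite group G and D its conjugacy class. Assume (a) for each x ∈ D the subgroup W(x) generated by the members of D commuting with x is a 2-group of nilpotency class at most 2, and (b) the product of two distinct commuting members of D again lies in D. Then for all x, y ∈ D, if xy has even order greater than 2, its order is 4. -/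
theorem result {G : Type*} [Group G] [Finite G] (x₀ : G) (hx₀ : orderOf x₀ = 2) (ha : ∀ x : G, IsConj x₀ x → IsPGroup 2 ↥(Subgroup.closure {y : G | IsConj x₀ y ∧ Commute y x}) ∧ ⁅⁅Subgroup.closure {y : G | IsConj x₀ y ∧ Commute y x}, Subgroup.closure {y : G | IsConj x₀ y ∧ Commute y x}⁆, Subgroup.closure {y : G | IsConj x₀ y ∧ Commute y x}⁆ = ⊥) (hb : ∀ x y : G, IsConj x₀ x → IsConj x₀ y → x ≠ y → Commute x y → IsConj x₀ (x * y)) (x y : G) (hx : IsConj x₀ x) (hy : IsConj x₀ y) (heven : Even (orderOf (x * y))) (hgt : 2 < orderOf (x * y)) : orderOf (x * y) = 4 := by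
  have hx2 : orderOf x = 2 := by rw [← H6.isConj_orderOf hx, hx₀]
  have hy2 : orderOf y = 2 := by rw [← H6.isConj_orderOf hy, hx₀]
  have hx' := H6.ord2_mul_self hx2
  have hy' := H6.ord2_mul_self hy2
  obtain ⟨h1, h2, h3⟩ := H6.exists_central_inv hx' hy' heven
  have hinv : x * (x * y) * x⁻¹ = (x * y)⁻¹ := H6.inv_conj_mul hx' hy'
  have hinv' : y * (x * y) * y⁻¹ = (x * y)⁻¹ := H6.inv_conj_mul' hx' hy'
  set r := x * y with hr
  set z := r ^ (orderOf r / 2) with hz
  have hconj : IsConj x₀ (z * x) := by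
    rcases Nat.even_or_odd' (orderOf r / 2) with ⟨m, hm | hm⟩
    · refine hx.trans (isConj_iff.2 ⟨r ^ (m : ℤ), ?_⟩)
      rw [H6.zpow_conj_of_inverts hinv, hz, hm]; norm_cast
    · refine hy.trans (isConj_iff.2 ⟨r ^ ((m : ℤ) + 1), ?_⟩)
      rw [H6.zpow_conj_of_inverts hinv', hz, hm]
      have : y = r⁻¹ * x := by
        rw [hr, mul_inv_rev, mul_assoc, inv_mul_cancel, mul_one, H6.ord2_inv hy2]
      conv_lhs => rw [this]
      rw [← mul_assoc, ← zpow_sub_one, ← zpow_natCast]
      congr 2; push_cast; ring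
  have hzD : IsConj x₀ z := by
    have := hb _ _ hconj hx (fun h => H6.ord2_ne_one h1 (by simpa using h))
      (h2.mul_left (Commute.refl x))
    rwa [mul_assoc, hx', mul_one] at this
  obtain ⟨-, hW⟩ := ha z hzD
  set W := Subgroup.closure {y : G | IsConj x₀ y ∧ Commute y z}
  have hxW : x ∈ W := Subgroup.subset_closure ⟨hx, h2.symm⟩
  have hyW : y ∈ W := Subgroup.subset_closure ⟨hy, h3.symm⟩
  have h4 : ⁅⁅x, y⁆, x⁆ = 1 := by
    rw [← Subgroup.mem_bot, ← hW]
    exact Subgroup.commutator_mem_commutator (Subgroup.commutator_mem_commutator hxW hyW) hxW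
  have h5 : ⁅x, y⁆ = r ^ 2 := by
    rw [commutatorElement_def, H6.ord2_inv hx2, H6.ord2_inv hy2, pow_two, hr]; group
  rw [h5, commutatorElement_eq_one_iff_commute] at h4
  have h6 := H6.conj_pow_of_inverts hinv 2
  rw [H6.conj_eq_iff_commute.2 h4.symm] at h6
  have h7 : r ^ 4 = 1 := by
    rw [show 4 = 2 + 2 by rfl, pow_add]
    nth_rewrite 1 [h6]; simp
  have h8 := orderOf_dvd_of_pow_eq_one h7
  have h9 := Nat.le_of_dvd (by norm_num) h8
  interval_cases h : orderOf r
  · simp at h8
  · rfl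

end Cfsg.Agent.S1176
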