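import Cfsg.Statements.S1177
import Cfsg.Agent.H6.Iso

set_option autoImplicit false
open Cfsg

namespace Cfsg.Agent.S1177

/-- Let A be a nontrivial elementary abelian 2-subgroup of a finite group G which is a T.I. set (each conjugate of A meets A trivially or equals A) and which does not commute elementwise with any conjugate of A other than A itself. Then for every a ∈ A, a ≠ 1, every conjugate of A contained in C_G(a) is equal to A (A is weakly closed in C_G(a)). -/
theorem result {G : Type*} [Group G] [Finite G] (A : Subgroup G) (hA : Cfsg.IsElementaryAbelian 2 A) (hA1 : A ≠ ⊥) (hTI : ∀ g : G, A.map (MulAut.conj g).toMonoidHom ⊓ A = ⊥ ∨ A.map (MulAut.conj g).toMonoidHom = A) (hb : ∀ g : G, (∀ a ∈ A, ∀ b ∈ A.map (MulAut.conj g).toMonoidHom, a * b = b * a) → A.map (MulAut.conj g).toMonoidHom = A) (a : G) (ha : a ∈ A) (ha1 : a ≠ 1) (g : G) (hg : A.map (MulAut.conj g).toMonoidHom ≤ Subgroup.centralizer ({a} : Set G)) : A.map (MulAut.conj g).toMonoidHom =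 A := by
  set B := A.map (MulAut.conj g).toMonoidHom with hB
  by_contra hne
  have hAB : B ⊓ A = ⊥ := (hTI g).resolve_right hne
  have hN : ∀ x y : G, y ≠ 1 → y ∈ A → x * y * x⁻¹ ∈ A → x ∈ Subgroup.normalizer (A : Set G) := by
    intro x y hy1 hy hxy
    rw [← H6.map_conj_eq_iff]
    refine (hTI x).resolve_left fun h => hy1 ?_
    have : x * y * x⁻¹ ∈ A.map (MulAut.conj x).toMonoidHom ⊓ A := ⟨H6.conj_mem_map_conj.2 hy, hxy⟩
    rw [h, Subgroup.mem_bot] at this
    simpa using this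
  have hBA : ∀ b ∈ B, b ∈ Subgroup.normalizer (A : Set G) := fun b hb =>
    hN b a ha1 ha (by rwa [H6.conj_eq_iff_commute.2 (H6.mem_cent_iff_commute.1 (hg hb))])
  apply hne
  apply hb
  intro x hx b hbB
  by_cases hx1 : x = 1
  · simp [hx1]
  obtain ⟨c, hcB, hc1, hcx⟩ : ∃ c ∈ B, c ≠ 1 ∧ Commute x c := by
    by_contra! hcon
    have hinj : Function.Injective (fun c : B =>
        (⟨c * x * c⁻¹, (Subgroup.mem_normalizer_iff.1 (hBA c c.2) x).1 hx⟩ : A)) := by
      intro c d h
      replace h : (c : G) * x * (c : G)⁻¹ = d * x * (d : G)⁻¹ := congrArg Subtype.val h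
      by_contra hcd
      refine hcon ((d : G)⁻¹ * c) (B.mul_mem (B.inv_mem d.2) c.2)
        (fun h1 => hcd (Subtype.ext (inv_mul_eq_one.1 h1).symm)) (Commute.symm ?_)
      rw [← H6.conj_eq_iff_commute]
      calc (d : G)⁻¹ * c * x * ((d : G)⁻¹ * c)⁻¹ = (d : G)⁻¹ * (c * x * (c : G)⁻¹) * d := by group
        _ = x := by rw [h]; group
    have hsurj := (hinj.bijective_of_nat_card_le (by rw [hB, H6.card_map_conj])).2
    obtain ⟨c, hc⟩ := hsurj 1
    exact hx1 (by simpa using hc)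
  have hxB : x ∈ Subgroup.normalizer (B : Set G) := by
    have h1 := hN (g⁻¹ * x * g) (g⁻¹ * c * g) (by
      intro h
      apply hc1
      calc c = g * (g⁻¹ * c * g) * g⁻¹ := by group
        _ = 1 := by rw [h]; group) (H6.mem_map_conj.1 hcB) (by
      have : g⁻¹ * x * g * (g⁻¹ * c * g) * (g⁻¹ * x * g)⁻¹ = g⁻¹ * (x * c * x⁻¹) * g := by group
      rw [this, H6.conj_eq_iff_commute.2 hcx]
      exact H6.mem_map_conj.1 hcB)
    rw [← H6.map_conj_eq_iff] at h1 ⊢
    rw [hB]
    conv_rhs => rw [← h1]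
    rw [H6.map_conj_map_conj, H6.map_conj_map_conj]
    congr 3; group
  have h2 : x * b * x⁻¹ * b⁻¹ ∈ B ⊓ A := by
    refine ⟨B.mul_mem ((Subgroup.mem_normalizer_iff.1 hxB b).1 hbB) (B.inv_mem hbB), ?_⟩
    have := A.mul_mem hx ((Subgroup.mem_normalizer_iff.1 (hBA b hbB) x⁻¹).1 (A.inv_mem hx))
    simpa [mul_assoc] using this
  rw [hAB, Subgroup.mem_bot] at h2
  exact commutatorElement_eq_one_iff_mul_comm.1 h2

end Cfsg.Agent.S1177
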