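import Cfsg.Statements.S1181
import Cfsg.Agent.H6.Iso

set_option autoImplicit false
open Cfsg

namespace Cfsg.Agent.S1181

/-- Let z be an isolated involution of the finite group G and N a normal subgroup with z ∉ N. Then the centralizer of zN in G/N is the image of C_G(z), and zN is an isolated involution of G/N. -/
theorem result {G : Type*} [Group G] [Finite G] (z : G) (hz : Cfsg.IsIsolatedInvolution z) (N : Subgroup G) [N.Normal] (hzN : z ∉ N) : Subgroup.centralizer ({(QuotientGroup.mk z : G ⧸ N)} : Set (G ⧸ N)) = (Subgroup.centralizer ({z} : Set G)).map (QuotientGroup.mk' N) ∧ Cfsg.IsIsolatedInvolution (QuotientGroup.mk z : G ⧸ N) := by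
  refine ⟨?_, H6.iso_map_mk hz N hzN⟩
  ext g
  constructor
  · intro hg
    obtain ⟨g, rfl⟩ := QuotientGroup.mk_surjective g
    have h1 : (QuotientGroup.mk (g * z * g⁻¹) : G ⧸ N) = QuotientGroup.mk z :=
      H6.conj_eq_iff_commute.2 (H6.mem_cent_iff_commute.1 hg)
    obtain ⟨m, hm, -, -⟩ := H6.iso_exists_inverted hz (isConj_iff.2 ⟨g, rfl⟩)
    set k := (z * (g * z * g⁻¹)) ^ m with hk
    have hkN : k ∈ N := by
      apply N.pow_mem
      have := QuotientGroup.eq.1 h1.symm
      rwa [H6.ord2_inv hz.1] at this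
    refine ⟨k⁻¹ * g, ?_, ?_⟩
    · rw [SetLike.mem_coe, H6.mem_cent_iff_commute, ← H6.conj_eq_iff_commute]
      calc k⁻¹ * g * z * (k⁻¹ * g)⁻¹ = k⁻¹ * (g * z * g⁻¹) * k := by group
        _ = z := by rw [← hm]; group
    · rw [map_mul, map_inv, QuotientGroup.mk'_apply, (QuotientGroup.eq_one_iff k).2 hkN]
      simp
  · rintro ⟨c, hc, rfl⟩
    exact H6.mem_cent_iff_commute.2 ((H6.mem_cent_iff_commute.1 hc).map (QuotientGroup.mk' N))

end Cfsg.Agent.S1181
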