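import Cfsg.Statements.S1184
import Cfsg.Agent.H6.Iso

set_option autoImplicit false
open Cfsg

namespace Cfsg.Agent.S1184

/-- Let z be an isolated involution of the finite group G. If s and t are distinct conjugates of z, then st does not commute with z. -/
theorem result {G : Type*} [Group G] [Finite G] (z : G) (hz : Cfsg.IsIsolatedInvolution z) (g h : G) (hne : g * z * g⁻¹ ≠ h * z * h⁻¹) : ¬ Commute (g * z * g⁻¹ * (h * z * h⁻¹)) z := by
  intro hc
  have hs : IsConj z (g * z * g⁻¹) := isConj_iff.2 ⟨g, rfl⟩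
  have ht : IsConj z (h * z * h⁻¹) := isConj_iff.2 ⟨h, rfl⟩
  have hs2 := H6.ord2_mul_self (H6.ord2_conj hz.1 g)
  have ht2 := H6.ord2_mul_self (H6.ord2_conj hz.1 h)
  have hinv := H6.inv_conj_mul hs2 ht2
  have hodd := H6.iso_odd_mul hz hs ht
  have hodd2 := H6.iso_odd_mul hz hs (IsConj.refl z)
  generalize g * z * g⁻¹ = s at *
  generalize h * z * h⁻¹ = t at *
  have h1 : (s * z) * (s * t) * (s * z)⁻¹ = (s * t)⁻¹ := by
    rw [← hinv]
    conv_rhs => rw [← H6.conj_eq_iff_commute.2 hc.symm]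
    group
  have h2 := H6.eq_one_of_odd_of_sq hodd (H6.eq_inv_of_odd_inverts hodd2 h1)
  exact hne (by rw [eq_inv_of_mul_eq_one_left h2, inv_eq_of_mul_eq_one_right ht2])

end Cfsg.Agent.S1184
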