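import Cfsg.Statements.S1185
import Cfsg.Agent.H6.Iso

set_option autoImplicit false
open Cfsg

namespace Cfsg.Agent.S1185

/-- Let z be an isolated involution of the finite group G with centralizer C. Then for every g ∈ G there is exactly one element k in the coset gC that has odd order and is inverted by z. -/
theorem result {G : Type*} [Group G] [Finite G] (z : G) (hz : Cfsg.IsIsolatedInvolution z) (g : G) : ∃! k : G, (Odd (orderOf k) ∧ z * k * z⁻¹ = k⁻¹) ∧ g⁻¹ * k ∈ Subgroup.centralizer ({z} : Set G) := by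
  have key : ∀ k : G, g⁻¹ * k ∈ Subgroup.centralizer ({z} : Set G) ↔ k * z * k⁻¹ = g * z * g⁻¹ := by
    intro k
    rw [H6.mem_cent_iff_commute, ← H6.conj_eq_iff_commute]
    constructor
    · intro h
      conv_rhs => rw [← h]
      group
    · intro h
      calc g⁻¹ * k * z * (g⁻¹ * k)⁻¹ = g⁻¹ * (k * z * k⁻¹) * g := by group
        _ = z := by rw [h]; group
  obtain ⟨m, hm, h1, h2⟩ := H6.iso_exists_inverted hz (isConj_iff.2 ⟨g, rfl⟩)
  refine ⟨_, ⟨⟨h1, h2⟩, (key _).2 hm⟩, ?_⟩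
  rintro k ⟨⟨h3, h4⟩, h5⟩
  rw [key, ← hm, H6.conj_eq_sq_mul_of_inverts h4, H6.conj_eq_sq_mul_of_inverts h2] at h5
  exact H6.eq_of_sq_eq_of_odd h3 h1 (mul_right_cancel h5)

end Cfsg.Agent.S1185
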