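import Cfsg.Statements.S1186
import Cfsg.Agent.H6.Iso

set_option autoImplicit false
open Cfsg

namespace Cfsg.Agent.S1186

theorem aux {G : Type*} [Group G] [Finite G] {z : G} (hz : Cfsg.IsIsolatedInvolution z) {x t : G}
    (hxz : Commute x z) (ht : IsConj z t) (htx : Commute t x) :
    ∃ k : G, (Odd (orderOf k) ∧ z * k * z⁻¹ = k⁻¹ ∧ Commute k x) ∧ k * z * k⁻¹ = t := by
  obtain ⟨m, hm, h1, h2⟩ := H6.iso_exists_inverted hz ht
  exact ⟨_, ⟨h1, h2, (hxz.symm.mul_left htx).pow_left m⟩, hm⟩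

/-- Let z be an isolated involution of the finite group G, C = C_G(z), K the set of elements of odd order inverted by z, and s an involution of C. Then |G| = |C| · |C_K(sz)| · |C_K(s)|. -/
theorem result {G : Type*} [Group G] [Finite G] (z : G) (hz : Cfsg.IsIsolatedInvolution z) (s : G) (hs : orderOf s = 2) (hsz : Commute s z) : Nat.card G = Nat.card (Subgroup.centralizer ({z} : Set G)) * Nat.card {k : G // Odd (orderOf k) ∧ z * k * z⁻¹ = k⁻¹ ∧ Commute k (s * z)} * Nat.card {k : G // Odd (orderOf k) ∧ z * k * z⁻¹ = k⁻¹ ∧ Commute k s} := by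
  rw [← H6.card_cent_mul_card_class z, mul_assoc]
  congr 1
  rw [← Nat.card_prod]
  symm
  have hszz : Commute (s * z) z := hsz.mul_left (Commute.refl z)
  have hcj : ∀ a : G, Commute a s → a * (s * z) * a⁻¹ = s * (a * z * a⁻¹) := by
    intro a ha
    rw [← mul_assoc, ha.eq]; group
  have hcm : ∀ a b : G, Commute a s → Commute b (s * z) →
      Commute (a * (b * z * b⁻¹) * a⁻¹) (s * (a * z * a⁻¹)) := by
    intro a b ha hb
    rw [← hcj a ha]
    have : Commute (b * z * b⁻¹) (s * z) := (hb.mul_left hszz.symm).mul_left hb.inv_left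
    simpa using this.map (MulAut.conj a)
  refine Nat.card_eq_of_bijective (β := {u // IsConj z u}) (fun p => ⟨p.2.1 * (p.1.1 * z * p.1.1⁻¹) * p.2.1⁻¹,
    (isConj_iff.2 ⟨_, rfl⟩ : IsConj z _).trans (isConj_iff.2 ⟨_, rfl⟩)⟩) ⟨?_, ?_⟩
  · rintro ⟨⟨b, hb1, hb2, hb3⟩, ⟨a, ha1, ha2, ha3⟩⟩ ⟨⟨b', hb1', hb2', hb3'⟩, ⟨a', ha1', ha2', ha3'⟩⟩ h
    simp only [Subtype.mk.injEq] at h
    have h1 : a * z * a⁻¹ = a' * z * a'⁻¹ := by
      refine H6.iso_partner_unique hz hs (t := a * (b * z * b⁻¹) * a⁻¹)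
        ((isConj_iff.2 ⟨_, rfl⟩ : IsConj z _).trans (isConj_iff.2 ⟨_, rfl⟩)) (isConj_iff.2 ⟨_, rfl⟩)
        (isConj_iff.2 ⟨_, rfl⟩) ((ha3.mul_left hsz.symm).mul_left ha3.inv_left)
        ((ha3'.mul_left hsz.symm).mul_left ha3'.inv_left) (hcm a b ha3 hb3) ?_
      rw [h]; exact hcm a' b' ha3' hb3'
    rw [H6.conj_eq_sq_mul_of_inverts ha2, H6.conj_eq_sq_mul_of_inverts ha2'] at h1
    have h2 := H6.eq_of_sq_eq_of_odd ha1 ha1' (mul_right_cancel h1)
    subst h2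
    have h3 := mul_left_cancel (mul_right_cancel h)
    rw [H6.conj_eq_sq_mul_of_inverts hb2, H6.conj_eq_sq_mul_of_inverts hb2'] at h3
    have h4 := H6.eq_of_sq_eq_of_odd hb1 hb1' (mul_right_cancel h3)
    subst h4
    rfl
  · rintro ⟨t, ht⟩
    obtain ⟨t', h1, h2, h3⟩ := H6.iso_exists_partner hz hs ht
    obtain ⟨a, ha, rfl⟩ := aux hz hsz h1 h2
    obtain ⟨b, hb, hbe⟩ := aux hz hszz (t := a⁻¹ * t * a) (ht.trans (isConj_iff.2 ⟨a⁻¹, by simp⟩)) (by
      rw [← hcj a ha.2.2] at h3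
      simpa [mul_assoc] using h3.map (MulAut.conj a⁻¹))
    refine ⟨(⟨b, hb⟩, ⟨a, ha⟩), Subtype.ext ?_⟩
    simp only
    rw [hbe]; group

end Cfsg.Agent.S1186
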