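import Cfsg.Statements.S1187
import Cfsg.Agent.H6.ZS
import Cfsg.Agent.H6.Count

set_option autoImplicit false
open Cfsg

namespace Cfsg.Agent.S1187

/-- Let z be an isolated involution of the finite group G and p a prime. If Q is a p-subgroup normalized by z that is maximal among p-subgroups normalized by z, then Q is a Sylow p-subgroup of G. -/
theorem result {G : Type*} [Group G] [Finite G] (z : G) (hz : Cfsg.IsIsolatedInvolution z) {p : ℕ} [Fact p.Prime] (Q : Subgroup G) (hQ : IsPGroup p Q) (hzQ : z ∈ Subgroup.normalizer (Q : Set G)) (hmax : ∀ R : Subgroup G, IsPGroup p R → z ∈ Subgroup.normalizer (R : Set G) → Q ≤ R → R = Q) : ∃ P : Sylow p G, (P : Subgroup G) = Q := by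
  obtain ⟨P, hP⟩ := hQ.exists_le_sylow
  have hzz := H6.ord2_mul_self hz.1
  by_cases hp : p = 2
  · subst hp
    have h1 : IsPGroup 2 (Q ⊔ Subgroup.zpowers z : Subgroup G) :=
      H6.isPGroup_sup_zpowers_of_normalizer hQ (k := 1) (by rw [pow_one, pow_two, hzz]) hzQ
    obtain ⟨R, hR⟩ := h1.exists_le_sylow
    exact ⟨R, hmax _ R.isPGroup' (Subgroup.le_normalizer (hR (Subgroup.mem_sup_right (Subgroup.mem_zpowers z))))
      (le_sup_left.trans hR)⟩
  · set K := (P : Subgroup G) ⊔ Cfsg.pPrimeCore 2 G with hK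
    have hzK : Subgroup.zpowers z ≤ Subgroup.normalizer (K : Set G) := by
      rw [Subgroup.zpowers_le]
      apply H6.mem_normalizer_of_conj_le
      intro x hx
      have := mul_mem (Subgroup.mem_sup_right (H19.zstar hz x) : _ ∈ K) hx
      simpa using this
    have hcop : (Nat.card (Subgroup.zpowers z)).Coprime (Nat.card K) := by
      rw [Nat.card_zpowers, hz.1]
      refine Nat.Coprime.symm (Nat.Coprime.coprime_dvd_left (H1.card_sup_dvd Subgroup.le_normalizer_of_normal) ?_)
      refine Nat.Coprime.mul_left ?_ (H1.coprime_card_pPrimeCore 2)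
      exact H1.IsPGroup.coprime_card P.isPGroup' ((Nat.coprime_primes Nat.prime_two Fact.out).2 (Ne.symm hp))
    obtain ⟨R, hR, hQR, hzR⟩ := H1.exists_invariant_sylowOf_ge hzK hcop (Or.inl inferInstance)
      (hP.trans le_sup_left) hQ (Subgroup.zpowers_le.2 hzQ)
    have h1 := hmax R (H1.IsPiHallOf.isPGroup hR) (hzR (Subgroup.mem_zpowers z)) hQR
    subst h1
    obtain ⟨k, -, hk⟩ := H1.exists_conj_le_sylowOf (le_sup_left : (P : Subgroup G) ≤ K) P.isPGroup' hR
    refine H6.exists_sylow_eq_of_card P hQ ?_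
    have := Subgroup.card_le_of_le hk
    rwa [H6.conj_smul_eq_map, H6.card_map_conj] at this

end Cfsg.Agent.S1187
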