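import Cfsg.Statements.S1222
import Cfsg.Agent.H17.Sz15

set_option autoImplicit false
open Cfsg

namespace Cfsg.Agent.S1222

open H17 Cfsg


/-- Let G be a finite simple group with a strongly embedded subgroup H such that H permutes transitively the cosets gH with g ∉ H, and H has a normal subgroup Q acting regularly on those cosets (transitively, with only the identity fixing any of them). Then G is isomorphic to PSL(2,F) with F of characteristic 2 and at least 4 elements, or is simple with the order of a Suzuki group, or is isomorphic to PSU(3) over a field with q² elements, q ≥ 4 a power of 2. -/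
theorem result {G : Type*} [Group G] [Finite G] [IsSimpleGroup G] (H : Subgroup G) (hH : Cfsg.IsStronglyEmbedded H) (Q : Subgroup G) (hQH : Q ≤ H) (hQn : (Q.subgroupOf H).Normal) (htrans : ∀ g₁ g₂ : G, g₁ ∉ H → g₂ ∉ H → ∃ u ∈ Q, g₂⁻¹ * (u * g₁) ∈ H) (hreg : ∀ g : G, g ∉ H → ∀ u ∈ Q, g⁻¹ * (u * g) ∈ H → u = 1) : (∃ (F : Type) (_ : Field F) (_ : Fintype F), CharP F 2 ∧ 4 ≤ Fintype.card F ∧ Nonempty (G ≃* Matrix.ProjectiveSpecialLinearGroup (Fin 2) F)) ∨ Cfsg.IsSuzuki G ∨ (∃ (F : Type) (_ : Field F) (_ : Fintype F) (q : ℕ), Fintype.card F = q ^ 2 ∧ Even q ∧ 4 ≤ q ∧ Nonempty (G ≃* Cfsg.PSU 3 F q)) := by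
  have hs : MulAction.stabilizer G ((1 : G) : G ⧸ H) = H := MulAction.stabilizer_quotient H
  obtain ⟨t, ht, htH⟩ := H17.exists_inv_not_mem hH.1 (hH.2.1.trans_dvd H.card_subgroup_dvd_card)
  have hne : ∀ g : G, (g : G ⧸ H) ≠ (1 : G) → g ∉ H := fun g h hg => h (QuotientGroup.eq.2 (by simpa using hg))
  have h : H26.R1 G (G ⧸ H) ((1 : G) : G ⧸ H) t Q := by
    refine H17.r1_of_reg (hs.symm ▸ hQH) (fun g hg x hx => ?_) (fun c d hc hd => ?_) (fun x hx c hc e => ?_) ht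
      (fun e => htH (hs ▸ e)) (hs.symm ▸ hH.2.1) ?_
    · exact hQn.conj_mem ⟨x, hQH hx⟩ hx ⟨g, hs ▸ hg⟩
    · obtain ⟨c, rfl⟩ := QuotientGroup.mk_surjective c
      obtain ⟨d, rfl⟩ := QuotientGroup.mk_surjective d
      obtain ⟨u, hu, e⟩ := htrans c d (hne c hc) (hne d hd)
      exact ⟨u, hu, (QuotientGroup.eq.2 e).symm⟩
    · obtain ⟨c, rfl⟩ := QuotientGroup.mk_surjective c
      exact hreg c (hne c hc) x hx (QuotientGroup.eq.1 e.symm)
    · have := hH.2.2 t htH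
      rwa [H26.DD, MulAction.stabilizer_smul_eq_stabilizer_map_conj, hs]
  rcases H17.suzuki_simple h with ⟨F, _, _, ⟨n, h1, h2⟩, h3⟩ | h1 | ⟨F, _, _, n, h1, h2, h3⟩
  · haveI := Fact.mk Nat.prime_two
    exact Or.inl ⟨F, _, _, charP_of_card_eq_prime_pow h2, h2 ▸ Nat.pow_le_pow_right (n := 2) two_pos h1, h3⟩
  · exact Or.inr (Or.inl (H17.isSuzuki_of_iso h1))
  · exact Or.inr (Or.inr ⟨F, _, _, _, h2, Nat.even_pow.2 ⟨even_two, by omega⟩,
      Nat.pow_le_pow_right (n := 2) two_pos h1, h3⟩)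

end Cfsg.Agent.S1222
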