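import Cfsg.Statements.S1223
import Cfsg.Agent.H17.Be1
import Cfsg.Agent.H6.Inv2

set_option autoImplicit false
open Cfsg

namespace Cfsg.Agent.S1223

/-- Let H be a strongly embedded subgroup of the finite group G containing no nontrivial normal subgroup of G (so G acts faithfully on the cosets of H), u an involution of G outside H, and j ≠ 1 an element of H ∩ uHu⁻¹ with u j u⁻¹ = j⁻¹. Then C_G(j) has odd order. -/
theorem result {G : Type*} [Group G] [Finite G] (H : Subgroup G) (hH : Cfsg.IsStronglyEmbedded H) (hcore : H.normalCore = ⊥) (u : G) (hu : orderOf u = 2) (huH : u ∉ H) (j : G) (hj : j ∈ (H ⊓ H.map (MulAut.conj u).toMonoidHom)) (hj1 : j ≠ 1) (hinv : u * j * u⁻¹ = j⁻¹) : Odd (Nat.card (Subgroup.centralizer ({j} : Set G))) := by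
  rw [H6.odd_card_iff]
  intro s hs ho
  have hc : s * j = j * s := Subgroup.mem_centralizer_singleton_iff.1 hs
  have hjo : Odd (orderOf j) := H6.odd_orderOf_of_odd_card (hH.2.2 u huH) hj
  by_cases h4 : H15.Bd.Four (⊤ : Subgroup G)
  · obtain ⟨Q, -, hQ⟩ := H15.Bd.se_sz hH h4 hcore
    have h := hQ u hu huH
    have fix : ∀ x g : G, x • (g : G ⧸ H) = g ↔ g⁻¹ * x * g ∈ H := fun x g => by
      rw [MulAction.Quotient.smul_coe, eq_comm, QuotientGroup.eq, smul_eq_mul, mul_assoc]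
    have hK : j ∈ H17.KK ((1 : G) : G ⧸ H) u := H17.mem_K' ⟨⟨(fix j 1).2 (by simpa using hj.1), by
      show j • u • ((1 : G) : G ⧸ H) = u • ((1 : G) : G ⧸ H)
      rw [show u • ((1 : G) : G ⧸ H) = (u : G ⧸ H) by
        rw [MulAction.Quotient.smul_coe, smul_eq_mul, mul_one], fix]
      exact H6.mem_map_conj.1 hj.2⟩, hinv⟩
    have key : ∀ s : G, orderOf s = 2 → s ∈ H → s * j = j * s → False := fun s ho hs hc =>
      H6.ord2_ne_one ho (h.K_fpf hK hj1 (H17.Q0_le (h.inv_iff.1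
        ⟨(fix s 1).2 (by simpa using hs), H6.ord2_ne_one ho, H6.ord2_mul_self ho⟩).1) hc)
    obtain ⟨t, ht, ht2⟩ := H6.se_exists_ord2 hH
    obtain ⟨g, hg⟩ := isConj_iff.1 (H6.se_isConj hH ht2 ho)
    have hjg : g⁻¹ * j * g ∈ H := H6.se_mem_of_commute hH ht2 ht (by
      calc g⁻¹ * j * g * t = g⁻¹ * (j * (g * t * g⁻¹)) * g := by group
        _ = t * (g⁻¹ * j * g) := by rw [hg, ← hc, ← hg]; group)
    have hsg : s • (g : G ⧸ H) = g := (fix s g).2 (by rw [← hg]; simpa [mul_assoc] using ht)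
    rcases h.K_fix hK hj1 ((fix j g).2 hjg) with e | e
    · exact key s ho (by simpa using (fix s 1).1 (e ▸ hsg)) hc
    · rw [e, show u • ((1 : G) : G ⧸ H) = (u : G ⧸ H) by
        rw [MulAction.Quotient.smul_coe, smul_eq_mul, mul_one], fix] at hsg
      refine key _ (by rw [H6.orderOf_conj'', ho]) hsg ?_
      have e1 : j = u⁻¹ * j⁻¹ * u := by rw [← hinv]; group
      have e2 : s * j⁻¹ = j⁻¹ * s := (Commute.inv_right hc).eq
      calc u⁻¹ * s * u * j = u⁻¹ * s * u * (u⁻¹ * j⁻¹ * u) := by rw [← e1]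
        _ = u⁻¹ * (s * j⁻¹) * u := by group
        _ = u⁻¹ * j⁻¹ * u * (u⁻¹ * s * u) := by rw [e2]; group
        _ = _ := by rw [← e1]
  · have hodd : Odd (orderOf (u * s)) := by
      by_contra k
      obtain ⟨h1, h2, h3⟩ := H6.exists_central_inv (H6.ord2_mul_self hu) (H6.ord2_mul_self ho)
        (Nat.not_odd_iff_even.1 k)
      rw [(H17.Be.eq_of_comm h4 h1 hu h2).symm.trans (H17.Be.eq_of_comm h4 h1 ho h3),
        H6.ord2_mul_self ho] at k
      simp at k
    have e : u * s * j * (u * s)⁻¹ = j⁻¹ := by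
      rw [← hinv, mul_assoc u, hc]; group
    have e2 : Commute (u * s * (u * s)) j := H6.conj_eq_iff_commute.1 (by
      calc u * s * (u * s) * j * (u * s * (u * s))⁻¹ = u * s * (u * s * j * (u * s)⁻¹) * (u * s)⁻¹ := by group
        _ = u * s * j⁻¹ * (u * s)⁻¹ := by rw [e]
        _ = (u * s * j * (u * s)⁻¹)⁻¹ := by group
        _ = j := by rw [e, inv_inv])
    obtain ⟨m, hm⟩ := hodd
    have e3 : Commute (u * s) j := by
      have := e2.pow_left (m + 1)
      rwa [← pow_two, ← pow_mul, show 2 * (m + 1) = orderOf (u * s) + 1 by omega, pow_succ,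
        pow_orderOf_eq_one, one_mul] at this
    rw [H6.conj_eq_iff_commute.2 e3] at e
    exact hj1 (H6.eq_one_of_odd_of_sq hjo (mul_eq_one_iff_eq_inv.2 e))

end Cfsg.Agent.S1223
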