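import Cfsg.Statements.S1224
import Cfsg.Agent.H6.SE

set_option autoImplicit false
open Cfsg

namespace Cfsg.Agent.S1224

/-- Let H be a strongly embedded subgroup of the finite group G and x ≠ y two cosets in G/H. Then the number of involutions i of G with i • x = y equals the number of involutions lying in H. -/
theorem result {G : Type*} [Group G] [Finite G] (H : Subgroup G) (hH : Cfsg.IsStronglyEmbedded H) (x y : G ⧸ H) (hxy : x ≠ y) : Nat.card {i : G // orderOf i = 2 ∧ i • x = y} = Nat.card {t : G // orderOf t = 2 ∧ t ∈ H} := by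
  obtain ⟨a, rfl⟩ := QuotientGroup.mk_surjective x
  obtain ⟨b, rfl⟩ := QuotientGroup.mk_surjective y
  rw [Ne, QuotientGroup.eq] at hxy
  rw [← H6.se_card_coset hH hxy]
  refine Nat.card_congr ⟨fun i => ⟨a⁻¹ * i * a, by rw [H6.orderOf_conj'', i.2.1], ?_⟩,
    fun t => ⟨a * t * a⁻¹, H6.ord2_conj t.2.1 a, ?_⟩, ?_, ?_⟩
  · simpa [mul_assoc] using (H6.smul_mk_eq_iff _ _ _).1 i.2.2
  · rw [H6.smul_mk_eq_iff]
    simpa [mul_assoc] using t.2.2
  · intro i; ext; simp [mul_assoc]
  · intro i; ext; simp [mul_assoc]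

end Cfsg.Agent.S1224
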