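import Cfsg.Statements.S1228
import Cfsg.Agent.H6.Elem

set_option autoImplicit false
open Cfsg

namespace Cfsg.Agent.S1228

/-- Let G be a finite group with a Sylow 2-subgroup T that is neither cyclic nor normal, such that the centralizer of every involution is an elementary abelian 2-group; put H = N_G(T), let u be an involution outside H and D = H ∩ uHu⁻¹. Then N_G(D) = D ⊔ ⟨u⟩, and a coset gH is fixed by every element of D exactly when gH = H or gH = uH. -/
theorem result {G : Type*} [Group G] [Finite G] (T : Sylow 2 G) (hnc : ¬ IsCyclic (T : Subgroup G)) (hnn : ¬ (T : Subgroup G).Normal) (hC : ∀ t : G, orderOf t = 2 → IsMulCommutative (Subgroup.centralizer ({t} : Set G)) ∧ ∀ c ∈ Subgroup.centralizer ({t} : Set G), c ^ 2 = 1) (u : G) (hu : orderOf u = 2) (huH : u ∉ Subgroup.normalizer ((T : Subgroup G) : Set G)) : Subgroup.normalizer ((Subgroup.normalizer ((T : Subgroup G) : Set G) ⊓ (Subgroup.normalizer ((T : Subgroup G) : Set G)).map (MulAut.conj u).toMonoidHom : Subgroup G) : Set G) = (Subgroup.normalizer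 ((T : Subgroup G) : Set G) ⊓ (Subgroup.normalizer ((T : Subgroup G) : Set G)).map (MulAut.conj u).toMonoidHom) ⊔ Subgroup.zpowers u ∧ ∀ g : G, ((∀ d ∈ Subgroup.normalizer ((T : Subgroup G) : Set G) ⊓ (Subgroup.normalizer ((T : Subgroup G) : Set G)).map (MulAut.conj u).toMonoidHom, d • (QuotientGroup.mk g : G ⧸ Subgroup.normalizer ((T : Subgroup G) : Set G)) = QuotientGroup.mk g) ↔ (QuotientGroup.mk g : G ⧸ Subgroup.normalizer ((T : Subgroup G) : Set G)) = QuotientGroup.mk 1 ∨ (QuotientGroup.mk g : G ⧸ Subgroup.normalizer ((T : Subgroup G) : Set G)) = QuotientGroup.mk u) := by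
  have h := H6.elemHyp_of T hnc hnn hC
  obtain ⟨d0, hd0, hd01⟩ := h.exists_ne_one hu huH
  generalize hH : Subgroup.normalizer ((T : Subgroup G) : Set G) = H at huH hd0 ⊢
  have hfix : ∀ g : G, g⁻¹ * d0 * g ∈ H → g ∈ H ∨ g⁻¹ * u ∈ H := by
    intro g hg
    subst hH
    by_cases h1 : g ∈ Subgroup.normalizer ((T : Subgroup G) : Set G)
    · exact Or.inl h1
    · exact Or.inr (h.fixed hu huH hd0 hd01 hg h1)
  have huN : u ∈ Subgroup.normalizer ((H ⊓ H.map (MulAut.conj u).toMonoidHom : Subgroup G) : Set G) := by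
    refine H6.mem_normalizer_of_conj_le fun d hd => ⟨?_, H6.conj_mem_map_conj.2 hd.1⟩
    have := H6.mem_map_conj.1 hd.2
    rw [H6.ord2_inv hu] at this ⊢
    exact this
  constructor
  · apply le_antisymm
    · have key : ∀ n ∈ Subgroup.normalizer
          ((H ⊓ H.map (MulAut.conj u).toMonoidHom : Subgroup G) : Set G), n ∈ H →
          n ∈ H ⊓ H.map (MulAut.conj u).toMonoidHom := by
        intro n hn hnH
        have h1 := (Subgroup.mem_normalizer_iff''.1 hn d0).1 hd0
        have h2 := H6.mem_map_conj.1 h1.2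
        rcases hfix (n * u) (by simpa [mul_assoc] using h2) with h3 | h3
        · exact absurd (by simpa using H.mul_mem (H.inv_mem hnH) h3) huH
        · exact ⟨hnH, H6.mem_map_conj.2 (by simpa [mul_assoc] using H.inv_mem h3)⟩
      intro n hn
      have h1 := (Subgroup.mem_normalizer_iff''.1 hn d0).1 hd0
      rcases hfix n h1.1 with h3 | h3
      · exact Subgroup.mem_sup_left (key n hn h3)
      · have h4 := key _ (Subgroup.mul_mem _ (Subgroup.inv_mem _ hn) huN) h3
        have : n = u * (n⁻¹ * u)⁻¹ := by group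
        rw [this]
        exact Subgroup.mul_mem _ (Subgroup.mem_sup_right (Subgroup.mem_zpowers u))
          (Subgroup.mem_sup_left (Subgroup.inv_mem _ h4))
    · exact sup_le Subgroup.le_normalizer (Subgroup.zpowers_le.2 huN)
  · intro g
    constructor
    · intro hg
      have h1 := (H6.smul_mk_eq_iff _ _ _).1 (hg d0 hd0)
      rcases hfix g (by simpa [mul_assoc] using h1) with h3 | h3
      · left; rw [QuotientGroup.eq]; simpa using h3
      · right; rw [QuotientGroup.eq]; exact h3
    · rintro (hg | hg) d hd <;> rw [hg, H6.smul_mk_eq_iff]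
      · simpa using hd.1
      · simpa [mul_assoc] using H6.mem_map_conj.1 hd.2

end Cfsg.Agent.S1228
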