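import Cfsg.Statements.S1231
import Cfsg.Agent.H6.Baer

set_option autoImplicit false
open Cfsg

namespace Cfsg.Agent.S1231

theorem rank_iff {G : Type*} [Group G] (p k : ℕ) (X : Subgroup G) :
    ¬ Cfsg.PRankLE p k X ↔ ∃ A : Subgroup G, A ≤ X ∧ IsMulCommutative A ∧ (∀ a ∈ A, a ^ p = 1) ∧
      p ^ k < Nat.card A := by
  unfold Cfsg.PRankLE
  push Not
  constructor
  · rintro ⟨A, h1, h2, h3⟩
    refine ⟨A.map X.subtype, Subgroup.map_subtype_le _, inferInstance, ?_, ?_⟩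
    · rintro _ ⟨a, ha, rfl⟩
      exact congrArg Subtype.val (h2 a ha)
    · rwa [Subgroup.card_map_of_injective X.subtype_injective]
  · rintro ⟨A, h0, h1, h2, h3⟩
    refine ⟨A.subgroupOf X, inferInstance, fun a ha => Subtype.ext (h2 a ha), ?_⟩
    rwa [Nat.card_congr (Subgroup.subgroupOfEquivOfLe h0).toEquiv]

theorem rank_conj {G : Type*} [Group G] (p k : ℕ) (X : Subgroup G) (g : G)
    (h : ¬ Cfsg.PRankLE p k X) : ¬ Cfsg.PRankLE p k (X.map (MulAut.conj g).toMonoidHom) := by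
  rw [rank_iff] at h ⊢
  obtain ⟨A, h0, h1, h2, h3⟩ := h
  refine ⟨A.map (MulAut.conj g).toMonoidHom, Subgroup.map_mono h0, inferInstance, ?_, ?_⟩
  · rintro _ ⟨a, ha, rfl⟩
    rw [← map_pow, h2 a ha, map_one]
  · rwa [H6.card_map_conj]

theorem rank_mono {G : Type*} [Group G] (p k : ℕ) (X Y : Subgroup G)
    (h : ¬ Cfsg.PRankLE p k X) (hXY : X ≤ Y) : ¬ Cfsg.PRankLE p k Y := by
  rw [rank_iff] at h ⊢
  obtain ⟨A, h0, h1⟩ := h
  exact ⟨A, h0.trans hXY, h1⟩

/-- Let H be a subgroup of the finite group G, p a prime, k ≥ 1, and P a Sylow p-subgroup of H whose p-rank is at least k. Then N_G(X) ≤ H for every subgroup X of P of p-rank at least k if and only if H ∩ gHg⁻¹ has p-rank less than k for every g ∉ H. -/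
theorem result {G : Type*} [Group G] [Finite G] {p : ℕ} [Fact p.Prime] (k : ℕ) (hk : 1 ≤ k) (H : Subgroup G) (P : Sylow p ↥H) (hP : ¬ Cfsg.PRankLE p (k - 1) ↥(P : Subgroup ↥H)) : (∀ X : Subgroup G, X ≤ (P : Subgroup ↥H).map H.subtype → ¬ Cfsg.PRankLE p (k - 1) ↥X → Subgroup.normalizer (X : Set G) ≤ H) ↔ (∀ g : G, g ∉ H → Cfsg.PRankLE p (k - 1) ↥(H ⊓ H.map (MulAut.conj g).toMonoidHom)) := by
  constructor
  · intro h g hg
    by_contra hr
    obtain ⟨A, h0, h1, h2, h3⟩ := (rank_iff _ _ _).1 hr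
    refine hg (H6.embed_aux (p := p) (fun X => ¬ Cfsg.PRankLE p (k - 1) X) (rank_mono p _)
      (rank_conj p _) (fun X hXH hX hX1 => ?_) (D := A)
      (H6.isPGroup_of_forall fun a ha => ⟨1, by rw [pow_one, h2 a ha]⟩)
      ((rank_iff _ _ _).2 ⟨A, le_rfl, h1, h2, h3⟩) (h0.trans inf_le_left) (h0.trans inf_le_right))
    obtain ⟨c, hcH, hc⟩ := H6.exists_conj_le_sylow_sub P hX hXH
    have h1 := h (X.map (MulAut.conj c).toMonoidHom) (by
      rintro _ ⟨x, hx, rfl⟩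
      exact hc x hx) (rank_conj _ _ _ _ hX1)
    intro x hx
    have : c * x * c⁻¹ ∈ H := by
      apply h1
      rw [← H6.map_conj_eq_iff, H6.map_conj_map_conj, mul_assoc, inv_mul_cancel, mul_one,
        ← H6.map_conj_map_conj, H6.map_conj_eq_iff.2 hx]
    simpa [mul_assoc] using H.mul_mem (H.mul_mem (H.inv_mem hcH) this) hcH
  · intro h X hXP hX g hg
    by_contra hgH
    have hXH : X ≤ H := hXP.trans (Subgroup.map_subtype_le _)
    refine rank_mono p _ X _ hX (le_inf hXH ?_) (h g hgH)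
    rw [← H6.map_conj_eq_iff.2 hg]
    exact Subgroup.map_mono hXH

end Cfsg.Agent.S1231
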