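import Cfsg.Statements.S1235
import Cfsg.Agent.H12.SR2

set_option autoImplicit false
open Cfsg

namespace Cfsg.Agent.S1235

open Subgroup H16 H12.SR

theorem dih {D : Type*} [Group D] [Finite D]
    (hD : (∃ m : ℕ, 2 ≤ m ∧ Nonempty (D ≃* DihedralGroup m)) ∨ Cfsg.IsQuasiDihedral D) :
    ∃ c : D, Nat.card D = 2 * orderOf c ∧
      ((∀ a b : D, a * b = b * a) → Nat.card D = 4 ∧ ∀ d : D, d ^ 2 = 1) := by
  rcases hD with ⟨m, hm, ⟨e⟩⟩ | ⟨n, hn, hc, x, y, hx, -, hxy⟩
  · have h1 : Nat.card D = 2 * m := (Nat.card_congr e.toEquiv).trans (DihedralGroup.nat_card)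
    refine ⟨e.symm (DihedralGroup.r 1), by
      rw [MulEquiv.orderOf_eq, DihedralGroup.orderOf_r_one, h1], fun h => ?_⟩
    have h2 := congrArg e (h (e.symm (DihedralGroup.r 1)) (e.symm (DihedralGroup.sr 0)))
    simp only [map_mul, MulEquiv.apply_symm_apply, DihedralGroup.r_mul_sr,
      DihedralGroup.sr_mul_r, DihedralGroup.sr.injEq] at h2
    have h3 : ((2 : ℕ) : ZMod m) = 0 := by push_cast; linear_combination -h2
    have h4 : m = 2 := le_antisymm (Nat.le_of_dvd two_pos ((ZMod.natCast_eq_zero_iff _ _).1 h3)) hm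
    subst h4
    refine ⟨h1, fun d => e.injective ?_⟩
    rw [map_pow, map_one]
    generalize e d = z
    revert z
    decide
  · refine ⟨x, by rw [hc, hx, pow_succ'], fun h => ?_⟩
    exfalso
    rw [h y x, mul_inv_cancel_right] at hxy
    obtain ⟨k, rfl⟩ : ∃ k, n = k + 3 := ⟨n - 3, by omega⟩
    have h1 : k + 3 - 1 = k + 2 := by omega
    rw [h1] at hxy
    have h2 : 1 ≤ 2 ^ k := Nat.one_le_two_pow
    have h5 : 2 ^ (k + 2) = 4 * 2 ^ k := by ring
    have h6 : 2 ^ (k + 3) = 8 * 2 ^ k := by ring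
    rw [h5] at hxy
    rw [h6] at hx
    have h3 : x ^ (4 * 2 ^ k - 2) = 1 := by
      have : 4 * 2 ^ k - 1 = (4 * 2 ^ k - 2) + 1 := by omega
      rw [this, pow_succ] at hxy
      exact mul_eq_right.1 hxy.symm
    have h4 := Nat.le_of_dvd (by omega) (orderOf_dvd_of_pow_eq_one h3)
    rw [hx] at h4
    omega

/-- Let G be a finite group, x an involution and T ≤ G a Sylow 2-subgroup of C_G(x) (T ≤ C_G(x) with |C_G(x) : T| odd) which is the internal direct product of a subgroup D that is dihedral (of order ≥ 4) or quasi-dihedral and a Klein four-subgroup B. Suppose that for every involution b ∈ B, T ≤ C_G(b) with |C_G(b) : T| odd. Then every section of G has 2-rank at most 4. -/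
theorem result {G : Type*} [Group G] [Finite G] (x : G) (hx : orderOf x = 2) (T D B : Subgroup G) (hT : IsPGroup 2 T) (hTx : T ≤ Subgroup.centralizer ({x} : Set G)) (hTxi : Odd (T.relIndex (Subgroup.centralizer ({x} : Set G)))) (hprod : Cfsg.IsInternalDirectProduct D B T) (hD : (∃ m : ℕ, 2 ≤ m ∧ Nonempty (D ≃* DihedralGroup m)) ∨ Cfsg.IsQuasiDihedral D) (hB : IsKleinFour B) (hTb : ∀ b ∈ B, orderOf b = 2 → T ≤ Subgroup.centralizer ({b} : Set G) ∧ Odd (T.relIndex (Subgroup.centralizer ({b} : Set G)))) : Cfsg.SectionalPRankLE 2 4 G := by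
  have := Fact.mk Nat.prime_two
  obtain ⟨h1, h2, h3, h4, rfl⟩ := hprod
  obtain ⟨S, hS⟩ := hT.exists_le_sylow
  refine sec_sylow S ?_
  have cB : Nat.card B = 4 := hB.card_four
  have sB : ∀ b ∈ B, b ^ 2 = 1 := fun b hb =>
    congrArg Subtype.val (hB.exponent_two ▸ Monoid.pow_exponent_eq_one (⟨b, hb⟩ : B))
  have hc : D ≤ C[B] := fun a ha => mem_cent.2 fun b hb => (h3 a ha b hb).symm
  have cb : ∀ b ∈ B, b ≠ 1 → (S : Subgroup G) ⊓ C1[b] ≤ D ⊔ B := fun b hb hb1 => by
    obtain ⟨h5, h6⟩ := hTb b hb (orderOf_eq_prime (sB b hb) hb1)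
    have h7 := relIndex_dvd_of_le_right (le_inf hS h5) (inf_le_right : (S : Subgroup G) ⊓ C1[b] ≤ _)
    obtain ⟨m, hm⟩ := (S.isPGroup'.to_le (inf_le_left : (S : Subgroup G) ⊓ C1[b] ≤ _)).exists_card_eq
    have h8 : (D ⊔ B).relIndex ((S : Subgroup G) ⊓ C1[b]) ∣ 2 ^ m :=
      hm ▸ Dvd.intro_left _ (card_mul_relIndex (le_inf hS h5))
    obtain ⟨j, -, hj⟩ := (Nat.dvd_prime_pow Nat.prime_two).1 h8
    rcases j with _ | j
    · exact relIndex_eq_one.1 hj
    · exact absurd ((dvd_pow_self 2 j.succ_ne_zero).trans (hj ▸ h7)) h6.not_two_dvd_nat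
  obtain ⟨c, c1, c2⟩ := dih hD
  have cT := card_sup_of_inf_bot (Or.inl (norm_of_cent hc)) h4
  by_cases e : IsMulCommutative D
  · obtain ⟨c3, c4⟩ := c2 fun a b => Subtype.ext (mem_cent.1 (comm_iff.1 e b.2) a a.2)
    refine HE.sec (B := B) ⟨S.isPGroup', hS, h2, cB, by rw [cT, c3, cB], fun t ht => ?_, cb⟩
    have := sq_prod (A := ⊥) (B := ⊥) hc (fun d hd => congrArg Subtype.val (c4 ⟨d, hd⟩)) sB t ht
    rwa [bot_sup_eq] at this
  · have hX : zpowers (c : G) ≤ D := zpowers_le.2 c.2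
    have c3 : Nat.card (zpowers (c : G)) = orderOf c := by rw [card_zpowers, orderOf_coe]
    have c4 := card_pos' (zpowers (c : G))
    have h5 := syl_of_noncomm S.isPGroup' hS hc cB sB cb (cyclic_zpowers _) hX (by
      have := card_mul_relIndex hX
      rw [c1, ← c3, mul_comm] at this
      exact Nat.eq_of_mul_eq_mul_right c4 this) e
    rw [le_antisymm h5 hS]
    refine sec_cyc (cyclic_zpowers (c : G)) (idx_of_card (hX.trans h1) ?_)
    rw [cT, c1, cB, c3]
    omega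

end Cfsg.Agent.S1235
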