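import Cfsg.Statements.S1236
import Cfsg.Agent.H6.QG
import Cfsg.Agent.H6.DH

set_option autoImplicit false
open Cfsg

namespace Cfsg.Agent.S1236

open Subgroup H6 in
theorem dih_cent {G : Type*} [Group G] [Finite G] {m : ℕ} (e : G ≃* DihedralGroup m)
    {V : Subgroup G} (hV : IsKleinFour V) {g : G} (hg : g ∈ centralizer (V : Set G)) : g ∈ V := by
  obtain ⟨a, b, -, hb, hab, hba, hall⟩ := exists_gens_of_dihedral e
  have uniq : ∀ c ∈ zpowers a, ∀ d ∈ zpowers a, orderOf c = 2 → orderOf d = 2 → c = d := by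
    intro c hc d hd hc2 hd2
    by_contra hne
    obtain ⟨i, rfl⟩ := hc
    obtain ⟨j, rfl⟩ := hd
    have h4 := isKleinFour_closure hc2 hd2 hne (Commute.zpow_zpow_self a i j)
    have hle : closure ({a ^ i, a ^ j} : Set G) ≤ zpowers a := by
      rw [closure_le, Set.insert_subset_iff, Set.singleton_subset_iff]
      exact ⟨⟨i, rfl⟩, ⟨j, rfl⟩⟩
    exact h4.not_isCyclic (isCyclic_of_le hle)
  obtain ⟨u, v, hu, hv, huv, hc, hm⟩ := kleinFour_elts hV
  have h1 : ∃ z ∈ V, ∃ i : ℤ, z ∈ zpowers a ∧ orderOf z = 2 ∧ a ^ i * b ∈ V := by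
    obtain ⟨i, rfl | rfl⟩ := hall u <;> obtain ⟨j, rfl | rfl⟩ := hall v
    · exact absurd (uniq _ ⟨i, rfl⟩ _ ⟨j, rfl⟩ hu hv) huv
    · exact ⟨_, (hm _).2 (by simp), j, ⟨i, rfl⟩, hu, (hm _).2 (by simp)⟩
    · exact ⟨_, (hm _).2 (by simp), i, ⟨j, rfl⟩, hv, (hm _).2 (by simp)⟩
    · refine ⟨a ^ i * b * (a ^ j * b), (hm _).2 (by simp), i, ⟨i - j, ?_⟩,
        ord2_mul_of_commute (ord2_mul_self hu) (ord2_mul_self hv) hc huv, (hm _).2 (by simp)⟩
      show a ^ (i - j) = _
      rw [mul_assoc, ← mul_assoc b, mul_zpow_of_inverts hab, mul_assoc, hb, mul_one, ← zpow_add,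
        sub_eq_add_neg]
  obtain ⟨z, hz, i, hza, hz2, hw⟩ := h1
  have h2 : ∀ j : ℤ, Commute (a ^ j) (a ^ i * b) → a ^ j ∈ V := by
    intro j hj
    have h3 : Commute (a ^ j) b := by
      have := (Commute.zpow_zpow_self a j i).inv_right.mul_right hj
      rwa [inv_mul_cancel_left] at this
    have h4 : a ^ j * a ^ j = 1 := by
      have := conj_zpow_of_inverts hab j
      rw [conj_eq_iff_commute.2 h3.symm] at this
      exact mul_eq_one_iff_eq_inv.2 this
    by_cases h5 : a ^ j = 1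
    · rw [h5]; exact one_mem _
    · rw [uniq (a ^ j) ⟨j, rfl⟩ z hza (ord2_of h4 h5) hz2]; exact hz
  have h3 := mem_centralizer_iff_commute.1 hg _ hw
  obtain ⟨j, rfl | rfl⟩ := hall g
  · exact h2 j h3
  · have e0 : a ^ j * b = a ^ (j - i) * (a ^ i * b) := by
      rw [← mul_assoc, ← zpow_add, sub_add_cancel]
    have := h3.mul_left (Commute.refl (a ^ i * b)).inv_left
    rw [e0, mul_inv_cancel_right] at this
    rw [e0]; exact mul_mem (h2 _ this) hw

/-- Let R be a finite group, t a central involution of R such that R ⧸ ⟨t⟩ is dihedral (of order ≥ 4) or quasi-dihedral, and A ≤ R an elementary abelian subgroup of order 8 containing t. Then C_R(A) = A. -/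
theorem result {R : Type*} [Group R] [Finite R] (t : R) (ht : orderOf t = 2) (htz : t ∈ Subgroup.center R) [(Subgroup.zpowers t).Normal] (hq : (∃ m : ℕ, 2 ≤ m ∧ Nonempty (R ⧸ Subgroup.zpowers t ≃* DihedralGroup m)) ∨ Cfsg.IsQuasiDihedral (R ⧸ Subgroup.zpowers t)) (A : Subgroup R) (hA : Cfsg.IsElementaryAbelian 2 A) (hA8 : Nat.card A = 8) (htA : t ∈ A) : Subgroup.centralizer (A : Set R) = A := by
  have hle : Subgroup.zpowers t ≤ A := Subgroup.zpowers_le.2 htA
  have hV : IsKleinFour (A.map (QuotientGroup.mk' (Subgroup.zpowers t))) := by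
    refine H6.isKleinFour_of_card ?_ ?_
    · have := H7.card_map_mk_mul (Subgroup.zpowers t) A
      rw [inf_eq_left.2 hle, Nat.card_zpowers, ht, hA8] at this
      omega
    · rintro _ ⟨a, ha, rfl⟩
      rw [← map_mul, ← pow_two, hA.2 a ha, map_one]
  refine le_antisymm (fun g hg => ?_) fun a ha b hb =>
    congrArg Subtype.val (hA.1.is_comm.comm ⟨b, hb⟩ ⟨a, ha⟩)
  have h1 : QuotientGroup.mk' (Subgroup.zpowers t) g ∈ Subgroup.centralizer
      ((A.map (QuotientGroup.mk' (Subgroup.zpowers t)) : Subgroup _) : Set _) := by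
    rintro _ ⟨a, ha, rfl⟩
    rw [← map_mul, ← map_mul, hg a ha]
  have h2 : QuotientGroup.mk' (Subgroup.zpowers t) g ∈
      A.map (QuotientGroup.mk' (Subgroup.zpowers t)) := by
    rcases hq with ⟨m, -, ⟨e⟩⟩ | hq
    · exact dih_cent e hV h1
    · obtain ⟨k, x, y, h, -⟩ := H6.qd_top hq
      exact h.four_cent hV le_top (Subgroup.mem_top _) h1
  obtain ⟨a, ha, e⟩ := h2
  have := hle (QuotientGroup.eq.1 e)
  exact (A.mul_mem_cancel_left (A.inv_mem ha)).1 this

end Cfsg.Agent.S1236
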