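import Cfsg.Statements.S1238
import Cfsg.Agent.H6.U34b
import Cfsg.Agent.H6.Rank2

set_option autoImplicit false
open Cfsg

namespace Cfsg.Agent.S1238

/-- Let G be a finite group of 2-rank 2 (a Klein four-subgroup but no elementary abelian subgroup of order 8) which is fusion simple: G has no subgroup of index 2 and no isolated involution. Let S be a Sylow 2-subgroup. Then S is dihedral, quasi-dihedral, wreathed, isomorphic to Z_{2^n} × Z_{2^n} for some n ≥ 2, or isomorphic to a Sylow 2-subgroup of PSU(3) over the field with 16 elements. -/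
theorem result {G : Type*} [Group G] [Finite G] (h2 : Cfsg.PRankLE 2 2 G) (h1 : ¬ Cfsg.PRankLE 2 1 G) (hidx : ∀ H : Subgroup G, H.index ≠ 2) (hiso : ∀ z : G, ¬ Cfsg.IsIsolatedInvolution z) (S : Sylow 2 G) {F : Type*} [Field F] [Fintype F] (hF : Fintype.card F = 16) (P : Sylow 2 (Cfsg.PSU 3 F 4)) : (∃ m : ℕ, 2 ≤ m ∧ Nonempty ((S : Subgroup G) ≃* DihedralGroup m)) ∨ Cfsg.IsQuasiDihedral (S : Subgroup G) ∨ Cfsg.IsWreathed (S : Subgroup G) ∨ (∃ n : ℕ, 2 ≤ n ∧ Nonempty ((S : Subgroup G) ≃* Multiplicative (ZMod (2 ^ n) × ZMod (2 ^ n)))) ∨ Nonempty ((S : Subgroup G) ≃* (P : Subgroup (Cfsg.PSU 3 F 4))) := by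
  obtain ⟨A, hA, hA4⟩ := H9.exists_of_not_prank h1
  obtain ⟨g, hg⟩ := H6.exists_conj_le_sylow S (H9.isPGroup_of_elementary hA)
  obtain ⟨z, hzS, hz, hc⟩ := H6.exists_central_ord2 S.isPGroup' fun e => by
    have : A = ⊥ := eq_bot_iff.2 fun x hx => by
      have : g * x * g⁻¹ ∈ (S : Subgroup G) := hg x hx
      rwa [e, Subgroup.mem_bot, conj_eq_one_iff] at this
    rw [this, Subgroup.card_bot] at hA4
    omega
  exact (H6.rk2_of_not_wc S (H9.prank_subgroup h2 _) hzS hz hc
    fun h => hiso z (H6.iso_of_sylow S hz hzS h.2)).imp_right (Or.imp_right (Or.imp_right (Or.imp_right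
      fun hU => hU.iso (H6.isU34_sylow hF P))))

end Cfsg.Agent.S1238
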