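import Cfsg.Statements.S1239
import Cfsg.Agent.H6.ZS2

set_option autoImplicit false
open Cfsg

namespace Cfsg.Agent.S1239

/-- Let X be a finite group whose Sylow 2-subgroup S is quasi-dihedral or wreathed, and suppose some involution of S is isolated in X. Then the product of the largest normal odd-order subgroup O(X) with the centre of S is normal in X. -/
theorem result {X : Type*} [Group X] [Finite X] (S : Sylow 2 X) (hS : Cfsg.IsQuasiDihedral (S : Subgroup X) ∨ Cfsg.IsWreathed (S : Subgroup X)) (z : X) (hzS : z ∈ S) (hz : Cfsg.IsIsolatedInvolution z) : (Cfsg.oddCore X ⊔ (Subgroup.center (S : Subgroup X)).map (S : Subgroup X).subtype).Normal := by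
  obtain ⟨w, z', hw, hz'w, hz', h⟩ := H6.center_wc hS
  have hwc : H6.WC (S : Subgroup X) z := H6.wc_of_isIsolated S.isPGroup' hzS hz.2
  have hzw : z ∈ Subgroup.zpowers w := by
    rw [← hw]
    exact ⟨⟨z, hzS⟩, Subgroup.mem_center_iff.2 fun s => Subtype.ext (hwc.commute s.2).eq, rfl⟩
  rw [H6.ord2_unique_zpowers hz'w hzw hz' hz.1] at h
  rw [hw]
  apply H6.normal_sup_of_comm
  intro y hy
  obtain ⟨k, rfl⟩ := (mem_powers_iff_mem_zpowers.2 hy)
  exact H6.zstar2 ((h hwc).pow k)

end Cfsg.Agent.S1239
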