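import Cfsg.Statements.S1241
import Cfsg.Agent.H6.Fus

set_option autoImplicit false
open Cfsg

namespace Cfsg.Agent.S1241

/-- Let G be a finite group, p a prime, H a subgroup of index prime to p, K a subgroup of H normal in H with H/K commutative, and g ∈ H ∖ K an element of p-power order such that for all integers m and all a ∈ G with a g^m a⁻¹ ∈ H one has a g^m a⁻¹ ∈ g^m K. Then g ∉ G'. -/
theorem result {G : Type*} [Group G] [Finite G] {p : ℕ} [Fact p.Prime] (H K : Subgroup G) (hHK : K ≤ H) (hKn : (K.subgroupOf H).Normal) (hab : ∀ x ∈ H, ∀ y ∈ H, x * y * x⁻¹ * y⁻¹ ∈ K) (hidx : Nat.Coprime p H.index) (g : G) (hgH : g ∈ H) (hgK : g ∉ K) (hgp : ∃ k : ℕ, orderOf g = p ^ k) (hctrl : ∀ (m : ℤ) (a : G), a * g ^ m * a⁻¹ ∈ H → (a * g ^ m * a⁻¹) * (g ^ m)⁻¹ ∈ K) : g ∉ commutator G := by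
  intro hg
  have : (K.subgroupOf H).Normal := hKn
  have hcomm : IsMulCommutative (H ⧸ K.subgroupOf H) := by
    rw [Subgroup.Normal.quotient_commutative_iff_commutator_le, commutator_def,
      Subgroup.commutator_le]
    intro a _ b _
    exact hab a a.2 b b.2
  let _ : CommGroup (H ⧸ K.subgroupOf H) := { mul_comm := hcomm.is_comm.comm }
  have h1 := H3.transfer_eq_pow_of (QuotientGroup.mk' (K.subgroupOf H)) ⟨g, hgH⟩ (by
    intro k a h
    rw [← map_pow, QuotientGroup.mk'_apply, QuotientGroup.mk'_apply, eq_comm,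
      QuotientGroup.eq_iff_div_mem, div_eq_mul_inv, ← inv_mem_iff, Subgroup.mem_subgroupOf]
    have := hctrl k a⁻¹ (by simpa using h)
    simpa [mul_assoc] using this)
  rw [MonoidHom.mem_ker.1 (Abelianization.commutator_subset_ker _ hg)] at h1
  obtain ⟨k, hk⟩ := hgp
  have h2 : (QuotientGroup.mk' (K.subgroupOf H) ⟨g, hgH⟩) ^ p ^ k = 1 := by
    rw [← map_pow, show (⟨g, hgH⟩ : H) ^ p ^ k = 1 from Subtype.ext (by
      simp [← hk, pow_orderOf_eq_one]), map_one]
  have h3 := H3.eq_one_of_pow_of_coprime h2 (Nat.Coprime.coprime_dvd_left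
    (orderOf_dvd_of_pow_eq_one h1.symm) hidx.symm)
  exact hgK ((QuotientGroup.eq_one_iff (N := K.subgroupOf H) ⟨g, hgH⟩).1 h3)

end Cfsg.Agent.S1241
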