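import Cfsg.Statements.S1242
import Cfsg.Agent.H6.Fus

set_option autoImplicit false
open Cfsg

namespace Cfsg.Agent.S1242

/-- Let G be a finite group, p a prime and H a subgroup of index prime to p such that any two elements of H of p-power order that are conjugate in G are conjugate in H. Then (O^p(G)·G') ∩ H = O^p(H)·H', where O^p denotes the subgroup generated by the elements of order prime to p. -/
theorem result {G : Type*} [Group G] [Finite G] {p : ℕ} [Fact p.Prime] (H : Subgroup G) (hidx : Nat.Coprime p H.index) (hfus : ∀ g ∈ H, (∃ k : ℕ, orderOf g = p ^ k) → ∀ a : G, a * g * a⁻¹ ∈ H → ∃ h ∈ H, h * g * h⁻¹ = a * g * a⁻¹) : (Cfsg.pResidual p G ⊔ commutator G) ⊓ H = (Cfsg.pResidual p ↥H ⊔ commutator ↥H).map H.subtype := by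
  obtain ⟨P, hP⟩ := H3.exists_sylow_le_of_not_dvd_index (p := p) (H := H)
    ((Nat.Prime.coprime_iff_not_dvd Fact.out).1 hidx)
  have hf : ∀ x ∈ (P : Subgroup G), ∀ g : G, g * x * g⁻¹ ∈ (P : Subgroup G) →
      ∃ v ∈ H, g * x * g⁻¹ = v * x * v⁻¹ := by
    intro x hx g hg
    obtain ⟨h, hh, e⟩ := hfus x (hP hx) (H10.orderOf_eq_pow_of_mem P.isPGroup' hx) g (hP hg)
    exact ⟨h, hh, e.symm⟩
  have h1 := H3.commutator_inf_eq_of_fusion P hP hf
  rw [Subgroup.map_sup, Subgroup.map_subtype_commutator]
  apply le_antisymm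
  · rintro x ⟨hx, hxH⟩
    obtain ⟨o, ho, s, hs, e⟩ := H3.exists_mul_of_sup_eq_top
      (H3.pResidual_sup_sylow (P.subtype hP)) ⟨x, hxH⟩
    have e' : (o : G) * s = x := congrArg Subtype.val e
    have ho' : (o : G) ∈ (Cfsg.pResidual p H).map H.subtype := ⟨o, ho, rfl⟩
    have hs1 : (s : G) ∈ Cfsg.pResidual p G ⊔ commutator G := by
      have := Subgroup.mul_mem _ (Subgroup.inv_mem _
        (Subgroup.mem_sup_left (H3.map_subtype_pResidual_le H ho'))) hx
      rwa [← e', inv_mul_cancel_left] at this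
    have hsP : (s : G) ∈ (P : Subgroup G) := hs
    have hs2 : (s : G) ∈ commutator G := by
      have h2 : Abelianization.of (s : G) ∈ Cfsg.pResidual p (Abelianization G) := by
        refine (sup_le (Subgroup.map_le_iff_le_comap.1 (H3.map_pResidual_le Abelianization.of))
          ?_ : _ ≤ (Cfsg.pResidual p (Abelianization G)).comap Abelianization.of) hs1
        intro y hy
        rw [← Abelianization.ker_of, MonoidHom.mem_ker] at hy
        rw [Subgroup.mem_comap, hy]; exact one_mem _
      have h3 := H3.hasNormalPComplement_iff_forall_mem.1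
        (H3.hasNormalPComplement_of_isNilpotent (p := p) (Abelianization G)) _ h2
      obtain ⟨k, hk⟩ := H6.IsPGroup_pow_eq_one P.isPGroup' hsP
      rw [← Abelianization.ker_of, MonoidHom.mem_ker]
      exact H3.eq_one_of_pow_of_coprime (k := k) (by rw [← map_pow, hk, map_one]) h3
    have h4 : (s : G) ∈ ⁅H, H⁆ ⊓ P := h1 ▸ ⟨hs2, hsP⟩
    rw [← e']
    exact Subgroup.mul_mem _ (Subgroup.mem_sup_left ho') (Subgroup.mem_sup_right h4.1)
  · refine sup_le (le_inf ((H3.map_subtype_pResidual_le H).trans le_sup_left)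
      (Subgroup.map_subtype_le _)) (le_inf ((Subgroup.commutator_mono le_top le_top).trans
        le_sup_right) (Subgroup.commutator_le_self H))

end Cfsg.Agent.S1242
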