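import Cfsg.Statements.S1244
import Cfsg.Agent.H6.TT2
import Cfsg.Agent.H5.SigEq
import Cfsg.Agent.H6.Q8

set_option autoImplicit false
open Cfsg

namespace Cfsg.Agent.S1244

/-- Let G be a finite group with no subgroup of index 2 whose Sylow 2-subgroup S is commutative, and let R ≤ S be a subgroup whose 2-rank is exactly one less than the 2-rank r of S. Then every involution of S is conjugate, by an element of N_G(S), to an element of R. -/
theorem result {G : Type*} [Group G] [Finite G] (hG : ∀ H : Subgroup G, H.index ≠ 2) (S : Sylow 2 G) (hS : IsMulCommutative (S : Subgroup G)) (r : ℕ) (hr1 : 1 ≤ r) (hSr : Cfsg.PRankLE 2 r (S : Subgroup G) ∧ ¬ Cfsg.PRankLE 2 (r - 1) (S : Subgroup G)) (R : Subgroup G) (hRS : R ≤ S) (hRr : Cfsg.PRankLE 2 (r - 1) R ∧ (r = 1 ∨ ¬ Cfsg.PRankLE 2 (r - 2) R)) (t : G) (ht : orderOf t = 2) (htS : t ∈ S) : ∃ n ∈ Subgroup.normalizer ((S : Subgroup G) : Set G), n * t * n⁻¹ ∈ R := by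
  open Subgroup in
  haveI : Fact (Nat.Prime 2) := ⟨Nat.prime_two⟩
  by_cases htR : t ∈ R
  · exact ⟨1, one_mem _, by simpa using htR⟩
  have hc := H1.isMulCommutative_iff'.1 hS
  obtain ⟨B, hBS, hB, -, hB'⟩ := H5.omegaOne_elemAb (p := 2) hS
  have hBc : Nat.card B ≤ 2 ^ r := by
    by_contra h
    exact H5.not_pRankLE_iff.2 ⟨B, hBS, hB, H5.pow_succ_le_of_lt (H5.isPGroup_of_elemAb hB)
      (not_le.1 h)⟩ hSr.1
  obtain ⟨A, hAR, hA, hAc⟩ : ∃ A : Subgroup G, A ≤ R ∧ IsElementaryAbelian 2 A ∧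
      2 ^ (r - 1) ≤ Nat.card A := by
    by_cases h1 : r = 1
    · exact ⟨⊥, bot_le, H5.elemAb_of_le hB bot_le, by simp [h1]⟩
    · obtain ⟨A, h2, h3, h4⟩ := H5.not_pRankLE_iff.1 (hRr.2.resolve_left h1)
      exact ⟨A, h2, h3, by rwa [show r - 1 = r - 2 + 1 by omega]⟩
  have hAB : A ≤ B := fun a ha => hB' a (hRS (hAR ha)) (hA.2 a ha)
  have htB : t ∈ B := hB' t htS (by rw [← ht, pow_orderOf_eq_one])
  have hi : A.relIndex B = 2 := by
    have h1 : Nat.card A * A.relIndex B = Nat.card B := by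
      rw [← Nat.card_congr (subgroupOfEquivOfLe hAB).toEquiv]; exact card_mul_index _
    have h2 : A.relIndex B ≠ 1 := fun h => htR (hAR (relIndex_eq_one.1 h htB))
    have h3 : 0 < Nat.card B := Nat.card_pos
    have h4 : 2 ^ r = 2 ^ (r - 1) * 2 := by rw [← pow_succ]; congr 1; omega
    have h5 : 0 < Nat.card A := Nat.card_pos
    by_contra h6
    have h7 : A.relIndex B ≠ 0 := by rintro h; rw [h] at h1; omega
    have : Nat.card A * 3 ≤ Nat.card A * A.relIndex B := Nat.mul_le_mul_left _ (by omega)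
    omega
  obtain ⟨g, h1, h2, -⟩ := H6.tt_quot hG S (R := R) (fun a ha b hb => by
      rw [hc a ha b hb]; simp) htS (H6.ord2_mul_self ht) htR (fun s hs hss => by
      have hsB := hB' s hs (by rw [pow_two, hss])
      by_cases h : s ∈ A
      · exact Or.inl (hAR h)
      · refine Or.inr (hAR ((H6.mul_mem_iff_of_relIndex_two hi (inv_mem hsB) htB).2 ?_))
        exact ⟨fun h' => (h (inv_mem_iff.1 h')).elim, fun h' => (htR (hAR h')).elim⟩)
    (Q := ⊥) IsPGroup.of_bot bot_le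
  obtain ⟨n, hn, e⟩ := H6.burnside_fusion_comm S (x := t) (y := g * t * g⁻¹)
    (fun s hs => hc s hs t htS) (fun s hs => hc s hs _ h1) (isConj_iff.2 ⟨g, rfl⟩)
  exact ⟨n, hn, e ▸ h2⟩

end Cfsg.Agent.S1244
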