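import Cfsg.Statements.S1246
import Cfsg.Agent.H6.Fus
import Cfsg.Agent.H5.Fstar
import Cfsg.Agent.H11.CharP

set_option autoImplicit false
open Cfsg

namespace Cfsg.Agent.S1246

theorem pow_mul_mem {G : Type*} [Group G] {C : Subgroup G} {a v : G} (ha : a ∈ C)
    (hv : v ∈ Subgroup.normalizer (C : Set G)) (n : ℕ) : (a * v) ^ n * (v ^ n)⁻¹ ∈ C := by
  induction n with
  | zero => simp
  | succ n ih =>
    have : (a * v) ^ (n + 1) * (v ^ (n + 1))⁻¹ = a * (v * ((a * v) ^ n * (v ^ n)⁻¹) * v⁻¹) := by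
      rw [pow_succ', pow_succ']; group
    rw [this]
    exact C.mul_mem ha ((Subgroup.mem_normalizer_iff.1 hv _).1 ih)

theorem iff_charP {G : Type*} [Group G] [Finite G] {p : ℕ} [Fact p.Prime] (L : Subgroup G) :
    IsPGroup p (Cfsg.generalizedFittingSubgroup L) ↔ H11.IsCharP p L := by
  rw [H11.isCharP_iff, ← H5.fstar_eq_pCore_iff_centralizer, H5.fstar_eq_pCore_iff_of,
    H5.fstarOf_eq_opOf_iff_isPGroup]
  exact ⟨fun h => h.map _, fun h => h.of_equiv
    (Subgroup.equivMapOfInjective _ _ L.subtype_injective).symm⟩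

/-- Let V ≤ U be p-subgroups of the finite group G. If the generalized Fitting subgroup of C_G(V) is a p-group, then so is that of C_G(U). -/
theorem result {G : Type*} [Group G] [Finite G] {p : ℕ} [Fact p.Prime] (U V : Subgroup G) (hVU : V ≤ U) (hU : IsPGroup p U) (hV : IsPGroup p ↥(Cfsg.generalizedFittingSubgroup ↥(Subgroup.centralizer (V : Set G)))) : IsPGroup p ↥(Cfsg.generalizedFittingSubgroup ↥(Subgroup.centralizer (U : Set G))) := by
  rw [iff_charP] at hV ⊢
  induction V using WellFoundedGT.induction with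
  | ind V ih =>
  rcases hVU.eq_or_lt with rfl | hlt
  · exact hV
  have h1 := H3.lt_inf_normalizer_of_isPGroup hU hlt
  refine ih _ h1 inf_le_left ?_
  generalize hW : U ⊓ Subgroup.normalizer (V : Set G) = W at h1
  have hWp : IsPGroup p W := hU.to_le (hW ▸ inf_le_left)
  have hWN : W ≤ Subgroup.normalizer ((Subgroup.centralizer (V : Set G) : Subgroup G) : Set G) :=
    le_trans (hW ▸ inf_le_right) (H7.normalizer_le_normalizer_centralizer V)
  have h2 : H11.IsCharP p (Subgroup.centralizer (V : Set G) ⊔ W) := by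
    refine H11.isCharP_of_forall fun c hc hcc hco => ?_
    obtain ⟨a, ha, v, hv, rfl⟩ := (H7.mem_sup_of_le_normalizer' hWN).1 hc
    obtain ⟨k, hk⟩ := H6.IsPGroup_pow_eq_one hWp hv
    have h3 := pow_mul_mem ha (hWN hv) (p ^ k)
    rw [hk, inv_one, mul_one] at h3
    have h4 : a * v ∈ Subgroup.centralizer (V : Set G) :=
      (Subgroup.zpowers_le.2 h3) (mem_zpowers_pow_iff.2 (Nat.Coprime.pow_left k hco.symm))
    refine hV.eq_one h4 (Subgroup.centralizer_le ?_ hcc) hco
    rw [H11.pCoreOf_eq_inf_of_le_normalizer le_sup_left (sup_le Subgroup.le_normalizer hWN)]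
    exact SetLike.coe_subset_coe.2 inf_le_left
  have h5 := h2.inf_centralizer le_sup_right hWp
  rwa [inf_eq_right.2 (le_trans (Subgroup.centralizer_le (SetLike.coe_subset_coe.2 h1.le))
    le_sup_left)] at h5

end Cfsg.Agent.S1246
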