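import Cfsg.Statements.S1247
import Cfsg.Agent.H5.Bender
import Cfsg.Agent.H3.PComp

set_option autoImplicit false
open Cfsg

namespace Cfsg.Agent.S1247

/-- Let G be a non-abelian finite simple group, A a maximal subgroup, F = F*(A) its generalized Fitting subgroup (viewed in G), and S ≤ F a subgroup subnormal in F with C_F(S) ≤ S. Let B be any subgroup of G containing S. Then (a) for every prime q not dividing |F(A)|, O_q(B) ∩ A = 1; and (b) for every prime p dividing |F(A)|, O_p(B) commutes elementwise with the subgroup of F generated by its elements of order prime to p. -/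
theorem result {G : Type*} [Group G] [Finite G] [IsSimpleGroup G] (hna : ¬ IsMulCommutative G) (A : Subgroup G) (hA : IsCoatom A) (S : Subgroup G) (hSF : S ≤ (Cfsg.generalizedFittingSubgroup ↥A).map A.subtype) (hSsn : (S.subgroupOf ((Cfsg.generalizedFittingSubgroup ↥A).map A.subtype)).IsSubnormal) (hSC : (Cfsg.generalizedFittingSubgroup ↥A).map A.subtype ⊓ Subgroup.centralizer (S : Set G) ≤ S) (B : Subgroup G) (hSB : S ≤ B) : (∀ q : ℕ, q.Prime → ¬ q ∣ Nat.card (Cfsg.fittingSubgroup ↥A) → (Cfsg.pCore q ↥B).map B.subtype ⊓ A = ⊥) ∧ (∀ p : ℕ, p.Prime → p ∣ Nat.card (Cfsg.fittingSubgroup ↥A) → ∀ x ∈ (Cfsg.pCore p ↥B).map B.subtype, ∀ y ∈ (Cfsg.pResidual p ↥(Cfsg.generalizedFittingSubgroup ↥A)).map ((Cfsg.generalizedFittingSubgroup ↥A).subtype) , x * (A.subtype y) = (A.subtype y) * x) := by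
  open Subgroup H5 in
  have hSN : SN S (fstarOf A) := ⟨hSF, hSsn⟩
  have hSA : SN S A := hSN.trans (sn_fstarOf A)
  have hL : Leads A B := by
    refine ⟨?_, fun p _ => le_trans (le_trans (le_inf (inf_le_left.trans (opOf_le_fstarOf p A)) ?_) hSC) hSB⟩
    · rw [← layerOf_fstarOf]
      exact (hSN.layerOf_le_of_centralizer_le hSC).trans hSB
    · rw [← hSN.fstarOf_eq_self, fstarOf_eq, H5.centralizer_sup]
      refine le_inf (inf_le_left.trans (le_centralizer_iff.1 (hSA.layerOf_le.trans
        (layerOf_le_centralizer_opOf p A)))) (le_centralizer_fitOf fun q _ => ?_)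
      by_cases e : q = p
      · subst e
        exact inf_le_right.trans (centralizer_anti (le_inf (hSA.opOf_le q) ((opOf_le _ _).trans hSB)))
      · refine inf_le_left.trans (le_trans ?_ (centralizer_anti (hSA.opOf_le q)))
        exact commutator_eq_bot_iff_le_centralizer.1 (commutator_eq_bot_of_coprime
          ((opOf_le _ _).trans (self_le_normalizer_opOf _ _))
          ((opOf_le _ _).trans (self_le_normalizer_opOf _ _))
          (coprime_of_primes (isPGroup_opOf _ _) (isPGroup_opOf _ _) (Ne.symm e)))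
  have hcard : Nat.card (fitOf A) = Nat.card (fittingSubgroup A) :=
    card_map_of_injective A.subtype_injective
  have hP := prim_of_coatom hA
  refine ⟨fun q hq hd => ?_, fun p hp hd x hx => ?_⟩
  · haveI := Fact.mk hq
    exact hL.opOf_inf_eq_bot (by_contra fun h => hd (hcard ▸ opOf_ne_bot_iff.1 h))
  haveI := Fact.mk hp
  have hp0 : opOf p A ≠ ⊥ := opOf_ne_bot_iff.2 (hcard ▸ hd)
  have h1 : layerOf A ≤ centralizer (opOf p B : Set G) := by
    refine (pPerf_of_perfect (layerOf_perfect A)).le_centralizer (P := zOf (opOf p A))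
      ((isPGroup_opOf p A).to_le inf_le_left) (isPGroup_opOf p B)
      ((hL.zOf_le p).trans (self_le_normalizer_opOf p B)) (hL.layer.trans (self_le_normalizer_opOf p B))
      ((layerOf_le_centralizer_opOf p A).trans (centralizer_anti inf_le_left)) ?_
    have h2 : opOf p B ⊓ centralizer (zOf (opOf p A) : Set G) ≤ opOf p B ⊓ A :=
      inf_le_inf_left _ ((centralizer_le_normalizer _).trans (hP _ (inf_le_left.trans (H5.opOf_le _ _))
        (zOf_opOf_ne_bot hp0) (self_le_normalizer_zOf_opOf p A)))
    refine le_trans ?_ (centralizer_anti h2)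
    exact commutator_eq_bot_iff_le_centralizer.1 (commutator_layerOf_eq_bot_of_le_normalizer inf_le_right
      (le_normalizer_inf (hL.layer.trans (self_le_normalizer_opOf p B))
        (le_normalizer_of_le (layerOf_le A))) (isSolvable_of_isPGroup ((isPGroup_opOf p B).to_le inf_le_left)))
  have h2 : opOf p B ≤ centralizer (oppOf p (fitOf A) : Set G) := by
    rw [← fitOf_eq_self_iff.2 (H1.isNilpotent_of_le (isNilpotent_fitOf A) (oppOf_le p _))]
    refine le_centralizer_fitOf fun q _ => ?_
    have h3 : opOf q (oppOf p (fitOf A)) ≤ opOf q A :=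
      le_opOf_of_le_fitOf (isPGroup_opOf _ _) ((opOf_le _ _).trans (oppOf_le _ _))
    by_cases e : q = p
    · subst e
      rw [eq_bot_iff.2 ((le_inf le_rfl (opOf_le _ _)).trans (opOf_inf_oppOf q _ _).le)]
      exact le_centralizer_iff.1 bot_le
    by_cases e2 : opOf q A = ⊥
    · rw [eq_bot_iff.2 (h3.trans e2.le)]; exact le_centralizer_iff.1 bot_le
    exact (le_inf le_rfl (hL.opOf_le hP e e2 hp0)).trans
      ((hL.opOf_le_centralizer (Ne.symm e)).trans (centralizer_anti h3))
  have h4 : layerOf A ⊔ oppOf p (fitOf A) ≤ centralizer ({x} : Set G) :=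
    (sup_le h1 (le_centralizer_iff.1 h2)).trans (centralizer_le (by simpa using hx))
  have h5 : pResidual p (generalizedFittingSubgroup A) ≤
      ((centralizer ({x} : Set G)).comap A.subtype).comap (generalizedFittingSubgroup A).subtype := by
    refine H3.pResidual_le_iff.2 fun y hy => h4 (zpowers_le.1 ?_)
    refine (pPerf_of_coprime (by rw [Nat.card_zpowers]; simpa using hy)).le_of_le_sup
      (isPGroup_opOf p A) ((opOf_le p A).trans (le_normalizer_sup (self_le_normalizer_layerOf A)
        (le_normalizer_oppOf p (self_le_normalizer_fitOf A)))) (zpowers_le.2 ?_)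
    have h6 : ((y : A) : G) ∈ fstarOf A := ⟨y, y.2, rfl⟩
    rw [fstarOf_eq] at h6
    have h7 : layerOf A ⊔ fitOf A ≤ (layerOf A ⊔ oppOf p (fitOf A)) ⊔ opOf p A := by
      refine sup_le (le_sup_left.trans le_sup_left) ?_
      have h8 := fitOf_le_opOf_sup_oppOf p (fitOf A)
      rw [fitOf_eq_self_iff.2 (isNilpotent_fitOf A), opOf_fitOf] at h8
      exact h8.trans (sup_le le_sup_right (le_sup_right.trans le_sup_left))
    exact h7 h6
  rintro _ ⟨y, hy, rfl⟩
  exact (mem_centralizer_singleton_iff.1 (h5 hy)).symm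

end Cfsg.Agent.S1247
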