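import Cfsg.Statements.S1253
import Cfsg.Agent.H6.ZS2
import Cfsg.Agent.H1.Factor

set_option autoImplicit false
open Cfsg

namespace Cfsg.Agent.S1253

/-- Let z be an isolated involution of the finite group G with centralizer C, p an odd prime and P a Sylow p-subgroup of G normalized by z. Then P ∩ C has p-power-free index in C (it is a Sylow p-subgroup of C), and |P : C_P(z)| equals the number of elements x ∈ P with z x z⁻¹ = x⁻¹. -/
theorem result {G : Type*} [Group G] [Finite G] (z : G) (hz : Cfsg.IsIsolatedInvolution z) {p : ℕ} [Fact p.Prime] (hp : p ≠ 2) (P : Sylow p G) (hzP : z ∈ Subgroup.normalizer ((P : Subgroup G) : Set G)) : ¬ p ∣ ((P : Subgroup G) ⊓ Subgroup.centralizer ({z} : Set G)).relIndex (Subgroup.centralizer ({z} : Set G)) ∧ ((P : Subgroup G) ⊓ Subgroup.centralizer ({z} : Set G)).relIndex (P : Subgroup G) = Nat.card {x : G // x ∈ P ∧ z * x * z⁻¹ = x⁻¹} := by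
  have hzz := H6.ord2_mul_self hz.1
  have hcp : Nat.Coprime 2 p := (Nat.coprime_primes Nat.prime_two Fact.out).2 (Ne.symm hp)
  have hPodd : (Nat.card (P : Subgroup G)).Coprime 2 := H1.IsPGroup.coprime_card P.isPGroup' hcp
  refine ⟨?_, by rw [Subgroup.inf_relIndex_left]; exact H6.relIndex_cent_eq_card_inverted (H6.coprime_two_iff.1 hPodd) hzz hzP⟩
  set K := (P : Subgroup G) ⊔ Cfsg.pPrimeCore 2 G with hK
  have hzK : Subgroup.zpowers z ≤ Subgroup.normalizer (K : Set G) := by
    rw [Subgroup.zpowers_le]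
    apply H6.mem_normalizer_of_conj_le
    intro x hx
    have := mul_mem (Subgroup.mem_sup_right (H19.zstar hz x) : _ ∈ K) hx
    simpa using this
  have hcop : (Nat.card (Subgroup.zpowers z)).Coprime (Nat.card K) := by
    rw [Nat.card_zpowers, hz.1]
    refine Nat.Coprime.symm (Nat.Coprime.coprime_dvd_left (H1.card_sup_dvd Subgroup.le_normalizer_of_normal) ?_)
    exact Nat.Coprime.mul_left hPodd (H1.coprime_card_pPrimeCore 2)
  have hPK : Cfsg.IsPiHallOf {p} (P : Subgroup G) K := H1.sylowOf_of_maximal le_sup_left P.isPGroup'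
    fun Q _ hQ h => H6.sylow_eq_of_le P hQ h
  have h1 := H1.sylowOf_inf_centralizer hzK hcop (Or.inl inferInstance) hPK (Subgroup.zpowers_le.2 hzP)
  have hc : Subgroup.centralizer ((Subgroup.zpowers z : Subgroup G) : Set G) = Subgroup.centralizer ({z} : Set G) := by
    ext g
    rw [H6.mem_centralizer_iff_commute, H6.mem_cent_iff_commute]
    exact ⟨fun h => h z (Subgroup.mem_zpowers z), by rintro h _ ⟨k, rfl⟩; exact h.zpow_right k⟩
  rw [hc] at h1
  set C := Subgroup.centralizer ({z} : Set G) with hC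
  have h2 : H1.IsProd ⊤ K C := H1.isProd_top.2 fun g => by
    obtain ⟨o, ho, c, hc, rfl⟩ := H6.isolated_core_mul_cent hz g
    exact ⟨o, Subgroup.mem_sup_right ho, c, H6.mem_cent_iff_commute.2 hc, rfl⟩
  have h3 := h2.relIndex_eq
  rw [Subgroup.relIndex_top_right] at h3
  rw [← Subgroup.relIndex_mul_relIndex _ (K ⊓ C) C (inf_le_inf_right C le_sup_left) inf_le_right,
    Subgroup.inf_relIndex_right K C, ← h3]
  intro hd
  rcases (Nat.Prime.dvd_mul Fact.out).1 hd with h4 | h4
  · exact (H1.isPiHallOf_iff.1 h1).2.2 p Fact.out h4 rfl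
  · exact P.not_dvd_index (h4.trans (Subgroup.index_dvd_of_le le_sup_left))

end Cfsg.Agent.S1253
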