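import Cfsg.Statements.S1254
import Cfsg.Agent.H6.DH

set_option autoImplicit false
open Cfsg

namespace Cfsg.Agent.S1254

/-- Let X be a finite group whose Sylow 2-subgroup S is dihedral (of order at least 4). Then X has a normal 2-complement if and only if, for every Klein four-subgroup U ≤ S, the normalizer N_X(U) is generated by C_X(U) and N_S(U). -/
theorem result {X : Type*} [Group X] [Finite X] (S : Sylow 2 X) (m : ℕ) (hm : 2 ≤ m) (eS : (S : Subgroup X) ≃* DihedralGroup m) : Cfsg.HasNormalPComplement 2 X ↔ ∀ U : Subgroup X, U ≤ S → IsKleinFour U → Subgroup.normalizer (U : Set X) = Subgroup.centralizer (U : Set X) ⊔ ((S : Subgroup X) ⊓ Subgroup.normalizer (U : Set X)) := by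
  obtain ⟨k, x, y, h, -⟩ := H6.dh_sub S.isPGroup' hm eS
  constructor
  · intro hc U hU _
    refine le_antisymm (fun n hn => ?_) (sup_le (H6.centralizer_le_normalizer' U) inf_le_right)
    obtain ⟨u, hu, hu'⟩ := H3.fusion_of_hasNormalPComplement hc S n
    have h1 : ∀ a ∈ U, n * a * n⁻¹ = u * a * u⁻¹ := fun a ha =>
      hu' a (hU ha) (hU (H7.conj_mem_of_mem_normalizer hn ha))
    have h2 : u ∈ Subgroup.normalizer (U : Set X) := H7.mem_normalizer_of_finite fun a ha =>
      h1 a ha ▸ H7.conj_mem_of_mem_normalizer hn ha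
    have h3 : u⁻¹ * n ∈ Subgroup.centralizer (U : Set X) := by
      refine H6.mem_centralizer_iff_commute.2 fun a ha => H6.conj_eq_iff_commute.1 ?_
      calc u⁻¹ * n * a * (u⁻¹ * n)⁻¹ = u⁻¹ * (n * a * n⁻¹) * u := by group
        _ = a := by rw [h1 a ha]; group
    have := Subgroup.mul_mem _ (Subgroup.mem_sup_right (S := Subgroup.centralizer (U : Set X))
      (T := (S : Subgroup X) ⊓ Subgroup.normalizer (U : Set X)) ⟨hu, h2⟩) (Subgroup.mem_sup_left h3)
    rwa [mul_inv_cancel_left] at this
  · intro hU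
    refine H3.frobenius S fun Q hQ g hg ho => ?_
    by_contra hc
    have h4 := h.classify hQ (H6.not_noOdd_iff.2 ⟨g, hg, H6.coprime_two_iff.1 ho, hc⟩)
    rw [hU Q hQ h4] at hg
    exact hc (H6.mem_of_coprime_of_mem_sup (S.isPGroup'.to_le inf_le_left)
      (inf_le_right.trans (H7.normalizer_le_normalizer_centralizer Q)) hg ho)

end Cfsg.Agent.S1254
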