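import Cfsg.Statements.S1256
import Cfsg.Agent.H6.DH

set_option autoImplicit false
open Cfsg

namespace Cfsg.Agent.S1256

/-- Let X be a finite group whose Sylow 2-subgroup S is dihedral of order 2m ≥ 4. If |S| = 4, any two Klein four-subgroups of X are conjugate; if |S| > 4, there are Klein four-subgroups U₁, U₂ of X that are not conjugate, and every Klein four-subgroup of X is conjugate to U₁ or to U₂. -/
theorem result {X : Type*} [Group X] [Finite X] (S : Sylow 2 X) (m : ℕ) (hm : 2 ≤ m) (eS : (S : Subgroup X) ≃* DihedralGroup m) : (Nat.card S = 4 → ∀ U V : Subgroup X, IsKleinFour U → IsKleinFour V → (∃ x : X, U.map (MulAut.conj x).toMonoidHom = V)) ∧ (4 < Nat.card S → ∃ U₁ U₂ : Subgroup X, IsKleinFour U₁ ∧ IsKleinFour U₂ ∧ ¬ (∃ x : X, U₁.map (MulAut.conj x).toMonoidHom = U₂) ∧ ∀ V : Subgroup X, IsKleinFour V → (∃ x : X, V.map (MulAut.conj x).toMonoidHom = U₁) ∨ (∃ x : X, V.map (MulAut.conj x).toMonoidHom = U₂))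 := by
  obtain ⟨k, x, y, h, hc⟩ := H6.dh_sub S.isPGroup' hm eS
  have key : ∀ V : Subgroup X, IsKleinFour V → ∃ (g : X) (i : ℤ),
      V.map (MulAut.conj g).toMonoidHom =
        Subgroup.closure ({x ^ ((2 : ℤ) ^ k), x ^ i * y} : Set X) := by
    intro V hV
    obtain ⟨g, hg⟩ := H6.exists_conj_le_sylow S (H6.kleinFour_isPGroup hV)
    obtain ⟨i, hi⟩ := h.four_eq (H6.isKleinFour_map_conj hV g) (H7.cj_le_iff.2 hg)
    exact ⟨g, i, hi⟩
  constructor
  · intro h4 U V hU hV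
    have e : ∀ i : ℤ, Subgroup.closure ({x ^ ((2 : ℤ) ^ k), x ^ i * y} : Set X) = S := fun i =>
      Subgroup.eq_of_le_of_card_ge (h.T_le i) (by rw [h4, (h.T_four i).card_four])
    obtain ⟨a, i, ha⟩ := key U hU
    obtain ⟨b, j, hb⟩ := key V hV
    refine ⟨b⁻¹ * a, ?_⟩
    rw [← H6.map_conj_map_conj, ha, e, ← e j, ← hb, H6.map_conj_map_conj, inv_mul_cancel,
      H6.map_conj_one]
  · intro h4
    obtain _ | k := k
    · rw [hc] at h4; omega
    refine ⟨_, _, h.T_four 0, h.T_four 1, ?_, fun V hV => ?_⟩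
    · rintro ⟨g, hg⟩
      obtain ⟨s, hs, e⟩ := h.four_fusion (h.T_four 0) (h.T_le 0) g (hg ▸ h.T_le 1)
      have h1 : x ^ (1 : ℤ) * y ∈ Subgroup.closure ({x ^ ((2 : ℤ) ^ (k + 1)), x ^ (1 : ℤ) * y} : Set X) :=
        h.mem_T.2 (by simp)
      rw [← hg, e, H6.mem_map_conj] at h1
      have h2 : Subgroup.closure ({x ^ ((2 : ℤ) ^ (k + 1)), x ^ (0 : ℤ) * y} : Set X) ≤
          Subgroup.closure ({x ^ (2 : ℤ), x ^ (0 : ℤ) * y} : Set X) := by
        rw [Subgroup.closure_le, Set.insert_subset_iff, Set.singleton_subset_iff]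
        exact ⟨h.x_mem_D.2 ⟨2 ^ k, by ring⟩, h.xy_mem_D.2 (by simp)⟩
      have h3 := (H6.conj_mem_iff_of_relIndex_two (h.relIndex_D 0) (h.xyS 1) hs).1 (h2 h1)
      rw [h.xy_mem_D] at h3
      exact absurd h3 (by decide)
    · obtain ⟨g, i, hi⟩ := key V hV
      rcases Int.even_or_odd' i with ⟨c, rfl | rfl⟩
      · refine Or.inl ⟨x ^ (-c) * g, ?_⟩
        rw [← H6.map_conj_map_conj, hi, h.T_conj]; congr 4; ring
      · refine Or.inr ⟨x ^ (-c) * g, ?_⟩
        rw [← H6.map_conj_map_conj, hi, h.T_conj]; congr 4; ring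

end Cfsg.Agent.S1256
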