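import Cfsg.Statements.S1258
import Cfsg.Agent.H5.Fstar

set_option autoImplicit false
open Cfsg

namespace Cfsg.Agent.S1258

/-- If the central quotient of a finite group X is non-abelian simple, then X = X' Z(X) and the commutator subgroup X' is quasisimple. -/
theorem result {X : Type*} [Group X] [Finite X] (hs : IsSimpleGroup (X ⧸ Subgroup.center X)) (hna : ¬ IsMulCommutative (X ⧸ Subgroup.center X)) : commutator X ⊔ Subgroup.center X = ⊤ ∧ Cfsg.IsQuasisimple ↥(commutator X) := by
  have h1 : commutator X ⊔ Subgroup.center X = ⊤ := by
    have h2 : commutator (X ⧸ Subgroup.center X) = ⊤ :=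
      (Subgroup.Normal.eq_bot_or_eq_top inferInstance).resolve_left
        fun h => hna ((commutator_eq_bot_iff _).1 h)
    have h3 : (commutator X).map (QuotientGroup.mk' (Subgroup.center X)) = ⊤ := by
      rw [map_commutator_eq, MonoidHom.range_eq_top_of_surjective _ (QuotientGroup.mk'_surjective _)]
      exact h2
    have := congrArg (Subgroup.comap (QuotientGroup.mk' (Subgroup.center X))) h3
    rwa [Subgroup.comap_map_eq, QuotientGroup.ker_mk', Subgroup.comap_top] at this
  refine ⟨h1, ?_⟩
  have hp : ⁅commutator X, commutator X⁆ = commutator X := by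
    have := H5.commutator_sup_self_of_central (A := commutator X) (Z := Subgroup.center X)
      (Subgroup.center_le_centralizer _)
    rw [h1] at this
    exact this.symm
  refine H5.qs_of_map (QuotientGroup.mk' (Subgroup.center X)) hp ?_ ?_
  · rw [QuotientGroup.ker_mk']
    exact inf_le_right.trans (Subgroup.center_le_centralizer _)
  · have h2 : commutator (X ⧸ Subgroup.center X) = ⊤ :=
      (Subgroup.Normal.eq_bot_or_eq_top inferInstance).resolve_left
        fun h => hna ((commutator_eq_bot_iff _).1 h)
    rw [map_commutator_eq, MonoidHom.range_eq_top_of_surjective _ (QuotientGroup.mk'_surjective _),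
      ← commutator_def, h2, H5.qs_top_iff, H5.isQuasisimple_iff_top]
    exact ⟨h2, inferInstance, fun N hN => hN.eq_bot_or_eq_top.symm.imp_right fun h => h.le.trans bot_le⟩

end Cfsg.Agent.S1258
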