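import Cfsg.Statements.S1267
import Cfsg.Agent.H5.PLocal

set_option autoImplicit false
open Cfsg

namespace Cfsg.Agent.S1267

/-- Let G be finite and P ≤ O_p(G). Then E(N_G(P)) = E(G). -/
theorem result {G : Type*} [Group G] [Finite G] (p : ℕ) [Fact p.Prime] (P : Subgroup G) (hP : P ≤ Cfsg.pCore p G) : (Cfsg.layer ↥(Subgroup.normalizer ((P : Subgroup G) : Set G))).map (Subgroup.normalizer ((P : Subgroup G) : Set G)).subtype = Cfsg.layer G := by
  have hP' : P ≤ H5.opOf p ⊤ := H5.opOf_top (G := G) p ▸ hP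
  have hp : IsPGroup p P := (H5.isPGroup_opOf p ⊤).to_le hP'
  change H5.layerOf _ = _
  have h1 : H5.SN P ⊤ := H5.sn_of_le_opOf hP'
  rw [← H5.layerOf_top]
  apply le_antisymm
  · rw [H5.layerOf_normalizer hp]
    have h2 := H5.plOf_sup_oppOf_centralizer_le hp (H5.le_normalizer_of_normal' P ⊤)
    rw [top_inf_eq] at h2
    refine (H5.layerOf_le_layerOf_of_le ((H5.layerOf_le_plOf_sup _).trans h2)
      (H5.centralizer_anti hP')).trans (H5.SN.layerOf_le (H5.SN.of_normal le_top ?_))
    exact H5.le_normalizer_centralizer (H5.self_le_normalizer_opOf p ⊤)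
  · exact H5.layerOf_le_layerOf_of_le h1.layerOf_le_normalizer le_top

end Cfsg.Agent.S1267
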