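import Cfsg.Statements.S1269
import Cfsg.Agent.H5.Balance3

set_option autoImplicit false
open Cfsg

namespace Cfsg.Agent.S1269

/-- Let G be finite with O_{p'}(G) = 1, P a p-subgroup, N = N_G(P), and x an element of the preimage in N of E(N / O_{p'}(N)). Then x normalizes every component L of G. -/
theorem result {G : Type*} [Group G] [Finite G] (p : ℕ) [Fact p.Prime] (hO : Cfsg.pPrimeCore p G = ⊥) (P : Subgroup G) (hP : IsPGroup p ↥P) (L : Subgroup G) (hL : Cfsg.IsComponent L) (x : G) (hx : x ∈ (((Cfsg.layer (↥(Subgroup.normalizer ((P : Subgroup G) : Set G)) ⧸ Cfsg.pPrimeCore p ↥(Subgroup.normalizer ((P : Subgroup G) : Set G)))).comap (QuotientGroup.mk' (Cfsg.pPrimeCore p ↥(Subgroup.normalizer ((P : Subgroup G) : Set G))))).map (Subgroup.normalizer ((P : Subgroup G) : Set G)).subtype)) : L.map (MulAut.conj x).toMonoidHom = L := by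
  rw [H5.comap_layer_mk', Subgroup.map_sup] at hx
  change x ∈ H5.plOf p _ ⊔ H5.oppOf p _ at hx
  rw [H5.plOf_normalizer hP, H5.oppOf_normalizer hP] at hx
  have := (H5.compOf_top_iff.2 hL).plOf_sup_oppOf_le_normalizer (H5.oppOf_top (G := G) p ▸ hO) hP
    (H5.le_normalizer_of_normal' P ⊤)
  rw [top_inf_eq] at this
  exact H5.cj_eq_self_iff.2 (this hx)

end Cfsg.Agent.S1269
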