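import Cfsg.Statements.S1271
import Cfsg.Agent.H5.Balance3

set_option autoImplicit false
open Cfsg

namespace Cfsg.Agent.S1271

/-- Let G be finite with O_{p'}(G) = 1. Suppose that for every component L of G and every subgroup H ≥ L in which L is normal, the quotient H / C_H(L) is balanced for the prime p. Then G is balanced for p. -/
theorem result {G : Type*} [Group G] [Finite G] (p : ℕ) [Fact p.Prime] (hO : Cfsg.pPrimeCore p G = ⊥) (h : ∀ L : Subgroup G, Cfsg.IsComponent L → ∀ H : Subgroup G, L ≤ H → (L.subgroupOf H).Normal → ∀ [((Subgroup.centralizer (L : Set G)).subgroupOf H).Normal], Cfsg.IsBalancedFor p (↥H ⧸ (Subgroup.centralizer (L : Set G)).subgroupOf H)) : Cfsg.IsBalancedFor p G := by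
  intro x hx
  have hO' : H5.oppOf p (⊤ : Subgroup G) = ⊥ := H5.oppOf_top (G := G) p ▸ hO
  have hP := H5.isPGroup_zpowers hx
  change H5.oppOf p _ ≤ _
  set Y := H5.oppOf p (Subgroup.centralizer ({x} : Set G)) with hY
  have hYc := H5.coprime_card_oppOf p (Subgroup.centralizer ({x} : Set G))
  refine le_trans (H5.eq_bot_of_centralizes hO' le_top hYc ?_ fun L hL => ?_).le bot_le
  · simpa [H5.centralizer_zpowers] using
      H5.oppOf_centralizer_le hP (H5.le_normalizer_of_normal' _ ⊤)
  by_cases hne : ⁅L, Subgroup.zpowers x⁆ = L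
  swap
  · simpa using hL.commutator_oppOf_centralizer hO' hx
      (by rw [Subgroup.normalizer_eq_top]; trivial) hne
  by_contra hc
  have hYN : Y ≤ Subgroup.normalizer (L : Set G) := by
    simpa [H5.centralizer_zpowers] using
      hL.oppOf_centralizer_le_normalizer hO' hP (H5.le_normalizer_of_normal' _ ⊤)
  have hxN : Subgroup.zpowers x ≤ Subgroup.normalizer (L : Set G) :=
    Subgroup.zpowers_le.2 (H5.mem_normalizer_of_commutator_eq hne)
  have hYx : Y ≤ Subgroup.centralizer (Subgroup.zpowers x : Set G) := by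
    rw [H5.centralizer_zpowers]; exact H5.oppOf_le p _
  have hB : Cfsg.IsPSolvable p (Y ⊔ Subgroup.zpowers x : Subgroup G) := H1.IsPSolvable.sup
    (H1.isPSolvable_of_coprime hYc) (H1.isPSolvable_of_isPGroup hP)
    (H5.le_normalizer_of_le_centralizer hYx)
  have hZ := H5.isPSolvable_inf_centralizer (sup_le hYN hxN) hB
  set M := L ⊔ (Y ⊔ Subgroup.zpowers x) with hM
  have hMN : M ≤ Subgroup.normalizer (L : Set G) := sup_le Subgroup.le_normalizer (sup_le hYN hxN)
  have hn : ((Subgroup.centralizer (L : Set G)).subgroupOf M).Normal := by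
    rw [← Subgroup.inf_subgroupOf_right]
    exact (Subgroup.normal_subgroupOf_iff_le_normalizer inf_le_right).2
      (H5.le_normalizer_inf (H5.le_normalizer_centralizer hMN) Subgroup.le_normalizer)
  have hb := h L (H5.compOf_top_iff.1 hL) M le_sup_left
    ((Subgroup.normal_subgroupOf_iff_le_normalizer le_sup_left).2 hMN)
  have hxM : x ∈ M := Subgroup.mem_sup_right (Subgroup.mem_sup_right (Subgroup.mem_zpowers x))
  set f := QuotientGroup.mk' ((Subgroup.centralizer (L : Set G)).subgroupOf M)
  have hi := M.subtype_injective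
  have hxC : x ∉ Subgroup.centralizer (L : Set G) := fun hc' =>
    hL.ne_bot (hne.symm.trans (H5.commutator_eq_bot_iff'.2 (Subgroup.zpowers_le.2 hc')))
  have ho : orderOf (f ⟨x, hxM⟩) = p := by
    refine orderOf_eq_prime ?_ fun h1 => hxC
      (Subgroup.mem_subgroupOf.1 ((QuotientGroup.eq_one_iff (⟨x, hxM⟩ : M)).1 h1))
    rw [← map_pow, show (⟨x, hxM⟩ : M) ^ p = 1 from Subtype.ext (hx ▸ pow_orderOf_eq_one x), map_one]
  have h1 := (H5.map_cores_centralizer (p := p) f (K := ⊤) (P := Subgroup.zpowers ⟨x, hxM⟩)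
    (H5.isPGroup_zpowers (by rw [← Subgroup.orderOf_coe]; exact hx)) le_top (by
      rw [top_inf_eq, QuotientGroup.ker_mk', ← Subgroup.inf_subgroupOf_left]
      exact H1.IsPSolvable.subgroupOf hZ M)).1
  rw [Subgroup.map_top_of_surjective _ (QuotientGroup.mk'_surjective _), top_inf_eq, top_inf_eq,
    MonoidHom.map_zpowers, H5.centralizer_zpowers (f _)] at h1
  have h2 := h1.trans (hb _ ho)
  obtain ⟨Y', hY'⟩ := H5.exists_map_subtype (le_sup_left.trans le_sup_right : Y ≤ M)
  obtain ⟨L', hL'⟩ := H5.exists_map_subtype (le_sup_left : L ≤ M)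
  have h3 : Y'.map f ≤ H5.oppOf p ⊤ := by
    rw [H5.oppOf_top]
    refine le_trans (Subgroup.map_mono ?_) h2
    rw [← Subgroup.map_le_map_iff_of_injective hi, hY', H5.map_oppOf_of_injective hi,
      H5.map_subtype_centralizer, MonoidHom.map_zpowers, H5.centralizer_zpowers]
    exact le_trans (le_inf le_rfl (le_inf (le_sup_left.trans le_sup_right) (H5.oppOf_le p _)))
      (H5.oppOf_inf_le p inf_le_right)
  have h4 : ⁅L', Y'⁆ = L' := by
    apply Subgroup.map_injective hi
    rw [Subgroup.map_commutator, hL', hY']; exact H5.qs_commutator_eq hL.qs hYN hc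
  have h5 : H5.PQS p L' := by
    rw [← H5.pqs_map_iff hi, hL']; exact ((H5.pCompOf_iff_compOf hO').2 hL).pqs
  refine (h5.map' f fun h0 => ?_).not_le_coprime (H5.coprime_card_oppOf p ⊤) ?_
  · rw [Subgroup.map_eq_bot_iff, QuotientGroup.ker_mk'] at h0
    apply H5.qs_not_le_centralizer hL.qs
    conv_lhs => rw [← hL']
    rintro _ ⟨l, hl, rfl⟩; exact h0 hl
  · rw [← h4, Subgroup.map_commutator]
    exact (Subgroup.commutator_mono le_rfl h3).trans (H5.commutator_le_right_of_le_normalizer
      (le_top.trans (H5.self_le_normalizer_oppOf p ⊤)))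

end Cfsg.Agent.S1271
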