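import Cfsg.Statements.S1273
import Cfsg.Agent.H5.PLayer

set_option autoImplicit false
open Cfsg

namespace Cfsg.Agent.S1273

/-- Let K be a p-component of the finite group X and N a normal subgroup of K whose index in K is prime to p. Then N = K. -/
theorem result {X : Type*} [Group X] [Finite X] (p : ℕ) [Fact p.Prime] (K : Subgroup X) (hK : Cfsg.IsPComponent p K) (N : Subgroup ↥K) [N.Normal] (hidx : (N.index).Coprime p) : N = ⊤ := by
  have h := (H5.isPComponent_iff.1 hK).pqs
  have h1 : (⊤ : Subgroup K) ≤ Subgroup.normalizer (N : Set K) := by rw [Subgroup.normalizer_eq_top]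
  have h2 := H5.le_normalizer_map' K.subtype h1
  rw [H5.map_subtype_top] at h2
  have h3 := h.eq_of_coprime_relIndex (Subgroup.map_subtype_le N) h2 (by
    rw [Subgroup.relIndex, Subgroup.subgroupOf,
      Subgroup.comap_map_eq_self_of_injective K.subtype_injective]
    exact hidx)
  apply Subgroup.map_injective K.subtype_injective
  rw [h3, H5.map_subtype_top]

end Cfsg.Agent.S1273
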