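import Cfsg.Statements.S1275
import Cfsg.Agent.H5.PLayer

set_option autoImplicit false
open Cfsg

namespace Cfsg.Agent.S1275

/-- For a 2-component K of a finite group X, the quotient of K by its core O(K) is quasisimple. -/
theorem result {X : Type*} [Group X] [Finite X] (K : Subgroup X) (hK : Cfsg.IsPComponent 2 K) : Cfsg.IsQuasisimple (↥K ⧸ Cfsg.oddCore ↥K) := by
  have : Fact (Nat.Prime 2) := ⟨Nat.prime_two⟩
  have h := (H5.isPComponent_iff.1 hK).pqs
  have h1 : H5.PCompOf 2 (⊤ : Subgroup K) ⊤ := by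
    rw [← H5.pCompOf_map_subtype_iff, H5.map_subtype_top]; exact ⟨H5.SN.refl K, h⟩
  have h2 := h1.map_mk'.qs
  rwa [Subgroup.map_top_of_surjective _ (QuotientGroup.mk'_surjective _), H5.qs_top_iff] at h2

end Cfsg.Agent.S1275
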