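import Cfsg.Statements.S1279
import Cfsg.Agent.H5.Balance3

set_option autoImplicit false
open Cfsg

namespace Cfsg.Agent.S1279

/-- Let A be a noncyclic elementary abelian p-subgroup of the finite group G such that C_G(a) is solvable for every non-identity a ∈ A. Then a ↦ O_{p'}(C_G(a)) is a solvable A-signalizer functor on G. -/
theorem result {G : Type*} [Group G] [Finite G] (p : ℕ) [Fact p.Prime] (A : Subgroup G) (hA : Cfsg.IsElementaryAbelian p A) (hA2 : p ^ 2 ≤ Nat.card ↥A) (hsolv : ∀ a ∈ A, a ≠ 1 → Group.IsSolvable ↥(Subgroup.centralizer ({a} : Set G))) : Cfsg.IsSolvableSignalizerFunctor p A (fun a => Cfsg.centralizerPPrimeCore p a) := by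
  refine ⟨⟨fun a _ _ => H5.oppOf_le p _, fun a _ _ => H5.not_dvd_card_oppOf Fact.out _,
    fun a ha _ b hb x hx => ?_, fun a ha ha1 b hb hb1 => ?_⟩,
    fun a ha ha1 => H5.isSolvable_of_le (hsolv a ha ha1) (H5.oppOf_le p _)⟩
  · exact H1.conj_mem_of_mem_normalizer (H5.self_le_normalizer_oppOf p _
      (Subgroup.mem_centralizer_singleton_iff.2 (H1.isMulCommutative_iff'.1 hA.1 b hb a ha))) hx
  · have h1 := H5.oppOf_inf_centralizer_le_of_solvable
      (H5.isPGroup_zpowers (H5.orderOf_eq_of_elemAb hA ha ha1))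
      ((Subgroup.zpowers_le.2 (Subgroup.mem_centralizer_singleton_iff.2
        (H1.isMulCommutative_iff'.1 hA.1 a ha b hb))).trans Subgroup.le_normalizer) (hsolv b hb hb1)
    rw [H5.centralizer_zpowers] at h1
    refine le_trans ?_ ((H5.oppOf_inf_le p inf_le_right).trans h1)
    exact le_inf inf_le_left (le_inf inf_le_right (inf_le_left.trans (H5.oppOf_le p _)))

end Cfsg.Agent.S1279
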