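import Cfsg.Statements.S1286
import Cfsg.Agent.H5.SigBasic

set_option autoImplicit false
open Cfsg

namespace Cfsg.Agent.S1286

open Equiv in
def A : Subgroup (Perm (Fin 5)) where
  carrier := {g | g = 1 ∨ g = swap 0 1 ∨ g = swap 2 3 ∨ g = swap 0 1 * swap 2 3}
  one_mem' := Or.inl rfl
  mul_mem' := by
    rintro a b (rfl | rfl | rfl | rfl) (rfl | rfl | rfl | rfl) <;>
      simp only [Set.mem_ofPred_eq] <;> decide
  inv_mem' := by
    rintro a (rfl | rfl | rfl | rfl) <;> simp only [Set.mem_ofPred_eq] <;> decide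

def T (c : Equiv.Perm (Fin 5)) (h : c * c * c = 1) : Subgroup (Equiv.Perm (Fin 5)) where
  carrier := {g | g = 1 ∨ g = c ∨ g = c * c}
  one_mem' := Or.inl rfl
  mul_mem' := by
    have h2 : c * (c * c) = 1 := by rw [← mul_assoc, h]
    have h3 : c * c * (c * c) = c := by rw [← mul_assoc, h, one_mul]
    rintro a b (rfl | rfl | rfl) (rfl | rfl | rfl) <;> simp [*]
  inv_mem' := by
    have h2 : c⁻¹ = c * c := inv_eq_of_mul_eq_one_left h
    have h3 : (c * c)⁻¹ = c := inv_eq_of_mul_eq_one_right h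
    rintro a (rfl | rfl | rfl)
    · simp
    · simp [h2]
    · exact Or.inr (Or.inl h3)

theorem T_eq (c : Equiv.Perm (Fin 5)) (h : c * c * c = 1) : T c h = Subgroup.zpowers c := by
  refine le_antisymm ?_ (Subgroup.zpowers_le.2 (Or.inr (Or.inl rfl)))
  rintro a (rfl | rfl | rfl)
  · exact one_mem _
  · exact Subgroup.mem_zpowers _
  · exact mul_mem (Subgroup.mem_zpowers _) (Subgroup.mem_zpowers _)

theorem T_card (c : Equiv.Perm (Fin 5)) (h : c * c * c = 1) : ¬ 2 ∣ Nat.card (T c h) := by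
  rw [T_eq, Nat.card_zpowers]
  intro h2
  have : orderOf c ∣ 3 := orderOf_dvd_of_pow_eq_one (by rw [pow_succ, pow_two, h])
  have := h2.trans this
  omega

open Equiv in
def c₁ : Perm (Fin 5) := swap 2 3 * swap 3 4
open Equiv in
def c₂ : Perm (Fin 5) := swap 0 1 * swap 1 4
def c₃ : Equiv.Perm (Fin 5) := 1

open Equiv in
def θ (g : Perm (Fin 5)) : Subgroup (Perm (Fin 5)) :=
  if g = swap 0 1 then T c₁ (by decide) else if g = swap 2 3 then T c₂ (by decide) else
    T c₃ (by decide)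

theorem θ₁ : θ (Equiv.swap 0 1) = T c₁ (by decide) := if_pos rfl
theorem θ₂ : θ (Equiv.swap 2 3) = T c₂ (by decide) := by
  rw [θ, if_neg (by decide), if_pos rfl]
theorem θ₃ : θ (Equiv.swap 0 1 * Equiv.swap 2 3) = T c₃ (by decide) := by
  rw [θ, if_neg (by decide), if_neg (by decide)]

theorem mem_T {c g : Equiv.Perm (Fin 5)} {h : c * c * c = 1} :
    g ∈ T c h ↔ g = 1 ∨ g = c ∨ g = c * c := Iff.rfl

/-- There exist a finite group X, an elementary abelian subgroup A of order 4 and a solvable A-signalizer functor θ on X for the prime 2 which is not complete. -/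
theorem result : ∃ (X : Type) (_ : Group X) (_ : Finite X) (A : Subgroup X) (θ : X → Subgroup X), Cfsg.IsElementaryAbelian 2 A ∧ Nat.card ↥A = 4 ∧ Cfsg.IsSolvableSignalizerFunctor 2 A θ ∧ ¬ Cfsg.IsCompleteSignalizerFunctor 2 A θ := by
  refine ⟨Equiv.Perm (Fin 5), inferInstance, inferInstance, A, θ, ⟨⟨⟨?_⟩⟩, ?_⟩, ?_, ⟨⟨?_, ?_, ?_, ?_⟩, ?_⟩, ?_⟩
  · rintro ⟨a, rfl | rfl | rfl | rfl⟩ ⟨b, rfl | rfl | rfl | rfl⟩ <;> apply Subtype.ext <;>
      simp only [Subgroup.coe_mul] <;> decide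
  · rintro a (rfl | rfl | rfl | rfl) <;> decide
  · have : (A : Set (Equiv.Perm (Fin 5))) = ({1, Equiv.swap 0 1, Equiv.swap 2 3,
        Equiv.swap 0 1 * Equiv.swap 2 3} : Finset (Equiv.Perm (Fin 5))) := by
      ext g; simp [A]
    change Nat.card (A : Set (Equiv.Perm (Fin 5))) = 4
    rw [this, Nat.card_coe_set_eq, Set.ncard_coe_finset]
    decide
  · rintro a (rfl | rfl | rfl | rfl) h
    · exact absurd rfl h
    all_goals
      simp only [θ₁, θ₂, θ₃]
      rintro x (rfl | rfl | rfl) <;> rw [Subgroup.mem_centralizer_singleton_iff] <;> decide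
  · rintro a (rfl | rfl | rfl | rfl) h
    · exact absurd rfl h
    all_goals
      simp only [θ₁, θ₂, θ₃]
      exact T_card _ _
  · rintro a (rfl | rfl | rfl | rfl) h
    · exact absurd rfl h
    all_goals
      simp only [θ₁, θ₂, θ₃]
      rintro b (rfl | rfl | rfl | rfl) x (rfl | rfl | rfl) <;> rw [mem_T] <;> decide
  · rintro a (rfl | rfl | rfl | rfl) h
    · exact absurd rfl h
    all_goals
      rintro b (rfl | rfl | rfl | rfl) h'
      · exact absurd rfl h'
      all_goals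
        simp only [θ₁, θ₂, θ₃]
        rintro x ⟨rfl | rfl | rfl, hx⟩ <;> rw [mem_T] <;>
          replace hx := Subgroup.mem_centralizer_singleton_iff.1 hx <;> revert hx <;> decide
  · rintro a (rfl | rfl | rfl | rfl) h
    · exact absurd rfl h
    all_goals
      first | rw [θ₁] | rw [θ₂] | rw [θ₃]
      rw [T_eq]
      infer_instance
  · rintro ⟨-, X, -, h1, h2⟩
    have e1 : c₁ ∈ X := by
      have := h2 _ (Or.inr (Or.inl rfl)) (by decide)
      rw [θ₁] at this
      exact (this.ge (Or.inr (Or.inl rfl))).1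
    have e2 : c₂ ∈ X := by
      have := h2 _ (Or.inr (Or.inr (Or.inl rfl))) (by decide)
      rw [θ₂] at this
      exact (this.ge (Or.inr (Or.inl rfl))).1
    have e3 : orderOf (c₁ * c₁ * c₂ * c₁ * c₂) = 2 := orderOf_eq_prime (by decide) (by decide)
    exact h1 (e3 ▸ Subgroup.orderOf_dvd_natCard X
      (mul_mem (mul_mem (mul_mem (mul_mem e1 e1) e2) e1) e2))

end Cfsg.Agent.S1286
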