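import Cfsg.Statements.S1288
import Cfsg.Agent.H5.SigGrp
import Cfsg.Agent.H5.SigBasic

set_option autoImplicit false
open Cfsg

namespace Cfsg.Agent.S1288

/-- Let A be a noncyclic elementary abelian p-subgroup of a finite group H normalizing a solvable subgroup K of order prime to p, q a prime dividing |K|, and U ≤ K a subgroup of order prime to q such that ⁅U, C_K(B)⁆ has order prime to q for every subgroup B of index p in A. Then U ≤ O_{q'}(K). -/
theorem result {H : Type*} [Group H] [Finite H] (p : ℕ) [Fact p.Prime] (A K : Subgroup H) (hA : Cfsg.IsElementaryAbelian p A) (hA2 : p ^ 2 ≤ Nat.card ↥A) (hK : ¬ p ∣ Nat.card ↥K) (hKs : Group.IsSolvable ↥K) (hAK : A ≤ Subgroup.normalizer (K : Set H)) (q : ℕ) [Fact q.Prime] (hqK : q ∣ Nat.card ↥K) (U : Subgroup H) (hU : U ≤ K) (hUq : ¬ q ∣ Nat.card ↥U) (hcomm : ∀ B : Subgroup H, B ≤ A → B.relIndex A = p → ¬ q ∣ Nat.card ↥⁅U, K ⊓ Subgroup.centralizer (B : Set H)⁆) : U ≤ (Cfsg.pPrimeCore q ↥K).map K.subtype :=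 by
  have hp : p.Prime := Fact.out
  have hq : q.Prime := Fact.out
  refine H5.le_oppOf_of_le_ppOf (H5.le_ppOf_of_commutator_le hKs hU ?_)
    (hq.coprime_iff_not_dvd.2 hUq).symm
  rw [Subgroup.commutator_comm]
  refine (H5.le_centMod.1 (H5.le_of_forall_hyp hA (H5.ne_bot_of_pow_two hA2)
    (hAK.trans (H5.normalizer_le_normalizer_ppOf q K))
    (H5.coprime_of_le (hp.coprime_iff_not_dvd.2 hK).symm (H5.ppOf_le q K)) fun L hL => ?_)).2
  refine H5.le_centMod.2 ⟨(inf_le_left.trans (H5.ppOf_le q K)).trans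
    (H5.self_le_normalizer_oppOf q K), ?_⟩
  rw [Subgroup.commutator_comm]
  refine H5.le_oppOf_of_le_ppOf ((Subgroup.commutator_mono le_rfl inf_le_left).trans
    (H5.commutator_le_right_of_le_normalizer (hU.trans (H5.self_le_normalizer_ppOf q K)))) ?_
  exact H5.coprime_of_le (hq.coprime_iff_not_dvd.2 (hcomm L hL.1 hL.2)).symm
    (Subgroup.commutator_mono le_rfl (inf_le_inf_right _ (H5.ppOf_le q K)))

end Cfsg.Agent.S1288
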