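import Cfsg.Statements.S1300
import Cfsg.Agent.H5.Balance3

set_option autoImplicit false
open Cfsg

namespace Cfsg.Agent.S1300

/-- For a finite group G, balance in the sense of commuting involutions is the same as 1-balance for the prime 2. -/
theorem result {G : Type*} [Group G] [Finite G] : Cfsg.IsBalanced G ↔ Cfsg.IsKBalanced 2 1 G := by
  have : Fact (Nat.Prime 2) := ⟨Nat.prime_two⟩
  constructor
  · intro h A _ hc b hb hab
    obtain ⟨x, hx, rfl⟩ := H5.exists_eq_zpowers_of_card (p := 2) hc
    rw [H5.signalizerDelta_zpowers hx]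
    exact (h x b hx hb (hab x (Subgroup.mem_zpowers x))).le.trans inf_le_left
  · intro h
    have key : ∀ x y : G, orderOf x = 2 → orderOf y = 2 → x * y = y * x →
        Cfsg.centralizerPPrimeCore 2 x ⊓ Subgroup.centralizer {y} ≤
          Cfsg.centralizerPPrimeCore 2 y ⊓ Subgroup.centralizer {x} := by
      intro x y hx hy hxy
      refine le_inf ?_ (inf_le_left.trans (H5.oppOf_le 2 _))
      have := h _ (H5.elemAb_zpowers hx) (by rw [Nat.card_zpowers, hx]; rfl) y hy (by
        rintro _ ⟨n, rfl⟩; exact (Commute.zpow_left hxy n).eq)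
      rwa [H5.signalizerDelta_zpowers hx] at this
    intro x y hx hy hxy
    exact le_antisymm (key x y hx hy hxy) (key y x hy hx hxy.symm)

end Cfsg.Agent.S1300
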