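import Cfsg.Statements.S1302
import Cfsg.Agent.H5.PRank
import Cfsg.Agent.H7.MinAct

set_option autoImplicit false
open Cfsg

namespace Cfsg.Agent.S1302

open Subgroup in
theorem aux {G : Type*} [Group G] [Finite G] {p : ℕ} [Fact p.Prime] (hp : p ≠ 2) {A Q U : Subgroup G}
    (hA : IsPGroup p A) (hU : IsPGroup p U) (hQ : (Nat.card Q).Coprime p)
    (hΩ : ∀ x ∈ centralizer (A : Set G), orderOf x = p → x ∈ A) (hAQ : A ≤ normalizer (Q : Set G))
    (hAU : A ≤ normalizer (U : Set G)) (hQU : Q ≤ normalizer (U : Set G)) :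
    Q ≤ centralizer (U : Set G) := by
  by_contra hne
  obtain ⟨V, ⟨hVU, hV, hVQ⟩, -, hmin⟩ := H1.exists_minimal_le
    (fun V : Subgroup G => V ≤ U ∧ A ⊔ Q ≤ normalizer (V : Set G) ∧ ⁅V, Q⁆ ≠ ⊥) (N := U)
    ⟨le_rfl, sup_le hAU hQU, fun e => hne (H5.commutator_eq_bot_iff'.1 e)⟩
  have hVp := hU.to_le hVU
  obtain ⟨-, -, -, -, -, h1⟩ := H7.minimal_action hVp hV le_sup_right (sup_le hAQ le_normalizer) hQ hVQ
    fun W hW hn => by
      by_contra h
      exact hW.ne (hmin W ⟨hW.le.trans hVU, hn, h⟩ hW.le)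
  refine hVQ (H5.commutator_eq_bot_iff'.2 (H7.thompson_PQ_odd hp hA hQ hAQ V hVp
    (le_sup_left.trans hV) (le_sup_right.trans hV) ?_))
  have h2 : V ⊓ centralizer (A : Set G) ≤ A := fun x hx => by
    by_cases x1 : x = 1
    · rw [x1]; exact one_mem _
    · exact hΩ x hx.2 (orderOf_eq_prime (h1 hp x hx.1) x1)
  rw [← commutator_eq_bot_iff_le_centralizer, eq_bot_iff,
    ← H1.inf_eq_bot_of_coprime' (H5.coprime_card_of_isPGroup hVp hQ)]
  exact le_inf ((commutator_mono inf_le_left le_rfl).trans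
    (H5.commutator_le_left_of_le_normalizer (le_sup_right.trans hV)))
    (H5.commutator_le_right_of_le_normalizer (h2.trans hAQ))

/-- Let X be a finite p-constrained group, p an odd prime, and A an abelian p-subgroup of X containing every element of order p of C_X(A). Then every subgroup of X of order prime to p that is normalized by A lies in O_{p'}(X). -/
theorem result {X : Type*} [Group X] [Finite X] (p : ℕ) [Fact p.Prime] (hp : p ≠ 2) (hX : Cfsg.IsPConstrained p X) (A : Subgroup X) (hA : IsMulCommutative ↥A) (hAp : IsPGroup p ↥A) (hΩ : ∀ x ∈ Subgroup.centralizer (A : Set X), orderOf x = p → x ∈ A) (Q : Subgroup X) (hQ : ¬ p ∣ Nat.card ↥Q) (hAQ : A ≤ Subgroup.normalizer (Q : Set X)) : Q ≤ Cfsg.pPrimeCore p X := by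
  have hpp : p.Prime := Fact.out
  set f := QuotientGroup.mk' (Cfsg.pPrimeCore p X) with hf
  have hfs : Function.Surjective f := QuotientGroup.mk'_surjective _
  have hk : (Nat.card f.ker).Coprime p := by
    rw [hf, QuotientGroup.ker_mk', ← H5.oppOf_top]; exact H5.coprime_card_oppOf _ _
  have hO := H5.oppOf_map_mk' (G := X) p
  have hL : H5.layerOf (⊤ : Subgroup (X ⧸ Cfsg.pPrimeCore p X)) = ⊥ := by
    rw [H5.layerOf_top, ← H5.map_pLayer_mk', H5.isPConstrained_iff.1 hX, Subgroup.map_bot]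
  have hC := H5.fstarOf_eq_opOf_iff_centralizer.1 (H5.fstarOf_eq_opOf_iff.2 ⟨hL, hO⟩)
  have hQc : (Nat.card (Q.map f)).Coprime p :=
    ((Nat.coprime_comm.1 ((Nat.Prime.coprime_iff_not_dvd hpp).2 hQ))).coprime_dvd_left
      (Subgroup.card_map_dvd _ _)
  have hn : ∀ Y : Subgroup (X ⧸ Cfsg.pPrimeCore p X), Y ≤ Subgroup.normalizer (H5.opOf p
      (⊤ : Subgroup (X ⧸ Cfsg.pPrimeCore p X)) : Set (X ⧸ Cfsg.pPrimeCore p X)) :=
    fun Y => le_top.trans (H5.self_le_normalizer_opOf _ _)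
  have h1 := aux hp (hAp.map f) (H5.isPGroup_opOf p ⊤) hQc (fun x hx ho => by
    rw [← H1.map_centralizer_of_surjective hfs (H5.coprime_card_of_isPGroup hAp hk)
      (Or.inl (H5.isSolvable_of_isPGroup hAp))] at hx
    obtain ⟨c, hc, rfl⟩ := hx
    have h2 : c ^ p ∈ f.ker := by
      rw [MonoidHom.mem_ker, map_pow]; exact orderOf_dvd_iff_pow_eq_one.1 ho.dvd
    have h3 : (c ^ Nat.card f.ker) ^ p = 1 := by
      rw [← pow_mul, mul_comm, pow_mul]
      exact congrArg Subtype.val (pow_card_eq_one' (G := f.ker) (x := ⟨_, h2⟩))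
    have h4 : c ^ Nat.card f.ker ∈ A := by
      by_cases e : c ^ Nat.card f.ker = 1
      · rw [e]; exact one_mem _
      · exact hΩ _ (pow_mem hc _) (orderOf_eq_prime h3 e)
    exact H5.mem_of_pow_mem (n := Nat.card f.ker) ⟨_, h4, map_pow _ _ _⟩ (by rw [ho]; exact hk.symm))
    (H5.le_normalizer_map' f hAQ) (hn _) (hn _)
  have h2 : Q.map f = ⊥ := by
    rw [eq_bot_iff, ← H1.inf_eq_bot_of_coprime'
      (H5.coprime_card_of_isPGroup (H5.isPGroup_opOf p ⊤) hQc)]
    exact le_inf ((le_inf le_top h1).trans hC) le_rfl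
  rwa [Subgroup.map_eq_bot_iff, hf, QuotientGroup.ker_mk'] at h2

end Cfsg.Agent.S1302
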