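import Cfsg.Statements.S1303
import Cfsg.Agent.H5.PRank

set_option autoImplicit false
open Cfsg

namespace Cfsg.Agent.S1303

abbrev S := Matrix.SpecialLinearGroup (Fin 2) (ZMod 3)

def mk (a b c d : ZMod 3) (e : a * d - b * c = 1) : S :=
  ⟨!![a, b; c, d], by rwa [Matrix.det_fin_two_of]⟩

theorem all {P : S → Prop} (h : ∀ a b c d : ZMod 3, ∀ e : a * d - b * c = 1, P (mk a b c d e))
    (g : S) : P g := by
  have := h (g 0 0) (g 0 1) (g 1 0) (g 1 1) (by rw [← Matrix.det_fin_two]; exact g.2)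
  rwa [show mk (g 0 0) (g 0 1) (g 1 0) (g 1 1) _ = g from
    Subtype.ext (Matrix.eta_fin_two g.1).symm] at this

def m : S := mk 2 0 0 2 (by decide)
def i : S := mk 0 1 2 0 (by decide)
def j : S := mk 1 1 1 2 (by decide)
def u : S := mk 1 1 0 1 (by decide)

theorem sq (g : S) : g ^ 2 = 1 → g = 1 ∨ g = m := by
  revert g; refine all ?_; decide

theorem comm (g : S) : g * m = m * g := by
  revert g; refine all ?_; decide

theorem four (g : S) : g ^ 4 = 1 → g = 1 ∨ g = m ∨ g = i ∨ g = m * i ∨ g = j ∨ g = m * j ∨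
    g = i * j ∨ g = j * i := by
  revert g; refine all ?_; decide

theorem cent (g : S) : i * g = g * i → j * g = g * j → g ^ 4 = 1 := by
  revert g; refine all ?_; decide

def Q : Subgroup S where
  carrier := {g | g ^ 4 = 1}
  one_mem' := one_pow 4
  inv_mem' := fun {a} h => by
    change a⁻¹ ^ 4 = 1
    rw [inv_pow, show a ^ 4 = 1 from h, inv_one]
  mul_mem' := fun {a b} ha hb => by
    change (a * b) ^ 4 = 1
    rcases four a ha with rfl | rfl | rfl | rfl | rfl | rfl | rfl | rfl <;>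
      rcases four b hb with rfl | rfl | rfl | rfl | rfl | rfl | rfl | rfl <;> decide

theorem Q_le : Q ≤ H5.opOf 2 ⊤ := by
  refine H5.le_opOf le_top (H5.normal_iff_top_le_normalizer.1 ⟨fun a ha g => ?_⟩)
    fun g => ⟨2, Subtype.ext g.2⟩
  change (g * a * g⁻¹) ^ 4 = 1
  rw [conj_pow, show a ^ 4 = 1 from ha, mul_one, mul_inv_cancel]

theorem fs : H5.fstarOf (⊤ : Subgroup S) = H5.opOf 2 ⊤ := by
  refine H5.fstarOf_eq_opOf_iff_centralizer.2 fun g hg => Q_le (cent g ?_ ?_)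
  · exact hg.2 i (Q_le (show i ^ 4 = 1 by decide))
  · exact hg.2 j (Q_le (show j ^ 4 = 1 by decide))

/-- The group X = SL(2, 3): it is 2-constrained, O_{2'}(X) = 1, its centre A = Z(X) contains every involution of X = C_X(A), and X has a subgroup of order 3 (normalized by A) not contained in O_{2'}(X). -/
theorem result : Cfsg.IsPConstrained 2 (Matrix.SpecialLinearGroup (Fin 2) (ZMod 3)) ∧ Cfsg.pPrimeCore 2 (Matrix.SpecialLinearGroup (Fin 2) (ZMod 3)) = ⊥ ∧ (∀ t : Matrix.SpecialLinearGroup (Fin 2) (ZMod 3), orderOf t = 2 → t ∈ Subgroup.center (Matrix.SpecialLinearGroup (Fin 2) (ZMod 3))) ∧ ∃ Q : Subgroup (Matrix.SpecialLinearGroup (Fin 2) (ZMod 3)), Nat.card ↥Q = 3 ∧ ¬ (Q ≤ Cfsg.pPrimeCore 2 (Matrix.SpecialLinearGroup (Fin 2) (ZMod 3))) := by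
  obtain ⟨h1, h2⟩ := H5.fstarOf_eq_opOf_iff.1 fs
  have h3 : Cfsg.pPrimeCore 2 S = ⊥ := by rw [← H5.oppOf_top]; exact h2
  have hu : orderOf u = 3 := orderOf_eq_prime (by decide) (by decide)
  refine ⟨?_, h3, fun t ht => ?_, Subgroup.zpowers u, by rw [Nat.card_zpowers, hu], ?_⟩
  · rw [H5.isPConstrained_iff, ← H5.plOf_top, H5.plOf_eq_layerOf h2, h1]
  · rcases sq t (orderOf_dvd_iff_pow_eq_one.1 ht.dvd) with rfl | rfl
    · exact one_mem _
    · exact Subgroup.mem_center_iff.2 comm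
  · rw [h3, Subgroup.zpowers_le, Subgroup.mem_bot]
    decide

end Cfsg.Agent.S1303
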