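import Cfsg.Statements.S1305
import Cfsg.Agent.H5.Std

set_option autoImplicit false
open Cfsg

namespace Cfsg.Agent.S1305

/-- Let G be a finite group of component type with the B-property and no nontrivial normal subgroup of odd order. Let a be an involution and K a component of C_G(a) such that (a) |K| is maximal among the orders of components of centralizers of involutions of G, (b) subject to (a) the 2-rank of the centralizer of K in C_G(a) is as large as possible, and (c) K has 2-rank at least 2. If B is an elementary abelian 2-subgroup of that centralizer of the largest possible order, then K is a component of C_G(b) for every non-identity b ∈ B. -/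
theorem result {G : Type*} [Group G] [Finite G] (hO : Cfsg.oddCore G = ⊥) (hB : Cfsg.HasBProperty G) (hct : Cfsg.IsComponentType G) (a : G) (ha : orderOf a = 2) (K : Subgroup G) (hKa : K ≤ Subgroup.centralizer ({a} : Set G)) (hK : Cfsg.IsComponent (K.subgroupOf (Subgroup.centralizer ({a} : Set G)))) (hmax : ∀ y : G, orderOf y = 2 → ∀ K' : Subgroup G, K' ≤ Subgroup.centralizer ({y} : Set G) → Cfsg.IsComponent (K'.subgroupOf (Subgroup.centralizer ({y} : Set G))) → Nat.card ↥K' ≤ Nat.card ↥K ∧ (Nat.card ↥K' = Nat.card ↥K → ∀ k : ℕ, Cfsg.PRankLE 2 k ↥(Subgroup.centralizer ({a} : Set G) ⊓ Subgroup.centralizer (K : Set G)) → Cfsg.PRankLE 2 k ↥(Subgroup.centralizer ({y} : Set G) ⊓ Subgroup.centralizer (K' : Set G)))) (hrk : ¬ Cfsg.PRankLE 2 1 ↥K) (B : Subgroup G) (hBle : B ≤ Subgroup.centralizer ({a} : Set G) ⊓ Subgroup.centralizer (K : Set G)) (hBel : Cfsg.IsElementaryAbelian 2 B) (hBmax : ∀ B' : Subgroup G, B' ≤ Subgroup.centralizer ({a} : Set G) ⊓ Subgroup.centralizer (K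 : Set G) → Cfsg.IsElementaryAbelian 2 B' → Nat.card ↥B' ≤ Nat.card ↥B) (b : G) (hb : b ∈ B) (hb1 : b ≠ 1) : K ≤ Subgroup.centralizer ({b} : Set G) ∧ Cfsg.IsComponent (K.subgroupOf (Subgroup.centralizer ({b} : Set G))) := by
  have hc : H5.CompOf K (Subgroup.centralizer ({a} : Set G)) := H5.compOf_iff.2 ⟨hKa, hK⟩
  have hb2 := H5.orderOf_eq_of_elemAb hBel hb hb1
  have a2 := H6.ord2_mul_self ha
  have hKb : K ≤ Subgroup.centralizer ({b} : Set G) := H5.le_centralizer₁_iff.2 (hBle hb).2
  have hab : b * a = a * b := Subgroup.mem_centralizer_singleton_iff.1 (hBle hb).1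
  have haB : a ∈ B := by
    have h1 : IsElementaryAbelian 2 (B ⊔ Subgroup.zpowers a) := H5.elemAb_sup hBel
      (H5.elemAb_zpowers ha) (by rw [H5.centralizer_zpowers]; exact hBle.trans inf_le_left)
    have h2 := hBmax _ (sup_le hBle (by
      rw [Subgroup.zpowers_le]
      exact ⟨Subgroup.mem_centralizer_singleton_iff.2 rfl, H5.le_centralizer₁_iff.1 hKa⟩)) h1
    rw [H5.eq_of_le_of_card_le le_sup_left h2]
    exact Subgroup.mem_sup_right (Subgroup.mem_zpowers a)
  have hc' := hc.mono (le_inf hKa hKb) inf_le_left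
  have hE : K ≤ H5.layerOf (Subgroup.centralizer ({b} : Set G)) :=
    (hc'.pCompOf_two.le_plOf.trans (H5.lbalance₂ ha hab.symm)).trans
      (H5.plOf_le_layerOf_of_bProperty hB hO hb2)
  have hBn : B ≤ Subgroup.normalizer (Subgroup.centralizer ({b} : Set G) : Set G) :=
    H5.le_normalizer_of_le (H5.elemAb_le_centralizer_singleton hBel hb)
  obtain ⟨D, hD, h⟩ := H5.comp_trichotomy ha (hBn haB) hc inf_le_right hE hKa
  have hm := hmax b hb2 D hD.le (H5.compOf_iff.1 hD).2
  rcases h with rfl | ⟨h1, -⟩ | ⟨h1, h2, h3⟩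
  · exact H5.compOf_iff.1 hD
  · exact absurd hm.1 (not_le.2 (H5.card_lt_of_lt h1))
  exfalso
  have hcard : Nat.card D = Nat.card (H5.diagHom h2).ker * Nat.card K := by
    rw [h3, ← Subgroup.index_ker, Subgroup.card_mul_index]
  have hker : (H5.diagHom h2).ker = ⊥ := by
    rw [← Subgroup.card_eq_one]
    have h4 := hm.1
    rw [hcard] at h4
    have h5 : 0 < Nat.card K := Nat.card_pos
    have h6 : 0 < Nat.card (H5.diagHom h2).ker := Nat.card_pos
    nlinarith
  have hi := (MonoidHom.ker_eq_bot_iff _).1 hker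
  rw [hker, Subgroup.card_bot, one_mul] at hcard
  obtain ⟨k, hk⟩ := H5.exists_card_eq_pow (H5.isPGroup_of_elemAb hBel)
  have hr : PRankLE 2 k ↥(Subgroup.centralizer ({a} : Set G) ⊓ Subgroup.centralizer (K : Set G)) := by
    by_contra hr
    obtain ⟨A, h4, h5, h6⟩ := H5.not_pRankLE_iff.1 hr
    have := h6.trans (hBmax A h4 h5)
    rw [hk, pow_succ] at this
    have : 0 < 2 ^ k := by positivity
    omega
  have hr2 := hm.2 hcard k hr
  obtain ⟨V, hVK, hV, hV4⟩ := H5.not_pRankLE_iff.1 hrk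
  rw [h3] at hVK
  obtain ⟨V, rfl⟩ := H5.exists_map_of_le_range hVK
  rw [H5.elemAb_map_iff hi] at hV
  rw [H5.card_map_of_inj hi] at hV4
  set W := H5.cj a (V.map D.subtype) with hW
  have hWe : IsElementaryAbelian 2 W := H5.elemAb_cj (H5.elemAb_map _ hV) a
  have hW4 : 2 ^ (1 + 1) ≤ Nat.card W := by
    rwa [hW, H5.card_cj, H5.card_map_of_inj D.subtype_injective]
  have hWD : W ≤ H5.cj a D := H5.cj_mono (Subgroup.map_subtype_le _)
  set B0 := B ⊓ Subgroup.centralizer ((D ⊔ H5.cj a D : Subgroup G) : Set G) with hB0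
  have hB0e : IsElementaryAbelian 2 B0 := H5.elemAb_of_le hBel inf_le_left
  have hc1 : B0 ≤ Subgroup.centralizer (W : Set G) :=
    inf_le_right.trans (H5.centralizer_anti (hWD.trans le_sup_right))
  have h4 : B ≤ Subgroup.zpowers a ⊔ B0 := by
    intro x hx
    rcases H5.diag_cases h2 a2 hD (hBn haB) (hBn hx) (h3 ▸ (hBle hx).2) with e | e
    · exact Subgroup.mem_sup_right ⟨hx, e⟩
    · have : x = a * (a * x) := by rw [← mul_assoc, a2, one_mul]
      rw [this]
      exact mul_mem (Subgroup.mem_sup_left (Subgroup.mem_zpowers a))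
        (Subgroup.mem_sup_right ⟨B.mul_mem haB hx, e⟩)
  have h5 : Nat.card B ≤ 2 * Nat.card B0 := by
    have := H5.card_sup_dvd (H5.le_normalizer_of_elemAb hBel
      (show Subgroup.zpowers a ≤ B by rwa [Subgroup.zpowers_le]) (inf_le_left : B0 ≤ B))
    rw [Nat.card_zpowers, ha] at this
    exact (Subgroup.card_le_of_le h4).trans (Nat.le_of_dvd (mul_pos two_pos Nat.card_pos) this)
  have h6 : B0 ⊓ W = ⊥ := by
    rw [eq_bot_iff]
    rintro z ⟨hz, hzW⟩
    obtain ⟨d, hd, rfl⟩ := hWD hzW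
    have e1 : a * (a * d * a⁻¹) = (a * d * a⁻¹) * a := H5.elemAb_comm hBel haB hz.1
    have e2 : a * d * a⁻¹ = d := by
      rw [← mul_assoc, ← mul_assoc, a2, one_mul, inv_mul_cancel_right, H6.ord2_inv ha] at e1
      rw [← e1, H6.ord2_inv ha, mul_assoc, a2, mul_one]
    have e3 : (a * d * a⁻¹) ^ 2 = 1 := hBel.2 _ hz.1
    have e4 : H5.diagHom h2 ⟨d, hd⟩ = 1 := by
      rw [H5.diagHom_apply]
      show d * (a * d * a⁻¹) = 1
      rw [e2] at e3 ⊢
      rwa [pow_two] at e3
    have e5 : (⟨d, hd⟩ : D) = 1 := hi (e4.trans (map_one _).symm)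
    have e6 : d = 1 := congrArg Subtype.val e5
    rw [e6, map_one]; exact one_mem _
  have h7 := H5.card_sup_mul_card_inf (H5.le_normalizer_of_le_centralizer hc1)
  rw [h6, Subgroup.card_bot, mul_one] at h7
  apply H5.not_pRankLE_iff.2 ⟨B0 ⊔ W, _, H5.elemAb_sup hB0e hWe hc1, _⟩ hr2
  · refine sup_le (le_inf (inf_le_left.trans (H5.elemAb_le_centralizer_singleton hBel hb))
      (inf_le_right.trans (H5.centralizer_anti le_sup_left))) (hWD.trans (le_inf ?_ ?_))
    · exact (hD.cj_of_mem (hBn haB)).le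
    · exact H5.commutator_eq_bot_iff'.1 h2
  · rw [h7, pow_succ, ← hk]
    have := Nat.mul_le_mul_left (Nat.card B0) hW4
    omega

end Cfsg.Agent.S1305
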