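import Cfsg.Statements.S1306
import Cfsg.Agent.H5.Balance4

set_option autoImplicit false
open Cfsg

namespace Cfsg.Agent.S1306

/-- Let G be finite, x an involution and L ≤ C_G(x) a component of C_G(x). Suppose L is a component of C_G(y) for every involution y ∈ C_G(L), and ⁅L, g L g⁻¹⁆ ≠ 1 whenever g L g⁻¹ ≠ L. Then L is a standard subgroup of G. -/
theorem result {G : Type*} [Group G] [Finite G] (x : G) (hx : orderOf x = 2) (L : Subgroup G) (hLx : L ≤ Subgroup.centralizer ({x} : Set G)) (hL : Cfsg.IsComponent (L.subgroupOf (Subgroup.centralizer ({x} : Set G)))) (hne : ∀ y : G, orderOf y = 2 → y ∈ Subgroup.centralizer (L : Set G) → L ≤ Subgroup.centralizer ({y} : Set G) ∧ Cfsg.IsComponent (L.subgroupOf (Subgroup.centralizer ({y} : Set G)))) (hnc : ∀ g : G, L.map (MulAut.conj g).toMonoidHom ≠ L → ⁅L, L.map (MulAut.conj g).toMonoidHom⁆ ≠ ⊥) : Cfsg.IsStandardSubgroup L := by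
  have : Fact (Nat.Prime 2) := ⟨Nat.prime_two⟩
  have hL' := H5.compOf_iff.2 ⟨hLx, hL⟩
  have hxC : x ∈ Subgroup.centralizer (L : Set G) := fun l hl => (hLx hl x rfl).symm
  have key : ∀ g y : G, orderOf y = 2 → y ∈ Subgroup.centralizer (L : Set G) →
      y ∈ H5.cj g (Subgroup.centralizer (L : Set G)) → g ∈ Subgroup.normalizer (L : Set G) := by
    rintro g _ hy hy1 ⟨z, hz, rfl⟩
    have h1 := H5.compOf_iff.2 (hne _ hy hy1)
    have h2 := (H5.compOf_iff.2 (hne z (by rw [← hy]; exact ((MulAut.conj g).orderOf_eq z).symm) hz)).cj g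
    rw [H5.cj_centralizer_singleton] at h2
    rw [← H5.cj_eq_self_iff]
    by_contra h
    exact hnc g h (h1.commutator_eq_bot h2 (Ne.symm h))
  refine ⟨hL'.qs, ⟨?_, fun g hg => ?_⟩, hnc, le_antisymm (H5.normalizer_le_normalizer_centralizer L)
    fun g hg => key g x hx hxC ((H5.cj_eq_of_mem_normalizer hg).symm ▸ hxC)⟩
  · rw [even_iff_two_dvd, ← hx]; exact Subgroup.orderOf_dvd_natCard _ hxC
  · rw [← Nat.not_even_iff_odd, even_iff_two_dvd]
    intro hd
    obtain ⟨y, hy⟩ := exists_prime_orderOf_dvd_card' 2 hd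
    exact hg (H5.normalizer_le_normalizer_centralizer L
      (key g y (by rw [Subgroup.orderOf_coe, hy]) y.2.1 y.2.2))

end Cfsg.Agent.S1306
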