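import Cfsg.Statements.S1307
import Cfsg.Agent.H5.PComp
import Cfsg.Agent.H19.BS3
import Cfsg.Agent.H6.Count
import Cfsg.Agent.S0016
import Cfsg.Agent.H9.Metacyc
import Cfsg.Agent.H15.TB
import Cfsg.Agent.H10.AG

set_option autoImplicit false
open Cfsg H10
open scoped commutatorElement

namespace Cfsg.Agent.S1307

/-- Let G be finite, x an involution and L ≤ C_G(x) a component of C_G(x) of even order and 2-rank 1, such that L is a component of C_G(y) for every involution y ∈ C_G(L). Then some involution of L is a classical involution of G. -/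
theorem result {G : Type*} [Group G] [Finite G] (x : G) (hx : orderOf x = 2) (L : Subgroup G) (hLx : L ≤ Subgroup.centralizer ({x} : Set G)) (hL : Cfsg.IsComponent (L.subgroupOf (Subgroup.centralizer ({x} : Set G)))) (heven : Even (Nat.card ↥L)) (hrk : Cfsg.PRankLE 2 1 ↥L) (hne : ∀ y : G, orderOf y = 2 → y ∈ Subgroup.centralizer (L : Set G) → L ≤ Subgroup.centralizer ({y} : Set G) ∧ Cfsg.IsComponent (L.subgroupOf (Subgroup.centralizer ({y} : Set G)))) : ∃ t ∈ L, Cfsg.IsClassicalInvolution t := by
  classical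
  have hL' : H5.CompOf L (Subgroup.centralizer ({x} : Set G)) := H5.compOf_iff.2 ⟨hLx, hL⟩
  have hq := hL'.qs
  have huniq : ∀ a b : L, orderOf a = 2 → orderOf b = 2 → Commute a b → a = b := by
    intro a b ha hb hab
    have hE : IsElementaryAbelian 2 (Subgroup.zpowers a ⊔ Subgroup.zpowers b) := by
      refine H9.elementary_sup (H9.elementary_zpowers (ha ▸ pow_orderOf_eq_one a))
        (H9.elementary_zpowers (hb ▸ pow_orderOf_eq_one b)) ?_
      rintro _ ⟨i, rfl⟩ _ ⟨j, rfl⟩
      exact (hab.zpow_zpow i j).eq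
    have e1 : Subgroup.zpowers a = Subgroup.zpowers a ⊔ Subgroup.zpowers b :=
      Subgroup.eq_of_le_of_card_ge le_sup_left (by
        rw [Nat.card_zpowers, ha]; simpa using hrk _ hE.1 hE.2)
    have hb' : b ∈ Subgroup.zpowers a := e1 ▸ Subgroup.mem_sup_right (Subgroup.mem_zpowers b)
    rw [mem_zpowers_iff_mem_range_orderOf, ha, Finset.mem_image] at hb'
    obtain ⟨i, hi, rfl⟩ := hb'
    rw [Finset.mem_range] at hi
    interval_cases i
    · simp at hb
    · simp
  obtain ⟨t, ht⟩ := exists_prime_orderOf_dvd_card' 2 (even_iff_two_dvd.1 heven)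
  have hiso : IsIsolatedInvolution t := ⟨ht, fun g hg =>
    (huniq _ _ ht (by rw [← ht]; exact (MulAut.conj g).orderOf_eq t) hg).symm⟩
  have hO : H5.oppOf 2 L ≤ Subgroup.centralizer (L : Set G) :=
    (H5.pqs_of_qs_of_dvd hq (even_iff_two_dvd.1 heven)).oppOf_le_centralizer hq
  have htC : (t : G) ∈ Subgroup.centralizer (L : Set G) := by
    have e : ⁅Subgroup.zpowers (t : G), L⁆ ≤ Subgroup.centralizer (L : Set G) := by
      rw [Subgroup.commutator_le]
      rintro _ ⟨k, rfl⟩ g hg
      rcases Int.emod_two_eq_zero_or_one k with h | h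
      · have : (t : G) ^ k = 1 := by
          rw [← zpow_mod_orderOf, Subgroup.orderOf_coe, ht]
          simp [h]
        simp [this]
      · have : (t : G) ^ k = t := by
          rw [← zpow_mod_orderOf, Subgroup.orderOf_coe, ht]
          simp [h]
        simp only [this]
        exact hO ⟨_, H19.zstar hiso ⟨g, hg⟩, rfl⟩
    have := H15.three_sub (X := L) (Y := Subgroup.zpowers (t : G)) (Z := L)
      (by rwa [Subgroup.commutator_comm]) e
    rw [hL'.perfect] at this
    exact Subgroup.le_centralizer_iff.1 this (Subgroup.mem_zpowers _)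
  have ht' : orderOf (t : G) = 2 := by rw [Subgroup.orderOf_coe, ht]
  obtain ⟨h1, h2⟩ := hne t ht' htC
  refine ⟨t, t.2, ht', L, h1, t.2, h2.1, ?_⟩
  obtain ⟨S⟩ : Nonempty (Sylow 2 L) := inferInstance
  have hnc : ¬ IsCyclic (S : Subgroup L) := by
    intro hc
    obtain ⟨H, hH⟩ := H6.exists_index_two_of_cyclic_sylow heven S hc
    have := Subgroup.normal_of_index_eq_two hH
    have h3 : commutator L ≤ H := by
      have : IsCyclic (L ⧸ H) := isCyclic_of_prime_card (p := 2) hH
      exact Subgroup.Normal.quotient_commutative_iff_commutator_le.1 inferInstance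
    rw [(H5.isQuasisimple_iff_top.1 hq).1, top_le_iff] at h3
    rw [h3, Subgroup.index_top] at hH
    exact absurd hH (by norm_num)
  have hcen : ∀ H : Subgroup (S : Subgroup L), Nat.card H = 2 →
      H = Subgroup.zpowers (⟨t, ?_⟩ : (S : Subgroup L)) := ?_
  · rcases Cfsg.Agent.S0016.result 2 S.isPGroup' (fun H K hH hK => by rw [hcen H hH, hcen K hK])
      with hc | ⟨-, n, ⟨e⟩⟩
    · exact absurd hc hnc
    · refine ⟨S, ?_⟩
      rcases n with _ | n
      · have := QuaternionGroup.quaternionGroup_one_isCyclic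
        exact absurd (isCyclic_of_injective (G' := QuaternionGroup 1) e.toMonoidHom e.injective) hnc
      · exact ⟨n, ⟨e⟩⟩
  · have hn : (Subgroup.zpowers t).Normal := by
      refine H9.normal_of_le_center ?_
      rw [Subgroup.zpowers_le, Subgroup.mem_center_iff]
      exact fun g => Subtype.ext (htC g g.2)
    exact (IsPGroup.of_card (n := 1) (by rw [Nat.card_zpowers, ht, pow_one])).le_sylow_of_normal S
      (Subgroup.mem_zpowers t)
  · intro H hH
    obtain ⟨a, ha⟩ := exists_prime_orderOf_dvd_card' 2 (G := H) (by rw [hH])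
    have ha' : orderOf ((a : (S : Subgroup L)) : L) = 2 := by
      rw [Subgroup.orderOf_coe, Subgroup.orderOf_coe, ha]
    have e := huniq _ _ ha' ht (Subtype.ext (htC _ ((a : (S : Subgroup L)) : L).2))
    symm
    refine Subgroup.eq_of_le_of_card_ge ?_ ?_
    · rw [Subgroup.zpowers_le]
      convert a.2
      exact e.symm
    · rw [hH, Nat.card_zpowers, ← Subgroup.orderOf_coe, ht]

end Cfsg.Agent.S1307
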