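import Cfsg.Statements.S1314
import Cfsg.Agent.H5.Fstar

set_option autoImplicit false
open Cfsg

namespace Cfsg.Agent.S1314

/-- Let x be an involution of a group G and L a perfect subgroup with ⁅L, x L x⁻¹⁆ = 1. Then l ↦ l (x l x⁻¹) is a group homomorphism π from L to G whose kernel is central in L and whose image lies in C_G(x); and the commutator subgroup of C_{L ⊔ xLx⁻¹}(x) equals the image of π. -/
theorem result {G : Type*} [Group G] [Finite G] (x : G) (hx : orderOf x = 2) (L : Subgroup G) (hperf : ⁅L, L⁆ = L) (hcomm : ⁅L, L.map (MulAut.conj x).toMonoidHom⁆ = ⊥) : ∃ π : ↥L →* G, (∀ l : ↥L, π l = (l : G) * (x * (l : G) * x⁻¹)) ∧ π.ker ≤ Subgroup.center ↥L ∧ π.range ≤ Subgroup.centralizer ({x} : Set G) ∧ ⁅(L ⊔ L.map (MulAut.conj x).toMonoidHom) ⊓ Subgroup.centralizer ({x} : Set G), (L ⊔ L.map (MulAut.conj x).toMonoidHom) ⊓ Subgroup.centralizer ({x} : Set G)⁆ = π.range := by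
  have hx2 : x * x = 1 := by rw [← pow_two, ← hx, pow_orderOf_eq_one]
  have hxi : x⁻¹ = x := inv_eq_of_mul_eq_one_right hx2
  have hc : ∀ a ∈ L, ∀ b ∈ L, a * (x * b * x⁻¹) = (x * b * x⁻¹) * a := fun a ha b hb =>
    (Subgroup.commutator_eq_bot_iff_le_centralizer.1 hcomm ha _ (H5.conj_mem_cj hb)).symm
  let π : L →* G :=
    { toFun := fun l => (l : G) * (x * l * x⁻¹)
      map_one' := by simp
      map_mul' := fun a b => by
        have := hc b b.2 a a.2
        simp only [Subgroup.coe_mul]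
        calc (a : G) * b * (x * (a * b) * x⁻¹) = a * (b * (x * a * x⁻¹)) * (x * b * x⁻¹) := by group
          _ = a * ((x * a * x⁻¹) * b) * (x * b * x⁻¹) := by rw [this]
          _ = _ := by group }
  have hπ : ∀ l : L, π l = (l : G) * (x * l * x⁻¹) := fun _ => rfl
  have hrc : π.range ≤ Subgroup.centralizer ({x} : Set G) := by
    rintro _ ⟨l, rfl⟩
    rw [Subgroup.mem_centralizer_singleton_iff, hπ, hc l l.2 l l.2]
    conv_rhs => rw [← hc l l.2 l l.2]
    rw [hxi]
    calc x * ↑l * x * ↑l * x = x * ↑l * x * ↑l * x := rfl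
      _ = _ := by group
  have hrl : π.range ≤ L ⊔ L.map (MulAut.conj x).toMonoidHom := by
    rintro _ ⟨l, rfl⟩
    exact Subgroup.mul_mem_sup l.2 (H5.conj_mem_cj l.2)
  have hrp : ⁅π.range, π.range⁆ = π.range := by
    have : Group.IsPerfect L := Subgroup.isPerfect_iff.2 hperf
    have := Group.IsPerfect.range π
    exact Subgroup.commutator_eq_self
  refine ⟨π, hπ, ?_, hrc, ?_⟩
  · intro l hl
    rw [MonoidHom.mem_ker, hπ, mul_eq_one_iff_eq_inv] at hl
    rw [Subgroup.mem_center_iff]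
    intro m
    apply Subtype.ext
    have := hc m m.2 l⁻¹ (inv_mem l.2)
    have e : x * (l : G)⁻¹ * x⁻¹ = l := (hl.trans (by group)).symm
    simp only [Subgroup.coe_mul]
    rwa [e] at this
  · refine le_antisymm ?_ (hrp.ge.trans (Subgroup.commutator_mono (le_inf hrl hrc) (le_inf hrl hrc)))
    set M := L ⊔ L.map (MulAut.conj x).toMonoidHom
    have hle : M ⊓ Subgroup.centralizer ({x} : Set G) ≤ π.range ⊔ H5.zOf M := by
      rintro y ⟨hy1, hy2⟩
      obtain ⟨a, ha, _, ⟨b, hb, rfl⟩, rfl⟩ := (H5.mem_sup_of_le_normalizer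
        (H5.le_normalizer_of_le_centralizer
          (Subgroup.commutator_eq_bot_iff_le_centralizer.1 hcomm))).1 hy1
      have hy3 : a * (x * b * x⁻¹) * x = x * (a * (x * b * x⁻¹)) :=
        Subgroup.mem_centralizer_singleton_iff.1 hy2
      have e1 : b⁻¹ * a = x * (a * b⁻¹) * x⁻¹ := by
        have h1 : a * (x * b * x⁻¹) = (x * a * x⁻¹) * b := by
          rw [hxi] at hy3 ⊢
          calc a * (x * b * x) = a * (x * b * x) * x * x := by rw [mul_assoc _ x x, hx2, mul_one]
            _ = x * (a * (x * b * x)) * x := by rw [hy3]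
            _ = x * a * x * b * (x * x) := by group
            _ = _ := by rw [hx2, mul_one]
        rw [← hc b hb a ha] at h1
        calc b⁻¹ * a = b⁻¹ * (a * (x * b * x⁻¹)) * (x * b * x⁻¹)⁻¹ := by group
          _ = b⁻¹ * (b * (x * a * x⁻¹)) * (x * b * x⁻¹)⁻¹ := by rw [h1]
          _ = _ := by group
      have hz : b⁻¹ * a ∈ H5.zOf M := by
        refine ⟨Subgroup.mem_sup_left (mul_mem (inv_mem hb) ha), ?_⟩
        show b⁻¹ * a ∈ Subgroup.centralizer (M : Set G)
        rw [H5.centralizer_sup]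
        refine ⟨?_, Subgroup.commutator_eq_bot_iff_le_centralizer.1 hcomm (mul_mem (inv_mem hb) ha)⟩
        rw [e1]
        exact H5.commutator_eq_bot_iff'.1 hcomm (H5.conj_mem_cj (mul_mem ha (inv_mem hb)))
      have e2 : a * (MulAut.conj x).toMonoidHom b = π ⟨b, hb⟩ * (b⁻¹ * a) := by
        show a * (x * b * x⁻¹) = b * (x * b * x⁻¹) * (b⁻¹ * a)
        rw [hc a ha b hb, hc b hb b hb]; group
      rw [e2]
      exact Subgroup.mul_mem_sup ⟨_, rfl⟩ hz
    refine (Subgroup.commutator_mono hle hle).trans ?_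
    rw [H5.commutator_sup_self_of_central
      (inf_le_right.trans (H5.centralizer_anti (sup_le hrl inf_le_left))), hrp]

end Cfsg.Agent.S1314
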