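import Cfsg.Statements.S1316
import Cfsg.Agent.H5.Fstar

set_option autoImplicit false
open Cfsg

namespace Cfsg.Agent.S1316

/-- For a finite group X, E(X) equals the intersection of the derived series of F*(X) (its last term). -/
theorem result {X : Type*} [Group X] [Finite X] : (⨅ n : ℕ, (derivedSeries ↥(Cfsg.generalizedFittingSubgroup X) n).map (Cfsg.generalizedFittingSubgroup X).subtype) = Cfsg.layer X := by
  set K := Cfsg.generalizedFittingSubgroup X with hK
  have hE : ⁅Cfsg.layer X, Cfsg.layer X⁆ = Cfsg.layer X := by
    rw [← H5.layerOf_top]; exact H5.layerOf_perfect _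
  apply le_antisymm
  · obtain ⟨n, hn⟩ : ∃ n, derivedSeries K (n + 1) = derivedSeries K n := by
      obtain ⟨n, hn⟩ := WellFoundedLT.antitone_chain_condition (derivedSeries_antitone K)
      exact ⟨n, (hn (n + 1) (by omega)).symm⟩
    refine (iInf_le _ n).trans ?_
    rw [← H5.layerOf_top]
    refine H5.perfect_le_layerOf ?_ ?_
    · rw [← Subgroup.map_commutator, ← derivedSeries_succ, hn]
    · rw [H5.fstarOf_top]; exact Subgroup.map_subtype_le _
  · refine le_iInf fun n => ?_
    induction n with
    | zero => rw [derivedSeries_zero, H5.map_subtype_top]; exact le_sup_left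
    | succ n ih =>
      rw [derivedSeries_succ, Subgroup.map_commutator]
      exact hE.ge.trans (Subgroup.commutator_mono ih ih)

end Cfsg.Agent.S1316
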