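import Cfsg.Statements.S1319
import Cfsg.Agent.H5.Fstar

set_option autoImplicit false
open Cfsg

namespace Cfsg.Agent.S1319

/-- Let A be a subnormal subgroup of the finite group X with E(A) = A. Then A ≤ E(X) and A is normal in E(X). -/
theorem result {X : Type*} [Group X] [Finite X] (A : Subgroup X) (hsn : A.IsSubnormal) (hA : Cfsg.layer ↥A = ⊤) : A ≤ Cfsg.layer X ∧ (A.subgroupOf (Cfsg.layer X)).Normal := by
  have h := H5.sn_top_iff.2 hsn
  constructor
  · have := h.layerOf_le
    rwa [H5.layerOf_top, H5.layerOf, hA, H5.map_subtype_top] at this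
  · apply Subgroup.normal_subgroupOf_of_le_normalizer
    rw [← H5.layerOf_top]
    exact h.layerOf_le_normalizer

end Cfsg.Agent.S1319
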