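import Cfsg.Statements.S1328
import Cfsg.Agent.H5.Balance4

set_option autoImplicit false
open Cfsg

namespace Cfsg.Agent.S1328

/-- Let G be finite, H ≤ G with O(H) = 1, t an involution of G normalizing H, and Y a nontrivial subgroup of O(C_H(t)). Then some component E of H is normalized by t and by Y and centralized by neither t nor Y. -/
theorem result {G : Type*} [Group G] [Finite G] (H : Subgroup G) (hO : Cfsg.oddCore ↥H = ⊥) (t : G) (ht : orderOf t = 2) (htH : t ∈ Subgroup.normalizer (H : Set G)) (Y : Subgroup G) (hY1 : Y ≠ ⊥) (hY : Y ≤ (Cfsg.oddCore ↥(H ⊓ Subgroup.centralizer ({t} : Set G))).map (H ⊓ Subgroup.centralizer ({t} : Set G)).subtype) : ∃ E : Subgroup ↥H, Cfsg.IsComponent E ∧ (E.map H.subtype).map (MulAut.conj t).toMonoidHom = E.map H.subtype ∧ Y ≤ Subgroup.normalizer ((E.map H.subtype : Subgroup G) : Set G) ∧ ¬ (t ∈ Subgroup.centralizer ((E.map H.subtype : Subgroup G) : Set G)) ∧ ¬ (Y ≤ Subgroup.centralizer ((E.map H.subtype : Subgroup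 G) : Set G)) := by
  have : Fact (Nat.Prime 2) := ⟨Nat.prime_two⟩
  have hO' : H5.oppOf 2 H = ⊥ := by
    change (Cfsg.oddCore H).map _ = _
    rw [hO, Subgroup.map_bot]
  obtain ⟨L, hL, h1, h2, h3⟩ := H5.exists_unbalanced_comp hO' ht htH hY hY1
  obtain ⟨E, rfl⟩ := H5.exists_map_subtype hL.le
  refine ⟨E, H5.compOf_map_subtype_iff.1 hL,
    H5.cj_eq_self_iff.2 (H5.mem_normalizer_of_commutator_eq h1), h2, fun h => ?_, fun h => ?_⟩
  · exact hL.ne_bot (h1.symm.trans (H5.commutator_eq_bot_iff'.2 (Subgroup.zpowers_le.2 h)))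
  · exact hL.ne_bot (h3.symm.trans (H5.commutator_eq_bot_iff'.2 h))

end Cfsg.Agent.S1328
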