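import Cfsg.Statements.S1329
import Cfsg.Agent.H10.PRed
import Cfsg.Agent.H10.Misc
import Cfsg.Agent.H10.TV
import Cfsg.Agent.H11.Bar
import Cfsg.Agent.H1.Coprime2
import Cfsg.Agent.H1.Solvable
import Cfsg.Agent.S0205

set_option autoImplicit false
open Cfsg H10

namespace Cfsg.Agent.S1329

universe u

/-- `B₀` is cocyclic in `B`. -/
def Coc {G : Type*} [Group G] (B B₀ : Subgroup G) : Prop :=
  B₀ ≤ B ∧ ∃ b ∈ B, B₀ ⊔ Subgroup.zpowers b = B

section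
variable {G : Type u} [Group G] [Finite G] {A B Y L : Subgroup G}

theorem cop (hc : (Nat.card A).Coprime (Nat.card Y)) {A' Y' : Subgroup G} (h1 : A' ≤ A)
    (h2 : Y' ≤ Y) : (Nat.card A').Coprime (Nat.card Y') :=
  (hc.coprime_dvd_left (Subgroup.card_dvd_of_le h1)).coprime_dvd_right (Subgroup.card_dvd_of_le h2)

theorem split (hA : A ≤ CC(A)) (hc : (Nat.card A).Coprime (Nat.card Y)) {A' X : Subgroup G}
    (h1 : A' ≤ A) (h2 : X ≤ Y) (hn : A' ≤ NN(X)) : ⁅X, A'⁆ ⊔ (X ⊓ CC(A')) = X :=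
  H1.commutator_sup_centralizer hn (cop hc h1 h2) (Or.inl (H1.isSolvable_of_comm'
    (isMulCommutative_iff_le_CC.2 (h1.trans (hA.trans (CC_anti h1))))))

theorem gen0 (hA : A ≤ CC(A)) (hB : B ≤ A) (hc : (Nat.card A).Coprime (Nat.card Y))
    {X H : Subgroup G} (h2 : X ≤ Y) (hn : B ≤ NN(X))
    (h : ∀ B₀, Coc B B₀ → X ⊓ CC(B₀) ≤ H) : X ≤ H := by
  haveI : IsMulCommutative B := isMulCommutative_iff_le_CC.2 (hB.trans (hA.trans (CC_anti hB)))
  exact H1.le_of_forall_cocyclic_centralizer_le hn (cop hc hB h2) fun B₀ h1 h3 => h B₀ ⟨h1, h3⟩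

theorem gen1 (hA : A ≤ CC(A)) (hB : B ≤ A) (hc : (Nat.card A).Coprime (Nat.card Y))
    (hAY : A ≤ NN(Y)) (hYA : ⁅Y, A⁆ = Y) {H : Subgroup G}
    (h : ∀ B₀, Coc B B₀ → ⁅Y ⊓ CC(B₀), A⁆ ≤ H) : Y ≤ H := by
  set H₀ := ⨆ B₀ : {B₀ // Coc B B₀}, ⁅Y ⊓ CC(B₀.1), A⁆ with hH₀
  have h0 : H₀ ≤ H := iSup_le fun B₀ => h B₀.1 B₀.2
  refine le_trans ?_ h0
  have hAn : ∀ B₀ : {B₀ // Coc B B₀}, A ≤ NN(Y ⊓ CC(B₀.1)) := fun B₀ =>
    le_NN_inf hAY (le_NN_CC ((hA.trans (CC_anti (B₀.2.1.trans hB))).trans (CC_le_NN _)))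
  have hA0 : A ≤ NN(H₀) := le_NN_iSup fun B₀ => right_le_NN_comm _ _
  have hC0 : Y ⊓ CC(A) ≤ NN(H₀) := le_NN_iSup fun B₀ =>
    (le_inf inf_le_left (inf_le_right.trans (CC_anti (B₀.2.1.trans hB)))).trans
      (left_le_NN_comm _ _)
  have h1 : Y ≤ H₀ ⊔ (Y ⊓ CC(A)) := by
    refine gen0 hA hB hc le_rfl (hB.trans hAY) fun B₀ h₀ => ?_
    rw [← split hA hc le_rfl inf_le_left (hAn ⟨B₀, h₀⟩)]
    exact sup_le_sup (le_iSup (fun B₀ : {B₀ // Coc B B₀} => ⁅Y ⊓ CC(B₀.1), A⁆) ⟨B₀, h₀⟩)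
      (inf_le_inf_right _ inf_le_left)
  rw [← hYA]
  refine (Subgroup.commutator_mono h1 le_rfl).trans (comm_sup_le (le_NN_self _) hC0
    (comm_le_left hA0) ?_)
  rw [comm_eq_bot.2 inf_le_right]; exact bot_le

theorem abel (hA : A ≤ CC(A)) (hB : B ≤ A) (hc : (Nat.card A).Coprime (Nat.card Y))
    (hAY : A ≤ NN(Y)) (hYA : ⁅Y, A⁆ = Y)
    (hL : ∀ B₀, Coc B B₀ → Y ⊓ CC(B) ⊓ ⁅Y ⊓ CC(B₀), A⁆ ≤ L) {V : Subgroup G} (hV : V ≤ Y)
    (hVc : V ≤ CC(V)) (hYV : Y ≤ NN(V)) (hAV : A ≤ NN(V)) :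
    ⁅V, Y⁆ ⊓ CC(B) ≤ L ∧ ⁅V, A⁆ ⊓ CC(B) ≤ L := by
  have hVA : ⁅V, A⁆ ≤ V := comm_le_left hAV
  have hsub : ∀ X D : Subgroup G, X ≤ V → D ≤ V → X ≤ NN(D) := fun X D h1 h2 =>
    (h1.trans (hVc.trans (CC_anti h2))).trans (CC_le_NN _)
  have h2 : ⁅V, A⁆ ⊓ CC(B) ≤ L := by
    have hn : A ≤ NN(⁅V, A⁆ ⊓ CC(B)) := le_NN_inf (right_le_NN_comm _ _)
      (le_NN_CC ((hA.trans (CC_anti hB)).trans (CC_le_NN _)))
    haveI : IsMulCommutative V := isMulCommutative_iff_le_CC.2 hVc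
    have h0 := H1.inf_centralizer_inf_commutator_eq_bot hAV (cop hc le_rfl hV)
    have h3 : ⁅V, A⁆ ⊓ CC(B) ⊓ CC(A) = ⊥ := by
      rw [eq_bot_iff, ← h0]
      exact le_inf (le_inf (inf_le_left.trans (inf_le_left.trans hVA)) inf_le_right)
        (inf_le_left.trans inf_le_left)
    have h4 := split hA hc le_rfl (inf_le_left.trans (hVA.trans hV)) hn
    rw [h3, sup_bot_eq] at h4
    refine le_trans (le_inf (inf_le_inf_right _ (hVA.trans hV)) ?_)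
      (hL B ⟨le_rfl, 1, one_mem _, by simp⟩)
    rw [← h4]
    exact Subgroup.commutator_mono (inf_le_inf_right _ (hVA.trans hV)) le_rfl
  refine ⟨?_, h2⟩
  set D := (V ⊓ CC(A) ⊓ L) ⊔ ⁅V, A⁆ with hD
  have hDV : D ≤ V := sup_le (inf_le_left.trans inf_le_left) hVA
  have h3 : Y ≤ stabMod V D := by
    refine gen1 hA hB hc hAY hYA fun B₀ h₀ => ?_
    have hB₀ : B₀ ≤ A := h₀.1.trans hB
    have hAn : A ≤ NN(Y ⊓ CC(B₀)) :=
      le_NN_inf hAY (le_NN_CC ((hA.trans (CC_anti hB₀)).trans (CC_le_NN _)))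
    set K := ⁅Y ⊓ CC(B₀), A⁆ with hK
    have hKY : K ≤ Y ⊓ CC(B₀) := comm_le_left hAn
    have hKV : K ≤ NN(V) := (hKY.trans inf_le_left).trans hYV
    have key : ⁅V, K⁆ ≤ D := by
      rw [← split hA hc hB₀ hV (hB₀.trans hAV)]
      refine comm_sup_le (hsub _ _ (comm_le_left (hB₀.trans hAV)) hDV) (hsub _ _ inf_le_left hDV)
        ?_ ?_
      · exact (comm_le_left (le_NN_commutator hKV ((hKY.trans inf_le_right).trans
          (CC_le_NN _)))).trans ((Subgroup.commutator_mono le_rfl hB₀).trans le_sup_right)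
      · set X := ⁅V ⊓ CC(B₀), K⁆ with hX
        have hXK : X ≤ K :=
          comm_le_right ((inf_le_inf_right _ hV).trans (left_le_NN_comm _ _))
        have hXV : X ≤ V := (Subgroup.commutator_mono inf_le_left le_rfl).trans (comm_le_left hKV)
        have hAX : A ≤ NN(X) := le_NN_commutator (le_NN_inf hAV
          (le_NN_CC ((hA.trans (CC_anti hB₀)).trans (CC_le_NN _)))) (right_le_NN_comm _ _)
        rw [← split hA hc le_rfl (hXV.trans hV) hAX]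
        refine sup_le ((Subgroup.commutator_mono hXV le_rfl).trans le_sup_right)
          (le_trans (le_inf (inf_le_inf_right _ hXV) ?_) le_sup_left)
        exact le_trans (le_inf (inf_le_inf (hXV.trans hV) (CC_anti hB)) (inf_le_left.trans hXK))
          (hL B₀ h₀)
    exact le_stabMod.2 ⟨le_NN_of_comm_le_of_le key hDV, by rwa [Subgroup.commutator_comm]⟩
  have h4 : ⁅V, Y⁆ ≤ D := by rw [Subgroup.commutator_comm]; exact (le_stabMod.1 h3).2
  refine (inf_le_inf_right _ h4).trans ?_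
  rw [hD, dedekind_left ((inf_le_left.trans inf_le_right).trans (CC_anti hB))
    (hsub _ _ (inf_le_left.trans inf_le_left) hVA)]
  exact sup_le inf_le_right h2

theorem bar_inf_CC {M W : Subgroup G} [(W.subgroupOf M).Normal] {K : Subgroup G} (hA : A ≤ CC(A))
    (hAM : A ≤ M) (hKM : K ≤ M) (hn : A ≤ NN(K)) (hc : (Nat.card A).Coprime (Nat.card K)) :
    bar M W (K ⊓ CC(A)) = bar M W K ⊓ CC(bar M W A) := by
  have := H1.map_inf_centralizer_of_coprime (QuotientGroup.mk' (W.subgroupOf M))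
    (A := A.subgroupOf M) (K := K.subgroupOf M)
    (by rw [NN_subgroupOf hKM]; exact Subgroup.subgroupOf_mono _ hn)
    (by rwa [card_subgroupOf_of_le hAM, card_subgroupOf_of_le hKM])
    (Or.inl (H1.isSolvable_of_comm' (isMulCommutative_iff_le_CC.2 (by
      rw [CC_subgroupOf hAM]; exact Subgroup.subgroupOf_mono _ hA))))
  rw [CC_subgroupOf hAM] at this
  exact this

theorem nonab (hA : A ≤ CC(A)) (hB : B ≤ A) (hc : (Nat.card A).Coprime (Nat.card Y))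
    (hAY : A ≤ NN(Y)) (hYA : ⁅Y, A⁆ = Y) (hs : Group.IsSolvable Y)
    (hL : ∀ B₀, Coc B B₀ → Y ⊓ CC(B) ⊓ ⁅Y ⊓ CC(B₀), A⁆ ≤ L)
    (h : ∀ N ≤ Y, Y ≤ NN(N) → A ≤ NN(N) → N ⊓ CC(B) ≤ L → N = ⊥) : Y = ⊥ := by
  have hab : ∀ V ≤ Y, V ≤ CC(V) → Y ≤ NN(V) → A ≤ NN(V) → V ≤ CC(A) := by
    intro V hV hVc hYV hAV
    obtain ⟨h1, h2⟩ := abel hA hB hc hAY hYA hL hV hVc hYV hAV
    have h3 := comm_eq_bot.1 (h _ ((comm_le_left hYV).trans hV) (right_le_NN_comm _ _)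
      (le_NN_commutator hAV hAY) h1)
    exact comm_eq_bot.1 (h _ ((comm_le_left hAV).trans hV)
      ((le_CC_symm ((comm_le_left hAV).trans h3)).trans (CC_le_NN _)) (right_le_NN_comm _ _) h2)
  set Z := Y ⊓ CC(Y) with hZ
  have hZA : Z ≤ CC(A) := hab Z inf_le_left (center_le_CC Y)
    (le_NN_inf (le_NN_self _) (le_NN_CC (le_NN_self _))) (le_NN_inf hAY (le_NN_CC hAY))
  have hZL : Z ⊓ L = ⊥ := h _ (inf_le_left.trans inf_le_left)
    ((le_CC_symm (inf_le_left.trans inf_le_right)).trans (CC_le_NN _))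
    ((le_CC_symm (inf_le_left.trans hZA)).trans (CC_le_NN _)) (inf_le_left.trans inf_le_right)
  by_cases hYZ : Y ≤ Z
  · rw [← hYA]; exact comm_eq_bot.2 (hYZ.trans hZA)
  exfalso
  obtain ⟨M, ⟨hM, hYM, hAM, hMZ⟩, hmin⟩ := exists_minimal_subgroup
    (P := fun M : Subgroup G => M ≤ Y ∧ Y ≤ NN(M) ∧ A ≤ NN(M) ∧ ¬ M ≤ Z)
    ⟨le_rfl, le_NN_self _, hAY, hYZ⟩
  have hMM : ⁅M, M⁆ ≤ Z := by
    have hlt := H1.commutator_self_lt (H1.isSolvable_of_le hs hM)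
      (fun e => hMZ (e ▸ bot_le))
    by_contra hn
    exact hlt.ne (hmin _ ⟨hlt.le.trans hM, le_NN_commutator hYM hYM, le_NN_commutator hAM hAM, hn⟩
      hlt.le)
  have h3 : ∀ {P A' M' : Subgroup G}, P ≤ M → M' ≤ M → A' ≤ A → P ≤ CC(A') →
      ⁅M', A'⁆ ≤ CC(P) := by
    intro P A' M' hP hM' hA' hPA
    have : ⁅⁅A', M'⁆, P⁆ ≤ ⊥ := three_subgroups (le_NN_of_normal _ _) (le_NN_of_normal _ _)
      (le_NN_of_normal _ _)
      (comm_eq_bot.2 ((Subgroup.commutator_mono hM' hP).trans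
        (hMM.trans (hZA.trans (CC_anti hA'))))).le
      (by rw [comm_eq_bot.2 hPA]; simp)
    rw [Subgroup.commutator_comm]
    exact comm_eq_bot.1 (le_bot_iff.1 this)
  set M₁ := ⁅M, A⁆ with hM₁
  have hM₁M : M₁ ≤ M := comm_le_left hAM
  have hAM₁ : A ≤ NN(M₁) := right_le_NN_comm _ _
  have h4 : M₁ ≤ CC(M ⊓ CC(A)) := h3 inf_le_left le_rfl le_rfl inf_le_right
  have h5 : M₁ ≤ CC(M₁) := by
    refine gen0 hA hB hc (hM₁M.trans hM) (hB.trans hAM₁) fun B₀ h₀ => ?_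
    have hB₀ : B₀ ≤ A := h₀.1.trans hB
    set P := M₁ ⊓ CC(B₀) with hP
    have hPM : P ≤ M := inf_le_left.trans hM₁M
    have hAP : A ≤ NN(P) :=
      le_NN_inf hAM₁ (le_NN_CC ((hA.trans (CC_anti hB₀)).trans (CC_le_NN _)))
    have hPA : ⁅P, A⁆ ≤ P := comm_le_left hAP
    have h6 : ⁅P, A⁆ ≤ CC(⁅P, A⁆) := by
      refine comm_eq_bot.1 (le_bot_iff.1 (hZL ▸ ?_))
      have h7 : ⁅⁅P, A⁆, ⁅P, A⁆⁆ ≤ Z :=
        (Subgroup.commutator_mono (hPA.trans hPM) (hPA.trans hPM)).trans hMM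
      refine le_inf h7 (le_trans (le_inf (h7.trans (le_inf inf_le_left (hZA.trans (CC_anti hB))))
        ?_) (hL B₀ h₀))
      exact (comm_le_of_le le_rfl le_rfl).trans (Subgroup.commutator_mono
        (le_inf (hPM.trans hM) inf_le_right) le_rfl)
    have h7 : P ⊓ CC(A) ≤ CC(P) :=
      le_CC_symm (inf_le_left.trans (h4.trans (CC_anti (inf_le_inf_right _ hPM))))
    have h8 : P ≤ CC(P) := by
      have e := split hA hc le_rfl (hPM.trans hM) hAP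
      refine le_trans e.ge (sup_le (le_CC_symm (le_trans e.ge (sup_le h6 ?_))) h7)
      exact h7.trans (CC_anti hPA)
    refine le_CC_symm ?_
    rw [← split hA hc hB₀ (hM₁M.trans hM) (hB₀.trans hAM₁)]
    exact sup_le (h3 hPM hM₁M hB₀ inf_le_right) h8
  have h6 : M₁ ≤ CC(M) := by
    refine le_CC_symm ?_
    refine le_trans (split hA hc le_rfl hM hAM).ge (sup_le h5 (le_CC_symm h4))
  have h7 : M₁ ≤ CC(A) := (le_inf hM₁M h6).trans (hab _ (inf_le_left.trans hM) (center_le_CC M)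
    (le_NN_inf hYM (le_NN_CC hYM)) (le_NN_inf hAM (le_NN_CC hAM)))
  have h8 : A ≤ CC(M) := H1.le_centralizer_of_commutator_commutator_eq_bot hAM (cop hc le_rfl hM)
    (comm_eq_bot.2 h7)
  refine hMZ (le_inf hM (le_CC_symm ?_))
  rw [← hYA]
  exact (Subgroup.commutator_mono le_rfl h8).trans (comm_le_right (le_NN_CC hYM))

end

theorem main (n : ℕ) : ∀ {G : Type u} [Group G] [Finite G] {A B Y L : Subgroup G},
    Nat.card Y < n → A ≤ CC(A) → B ≤ A → (Nat.card A).Coprime (Nat.card Y) → A ≤ NN(Y) →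
    ⁅Y, A⁆ = Y → Group.IsSolvable Y → (∀ B₀, Coc B B₀ → Y ⊓ CC(B) ⊓ ⁅Y ⊓ CC(B₀), A⁆ ≤ L) →
    Y ⊓ CC(B) ≤ L := by
  induction n with
  | zero => intros; omega
  | succ n ih =>
  intro G _ _ A B Y L hn hA hB hc hAY hYA hs hL
  by_contra hne
  refine hne ?_
  rw [nonab hA hB hc hAY hYA hs hL fun N hN hYN hAN hNL => ?_]
  · simp
  by_contra hN1
  refine hne ?_
  set M := Y ⊔ A with hM
  haveI : (N.subgroupOf M).Normal := normal_subgroupOf (sup_le hYN hAN)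
  have hYM : Y ≤ M := le_sup_left
  have hAM : A ≤ M := le_sup_right
  have hBc : B ≤ CC(B) := hB.trans (hA.trans (CC_anti hB))
  set L' := L ⊓ (Y ⊓ CC(B)) with hL'
  have hL'M : L' ≤ M := (inf_le_right.trans inf_le_left).trans hYM
  have h1 : bar M N Y ⊓ CC(bar M N B) ≤ bar M N L' := by
    refine ih ?_ ((bar_le_CC_iff hAM hAM).2 (by rw [comm_eq_bot.2 hA]; exact bot_le))
      (bar_mono hB) ((hc.coprime_dvd_left (H16.H11.card_bar_dvd hAM)).coprime_dvd_right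
        (H16.H11.card_bar_dvd hYM)) (bar_le_NN hYM hAY) (by rw [← bar_commutator hYM hAM, hYA]) ?_ ?_
    · have e := card_inf_mul_relIndex N Y
      rw [card_bar' hYM]
      rw [inf_eq_left.2 hN] at e
      have h2 : 1 < Nat.card N := (Subgroup.one_lt_card_iff_ne_bot _).2 hN1
      have h3 : 0 < Nat.card Y := Nat.card_pos
      have h4 : N.relIndex Y ≠ 0 := fun e' => by rw [e'] at e; omega
      have : N.relIndex Y < Nat.card Y := by rw [← e]; nlinarith [Nat.pos_of_ne_zero h4]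
      omega
    · rw [← bar_def]
      exact H1.isSolvable_map (H1.isSolvable_subgroupOf hs _) _
    · rintro B₁ ⟨hB₁, b, hb, hsup⟩
      set B₀ := B ⊓ unbar M N B₁ with hB₀
      have hB₀M : B₀ ≤ M := inf_le_left.trans (hB.trans hAM)
      have e1 : bar M N B₀ = B₁ := by
        refine le_antisymm ((bar_le_iff hB₀M).2 inf_le_right) fun x hx => ?_
        obtain ⟨⟨y, hyM⟩, hy, rfl⟩ := hB₁ hx
        exact mem_bar hyM ⟨hy, (mem_unbar hyM).2 hx⟩
      obtain ⟨⟨c, hcM⟩, hcB, rfl⟩ := hb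
      have hcB' : c ∈ B := hcB
      have hzB : Subgroup.zpowers c ≤ B := Subgroup.zpowers_le_of_mem hcB'
      have h₀ : Coc B B₀ := by
        refine ⟨inf_le_left, c, hcB', le_antisymm (sup_le inf_le_left hzB) fun x hx => ?_⟩
        have hxM : x ∈ M := hAM (hB hx)
        have h2 := mem_bar (W := N) hxM hx
        have hbb : bar M N B ≤ CC(bar M N B) := (bar_le_CC_iff (hB.trans hAM) (hB.trans hAM)).2
          (by rw [comm_eq_bot.2 hBc]; exact bot_le)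
        rw [← hsup, mem_sup_of_NN' (((le_sup_right.trans hsup.le).trans
          (hbb.trans (CC_anti hB₁))).trans (CC_le_NN _))] at h2
        obtain ⟨u, hu, v, ⟨k, rfl⟩, huv⟩ := h2
        have h3 : x * (c ^ k)⁻¹ ∈ B₀ := by
          refine Subgroup.mem_inf.2 ⟨mul_mem hx (inv_mem (zpow_mem hcB' k)),
            (mem_unbar (mul_mem hxM (inv_mem (zpow_mem hcM k)))).2 ?_⟩
          have : u = QuotientGroup.mk (⟨x, hxM⟩ * ((⟨c, hcM⟩ : M) ^ k)⁻¹) := by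
            rw [QuotientGroup.mk_mul, QuotientGroup.mk_inv, QuotientGroup.mk_zpow, ← huv]
            simp
          rw [this] at hu
          exact hu
        have e : x = x * (c ^ k)⁻¹ * c ^ k := by group
        rw [e]
        exact mul_mem (Subgroup.mem_sup_left h3)
          (Subgroup.mem_sup_right (Subgroup.zpow_mem_zpowers c k))
      have hB₀A : B₀ ≤ A := inf_le_left.trans hB
      have hAn : A ≤ NN(Y ⊓ CC(B₀)) :=
        le_NN_inf hAY (le_NN_CC ((hA.trans (CC_anti hB₀A)).trans (CC_le_NN _)))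
      have hKY : ⁅Y ⊓ CC(B₀), A⁆ ≤ Y := (comm_le_left hAn).trans inf_le_left
      rw [← e1, ← bar_inf_CC (hB₀A.trans (hA.trans (CC_anti hB₀A))) hB₀M hYM (hB₀A.trans hAY)
        (cop hc hB₀A le_rfl), ← bar_commutator (inf_le_left.trans hYM) hAM]
      refine le_trans (le_inf inf_le_right (inf_le_left.trans inf_le_right)) ?_
      rw [← bar_inf_CC hBc (hB.trans hAM) (hKY.trans hYM) (hB.trans (right_le_NN_comm _ _))
        (cop hc hB hKY)]
      refine bar_mono (le_inf (le_trans ?_ (hL B₀ h₀)) (inf_le_inf_right _ hKY))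
      exact le_inf (inf_le_inf_right _ hKY) inf_le_left
  rw [← bar_inf_CC hBc (hB.trans hAM) hYM (hB.trans hAY) (cop hc hB le_rfl),
    bar_le_bar (inf_le_left.trans hYM) hL'M, inf_eq_right.2 (hN.trans hYM)] at h1
  refine le_trans (le_inf h1 inf_le_right) ?_
  rw [dedekind_left (inf_le_right.trans inf_le_right)
    ((inf_le_right.trans inf_le_left).trans hYN)]
  exact sup_le inf_le_left hNL

/-- Let A be an abelian 2-subgroup of the finite group G, B ≤ A, and Y a subgroup of odd order normalized by A with ⁅Y, A⁆ = Y. Then Y ∩ C_G(B) is generated by the subgroups Y ∩ C_G(B) ∩ ⁅Y ∩ C_G(B₀), A⁆, B₀ ranging over the subgroups of B with B / B₀ cyclic. -/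
theorem result {G : Type*} [Group G] [Finite G] (A B Y : Subgroup G) (hA2 : IsPGroup 2 ↥A) (hAc : IsMulCommutative ↥A) (hB : B ≤ A) (hYodd : Odd (Nat.card ↥Y)) (hAY : A ≤ Subgroup.normalizer (Y : Set G)) (hYA : ⁅Y, A⁆ = Y) : Y ⊓ Subgroup.centralizer (B : Set G) = ⨆ B₀ : {B₀ : Subgroup G // B₀ ≤ B ∧ ∀ [(B₀.subgroupOf B).Normal], IsCyclic (↥B ⧸ B₀.subgroupOf B)}, Y ⊓ Subgroup.centralizer (B : Set G) ⊓ ⁅Y ⊓ Subgroup.centralizer ((B₀ : Subgroup G) : Set G), A⁆ := by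
  have hA := isMulCommutative_iff_le_CC.1 hAc
  refine le_antisymm (main _ (Nat.lt_succ_self _) hA hB
    (coprime_card_of_isPGroup hA2 (Nat.coprime_two_right.2 hYodd)) hAY hYA
    (Cfsg.Agent.S0205.result hYodd) ?_) (iSup_le fun B₀ => inf_le_left)
  rintro B₀ ⟨h1, b, hb, hsup⟩
  refine le_iSup (fun B₀ : {B₀ : Subgroup G // B₀ ≤ B ∧ ∀ [(B₀.subgroupOf B).Normal],
    IsCyclic (↥B ⧸ B₀.subgroupOf B)} => Y ⊓ Subgroup.centralizer (B : Set G) ⊓
      ⁅Y ⊓ Subgroup.centralizer ((B₀ : Subgroup G) : Set G), A⁆) ⟨B₀, h1, ?_⟩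
  intro _
  refine ⟨QuotientGroup.mk ⟨b, hb⟩, fun x => ?_⟩
  obtain ⟨⟨y, hy⟩, rfl⟩ := QuotientGroup.mk_surjective x
  have hy' := hy
  rw [← hsup, mem_sup_of_NN' (((Subgroup.zpowers_le_of_mem hb).trans
    (hB.trans (hA.trans (CC_anti (h1.trans hB))))).trans (CC_le_NN _))] at hy'
  obtain ⟨u, hu, v, ⟨k, rfl⟩, huv⟩ := hy'
  refine ⟨k, ?_⟩
  have e : (⟨y, hy⟩ : B) = ⟨u, h1 hu⟩ * (⟨b, hb⟩ : B) ^ k := Subtype.ext (by simp [← huv])
  have e1 : (QuotientGroup.mk (⟨u, h1 hu⟩ : B) : B ⧸ B₀.subgroupOf B) = 1 :=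
    (QuotientGroup.eq_one_iff _).2 hu
  rw [e, QuotientGroup.mk_mul, e1, one_mul, QuotientGroup.mk_zpow]

end Cfsg.Agent.S1329
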