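import Cfsg.Statements.S1335
import Cfsg.Agent.H5.LBal

set_option autoImplicit false
open Cfsg

namespace Cfsg.Agent.S1335

/-- Let H be a subgroup of the finite group G, p a prime, k ≥ 1, P a Sylow p-subgroup of H of p-rank at least k, and suppose N_G(X) ≤ H for every subgroup X ≤ P of p-rank at least k. Then P is a Sylow p-subgroup of G. -/
theorem result {G : Type*} [Group G] [Finite G] {p : ℕ} [Fact p.Prime] (k : ℕ) (hk : 1 ≤ k) (H : Subgroup G) (P : Sylow p ↥H) (hP : ¬ Cfsg.PRankLE p (k - 1) ↥(P : Subgroup ↥H)) (hΓ : (∀ X : Subgroup G, X ≤ (P : Subgroup ↥H).map H.subtype → ¬ Cfsg.PRankLE p (k - 1) ↥X → Subgroup.normalizer (X : Set G) ≤ H)) : ∃ Q : Sylow p G, (Q : Subgroup G) = (P : Subgroup ↥H).map H.subtype := by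
  have h1 := H1.isPiHallOf_sylow P
  set T := (P : Subgroup ↥H).map H.subtype with hT
  have hTp : IsPGroup p T := H5.IsPiHallOf.isPGroup' h1
  obtain ⟨Q, hQ⟩ := hTp.exists_le_sylow
  refine ⟨Q, ?_⟩
  by_contra hne
  have h2 : ¬ Cfsg.PRankLE p (k - 1) T := by
    obtain ⟨A, h2, h3, h4⟩ := H5.not_pRankLE_iff.1 hP
    exact H5.not_pRankLE_iff.2 ⟨A.map H.subtype, Subgroup.map_mono h2, H5.elemAb_map _ h3, by
      rwa [H5.card_map_of_inj H.subtype_injective]⟩
  refine H5.not_normalizer_inf_le Q.isPGroup' hQ (Ne.symm hne) (le_of_eq ?_)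
  exact H1.IsPiHallOf.eq_of_le h1 (inf_le_left.trans (hΓ T le_rfl h2))
    (H1.isPiNat_card_singleton_iff.2 (Q.isPGroup'.to_le inf_le_right))
    (le_inf Subgroup.le_normalizer hQ)

end Cfsg.Agent.S1335
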