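import Cfsg.Statements.S1336
import Cfsg.Agent.H5.PRank

set_option autoImplicit false
open Cfsg

namespace Cfsg.Agent.S1336

/-- Let G be finite and p prime. Then G has a proper subgroup H with p ∣ |H| and p ∤ |H ∩ gHg⁻¹| for every g ∉ H (a strongly p-embedded subgroup) if and only if G is not 1-connected for p. -/
theorem result {G : Type*} [Group G] [Finite G] (p : ℕ) [Fact p.Prime] : (∃ H : Subgroup G, H ≠ ⊤ ∧ p ∣ Nat.card ↥H ∧ ∀ g : G, g ∉ H → ¬ p ∣ Nat.card ↥(H ⊓ H.map (MulAut.conj g).toMonoidHom)) ↔ ¬ Cfsg.IsKConnected p 1 G := by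
  have hp : p.Prime := Fact.out
  have hE : ∀ x : G, orderOf x = p → Cfsg.IsElementaryAbelian p (Subgroup.zpowers x) ∧
      p ^ 1 ≤ Nat.card (Subgroup.zpowers x) := fun x hx =>
    ⟨H5.elemAb_zpowers hx, by rw [Nat.card_zpowers, hx, pow_one]⟩
  have hex : ∀ E : Subgroup G, Cfsg.IsElementaryAbelian p E → p ^ 1 ≤ Nat.card E →
      ∃ x ∈ E, orderOf x = p := fun E h1 h2 => by
    obtain ⟨x, hx, x1⟩ := H5.exists_mem_ne_one (H5.ne_bot_of_card_eq_pow h2 le_rfl)
    exact ⟨x, hx, H5.orderOf_eq_of_elemAb h1 hx x1⟩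
  have hel : ∀ K : Subgroup G, p ∣ Nat.card K → ∃ x ∈ K, orderOf x = p := fun K hK => by
    obtain ⟨x, hx⟩ := exists_prime_orderOf_dvd_card' (G := K) p hK
    exact ⟨x, x.2, by rwa [Subgroup.orderOf_coe]⟩
  constructor
  · rintro ⟨H, h1, h2, h3⟩ hc
    obtain ⟨x, hxH, hx⟩ := hel H h2
    have h4 : ∀ y ∈ H, orderOf y = p → ∀ g : G, g * y = y * g → g ∈ H := fun y hy ho g hg => by
      by_contra hn
      refine h3 g hn (ho ▸ Subgroup.orderOf_dvd_natCard _ ⟨hy, ?_⟩)
      exact ⟨y, hy, by simp [hg]⟩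
    have h5 : ∀ A B : Subgroup G, Relation.ReflTransGen (H5.Adj p 1) A B → A ≤ H → B ≤ H := by
      intro A B h hA
      induction h with
      | refl => exact hA
      | tail _ h ih =>
        obtain ⟨y, hy, ho⟩ := hex _ h.1 h.2.1
        exact fun b hb => h4 y (ih hy) ho b (h.2.2.2.2 y hy b hb).symm
    obtain ⟨g, hg⟩ : ∃ g, g ∉ H := by
      by_contra hn
      exact h1 (eq_top_iff.2 fun g _ => by_contra fun h => hn ⟨g, h⟩)
    have ho : orderOf (g * x * g⁻¹) = p := by rw [← hx]; exact (MulAut.conj g).orderOf_eq x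
    have h6 := h5 _ _ (hc _ _ (hE x hx).1 (hE x hx).2 (hE _ ho).1 (hE _ ho).2)
      (Subgroup.zpowers_le.2 hxH) (Subgroup.mem_zpowers _)
    exact h3 g hg (ho ▸ Subgroup.orderOf_dvd_natCard _ ⟨h6, H5.conj_mem_cj hxH⟩)
  · intro hc
    unfold Cfsg.IsKConnected at hc
    push Not at hc
    obtain ⟨E, E', h1, h2, h3, h4, h5⟩ := hc
    change ¬ Relation.ReflTransGen (H5.Adj p 1) E E' at h5
    have hcj : ∀ (g : G) (A B : Subgroup G), Relation.ReflTransGen (H5.Adj p 1) A B →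
        Relation.ReflTransGen (H5.Adj p 1) (H5.cj g A) (H5.cj g B) := fun g A B h => by
      induction h with
      | refl => exact .refl
      | tail _ h ih =>
        refine ih.tail ⟨H5.elemAb_cj h.1 g, by rw [H5.card_cj]; exact h.2.1, H5.elemAb_cj h.2.2.1 g,
          by rw [H5.card_cj]; exact h.2.2.2.1, ?_⟩
        rintro _ ⟨a, ha, rfl⟩ _ ⟨b, hb, rfl⟩
        rw [← map_mul, h.2.2.2.2 a ha b hb, map_mul]
    -- elementary abelian subgroups inside one `p`-group are connected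
    have hP : ∀ P A B : Subgroup G, IsPGroup p P → A ≤ P → B ≤ P → Cfsg.IsElementaryAbelian p A →
        p ^ 1 ≤ Nat.card A → Cfsg.IsElementaryAbelian p B → p ^ 1 ≤ Nat.card B →
        Relation.ReflTransGen (H5.Adj p 1) A B := fun P A B hP hA hB a1 a2 b1 b2 => by
      obtain ⟨z, -, hz, ho⟩ := H5.exists_central_of_isPGroup hP hP Subgroup.le_normalizer
        fun e => H5.ne_bot_of_card_eq_pow a2 le_rfl (eq_bot_iff.2 (e ▸ hA))
      have h6 : Subgroup.zpowers z ≤ Subgroup.centralizer (P : Set G) := Subgroup.zpowers_le.2 hz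
      exact .head ⟨a1, a2, (hE z ho).1, (hE z ho).2, fun a ha b hb => h6 hb a (hA ha)⟩
        (.single ⟨(hE z ho).1, (hE z ho).2, b1, b2, fun a ha b hb => (h6 ha b (hB hb)).symm⟩)
    let H : Subgroup G :=
      { carrier := {g | Relation.ReflTransGen (H5.Adj p 1) E (H5.cj g E)}
        one_mem' := by simp only [Set.mem_ofPred_eq, H5.cj_one]; exact .refl
        mul_mem' := fun {a b} ha hb => by
          simp only [Set.mem_ofPred_eq, H5.cj_mul]; exact ha.trans (hcj a _ _ hb)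
        inv_mem' := fun {a} ha => by
          have := hcj a⁻¹ _ _ ha
          rw [H5.cj_inv_cj] at this
          exact H5.adj_conn_symm this }
    obtain ⟨S, hS⟩ := (H5.isPGroup_of_elemAb h1).exists_le_sylow
    have hSH : (S : Subgroup G) ≤ H := fun g hg =>
      hP S _ _ S.isPGroup' hS (H5.cj_le_of_le hS (Subgroup.le_normalizer hg)) h1 h2 (H5.elemAb_cj h1 g)
        (by rwa [H5.card_cj])
    -- every element of order `p` of `H` is connected to `E`
    have hH : ∀ y ∈ H, orderOf y = p → Relation.ReflTransGen (H5.Adj p 1) E (Subgroup.zpowers y) := by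
      intro y hy ho
      obtain ⟨m, hm, h6⟩ := H15.Cfsg.IsPiHallOf.exists_le_cj
        (H1.IsPiHallOf.of_le (H15.syl_top_sylow S) hSH le_top)
        (H1.isPiNat_card_singleton_iff.2 (H5.isPGroup_zpowers ho)) (Subgroup.zpowers_le.2 hy)
      exact Relation.ReflTransGen.trans hm (hP (H5.cj m S) _ _ (S.isPGroup'.map _) (H5.cj_mono hS) h6
        (H5.elemAb_cj h1 m) (by rwa [H5.card_cj]) (hE y ho).1 (hE y ho).2)
    refine ⟨H, fun e => h5 ?_, ?_, fun g hg hd => hg ?_⟩
    · obtain ⟨y, hy, ho⟩ := hex E' h3 h4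
      exact (hH y (e ▸ Subgroup.mem_top y) ho).trans (hP E' _ _ (H5.isPGroup_of_elemAb h3)
        (Subgroup.zpowers_le.2 hy) le_rfl (hE y ho).1 (hE y ho).2 h3 h4)
    · obtain ⟨y, hy, ho⟩ := hex E h1 h2
      exact ho ▸ Subgroup.orderOf_dvd_natCard _ (hSH (hS hy))
    · obtain ⟨_, ⟨hy, y, hy', rfl⟩, ho⟩ := hel _ hd
      have ho' : orderOf y = p := by rw [← ho]; exact ((MulAut.conj g).orderOf_eq y).symm
      have h6 := hcj g _ _ (hH y hy' ho')
      rw [H5.cj, H5.cj, MonoidHom.map_zpowers] at h6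
      exact (hH _ hy ho).trans (H5.adj_conn_symm h6)

end Cfsg.Agent.S1336
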