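import Cfsg.Statements.S1337
import Cfsg.Agent.H5.PRank

set_option autoImplicit false
open Cfsg

namespace Cfsg.Agent.S1337

/-- Let P be a finite p-group of p-rank greater than 2. Then P has a normal elementary abelian subgroup U of order p², and for every elementary abelian X ≤ P with |X| ≥ p²: X is joined to U by a chain of pairwise commuting elementary abelian subgroups of order ≥ p² if and only if C_P(X) has p-rank greater than 2. -/
theorem result {P : Type*} [Group P] [Finite P] (p : ℕ) [Fact p.Prime] (hP : IsPGroup p P) (hrk : ¬ Cfsg.PRankLE p 2 P) : ∃ U : Subgroup P, U.Normal ∧ Cfsg.IsElementaryAbelian p U ∧ Nat.card ↥U = p ^ 2 ∧ ∀ X : Subgroup P, Cfsg.IsElementaryAbelian p X → p ^ 2 ≤ Nat.card ↥X → (Relation.ReflTransGen (fun A B : Subgroup P => Cfsg.IsElementaryAbelian p A ∧ p ^ 2 ≤ Nat.card ↥A ∧ Cfsg.IsElementaryAbelian p B ∧ p ^ 2 ≤ Nat.card ↥B ∧ ∀ a ∈ A, ∀ b ∈ B, a * b = b * a) X U ↔ ¬ Cfsg.PRankLE p 2 ↥(Subgroup.centralizer (X : Set P))) := by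
  obtain ⟨U, h1, h2, h3⟩ := H5.exists_normal_rank_two' hP hrk
  have hn : (⊤ : Subgroup P) ≤ Subgroup.normalizer (U : Set P) := H5.normal_iff_top_le_normalizer.1 h1
  refine ⟨U, h1, h2, h3, fun X hX hX2 => ⟨fun h => ?_, fun h => ?_⟩⟩
  · induction h using Relation.ReflTransGen.head_induction_on with
    | refl => exact H5.rank_centralizer_of_normal hn h2 h3 (fun h => hrk (H9.prank_top.1 h))
    | @head A B h _ ih =>
      by_cases e : A = B
      · subst e; exact ih hX hX2
      · exact H5.rank_of_adj h e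
  · exact H5.conn_of_rank hn h2 h3 hX hX2 (by rwa [top_inf_eq])

end Cfsg.Agent.S1337
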