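import Cfsg.Statements.S1338
import Cfsg.Agent.H17.Kv

set_option autoImplicit false
open Cfsg

namespace Cfsg.Agent.S1338

open H17 Cfsg

open Subgroup H16 in
theorem ker3 {A : Type*} [CommGroup A] [Finite A] (f : A →* A) (h : ∀ a, f (f (f a)) = 1) :
    Nat.card A ≤ Nat.card f.ker ^ 3 := by
  have key : ∀ B : Subgroup A, Nat.card B ≤ Nat.card f.ker * Nat.card (B.map f) := by
    intro B
    have e := Subgroup.card_mul_index (f.comp B.subtype).ker
    rw [index_ker, MonoidHom.range_comp, range_subtype] at e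
    rw [← e]
    refine Nat.mul_le_mul_right _ ?_
    exact Nat.card_le_card_of_injective (fun x => (⟨x.1.1, x.2⟩ : f.ker))
      fun x y e => Subtype.ext (Subtype.ext (Subtype.mk.inj e))
  have h0 : (((⊤ : Subgroup A).map f).map f).map f = ⊥ := by
    rw [eq_bot_iff]
    rintro _ ⟨_, ⟨_, ⟨a, -, rfl⟩, rfl⟩, rfl⟩
    exact h a
  have h1 := key ⊤
  have h2 := key ((⊤ : Subgroup A).map f)
  have h3 := key (((⊤ : Subgroup A).map f).map f)
  rw [h0, card_bot, mul_one] at h3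
  rw [card_top] at h1
  calc _ ≤ _ := h1
    _ ≤ Nat.card f.ker * (Nat.card f.ker * Nat.card f.ker) :=
      Nat.mul_le_mul_left _ (h2.trans (Nat.mul_le_mul_left _ h3))
    _ = _ := by ring

open Subgroup H16 H17.Kv in
theorem cent9 {P : Type*} [Group P] [Finite P] {A : Subgroup P} [A.Normal]
    (hA : Cfsg.IsElementaryAbelian 3 A) (h4 : Nat.card A = 3 ^ 4) {x : P} (hx : x ^ 3 = 1) :
    3 ^ 2 ≤ Nat.card (A ⊓ C1[x] : Subgroup P) := by
  have := hA.1
  let _ : CommGroup A := { (inferInstance : Group A) with mul_comm := fun a b => this.is_comm.comm a b }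
  let s : A →* A := (MulAut.conjNormal x : MulAut A).toMonoidHom
  have s3 : ∀ a, s (s (s a)) = a := fun a => Subtype.ext (by
    show x * (x * (x * a * x⁻¹) * x⁻¹) * x⁻¹ = a
    calc _ = x ^ 3 * a * (x ^ 3)⁻¹ := by simp only [pow_succ, pow_zero]; group
      _ = _ := by rw [hx]; simp)
  have e3 : ∀ a : A, a ^ 3 = 1 := fun a => Subtype.ext (hA.2 a a.2)
  have k := ker3 (s / MonoidHom.id A) fun a => by
    simp only [MonoidHom.div_apply, MonoidHom.id_apply, map_div, s3]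
    calc _ = (s a) ^ 3 / (s (s a)) ^ 3 := by
          simp only [div_eq_mul_inv, mul_inv_rev, inv_inv, pow_succ, pow_zero, one_mul]
          simp only [mul_comm, mul_left_comm, mul_assoc, mul_inv_cancel_left, inv_mul_cancel_left]
      _ = 1 := by rw [e3, e3, div_one]
  have e : Nat.card (s / MonoidHom.id A).ker ≤ Nat.card (A ⊓ C1[x] : Subgroup P) := by
    refine Nat.card_le_card_of_injective (fun a => (⟨a.1.1, mem_inf.2 ⟨a.1.2, mem_cent1.2 ?_⟩⟩ : (A ⊓ C1[x] : Subgroup P)))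
      fun x y e => Subtype.ext (Subtype.ext (by simpa using e))
    have h1 : s a.1 = a.1 := div_eq_one.1 a.2
    have h2 : x * a.1.1 * x⁻¹ = a.1.1 := congrArg Subtype.val h1
    rw [← h2]; simp [h2, mul_assoc, mul_inv_eq_iff_eq_mul.1 h2]
  obtain ⟨j, -, hj⟩ := pg_card_cases Nat.prime_three h4 (inf_le_left : A ⊓ C1[x] ≤ A)
  rw [hj] at e ⊢
  rw [h4] at k
  refine Nat.pow_le_pow_right (by norm_num) ?_
  by_contra hc
  have := k.trans (Nat.pow_le_pow_left e 3)
  have : j = 0 ∨ j = 1 := by omega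
  rcases this with rfl | rfl <;> norm_num at this

/-- A finite 3-group of 3-rank at least 4 is 2-connected for the prime 3: its commuting graph on elementary abelian subgroups of order ≥ 9 is connected. -/
theorem result {P : Type*} [Group P] [Finite P] (hP : IsPGroup 3 P) (hrk : ¬ Cfsg.PRankLE 3 3 P) : Cfsg.IsKConnected 3 2 P := by
  open Subgroup H16 H17.Kv in
  have : Fact (Nat.Prime 3) := ⟨Nat.prime_three⟩
  obtain ⟨B, b1, b2, b3⟩ : ∃ B : Subgroup P, IsMulCommutative B ∧ (∀ a ∈ B, a ^ 3 = 1) ∧ 3 ^ 3 < Nat.card B := by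
    by_contra hc
    push Not at hc
    exact hrk hc
  obtain ⟨n, hn⟩ := H9.card_eq_pow hP B
  obtain ⟨E0, -, -, hE0, c0⟩ : ∃ K : Subgroup B, K.Normal ∧ ⊥ ≤ K ∧ K ≤ ⊤ ∧ Nat.card K = 3 ^ 4 := by
    refine H9.exists_normal_card_eq_pow (hP.to_subgroup B) bot_le (by simp) ?_
    rw [Subgroup.card_top, hn]
    rw [hn] at b3
    exact Nat.pow_le_pow_right (by norm_num) ((Nat.pow_lt_pow_iff_right (by norm_num)).1 b3)
  obtain ⟨A, hAn, hA, h4⟩ := H17.Kv.normal4 (p := 3) (by norm_num) hP (E := E0.map B.subtype)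
    ⟨⟨H16.comm_of_le b1 (Subgroup.map_subtype_le _), fun a ha => b2 a (Subgroup.map_subtype_le _ ha)⟩,
      by rw [Subgroup.card_map_of_injective B.subtype_injective, c0]⟩
  obtain ⟨z, zA, zc, z3⟩ := H9.exists_mem_center_orderOf_eq hP (M := A)
    (by rintro rfl; simp at h4)
  have a9 : 3 ^ 2 ≤ Nat.card A := by rw [h4]; norm_num
  have key : ∀ E : Subgroup P, Cfsg.IsElementaryAbelian 3 E → 3 ^ 2 ≤ Nat.card E →
      ∃ X Y : Subgroup P, Cfsg.IsElementaryAbelian 3 X ∧ 3 ^ 2 ≤ Nat.card X ∧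
        Cfsg.IsElementaryAbelian 3 Y ∧ 3 ^ 2 ≤ Nat.card Y ∧ (∀ a ∈ E, ∀ b ∈ X, a * b = b * a) ∧
        (∀ a ∈ X, ∀ b ∈ Y, a * b = b * a) ∧ (∀ a ∈ Y, ∀ b ∈ A, a * b = b * a) := by
    intro E hE h9
    have cz : Nat.card (Subgroup.zpowers z) = 3 := by rw [H16.card_zpowers, z3]
    have zz : ∀ w ∈ Subgroup.zpowers z, ∀ g : P, w * g = g * w := fun w hw g =>
      (Subgroup.mem_center_iff.1 (Subgroup.zpowers_le.2 zc hw) g).symm
    obtain ⟨x, hx, x1⟩ := H17.Kv.exists_not_mem (B := Subgroup.zpowers z) (W := E) (by omega)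
    obtain ⟨e1, c1⟩ := H17.Kv.step (p := 3) (B := Subgroup.zpowers z)
      ⟨H16.comm_of_le hA.1 (Subgroup.zpowers_le.2 zA), fun a ha => hA.2 a (Subgroup.zpowers_le.2 zA ha)⟩
      (H16.mem_cent.2 fun w hw => zz w hw x) x1 (hE.2 x hx)
    have cc : ∀ g : P, g * x = x * g → ∀ b ∈ Subgroup.zpowers z ⊔ Subgroup.zpowers x, b * g = g * b :=
      fun g hg => H16.mem_cent.1 (H17.Kv.cent_sup1 (H16.mem_cent.2 fun w hw => zz w hw g) (H16.mem_cent1.2 hg))
    refine ⟨_, A ⊓ Subgroup.centralizer {x}, e1, by omega, ⟨H16.comm_of_le hA.1 inf_le_left,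
      fun a ha => hA.2 a ha.1⟩, cent9 hA h4 (hE.2 x hx), fun a ha b hb => ?_, fun a ha b hb => ?_,
      fun a ha b hb => ?_⟩
    · exact (cc a (H16.mem_cent.1 (H16.comm_iff.1 hE.1 hx) a ha) b hb).symm
    · exact cc b (H16.mem_cent1.1 hb.2) a ha
    · exact H16.mem_cent.1 (H16.comm_iff.1 hA.1 hb) a ha.1
  intro E E' hE h9 hE' h9'
  obtain ⟨X, Y, x1, x2, y1, y2, r1, r2, r3⟩ := key E hE h9
  obtain ⟨X', Y', x1', x2', y1', y2', r1', r2', r3'⟩ := key E' hE' h9'
  refine .head ⟨hE, h9, x1, x2, r1⟩ (.head ⟨x1, x2, y1, y2, r2⟩ (.head ⟨y1, y2, hA, a9, r3⟩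
    (.head ⟨hA, a9, y1', y2', fun a ha b hb => (r3' b hb a ha).symm⟩
    (.head ⟨y1', y2', x1', x2', fun a ha b hb => (r2' b hb a ha).symm⟩
    (.single ⟨x1', x2', hE', h9', fun a ha b hb => (r1' b hb a ha).symm⟩)))))

end Cfsg.Agent.S1338
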