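import Cfsg.Statements.S1343
import Cfsg.Agent.H5.ExtLayer

set_option autoImplicit false
open Cfsg

namespace Cfsg.Agent.S1343

/-- Let X be finite. Then L*_{2'}(X) = L_{2'}(X) ⊔ F for some subgroup F of odd order normalized by a Sylow 2-subgroup of X. -/
theorem result {X : Type*} [Group X] [Finite X] : ∃ F : Subgroup X, Odd (Nat.card ↥F) ∧ (∃ S : Sylow 2 X, (S : Subgroup X) ≤ Subgroup.normalizer (F : Set X)) ∧ Cfsg.extendedTwoLayer X = Cfsg.pLayer 2 X ⊔ F := by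
  have : Fact (Nat.Prime 2) := ⟨Nat.prime_two⟩
  have := H5.pLayer_normal (G := X) (p := 2)
  obtain ⟨S⟩ : Nonempty (Sylow 2 X) := inferInstance
  have hS : Cfsg.IsPiHallOf {2} (S : Subgroup X) ⊤ :=
    H1.isPiHallOf_singleton_iff.2 ⟨le_top, S.isPGroup', by simpa using S.not_dvd_index⟩
  have hT := H1.IsPiHallOf.inf hS (N := Cfsg.pLayer 2 X ⊔ Cfsg.pPrimePCore 2 X) le_top
    (H5.le_normalizer_of_normal' _ _)
  refine ⟨Cfsg.oddCore X ⊔ H5.oppOf 2 (Subgroup.centralizer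
    ((S ⊓ (Cfsg.pLayer 2 X ⊔ Cfsg.pPrimePCore 2 X) : Subgroup X) : Set X)), ?_, ⟨S, ?_⟩, ?_⟩
  · rw [← Nat.coprime_two_right, sup_comm]
    exact H5.coprime_card_sup (H5.le_normalizer_of_normal' _ _) (H5.coprime_card_oppOf 2 _)
      (H1.coprime_card_pPrimeCore 2)
  · exact H5.le_normalizer_sup (H5.le_normalizer_of_normal' _ _) (H5.le_normalizer_oppOf 2
      (H5.le_normalizer_centralizer (H5.le_normalizer_inf Subgroup.le_normalizer
        (H5.le_normalizer_of_normal' _ _))))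
  · rw [H5.extendedTwoLayer_eq hT, sup_assoc]

end Cfsg.Agent.S1343
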