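import Cfsg.Statements.S1344
import Cfsg.Agent.H5.ExtLayer

set_option autoImplicit false
open Cfsg

namespace Cfsg.Agent.S1344

/-- Let K be a 2-component of the finite group X. Then K ≤ L*_{2'}(X) and K is normal in L*_{2'}(X). -/
theorem result {X : Type*} [Group X] [Finite X] (K : Subgroup X) (hK : Cfsg.IsPComponent 2 K) : K ≤ Cfsg.extendedTwoLayer X ∧ (K.subgroupOf (Cfsg.extendedTwoLayer X)).Normal := by
  have : Fact (Nat.Prime 2) := ⟨Nat.prime_two⟩
  have h := H5.isPComponent_iff.1 hK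
  obtain ⟨T, hT⟩ := H1.exists_sylowOf 2 (Cfsg.pLayer 2 X ⊔ Cfsg.pPrimePCore 2 X)
  have h1 : K ≤ Cfsg.extendedTwoLayer X := by
    rw [H5.extendedTwoLayer_eq hT, ← H5.plOf_top]
    exact h.le_plOf.trans (le_sup_left.trans le_sup_left)
  refine ⟨h1, (Subgroup.normal_subgroupOf_iff_le_normalizer h1).2 ?_⟩
  rw [H5.extendedTwoLayer_eq hT, ← H5.plOf_top]
  refine sup_le (sup_le h.plOf_le_normalizer ?_) ?_
  · rw [Cfsg.oddCore, ← H5.oppOf_top]; exact h.oppOf_le_normalizer
  · have := h.plOf_sup_oppOf_le_normalizer (H1.IsPiHallOf.isPGroup hT)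
      (H5.le_normalizer_of_normal' _ _)
    rw [top_inf_eq] at this
    exact le_sup_right.trans this

end Cfsg.Agent.S1344
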