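import Cfsg.Statements.S1347
import Cfsg.Agent.H5.Std

set_option autoImplicit false
open Cfsg

namespace Cfsg.Agent.S1347

/-- Let A be a standard subgroup of the finite group G with O(G) = 1, and t an involution of C_G(A). Then (i) A is normal in G; or (ii) there is a non-abelian simple subgroup X ≅ A with X and tXt⁻¹ commuting, meeting trivially and generating E(G), and C_G(A) = ⟨t⟩; or (iii) A ≤ E(G) and E(G) is non-abelian simple. -/
theorem result {G : Type*} [Group G] [Finite G] (A : Subgroup G) (hA : Cfsg.IsStandardSubgroup A) (hO : Cfsg.oddCore G = ⊥) (t : G) (ht : orderOf t = 2) (htA : t ∈ Subgroup.centralizer (A : Set G)) : A.Normal ∨ (∃ X : Subgroup G, IsSimpleGroup ↥X ∧ ¬ IsMulCommutative ↥X ∧ Nonempty (↥X ≃* ↥A) ∧ (∀ a ∈ X, ∀ b ∈ X.map (MulAut.conj t).toMonoidHom, a * b = b * a) ∧ X ⊓ X.map (MulAut.conj t).toMonoidHom = ⊥ ∧ X ⊔ X.map (MulAut.conj t).toMonoidHom = Cfsg.layer G ∧ Subgroup.centralizer (A : Set G) = Subgroup.zpowers t) ∨ (A ≤ Cfsg.layer G ∧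 IsSimpleGroup ↥(Cfsg.layer G) ∧ ¬ IsMulCommutative ↥(Cfsg.layer G)) := by
  have hO' : H5.oppOf 2 (⊤ : Subgroup G) = ⊥ := by rw [H5.oppOf_top]; exact hO
  have hc := H5.compOf_of_standard hA ht htA
  have t2 := H6.ord2_mul_self ht
  obtain ⟨D, hD, h⟩ := H5.comp_trichotomy ht (Subgroup.le_normalizer (Subgroup.mem_top t)) hc
    inf_le_right (hc.le_layerOf_top ht hO') hc.le
  have key : ∀ Y : Subgroup G, A ≤ Y → D ≤ Y → ¬ D ≤ Subgroup.normalizer (A : Set G) →
      ∀ s ∈ Subgroup.centralizer (Y : Set G), orderOf s ≠ 2 := fun Y h1 h2 h3 s hs s2 =>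
    h3 ((H5.le_centralizer₁_iff.2 (H5.centralizer_anti h2 hs)).trans
      (H5.centralizer_le_normalizer_of_standard hA s2 (H5.centralizer_anti h1 hs)))
  rcases h with rfl | ⟨h1, h2⟩ | ⟨h1, h2, h3⟩
  · left
    rw [H5.normal_iff_top_le_normalizer]
    intro g _
    by_contra hn
    have hne : H5.cj g A ≠ A := fun e => hn (H5.cj_eq_self_iff.1 e)
    exact hA.2.2.1 g hne (hD.commutator_eq_bot
      (hD.cj_of_mem (Subgroup.le_normalizer (Subgroup.mem_top g))) hne.symm)
  · right; right
    have hn : ¬ D ≤ Subgroup.normalizer (A : Set G) := fun hn => by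
      rcases H5.qs_normal hD.qs h1.le hn with e | e
      · exact h1.ne e
      · exact H5.qs_not_le_centralizer hA.1 (e.trans (H5.centralizer_anti h1.le))
    obtain ⟨e1, e2⟩ := H5.layerOf_eq_of_no_involution hO' hD hD
      (key _ (h1.le.trans le_sup_left) le_sup_left hn)
    rw [sup_idem] at e1 e2
    rw [← H5.layerOf_top, ← e1]
    exact ⟨h1.le, H5.isSimpleGroup_of_qs hD.qs (by rw [e2, inf_bot_eq])⟩
  · right; left
    have hD' := hD.cj_of_mem (Subgroup.le_normalizer (Subgroup.mem_top t))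
    have hn : ¬ D ≤ Subgroup.normalizer (A : Set G) := by
      rw [h3]; exact H5.not_le_normalizer_diag h2 t2 hD.qs
    obtain ⟨e1, e2⟩ := H5.layerOf_eq_of_no_involution hO' hD hD'
      (key _ (by rw [h3]; exact H5.diag_le_sup h2) le_sup_left hn)
    have hZ : D ⊓ Subgroup.centralizer (D : Set G) = ⊥ := by
      rw [eq_bot_iff, ← e2, H5.centralizer_sup]
      exact le_inf inf_le_right
        (inf_le_left.trans (Subgroup.commutator_eq_bot_iff_le_centralizer.1 h2))
    obtain ⟨hs, hnc⟩ := H5.isSimpleGroup_of_qs hD.qs hZ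
    refine ⟨D, hs, hnc, ?_, fun a ha b hb => ?_, ?_, by rw [← H5.layerOf_top]; exact e1, ?_⟩
    · rw [h3]
      refine ⟨MonoidHom.ofInjective ?_⟩
      rw [← MonoidHom.ker_eq_bot_iff, eq_bot_iff]
      refine (H5.diag_ker_le h2).trans ?_
      rw [← H5.map_center_subtype, Subgroup.map_eq_bot_iff_of_injective _ D.subtype_injective] at hZ
      exact hZ.le
    · exact (Subgroup.mem_centralizer_iff.1
        (Subgroup.commutator_eq_bot_iff_le_centralizer.1 h2 ha) b hb).symm
    · rw [eq_bot_iff, ← e2]; exact H5.inf_cj_le_centralizer h2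
    · refine le_antisymm (fun x hx => ?_) (by rwa [Subgroup.zpowers_le])
      rw [h3] at hx
      rcases H5.diag_cases h2 t2 hD (Subgroup.le_normalizer (Subgroup.mem_top t))
        (Subgroup.le_normalizer (Subgroup.mem_top x)) hx with e | e
      · rw [e2, Subgroup.mem_bot] at e
        rw [e]; exact one_mem _
      · rw [e2, Subgroup.mem_bot] at e
        rw [eq_inv_of_mul_eq_one_right e]; exact inv_mem (Subgroup.mem_zpowers t)

end Cfsg.Agent.S1347
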