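import Cfsg.Statements.S1348
import Cfsg.Agent.H4.Blk
import Cfsg.Agent.S1306

set_option autoImplicit false
open Cfsg

namespace Cfsg.Agent.S1348

open Matrix Subgroup H4.Blk

/-- Let F be a finite field of odd order, n ≥ 7 odd, and t ∈ SL(n, F) the diagonal matrix with entries −1, …, −1, 1. Then E(C(t)) is a standard subgroup of SL(n, F). -/
theorem result {F : Type*} [Field F] [Fintype F] [DecidableEq F] (hF : Odd (Fintype.card F)) (n : ℕ) (hn : 7 ≤ n) (hodd : Odd n) (t : Matrix.SpecialLinearGroup (Fin n) F) (ht : (t : Matrix (Fin n) (Fin n) F) = Matrix.diagonal (fun i : Fin n => if (i : ℕ) + 1 = n then (1 : F) else -1)) : Cfsg.IsStandardSubgroup ((Cfsg.layer ↥(Subgroup.centralizer ({t} : Set (Matrix.SpecialLinearGroup (Fin n) F)))).map (Subgroup.centralizer ({t} : Set (Matrix.SpecialLinearGroup (Fin n) F))).subtype) := by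
  classical
  obtain ⟨m, rfl⟩ : ∃ m, n = m + 1 := ⟨n - 1, by omega⟩
  have h2 := two_ne hF
  have ht' : t.1 = (2 : F) • E F m - 1 := by
    rw [← diag_eq]
    refine ht.trans (congrArg diagonal (funext fun i => if_congr (by simp [Fin.ext_iff]) rfl rfl))
  have hq : IsQuasisimple (K F m) := qs_K (by omega) (by omega)
  set C := centralizer ({t} : Set (SpecialLinearGroup (Fin (m + 1)) F)) with hC
  have hLC : K F m ≤ C := fun g hg => mem_centralizer_singleton_iff.2 (Subtype.ext (by
    show g.1 * t.1 = t.1 * g.1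
    rw [ht', mul_sub, sub_mul, mul_smul_comm, smul_mul_assoc, hg.1, hg.2, mul_one, one_mul]))
  have hn : ((K F m).subgroupOf C).Normal := ⟨by
    rintro g hg ⟨c, hc⟩
    have h1 : c * t = t * c := mem_centralizer_singleton_iff.1 hc
    have h3 : c.1 * t.1 = t.1 * c.1 := congrArg Subtype.val h1
    have h4 : c * c⁻¹ = 1 := mul_inv_cancel c
    exact conj_E (congrArg Subtype.val h4) (comm_E h2 (ht' ▸ h3)) hg⟩
  have hc : H5.CompOf (K F m) C := H5.compOf_iff.2 ⟨hLC, hn.isSubnormal, (H5.qs_subgroupOf_iff hLC).2 hq⟩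
  have hab : ∀ L : Subgroup (SpecialLinearGroup (Fin (m + 1)) F), IsQuasisimple L → ⁅K F m, L⁆ ≠ ⊥ := fun L hL h => by
    rw [commutator_comm, commutator_eq_bot_iff_le_centralizer] at h
    refine H5.qs_not_le_centralizer hL fun x hx y hy => Subtype.ext ?_
    obtain ⟨a, b, h1⟩ := cent_K (by omega) (h hx)
    obtain ⟨c, d, h3⟩ := cent_K (by omega) (h hy)
    show y.1 * x.1 = x.1 * y.1
    rw [h1, h3, diagonal_mul_diagonal, diagonal_mul_diagonal]
    simp only [mul_comm]
  have he : (layer C).map C.subtype = K F m :=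
    le_antisymm (H5.layerOf_le_iff.2 fun L hL => (hc.eq_of_commutator_ne_bot hL (hab L hL.qs)).ge) hc.le_layerOf
  have ht1 : t ≠ 1 := fun h => h2 (by
    have h0 : (0 : Fin (m + 1)) ≠ Fin.last m := by simp [Fin.ext_iff]; omega
    have := congrFun (congrFun ((diag_eq.trans ht'.symm).trans (congrArg Subtype.val h)) 0) 0
    simp [h0] at this
    linear_combination -this)
  have : Fact (Nat.Prime 2) := ⟨Nat.prime_two⟩
  have ht2 : orderOf t = 2 := orderOf_eq_prime (Subtype.ext (by
    show t.1 ^ 2 = 1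
    rw [ht', ← diag_eq, diagonal_pow, ← diagonal_one]
    congr 1
    ext i
    by_cases h : i = Fin.last m <;> simp [h])) ht1
  rw [he]
  refine Cfsg.Agent.S1306.result t ht2 _ hLC (H5.compOf_iff.1 hc).2 (fun y hy hyc => ?_)
    fun g _ => hab _ (H5.qs_cj hq g)
  obtain rfl : y = t := by
    obtain ⟨a, b, h1⟩ := cent_K (by omega) hyc
    have h0 : (0 : Fin (m + 1)) ≠ Fin.last m := by simp [Fin.ext_iff]; omega
    have h3 : y.1 * y.1 = 1 := congrArg Subtype.val (show y * y = 1 by rw [← sq, ← hy, pow_orderOf_eq_one])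
    have h4 := y.2
    rw [h1, diagonal_mul_diagonal] at h3
    have h5 : a * a = 1 := by simpa [h0] using congrFun (congrFun h3 0) 0
    obtain ⟨j, hj⟩ : Even m := by obtain ⟨j, hj⟩ := hodd; exact ⟨j, by omega⟩
    rw [h1, det_diagonal, Fin.prod_univ_castSucc] at h4
    simp only [Fin.castSucc_ne_last, if_false, if_true, Finset.prod_const, Finset.card_univ, Fintype.card_fin] at h4
    rw [hj, pow_add, ← mul_pow, h5, one_pow, one_mul] at h4
    subst h4
    rcases mul_self_eq_one_iff.1 h5 with rfl | rfl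
    · rw [show y = 1 from Subtype.ext (by simpa using h1), orderOf_one] at hy
      omega
    · exact Subtype.ext (h1.trans (diag_eq.trans ht'.symm))
  exact H5.compOf_iff.1 hc

end Cfsg.Agent.S1348
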