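import Cfsg.Statements.S1397
import Cfsg.Agent.H15.BG8
-- import your own Cfsg.Agent.* helpers here

set_option autoImplicit false
open Cfsg

open Subgroup H1 H15 H16

namespace Cfsg.Agent.S1397

/-- Let G be a minimal simple group of odd order, M a maximal subgroup, p a prime and A₀ an elementary abelian p-subgroup of F(M) of order at least p ^ 3 that is maximal among elementary abelian p-subgroups of F(M). (a) If F(M) is not a p-group, then F(M) ∩ C_G(A₀) lies in exactly one maximal subgroup of G. (b) If F(M) is a p-group and P is a Sylow p-subgroup of M, then p does not divide the index of P in G, and every normal self-centralizing subgroup A of P containing an elementary abelian subgroup of order p ^ 3 is contained in F(M) and lies in exactly one maximal subgroup of G. -/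
theorem result {G : Type*} [Group G] [Finite G] (hG : Cfsg.IsMinSimpleOddOrder G)
    (M : Subgroup G) (hM : IsCoatom M) (p : ℕ) [Fact p.Prime] (A₀ : Subgroup G)
    (hA₀ : A₀ ≤ Cfsg.fittingOf M) (hA₀e : Cfsg.IsElementaryAbelian p A₀) (hA₀3 : p ^ 3 ≤ Nat.card A₀)
    (hA₀max : ∀ B : Subgroup G, B ≤ Cfsg.fittingOf M → Cfsg.IsElementaryAbelian p B → A₀ ≤ B → B = A₀) :
    (¬ IsPGroup p ↥(Cfsg.fittingOf M) → Cfsg.InUniqueMaximal (Cfsg.fittingOf M ⊓ Subgroup.centralizer (A₀ : Set G))) ∧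
      (IsPGroup p ↥(Cfsg.fittingOf M) → ∀ P : Sylow p M,
        ¬ p ∣ ((P : Subgroup M).map M.subtype).index ∧
        ∀ A : Subgroup G, Cfsg.IsSCN ((P : Subgroup M).map M.subtype) A → ¬ Cfsg.PRankLE p 2 ↥A →
          A ≤ Cfsg.fittingOf M ∧ Cfsg.InUniqueMaximal A) := by
  haveI := Fact.mk hG
  have hp : p.Prime := Fact.out
  have h3 : ¬ Cfsg.PRankLE p 2 A₀ := fun h => absurd ((prk_iff.1 h A₀ le_rfl hA₀e).trans_lt
    (Nat.pow_lt_pow_right hp.one_lt (by norm_num : 2 < 3))) hA₀3.not_gt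
  refine ⟨fun h => ?_, fun h P => ?_⟩
  · have h1 : A₀ ≤ Cfsg.fittingOf M ⊓ 𝒞(A₀) := le_inf hA₀ (le_cent_self hA₀e.1)
    refine (bg8_1a hM (twoPr_of_not_isPi ((dvd_of_not_prk hp h3).trans (card_dvd hA₀)) hp
      fun h' => h h'.isPGroup) inf_le_left ((inf_le_inf_left _ (H15.cent_anti h1)))
      fun h' => h3 (prk_of_le (h' p hp) (le_inf h1 (H15.cent_comm inf_le_right)))).inU
  · obtain ⟨a, -, c⟩ := bg8_1b hM (H15.IsPGroup.isPi h) (syl_map_sylow P)
    exact ⟨by simpa using a.not_dvd_idx hp rfl, fun A h1 h2 => ⟨(c A h1 h2).1, (c A h1 h2).2.inU⟩⟩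

end Cfsg.Agent.S1397
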