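import Cfsg.Statements.S1405
import Cfsg.Agent.H16.S10
-- import your own Cfsg.Agent.* helpers here

set_option autoImplicit false
open Cfsg

namespace Cfsg.Agent.S1405

open H16 Cfsg Subgroup in
/-- Let G be a minimal simple group of odd order and M a maximal subgroup, α(M) the set of primes p with M of p-rank at least 3, and M_α = O_{α(M)}(M). Then M_α is a Hall α(M)-subgroup of M and of G, M_α ≤ M_σ, the quotient M/M_α has no elementary abelian subgroup of order p ^ 3 for any prime p, and the image of M' in M/M_α is nilpotent. -/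
theorem result {G : Type*} [Group G] [Finite G] (hG : Cfsg.IsMinSimpleOddOrder G)
    (M : Subgroup G) (hM : IsCoatom M) :
    Cfsg.IsPiHallOf (Cfsg.alpha M) (Cfsg.alphaCore M) M ∧ Cfsg.IsPiHall (Cfsg.alpha M) (Cfsg.alphaCore M) ∧
      Cfsg.alphaCore M ≤ Cfsg.sigmaCore M ∧ Cfsg.RankLE 2 (↥M ⧸ Cfsg.piCore (Cfsg.alpha M) ↥M) ∧
      Group.IsNilpotent ↥((commutator ↥M).map (QuotientGroup.mk' (Cfsg.piCore (Cfsg.alpha M) ↥M))) := by
  have := Fact.mk hG
  have hs := mmax_sol hM
  have hf := QuotientGroup.mk'_surjective (piCore (alpha M) M)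
  have hr : RankLE 2 (↥M ⧸ piCore (alpha M) ↥M) := fun p hp => by
    by_cases h : p ∈ alpha M
    · rw [← prk_top]
      refine prk_of_not_dvd hp ?_
      rw [card_top, ← index_eq_card, ← relIndex_map_subtype_top]
      exact fun hd => hl_idx (Ma_hall hM) p hp hd h
    · rw [← prk_top, ← map_top_of_surjective _ hf]
      refine prk_map_of_ker hp _ ?_ (prk_top.2 (prk_of_not_alpha hp h))
      rw [QuotientGroup.ker_mk']
      exact fun hd => h (H1.isPiNat_card_piCore _ p hp hd)
  refine ⟨Ma_hall hM, hl_top_iff.1 (Ma_hall_top hM), Ma_le_Ms hM, hr, ?_⟩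
  rw [_root_.commutator_def, map_commutator, map_top_of_surjective _ hf]
  exact (Cfsg.Agent.S1451.result (G := ↥M ⧸ piCore (alpha M) ↥M)
    ((mFT_odd M).of_dvd_nat (card_quotient_dvd_card _)) (Or.inl hr)).1

end Cfsg.Agent.S1405
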