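import Cfsg.Statements.S1407
import Cfsg.Agent.H16.S10
-- import your own Cfsg.Agent.* helpers here

set_option autoImplicit false
open Cfsg

namespace Cfsg.Agent.S1407

open H16 Cfsg Subgroup in
/-- Let G be a minimal simple group of odd order, M a maximal subgroup with M_α ≠ 1, p a prime dividing the order of M but not in σ(M), and P a Sylow p-subgroup of M. Then there is an element x of order p in the centre of P such that M_α ∩ C_G(x) has all Sylow subgroups cyclic and M is not the unique maximal subgroup of G containing C_G(x). -/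
theorem result {G : Type*} [Group G] [Finite G] (hG : Cfsg.IsMinSimpleOddOrder G)
    (M : Subgroup G) (hM : IsCoatom M) (hMα : Cfsg.alphaCore M ≠ ⊥) (p : ℕ) [Fact p.Prime] (hpM : p ∣ Nat.card M) (hp : p ∉ Cfsg.sigma M) (P : Sylow p M) :
    ∃ x : G, x ∈ ((Subgroup.center ↥(P : Subgroup M)).map (P : Subgroup M).subtype).map M.subtype ∧ orderOf x = p ∧
        IsZGroup ↥(Cfsg.alphaCore M ⊓ Subgroup.centralizer ({x} : Set G)) ∧
        ¬ (Subgroup.centralizer ({x} : Set G) ≤ M ∧ ∀ L : Subgroup G, IsCoatom L → Subgroup.centralizer ({x} : Set G) ≤ L → L = M) := by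
  have := Fact.mk hG
  have hp' : p.Prime := Fact.out
  have hP := sy_of_sylow P
  obtain ⟨X, h1, h2, h3, h4⟩ := cent1_sigma'_Zgroup hM hp' hp hP (sy_ne_bot hP hp' hpM)
  obtain ⟨x, rfl⟩ := exists_gen (cyclic_of_prime (h2 ▸ hp'))
  rw [cent_zpowers] at h3 h4
  refine ⟨x, ?_, (card_zpowers x).symm.trans h2, h4, fun h => h3 ⟨hM, h.1, h.2⟩⟩
  rw [H15.map_center_subtype, H15.map_inf_cent M.subtype_injective]
  exact h1 (mem_zpowers x)

end Cfsg.Agent.S1407
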