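import Cfsg.Statements.S1411
import Cfsg.Agent.H16.S10
-- import your own Cfsg.Agent.* helpers here

set_option autoImplicit false
open Cfsg

namespace Cfsg.Agent.S1411

open H16 Cfsg Subgroup H15 in
/-- Let G be a minimal simple group of odd order, p a prime, P a Sylow p-subgroup of G and V a complement to P in its normalizer N_G(P). Then P equals the commutator subgroup [P, V], and P is contained in the derived subgroup of N_G(P). -/
theorem result {G : Type*} [Group G] [Finite G] (hG : Cfsg.IsMinSimpleOddOrder G) (p : ℕ) [Fact p.Prime] (P : Sylow p G)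
    (V : Subgroup G) (hV : Cfsg.IsComplIn (P : Subgroup G) V (Subgroup.normalizer ((P : Subgroup G) : Set G))) :
    (P : Subgroup G) = ⁅(P : Subgroup G), V⁆ ∧
      (P : Subgroup G) ≤ ⁅Subgroup.normalizer ((P : Subgroup G) : Set G), Subgroup.normalizer ((P : Subgroup G) : Set G)⁆ := by
  have := Fact.mk hG
  have hP := sy_top_of_sylow P
  refine ⟨(mFT_Sylow_commg Fact.out hP ?_).symm, mFT_Sylow_der Fact.out hP⟩
  have h1 : (P : Subgroup G) ⊔ V = N[(P : Subgroup G)] :=
    le_antisymm (sup_le hV.1 hV.2.1) fun m hm => by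
      obtain ⟨a, ha, b, hb, rfl⟩ := hV.2.2.2 m hm
      exact mul_mem (mem_sup_left ha) (mem_sup_right hb)
  have h2 := card_sup_of_inf_bot (Or.inr hV.2.1) hV.2.2.1
  rw [h1] at h2
  exact (hl_of_le hP hV.1 le_top).compl_of_card hV.2.1 h2.symm

end Cfsg.Agent.S1411
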