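import Cfsg.Statements.S1414
import Cfsg.Agent.H16.S10
-- import your own Cfsg.Agent.* helpers here

set_option autoImplicit false
open Cfsg

namespace Cfsg.Agent.S1414

open H16 Cfsg Subgroup H15 in
/-- Let G be a minimal simple group of odd order, M a maximal subgroup, β(M) the set of ideal primes in α(M), and M_β = O_{β(M)}(M). Then M_β is a Hall β(M)-subgroup of M and of G; M' and M_σ each have a nilpotent Hall β(M)'-subgroup; and for each prime p dividing the order of M with p ∉ β(M), both M' and M_σ have normal p-complements and every prime dividing the index of O_{p'}(M) in M is at most p. -/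
theorem result {G : Type*} [Group G] [Finite G] (hG : Cfsg.IsMinSimpleOddOrder G)
    (M : Subgroup G) (hM : IsCoatom M) :
    Cfsg.IsPiHallOf (Cfsg.beta M) (Cfsg.piCoreOf (Cfsg.beta M) M) M ∧ Cfsg.IsPiHall (Cfsg.beta M) (Cfsg.piCoreOf (Cfsg.beta M) M) ∧
      (∃ H : Subgroup G, Cfsg.IsPiHallOf {q | q.Prime ∧ q ∉ Cfsg.beta M} H ⁅M, M⁆ ∧ Group.IsNilpotent H) ∧
      (∃ H : Subgroup G, Cfsg.IsPiHallOf {q | q.Prime ∧ q ∉ Cfsg.beta M} H (Cfsg.sigmaCore M) ∧ Group.IsNilpotent H) ∧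
      ∀ p : ℕ, p.Prime → p ∣ Nat.card M → p ∉ Cfsg.beta M →
        Cfsg.HasNormalPComplement p ↥⁅M, M⁆ ∧ Cfsg.HasNormalPComplement p ↥(Cfsg.sigmaCore M) ∧
        ∀ q : ℕ, q.Prime → q ∣ (Cfsg.pPrimeCore p ↥M).index → q ≤ p := by
  have := Fact.mk hG
  have key : ∀ K : Subgroup G, K ≤ ⁅M, M⁆ →
      ∃ H : Subgroup G, IsPiHallOf {q | q.Prime ∧ q ∉ beta M} H K ∧ Group.IsNilpotent H := by
    intro K hK
    obtain ⟨H, hH⟩ := hl_exists {q | q.Prime ∧ q ∉ beta M} (sub_sol hM (hK.trans (der_le M)))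
    exact ⟨H, hH, beta'_der_nil hM (hH.1.trans hK) ((hl_pi hH).mono fun _ h => h.2)⟩
  refine ⟨Mb_hall hM, hl_top_iff.1 (Mb_hall_top hM), key _ le_rfl, key _ (Ms_le_der hM),
    fun p hp _ h => ?_⟩
  obtain ⟨h1, h2, h3⟩ := beta_max_pdiv hM hp h
  have := Fact.mk hp
  refine ⟨(pnil_iff hp).2 h1, (pnil_iff hp).2 h2, fun q hq hd => h3 q hq ?_⟩
  rwa [← H15.pPrimeCore_map_subtype, relIndex_map_subtype_top]

end Cfsg.Agent.S1414
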