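import Cfsg.Statements.S1441
import Cfsg.Agent.H15.TB
-- import your own Cfsg.Agent.* helpers here

set_option autoImplicit false
open Cfsg

open Subgroup H1 H15 H16

namespace Cfsg.Agent.S1441

/-- Let G be a finite group, H a solvable subgroup and A a subgroup normalizing H. Suppose there is a chain H = H₀ ≥ H₁ ≥ ⋯ ≥ H_n = 1 of subgroups normal in H and normalized by A such that A acts trivially on each factor H_{i-1}/H_i (that is, [H_{i-1}, A] ≤ H_i). Then every prime dividing the index of C_A(H) in A divides the order of H. -/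
theorem result {G : Type*} [Group G] [Finite G] (H A : Subgroup G) (hH : Group.IsSolvable H) (hA : (A ≤ Subgroup.normalizer (H : Set G)))
    (n : ℕ) (c : Fin (n + 1) → Subgroup G) (hc0 : c 0 = H) (hcn : c (Fin.last n) = ⊥) (hanti : Antitone c)
    (hcN : ∀ i, H ≤ Subgroup.normalizer ((c i : Subgroup G) : Set G)) (hcA : ∀ i, A ≤ Subgroup.normalizer ((c i : Subgroup G) : Set G))
    (htriv : ∀ i : Fin n, ⁅c i.castSucc, A⁆ ≤ c i.succ) :
    ∀ p : ℕ, p.Prime → p ∣ (A ⊓ Subgroup.centralizer (H : Set G)).relIndex A → p ∣ Nat.card H := by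
  intro p hp hd
  by_contra hn
  have := Fact.mk hp
  obtain ⟨P, hP⟩ := exists_syl p A
  have key : ∀ i : Fin (n + 1), P ≤ 𝒞(c i) := by
    intro i
    induction i using Fin.reverseInduction with
    | last => rw [hcn, H15.cent_bot]; exact le_top
    | cast i ih =>
      exact le_centralizer_of_commutator_le ((commutator_mono le_rfl hP.le).trans (htriv i))
        (H15.cent_comm ih) (hP.isPi.coprime ((isPi_compl_of_not_dvd hn).of_le
          (hc0 ▸ hanti (Fin.zero_le _))))
  exact hP.idx_of_le (le_inf hP.le (hc0 ▸ key 0)) p hp hd rfl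

end Cfsg.Agent.S1441
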