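import Cfsg.Statements.S1454
import Cfsg.Agent.H9.Blackburn

set_option autoImplicit false
open Cfsg

namespace Cfsg.Agent.S1454

/-- Let G be a finite group, p an odd prime, R a narrow p-subgroup and A a solvable subgroup of odd order normalizing R with A ∩ C_G(R) = 1. Then [A, A] ≤ O_p(A) and the index of O_p(A) in A is coprime to p; if R has an elementary abelian subgroup of order p ^ 3 then the order of every element of A of order coprime to p divides p − 1; and if the order of A is a prime not dividing p(p − 1), then 2·#A divides p + 1, and if in addition [R, A] = R and R is non-abelian then #R = p ^ 3. -/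
theorem result {G : Type*} [Group G] [Finite G] (p : ℕ) [Fact p.Prime] (hp : p ≠ 2) (R A : Subgroup G) (hR : IsPGroup p R) (hRn : Cfsg.IsNarrow p R)
    (hA : (A ≤ Subgroup.normalizer (R : Set G))) (hAs : Group.IsSolvable A) (hAodd : Odd (Nat.card A)) (hfaith : A ⊓ Subgroup.centralizer (R : Set G) = ⊥) :
    (commutator ↥A ≤ Cfsg.pCore p ↥A ∧ ((Cfsg.pCore p ↥A).index).Coprime p) ∧
      (¬ Cfsg.PRankLE p 2 R → ∀ a ∈ A, (orderOf a).Coprime p → orderOf a ∣ p - 1) ∧
      ((Nat.card A).Prime → ¬ Nat.card A ∣ p * (p - 1) →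
        2 * Nat.card A ∣ p + 1 ∧ (⁅R, A⁆ = R → ¬ IsMulCommutative R → Nat.card R = p ^ 3)) := by
  have hone : ∀ a ∈ A, a ∈ Subgroup.centralizer (R : Set G) → a = 1 := fun a ha hC =>
    Subgroup.mem_bot.1 (hfaith ▸ (⟨ha, hC⟩ : a ∈ A ⊓ Subgroup.centralizer (R : Set G)))
  have h1 : commutator ↥A ≤ Cfsg.pCore p ↥A := by
    refine H1.le_pCore ?_
    have := H9.isPGroup_commutator_of_narrow hp hR hRn hA hAs hAodd hfaith
    rw [← H15.map_top_subtype A, ← Subgroup.map_commutator] at this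
    exact this.of_equiv (Subgroup.equivMapOfInjective _ _ A.subtype_injective).symm
  have h2 : ¬ Cfsg.PRankLE p 2 R → ∀ a ∈ A, (orderOf a).Coprime p → orderOf a ∣ p - 1 :=
    fun hr a ha hc => orderOf_dvd_of_pow_eq_one (hone _ (pow_mem ha _)
      (H9.pow_pred_mem_of_narrow hp hR hRn hr hc (hA ha)))
  refine ⟨⟨h1, H9.coprime_index_pCore_of_commutator_le h1⟩, h2, fun hq hnd => ?_⟩
  haveI := Fact.mk hq
  have hqp : Nat.card A ≠ p := fun h => hnd (h ▸ dvd_mul_right _ _)
  have hq1 : ¬ Nat.card A ∣ p - 1 := fun h => hnd (h.mul_left _)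
  have hcop : (Nat.card A).Coprime p := (Nat.coprime_primes hq Fact.out).2 hqp
  obtain ⟨a, ha⟩ := (Subgroup.isCyclic_iff_exists_zpowers_eq_top A).1
    (isCyclic_of_prime_card (p := Nat.card A) rfl)
  have haA : a ∈ A := ha ▸ Subgroup.mem_zpowers a
  have hoa : orderOf a = Nat.card A := by rw [← ha, Nat.card_zpowers]
  have ha1 : a ≠ 1 := by
    rintro rfl
    rw [orderOf_one] at hoa
    exact hq.one_lt.ne hoa
  refine ⟨(H9.two_mul_dvd_or hp hq (H9.ne_two_of_odd hAodd dvd_rfl)
    (H9.dvd_sq_sub_one_of_narrow hp hR hRn hq hqp (k := 1) (by rw [hoa, pow_one]) (hA haA)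
      fun hC => ha1 (hone a haA hC))).resolve_left fun h => hq1 ((dvd_mul_left _ _).trans h),
    fun hRA hnc => ?_⟩
  have hr : Cfsg.PRankLE p 2 R := by
    by_contra hr
    exact hq1 (hoa ▸ h2 hr a haA (hoa ▸ hcop))
  obtain ⟨-, h3 | ⟨k1, -, -, k4, k5, -⟩⟩ := H9.blackburn hp hR
    (by rintro rfl; exact hnc inferInstance) hr hA hcop hAodd hRA
  · exact absurd h3 hnc
  have hN := H4.normalizer_le_normalizer_omegaOne (n := p) R
  have h4 : A ≤ Subgroup.centralizer
      ((R ⊓ Subgroup.centralizer (Cfsg.omegaOne p R : Set G) : Subgroup G) : Set G) := by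
    rw [← ha, Subgroup.zpowers_le]
    refine H9.mem_of_pow_mem_of_coprime (H9.pow_pred_mem_of_isCyclic (hR.to_le inf_le_left) k4
      (hoa ▸ hcop) (H15.le_norm_inf hA (H15.le_norm_cent (hA.trans hN)) haA))
      (by rw [pow_orderOf_eq_one]; exact one_mem _) ?_
    rw [hoa]
    exact ((Nat.Prime.coprime_iff_not_dvd hq).2 hq1).symm
  rw [← k1]
  congr 2
  refine le_antisymm ?_ (H4.omegaOne_le R)
  calc R = ⁅Cfsg.omegaOne p R ⊔ (R ⊓ Subgroup.centralizer (Cfsg.omegaOne p R : Set G)), A⁆ := by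
        rw [k5, hRA]
    _ ≤ _ := H15.comm_sup_left_le (H15.comm_le_left (hA.trans hN))
      (by rw [H15.le_cent_iff_comm.1 (H15.cent_comm h4)]; exact bot_le) Subgroup.le_normalizer
      (inf_le_left.trans (Subgroup.le_normalizer.trans hN))

end Cfsg.Agent.S1454
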