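import Cfsg.Statements.S1456
import Cfsg.Agent.H9.NarrowAmb

set_option autoImplicit false
open Cfsg

namespace Cfsg.Agent.S1456

/-- Let G be a solvable group of odd order, p a prime, and E an elementary abelian p-subgroup of the Fitting subgroup F(G) such that F(G) ∩ C_G(E) has no elementary abelian subgroup of order q ^ 3 for any prime q. Then the derived subgroup of G is contained in F(G). -/
theorem result {G : Type*} [Group G] [Finite G] [Group.IsSolvable G] (hodd : Odd (Nat.card G)) (p : ℕ) [Fact p.Prime] (E : Subgroup G) (hE : E ≤ Cfsg.fittingSubgroup G) (hEe : Cfsg.IsElementaryAbelian p E)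
    (hr : Cfsg.RankLE 2 ↥(Cfsg.fittingSubgroup G ⊓ Subgroup.centralizer (E : Set G))) :
    commutator G ≤ Cfsg.fittingSubgroup G := by
  refine H9.commutator_le_fitting_of_ctrl hodd fun q hq => ?_
  haveI := Fact.mk hq
  by_cases h : q ∣ Nat.card G
  swap
  · rw [H9.pCore_eq_bot_of_not_dvd hq h]; exact H9.ctrl_bot 2
  have hq2 := H9.ne_two_of_odd hodd h
  have hEp : E ≤ Cfsg.pCore p G := H1.le_pCore_of_le_fitting (H9.isPGroup_of_elementary hEe) hE
  refine H9.ctrl_of_narrow hq2 _ (H1.isPGroup_pCore q) ?_
  by_cases hqp : q = p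
  · subst hqp
    exact H9.narrow_of_centralizer hq2 (H1.isPGroup_pCore q) hEp hEe
      (H9.prank_of_le (hr q hq) (inf_le_inf_right _ (H1.pCore_le_fitting q)))
  · refine Or.inl (H9.prank_of_le (hr q hq) (le_inf (H1.pCore_le_fitting q) ?_))
    exact (H1.pCore_le_pPrimeCore ((Nat.coprime_primes hq Fact.out).2 hqp)).trans
      ((H1.pPrimeCore_le_centralizer_pCore p).trans
        (Subgroup.centralizer_le (SetLike.coe_mono hEp)))

end Cfsg.Agent.S1456
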