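import Cfsg.Statements.S1458
import Cfsg.Agent.H4.ZJ
import Cfsg.Agent.H1.PSolv

set_option autoImplicit false
open Cfsg

namespace Cfsg.Agent.S1458

/-- Let G be a solvable group of odd order, p a prime and S a Sylow p-subgroup of G. Then the subgroup generated by the centre of the Thompson subgroup of S and O_{p'}(G) is normal in G. -/
theorem result {G : Type*} [Group G] [Finite G] [Group.IsSolvable G] (hodd : Odd (Nat.card G)) (p : ℕ) [Fact p.Prime] (S : Sylow p G) :
    (Cfsg.centerThompsonOf p (S : Subgroup G) ⊔ Cfsg.pPrimeCore p G).Normal := by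
  have hp : p.Prime := Fact.out
  set O := Cfsg.pPrimeCore p G with hO
  by_cases hp2 : p = 2
  · subst hp2
    have hS : (S : Subgroup G) = ⊥ := by
      obtain ⟨k, hk⟩ := S.isPGroup'.exists_card_eq
      rcases k with _ | k
      · exact Subgroup.card_eq_one.mp hk
      · have := (Dvd.intro_left _ (pow_succ 2 k).symm).trans
          (hk ▸ Subgroup.card_subgroup_dvd_card (S : Subgroup G))
        exact absurd (even_iff_two_dvd.mpr this) (Nat.not_even_iff_odd.mpr hodd)
    have : Cfsg.centerThompsonOf 2 (S : Subgroup G) = ⊥ :=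
      le_bot_iff.mp (hS ▸ H4.centerThompsonOf_le _)
    rw [this, bot_sup_eq]; infer_instance
  have hOc : (Nat.card O).Coprime p := H1.coprime_card_pPrimeCore p
  set f := QuotientGroup.mk' O with hf
  have hfs : Function.Surjective f := QuotientGroup.mk'_surjective O
  have hO' : Cfsg.pPrimeCore p (G ⧸ O) = ⊥ := H1.pPrimeCore_quotient_pPrimeCore p
  have hc := H1.IsPSolvable.centralizer_pCore_le
    (H1.isPSolvable_of_isSolvable p (G := G ⧸ O) inferInstance) hO'
  have hns : ¬ H4.IsSec (Matrix.SpecialLinearGroup (Fin 2) (ZMod p)) (⊤ : Subgroup (G ⧸ O)) := by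
    intro h
    have h1 := (h.of_surjective hfs).card_dvd
    rw [Subgroup.card_top] at h1
    have h2 : orderOf (-1 : Matrix.SpecialLinearGroup (Fin 2) (ZMod p)) = 2 := by
      refine orderOf_eq_prime (by simp) fun h => ?_
      have := congrArg (fun A : Matrix.SpecialLinearGroup (Fin 2) (ZMod p) => A.1 0 0) h
      simp only [Matrix.SpecialLinearGroup.coe_neg, Matrix.SpecialLinearGroup.coe_one,
        Matrix.neg_apply, Matrix.one_apply_eq] at this
      have _i : Fact (2 < p) := ⟨lt_of_le_of_ne hp.two_le (Ne.symm hp2)⟩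
      exact ZMod.neg_one_ne_one this
    have h3 := (h2 ▸ orderOf_dvd_natCard (-1 : Matrix.SpecialLinearGroup (Fin 2) (ZMod p))).trans h1
    exact absurd (even_iff_two_dvd.mpr h3) (Nat.not_even_iff_odd.mpr hodd)
  have hn := H4.centerThompsonOf_normal_of_not_isSec hp2 (Or.inr rfl) hc hns (S.mapSurjective hfs)
  have hk : (S : Subgroup G) ⊓ f.ker = ⊥ := by
    rw [hf, QuotientGroup.ker_mk']
    exact H1.inf_eq_bot_of_isPGroup_of_coprime S.isPGroup' hOc
  have he : Cfsg.centerThompsonOf p ((S.mapSurjective hfs : Sylow p (G ⧸ O)) : Subgroup (G ⧸ O))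
      = (Cfsg.centerThompsonOf p (S : Subgroup G)).map f := (H4.map_centerThompsonOf _ hk).symm
  rw [he] at hn
  have := hn.comap f
  rwa [Subgroup.comap_map_eq, hf, QuotientGroup.ker_mk'] at this

end Cfsg.Agent.S1458
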