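import Cfsg.Statements.S1462
import Cfsg.Agent.H15.TB
import Cfsg.Agent.H9.Rank

set_option autoImplicit false
open Cfsg

namespace Cfsg.Agent.S1462

/-- Let G be a finite solvable group, p an odd prime with G = O_{p',p,p'}(G), E an elementary abelian p-subgroup contained in no larger elementary abelian p-subgroup of G, and L a subgroup of order coprime to p normalized by E. Then L ≤ O_{p'}(G). -/
theorem result {G : Type*} [Group G] [Finite G] [Group.IsSolvable G] (p : ℕ) [Fact p.Prime] (hp : p ≠ 2) (hpl : Cfsg.PLengthLE p 1 G) (E L : Subgroup G) (hE : Cfsg.IsElementaryAbelian p E)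
    (hEmax : ∀ B : Subgroup G, Cfsg.IsElementaryAbelian p B → E ≤ B → B = E) (hL : (Nat.card L).Coprime p) (hEL : E ≤ Subgroup.normalizer (L : Set G)) :
    L ≤ Cfsg.pPrimeCore p G := by
  have hp' : p.Prime := Fact.out
  refine (H15.pcon_of_sol p inferInstance).le_core_of_tb_top hp (A := E)
    (H1.isPiSubgroup_iff.2 ((H1.isPiNat_compl_singleton_iff hp').2 hL))
    (H1.isPiSubgroup_iff.2 (H1.isPiNat_card_singleton_iff.2 fun g =>
      ⟨1, Subtype.ext (by simpa using hE.2 g g.2)⟩)) hEL fun x hx hxp => hEL ?_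
  rw [← hEmax (E ⊔ Subgroup.zpowers x) (H9.elementary_sup hE (H9.elementary_zpowers hxp) ?_)
    le_sup_left]
  · exact Subgroup.mem_sup_right (Subgroup.mem_zpowers x)
  · intro a ha b hb
    exact (Subgroup.zpowers_le_of_mem hx) hb a ha

end Cfsg.Agent.S1462
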