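import Cfsg.Statements.S1463
import Cfsg.Agent.H2.Rep26

set_option autoImplicit false
open scoped MatrixGroups
open Cfsg

namespace Cfsg.Agent.S1463

/-- Let F be a field of odd characteristic p and H a finite subgroup of odd order of GL(2, F) that leaves no 1-dimensional subspace of F² invariant. Then p does not divide the order of H. -/
theorem result {F : Type*} [Field F] (p : ℕ) [Fact p.Prime] [CharP F p] (hp : p ≠ 2)
    (H : Subgroup (GL (Fin 2) F)) [Finite H] (hodd : Odd (Nat.card H))
    (hirr : ∀ v : Fin 2 → F, v ≠ 0 → ∃ g ∈ H, (g : Matrix (Fin 2) (Fin 2) F).mulVec v ∉ Submodule.span F {v}) :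
    ¬ p ∣ Nat.card H := by
  intro hd
  let ρ : H →* Module.End F (Fin 2 → F) :=
    (Matrix.toLinAlgEquiv' (R := F) (n := Fin 2)).toMonoidHom.comp ((Units.coeHom _).comp H.subtype)
  have hρ : Function.Injective ρ := (Matrix.toLinAlgEquiv' (R := F) (n := Fin 2)).injective.comp
    (Units.val_injective.comp H.subtype_injective)
  obtain ⟨v, hv, h⟩ := H2.eigen_of_dvd_card p (by simp) ρ hρ hodd hd
  obtain ⟨g, hg, h'⟩ := hirr v hv
  exact h' (h ⟨g, hg⟩)

end Cfsg.Agent.S1463
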