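import Cfsg.Statements.S1466
import Cfsg.Agent.H15.Puig
-- import your own Cfsg.Agent.* helpers here

set_option autoImplicit false
open Cfsg

open Subgroup H1 H15 H16

namespace Cfsg.Agent.S1466

/-- Let p be a prime and R a nontrivial finite p-group. Then for every i > 0, Z(R) ≤ C_R(L_i(R)) ≤ L_i(R); likewise Z(R) ≤ C_R(L_*(R)) ≤ L_*(R) and Z(R) ≤ C_R(L(R)) ≤ L(R); and L(R) ≠ 1, L_*(R) ≠ 1. -/
theorem result {R : Type*} [Group R] [Finite R] (p : ℕ) [Fact p.Prime] (hR : IsPGroup p R) [Nontrivial R] :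
    (∀ i : ℕ, 0 < i → Subgroup.center R ≤ Subgroup.centralizer ((Cfsg.puigSeq R i : Subgroup R) : Set R) ∧
        Subgroup.centralizer ((Cfsg.puigSeq R i : Subgroup R) : Set R) ≤ Cfsg.puigSeq R i) ∧
      (Subgroup.center R ≤ Subgroup.centralizer ((Cfsg.puigLower R : Subgroup R) : Set R) ∧ Subgroup.centralizer ((Cfsg.puigLower R : Subgroup R) : Set R) ≤ Cfsg.puigLower R) ∧
      (Subgroup.center R ≤ Subgroup.centralizer ((Cfsg.puigSubgroup R : Subgroup R) : Set R) ∧ Subgroup.centralizer ((Cfsg.puigSubgroup R : Subgroup R) : Set R) ≤ Cfsg.puigSubgroup R) ∧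
      Cfsg.puigSubgroup R ≠ ⊥ ∧ Cfsg.puigLower R ≠ ⊥ := by
  have hS : Cfsg.IsPiSubgroup {p} (⊤ : Subgroup R) := H15.IsPGroup.isPi (hR.to_subgroup ⊤)
  have h1 := inf_cent_PL_le hS
  have h2 := inf_cent_PLs_le hS
  rw [top_inf_eq, PL_top] at h1
  rw [top_inf_eq, PLs_top] at h2
  have h3 : ∀ X : Subgroup R, Subgroup.centralizer (X : Set R) ≤ X → X ≠ ⊥ := fun X hX h => by
    rw [h, H15.cent_bot] at hX
    exact top_ne_bot (le_bot_iff.1 hX)
  refine ⟨fun i hi => ⟨center_le_centralizer _, ?_⟩, ⟨center_le_centralizer _, h2⟩,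
    ⟨center_le_centralizer _, h1⟩, h3 _ h1, h3 _ h2⟩
  obtain ⟨i, rfl⟩ := Nat.exists_eq_succ_of_ne_zero hi.ne'
  have h4 := inf_cent_pstep_le hS (le_top (a := pseq (⊤ : Subgroup R) i))
  rwa [top_inf_eq, ← pseq_succ, pseq_top] at h4

end Cfsg.Agent.S1466
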