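import Cfsg.Statements.S1470
import Cfsg.Agent.H9.AppC1

set_option autoImplicit false
open Cfsg

namespace Cfsg.Agent.S1470

/-- Let p and q be odd primes with (p^q − 1)/(p − 1) coprime to p − 1, and let E be the set of elements a of the field with p ^ q elements whose norm to the prime field is 1 and for which 2 − a also has norm 1. If a⁻¹ ∈ E for every a ∈ E and E has at least two elements, then p ≤ q. -/
theorem result (p q : ℕ) [Fact p.Prime] [Fact q.Prime] (hp : p ≠ 2) (hq : q ≠ 2) (hA : Nat.Coprime ((p ^ q - 1) / (p - 1)) (p - 1))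
    (hinv : ∀ a ∈ {a : GaloisField p q | Algebra.norm (ZMod p) a = 1 ∧ Algebra.norm (ZMod p) (2 - a) = 1}, a⁻¹ ∈ {a : GaloisField p q | Algebra.norm (ZMod p) a = 1 ∧ Algebra.norm (ZMod p) (2 - a) = 1})
    (h2 : 2 ≤ Set.ncard {a : GaloisField p q | Algebra.norm (ZMod p) a = 1 ∧ Algebra.norm (ZMod p) (2 - a) = 1}) :
    p ≤ q := by
  have hq0 := (Fact.out : q.Prime).ne_zero
  have e : ∀ x : GaloisField p q, Algebra.norm (ZMod p) x = 1 ↔ x ^ ((p ^ q - 1) / (p - 1)) = 1 :=
    fun x => by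
      have h := FiniteField.algebraMap_norm_eq_pow (K := ZMod p) (x := x)
      rw [GaloisField.card p q hq0, Nat.card_zmod] at h
      rw [← h, map_eq_one_iff _ (algebraMap (ZMod p) (GaloisField p q)).injective]
  simp only [Set.mem_setOf_eq, e] at hinv h2
  obtain ⟨a, ha, h1⟩ := Set.exists_ne_of_one_lt_ncard h2 1
  exact H9.appC1 hq0 (fun a h3 h4 => (hinv a ⟨h3, h4⟩).2) h1 ha.1 ha.2

end Cfsg.Agent.S1470
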