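import Cfsg.Statements.S1471
import Cfsg.Agent.H9.AppC1

set_option autoImplicit false
open Cfsg

namespace Cfsg.Agent.S1471

/-- Let p and q be odd primes with (p^q − 1)/(p − 1) coprime to p − 1. Then there are at least two elements a of the field with p ^ q elements such that both a and 2 − a have norm 1 to the prime field. -/
theorem result (p q : ℕ) [Fact p.Prime] [Fact q.Prime] (hp : p ≠ 2) (hq : q ≠ 2) (hA : Nat.Coprime ((p ^ q - 1) / (p - 1)) (p - 1)) :
    2 ≤ Set.ncard {a : GaloisField p q | Algebra.norm (ZMod p) a = 1 ∧ Algebra.norm (ZMod p) (2 - a) = 1} := by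
  have hq0 := (Fact.out : q.Prime).ne_zero
  have e : ∀ x : GaloisField p q, Algebra.norm (ZMod p) x = 1 ↔ x ^ ((p ^ q - 1) / (p - 1)) = 1 :=
    fun x => by
      have h := FiniteField.algebraMap_norm_eq_pow (K := ZMod p) (x := x)
      rw [GaloisField.card p q hq0, Nat.card_zmod] at h
      rw [← h, map_eq_one_iff _ (algebraMap (ZMod p) (GaloisField p q)).injective]
  simp only [e]
  letI := Fintype.ofFinite (GaloisField p q)
  obtain ⟨a, h1, h2, h3⟩ := H9.appC2 (F := GaloisField p q) Fact.out hp hq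
    (by rw [← Nat.card_eq_fintype_card, GaloisField.card p q hq0])
  exact (Set.one_lt_ncard (Set.toFinite _)).2 ⟨a, ⟨h2, h3⟩, 1, ⟨one_pow _, by norm_num⟩, h1⟩

end Cfsg.Agent.S1471
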