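import Cfsg.Statements.S1480
import Cfsg.Agent.H15.Trans
-- import your own Cfsg.Agent.* helpers here

set_option autoImplicit false
open Cfsg

open Subgroup H1 H15 H16

namespace Cfsg.Agent.S1480

/-- Let G be a finite group and p a prime such that the normalizer of every nontrivial p-subgroup of G is p-constrained; if p = 2 assume also that the Sylow 2-subgroups of G have nilpotency class at most 2. Let E be an abelian p-subgroup containing an elementary abelian subgroup of order p ^ 3 and containing every element of p-power order of C_G(E). Then for every prime q ≠ p, any two maximal E-invariant q-subgroups of G are conjugate by an element of O_{p'}(C_G(E)). -/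
theorem result {G : Type*} [Group G] [Finite G] (p : ℕ) [Fact p.Prime]
    (hloc : ∀ T : Subgroup G, IsPGroup p T → T ≠ ⊥ → Cfsg.IsPConstrained p ↥(Subgroup.normalizer (T : Set G)))
    (h2 : p = 2 → ∀ S : Sylow p G, Group.IsNilpotent (S : Subgroup G) ∧ Group.nilpotencyClass (S : Subgroup G) ≤ 2)
    (E : Subgroup G) (hEp : IsPGroup p E) (hEc : IsMulCommutative E) (hE3 : ¬ Cfsg.PRankLE p 2 E)
    (hEfull : ∀ x ∈ Subgroup.centralizer (E : Set G), IsPGroup p (Subgroup.zpowers x) → x ∈ E)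
    (q : ℕ) [Fact q.Prime] (hqp : q ≠ p) :
    ∀ Q₁ ∈ Cfsg.maxInvSubgroups ⊤ E {q}, ∀ Q₂ ∈ Cfsg.maxInvSubgroups ⊤ E {q},
        ∃ k ∈ Cfsg.piCoreOf (Cfsg.primesNotDvd p) (Subgroup.centralizer (E : Set G)), Q₂ = Q₁.map (MulAut.conj k).toMonoidHom := by
  rw [piCoreOf_primesNotDvd_prime Fact.out, ← trans_iff]
  have hE := H15.IsPGroup.isPi hEp
  refine trans_of_locals hqp hE hEc hE3 fun T hT hT1 Y h1 hY h3 => ?_
  have hc := pcon_of_isPConstrained (hloc T (hE.of_le hT).isPGroup hT1)
  have hET : E ≤ 𝒩(T) := comm_norm hEc le_rfl hT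
  have key : ∀ x ∈ 𝒩(T), x ∈ 𝒞(E) → ∀ k, x ^ p ^ k = 1 → x ∈ 𝒩(Y) := fun x _ hx k hk =>
    hY (hEfull x hx (isPi_zpowers.2 ((isPiNat_singleton_iff Fact.out
      (pow_ne_zero k (Fact.out : p.Prime).ne_zero)).2 ⟨k, rfl⟩ |>.of_dvd
        (orderOf_dvd_of_pow_eq_one hk))).isPGroup)
  by_cases hp2 : p = 2
  · obtain ⟨S, hS, hES⟩ := exists_syl_ge hE hET
    obtain ⟨S', hS', hSS⟩ := exists_syl_ge hS.isPi le_top
    obtain ⟨S', rfl⟩ := hS'.exists_sylow_top
    obtain ⟨hn, h4⟩ := h2 hp2 S'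
    rw [← Subgroup.lowerCentralSeries_eq_bot_iff_nilpotencyClass_le] at h4
    have h5 : ⁅⁅(S' : Subgroup G), (S' : Subgroup G)⁆, (S' : Subgroup G)⁆ = ⊥ := by
      have := congrArg (Subgroup.map (S' : Subgroup G).subtype) h4
      rwa [top_subtype_lowerCentralSeries, Subgroup.map_bot] at this
    exact hc.le_core_of_class_two hS ((commutator_mono hSS hSS).trans
      ((le_cent_iff_comm.2 h5).trans (H15.cent_anti hSS))) h1 h3 hES hY key
  · exact hc.le_core_of_tb hp2 h1 hE h3 hET hY fun x a b c => key x a b 1 (by rwa [pow_one])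

end Cfsg.Agent.S1480
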