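import Cfsg.Statements.S1481
import Cfsg.Agent.H15.BG8
-- import your own Cfsg.Agent.* helpers here

set_option autoImplicit false
open Cfsg

open Subgroup H1 H15 H16

namespace Cfsg.Agent.S1481

/-- Let G be a finite group and H a local subgroup (the normalizer of a nontrivial subgroup of prime-power order) not properly contained in any local subgroup; let F = F(H), suppose at least two primes divide #F, put X = H ∩ C_G(F), let M ≤ F with F ∩ C_G(M) ≤ M, and let R be a solvable subgroup normalized by M and by X. Then for every prime q not dividing #F there is exactly one maximal M-invariant q-subgroup of R, and it is a Sylow q-subgroup of the largest normal subgroup of R of order coprime to #F. -/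
theorem result {G : Type*} [Group G] [Finite G] (H : Subgroup G) (hH : Cfsg.IsLocalSubgroup H) (hHmax : ∀ L : Subgroup G, Cfsg.IsLocalSubgroup L → H ≤ L → L = H)
    (hF2 : 2 ≤ (Nat.card (Cfsg.fittingOf H)).primeFactors.card)
    (M : Subgroup G) (hM : M ≤ Cfsg.fittingOf H) (hCM : Cfsg.fittingOf H ⊓ Subgroup.centralizer (M : Set G) ≤ M)
    (R : Subgroup G) (hR : Group.IsSolvable R) (hMR : M ≤ Subgroup.normalizer (R : Set G))
    (hXR : H ⊓ Subgroup.centralizer (Cfsg.fittingOf H : Set G) ≤ Subgroup.normalizer (R : Set G))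
    (q : ℕ) [Fact q.Prime] (hq : ¬ q ∣ Nat.card (Cfsg.fittingOf H)) :
    ∃! Q : Subgroup G, Q ∈ Cfsg.maxInvSubgroups R M {q} ∧
      (∀ Q' : Subgroup G, Q' ∈ Cfsg.maxInvSubgroups R M {q} →
        Q' ≤ Cfsg.piCoreOf (Cfsg.primesNotDvd (Nat.card (Cfsg.fittingOf H))) R ∧
        ¬ q ∣ Q'.relIndex (Cfsg.piCoreOf (Cfsg.primesNotDvd (Nat.card (Cfsg.fittingOf H))) R)) := by
  have h : LocMax H := fun r hr T h1 h2 h3 =>
    haveI := Fact.mk hr
    (hHmax _ ⟨r, T, hr, h1.isPGroup, h2, rfl⟩ h3).le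
  have hMs : Group.IsSolvable M := sol_of_nil (nil_of_le (nilpotent_fittingOf H) hM)
  have hW : Group.IsSolvable (M ⊔ R : Subgroup G) := isSolvable_sup hMs hR hMR
  have hX : R ⊓ (H ⊓ 𝒞(Cfsg.fittingOf H)) ≤ Cfsg.fittingOf H := by
    have a := fittingOf_le_of_normal (inf_le_right (a := R)) (le_norm_inf hXR (le_norm_self _))
    have b := fittingOf_le_of_normal (inf_le_left (a := H) (b := 𝒞(Cfsg.fittingOf H)))
      (le_norm_inf (le_norm_self _) (le_norm_cent (le_norm_fittingOf_self H)))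
    exact (le_fittingOf_of_le_cent (sol_of_le hR inf_le_left) le_rfl ((inf_le_right.trans
      inf_le_right).trans (H15.cent_anti (a.trans b)))).trans (a.trans b)
  obtain ⟨K, hK⟩ : ∃ K, K = Cfsg.piCoreOf (Cfsg.primesNotDvd (Nat.card (Cfsg.fittingOf H))) R :=
    ⟨_, rfl⟩
  rw [← hK]
  have kR : K ≤ R := hK ▸ piCoreOf_le _ _
  have kP : Cfsg.IsPiSubgroup (Cfsg.primesNotDvd (Nat.card (Cfsg.fittingOf H))) K :=
    hK ▸ isPi_piCoreOf _ _
  have key : ∀ Y, Y ≤ R → Cfsg.IsPiSubgroup (Cfsg.primesNotDvd (Nat.card (Cfsg.fittingOf H))) Y →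
      M ≤ 𝒩(Y) → Y ⊓ 𝒞(M) = ⊥ ∧ Y ≤ K := fun Y h1 h2 h3 => by
    obtain ⟨a, b⟩ := h.le_core (twoPr_of_card hF2) hM hCM hW le_sup_left (h1.trans le_sup_right)
      (isPi_primesNotDvd_iff.1 h2) h3 ((inf_le_inf_right _ h1).trans hX)
    rw [← piCoreOf_primesNotDvd] at b
    exact ⟨a, hK ▸ le_piCoreOf_of_le le_sup_right b h1⟩
  have nK : M ≤ 𝒩(K) := hK ▸ le_norm_piCoreOf _ hMR
  have cK : (Nat.card M).Coprime (Nat.card K) :=
    ((isPi_primesNotDvd_iff.1 kP).symm).coprime_dvd_left (card_dvd hM)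
  have k0 := (key K kR kP nK).1
  have sy : ∀ Q ∈ Cfsg.maxInvSubgroups R M {q}, Syl(q, Q, K) := fun Q hQ => by
    obtain ⟨⟨a, b, c⟩, d⟩ := mem_maxInv.1 hQ
    obtain ⟨P, p1, p2, p3⟩ := sy_inv_ge nK cK (Or.inl hMs) (key Q a (isPi_notDvd b hq) c).2 b c
    rwa [← d P (p1.le.trans kR) p1.isPi p3 p2]
  obtain ⟨Q, -, ⟨a, b, c⟩, d⟩ := exists_max_of (C := fun Q => Q ≤ R ∧ Cfsg.IsPiSubgroup {q} Q ∧
    M ≤ 𝒩(Q)) ⟨bot_le, isPi_bot _, le_top.trans H15.norm_bot.ge⟩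
  have hQ : Q ∈ Cfsg.maxInvSubgroups R M {q} :=
    mem_maxInv.2 ⟨⟨a, b, c⟩, fun S s1 s2 s3 s4 => d S ⟨s1, s2, s3⟩ s4⟩
  refine ⟨Q, ⟨hQ, fun Q' h' => ⟨(sy Q' h').le, (sy Q' h').not_dvd_idx Fact.out rfl⟩⟩,
    fun Q' h' => ?_⟩
  obtain ⟨g, hg, e⟩ := sy_inv_conj nK cK (Or.inl hMs) (sy Q hQ) (sy Q' h'.1) c (maxInv_norm h'.1)
  rw [← e, eq_one_of_mem_bot k0 hg, H16.cj_one]

end Cfsg.Agent.S1481
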