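import Cfsg.Statements.S1485
import Cfsg.Agent.H21.Br

set_option autoImplicit false
open Cfsg

open H17 Cfsg H15 CF H21

namespace Cfsg.Agent.S1485

/-- Let H be a normal subgroup of the finite group G and θ an irreducible character of H. On H, the function induced from θ equals r times the sum of the distinct G-conjugates of θ, where r is the number of elements of G fixing θ under conjugation divided by the order of H (the index of H in the inertia group). -/
theorem result {G : Type*} [Group G] [Fintype G] (H : Subgroup G) [hN : H.Normal] (θ : H → ℂ) (hθ : Cfsg.IsIrrCharacter H θ) : (fun h : H => Cfsg.indFun H θ h) = ((Nat.card {g : G // ∀ h : H, θ ⟨g * h * g⁻¹, hN.conj_mem h h.2 g⟩ = θ h} : ℂ) / (Nat.card H : ℂ)) • ∑ᶠ ψ ∈ {ψ : H → ℂ | ∃ g : G, ψ = fun h : H => θ ⟨g * h * g⁻¹, hN.conj_mem h h.2 g⟩}, ψ := by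
  classical
  have hi := ext0_mem_Irr.2 hθ
  have e := Ind_normal_eq_sum_orb (K := ⊤) (irr_cf hi) le_top
  rw [Ind_top_ext0, top_inf_eq] at e
  have hc : (H.relIndex (stab (extendByZero H θ)) : ℂ) =
      (Nat.card {g : G // ∀ h : H, θ ⟨g * h * g⁻¹, hN.conj_mem h h.2 g⟩ = θ h} : ℂ) /
        (Nat.card H : ℂ) := by
    rw [relIndex_cast (le_stab (irr_cf hi)), div_eq_inv_mul]
    congr 2
    exact Nat.card_congr (Equiv.subtypeEquivRight fun g => mem_stab_ext0 hN θ g)
  have hs : {ψ : H → ℂ | ∃ g : G, ψ = fun h : H => θ ⟨g * h * g⁻¹, hN.conj_mem h h.2 g⟩} =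
      ((orb ⊤ (extendByZero H θ)).image (res H) : Finset (H → ℂ)) := by
    ext ψ
    simp only [Set.mem_setOf_eq, Finset.coe_image, Set.mem_image, Finset.mem_coe, mem_orb]
    constructor
    · rintro ⟨g, rfl⟩
      exact ⟨_, ⟨g⁻¹, trivial, rfl⟩, by rw [cfj_ext0 hN, res_ext0]⟩
    · rintro ⟨_, ⟨g, -, rfl⟩, rfl⟩
      exact ⟨g⁻¹, by rw [← res_ext0 H (fun h : H => θ _), ← cfj_ext0 hN, inv_inv]⟩
  rw [hs, finsum_mem_coe_finset, Finset.sum_image, ← hc, ← res_sum, ← res_smul, ← e]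
  · rfl
  · intro a ha b hb eab
    have ho := orb_subset_Irr (top_le_norm H) hi
    exact eq_of_res_eq (mem_Irr.1 (ho ha)).1 (mem_Irr.1 (ho hb)).1 eab

end Cfsg.Agent.S1485
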