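import Cfsg.Statements.S1486
import Cfsg.Agent.H21.Br

set_option autoImplicit false
open Cfsg

open H17 Cfsg H15 CF H21

namespace Cfsg.Agent.S1486

/-- Let H be a normal subgroup of the finite group G and θ, φ irreducible characters of H. If φ is a G-conjugate of θ then the functions induced from θ and φ coincide; if φ is not a G-conjugate of θ then the induced functions are orthogonal. -/
theorem result {G : Type*} [Group G] [Fintype G] (H : Subgroup G) [hN : H.Normal] (θ φ : H → ℂ) (hθ : Cfsg.IsIrrCharacter H θ) (hφ : Cfsg.IsIrrCharacter H φ) : ((∃ g : G, φ = fun h : H => θ ⟨g * h * g⁻¹, hN.conj_mem h h.2 g⟩) → Cfsg.indFun H φ = Cfsg.indFun H θ) ∧ ((¬ ∃ g : G, φ = fun h : H => θ ⟨g * h * g⁻¹, hN.conj_mem h h.2 g⟩) → Cfsg.classInner (Cfsg.indFun H φ) (Cfsg.indFun H θ) = 0) := by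
  have hi := ext0_mem_Irr.2 hθ
  have hj := ext0_mem_Irr.2 hφ
  have key : extendByZero H φ ∈ orb ⊤ (extendByZero H θ) ↔
      ∃ g : G, φ = fun h : H => θ ⟨g * h * g⁻¹, hN.conj_mem h h.2 g⟩ := by
    rw [mem_orb]
    constructor
    · rintro ⟨g, -, e⟩
      exact ⟨g⁻¹, ext0_injective H (by rw [← cfj_ext0 hN, inv_inv, e])⟩
    · rintro ⟨g, rfl⟩
      exact ⟨g⁻¹, trivial, cfj_ext0 hN θ g⟩
  rw [← Ind_top_ext0, ← Ind_top_ext0, ← dot_top, ← key]
  exact ⟨fun h => Ind_eq_of_mem_orb (top_le_norm H) h, fun h =>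
    dot_Ind_Ind_eq_zero le_top (top_le_norm H) hj hi fun h' => h (orb_symm h')⟩

end Cfsg.Agent.S1486
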