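import Cfsg.Statements.S1487
import Cfsg.Agent.H21.Br

set_option autoImplicit false
open Cfsg

open H17 Cfsg H15 CF H21

namespace Cfsg.Agent.S1487

/-- Let A ≤ H be normal subgroups of the finite group G and θ an irreducible character of H. Then θ takes the value θ 1 on all of A if and only if the function induced from θ to G takes its value at 1 on all of A. -/
theorem result {G : Type*} [Group G] [Fintype G] (A H : Subgroup G) [A.Normal] [H.Normal] (hAH : A ≤ H) (θ : H → ℂ) (hθ : Cfsg.IsIrrCharacter H θ) : (∀ a : H, (a : G) ∈ A → θ a = θ 1) ↔ (∀ a : G, a ∈ A → Cfsg.indFun H θ a = Cfsg.indFun H θ 1) := by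
  have hi := irr_char (ext0_mem_Irr.2 hθ)
  rw [← Ind_top_ext0, ← (hi.Ind le_top).le_cfker, le_cfker_Ind_iff le_top hAH (top_le_norm A) hi,
    hi.le_cfker]
  have e : ∀ a : H, extendByZero H θ a = θ a := fun a => congrFun (res_ext0 H θ) a
  refine ⟨fun h x hx => ?_, fun h a ha => ?_⟩
  · rw [show x = ((⟨x, hAH hx⟩ : H) : G) from rfl, e, h _ hx, ← e]; rfl
  · rw [← e, h a ha, ← e]; rfl

end Cfsg.Agent.S1487
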