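import Cfsg.Statements.S1488
import Cfsg.Agent.H18.TI

set_option autoImplicit false
open Cfsg

namespace Cfsg.Agent.S1488



/-- Let A be a normal subgroup of the finite group G contained in the subgroup H, let θ be a function on H and θ₁ a function on the image of H in G ⧸ A whose composite with the projection is θ. Then the function induced from θ₁ to G ⧸ A, composed with the projection G → G ⧸ A, equals the function induced from θ to G. -/
theorem result {G : Type*} [Group G] [Fintype G] (A H : Subgroup G) [A.Normal] (hAH : A ≤ H) [Fintype (G ⧸ A)] [Fintype ↥(H.map (QuotientGroup.mk' A))] (θ : H → ℂ) (θ₁ : ↥(H.map (QuotientGroup.mk' A)) → ℂ) (hθ : ∀ x : H, θ₁ ⟨QuotientGroup.mk' A x, Subgroup.mem_map_of_mem _ x.2⟩ = θ x) (g : G) : Cfsg.indFun (H.map (QuotientGroup.mk' A)) θ₁ (QuotientGroup.mk' A g) = Cfsg.indFun H θ g := by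
  classical
  rw [H18.ind_apply, H18.ind_apply]
  have h1 : ∀ y : G, Cfsg.extendByZero H θ y =
      Cfsg.extendByZero (H.map (QuotientGroup.mk' A)) θ₁ (QuotientGroup.mk' A y) := by
    intro y
    by_cases hy : y ∈ H
    · rw [H18.ext0_mem _ _ hy, H18.ext0_mem _ _ (Subgroup.mem_map_of_mem _ hy), ← hθ]
    · rw [H18.ext0_not_mem _ _ hy, H18.ext0_not_mem]
      intro h
      apply hy
      rw [← Subgroup.mem_comap, Subgroup.comap_map_eq, QuotientGroup.ker_mk', sup_eq_left.mpr hAH] at h
      exact h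
  have h2 := H18.sum_smul_eq (G := G) (Ω := G ⧸ A) (1 : G ⧸ A) (fun q =>
    Cfsg.extendByZero (H.map (QuotientGroup.mk' A)) θ₁ (q⁻¹ * QuotientGroup.mk' A g * q))
  have h3 : ∀ x : G, x • (1 : G ⧸ A) = QuotientGroup.mk' A x := fun x => by
    rw [← QuotientGroup.mk_one, MulAction.Quotient.smul_mk]; simp
  have h4 : ∀ q : G ⧸ A, q ∈ MulAction.orbit G (1 : G ⧸ A) := by
    intro q
    obtain ⟨x, rfl⟩ := QuotientGroup.mk'_surjective A q
    exact ⟨x, h3 x⟩
  have h5 : MulAction.stabilizer G (1 : G ⧸ A) = A := MulAction.stabilizer_quotient A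
  simp only [h3, h4, if_true, h5] at h2
  simp only [h1, map_mul, map_inv]
  rw [h2]
  have h6 : Nat.card H = Nat.card A * Nat.card (H.map (QuotientGroup.mk' A)) := by
    rw [← Subgroup.relIndex_ker, QuotientGroup.ker_mk', Subgroup.relIndex,
      ← Nat.card_congr (Subgroup.subgroupOfEquivOfLe hAH).toEquiv, Subgroup.card_mul_index]
  rw [h6]
  have := H18.card_ne_zero A
  have := H18.card_ne_zero (H.map (QuotientGroup.mk' A))
  push_cast; field_simp

end Cfsg.Agent.S1488
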