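import Cfsg.Statements.S1489
import Cfsg.Agent.H17.CliffCorr

set_option autoImplicit false
open Cfsg

namespace Cfsg.Agent.S1489

open H17 Cfsg

open CF

/-- Let H be a normal subgroup of the finite group G, θ an irreducible character of H, and T the inertia group of θ (the elements g with θ(g h g⁻¹) = θ(h) for all h ∈ H). If ψ and ψ' are irreducible characters of T having nonzero inner product with the function induced from θ to T, then the function induced from ψ to G is an irreducible character of G, and it equals the one induced from ψ' only if ψ = ψ'. -/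
theorem result {G : Type*} [Group G] [Fintype G] (H T : Subgroup G) [hN : H.Normal] [Fintype T] (θ : H → ℂ) (hθ : Cfsg.IsIrrCharacter H θ) (hT : ∀ g : G, g ∈ T ↔ ∀ h : H, θ ⟨g * h * g⁻¹, hN.conj_mem h h.2 g⟩ = θ h) (hHT : H ≤ T) (ψ ψ' : T → ℂ) (hψ : Cfsg.IsIrrCharacter T ψ) (hψ' : Cfsg.IsIrrCharacter T ψ') (hc : Cfsg.classInner (Cfsg.indFun (H.subgroupOf T) (fun x => θ ⟨(x : T), Subgroup.mem_subgroupOf.mp x.2⟩)) ψ ≠ 0) (hc' : Cfsg.classInner (Cfsg.indFun (H.subgroupOf T) (fun x => θ ⟨(x : T), Subgroup.mem_subgroupOf.mp x.2⟩)) ψ' ≠ 0) : Cfsg.IsIrrCharacter G (Cfsg.indFun T ψ) ∧ (Cfsg.indFun T ψ = Cfsg.indFun T ψ' → ψ = ψ') := by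
  have := Fintype.ofFinite H
  have hT' : T = ⊤ ⊓ stab (extendByZero H θ) := by
    ext g; rw [top_inf_eq, mem_stab_ext0 hN, hT]
  have key : ∀ φ : T → ℂ, IsIrrCharacter T φ → classInner (indFun (H.subgroupOf T)
      (fun x => θ ⟨(x : T), Subgroup.mem_subgroupOf.mp x.2⟩)) φ ≠ 0 →
      dot H (extendByZero T φ) (extendByZero H θ) ≠ 0 := by
    intro φ hφ h h0
    apply h
    have h1 := dot_Ind_left hHT (extendByZero H θ) (irr_cf (ext0_mem_Irr.2 hφ))
    rw [dot_symm_zero h0, dot_eq, res_ext0, res_Ind hHT] at h1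
    rw [← h1]
    congr 2
    ext x
    exact (extendByZero_of_mem θ _).symm
  have hθ' := ext0_mem_Irr.2 hθ
  refine ⟨?_, fun e => ext0_injective T ?_⟩
  · rw [← Ind_top_ext0, ← mem_Irr_top]
    exact cliffCorr_Ind_mem_Irr le_top (top_le_norm H) hθ' hT' (ext0_mem_Irr.2 hψ) (key ψ hψ hc)
  · refine cliffCorr_inj le_top (top_le_norm H) hθ' hT' (ext0_mem_Irr.2 hψ) (key ψ hψ hc)
      (ext0_mem_Irr.2 hψ') (key ψ' hψ' hc') ?_
    rwa [Ind_top_ext0, Ind_top_ext0]

end Cfsg.Agent.S1489
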