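import Cfsg.Statements.S1493
import Cfsg.Agent.H21.Br

set_option autoImplicit false
open Cfsg

open H17 Cfsg H15 CF H21

namespace Cfsg.Agent.S1493

/-- Let G be a finite group of order a * b with a and b coprime, let k be coprime to a, and let χ be a character of G. Then there is a character χ' of G such that χ'(g) = χ(g ^ k) whenever the order of g divides a and χ'(g) = χ(g) whenever the order of g is coprime to a; moreover χ' is irreducible if χ is. -/
theorem result {G : Type*} [Group G] [Finite G] (a b k : ℕ) (hab : Nat.card G = a * b) (hcop : Nat.Coprime a b) (hk : Nat.Coprime k a) (χ : G → ℂ) (hχ : Cfsg.IsCharacter G χ) : ∃ χ' : G → ℂ, Cfsg.IsCharacter G χ' ∧ (Cfsg.IsIrrCharacter G χ → Cfsg.IsIrrCharacter G χ') ∧ (∀ g : G, orderOf g ∣ a → χ' g = χ (g ^ k)) ∧ (∀ g : G, Nat.Coprime (orderOf g) a → χ' g = χ g) := by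
  have ha : a ≠ 0 := by
    rintro rfl
    exact Nat.card_pos.ne' (by simpa using hab)
  obtain ⟨u, -, hu⟩ := exists_aut_pi (G := G) ha hk
  have hc := isChar_top.2 hχ
  obtain ⟨h1, h2⟩ := hu ⊤ χ hc.vchar
  exact ⟨aut (u : ℂ →+* ℂ) χ, isChar_top.1 (hc.aut _),
    fun h => mem_Irr_top.1 (aut_mem_Irr _ (mem_Irr_top.2 h)), fun g hg => h1 g trivial hg, h2⟩

end Cfsg.Agent.S1493
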