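import Cfsg.Statements.S1495
import Mathlib

set_option autoImplicit false
open Cfsg

namespace Cfsg.Agent.S1495

/-- Let p be a prime, ε = exp(2πi/p), and n an integer such that n = (1 − ε) * ω for some algebraic integer ω. Then p divides n. -/
theorem result (p : ℕ) (hp : p.Prime) (n : ℤ) (ω : ℂ) (hω : IsIntegral ℤ ω) (h : (n : ℂ) = (1 - Complex.exp (2 * Real.pi * Complex.I / p)) * ω) : (p : ℤ) ∣ n := by
  haveI := Fact.mk hp
  set ε := Complex.exp (2 * Real.pi * Complex.I / p) with hε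
  have hprim : IsPrimitiveRoot ε p := Complex.isPrimitiveRoot_exp p hp.ne_zero
  have hεint : IsIntegral ℤ ε := hprim.isIntegral hp.pos
  -- for each `1 ≤ i < p`, `n = (1 - ε^i) ω_i`
  have key : ∀ i ∈ Finset.range (p - 1), ∃ w : ℂ, IsIntegral ℤ w ∧ (n : ℂ) = (1 - ε ^ (i + 1)) * w := by
    intro i hi
    have hi' : i + 1 < p := by have := Finset.mem_range.mp hi; omega
    have hcop : Nat.Coprime (i + 1) p :=
      (Nat.coprime_of_lt_prime (Nat.succ_ne_zero i) hi' hp).symm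
    have hprim' : IsPrimitiveRoot (ε ^ (i + 1)) p := hprim.pow_of_coprime _ hcop
    obtain ⟨j, -, hj⟩ := hprim'.eq_pow_of_pow_eq_one hprim.pow_eq_one
    refine ⟨(∑ k ∈ Finset.range j, (ε ^ (i + 1)) ^ k) * ω, ?_, ?_⟩
    · exact (IsIntegral.sum _ fun k _ => (hεint.pow _).pow _).mul hω
    · rw [← mul_assoc, mul_neg_geom_sum, hj, h]
  choose! w hw using key
  have hprod : ∏ i ∈ Finset.range (p - 1), (1 - ε ^ (i + 1)) = p := by
    obtain ⟨m, rfl⟩ : ∃ m, p = m + 1 := ⟨p - 1, (Nat.succ_pred_eq_of_pos hp.pos).symm⟩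
    simpa using hprim.prod_one_sub_pow_eq_order
  have h2 : (n : ℂ) ^ (p - 1) = p * ∏ i ∈ Finset.range (p - 1), w i := by
    rw [← hprod, ← Finset.prod_mul_distrib, ← Finset.card_range (p - 1), ← Finset.prod_const,
      Finset.card_range]
    exact Finset.prod_congr rfl fun i hi => (hw i hi).2
  have h3 : IsIntegral ℤ (∏ i ∈ Finset.range (p - 1), w i) :=
    IsIntegral.prod _ fun i hi => (hw i hi).1
  have hp0 : (p : ℂ) ≠ 0 := Nat.cast_ne_zero.mpr hp.ne_zero
  have h4 : ∏ i ∈ Finset.range (p - 1), w i = algebraMap ℚ ℂ ((n : ℚ) ^ (p - 1) / p) := by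
    simp only [map_div₀, map_pow, map_intCast, map_natCast]
    rw [h2]; field_simp
  rw [h4, isIntegral_algebraMap_iff (algebraMap ℚ ℂ).injective] at h3
  obtain ⟨m, hm⟩ := IsIntegrallyClosed.isIntegral_iff.mp h3
  have hp0' : (p : ℚ) ≠ 0 := Nat.cast_ne_zero.mpr hp.ne_zero
  have h5 : n ^ (p - 1) = p * m := by
    have : ((n : ℚ)) ^ (p - 1) = p * m := by
      simp only [algebraMap_int_eq, eq_intCast] at hm
      rw [hm]; field_simp
    exact_mod_cast this
  exact (Nat.prime_iff_prime_int.mp hp).dvd_of_dvd_pow ⟨m, h5⟩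

end Cfsg.Agent.S1495
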