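import Cfsg.Statements.S1498
import Cfsg.Agent.H18.Dade

set_option autoImplicit false
open Cfsg

namespace Cfsg.Agent.S1498



/-- Under the Dade hypothesis for (A, L, H): for a ∈ A and x ∈ L, the subgroup attached to x * a * x⁻¹ is the conjugate of H a by x. -/
theorem result {G : Type*} [Group G] [Finite G] (A : Set G) (L : Subgroup G) (H : G → Subgroup G) (hD : Cfsg.DadeHypothesis A L H) (a : G) (ha : a ∈ A) (x : G) (hx : x ∈ L) : H (x * a * x⁻¹) = (H a).map (MulAut.conj x).toMonoidHom := by
  exact H18.dade_conj_H hD ha (hD.conj_mem x hx a ha)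

end Cfsg.Agent.S1498
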