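import Cfsg.Statements.S1499
import Cfsg.Agent.H18.Dade

set_option autoImplicit false
open Cfsg

namespace Cfsg.Agent.S1499



/-- Under the Dade hypothesis for (A, L, H), let a, b ∈ A. If an element of the coset a·H(a) is conjugate in G to an element of b·H(b), then a and b are conjugate by an element of L. Moreover the set normaliser of the coset a·H(a) is the centraliser of a. -/
theorem result {G : Type*} [Group G] [Finite G] (A : Set G) (L : Subgroup G) (H : G → Subgroup G) (hD : Cfsg.DadeHypothesis A L H) (a b : G) (ha : a ∈ A) (hb : b ∈ A) : ((∃ u ∈ H a, ∃ v ∈ H b, ∃ g : G, g * (a * u) * g⁻¹ = b * v) → ∃ x ∈ L, x * a * x⁻¹ = b) ∧ Subgroup.normalizer ((fun u : G => a * u) '' (H a : Set G)) = Subgroup.centralizer ({a} : Set G) := by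
  refine ⟨?_, ?_⟩
  · rintro ⟨u, hu, v, hv, g, h⟩
    exact H18.dade_fusion hD ha hb hu hv h
  · ext g
    rw [Subgroup.mem_set_normalizer_iff, Subgroup.mem_centralizer_singleton_iff]
    constructor
    · intro h
      obtain ⟨v, hv, h'⟩ := (h (a * 1)).mp ⟨1, (H a).one_mem, rfl⟩
      have := H18.dade_conj_eq hD ha ha (H a).one_mem hv h'.symm
      rw [mul_inv_eq_iff_eq_mul] at this
      exact this
    · intro h n
      have hc : g ∈ Subgroup.centralizer ({a} : Set G) :=
        Subgroup.mem_centralizer_singleton_iff.mpr h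
      constructor
      · rintro ⟨u, hu, rfl⟩
        refine ⟨g * u * g⁻¹, hD.conj_mem_H a ha g hc u hu, ?_⟩
        show a * (g * u * g⁻¹) = g * (a * u) * g⁻¹
        rw [← mul_assoc, ← mul_assoc, ← h]; group
      · rintro ⟨u, hu, hn⟩
        refine ⟨g⁻¹ * u * g⁻¹⁻¹, hD.conj_mem_H a ha g⁻¹ (Subgroup.inv_mem _ hc) u hu, ?_⟩
        have hn' : a * u = g * n * g⁻¹ := hn
        show a * (g⁻¹ * u * g⁻¹⁻¹) = n
        calc a * (g⁻¹ * u * g⁻¹⁻¹) = g⁻¹ * (g * a) * g⁻¹ * u * g := by group
          _ = g⁻¹ * (a * u) * g := by rw [h]; group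
          _ = n := by rw [hn']; group

end Cfsg.Agent.S1499
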