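import Cfsg.Statements.S1502
import Cfsg.Agent.H21.Br

set_option autoImplicit false
open Cfsg

open H17 Cfsg H15 CF H21

namespace Cfsg.Agent.S1502

/-- Let W₁, W₂ be nontrivial subgroups of the finite group G generating a cyclic subgroup W = W₁ ⊔ W₂ of odd order that is the normaliser of every nonempty set of its elements outside W₁ ∪ W₂. Then there is a family attaching to each linear character ω of W an irreducible character of G up to sign, orthonormal, sending the trivial character to the principal character, with χ ω = ω on W outside W₁ ∪ W₂, and such that inducing (1 − φ)(1 − ψ) to G gives 1 − χ φ − χ ψ + χ (φψ) whenever φ ≠ 1 is trivial on W₂ and ψ ≠ 1 is trivial on W₁. -/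
theorem result {G : Type*} [Group G] [Fintype G] (W₁ W₂ : Subgroup G) (hW : Cfsg.IsSelfNormalizingCyclic W₁ W₂) (hodd : Odd (Nat.card ↥(W₁ ⊔ W₂))) : ∃ χ : (↥(W₁ ⊔ W₂) →* ℂˣ) → (G → ℂ), Cfsg.IsCyclicTIFamily W₁ W₂ χ := by
  classical
  have h := (snc_cycTI hW hodd).iso
  have d := snc_dp hW
  refine ⟨fun ω => H21.sigma ⊤ (W₁ ⊔ W₂) W₁ W₂ (ofHom _ ω), fun ω => ?_, fun ω ω' => ?_, ?_,
    fun ω w h1 h2 => ?_, fun φ ψ _ _ h1 h2 => ?_⟩
  · rcases mem_dirr.1 (h.dirr (ofHom_mem_Irr ω)) with e | e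
    · exact Or.inl (mem_Irr_top.1 e)
    · exact Or.inr (mem_Irr_top.1 e)
  · rw [← dot_top, h.dot_ite (ofHom_mem_Irr ω) (ofHom_mem_Irr ω')]
    simp only [ofHom_injective.eq_iff]
    congr
  · simp only [ofHom_one, h.map_one, one_top]; rfl
  · rw [h.restrict (irr_cf (ofHom_mem_Irr ω)) (mem_cycV.2 ⟨w.2, h1, h2⟩), ofHom_coe]
  · rw [← res_alpha, ← Ind_top_eq, h.sigma_alpha ((ofHom_mem_IrrQ d.le2).2 h1)
      ((ofHom_mem_IrrQ d.le1).2 h2), one_top, ofHom_mul]
    rfl

end Cfsg.Agent.S1502
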