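import Cfsg.Statements.S1504
import Cfsg.Agent.H21.Br

set_option autoImplicit false
open Cfsg

open H17 Cfsg H15 CF H21

namespace Cfsg.Agent.S1504

/-- Let W₁, W₂ be subgroups of a finite group with W₁ ⊓ W₂ = ⊥ whose elements commute, and W = W₁ ⊔ W₂. For linear characters φ, ψ of W with φ trivial on W₂ and ψ trivial on W₁, the function (1 − φ)(1 − ψ) vanishes on W₁ ∪ W₂; and the family of these functions, indexed by pairs (φ, ψ) with φ ≠ 1 ≠ ψ, is linearly independent over ℂ. -/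
theorem result {G : Type*} [Group G] [Finite G] (W₁ W₂ : Subgroup G) (hdisj : W₁ ⊓ W₂ = ⊥) (hcomm : ∀ a ∈ W₁, ∀ b ∈ W₂, a * b = b * a) : (∀ φ ψ : ↥(W₁ ⊔ W₂) →* ℂˣ, (∀ w : ↥(W₁ ⊔ W₂), (w : G) ∈ W₂ → φ w = 1) → (∀ w : ↥(W₁ ⊔ W₂), (w : G) ∈ W₁ → ψ w = 1) → ∀ w : ↥(W₁ ⊔ W₂), ((w : G) ∈ W₁ ∨ (w : G) ∈ W₂) → (1 - (φ w : ℂ) - (ψ w : ℂ) + (φ w : ℂ) * (ψ w : ℂ)) = 0) ∧ LinearIndependent ℂ (fun p : {p : (↥(W₁ ⊔ W₂) →* ℂˣ) × (↥(W₁ ⊔ W₂) →* ℂˣ) // p.1 ≠ 1 ∧ p.2 ≠ 1 ∧ (∀ w : ↥(W₁ ⊔ W₂), (w : G) ∈ W₂ → p.1 w = 1) ∧ (∀ w : ↥(W₁ ⊔ W₂), (w : G) ∈ W₁ → p.2 w = 1)} => fun w : ↥(W₁ ⊔ W₂) => 1 - (p.1.1 w : ℂ) - (p.1.2 w : ℂ) + (p.1.1 w : ℂ) * (p.1.2 w : ℂ)) := by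
  classical
  refine ⟨fun φ ψ h1 h2 w hw => ?_, ?_⟩
  · rcases hw with hw | hw
    · rw [h2 w hw]; simp
    · rw [h1 w hw]; simp
  · rw [linearIndependent_iff']
    intro s c hc p hp
    have hgen : ∀ a b : ↥(W₁ ⊔ W₂) →* ℂˣ, (∀ w : ↥(W₁ ⊔ W₂), (w : G) ∈ W₁ → a w = b w) →
        (∀ w : ↥(W₁ ⊔ W₂), (w : G) ∈ W₂ → a w = b w) → a = b := by
      intro a b e1 e2
      have : W₁ ⊔ W₂ ≤ (MonoidHom.eqLocus a b).map (W₁ ⊔ W₂).subtype :=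
        sup_le (fun x hx => ⟨⟨x, Subgroup.mem_sup_left hx⟩, e1 _ hx, rfl⟩)
          (fun x hx => ⟨⟨x, Subgroup.mem_sup_right hx⟩, e2 _ hx, rfl⟩)
      refine MonoidHom.ext fun w => ?_
      obtain ⟨y, hy, e⟩ := this w.2
      obtain rfl : y = w := Subtype.ext e
      exact hy
    have hmul : ∀ {a b a' b' : ↥(W₁ ⊔ W₂) →* ℂˣ}, (∀ w : ↥(W₁ ⊔ W₂), (w : G) ∈ W₂ → a w = 1) →
        (∀ w : ↥(W₁ ⊔ W₂), (w : G) ∈ W₁ → b w = 1) → (∀ w : ↥(W₁ ⊔ W₂), (w : G) ∈ W₂ → a' w = 1) →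
        (∀ w : ↥(W₁ ⊔ W₂), (w : G) ∈ W₁ → b' w = 1) → a * b = a' * b' → a = a' ∧ b = b' := by
      intro a b a' b' h1 h2 h3 h4 e
      have e' := fun w => DFunLike.congr_fun e w
      simp only [MonoidHom.mul_apply] at e'
      refine ⟨hgen _ _ (fun w hw => ?_) fun w hw => by rw [h1 w hw, h3 w hw],
        hgen _ _ (fun w hw => by rw [h2 w hw, h4 w hw]) fun w hw => ?_⟩
      · simpa [h2 w hw, h4 w hw] using e' w
      · simpa [h1 w hw, h3 w hw] using e' w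
    have hd : ∀ a b : ↥(W₁ ⊔ W₂) →* ℂˣ, dot (W₁ ⊔ W₂) (ofHom _ a) (ofHom _ b) =
        if a = b then 1 else 0 := fun a b => by
      rw [dot_irr (ofHom_mem_Irr a) (ofHom_mem_Irr b)]
      simp only [ofHom_injective.eq_iff]
    have h0 : ∑ q ∈ s, c q • (ofHom (W₁ ⊔ W₂) 1 - ofHom _ q.1.1 - ofHom _ q.1.2 + ofHom _ (q.1.1 * q.1.2)) =
        (0 : G → ℂ) := by
      funext x
      by_cases hx : x ∈ W₁ ⊔ W₂
      · have := congrFun hc ⟨x, hx⟩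
        simp only [Finset.sum_apply, Pi.smul_apply, Pi.add_apply, Pi.sub_apply, ofHom_apply _ hx,
          MonoidHom.mul_apply, Units.val_mul, MonoidHom.one_apply, Units.val_one] at this ⊢
        exact this
      · simp [ofHom_of_not_mem _ hx]
    have h1 := congrArg (fun f => dot (W₁ ⊔ W₂) f (ofHom _ (p.1.1 * p.1.2))) h0
    simp only [dot_sum_left, dot_smul_left, dot_add_left, dot_sub_left, dot_zero_left, hd] at h1
    obtain ⟨p1, p2, p3, p4⟩ := p.2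
    have t : ∀ w : ↥(W₁ ⊔ W₂), (1 : ↥(W₁ ⊔ W₂) →* ℂˣ) w = 1 := fun _ => rfl
    rw [Finset.sum_eq_single_of_mem p hp] at h1
    · rw [if_neg, if_neg, if_neg, if_pos rfl] at h1
      · simpa using h1
      · exact fun e => p1 (hmul (fun w _ => t w) p4 p3 p4 (Eq.trans (MonoidHom.ext fun w => one_mul _) e)).1.symm
      · exact fun e => p2 (hmul p3 (fun w _ => t w) p3 p4 (Eq.trans (MonoidHom.ext fun w => mul_one _) e)).2.symm
      · exact fun e => p1 (hmul (fun w _ => t w) (fun w _ => t w) p3 p4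
          (Eq.trans (MonoidHom.ext fun w => mul_one _) e)).1.symm
    · intro q _ hq
      obtain ⟨q1, q2, q3, q4⟩ := q.2
      rw [if_neg, if_neg, if_neg, if_neg]
      · simp
      · exact fun e => hq (Subtype.ext (Prod.ext (hmul q3 q4 p3 p4 e).1 (hmul q3 q4 p3 p4 e).2))
      · exact fun e => p1 (hmul (fun w _ => t w) q4 p3 p4 (Eq.trans (MonoidHom.ext fun w => one_mul _) e)).1.symm
      · exact fun e => p2 (hmul q3 (fun w _ => t w) p3 p4 (Eq.trans (MonoidHom.ext fun w => mul_one _) e)).2.symm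
      · exact fun e => p1 (hmul (fun w _ => t w) (fun w _ => t w) p3 p4
          (Eq.trans (MonoidHom.ext fun w => mul_one _) e)).1.symm

end Cfsg.Agent.S1504
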