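import Cfsg.Statements.S1505
import Cfsg.Agent.H21.Br

set_option autoImplicit false
open Cfsg

open H17 Cfsg H15 CF H21

namespace Cfsg.Agent.S1505

open Classical in
/-- Let W₁, W₂ ≤ G form a self-normalising cyclic subgroup W = W₁ ⊔ W₂. For nontrivial linear characters φ, φ' of W trivial on W₂ and ψ, ψ' trivial on W₁, put α = (1 − φ)(1 − ψ) and α' = (1 − φ')(1 − ψ'). Then the function induced from α to G has inner product 1 with the principal character, and the inner product of the functions induced from α and α' is 1 + a + b + ab where a = 1 if φ = φ' (else 0) and b = 1 if ψ = ψ' (else 0). -/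
theorem result {G : Type*} [Group G] [Fintype G] (W₁ W₂ : Subgroup G) (hW : Cfsg.IsSelfNormalizingCyclic W₁ W₂) (φ φ' ψ ψ' : ↥(W₁ ⊔ W₂) →* ℂˣ) (hφ : φ ≠ 1) (hφ' : φ' ≠ 1) (hψ : ψ ≠ 1) (hψ' : ψ' ≠ 1) (hφ₂ : ∀ w : ↥(W₁ ⊔ W₂), (w : G) ∈ W₂ → φ w = 1 ∧ φ' w = 1) (hψ₁ : ∀ w : ↥(W₁ ⊔ W₂), (w : G) ∈ W₁ → ψ w = 1 ∧ ψ' w = 1) : Cfsg.classInner (Cfsg.indFun (W₁ ⊔ W₂) (fun w => 1 - (φ w : ℂ) - (ψ w : ℂ) + (φ w : ℂ) * (ψ w : ℂ))) (fun _ => 1) = 1 ∧ Cfsg.classInner (Cfsg.indFun (W₁ ⊔ W₂) (fun w => 1 - (φ w : ℂ) - (ψ w : ℂ) + (φ w : ℂ) * (ψ w : ℂ))) (Cfsg.indFun (W₁ ⊔ W₂) (fun w => 1 - (φ' w : ℂ) - (ψ' w : ℂ) + (φ' w : ℂ) * (ψ' w : ℂ))) = 1 + (if φ = φ' then 1 else 0) + (if ψ = ψ' then 1 else 0) + (if φ = φ' then 1 else 0) * (if ψ = ψ' then 1 else 0) := by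
  have d := snc_dp hW
  have t := snc_ti hW
  have a1 := (ofHom_mem_IrrQ d.le2).2 fun w hw => (hφ₂ w hw).1
  have a2 := (ofHom_mem_IrrQ d.le2).2 fun w hw => (hφ₂ w hw).2
  have b1 := (ofHom_mem_IrrQ d.le1).2 fun w hw => (hψ₁ w hw).1
  have b2 := (ofHom_mem_IrrQ d.le1).2 fun w hw => (hψ₁ w hw).2
  have n : ∀ {l : ↥(W₁ ⊔ W₂) →* ℂˣ}, l ≠ 1 → ofHom _ l ≠ one (W₁ ⊔ W₂) :=
    fun h e => h (ofHom_eq_one_iff.1 e)
  rw [← res_alpha, ← res_alpha, ← Ind_top_eq, ← Ind_top_eq, ← dot_top, ← dot_top]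
  constructor
  · rw [show (fun _ => 1 : G → ℂ) = one ⊤ from one_top.symm, dot_Ind_one le_top,
      d.dot_alpha_one a1 b1 (n hφ) (n hψ)]
  · rw [t.dot_Ind (d.alpha_mem a1 b1).2 (d.alpha_mem a2 b2),
      d.dot_alpha a1 b1 a2 b2 (n hφ) (n hψ) (n hφ') (n hψ')]
    simp only [ofHom_injective.eq_iff]
    split_ifs <;> norm_num

end Cfsg.Agent.S1505
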