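import Cfsg.Statements.S1506
import Cfsg.Agent.H21.Br

set_option autoImplicit false
open Cfsg

open H17 Cfsg H15 CF H21

namespace Cfsg.Agent.S1506

/-- Let W₁, W₂ ≤ G form a self-normalising cyclic subgroup W = W₁ ⊔ W₂ and χ an orthonormal family of irreducible characters of G up to sign, indexed by the linear characters ω of W, with χ_1 = 1, χ_ω = ω on W outside W₁ ∪ W₂, and the induction identity for (1 − φ)(1 − ψ). Let θ be a class function of G vanishing at every element of W outside W₁ ∪ W₂. For linear characters φ, φ' of W trivial on W₂ and ψ, ψ' trivial on W₁, the inner products a(ω) = ⟨θ, χ ω⟩ satisfy a(φψ) + a(φ'ψ') = a(φψ') + a(φ'ψ). -/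
theorem result {G : Type*} [Group G] [Fintype G] (W₁ W₂ : Subgroup G) (hW : Cfsg.IsSelfNormalizingCyclic W₁ W₂) (χ : (↥(W₁ ⊔ W₂) →* ℂˣ) → (G → ℂ)) (hχ : Cfsg.IsCyclicTIFamily W₁ W₂ χ) (θ : G → ℂ) (hθ : Cfsg.IsClassFunction G θ) (hθV : ∀ w : ↥(W₁ ⊔ W₂), (w : G) ∉ W₁ → (w : G) ∉ W₂ → θ w = 0) (φ φ' ψ ψ' : ↥(W₁ ⊔ W₂) →* ℂˣ) (hφ₂ : ∀ w : ↥(W₁ ⊔ W₂), (w : G) ∈ W₂ → φ w = 1 ∧ φ' w = 1) (hψ₁ : ∀ w : ↥(W₁ ⊔ W₂), (w : G) ∈ W₁ → ψ w = 1 ∧ ψ' w = 1) : Cfsg.classInner θ (χ (φ * ψ)) + Cfsg.classInner θ (χ (φ' * ψ')) = Cfsg.classInner θ (χ (φ * ψ')) + Cfsg.classInner θ (χ (φ' * ψ)) := by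
  have d := snc_dp hW
  have s := famSig_spec hW hχ
  have a1 := (ofHom_mem_IrrQ d.le2).2 fun w hw => (hφ₂ w hw).1
  have a2 := (ofHom_mem_IrrQ d.le2).2 fun w hw => (hφ₂ w hw).2
  have b1 := (ofHom_mem_IrrQ d.le1).2 fun w hw => (hψ₁ w hw).1
  have b2 := (ofHom_mem_IrrQ d.le1).2 fun w hw => (hψ₁ w hw).2
  set f := (ofHom _ φ - ofHom _ φ') * (ofHom _ ψ - ofHom _ ψ') with hf
  have hf' : f ∈ cfOn (W₁ ⊔ W₂) (cycV (W₁ ⊔ W₂) W₁ W₂) := by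
    refine ⟨mul_mem_cf (sub_mem (irr_cf (irrQ_irr a1)) (irr_cf (irrQ_irr a2)))
      (sub_mem (irr_cf (irrQ_irr b1)) (irr_cf (irrQ_irr b2))), fun x hx => ?_⟩
    simp only [hf, Pi.mul_apply, Pi.sub_apply]
    by_cases h0 : x ∈ W₁ ⊔ W₂
    · by_cases h1 : x ∈ W₁
      · rw [irrQ_apply d.comm b1 h1, irrQ_apply d.comm b2 h1, sub_self, mul_zero]
      · have h2 : x ∈ W₂ := by
          by_contra h2
          exact hx (mem_cycV.2 ⟨h0, h1, h2⟩)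
        rw [irrQ_apply d.comm a1 h2, irrQ_apply d.comm a2 h2, sub_self, zero_mul]
    · rw [ofHom_of_not_mem _ h0, ofHom_of_not_mem _ h0, sub_self, zero_mul]
  have h0 : dot ⊤ θ (famSig _ χ f) = 0 := by
    rw [s.eq_Ind f hf', dot_Ind_right le_top _ (mem_cf_top.2 hθ), dot_eq_zero_comm,
      dot_congr_supp hf'.2 (ψ' := 0), dot_zero_right]
    intro x hx
    exact hθV ⟨x, (mem_cycV.1 hx).1⟩ (mem_cycV.1 hx).2.1 (mem_cycV.1 hx).2.2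
  have e : f = ofHom _ (φ * ψ) + ofHom _ (φ' * ψ') - (ofHom _ (φ * ψ') + ofHom _ (φ' * ψ)) := by
    simp only [hf, ofHom_mul]; ring
  simp only [e, map_sub, map_add, famSig_ofHom, dot_sub_right, dot_add_right, dot_top] at h0
  exact sub_eq_zero.1 h0

end Cfsg.Agent.S1506
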