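import Cfsg.Statements.S1507
import Cfsg.Agent.H21.Br

set_option autoImplicit false
open Cfsg

open H17 Cfsg H15 CF H21

namespace Cfsg.Agent.S1507

open Classical in
/-- Let W₁, W₂ ≤ G form a self-normalising cyclic subgroup W = W₁ ⊔ W₂ of odd order with Nat.card W₁ < Nat.card W₂, and χ an orthonormal family of irreducible characters of G up to sign, indexed by the linear characters ω of W, with χ_1 = 1, χ_ω = ω on W outside W₁ ∪ W₂, and the induction identity for (1 − φ)(1 − ψ). Let θ be a class function of G vanishing on W outside W₁ ∪ W₂, and suppose fewer than 2 · Nat.card W₁ linear characters ω of W have ⟨θ, χ ω⟩ ≠ 0. Then one of: all ⟨θ, χ ω⟩ vanish; or there are ψ₀ and a with ⟨θ, χ ω⟩ = a when ω ψ₀⁻¹ is trivial on W₂ and 0 otherwise; or there are φ₀ and a with ⟨θ, χ ω⟩ = a when ω φ₀⁻¹ is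 trivial on W₁ and 0 otherwise. -/
theorem result {G : Type*} [Group G] [Fintype G] (W₁ W₂ : Subgroup G) (hW : Cfsg.IsSelfNormalizingCyclic W₁ W₂) (hodd : Odd (Nat.card ↥(W₁ ⊔ W₂))) (χ : (↥(W₁ ⊔ W₂) →* ℂˣ) → (G → ℂ)) (hχ : Cfsg.IsCyclicTIFamily W₁ W₂ χ) (hlt : Nat.card W₁ < Nat.card W₂) (θ : G → ℂ) (hθ : Cfsg.IsClassFunction G θ) (hθV : ∀ w : ↥(W₁ ⊔ W₂), (w : G) ∉ W₁ → (w : G) ∉ W₂ → θ w = 0) (hfew : Nat.card {ω : ↥(W₁ ⊔ W₂) →* ℂˣ // Cfsg.classInner θ (χ ω) ≠ 0} < 2 * Nat.card W₁) : (∀ ω, Cfsg.classInner θ (χ ω) = 0) ∨ (∃ (ψ₀ : ↥(W₁ ⊔ W₂) →* ℂˣ) (a : ℂ), ∀ ω, Cfsg.classInner θ (χ ω) = if (∀ w : ↥(W₁ ⊔ W₂), (w : G) ∈ W₂ → (ω * ψ₀⁻¹) w = 1) then a else 0) ∨ (∃ (φ₀ : ↥(W₁ ⊔ W₂) →* ℂˣ) (a : ℂ), ∀ ω, Cfsg.classInner θ (χ ω) = if (∀ w : ↥(W₁ ⊔ W₂), (w : G) ∈ W₁ → (ω * φ₀⁻¹) w = 1) then a else 0) := by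
  have h := famSig_iso hW hodd hχ
  have d := snc_dp hW
  have i := @ofHom_mem_Irr G _ _ (W₁ ⊔ W₂)
  have hd : ∀ ω, classInner θ (χ ω) = dot ⊤ θ (famSig _ χ (ofHom _ ω)) := fun ω => by
    rw [famSig_ofHom, dot_top]
  have hNC : NC ⊤ (W₁ ⊔ W₂) (famSig _ χ) θ =
      Nat.card {ω : ↥(W₁ ⊔ W₂) →* ℂˣ // classInner θ (χ ω) ≠ 0} := by
    rw [NC, ← Nat.card_eq_finsetCard]
    symm
    refine Nat.card_congr (Equiv.ofBijective (fun ω => ⟨ofHom _ ω.1,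
      Finset.mem_filter.2 ⟨i _, hd ω.1 ▸ ω.2⟩⟩) ⟨fun a b e => ?_, fun ⟨ω, hω⟩ => ?_⟩)
    · exact Subtype.ext (ofHom_injective (congrArg Subtype.val e))
    · obtain ⟨l, rfl⟩ := exists_ofHom d.comm (Finset.mem_filter.1 hω).1
      exact ⟨⟨l, (hd l).symm ▸ (Finset.mem_filter.1 hω).2⟩, rfl⟩
  have dec : ∀ ω : ↥(W₁ ⊔ W₂) →* ℂˣ, ∃ φ ψ : ↥(W₁ ⊔ W₂) →* ℂˣ, ofHom _ φ ∈ IrrQ (W₁ ⊔ W₂) W₂ ∧
      ofHom _ ψ ∈ IrrQ (W₁ ⊔ W₂) W₁ ∧ ω = φ * ψ := fun ω => by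
    obtain ⟨φ, hφ, ψ, hψ, e⟩ := d.exists_mul (i ω)
    obtain ⟨l, rfl⟩ := exists_ofHom d.comm (irrQ_irr hφ)
    obtain ⟨l', rfl⟩ := exists_ofHom d.comm (irrQ_irr hψ)
    exact ⟨l, l', hφ, hψ, ofHom_injective (by rw [e, ofHom_mul])⟩
  by_cases h0 : ∀ ω, classInner θ (χ ω) = 0
  · exact Or.inl h0
  right
  push Not at h0
  obtain ⟨ω0, h0⟩ := h0
  obtain ⟨φ0, ψ0, hφ0, hψ0, rfl⟩ := dec ω0
  rw [hd, ofHom_mul] at h0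
  have key : ∀ {A B : Subgroup G} (d : AbDP (W₁ ⊔ W₂) A B) {φ ψ ψ0 : ↥(W₁ ⊔ W₂) →* ℂˣ},
      ofHom _ φ ∈ IrrQ (W₁ ⊔ W₂) B → ofHom _ ψ ∈ IrrQ (W₁ ⊔ W₂) A → ofHom _ ψ0 ∈ IrrQ (W₁ ⊔ W₂) A →
      ((∀ w : ↥(W₁ ⊔ W₂), (w : G) ∈ B → (φ * ψ * ψ0⁻¹) w = 1) ↔ ofHom _ ψ = ofHom _ ψ0) := by
    intro A B d φ ψ ψ0 h1 h2 h3
    have h1' := (ofHom_mem_IrrQ d.le2).1 h1
    constructor
    · intro e
      refine d.col_ext h2 h3 fun y hy => ?_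
      have := e ⟨y, d.le2 hy⟩ hy
      rw [MonoidHom.mul_apply, MonoidHom.mul_apply, h1' _ hy, one_mul, MonoidHom.inv_apply,
        mul_inv_eq_one] at this
      rw [ofHom_apply _ (d.le2 hy), ofHom_apply _ (d.le2 hy), this]
    · intro e w hw
      rw [ofHom_injective e, MonoidHom.mul_apply, MonoidHom.mul_apply, MonoidHom.inv_apply,
        mul_inv_cancel_right, h1' w hw]
  rcases h.small_NC (mem_cf_top.2 hθ) (fun x hx => hθV ⟨x, (mem_cycV.1 hx).1⟩ (mem_cycV.1 hx).2.1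
    (mem_cycV.1 hx).2.2) (by rwa [hNC, min_eq_left hlt.le]) hφ0 hψ0 h0 with e | e
  · refine Or.inl ⟨ψ0, dot ⊤ θ (famSig _ χ (ofHom _ φ0 * ofHom _ ψ0)), fun ω => ?_⟩
    obtain ⟨φ, ψ, hφ, hψ, rfl⟩ := dec ω
    rw [hd, ofHom_mul, e _ hφ _ hψ]
    simp only [key d hφ hψ hψ0]
    congr
  · refine Or.inr ⟨φ0, dot ⊤ θ (famSig _ χ (ofHom _ φ0 * ofHom _ ψ0)), fun ω => ?_⟩
    obtain ⟨φ, ψ, hφ, hψ, rfl⟩ := dec ω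
    rw [hd, ofHom_mul, e _ hφ _ hψ, mul_comm φ ψ]
    simp only [key d.swap hψ hφ hφ0]
    congr

end Cfsg.Agent.S1507
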