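import Cfsg.Statements.S1511
import Cfsg.Agent.H21.Br

set_option autoImplicit false
open Cfsg

open H17 Cfsg H15 CF H21

namespace Cfsg.Agent.S1511

/-- Let L be a finite group with K normal with complement W₁ ≠ 1 a cyclic Hall subgroup, and W₂ ≠ 1 a cyclic subgroup of K equal to C_K(x) for every non-identity x ∈ W₁, with W₁W₂ of odd order. Then there are a map μ from the linear characters of W = W₁ ⊔ W₂ to irreducible characters of L, injective, and a sign δ(ω) ∈ {1, −1} depending only on the values of ω on W₂, such that: for ω, ω' agreeing on W₂, the function induced to L from ω − ω' equals δ(ω) • (μ ω − μ ω'); μ ω x = δ(ω) ω x for x ∈ W outside W₂; every irreducible character of L not of the form μ ω vanishes on W outside W₂; and μ ω 1 − δ(ω) is an integer multiple of Nat.card W₁. -/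
theorem result {L : Type*} [Group L] [Fintype L] (K W₁ W₂ : Subgroup L) [hK : K.Normal] (hKW₁ : K ⊓ W₁ = ⊥) (hKW₁' : K ⊔ W₁ = ⊤) (hW₁ : W₁ ≠ ⊥) (hW₁c : IsCyclic W₁) (hHall : Nat.Coprime (Nat.card W₁) W₁.index) (hW₂ : W₂ ≠ ⊥) (hW₂c : IsCyclic W₂) (hW₂K : W₂ ≤ K) (hC : ∀ x ∈ W₁, x ≠ 1 → K ⊓ Subgroup.centralizer ({x} : Set L) = W₂) (hodd : Odd (Nat.card ↥(W₁ ⊔ W₂))) : ∃ (μ : (↥(W₁ ⊔ W₂) →* ℂˣ) → (L → ℂ)) (δ : (↥(W₁ ⊔ W₂) →* ℂˣ) → ℂ), Function.Injective μ ∧ (∀ ω, Cfsg.IsIrrCharacter L (μ ω)) ∧ (∀ ω, δ ω = 1 ∨ δ ω = -1) ∧ (∀ ω ω' : ↥(W₁ ⊔ W₂) →* ℂˣ, (∀ w : ↥(W₁ ⊔ W₂), (w : L) ∈ W₂ → ω w = ω' w) → δ ω = δ ω' ∧ Cfsg.indFun (W₁ ⊔ W₂) (fun w => (ω w : ℂ) - (ω' w : ℂ)) = δ ω • (μ ω - μ ω')) ∧ (∀ ω, ∀ w : ↥(W₁ ⊔ W₂), (w : L) ∉ W₂ → μ ω w = δ ω * (ω w : ℂ)) ∧ (∀ θ : L → ℂ, Cfsg.IsIrrCharacter L θ → (∀ ω, θ ≠ μ ω) → ∀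 w : ↥(W₁ ⊔ W₂), (w : L) ∉ W₂ → θ w = 0) ∧ (∀ ω, ∃ n : ℤ, μ ω 1 - δ ω = n * (Nat.card W₁ : ℂ)) := by
  have h := primeTI_of hKW₁ hKW₁' hW₁ hW₁c hHall hW₂ hW₂c hC hodd
  have i := @ofHom_mem_Irr L _ _ (W₁ ⊔ W₂)
  refine ⟨fun ω => prIrr ⊤ (W₁ ⊔ W₂) W₁ W₂ (ofHom _ ω),
    fun ω => prSign ⊤ (W₁ ⊔ W₂) W₁ W₂ (ofHom _ ω), fun ω ω' e => ?_,
    fun ω => mem_Irr_top.1 (h.prIrr_mem (i ω)), fun ω => prSign_cases' _ _ _ _ _,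
    fun ω ω' e => ?_, fun ω w hw => ?_, fun θ hθ hne w hw => ?_, fun ω => ?_⟩
  · exact ofHom_injective ((h.cycTI.prIrr_inj (i ω) (i ω')).1 e)
  · have e' : ∀ y ∈ W₂, ofHom _ ω y = ofHom _ ω' y := fun y hy => by
      rw [ofHom_apply _ (h.dp.le2 hy), ofHom_apply _ (h.dp.le2 hy), e _ hy]
    refine ⟨by simp only [h.prSign_eq (i ω) (i ω') e'], ?_⟩
    rw [← h.Ind_sub (i ω) (i ω') e', Ind_top_eq, res_sub, res_ofHom, res_ofHom]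
    rfl
  · simp only []
    rw [h.prIrr_id (i ω) ⟨w.2, hw⟩, ofHom_coe]
  · refine h.not_prIrr_vanish (mem_Irr_top.2 hθ) (fun ω hω => ?_) ⟨w.2, hw⟩
    obtain ⟨l, rfl⟩ := exists_ofHom h.dp.comm hω
    exact hne l
  · obtain ⟨n, hn⟩ := h.prIrr_one_mod (i ω)
    exact ⟨n, by simp only [hn]; ring⟩

end Cfsg.Agent.S1511
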