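import Cfsg.Statements.S1512
import Cfsg.Agent.H18.Dade

set_option autoImplicit false
open Cfsg

namespace Cfsg.Agent.S1512

/-- Let K be a normal subgroup of the finite group L and x a non-identity element whose order is coprime to the order of K, such that K ⊓ C_L(y) = W₂ for every non-identity element y of the cyclic group generated by x. Then the number of conjugacy classes of K mapped to themselves by conjugation by x is at most Nat.card W₂. -/
theorem result {L : Type*} [Group L] [Finite L] (K W₂ : Subgroup L) [hK : K.Normal] (x : L) (hx1 : x ≠ 1) (hx : Nat.Coprime (orderOf x) (Nat.card K)) (hC : ∀ y ∈ Subgroup.zpowers x, y ≠ 1 → K ⊓ Subgroup.centralizer ({y} : Set L) = W₂) : Nat.card {C : ConjClasses K // ConjClasses.map (MulEquiv.toMonoidHom ((MulAut.conjNormal x : MulAut K))) C = C} ≤ Nat.card W₂ := by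
  have hW := hC x (Subgroup.mem_zpowers x) hx1
  have key : ∀ C : ConjClasses K,
      ConjClasses.map (MulEquiv.toMonoidHom ((MulAut.conjNormal x : MulAut K))) C = C →
      ∃ w : K, (w : L) ∈ W₂ ∧ ConjClasses.mk w = C := by
    intro C hC'
    obtain ⟨k, rfl⟩ := ConjClasses.mk_surjective C
    obtain ⟨t, ht⟩ := isConj_iff.1 (ConjClasses.mk_eq_mk_iff_isConj.1 hC')
    have ht' : (t : L) * (x * k * x⁻¹) * (t : L)⁻¹ = k := by
      simpa using congrArg Subtype.val ht
    obtain ⟨s, hs, c, hc, e1, e2⟩ := H18.coset_conj_centralizer K x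
      (by rw [Subgroup.normalizer_eq_top]; trivial) hx t t.2
    refine ⟨⟨s, hs⟩ * k * ⟨s, hs⟩⁻¹, ?_, ConjClasses.mk_eq_mk_iff_isConj.2
      (isConj_iff.2 ⟨(⟨s, hs⟩ : K), rfl⟩).symm⟩
    rw [← hW]
    refine ⟨(⟨s, hs⟩ * k * ⟨s, hs⟩⁻¹ : K).2, Subgroup.mem_centralizer_singleton_iff.2 ?_⟩
    have h1 : Commute (s * k * s⁻¹) (c * x) := by
      rw [← e2]
      have : (k : L) * (t * x) = t * x * k := by
        conv_lhs => rw [← ht']
        conv_rhs => rw [← ht']
        rw [ht']
        calc (k : L) * (t * x) = t * (x * k * x⁻¹) * (t : L)⁻¹ * (t * x) := by rw [ht']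
          _ = t * x * k := by group
      calc s * k * s⁻¹ * (s * (t * x) * s⁻¹) = s * (k * (t * x)) * s⁻¹ := by group
        _ = s * (t * x) * s⁻¹ * (s * k * s⁻¹) := by rw [this]; group
    obtain ⟨n, hn1, hn2⟩ := Nat.chineseRemainder hx 1 0
    have h2 : (c * x) ^ n = x := by
      rw [(show Commute c x from e1).mul_pow, (pow_eq_pow_iff_modEq.2 hn1 : x ^ n = x ^ 1), pow_one]
      obtain ⟨m, rfl⟩ := (Nat.modEq_zero_iff_dvd.1 hn2)
      rw [pow_mul, show c ^ Nat.card K = 1 from
        congrArg Subtype.val (pow_card_eq_one' (x := (⟨c, hc⟩ : K))), one_pow, one_mul]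
    have := h1.pow_right n
    rw [h2] at this
    exact this
  choose f hf1 hf2 using key
  refine Nat.card_le_card_of_injective (fun C => (⟨f C.1 C.2, hf1 _ _⟩ : W₂)) fun a b e => ?_
  have : f a.1 a.2 = f b.1 b.2 := Subtype.ext (congrArg (fun w : W₂ => (w : L)) e)
  exact Subtype.ext (by rw [← hf2 a.1 a.2, this, hf2])

end Cfsg.Agent.S1512
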