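import Cfsg.Statements.S1513
import Cfsg.Agent.H21.Br

set_option autoImplicit false
open Cfsg

open H17 Cfsg H15 CF H21

namespace Cfsg.Agent.S1513

/-- Let L be a finite group with K normal with complement W₁ ≠ 1 a cyclic Hall subgroup, and W₂ ≠ 1 a cyclic subgroup of K equal to C_K(x) for every non-identity x ∈ W₁, with W₁W₂ of odd order. For an irreducible character θ of K: if θ is not fixed under conjugation by some element of W₁, then the function induced from θ to L is an irreducible character of L; and the irreducible characters of K fixed by all of W₁ are exactly Nat.card W₂ in number, each inducing to the sum of Nat.card W₁ pairwise distinct irreducible characters of L. -/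
theorem result {L : Type*} [Group L] [Fintype L] (K W₁ W₂ : Subgroup L) [hK : K.Normal] (hKW₁ : K ⊓ W₁ = ⊥) (hKW₁' : K ⊔ W₁ = ⊤) (hW₁ : W₁ ≠ ⊥) (hW₁c : IsCyclic W₁) (hHall : Nat.Coprime (Nat.card W₁) W₁.index) (hW₂ : W₂ ≠ ⊥) (hW₂c : IsCyclic W₂) (hW₂K : W₂ ≤ K) (hC : ∀ x ∈ W₁, x ≠ 1 → K ⊓ Subgroup.centralizer ({x} : Set L) = W₂) (hodd : Odd (Nat.card ↥(W₁ ⊔ W₂))) : (∀ θ : K → ℂ, Cfsg.IsIrrCharacter K θ → (∃ x ∈ W₁, (fun k : K => θ ⟨x * k * x⁻¹, hK.conj_mem (k : L) k.2 x⟩) ≠ θ) → Cfsg.IsIrrCharacter L (Cfsg.indFun K θ)) ∧ Nat.card {θ : Cfsg.IrrCharacter K // ∀ x ∈ W₁, (fun k : K => (θ : K → ℂ) ⟨x * k * x⁻¹, hK.conj_mem (k : L) k.2 x⟩) = θ} = Nat.card W₂ ∧ (∀ θ : K → ℂ, Cfsg.IsIrrCharacter K θ → (∀ x ∈ W₁, (fun k : K => θ ⟨x * k * x⁻¹, hK.conj_mem (k : L) k.2 x⟩) = θ) → ∃ C : Finset (L → ℂ), C.card = Nat.card W₁ ∧ (∀ μ ∈ C, Cfsg.IsIrrCharacter L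 μ) ∧ Cfsg.indFun K θ = ∑ μ ∈ C, μ) := by
  classical
  have h := primeTI_of hKW₁ hKW₁' hW₁ hW₁c hHall hW₂ hW₂c hC hodd
  have hs : ∀ (θ : K → ℂ) (x : L), x ∈ stab (extendByZero K θ) ↔
      (fun k : K => θ ⟨x * k * x⁻¹, hK.conj_mem (k : L) k.2 x⟩) = θ := fun θ x => by
    rw [mem_stab_ext0 hK, funext_iff]
  obtain ⟨x0, hx0, hx1⟩ := exists_mem_ne_one hW₁
  refine ⟨fun θ hθ ⟨x, hx, hne⟩ => ?_, ?_, fun θ hθ hall => ?_⟩
  · rcases h.prRes_irr_cases (ext0_mem_Irr.2 hθ) with ⟨ψ, hψ, e⟩ | e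
    · exact absurd ((hs θ x).1 (e ▸ h.le_stab_prRes (irrQ_irr hψ) trivial)) hne
    · rw [← Ind_top_ext0]; exact mem_Irr_top.1 e.1
  · rw [← h.card_fixed hx0 hx1, ← Nat.card_eq_finsetCard]
    refine Nat.card_congr (Equiv.ofBijective (fun θ => ⟨extendByZero K θ.1,
      Finset.mem_filter.2 ⟨ext0_mem_Irr.2 θ.1.2, (hs _ _).2 (θ.2 x0 hx0)⟩⟩)
      ⟨fun a b e => ?_, fun ⟨θ, hθ⟩ => ?_⟩)
    · exact Subtype.ext (Subtype.ext (ext0_injective K (congrArg Subtype.val e)))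
    · obtain ⟨h1, h2⟩ := Finset.mem_filter.1 hθ
      have e : extendByZero K (res K θ) = θ := by rw [ext0_res, Res_cf (irr_cf h1)]
      obtain ⟨ψ, hψ, e'⟩ := h.eq_prRes_of_mem_stab h1 hx0 hx1 h2
      refine ⟨⟨⟨res K θ, irr_res h1⟩, fun x _ => (hs _ _).1 ?_⟩, Subtype.ext e⟩
      rw [e, e']
      exact h.le_stab_prRes (irrQ_irr hψ) trivial
  · obtain ⟨ψ, hψ, e⟩ := h.eq_prRes_of_mem_stab (ext0_mem_Irr.2 hθ) hx0 hx1 ((hs _ _).2 (hall x0 hx0))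
    have hinj : Set.InjOn (fun φ => prIrr ⊤ (W₁ ⊔ W₂) W₁ W₂ (φ * ψ)) (IrrQ (W₁ ⊔ W₂) W₂) :=
      fun a ha b hb e => ((h.dp.mul_eq_mul_iff ha hψ hb hψ).1 ((h.cycTI.prIrr_inj
        (h.dp.mul_mem ha hψ) (h.dp.mul_mem hb hψ)).1 e)).1
    refine ⟨(IrrQ (W₁ ⊔ W₂) W₂).image fun φ => prIrr ⊤ (W₁ ⊔ W₂) W₁ W₂ (φ * ψ), ?_, ?_, ?_⟩
    · rw [Finset.card_image_of_injOn hinj, h.dp.card_row]
    · intro μ hμ
      obtain ⟨φ, hφ, rfl⟩ := Finset.mem_image.1 hμ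
      exact mem_Irr_top.1 (h.prIrr_mem (h.dp.mul_mem hφ hψ))
    · rw [Finset.sum_image hinj, ← Ind_top_ext0, e, h.Ind_prRes (irrQ_irr hψ)]
      rfl

end Cfsg.Agent.S1513
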