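import Cfsg.Statements.S1515
import Cfsg.Agent.H18.Br1

set_option autoImplicit false
open Cfsg

namespace Cfsg.Agent.S1515

open H17 H15 CF H21 H18

/-- Let (S, τ, R) be a coherence system from L to G, χ ∈ S, and ψ an integer combination of S with ⟨χ, ψ⟩ = ⟨conj χ, ψ⟩ = 0. Let τ₁ be a linear isometry on the integer combinations of χ − ψ and χ − conj χ, with virtual-character values, agreeing with τ on integer multiples of χ − conj χ. Then the sum over α ∈ R χ of the squared absolute values of ⟨τ₁(χ − ψ), α⟩ is at least ⟨χ, χ⟩; and if ⟨τ₁(χ − ψ), τ₁(χ − ψ)⟩ minus that sum is at least ⟨ψ, ψ⟩, then the sum equals ⟨χ, χ⟩ and every ⟨τ₁(χ − ψ), α⟩ with α ∈ R χ is 0 or 1. -/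
theorem result {L : Type*} [Group L] [Fintype L] {G : Type*} [Group G] [Fintype G] (S : Set (L → ℂ)) (τ : (L → ℂ) → (G → ℂ)) (R : (L → ℂ) → Finset (G → ℂ)) (hS : Cfsg.IsCoherenceSystem S τ R) (χ : L → ℂ) (hχ : χ ∈ S) (ψ : L → ℂ) (hψ : ψ ∈ Cfsg.zspan S) (h1 : Cfsg.classInner χ ψ = 0) (h2 : Cfsg.classInner (Cfsg.conjFun χ) ψ = 0) (τ₁ : (L → ℂ) → (G → ℂ)) (hτ₁ : Cfsg.IsLinearIsometryOn (Cfsg.zspan {χ - ψ, χ - Cfsg.conjFun χ}) τ₁) (hagree : ∀ n : ℤ, τ₁ (n • (χ - Cfsg.conjFun χ)) = τ (n • (χ - Cfsg.conjFun χ))) : (Cfsg.classInner χ χ).re ≤ ∑ α ∈ R χ, ‖Cfsg.classInner (τ₁ (χ - ψ)) α‖ ^ 2 ∧ ((Cfsg.classInner ψ ψ).re ≤ (Cfsg.classInner (τ₁ (χ - ψ)) (τ₁ (χ - ψ))).re - ∑ α ∈ R χ, ‖Cfsg.classInner (τ₁ (χ - ψ)) α‖ ^ 2 → (∑ α ∈ R χ, ‖Cfsg.classInner (τ₁ (χ - ψ)) α‖ ^ 2 = (Cfsg.classInner χ χ).re ∧ ∀ α ∈ R χ, Cfsg.classInner (τ₁ (χ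 - ψ)) α = 0 ∨ Cfsg.classInner (τ₁ (χ - ψ)) α = 1)) := by
  obtain ⟨τ', e, h⟩ := subcoh_of_system hS
  have m1 : χ - ψ ∈ zspan {χ - ψ, χ - conjFun χ} := mem_Z_of_mem (by simp)
  have m2 : χ - conjFun χ ∈ zspan {χ - ψ, χ - conjFun χ} := mem_Z_of_mem (by simp)
  have v := mem_vchar_top.2 (hτ₁.2.2.2 _ m1)
  have e1 : τ₁ (χ - conjFun χ) = τ' (χ - star χ) := by
    have := hagree 1
    rw [one_smul] at this
    rw [this]; exact (e _ (mem_zs1.2 ⟨h.sub_star_Z hχ, h.sub_star_one hχ⟩)).symm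
  simp only [← dot_top] at h1 h2 ⊢
  have hd : dot ⊤ (τ₁ (χ - ψ)) (τ' (χ - star χ)) = dot ⊤ χ χ := by
    rw [← e1, dot_top, hτ₁.2.2.1 _ m1 _ m2, ← dot_top, dot_sub_left, dot_sub_right, dot_sub_right,
      dot_symm_zero h1, dot_symm_zero h2, show dot ⊤ χ (conjFun χ) = 0 from h.dot_star hχ]
    ring
  obtain ⟨a1, a2⟩ := h.core hχ (fun α hα => vchar_dot_int v (h.R_vchar χ hχ α hα)) hd
  refine ⟨a1, fun hle => ?_⟩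
  rw [dot_top (τ₁ _), hτ₁.2.2.1 _ m1 _ m1, ← dot_top, dot_self_sub_of_orth h1, Complex.add_re] at hle
  have : ∑ α ∈ R χ, ‖dot ⊤ (τ₁ (χ - ψ)) α‖ ^ 2 ≤ nrm ⊤ χ := by
    change _ ≤ (dot ⊤ χ χ).re; linarith
  exact ⟨le_antisymm this a1, a2 this⟩

end Cfsg.Agent.S1515
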