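import Cfsg.Statements.S1516
import Cfsg.Agent.H18.Br1

set_option autoImplicit false
open Cfsg

namespace Cfsg.Agent.S1516

open H17 H15 CF H21 H18

/-- Let (S, τ, R) be a coherence system from L to G with degrees φ 1 = d φ and squared norms ⟨φ, φ⟩ = n φ for φ ∈ S. Let S₁ ⊆ S be a finite subset closed under complex conjugation such that (S₁, L minus 1, τ) is coherent, let χ ∈ S with χ ∉ S₁ and conj χ ∉ S₁, and let χ₁ ∈ S₁ with d χ₁ dividing d χ and 2 d χ d χ₁ < Σ_{φ ∈ S₁} (d φ)² / n φ. Then S₁ together with χ and conj χ is coherent. -/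
theorem result {L : Type*} [Group L] [Fintype L] {G : Type*} [Group G] [Fintype G] (S : Set (L → ℂ)) (τ : (L → ℂ) → (G → ℂ)) (R : (L → ℂ) → Finset (G → ℂ)) (hS : Cfsg.IsCoherenceSystem S τ R) (d n : (L → ℂ) → ℕ) (hd : ∀ φ ∈ S, φ 1 = (d φ : ℂ)) (hn : ∀ φ ∈ S, Cfsg.classInner φ φ = (n φ : ℂ)) (S₁ : Finset (L → ℂ)) (hS₁ : ↑S₁ ⊆ S) (hS₁c : ∀ φ ∈ S₁, Cfsg.conjFun φ ∈ S₁) (hcoh : Cfsg.IsCoherent (↑S₁ : Set (L → ℂ)) {1}ᶜ τ) (χ : L → ℂ) (hχ : χ ∈ S) (hχ₁ : χ ∉ S₁) (hχ₂ : Cfsg.conjFun χ ∉ S₁) (χ₁ : L → ℂ) (hχ₁S : χ₁ ∈ S₁) (hdvd : d χ₁ ∣ d χ) (hineq : (2 * d χ * d χ₁ : ℝ) < ∑ φ ∈ S₁, ((d φ : ℝ) ^ 2 / (n φ : ℝ))) : Cfsg.IsCoherent (↑S₁ ∪ {χ, Cfsg.conjFun χ} : Set (L → ℂ)) {1}ᶜ τ := by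
  obtain ⟨τ', e, h⟩ := subcoh_of_system hS
  have c : ConjSub (S₁ : Set (L → ℂ)) S := ⟨hS₁, hS₁c⟩
  have c' := c.insert hχ (h.star_mem χ hχ)
  obtain ⟨a, ha⟩ := hdvd
  have := extend_coherent h c (coherent_of_isCoherent hcoh fun α hα => e α (zs1_mono hS₁ hα)) hχ₁S
    hχ hχ₁ ⟨a, by rw [hd χ hχ, hd χ₁ (hS₁ hχ₁S), ha]; push_cast; ring⟩ (by
      rw [hd χ hχ, hd χ₁ (hS₁ hχ₁S), Finset.sum_congr rfl fun φ hφ => by
        rw [hd φ (hS₁ hφ), show nrm ⊤ φ = (dot ⊤ φ φ).re from rfl, dot_top, hn φ (hS₁ hφ)]]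
      simpa using hineq)
  rw [show (↑S₁ ∪ {χ, conjFun χ} : Set (L → ℂ)) = insert χ (insert (star χ) ↑S₁) by
    ext x; simp only [Set.mem_union, Set.mem_insert_iff, Set.mem_singleton_iff, conjFun_eq_star]; tauto]
  exact isCoherent_of_coherent this (fun α hα => e α (zs1_mono c'.1 hα))
    (h.exists_zs1 c' (Set.insert_nonempty _ _))

end Cfsg.Agent.S1516
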