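import Cfsg.Statements.S1518
import Cfsg.Agent.H18.Br1

set_option autoImplicit false
open Cfsg

namespace Cfsg.Agent.S1518

open H17 H15 CF H21 H18

/-- Under the Dade hypothesis for (A, L, H): if χ is an irreducible character of L vanishing at every non-identity element of L outside A, then the Dade image of χ − conj χ equals μ − conj μ for some irreducible character μ of G. -/
theorem result {G : Type*} [Group G] [Fintype G] (A : Set G) (L : Subgroup G) [Fintype L] (H : G → Subgroup G) (hD : Cfsg.DadeHypothesis A L H) (χ : L → ℂ) (hχ : Cfsg.IsIrrCharacter L χ) (hsupp : ∀ x : L, x ≠ 1 → (x : G) ∉ A → χ x = 0) : ∃ μ : G → ℂ, Cfsg.IsIrrCharacter G μ ∧ Cfsg.dadeIsometry A L H (χ - Cfsg.conjFun χ) = μ - Cfsg.conjFun μ := by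
  obtain ⟨μ, h1, h2⟩ := Dade_irr_sub_conjC hD (ext0_mem_Irr.2 hχ) (fun x hx => by
    by_cases hL : x ∈ L
    · rw [ext0_mem _ _ hL]
      exact hsupp _ (fun e => hx (Or.inl (congrArg Subtype.val e))) fun e => hx (Or.inr e)
    · exact ext0_not_mem _ _ hL)
  refine ⟨μ, mem_Irr_top.1 h1, ?_⟩
  rw [← Dade_ext0, conjFun_eq_star μ, ← h2]
  congr 1
  ext x
  by_cases hL : x ∈ L <;> simp [H18.ext0_apply, hL, conjFun]

end Cfsg.Agent.S1518
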