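import Cfsg.Statements.S1519
import Cfsg.Agent.H18.Br1

set_option autoImplicit false
open Cfsg

namespace Cfsg.Agent.S1519

open H17 H15 CF H21 H18

/-- Let K be a solvable normal subgroup of the finite group L and (S, τ, R) a coherence system from L to G where S is the set of functions induced from non-principal irreducible characters of K; write S(A) for those induced from characters whose kernel contains A. Let A, B, C, D be normal subgroups of L with A < K, B < K, B ≤ D ≤ C ≤ K and every commutator of D with C in B. If S(A) is coherent and 4 * [L:C]^2 * [C:D] < ([K:A] − 1)^2, then S(B) is coherent. -/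
theorem result {L : Type*} [Group L] [Fintype L] {G : Type*} [Group G] [Fintype G] (K : Subgroup L) [hK : K.Normal] (hsolv : Group.IsSolvable K) (τ : (L → ℂ) → (G → ℂ)) (R : (L → ℂ) → Finset (G → ℂ)) (hS : Cfsg.IsCoherenceSystem (Cfsg.inducedIrrAbove K ⊥) τ R) (A B C D : Subgroup L) [A.Normal] [B.Normal] [C.Normal] [D.Normal] (hAK : A < K) (hBK : B < K) (hBD : B ≤ D) (hDC : D ≤ C) (hCK : C ≤ K) (hcent : ∀ x ∈ D, ∀ y ∈ C, x * y * x⁻¹ * y⁻¹ ∈ B) (hA : Cfsg.IsCoherent (Cfsg.inducedIrrAbove K A) {1}ᶜ τ) (hlt : 4 * C.index ^ 2 * D.relIndex C < (A.relIndex K - 1) ^ 2) : Cfsg.IsCoherent (Cfsg.inducedIrrAbove K B) {1}ᶜ τ := by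
  obtain ⟨τ', e, h⟩ := subcoh_of_system hS
  rw [inducedIrrAbove_eq bot_le] at h e
  rw [inducedIrrAbove_eq hAK.le] at hA
  rw [inducedIrrAbove_eq hBK.le]
  have c : ∀ M : Subgroup L, ConjSub (seqIndD K ⊤ K M : Set (L → ℂ)) (seqIndD K ⊤ K ⊥) :=
    fun M => conjSub_seqIndD le_rfl bot_le
  refine isCoherent_of_coherent (by_contra fun hn => hlt.not_ge ?_)
    (fun α hα => e α (zs1_mono (c B).1 hα)) (h.exists_zs1 (c B)
      (seqIndD_nonempty hBK.le (le_top.trans (top_le_norm B)) hBK.not_ge))
  rw [← Subgroup.relIndex_top_right]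
  exact coherent_seqIndD_bound le_top (top_le_norm K) hsolv h (top_le_norm A) (top_le_norm B) hAK hBD
    hDC hCK (Subgroup.commutator_le.2 hcent)
    (coherent_of_isCoherent hA fun α hα => e α (zs1_mono (c A).1 hα)) hn

end Cfsg.Agent.S1519
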