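import Cfsg.Statements.S1521
import Cfsg.Agent.H18.Br1

set_option autoImplicit false
open Cfsg

namespace Cfsg.Agent.S1521

open H17 H15 CF H21 H18

/-- Let K be a solvable normal subgroup of the finite group L of odd order and (S, τ, R) a coherence system from L to G with S the functions induced from non-principal irreducible characters of K; S(A) as before. Let M ≤ K be normal in L with K/M nilpotent, H₁ = [K, K] ⊔ M, H₁ < K < L, and suppose every element of K outside H₁ is centralised modulo H₁ only from inside K (L/H₁ is a Frobenius group with kernel K/H₁). Suppose one of the following: some normal subgroup of L lies strictly between H₁ and K; or [K:H₁] > 4[L:K]^2 + 1; or [K:M] is not a prime power; or [K,K] ≤ M; or [K:M] is a power of a prime p with [L:K] dividing p − 1. Then S(M) is coherent. -/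
theorem result {L : Type*} [Group L] [Fintype L] {G : Type*} [Group G] [Fintype G] (K : Subgroup L) [hK : K.Normal] (hsolv : Group.IsSolvable K) (τ : (L → ℂ) → (G → ℂ)) (R : (L → ℂ) → Finset (G → ℂ)) (hS : Cfsg.IsCoherenceSystem (Cfsg.inducedIrrAbove K ⊥) τ R) (hodd : Odd (Nat.card L)) (M : Subgroup L) [M.Normal] (hMK : M ≤ K) [(M.subgroupOf K).Normal] (hnil : Group.IsNilpotent (↥K ⧸ M.subgroupOf K)) (H₁ : Subgroup L) (hH₁ : H₁ = ⁅K, K⁆ ⊔ M) (hH₁K : H₁ < K) (hKL : K < ⊤) (hfrob : ∀ k ∈ K, k ∉ H₁ → ∀ x : L, x * k * x⁻¹ * k⁻¹ ∈ H₁ → x ∈ K) (hgood : (∃ N : Subgroup L, N.Normal ∧ H₁ < N ∧ N < K) ∨ 4 * K.index ^ 2 + 1 < H₁.relIndex K ∨ (¬ ∃ p m : ℕ, p.Prime ∧ M.relIndex K = p ^ m) ∨ ⁅K, K⁆ ≤ M ∨ (∃ p m : ℕ, p.Prime ∧ M.relIndex K = p ^ m ∧ K.index ∣ p - 1)) : Cfsg.IsCoherent (Cfsg.inducedIrrAbove K M) {1}ᶜ τ := by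
  obtain ⟨τ', e, h⟩ := subcoh_of_system hS
  subst hH₁
  rw [inducedIrrAbove_eq bot_le] at h e
  rw [inducedIrrAbove_eq hMK]
  have c : ∀ M : Subgroup L, ConjSub (seqIndD K ⊤ K M : Set (L → ℂ)) (seqIndD K ⊤ K ⊥) :=
    fun M => conjSub_seqIndD le_rfl bot_le
  refine isCoherent_of_coherent (by_contra fun hn => ?_)
    (fun α hα => e α (zs1_mono (c M).1 hα)) (h.exists_zs1 (c M)
      (seqIndD_nonempty hMK (le_top.trans (top_le_norm M)) fun e => hH₁K.not_ge (e.trans le_sup_right)))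
  have hF : OddFrobQ ⊤ K M := ⟨by rwa [Subgroup.card_top], top_le_norm K, top_le_norm M, hMK,
    qnil_of_quot hnil, hH₁K.not_ge, hKL, fun k hk hk' x _ => hfrob k hk hk' x⟩
  obtain ⟨a1, a2, p, hp, ⟨n, a3⟩, a4, a5⟩ := non_coherent_chief hsolv h hF hn
  rw [Subgroup.relIndex_top_right] at a2 a5
  rcases hgood with ⟨N, _, b1, b2⟩ | b | b | b | ⟨q, m, hq, b1, b2⟩
  · exact (a1 N (top_le_norm N) b1.le b2.le).elim b1.ne' b2.ne
  · omega
  · exact b ⟨p, n, hp, a3⟩
  · exact a4 b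
  · have n0 : n ≠ 0 := by
      rintro rfl
      exact hH₁K.not_ge ((Subgroup.relIndex_eq_one.1 (by simpa using a3)).trans le_sup_right)
    have : p = q := (Nat.prime_dvd_prime_iff_eq hp hq).1
      (hp.dvd_of_dvd_pow (b1 ▸ a3 ▸ dvd_pow_self p n0))
    exact a5 (this ▸ b2)

end Cfsg.Agent.S1521
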