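import Cfsg.Statements.S1522
import Cfsg.Agent.H18.Br1

set_option autoImplicit false
open Cfsg

namespace Cfsg.Agent.S1522

open H17 H15 CF H21 H18

/-- Let K be a nilpotent normal subgroup of the finite group L of odd order with [K,K] < K < L and L/[K,K] a Frobenius group with kernel K/[K,K] (elements of K outside [K,K] are centralised modulo [K,K] only from inside K); let (S, τ, R) be a coherence system from L to G with S the functions induced from non-principal irreducible characters of K. Let Z be a nontrivial normal subgroup of L contained in the centre of K, and suppose every member of S outside S(Z) is an irreducible character of L. Then S minus S(Z) is the set of irreducible characters χ of L with χ z ≠ χ 1 for some z ∈ Z, and it is coherent. -/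
theorem result {L : Type*} [Group L] [Fintype L] {G : Type*} [Group G] [Fintype G] (K : Subgroup L) [hK : K.Normal] (hsolv : Group.IsSolvable K) (τ : (L → ℂ) → (G → ℂ)) (R : (L → ℂ) → Finset (G → ℂ)) (hS : Cfsg.IsCoherenceSystem (Cfsg.inducedIrrAbove K ⊥) τ R) (hodd : Odd (Nat.card L)) (hnil : Group.IsNilpotent K) (hH₁K : ⁅K, K⁆ < K) (hKL : K < ⊤) (hfrob : ∀ k ∈ K, k ∉ ⁅K, K⁆ → ∀ x : L, x * k * x⁻¹ * k⁻¹ ∈ ⁅K, K⁆ → x ∈ K) (Z : Subgroup L) [Z.Normal] (hZ1 : Z ≠ ⊥) (hZK : Z ≤ K) (hZc : ∀ z ∈ Z, ∀ k ∈ K, z * k = k * z) (hirr : ∀ χ ∈ Cfsg.inducedIrrAbove K ⊥ \ Cfsg.inducedIrrAbove K Z, Cfsg.IsIrrCharacter L χ) : Cfsg.inducedIrrAbove K ⊥ \ Cfsg.inducedIrrAbove K Z = {χ | Cfsg.IsIrrCharacter L χ ∧ ∃ z ∈ Z, χ z ≠ χ 1} ∧ Cfsg.IsCoherent (Cfsg.inducedIrrAbove K ⊥ \ Cfsg.inducedIrrAbove K Z) {1}ᶜ τ := by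
  obtain ⟨τ', e, h⟩ := subcoh_of_system hS
  have eX : inducedIrrAbove K ⊥ \ inducedIrrAbove K Z = seqIndD K ⊤ Z ⊥ := by
    rw [inducedIrrAbove_eq bot_le, inducedIrrAbove_eq hZK]
    ext χ
    simp only [Set.mem_sdiff, Finset.mem_coe,
      mem_seqIndD_iff_cfker le_top le_rfl bot_le (top_le_norm K) (le_norm_bot _),
      mem_seqIndD_iff_cfker le_top le_rfl hZK (top_le_norm K) (top_le_norm Z),
      mem_seqIndD_iff_cfker le_top hZK bot_le (top_le_norm Z) (le_norm_bot _)]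
    exact ⟨fun ⟨a, b⟩ => ⟨a.1, a.2.1, fun c => b ⟨a.1, c, a.2.2⟩⟩,
      fun a => ⟨⟨a.1, a.2.1, fun c => a.2.2 (hZK.trans c)⟩, fun b => a.2.2 b.2.1⟩⟩
  rw [eX] at hirr ⊢
  rw [inducedIrrAbove_eq bot_le] at h e
  have c : ConjSub (seqIndD K ⊤ Z ⊥ : Set (L → ℂ)) (seqIndD K ⊤ K ⊥) := conjSub_seqIndD hZK le_rfl
  have hF : OddFrobQ ⊤ K ⊥ := ⟨by rwa [Subgroup.card_top], top_le_norm K, le_norm_bot _, bot_le,
    H16.qnil_of_nil hnil _, by simpa using hH₁K.not_ge, hKL, fun k hk hk' x _ => by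
      simpa using hfrob k hk (by simpa using hk') x⟩
  obtain ⟨a1, a2⟩ := seqIndD_irr_coherence h hF (top_le_norm Z) hZ1 hZK
    (fun z hz k hk => (hZc z hz k hk).symm) fun χ hχ => mem_Irr_top.2 (hirr χ hχ)
  refine ⟨Set.ext fun χ => (a1 χ).trans ?_, isCoherent_of_coherent a2
    (fun α hα => e α (zs1_mono c.1 hα)) (h.exists_zs1 c
      (seqIndD_nonempty bot_le (le_norm_bot _) (by simpa using hZ1)))⟩
  rw [Set.mem_setOf_eq, ← mem_Irr_top]
  refine and_congr_right fun hχ => ?_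
  rw [(irr_char hχ).le_cfker]; simp

end Cfsg.Agent.S1522
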