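import Cfsg.Statements.S1524
import Cfsg.Agent.H18.Br1

set_option autoImplicit false
open Cfsg

namespace Cfsg.Agent.S1524

open H17 H15 CF H21 H18

/-- Let G be a finite group and H ≤ L subgroups with L of odd order, H ≠ ⊥ nilpotent and normal in L with a nontrivial complement W₁ in L (H ⊓ W₁ = ⊥, H ⊔ W₁ = L) acting on H without non-identity fixed points (L is a Frobenius group with kernel H), and suppose the underlying set of H is a TI-subset of G whose normaliser is L. Let S be the set of functions on L induced from the non-principal irreducible characters of H. Then (S, L minus 1, induction to G) is coherent. -/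
theorem result {G : Type*} [Group G] [Fintype G] (H L W₁ : Subgroup G) [Fintype L] (hodd : Odd (Nat.card L)) (hHL : H ≤ L) (hW₁L : W₁ ≤ L) (hH1 : H ≠ ⊥) (hW1 : W₁ ≠ ⊥) (hnil : Group.IsNilpotent H) (hHn : ∀ x ∈ L, ∀ h ∈ H, x * h * x⁻¹ ∈ H) (hinf : H ⊓ W₁ = ⊥) (hsup : H ⊔ W₁ = L) (hfpf : ∀ w ∈ W₁, w ≠ 1 → ∀ h ∈ H, w * h = h * w → h = 1) (hTI : Cfsg.IsTISubset (H : Set G)) (hN : Subgroup.normalizer (H : Set G) = L) : Cfsg.IsCoherent (Cfsg.inducedIrrAbove (H.subgroupOf L) ⊥) {1}ᶜ (fun α : L → ℂ => Cfsg.indFun L α) := by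
  have hF : FT.FrobK L H := hsup ▸ (FT.frob_sup (hW₁L.trans hN.ge)
    (FT.sreg_iff.2 fun w hw w1 k hk e => hfpf w hw w1 k hk e.symm) hH1 hW1).frobK
  obtain ⟨χ, hχ⟩ := seqIndD_nonempty (L := L) (bot_le : ⊥ ≤ H) (le_norm_bot H) (by simpa using hH1)
  refine isCoherent_of_amb (fun _ => ext0_mem_seqIndC1 hHL)
    (Sibley_coherence_frob hodd hnil (hN ▸ normedTI_of_TI hTI hH1) hF) (fun α _ => Ind_top_ext0 α)
    (exists_zs1_amb (fun _ => res_mem_inducedIrrAbove hHL) (fun _ h => cf_le_supp _ (seqIndD_cf hHL h))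
      (star_mem_seqIndD hχ) hχ (seqIndD_star_ne hHL hN.ge hodd le_rfl hχ) (seqIndD_char hHL hχ).conj_one)

end Cfsg.Agent.S1524
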