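import Cfsg.Statements.S1525
import Cfsg.Agent.H18.Dade

set_option autoImplicit false
open Cfsg

namespace Cfsg.Agent.S1525



/-- Under the Dade hypothesis for (A, L, H), let χ be a class function of G and let ψ be a function on L whose value at each a ∈ A is the average of χ over the coset a·H(a). Then (1/|G|) Σ |χ g|² over the elements g of G conjugate into some coset a·H(a) with a ∈ A is at least (1/|L|) Σ_{a ∈ A ∩ L} |ψ a|². -/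
theorem result {G : Type*} [Group G] [Fintype G] (A : Set G) (L : Subgroup G) [Fintype L] (H : G → Subgroup G) (hD : Cfsg.DadeHypothesis A L H) (χ : G → ℂ) (hχ : Cfsg.IsClassFunction G χ) (ψ : L → ℂ) (hψ : ∀ a : L, (a : G) ∈ A → ψ a = (Nat.card (H a) : ℂ)⁻¹ * ∑ᶠ u ∈ (H a : Set G), χ (a * u)) : (Nat.card L : ℝ)⁻¹ * ∑ᶠ a ∈ {a : L | (a : G) ∈ A}, ‖ψ a‖ ^ 2 ≤ (Nat.card G : ℝ)⁻¹ * ∑ᶠ g ∈ {g : G | ∃ a ∈ A, ∃ u ∈ H a, ∃ x : G, x * g * x⁻¹ = a * u}, ‖χ g‖ ^ 2 := by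
  classical
  have h1 := H18.dade_sum hD (α := fun _ => 1) (H18.isClass_const 1)
    (F := fun g => ((‖χ g‖ ^ 2 : ℝ) : ℂ)) (fun g h => by simp only [hχ g h])
  have h2 : ∀ g : G, Cfsg.dadeIsometry A L H (fun _ => 1) g * ((‖χ g‖ ^ 2 : ℝ) : ℂ) =
      ((if ∃ a ∈ A, ∃ u ∈ H a, ∃ x : G, x * g * x⁻¹ = a * u then ‖χ g‖ ^ 2 else 0 : ℝ) : ℂ) := by
    intro g
    split_ifs with h
    · obtain ⟨a, ha, u, hu, x, hx⟩ := h
      rw [H18.dade_apply hD (H18.isClass_const 1) (a := ⟨a, hD.subset ha⟩) ha hu hx, one_mul]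
    · rw [H18.dade_apply_of_not, zero_mul, Complex.ofReal_zero]
      rintro ⟨a, ha, x, u, hu, hx⟩
      exact h ⟨a, ha, u, hu, x, hx⟩
  have h3 : ∀ a : L, (if (a : G) ∈ A then (1 : ℂ) * ((Nat.card (H a) : ℂ)⁻¹ *
      ∑ᶠ u ∈ (H a : Set G), ((‖χ (a * u)‖ ^ 2 : ℝ) : ℂ)) else 0) =
      ((if (a : G) ∈ A then (Nat.card (H a) : ℝ)⁻¹ * ∑ u : H a, ‖χ (a * u)‖ ^ 2 else 0 : ℝ) : ℂ) := by
    intro a
    split_ifs
    · rw [H18.finsum_mem_subgroup]; push_cast; ring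
    · simp
  simp only [h2, h3] at h1
  have h4 : (Nat.card G : ℝ)⁻¹ * ∑ g : G,
      (if ∃ a ∈ A, ∃ u ∈ H a, ∃ x : G, x * g * x⁻¹ = a * u then ‖χ g‖ ^ 2 else 0 : ℝ) =
      (Nat.card L : ℝ)⁻¹ * ∑ a : L,
      (if (a : G) ∈ A then (Nat.card (H a) : ℝ)⁻¹ * ∑ u : H a, ‖χ (a * u)‖ ^ 2 else 0 : ℝ) := by
    apply Complex.ofReal_injective
    simpa only [Complex.ofReal_mul, Complex.ofReal_inv, Complex.ofReal_natCast,
      Complex.ofReal_sum] using h1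
  rw [H18.finsum_setOf_eq_sum_ite, H18.finsum_setOf_eq_sum_ite, h4]
  gcongr with a
  split_ifs with ha
  · rw [hψ a ha, H18.finsum_mem_subgroup, norm_mul, mul_pow, norm_inv, Complex.norm_natCast]
    have h5 : ‖∑ u : H a, χ (a * u)‖ ^ 2 ≤ Nat.card (H a) * ∑ u : H a, ‖χ (a * u)‖ ^ 2 := by
      calc ‖∑ u : H a, χ (a * u)‖ ^ 2 ≤ (∑ u : H a, ‖χ (a * u)‖) ^ 2 := by
            gcongr; exact norm_sum_le _ _
        _ ≤ _ := by
          rw [Nat.card_eq_fintype_card, ← Finset.card_univ]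
          exact sq_sum_le_card_mul_sum_sq
    have h6 : (0 : ℝ) < Nat.card (H a) := by exact_mod_cast Nat.card_pos
    calc _ ≤ (Nat.card (H a) : ℝ)⁻¹ ^ 2 * (Nat.card (H a) * ∑ u : H a, ‖χ (a * u)‖ ^ 2) := by gcongr
      _ = _ := by field_simp
  · exact le_rfl

end Cfsg.Agent.S1525
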