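import Cfsg.Statements.S1527
import Cfsg.Agent.H18.PF6b

set_option autoImplicit false
open Cfsg

namespace Cfsg.Agent.S1527

open H17 H15 CF H21 H18

/-- Let G be a finite group and H i (i in a finite index type) subgroups of pairwise coprime orders, each of whose underlying sets is a TI-subset of G, such that every non-identity element of G is conjugate to an element of some H i. Then Nat.card G − 1 = Σ_i [G : N_G(H i)] · (Nat.card (H i) − 1). -/
theorem result {G : Type*} [Group G] [Finite G] {ι : Type*} [Fintype ι] (H : ι → Subgroup G) (hcop : ∀ i j, i ≠ j → Nat.Coprime (Nat.card (H i)) (Nat.card (H j))) (hTI : ∀ i, Cfsg.IsTISubset (H i : Set G)) (hcover : ∀ g : G, g ≠ 1 → ∃ i, ∃ x : G, x * g * x⁻¹ ∈ H i) : Nat.card G - 1 = ∑ i, (Subgroup.normalizer (H i : Set G)).index * (Nat.card (H i) - 1) := by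
  have e : (⋃ i, csupp ((H i : Set G) \ {1}) ⊤) = {1}ᶜ := by
    ext g
    simp only [Set.mem_iUnion, Set.mem_compl_iff, Set.mem_singleton_iff, mem_csupp']
    refine ⟨fun ⟨i, x, _, hx⟩ e => hx.2 (by simp [e]), fun h => ?_⟩
    obtain ⟨i, x, hx⟩ := hcover g h
    exact ⟨i, x, trivial, hx, by simpa using h⟩
  have s := sum_fs_iUnion (B := fun i => csupp ((H i : Set G) \ {1}) ⊤)
    (fun i j n => csupp_disjoint_of_coprime (hcop i j n)) fun _ => (1 : ℕ)
  simp only [e, sum_fs_const, Nat.cast_id, mul_one] at s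
  rw [Set.ncard_compl, Set.ncard_singleton] at s
  rw [s]
  refine Finset.sum_congr rfl fun i _ => ?_
  by_cases h : H i = ⊥
  · simp [h, csupp]
  rw [(normedTI_of_TI (hTI i) h).ncard_csupp fun x hx => Subgroup.le_normalizer hx.1,
    Subgroup.relIndex_top_right, Set.ncard_diff_singleton_of_mem (H i).one_mem]
  rfl

end Cfsg.Agent.S1527
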