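import Cfsg.Statements.S1529
import Cfsg.Agent.H18.Feit

set_option autoImplicit false
open Cfsg

namespace Cfsg.Agent.S1529

open H17 H15 CF H21 H18

/-- Let N be a subgroup of the finite group G, S a set of irreducible characters of N with at least two members, and τ₁ a linear isometry on the integer combinations of S with virtual-character values such that τ₁ α vanishes at 1 whenever α ∈ ℤ[S] does. Then there is ε ∈ {1, −1} such that ε • τ₁ χ is an irreducible character of G for every χ ∈ S, and distinct members of S give distinct characters. -/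
theorem result {G : Type*} [Group G] [Fintype G] (N : Subgroup G) [Fintype N] (S : Set (N → ℂ)) (hirr : ∀ χ ∈ S, Cfsg.IsIrrCharacter N χ) (htwo : ∃ χ ∈ S, ∃ ψ ∈ S, χ ≠ ψ) (τ₁ : (N → ℂ) → (G → ℂ)) (hτ₁ : Cfsg.IsLinearIsometryOn (Cfsg.zspan S) τ₁) (h0 : ∀ α ∈ Cfsg.zspan S, α 1 = 0 → τ₁ α 1 = 0) : ∃ ε : ℂ, (ε = 1 ∨ ε = -1) ∧ (∀ χ ∈ S, Cfsg.IsIrrCharacter G (ε • τ₁ χ)) ∧ (∀ χ ∈ S, ∀ ψ ∈ S, τ₁ χ = τ₁ ψ → χ = ψ) := by
  obtain ⟨ν, e, hz⟩ := exists_linear_of_isLinearIsometryOn hτ₁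
  have iS : S ⊆ ((Irr (⊤ : Subgroup N) : Finset _) : Set _) := fun χ hχ => mem_Irr_top.2 (hirr χ hχ)
  have hν : CohWith ⊤ S ν ν := ⟨hz.mono fun _ => mem_Z_of_mem, fun _ _ _ => rfl⟩
  have hi : Iso1 ⊤ S ν := ⟨fun α a _ β b _ => hz.dot a b, fun α a _ => hz.vchar a,
    fun α a b => by rw [e α a, h0 α a b]⟩
  obtain ⟨η, hη, -⟩ := htwo
  have e' : ∀ χ ∈ S, τ₁ χ = ν χ := fun χ hχ => (e χ (mem_Z_of_mem hχ)).symm
  obtain ⟨ε, hε, ψ, hψ, eψ⟩ := mem_dirr_iff_sign.1 (hν.dirr hη (iS hη))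
  refine ⟨ε, by rcases hε with rfl | rfl <;> simp, fun χ hχ => mem_Irr_top.1 ?_, fun χ a ξ b c =>
    hν.iso.1.injOn_of_pairOrth (on_of_subset_Irr iS).pairOrth a b (by rw [← e' χ a, ← e' ξ b, c])⟩
  rw [e' χ hχ]
  refine dirr_mem_Irr (sign_smul_mem_dirr (hν.dirr hχ (iS hχ)) hε) ?_
  have := hν.one_mul_one hi (irr_one_int iS) hχ hη
  obtain ⟨a, a0, ha⟩ := irr_pos_one (iS hχ)
  obtain ⟨b, b0, hb⟩ := irr_pos_one (iS hη)
  obtain ⟨c, -, hc⟩ := irr_pos_one hψ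
  have b1 : (b : ℂ) ≠ 0 := by exact_mod_cast b0.ne'
  rw [eψ, ha, hb, Pi.smul_apply, hc, smul_eq_mul] at this
  have : ((ε : ℂ) • ν χ) 1 = ((a * c / b : ℝ) : ℂ) := by
    rw [Pi.smul_apply, smul_eq_mul]; push_cast; field_simp
    rcases hε with rfl | rfl <;> push_cast at this ⊢
    · linear_combination this
    · linear_combination -this
  rw [this, Complex.ofReal_re]; positivity

end Cfsg.Agent.S1529
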