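import Cfsg.Statements.S1531
import Cfsg.Agent.H18.Feit

set_option autoImplicit false
open Cfsg

namespace Cfsg.Agent.S1531

open H17 H15 CF H21 H18

/-- Let N be a subgroup of the finite group G, S a set of irreducible characters of N, and α a linear isometry on the integer combinations of S vanishing at 1 with values virtual characters of G vanishing at 1. Let X, Y ⊆ S be disjoint, each with at least two members, and σ, τ linear isometries on ℤ[X], ℤ[Y] into virtual characters agreeing with α on the members vanishing at 1. Then ⟨σ χ, τ η⟩ = 0 for χ ∈ X, η ∈ Y; and if for some χ₀ ∈ X, η₀ ∈ Y with degrees c = χ₀ 1, e = η₀ 1 one has α (c • η₀ − e • χ₀) = c • τ η₀ − e • σ χ₀, then (X ∪ Y, N minus 1, α) is coherent. -/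
theorem result {G : Type*} [Group G] [Fintype G] (N : Subgroup G) [Fintype N] (S X Y : Set (N → ℂ)) (hirr : ∀ ξ ∈ S, Cfsg.IsIrrCharacter N ξ) (hXS : X ⊆ S) (hYS : Y ⊆ S) (hXY : Disjoint X Y) (hX2 : ∃ a ∈ X, ∃ b ∈ X, a ≠ b) (hY2 : ∃ a ∈ Y, ∃ b ∈ Y, a ≠ b) (α : (N → ℂ) → (G → ℂ)) (hα : Cfsg.IsLinearIsometryOn (Cfsg.zspanOn S {1}ᶜ) α) (hα1 : ∀ θ ∈ Cfsg.zspanOn S {1}ᶜ, α θ 1 = 0) (σ τ : (N → ℂ) → (G → ℂ)) (hσ : Cfsg.IsLinearIsometryOn (Cfsg.zspan X) σ) (hσα : ∀ θ ∈ Cfsg.zspanOn X {1}ᶜ, σ θ = α θ) (hτ : Cfsg.IsLinearIsometryOn (Cfsg.zspan Y) τ) (hτα : ∀ θ ∈ Cfsg.zspanOn Y {1}ᶜ, τ θ = α θ) : (∀ χ ∈ X, ∀ η ∈ Y, Cfsg.classInner (σ χ) (τ η) = 0) ∧ ((∃ χ₀ ∈ X, ∃ η₀ ∈ Y, α (χ₀ 1 • η₀ - η₀ 1 • χ₀) = χ₀ 1 • τ η₀ - η₀ 1 • σ χ₀) → Cfsg.IsCoherent (X ∪ Y) {1}ᶜ α) := by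
  obtain ⟨α', e, hi⟩ := exists_iso1 hα hα1
  obtain ⟨ν₁, h₁, e₁⟩ := exists_cohWith (τ' := α') hσ fun θ hθ => by
    rw [hσα θ hθ, e θ (zs1_mono hXS hθ)]
  obtain ⟨ν₂, h₂, e₂⟩ := exists_cohWith (τ' := α') hτ fun θ hθ => by
    rw [hτα θ hθ, e θ (zs1_mono hYS hθ)]
  have iS : S ⊆ ((Irr (⊤ : Subgroup N) : Finset _) : Set _) := fun ξ hξ => mem_Irr_top.2 (hirr ξ hξ)
  have o : ∀ χ ∈ X, ∀ η ∈ Y, dot ⊤ (ν₁ χ) (ν₂ η) = 0 := fun χ hχ η hη =>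
    irr_coherent_ortho iS hi hXS hYS hXY hX2 hY2 h₁ h₂ hχ hη
  refine ⟨fun χ hχ η hη => by
    rw [← e₁ χ (mem_Z_of_mem hχ), ← e₂ η (mem_Z_of_mem hη), ← dot_top, o χ hχ η hη],
    fun ⟨χ, hχ, η, hη, h⟩ => ?_⟩
  have sU := Set.union_subset hXS hYS
  have c0 := irr_one_ne (iS (hXS hχ))
  have c1 := irr_one_ne (iS (hYS hη))
  obtain ⟨a, ha⟩ := irr_one_int iS χ (hXS hχ)
  obtain ⟨b, hb⟩ := irr_one_int iS η (hYS hη)
  rw [← e _ (mem_zs1.2 ⟨sub_mem (ha ▸ intCast_smul_mem (mem_Z_of_mem (hYS hη)) a)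
    (hb ▸ intCast_smul_mem (mem_Z_of_mem (hXS hχ)) b), by simp [mul_comm]⟩),
    ← e₁ χ (mem_Z_of_mem hχ), ← e₂ η (mem_Z_of_mem hη)] at h
  obtain ⟨ν, hν, -⟩ := bridge_cohWith_of_orth (on_of_subset_Irr (sU.trans iS)).pairOrth
    (irr_one_int (sU.trans iS)) h₁ h₂ hXY o
    (Submodule.smul_mem _ (η 1) (Submodule.subset_span hχ))
    (Submodule.smul_mem _ (χ 1) (Submodule.subset_span hη)) (by simp [c0, c1])
    (by simp [mul_comm]) (by rw [← neg_sub, map_neg, h, map_smul, map_smul, neg_sub])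
  exact isCoherent_of_coherent ⟨ν, hν⟩ (fun θ hθ => e θ (zs1_mono sU hθ))
    (exists_zs1_of_irr (Or.inl hχ) (Or.inr hη) (fun e => Set.disjoint_left.1 hXY hχ (e ▸ hη))
      (iS (hXS hχ)) (iS (hYS hη)))

end Cfsg.Agent.S1531
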