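import Cfsg.Statements.S1532
import Cfsg.Agent.H18.Feit2

set_option autoImplicit false
open Cfsg

namespace Cfsg.Agent.S1532

open H17 H15 CF H21 H18

/-- Let G be a finite group, p an odd prime and P a Sylow p-subgroup that is non-abelian, whose underlying set is a TI-subset of G, with P properly contained in its set normaliser N and C_G(x) ≤ P for every non-identity x ∈ P. Let Z be a nontrivial subgroup of the centre of P normalised by N. Then the set of irreducible characters χ of N with χ z ≠ χ 1 for some z ∈ Z is coherent for the map induced by induction from N to G. -/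
theorem result {G : Type*} [Group G] [Fintype G] (p : ℕ) [Fact p.Prime] (hp : p ≠ 2) (P : Sylow p G) (hna : ¬ IsMulCommutative (P : Subgroup G)) (hTI : Cfsg.IsTISubset ((P : Subgroup G) : Set G)) (hlt : (P : Subgroup G) < Subgroup.normalizer ((P : Subgroup G) : Set G)) (hC : ∀ k ∈ (P : Subgroup G), k ≠ 1 → Subgroup.centralizer ({k} : Set G) ≤ (P : Subgroup G)) [Fintype ↥(Subgroup.normalizer ((P : Subgroup G) : Set G))] (Z : Subgroup G) (hZ1 : Z ≠ ⊥) (hZP : ∀ z ∈ Z, z ∈ (P : Subgroup G) ∧ ∀ y ∈ (P : Subgroup G), z * y = y * z) (hZn : ∀ x ∈ Subgroup.normalizer ((P : Subgroup G) : Set G), ∀ z ∈ Z, x * z * x⁻¹ ∈ Z) : Cfsg.IsCoherent {χ : ↥(Subgroup.normalizer ((P : Subgroup G) : Set G)) → ℂ | Cfsg.IsIrrCharacter ↥(Subgroup.normalizer ((P : Subgroup G) : Set G)) χ ∧ ∃ z : ↥(Subgroup.normalizer ((P : Subgroup G) : Set G)), (z : G) ∈ Z ∧ χ z ≠ χ 1} {1}ᶜ (fun α => Cfsg.indFun (Subgroup.normalizer ((P : Subgroup G) : Set G)) α) := by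
  have hZK : Z ≤ P := fun z hz => (hZP z hz).1
  have h1 : (P : Subgroup G) ≠ ⊥ := fun e => hZ1 (le_bot_iff.1 (e ▸ hZK))
  have hF := frobK_of_cent h1 hlt hC
  have ti := normedTI_of_TI hTI h1
  obtain ⟨n, hn⟩ := P.isPGroup'.exists_card_eq
  have ho := frobK_odd hF (hn ▸ ((Fact.out : p.Prime).odd_of_ne_two hp).pow) hna
  have nZ := H16.le_norm_iff.2 hZn
  have hc := (frobK_cohSys hF (NormedTI.iso1 ti (seqIndD_subT _ _ _ _))).center
    (.of_frobK hF ho (le_norm_bot _) (bot_lt_iff_ne_bot.2 h1) (H16.qnil_of_nil (frobK_nil hF) _))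
    nZ hZK (fun z hz y hy => ((hZP z hz).2 y hy).symm)
    ((seqIndD_sub hZK).trans (frobK_seqIndC1_irr hF))
  obtain ⟨χ, hχ⟩ := seqIndD_nonempty (L := Subgroup.normalizer ((P : Subgroup G) : Set G))
    (bot_le : ⊥ ≤ (P : Subgroup G)) (le_norm_bot _) (show ¬ Z ≤ ⊥ by simpa using hZ1)
  have h2 := seqIndD_nontrivial hF.leK hF.norm ho hZK hχ
  rw [frobK_seqInd_eq hF hZK nZ] at hc h2
  exact isCoherent_IrrD (hZK.trans hF.leK) hc h2

end Cfsg.Agent.S1532
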