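import Cfsg.Statements.S1533
import Cfsg.Agent.H18.Feit2

set_option autoImplicit false
open Cfsg

namespace Cfsg.Agent.S1533

open H17 H15 CF H21 H18

/-- Let G be a finite group, p an odd prime, and P a nontrivial Sylow p-subgroup whose underlying set is a TI-subset of G, with P properly contained in its set normaliser N and C_G(x) ≤ P for every non-identity x ∈ P. Let S be the set of irreducible characters χ of N with χ x ≠ χ 1 for some x ∈ P. Then either S has exactly one member, P is elementary abelian and Nat.card P = [N:P] + 1; or (S, N minus 1, induction to G) is coherent. -/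
theorem result {G : Type*} [Group G] [Fintype G] (p : ℕ) [Fact p.Prime] (hp : p ≠ 2) (P : Sylow p G) (hP1 : (P : Subgroup G) ≠ ⊥) (hTI : Cfsg.IsTISubset ((P : Subgroup G) : Set G)) (hlt : (P : Subgroup G) < Subgroup.normalizer ((P : Subgroup G) : Set G)) (hC : ∀ k ∈ (P : Subgroup G), k ≠ 1 → Subgroup.centralizer ({k} : Set G) ≤ (P : Subgroup G)) [Fintype ↥(Subgroup.normalizer ((P : Subgroup G) : Set G))] : (Nat.card {χ : ↥(Subgroup.normalizer ((P : Subgroup G) : Set G)) → ℂ // Cfsg.IsIrrCharacter ↥(Subgroup.normalizer ((P : Subgroup G) : Set G)) χ ∧ ∃ x : ↥(Subgroup.normalizer ((P : Subgroup G) : Set G)), (x : G) ∈ (P : Subgroup G) ∧ χ x ≠ χ 1} = 1 ∧ Cfsg.IsElementaryAbelian p (P : Subgroup G) ∧ Nat.card (P : Subgroup G) = ((P : Subgroup G).subgroupOf (Subgroup.normalizer ((P : Subgroup G) : Set G))).index + 1) ∨ Cfsg.IsCoherent {χ : ↥(Subgroup.normalizer ((P : Subgroup G) : Set G)) → ℂ | Cfsg.IsIrrCharacter ↥(Subgroup.normalizer ((P : Subgroup G) : Set G)) χ ∧ ∃ x : ↥(Subgroup.normalizer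 ((P : Subgroup G) : Set G)), (x : G) ∈ (P : Subgroup G) ∧ χ x ≠ χ 1} {1}ᶜ (fun α => Cfsg.indFun (Subgroup.normalizer ((P : Subgroup G) : Set G)) α) := by
  have hF := frobK_of_cent hP1 hlt hC
  have ti := normedTI_of_TI hTI hP1
  have eS := frobK_seqInd_eq hF le_rfl hF.norm
  have pd : ∀ q : ℕ, q.Prime → IsPGroup q P → q = p := fun q hq h => by
    have := Fact.mk hq
    exact by_contra fun n => hP1 (by
      simpa using (IsPGroup.disjoint_of_ne q p n _ _ h P.isPGroup').eq_bot)
  rcases le_or_gt (seqIndD (P : Subgroup G) _ P ⊥).card 1 with h | h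
  · obtain ⟨a, q, hq, b⟩ := frobK_card_le_one hF h
    have := Fact.mk hq
    obtain rfl := pd q hq (H16.pg_iff.1 (H16.ea_pg b))
    refine Or.inl ⟨?_, b, a⟩
    rw [card_IrrD_eq hF.leK, ← eS]
    exact le_antisymm h (Finset.card_pos.2 (seqIndD_nonempty bot_le (le_norm_bot _) (by simpa using hP1)))
  · refine Or.inr (isCoherent_IrrD hF.leK (eS ▸ by_contra fun hn => ?_) (eS ▸ h))
    exact hp (pd 2 Nat.prime_two (Feit_Sibley ti hF hn).1).symm

end Cfsg.Agent.S1533
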