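import Cfsg.Statements.S1534
import Cfsg.Agent.H18.Feit2

set_option autoImplicit false
open Cfsg

namespace Cfsg.Agent.S1534

open H17 H15 CF H21 H18

/-- Let G be a finite group and K a nontrivial nilpotent subgroup whose underlying set is a TI-subset of G, properly contained in its set normaliser N, with C_G(k) ≤ K for every non-identity k ∈ K; let e be the index of K in N and S the set of irreducible characters χ of N with χ k ≠ χ 1 for some k ∈ K. Then one of: S has exactly one member, Nat.card K = e + 1 and K is an elementary abelian p-group for some prime p; or K is a Sylow 2-subgroup of G (Nat.card K is the largest power of 2 dividing Nat.card G) and [K : [K,K]] < 4e²; or (S, N minus 1, induction to G) is coherent. -/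
theorem result {G : Type*} [Group G] [Fintype G] (K : Subgroup G) (hK1 : K ≠ ⊥) (hnil : Group.IsNilpotent K) (hTI : Cfsg.IsTISubset (K : Set G)) (hlt : K < Subgroup.normalizer (K : Set G)) (hC : ∀ k ∈ K, k ≠ 1 → Subgroup.centralizer ({k} : Set G) ≤ K) [Fintype ↥(Subgroup.normalizer (K : Set G))] : (Nat.card {χ : ↥(Subgroup.normalizer (K : Set G)) → ℂ // Cfsg.IsIrrCharacter ↥(Subgroup.normalizer (K : Set G)) χ ∧ ∃ k : ↥(Subgroup.normalizer (K : Set G)), (k : G) ∈ K ∧ χ k ≠ χ 1} = 1 ∧ Nat.card K = (K.subgroupOf (Subgroup.normalizer (K : Set G))).index + 1 ∧ ∃ p : ℕ, p.Prime ∧ Cfsg.IsElementaryAbelian p K) ∨ (Nat.card K = 2 ^ (Nat.card G).factorization 2 ∧ (⁅K, K⁆.subgroupOf K).index < 4 * (K.subgroupOf (Subgroup.normalizer (K : Set G))).index ^ 2) ∨ Cfsg.IsCoherent {χ : ↥(Subgroup.normalizer (K : Set G)) → ℂ | Cfsg.IsIrrCharacter ↥(Subgroup.normalizer (K : Set G)) χ ∧ ∃ k : ↥(Subgroup.normalizer (K : Set G)), (k : G) ∈ K ∧ χ k ≠ χ 1} {1}ᶜ (fun α => Cfsg.indFun (Subgroup.normalizer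 (K : Set G)) α) := by
  have hF := frobK_of_cent hK1 hlt hC
  have ti := normedTI_of_TI hTI hK1
  have eS := frobK_seqInd_eq hF le_rfl hF.norm
  rcases le_or_gt (seqIndD K _ K ⊥).card 1 with h | h
  · obtain ⟨a, b⟩ := frobK_card_le_one hF h
    refine Or.inl ⟨?_, a, b⟩
    rw [card_IrrD_eq hF.leK, ← eS]
    exact le_antisymm h (Finset.card_pos.2 (seqIndD_nonempty bot_le (le_norm_bot _) (by simpa using hK1)))
  refine Or.inr (or_iff_not_imp_right.2 fun hn => ?_)
  obtain ⟨h1, h2⟩ := Feit_Sibley ti hF fun hc => hn (isCoherent_IrrD hF.leK (eS ▸ hc) (eS ▸ h))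
  refine ⟨?_, h2⟩
  have c := NormedTI.coprime_index ti hF.coprime_idx
  obtain ⟨n, hn⟩ := h1.exists_card_eq
  have n0 : n ≠ 0 := by rintro rfl; exact hK1 (Subgroup.card_eq_one.1 hn)
  exact (h1.toSylow ((Nat.Prime.coprime_iff_not_dvd Nat.prime_two).1
    (c.coprime_dvd_left (hn ▸ dvd_pow_self 2 n0)))).card_eq_multiplicity

end Cfsg.Agent.S1534
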