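import Cfsg.Statements.S1535
import Cfsg.Agent.H18.Feit2

set_option autoImplicit false
open Cfsg

namespace Cfsg.Agent.S1535

open H17 H15 CF H21 H18

/-- Let N be a finite group with a proper nontrivial normal subgroup H such that every element commuting with a non-identity element of H lies in H (N is a Frobenius group with kernel H); let e be the index of H and suppose Nat.card H ≠ e + 1. Let S be the set of irreducible characters χ of N with χ h ≠ χ 1 for some h ∈ H, and τ a linear isometry on the integer combinations of S vanishing at 1, with values virtual characters of a finite group G vanishing at 1. Then (S, N minus 1, τ) is coherent, or there is a prime p with Nat.card H a power of p, H non-abelian and [H : [H,H]] ≤ 4e² + 1. -/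
theorem result {N : Type*} [Group N] [Fintype N] {G : Type*} [Group G] [Fintype G] (H : Subgroup N) [H.Normal] (hH1 : H ≠ ⊥) (hH2 : H ≠ ⊤) (hC : ∀ h ∈ H, h ≠ 1 → Subgroup.centralizer ({h} : Set N) ≤ H) (he : Nat.card H ≠ H.index + 1) (τ : (N → ℂ) → (G → ℂ)) (hτ : Cfsg.IsLinearIsometryOn (Cfsg.zspanOn {χ : N → ℂ | Cfsg.IsIrrCharacter N χ ∧ ∃ h ∈ H, χ h ≠ χ 1} {1}ᶜ) τ) (hτ1 : ∀ α ∈ Cfsg.zspanOn {χ : N → ℂ | Cfsg.IsIrrCharacter N χ ∧ ∃ h ∈ H, χ h ≠ χ 1} {1}ᶜ, τ α 1 = 0) : Cfsg.IsCoherent {χ : N → ℂ | Cfsg.IsIrrCharacter N χ ∧ ∃ h ∈ H, χ h ≠ χ 1} {1}ᶜ τ ∨ ∃ p : ℕ, p.Prime ∧ (∃ m : ℕ, Nat.card H = p ^ m) ∧ ¬ IsMulCommutative H ∧ (⁅H, H⁆.subgroupOf H).index ≤ 4 * H.index ^ 2 + 1 := by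
  have hF : FT.FrobK ⊤ H := FT.frobK_of_cent1 hH1 (lt_top_iff_ne_top.2 hH2) (top_le_norm H)
    fun x hx x1 => inf_le_right.trans (hC x hx x1)
  have eS : {χ : N → ℂ | IsIrrCharacter N χ ∧ ∃ h ∈ H, χ h ≠ χ 1} = seqIndD H ⊤ H ⊥ := by
    ext χ
    rw [frobK_seqInd_eq hF le_rfl hF.norm, Finset.mem_coe, mem_IrrD_bot, Set.mem_ofPred_eq,
      ← mem_Irr_top]
    refine and_congr_right fun h => ?_
    rw [(irr_char h).le_cfker]; simp
  obtain ⟨τ', e, hi⟩ := exists_iso1 hτ hτ1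
  rw [eS] at e hi ⊢
  refine or_iff_not_imp_left.2 fun hn => ?_
  obtain ⟨χ, hχ, ξ, hξ, n⟩ := Finset.one_lt_card.1 (not_le.1 fun h => he (by
    simpa using (frobK_card_le_one hF h).1))
  obtain ⟨p, hp, h1, h2, h3⟩ := Feit_coherence hF hi fun hc => hn (isCoherent_of_coherent hc e
    (exists_zs1_of_irr hχ hξ n (frobK_seqIndC1_irr hF hχ) (frobK_seqIndC1_irr hF hξ)))
  have := Fact.mk hp
  exact ⟨p, hp, h1.exists_card_eq, h2, by rwa [Subgroup.relIndex_top_right] at h3⟩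

end Cfsg.Agent.S1535
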