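import Cfsg.Statements.S1536
import Cfsg.Agent.H21.GBr

set_option autoImplicit false
open Cfsg

open H17 H15 CF H21

namespace Cfsg.Agent.S1536

/-- Let H be a normal subgroup of the finite group M whose order is coprime to its index. For x ∈ M: some non-principal irreducible character of H is unchanged under h ↦ θ(x h x⁻¹) if and only if some non-identity element of H commutes with x. -/
theorem result {M : Type*} [Group M] [Finite M] (H : Subgroup M) [hN : H.Normal] (hHall : Nat.Coprime (Nat.card H) H.index) (x : M) : (∃ θ : H → ℂ, Cfsg.IsIrrCharacter H θ ∧ θ ≠ (fun _ => 1) ∧ (fun h : H => θ ⟨x * h * x⁻¹, hN.conj_mem h h.2 x⟩) = θ) ↔ ∃ h ∈ H, h ≠ 1 ∧ x * h = h * x := by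
  classical
  obtain ⟨a, ha1, ha2⟩ := Nat.chineseRemainder hHall 0 1
  have h1 : (x ^ a) ^ H.index = 1 := by
    rw [← pow_mul, ← orderOf_dvd_iff_pow_eq_one]
    refine (orderOf_dvd_natCard x).trans ?_
    rw [← H.card_mul_index]
    exact Nat.mul_dvd_mul_right ((Nat.modEq_zero_iff_dvd).1 ha1) _
  have h2 : x * (x ^ a)⁻¹ ∈ H := by
    obtain ⟨c, hc⟩ := (Nat.modEq_iff_dvd).1 ha2
    have : x * (x ^ a)⁻¹ = (x ^ H.index) ^ c := by
      rw [← zpow_natCast, ← zpow_natCast, ← zpow_mul, ← hc, zpow_sub]; simp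
    rw [this]
    exact H.zpow_mem (H.pow_index_mem x) c
  have hn : ∀ K : Subgroup M, K ≤ 𝒩(H) := fun K => by
    rw [Subgroup.normalizer_eq_top]; exact le_top
  have h3 := card_IrrS (K := H) (S := Subgroup.zpowers (x ^ a)) inferInstance (hn _) (by
    rw [Nat.card_zpowers]
    exact hHall.coprime_dvd_right (orderOf_dvd_of_pow_eq_one h1))
  have hst : ∀ θ : H → ℂ, (fun h : H => θ ⟨x * h * x⁻¹, hN.conj_mem h h.2 x⟩) = θ ↔
      x ∈ stab (extendByZero H θ) := fun θ => by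
    rw [← Subgroup.zpowers_le, ← inv_iff_stab (hn _)]
    constructor
    · intro h
      refine (inv_iff_stab (hn _) θ).2 (Subgroup.zpowers_le.2 (mem_stab_iff.2 fun z => ?_))
      by_cases hz : z ∈ H
      · rw [extendByZero_of_mem _ hz, extendByZero_of_mem _ (hN.conj_mem z hz x)]
        exact congrFun h ⟨z, hz⟩
      · rw [extendByZero_of_not_mem _ hz, extendByZero_of_not_mem _ fun h => hz (by
          simpa [mul_assoc] using hN.conj_mem _ h x⁻¹)]
    · exact fun h => funext fun z => h x (Subgroup.mem_zpowers x) _ _ rfl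
  have hone : one H ∈ IrrS H (Subgroup.zpowers (x ^ a)) :=
    mem_IrrS.2 ⟨one_mem_Irr H, (hn _).trans (norm_le_stab_one H)⟩
  have hC : H ⊓ 𝒞(Subgroup.zpowers (x ^ a)) ≠ ⊥ ↔
      1 < (Irr (H ⊓ 𝒞(Subgroup.zpowers (x ^ a)))).card := by
    rw [card_Irr, Finite.one_lt_card_iff_nontrivial, ← Subgroup.nontrivial_iff_ne_bot]
    constructor
    · intro h
      obtain ⟨z, hz⟩ := exists_ne (1 : ↥(H ⊓ 𝒞(Subgroup.zpowers (x ^ a))))
      exact ⟨_, _, fun e : ConjClasses.mk z = ConjClasses.mk 1 =>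
        hz (isConj_one_left.1 (ConjClasses.mk_eq_mk_iff_isConj.1 e))⟩
    · exact fun h => ConjClasses.mk_surjective.nontrivial
  rw [← h3] at hC
  have hz : ∀ z, z ∈ 𝒞(Subgroup.zpowers (x ^ a)) ↔ z * x ^ a = x ^ a * z := fun z => by
    rw [Subgroup.zpowers_eq_closure, Subgroup.centralizer_closure,
      Subgroup.mem_centralizer_singleton_iff]
  constructor
  · rintro ⟨θ, h4, h5, h6⟩
    by_cases hu : x * (x ^ a)⁻¹ = 1
    · obtain ⟨z, h7, h8⟩ := (Subgroup.bot_or_exists_ne_one _).resolve_left (hC.2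
        (Finset.one_lt_card.2 ⟨_, hone, _, mem_IrrS.2 ⟨ext0_mem_Irr.2 h4, Subgroup.zpowers_le.2
          (pow_mem ((hst θ).1 h6) a)⟩, fun e => h5 (by rw [← res_ext0 H θ, ← e, res_one])⟩))
      refine ⟨z, h7.1, h8, ?_⟩
      rw [mul_inv_eq_one.1 hu]
      exact ((hz z).1 h7.2).symm
    · exact ⟨_, h2, hu, ((Commute.refl x).mul_right ((Commute.refl x).pow_right a).inv_right).eq⟩
  · rintro ⟨z, h4, h5, h6⟩
    obtain ⟨θ, h7, h8⟩ := Finset.exists_mem_ne (hC.1 fun e => h5 (Subgroup.mem_bot.1 (e ▸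
      (⟨h4, (hz z).2 ((show Commute x z from h6).pow_left a).symm⟩ : z ∈ H ⊓ _)))) (one H)
    obtain ⟨h9, h10⟩ := mem_IrrS.1 h7
    refine ⟨res H θ, irr_res h9, fun e => h8 (eq_of_res_eq (irr_cf h9).1 (one_mem_cf H).1
      (by rw [e, res_one])), (hst _).2 ?_⟩
    rw [ext0_res, Res_cf (irr_cf h9)]
    have := mul_mem (le_stab (irr_cf h9) h2) (h10 (Subgroup.mem_zpowers _))
    simpa using this

end Cfsg.Agent.S1536
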