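import Cfsg.Statements.S1545
import Cfsg.Agent.H2.Wielandt
import Cfsg.Agent.H2.ThompsonFPF

set_option autoImplicit false
open Cfsg

namespace Cfsg.Agent.S1545

/-- Let X be a finite group with subgroups U, E and H such that U and E generate a subgroup UE = U ⊔ E normalising H, with U normal in UE, U ⊓ E = ⊥, U ≠ ⊥, E ≠ ⊥, every non-identity element of E commuting with no non-identity element of U (UE is a Frobenius group with kernel U acting on H by conjugation), H solvable, H ⊓ (U ⊔ E) = ⊥ and the orders of H and U ⊔ E coprime. Then Nat.card (H ⊓ C(U ⊔ E)) ^ Nat.card E * Nat.card H = Nat.card (H ⊓ C(E)) ^ Nat.card E * Nat.card (H ⊓ C(U)), where C(·) denotes the centraliser. -/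
theorem result {X : Type*} [Group X] [Finite X] (U E H : Subgroup X) (hU1 : U ≠ ⊥) (hE1 : E ≠ ⊥) (hUE : U ⊓ E = ⊥) (hUn : ∀ e ∈ E, ∀ u ∈ U, e * u * e⁻¹ ∈ U) (hfpf : ∀ e ∈ E, e ≠ 1 → ∀ u ∈ U, e * u = u * e → u = 1) (hHn : ∀ x ∈ U ⊔ E, ∀ h ∈ H, x * h * x⁻¹ ∈ H) (hdisj : H ⊓ (U ⊔ E) = ⊥) (hsolv : Group.IsSolvable H) (hcop : Nat.Coprime (Nat.card H) (Nat.card ↥(U ⊔ E))) : Nat.card ↥(H ⊓ Subgroup.centralizer ((U ⊔ E : Subgroup X) : Set X)) ^ Nat.card E * Nat.card H = Nat.card ↥(H ⊓ Subgroup.centralizer (E : Set X)) ^ Nat.card E * Nat.card ↥(H ⊓ Subgroup.centralizer (U : Set X)) := by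
  have key : ∀ (A B : Subgroup X), (∀ e ∈ A, ∀ u ∈ B, e * u * e⁻¹ ∈ B) →
      A ≤ Subgroup.normalizer (B : Set X) := by
    intro A B h a ha
    rw [Subgroup.mem_normalizer_iff]
    intro u
    refine ⟨h a ha u, fun h' => ?_⟩
    have := h a⁻¹ (inv_mem ha) _ h'
    simpa [mul_assoc] using this
  have hEU := key E U hUn
  have hH := key _ H hHn
  have hfr : ∀ r ∈ E, r ≠ 1 → U ⊓ Subgroup.centralizer ({r} : Set X) = ⊥ := fun r hr hr1 =>
    H2.inf_centralizer_eq_bot_of (hfpf r hr hr1)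
  have hn : Group.IsNilpotent U := H2.nilpotent_of_semiregular hE1 hEU hfr
  exact H2.wielandt_frob inferInstance hEU hfr H hsolv (le_sup_left.trans hH) (le_sup_right.trans hH)
    (hcop.coprime_dvd_right (Subgroup.card_dvd_of_le le_sup_left))
    (hcop.coprime_dvd_right (Subgroup.card_dvd_of_le le_sup_right))

end Cfsg.Agent.S1545
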