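import Cfsg.Statements.S1546
import Mathlib

set_option autoImplicit false
open Cfsg

namespace Cfsg.Agent.S1546

theorem geom (p q : ℕ) (hp : p.Prime) : (p ^ q - 1) / (p - 1) = ∑ i ∈ Finset.range q, p ^ i :=
  (Nat.geomSum_eq hp.two_le q).symm

/-- Let p and q be odd primes and N = (p ^ q − 1) / (p − 1) = 1 + p + ⋯ + p^(q−1). Then N is odd; if p ≡ 1 (mod q) then q ∣ N; and if p is not ≡ 1 (mod q) then N is coprime to p − 1 and every divisor of N is ≡ 1 (mod q). -/
theorem result (p q : ℕ) (hp : p.Prime) (hq : q.Prime) (hp2 : p ≠ 2) (hq2 : q ≠ 2) : Odd ((p ^ q - 1) / (p - 1)) ∧ (p % q = 1 → q ∣ (p ^ q - 1) / (p - 1)) ∧ (p % q ≠ 1 → Nat.Coprime ((p ^ q - 1) / (p - 1)) (p - 1) ∧ ∀ x : ℕ, x ∣ (p ^ q - 1) / (p - 1) → x % q = 1) := by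
  rw [geom p q hp]
  have hpo : Odd p := hp.odd_of_ne_two hp2
  have hqo : Odd q := hq.odd_of_ne_two hq2
  have hmod : ∀ m : ℕ, p ≡ 1 [MOD m] → (∑ i ∈ Finset.range q, p ^ i) ≡ q [MOD m] := by
    intro m hm
    have : (∑ i ∈ Finset.range q, p ^ i) ≡ ∑ i ∈ Finset.range q, 1 [MOD m] :=
      Nat.ModEq.sum fun i _ => by simpa using hm.pow i
    simpa using this
  have hmul : (∑ i ∈ Finset.range q, p ^ i) * (p - 1) + 1 = p ^ q := by
    have := Nat.geomSum_eq hp.two_le q
    have h2 : (p - 1) ∣ p ^ q - 1 := by simpa using Nat.sub_dvd_pow_sub_pow p 1 q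
    rw [this, Nat.div_mul_cancel h2]
    have : 0 < p ^ q := pow_pos hp.pos q
    omega
  refine ⟨?_, ?_, ?_⟩
  · have h2 : p ≡ 1 [MOD 2] := by
      unfold Nat.ModEq; rw [Nat.odd_iff.mp hpo]
    have := hmod 2 h2
    unfold Nat.ModEq at this
    rw [Nat.odd_iff, this, Nat.odd_iff.mp hqo]
  · intro h
    have h2 : p ≡ 1 [MOD q] := by
      unfold Nat.ModEq; rw [h, Nat.mod_eq_of_lt hq.one_lt]
    have := hmod q h2
    exact (Nat.modEq_zero_iff_dvd).mp (this.trans (Nat.modEq_zero_iff_dvd.mpr dvd_rfl))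
  · intro h
    -- every prime divisor `r` of the sum is `1 mod q` and does not divide `p - 1`
    have hr : ∀ r : ℕ, r.Prime → r ∣ (∑ i ∈ Finset.range q, p ^ i) → ¬ r ∣ p - 1 ∧ r % q = 1 := by
      intro r hr hrd
      have hnd : ¬ r ∣ p - 1 := by
        intro hd
        have h2 : p ≡ 1 [MOD r] := ((Nat.modEq_iff_dvd' hp.one_le).mpr hd).symm
        have h3 := hmod r h2
        have h4 : r ∣ q := (Nat.modEq_zero_iff_dvd).mp
          (h3.symm.trans (Nat.modEq_zero_iff_dvd.mpr hrd))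
        have h5 : r = q := (Nat.prime_dvd_prime_iff_eq hr hq).mp h4
        subst h5
        apply h
        unfold Nat.ModEq at h2
        rw [h2, Nat.mod_eq_of_lt hr.one_lt]
      refine ⟨hnd, ?_⟩
      have := Fact.mk hr
      have h1 : (p : ZMod r) ^ q = 1 := by
        have h0 : ((∑ i ∈ Finset.range q, p ^ i : ℕ) : ZMod r) = 0 :=
          (ZMod.natCast_eq_zero_iff _ _).mpr hrd
        have h2 := congrArg (Nat.cast : ℕ → ZMod r) hmul
        rw [Nat.cast_add, Nat.cast_mul, h0] at h2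
        simpa using h2.symm
      have h2 : (p : ZMod r) ≠ 1 := by
        intro h2
        apply hnd
        have : ((p : ℕ) : ZMod r) = ((1 : ℕ) : ZMod r) := by simpa using h2
        rw [ZMod.natCast_eq_natCast_iff] at this
        exact (Nat.modEq_iff_dvd' hp.one_le).mp this.symm
      have := Fact.mk hq
      have h3 : orderOf (p : ZMod r) = q := orderOf_eq_prime h1 h2
      have h4 : (p : ZMod r) ≠ 0 := by
        intro h0
        rw [h0, zero_pow hq.ne_zero] at h1
        exact zero_ne_one h1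
      have h5 : q ∣ r - 1 := h3 ▸ ZMod.orderOf_dvd_card_sub_one h4
      have h6 : r ≡ 1 [MOD q] := ((Nat.modEq_iff_dvd' hr.one_le).mpr h5).symm
      unfold Nat.ModEq at h6
      rw [h6, Nat.mod_eq_of_lt hq.one_lt]
    refine ⟨?_, ?_⟩
    · apply Nat.coprime_of_dvd
      intro r hr1 hr2
      exact (hr r hr1 hr2).1
    · have hne : (∑ i ∈ Finset.range q, p ^ i) ≠ 0 := by
        apply ne_of_gt
        apply Finset.sum_pos
        · intro i _; exact pow_pos hp.pos i
        · exact ⟨0, Finset.mem_range.mpr hq.pos⟩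
      intro x
      induction x using Nat.recOnMul with
      | zero => intro h0; exact absurd (Nat.eq_zero_of_zero_dvd h0) hne
      | one => intro _; exact Nat.mod_eq_of_lt hq.one_lt
      | prime r hr1 => intro hd; exact (hr r hr1 hd).2
      | mul a b iha ihb =>
        intro hd
        rw [Nat.mul_mod, iha (dvd_of_mul_right_dvd hd), ihb (dvd_of_mul_left_dvd hd)]
        simpa using Nat.mod_eq_of_lt hq.one_lt

end Cfsg.Agent.S1546
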