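import Cfsg.Statements.S1550
import Cfsg.Agent.H27.MSub

set_option autoImplicit false
open scoped Pointwise
open Cfsg

namespace Cfsg.Agent.S1550
open H27 MulAction
open scoped Pointwise

/-- Every 4-element set of the 24 points is a tetrad of exactly one sextet, and the sextets number 1771. -/
theorem result : (∀ t : Finset Cfsg.GolayPt, t.card = 4 → ∃! S : Finset (Finset Cfsg.GolayPt), S ∈ Cfsg.sextets ∧ t ∈ S) ∧ Cfsg.sextets.ncard = 1771 := by
  refine ⟨fun t ht => ?_, tabS.ncard⟩
  obtain ⟨g, rfl⟩ := exists_smul_finset (s := GE.fs 0x800007) (t := t) (by rw [ht, card_gfs]; decide +kernel)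
    (by rw [card_gfs]; decide +kernel)
  refine ⟨g • eS 0, ⟨smul_mem_sextets g eS_zero_mem, Finset.smul_mem_smul_finset ?_⟩, fun S hS => ?_⟩
  · rw [eS_zero]; exact GE.mem_fam.2 ⟨_, by decide +kernel, rfl⟩
  · obtain ⟨S, rfl⟩ := exists_eq_smul g S
    rw [mm_smul_sextets, Finset.smul_mem_smul_finset_iff] at hS
    rw [sextet_eq_of_mem0 hS.1 hS.2]

end Cfsg.Agent.S1550
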