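import Cfsg.Statements.S1551
import Cfsg.Agent.H9.Mz2

set_option autoImplicit false
open scoped Pointwise
open Cfsg

namespace Cfsg.Agent.S1551
open H27 MulAction
open scoped Pointwise
open H9
noncomputable def kN : List Net := [(.cons 1 0x505045 (.cons 2 0x301323 (.cons 4 0xb0f09 (.cons 8 0x16 (.cons 16 0xff (.cons 8 0xe (.cons 4 0x40600 (.cons 2 0x21000 (.cons 1 0x40500 .nil))))))))),
  (.cons 1 0x110400 (.cons 2 0x310111 (.cons 4 0xa0100 (.cons 8 0x21 (.cons 16 0xf3 (.cons 8 0x21 (.cons 4 0xa0100 (.cons 2 0x210000 (.cons 1 0x110400 .nil))))))))),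
  (.cons 1 0x45040 (.cons 2 0x323320 (.cons 4 0x60900 (.cons 8 0x84 (.cons 16 0xec (.cons 8 0x24 (.cons 4 0x20200 (.cons 2 0x321100 (.cons 1 0x105100 .nil))))))))),
  (.cons 1 0x145040 (.cons 2 0x130020 (.cons 4 0xf0408 (.cons 8 0x92 (.cons 16 0x82 (.cons 8 0x82 (.cons 4 0xa0000 (.cons 2 0x20020 (.cons 1 0x145000 .nil))))))))),
  (.cons 1 0x14440 (.cons 2 0x300300 (.cons 4 0xa0100 (.cons 8 0x64 (.cons 16 0x74 (.cons 8 0x64 (.cons 4 0x20000 (.cons 2 0x300100 (.cons 1 0x14400 .nil))))))))),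
  (.cons 1 0x45100 (.cons 2 0x220210 (.cons 4 0x60400 (.cons 8 0x60 (.cons 16 0xf0 (.cons 8 0x30 (.cons 4 0x30100 (.cons 2 0x331100 (.cons 1 0x45100 .nil)))))))))]
noncomputable def sM : List Net := [(.cons 1 0x15 (.cons 2 0x3 (.cons 4 0x1 (.cons 2 0x1 .nil)))),
  (.cons 1 0x1 (.cons 2 0x1 (.cons 4 0x2 (.cons 2 0x2 .nil))))]
theorem ka : ActsL 24 GE.e (kN.map mm) kN := actsL_mm (by decide +kernel)
theorem aux {s : Finset (Finset Cfsg.GolayPt)} {m : Nat} [NeZero m] {e : Nat → Finset Cfsg.GolayPt} (T : Tab (s : Set _) m e)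
    {gs : List MM} {Ms : List Net} (h : ActsL m e gs Ms) (hH : cl gs = stabilizer MM s) :
    Nat.card (fixingSubgroup MM (s : Set (Finset Cfsg.GolayPt))) * Nat.card (netGrp m Ms) = Nat.card (stabilizer MM s) :=
  card_fixing_mul T h hH
theorem c192 : Nat.card (fixingSubgroup MM (eS 0 : Set (Finset Cfsg.GolayPt))) = 192 := by
  have a := toL gS_acts (m := 6) (l := sex0) (Ms := sM) (by decide +kernel)
  have t : Tab (GE.fam sex0 : Set (Finset Cfsg.GolayPt)) 6 (lE sex0) := tab_fam (l := sex0) (by decide +kernel)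
  rw [← eS_zero] at t
  have b := aux t a cl_gS
  rw [netGrp_top (le_card_netGrp (K := 3) (by norm_num) (fun _ => a.ok) [([1, 2, 2], (.cons 1 0x14 (.cons 4 0x2 (.cons 2 0x2 (.cons 1 0x4 .nil))))),
      ([3, 5, 2, 2, 5], (.cons 2 0x1 (.cons 4 0x3 (.cons 2 0x1 (.cons 1 0x4 .nil))))),
      ([3, 1, 1, 2, 2, 2, 2, 2, 2], (.cons 1 0x4 (.cons 2 0x1 (.cons 4 0x1 (.cons 2 0x1 (.cons 1 0x10 .nil)))))),
      ([5, 5, 5, 5, 2, 4, 4, 4], (.cons 1 0x14 (.cons 2 0x3 (.cons 4 0x3 (.cons 2 0x3 .nil))))),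
      ([7, 4, 6, 4, 7, 7], (.cons 1 0x4 (.cons 2 0x2 (.cons 4 0x2 (.cons 2 0x2 .nil))))),
      ([2, 4, 3, 4, 1, 2], (.cons 2 0x1 (.cons 4 0x1 (.cons 2 0x1 (.cons 1 0x10 .nil))))),
      ([5, 7, 4, 2, 7, 3, 6, 6, 6], (.cons 2 0x1 (.cons 4 0x1 (.cons 2 0x1 .nil)))),
      ([0, 3, 3], (.cons 1 0x10 .nil))]
      [8, 9, 7, 6, 5, 4, 3, 2, 1, 0] [(0, 1, 2), (1, 1, 2), (3, 1, 3), (2, 1, 2), (4, 1, 1)] (by decide +kernel)), card_stab_eS,
    Subgroup.card_top, Nat.card_perm, Nat.card_eq_fintype_card (α := Fin 6), Fintype.card_fin] at b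
  exact Nat.eq_of_mul_eq_mul_right (by norm_num : 0 < Nat.factorial 6) (b.trans (by decide +kernel))


/-- Structure of a sextet stabiliser: it induces every permutation of the six tetrads, the subgroup fixing each tetrad setwise has order 192, and there is a normal subgroup of order 64 consisting of elements squaring to the identity. -/
theorem result (S : Finset (Finset Cfsg.GolayPt)) (hS : S ∈ Cfsg.sextets) : (∀ e : Equiv.Perm ↥S, ∃ g ∈ MulAction.stabilizer Cfsg.M24 S, ∀ t : ↥S, (g : Equiv.Perm Cfsg.GolayPt) • (t : Finset Cfsg.GolayPt) = ((e t : ↥S) : Finset Cfsg.GolayPt)) ∧ Nat.card {g : ↥(MulAction.stabilizer Cfsg.M24 S) // ∀ t ∈ S, ((g : Cfsg.M24) : Equiv.Perm Cfsg.GolayPt) • t = t} = 192 ∧ ∃ N : Subgroup ↥(MulAction.stabilizer Cfsg.M24 S), N.Normal ∧ Nat.card N = 64 ∧ ∀ x ∈ N, x * x = 1 := by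
  have c6 := hS.1
  obtain ⟨g, rfl⟩ := exists_smul_eS hS
  have c : Nat.card (fixingSubgroup MM ((g • eS 0 : Finset (Finset Cfsg.GolayPt)) : Set (Finset Cfsg.GolayPt))) = 192 := by
    rw [Finset.coe_smul_finset]; exact (CjRel.fixing g _).card.trans c192
  refine ⟨resHom_surj (by norm_num) c (by rw [(CjRel.stab g _).card, card_stab_eS, c6]; rfl), ?_, ?_⟩
  · rw [← c, ← card_ker_resHom]
    exact Nat.card_congr (Equiv.subtypeEquivRight fun k => (mem_ker_resHom (G := MM) (g := k)).symm)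
  obtain ⟨a, b, d⟩ := exists_normal_cl gS_acts cl_gS ka (ka.stab_eS (by decide +kernel)) (c := 64) (p := 2) (C := [(2, [], [[0], [1], [2], [3], [4]]),
      (2, [], [[0], [1], [2], [3]]),
      (2, [], [[0], [1], [2]]),
      (2, [], [[0], [1]]),
      (2, [], [[0]]),
      (2, [], [])])
      (L := [(0, 1, 2), (3, 1, 2), (4, 1, 2)]) (W := [[[6, 2], [6], [10, 8, 0], [8, 6, 0], [6, 2, 0], [10, 8, 6, 4, 2]], [[10, 6, 2, 0], [8, 4, 2, 0], [8, 2], [6, 4, 0], [10, 6, 4, 0], [2]]]) (by decide +kernel)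
  obtain ⟨N, a, b, d, -⟩ := exists_normal_of_equiv (CjRel.stab g (eS 0)).equiv.some ⟨_, a, b, d, ⟨MulEquiv.refl _⟩⟩
  exact ⟨N, a, b, fun x hx => (pow_two x).symm.trans (d x hx)⟩

end Cfsg.Agent.S1551
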