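import Cfsg.Statements.S1553
import Cfsg.Agent.H9.Mz2

set_option autoImplicit false
open scoped Pointwise
open Cfsg

namespace Cfsg.Agent.S1553
open H27 MulAction
open scoped Pointwise
open H9

/-- The stabiliser of an octad in the group of the length-24 code induces on the octad exactly its alternating group. -/
theorem result (o : Finset Cfsg.GolayPt) (ho : o ∈ Cfsg.octads) : {e : Equiv.Perm ↥o | ∃ g : Equiv.Perm Cfsg.GolayPt, g ∈ Cfsg.M24 ∧ ∃ h : (∀ x, g x ∈ o ↔ x ∈ o), g.subtypePerm h = e} = (alternatingGroup ↥o : Set (Equiv.Perm ↥o)) := by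
  rw [← range_octad ho]
  ext e
  constructor
  · rintro ⟨g, hg, h, rfl⟩
    refine ⟨⟨⟨g, hg⟩, Finset.eq_of_subset_of_card_le (fun q hq => ?_) (Finset.card_smul_finset _ o).ge⟩, rfl⟩
    obtain ⟨q, hq', rfl⟩ := Finset.mem_smul_finset.1 hq
    exact (h q).2 hq'
  · rintro ⟨g, rfl⟩
    refine ⟨g.1.1, g.1.2, fun x => ?_, rfl⟩
    have := Finset.smul_mem_smul_finset_iff (s := o) (b := x) g.1
    rwa [mem_stabilizer_iff.1 g.2] at this

end Cfsg.Agent.S1553
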