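import Cfsg.Statements.S1554
import Cfsg.Agent.H9.Mz2

set_option autoImplicit false
open scoped Pointwise
open Cfsg

namespace Cfsg.Agent.S1554
open H27 MulAction
open scoped Pointwise
open H9
theorem key {o : Finset Cfsg.GolayPt} (ho : o ∈ Cfsg.octads) {p : Cfsg.GolayPt} (hp : p ∉ o) :
    fixingSubgroup MM (o : Set Cfsg.GolayPt) ⊓ (stabilizer MM o ⊓ stabilizer MM p) = ⊥ ∧
    Nat.card ↥(stabilizer MM o ⊓ stabilizer MM p) = 20160 ∧ Nat.card ↥(stabilizer MM o) = 322560 := by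
  obtain ⟨g, rfl, rfl⟩ := exists_smul_oct_out ho hp
  have R := (CjRel.stab g (eO 0)).inf (CjRel.stab g (GE.e 4))
  refine ⟨((CjRel.fixF g (eO 0)).inf R).eq ?_, R.card.trans ?_, (CjRel.stab g _).card.trans card_stab_eO⟩
  · rw [show fixingSubgroup MM (eO 0 : Set Cfsg.GolayPt) ⊓ (HO ⊓ stabilizer MM (GE.e 4)) = ⊥ from eq_bot_iff.2 fun k hk => ?_]
    · exact CjRel.bot g
    rw [eO_zero, fixing_gfs] at hk
    exact eq_one_of_refChk (F := oct0 ||| 2 ^ 4) (Os := [0xa34054, 0xa44413, 0xb01036, 0xc040d9, 0xc12017, 0xc2181c, 0xc44134, 0xd2c012, 0xea0031]) (by decide +kernel)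
      (mem_fixM.1 (fixM_inf (by norm_num : 4 < 24) ▸ ⟨hk.1, hk.2.2⟩))
  · exact gO_acts.card_inf_stab (k := 4) (b := 4) (X := oct0 ^^^ 16777215) (d := 5) (m := 16) cl_gO GE.injOn (by norm_num)
      (by norm_num) (by decide +kernel) (by norm_num) card_stab_eO


/-- An octad stabiliser is a split extension: the joint stabiliser of the octad and a point outside it is a complement to the pointwise stabiliser of the octad, and is isomorphic to the alternating group of degree 8. -/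
theorem result (o : Finset Cfsg.GolayPt) (ho : o ∈ Cfsg.octads) (p : Cfsg.GolayPt) (hp : p ∉ o) : (Cfsg.M24 ⊓ fixingSubgroup (Equiv.Perm Cfsg.GolayPt) (o : Set Cfsg.GolayPt)) ⊓ (Cfsg.M24 ⊓ MulAction.stabilizer (Equiv.Perm Cfsg.GolayPt) o ⊓ MulAction.stabilizer (Equiv.Perm Cfsg.GolayPt) p) = ⊥ ∧ (Cfsg.M24 ⊓ fixingSubgroup (Equiv.Perm Cfsg.GolayPt) (o : Set Cfsg.GolayPt)) ⊔ (Cfsg.M24 ⊓ MulAction.stabilizer (Equiv.Perm Cfsg.GolayPt) o ⊓ MulAction.stabilizer (Equiv.Perm Cfsg.GolayPt) p) = (Cfsg.M24 ⊓ MulAction.stabilizer (Equiv.Perm Cfsg.GolayPt) o) ∧ Nonempty (↥(Cfsg.M24 ⊓ MulAction.stabilizer (Equiv.Perm Cfsg.GolayPt) o ⊓ MulAction.stabilizer (Equiv.Perm Cfsg.GolayPt) p) ≃* alternatingGroup (Fin 8)) := by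
  obtain ⟨a, b, c⟩ := key ho hp
  have d := card_fixing_octad ho
  have l : fixingSubgroup MM (o : Set Cfsg.GolayPt) ≤ stabilizer MM o := fun k hk =>
    mem_stab_of_fix ((mem_fixingSubgroup_iff _).1 hk)
  rw [inf_assoc Cfsg.M24 (stabilizer _ o), map_sub (stabilizer _ o ⊓ _), map_sub (fixingSubgroup _ _), map_sub (stabilizer _ o), ← Subgroup.map_inf _ _ _ Cfsg.M24.subtype_injective, ← Subgroup.map_sup]
  change Subgroup.map _ (fixingSubgroup MM (o : Set Cfsg.GolayPt) ⊓ (stabilizer MM o ⊓ stabilizer MM p)) = ⊥ ∧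
    Subgroup.map _ (fixingSubgroup MM (o : Set Cfsg.GolayPt) ⊔ (stabilizer MM o ⊓ stabilizer MM p)) = Subgroup.map _ (stabilizer MM o) ∧
    Nonempty (Subgroup.map _ (stabilizer MM o ⊓ stabilizer MM p) ≃* _)
  refine ⟨by rw [a, Subgroup.map_bot], congrArg _ (Subgroup.eq_of_le_of_card_ge (sup_le l inf_le_left) ?_), ?_⟩
  · rw [c, show 322560 = 16 * 20160 from rfl, ← b, ← d, ← Nat.card_prod]
    exact Nat.card_le_card_of_injective (fun x : _ × _ => ⟨x.1.1 * x.2.1, mul_mem (Subgroup.mem_sup_left x.1.2)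
      (Subgroup.mem_sup_right x.2.2)⟩) fun x y h => Subgroup.mul_injective_of_disjoint (disjoint_iff.2 a) (congrArg Subtype.val h)
  let φ := (resHom MM o).comp (Subgroup.inclusion (inf_le_left : stabilizer MM o ⊓ stabilizer MM p ≤ _))
  have i : Function.Injective φ := (injective_iff_map_eq_one φ).2 fun k hk => Subtype.ext (Subgroup.mem_bot.1
    (a ▸ ⟨(mem_fixingSubgroup_iff _).2 (mem_ker_resHom.1 hk), k.2⟩))
  have c8 : Fintype.card o = 8 := (Fintype.card_coe _).trans (mem_octads_iff.1 ho).2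
  have : Nontrivial o := Fintype.one_lt_card_iff_nontrivial.1 (by omega)
  have r : φ.range = alternatingGroup o := Subgroup.eq_of_le_of_card_ge (by
    rw [← range_octad ho]; rintro _ ⟨k, rfl⟩; exact ⟨_, rfl⟩) (by
    rw [← Nat.card_congr (MonoidHom.ofInjective i).toEquiv, b, nat_card_alternatingGroup, Nat.card_eq_fintype_card, c8]; rfl)
  exact ⟨(Subgroup.equivMapOfInjective _ _ Cfsg.M24.subtype_injective).symm.trans ((MonoidHom.ofInjective i).trans
    ((MulEquiv.subgroupCongr r).trans (Fintype.equivFinOfCardEq c8).altCongrHom))⟩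

end Cfsg.Agent.S1554
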