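import Cfsg.Statements.S1558
import Cfsg.Agent.H9.Mz2

set_option autoImplicit false
open scoped Pointwise
open Cfsg

namespace Cfsg.Agent.S1558
open H27 MulAction
open scoped Pointwise
open H9 Matrix
noncomputable def P : Nat := 0x82402f82402f82402f82402f82402f82402f7898107898107898107898107898107898100527c00527c00527c00527c00527c00527c001058002002a04224008901070080080400500400e0120c00407001098006800108200210006c000402305210038800040181082000c00238002000705044020881058100080402800002d0126000401c028180050801082400200254002402405028018081060900080000b010340024009042480301010488800800026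
noncomputable def gM : List Net := [(.cons 1 0x144 (.cons 2 0x31 (.cons 4 0x7 (.cons 8 0x1 (.cons 4 0x1 (.cons 2 0x10 (.cons 1 0x144 .nil))))))),
  (.cons 1 0x41 (.cons 2 0x12 (.cons 4 0xf (.cons 8 0x1 (.cons 4 0x1 (.cons 2 0x10 (.cons 1 0x144 .nil)))))))]
noncomputable def kN : List Net := [(.cons 1 0x115445 (.cons 2 0x321033 (.cons 4 0xc0a01 (.cons 8 0x30 (.cons 16 0xf9 (.cons 8 0x48 (.cons 4 0x20c00 (.cons 2 0x21300 (.cons 1 0x40100 .nil))))))))),
  (.cons 1 0x10105 (.cons 2 0x112030 (.cons 4 0xb0b04 (.cons 8 0x90 (.cons 16 0xfc (.cons 8 0x60 (.cons 4 0x30700 (.cons 2 0x221030 (.cons 1 0x545450 .nil))))))))),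
  (.cons 1 0x441005 (.cons 2 0x231313 (.cons 4 0x40f0f (.cons 8 0x89 (.cons 16 0x3c (.cons 8 0x10 (.cons 4 0xd0000 (.cons 2 0x201310 (.cons 1 0x115010 .nil))))))))),
  (.cons 1 0x151000 (.cons 2 0x333100 (.cons 4 0x90000 (.cons 8 0x4a (.cons 16 0x9a (.cons 8 0xa (.cons 4 0x90000 (.cons 2 0x231000 (.cons 1 0x151000 .nil))))))))),
  (.cons 1 0x154500 (.cons 2 0x102100 (.cons 4 0x10c00 (.cons 8 0xdf (.cons 16 0xf (.cons 8 0xf (.cons 4 0x10c00 (.cons 2 0x102100 (.cons 1 0x54500 .nil))))))))),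
  (.cons 1 0x14440 (.cons 2 0x300300 (.cons 4 0xa0100 (.cons 8 0x64 (.cons 16 0x74 (.cons 8 0x64 (.cons 4 0x20000 (.cons 2 0x300100 (.cons 1 0x14400 .nil)))))))))]
noncomputable def kM : List Net := [.nil,
  .nil,
  .nil,
  .nil,
  .nil,
  .nil]
noncomputable def tM : List Net := [(.cons 2 0x1 .nil),
  (.cons 2 0x1 (.cons 1 0x1 .nil))]
theorem ka : ActsL 24 GE.e (kN.map mm) kN := actsL_mm (by decide +kernel)
theorem aux {s : Finset (Finset Cfsg.GolayPt)} {m : Nat} [NeZero m] {e : Nat → Finset Cfsg.GolayPt} (T : Tab (s : Set _) m e)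
    {gs : List MM} {Ms : List Net} (h : ActsL m e gs Ms) (hH : cl gs = stabilizer MM s) :
    Nat.card (fixingSubgroup MM (s : Set (Finset Cfsg.GolayPt))) * Nat.card (netGrp m Ms) = Nat.card (stabilizer MM s) :=
  card_fixing_mul T h hH
theorem cf : Nat.card (fixingSubgroup MM (eT 0 : Set (Finset Cfsg.GolayPt))) = 10752 := by
  have a := toL gT_acts (m := 3) (l := tri0) (Ms := tM) (by decide +kernel)
  have t : Tab (GE.fam tri0 : Set (Finset Cfsg.GolayPt)) 3 (lE tri0) := tab_fam (l := tri0) (by decide +kernel)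
  rw [← eT_zero] at t
  have b := aux t a cl_gT
  rw [netGrp_top (le_card_netGrp (K := 2) (by norm_num) (fun _ => a.ok) [([0, 0, 3, 0, 3, 3], (.cons 1 0x1 (.cons 2 0x1 (.cons 1 0x1 .nil))))]
      [1, 2, 0] [(0, 1, 2), (1, 1, 1)] (by decide +kernel)), card_stab_eT,
    Subgroup.card_top, Nat.card_perm, Nat.card_eq_fintype_card (α := Fin 3), Fintype.card_fin] at b
  norm_num [Nat.factorial] at b
  omega
abbrev X := GL (Fin 3) (ZMod 2) × Equiv.Perm (Fin 3)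
noncomputable def eY (i : Nat) : (Fin 3 → ZMod 2) ⊕ Fin 3 := nth (.inr 0) [.inl ![0, 0, 1], .inl ![0, 1, 0], .inl ![0, 1, 1], .inl ![1, 0, 0], .inl ![1, 1, 0], .inl ![1, 0, 1], .inl ![1, 1, 1], .inr 0, .inr 1, .inr 2] i
noncomputable def xs : List X := [(⟨!![1, 1, 1; 1, 1, 0; 0, 1, 0], !![0, 1, 1; 0, 0, 1; 1, 1, 0], by decide +kernel, by decide +kernel⟩, Equiv.swap 0 2), (⟨!![1, 1, 0; 1, 0, 1; 0, 1, 0], !![1, 0, 1; 0, 0, 1; 1, 1, 1], by decide +kernel, by decide +kernel⟩, Equiv.swap 0 2 * Equiv.swap 0 1)]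
noncomputable def eX (i : Nat) : H27.PSum (Fin 3 → ZMod 2) (Fin 3) := eY i
noncomputable def sq : (Fin 3 → ZMod 2) ⊕ Fin 3 → (Fin 3 → ZMod 2) ⊕ Fin 3 → Bool
  | .inl u, .inl v => decide (u = v)
  | .inr u, .inr v => decide (u = v)
  | _, _ => false
theorem sq_iff {a b : (Fin 3 → ZMod 2) ⊕ Fin 3} : sq a b = true ↔ a = b := by
  cases a <;> cases b <;> simp [sq]
theorem ax {x : X} {N : Net} (h : N.valid 10 = true ∧ ∀ i < 10, sq (Sum.map (x.1.1 *ᵥ ·) x.2 (eY i)) (eY (N.fn i)) = true) :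
    Acts 10 eX x N := ⟨Net.ok_of_valid h.1, fun i hi => sq_iff.1 (h.2 i hi)⟩
theorem xa : ActsL 10 eX xs gM := .cons (ax (by decide +kernel)) (.cons (ax (by decide +kernel)) .nil)
theorem cX : Nat.card X = 1008 := by
  rw [Nat.card_prod, Matrix.card_GL_field, Nat.card_perm, ZMod.card]; simp [Fin.prod_univ_three, Nat.factorial]
theorem iso : Nonempty (X ≃* netGrp 10 gM) :=
  xa.iso_of_hom (e := eX) (fun i hi j hj h => (by decide +kernel : ∀ i < 10, ∀ j < 10, sq (eY i) (eY j) = true → i = j) i hi j hj (sq_iff.2 h)) (MonoidHom.id X)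
    (fun g hg i _ => by rw [show g = 1 from hg, one_smul]) cX.le
    (le_card_netGrp (K := 4) (by norm_num) (fun _ => xa.ok) [([3, 3, 1, 3, 0, 0, 2], (.cons 1 0x110 (.cons 2 0x32 (.cons 4 0xc (.cons 2 0x20 (.cons 1 0x10 .nil)))))),
      ([2, 5, 3, 5, 3, 4, 4], (.cons 1 0x110 (.cons 2 0x12 (.cons 4 0x4 (.cons 2 0x10 (.cons 1 0x10 .nil)))))),
      ([6, 6, 4, 4, 7, 4, 6], (.cons 1 0x140 (.cons 2 0x30 (.cons 4 0x7 (.cons 8 0x1 (.cons 4 0x1 (.cons 2 0x30 (.cons 1 0x140 .nil)))))))),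
      ([1, 5, 0, 5], (.cons 1 0x100 (.cons 2 0x30 (.cons 4 0xa (.cons 8 0x2 (.cons 4 0x2 (.cons 2 0x20 .nil))))))),
      ([7, 4, 7, 3, 7, 4, 7], (.cons 1 0x50 (.cons 2 0x10 (.cons 4 0x9 (.cons 8 0x1 (.cons 4 0x1 (.cons 2 0x10 (.cons 1 0x40 .nil)))))))),
      ([7, 4, 8], (.cons 1 0x100 (.cons 2 0x30 (.cons 4 0xa (.cons 8 0x2 (.cons 4 0x2 (.cons 2 0x20 (.cons 1 0x100 .nil)))))))),
      ([11, 7, 11, 9, 10, 6, 8], (.cons 2 0x20 (.cons 4 0x2 (.cons 8 0x2 (.cons 4 0x2 (.cons 2 0x20 .nil)))))),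
      ([7, 1, 4, 0, 7, 7, 5], (.cons 2 0x30 (.cons 4 0x8 (.cons 2 0x20 .nil)))),
      ([3, 6, 4, 9, 2, 4, 4, 8, 5], (.cons 1 0x150 (.cons 4 0x8 (.cons 1 0x40 .nil)))),
      ([5, 8, 6, 5, 5, 5, 7, 5, 7], (.cons 1 0x110 (.cons 2 0x30 (.cons 4 0x8 (.cons 2 0x20 (.cons 1 0x10 .nil)))))),
      ([13, 13, 7, 10, 7, 13, 6], (.cons 1 0x10 (.cons 2 0x30 (.cons 4 0x8 (.cons 2 0x20 (.cons 1 0x10 .nil)))))),
      ([5, 7, 4, 3, 3, 0, 5, 0, 0], (.cons 1 0x100 .nil))]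
      [12, 13, 11, 10, 9, 8, 7, 6, 5, 4, 3, 2, 1, 0] [(0, 1, 2), (1, 1, 3), (7, 1, 4), (3, 1, 4), (8, 1, 1)] (by decide +kernel))


/-- Structure of a trio stabiliser: every permutation of the three octads is induced, and there is a normal subgroup of order 64 of elements squaring to the identity whose quotient is isomorphic to the product of GL(3, 2) with the symmetric group of degree 3. -/
theorem result (T : Finset (Finset Cfsg.GolayPt)) (hT : T ∈ Cfsg.trios) : (∀ e : Equiv.Perm ↥T, ∃ g ∈ MulAction.stabilizer Cfsg.M24 T, ∀ o : ↥T, (g : Equiv.Perm Cfsg.GolayPt) • (o : Finset Cfsg.GolayPt) = ((e o : ↥T) : Finset Cfsg.GolayPt)) ∧ ∃ (N : Subgroup ↥(MulAction.stabilizer Cfsg.M24 T)) (_ : N.Normal), Nat.card N = 64 ∧ (∀ x ∈ N, x * x = 1) ∧ Nonempty (↥(MulAction.stabilizer Cfsg.M24 T) ⧸ N ≃* GL (Fin 3) (ZMod 2) × Equiv.Perm (Fin 3)) := by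
  have c3 := hT.1
  obtain ⟨g, rfl⟩ := exists_smul_eT hT
  have c : Nat.card (fixingSubgroup MM ((g • eT 0 : Finset (Finset Cfsg.GolayPt)) : Set (Finset Cfsg.GolayPt))) = 10752 := by
    rw [Finset.coe_smul_finset]; exact (CjRel.fixing g _).card.trans cf
  refine ⟨resHom_surj (by norm_num) c (by rw [(CjRel.stab g _).card, card_stab_eT, c3]; rfl), ?_⟩
  obtain ⟨N, a, b, d, e⟩ := (GE.actsL_tfam gT_acts (k := 6) (n := 10) (P := P) (Ms := gM) (by decide +kernel)).quot_iso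
    (tfam_inj GE (by decide +kernel)) cl_gT iso
  rw [cX, card_stab_eT] at e
  replace e : Nat.card N = 64 := Nat.eq_of_mul_eq_mul_right (by norm_num : 0 < 1008) e
  have kf := GE.actsL_tfam ka (k := 6) (n := 10) (P := P) (Ms := kM) (by decide +kernel)
  obtain ⟨N, a, b, d, e⟩ := exists_normal_of_equiv (c := 64) (p := 2) (CjRel.stab g (eT 0)).equiv.some ⟨N, a, e, fun x hx =>
    Subtype.ext (ka.elemAb (K := 5) (fun _ => MM_faithful) (by decide +kernel) x (map_eq_cl (d := 5) (c := 64) GE.injOn (by norm_num) e.le ka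
      (fun k hk => ⟨ka.stab_eT (by decide +kernel) k hk, (b _).2 fun i hi =>
        kf.fix hi (by revert i; decide +kernel) (mem_cl hk)⟩) [(0, 1, 3), (4, 1, 3)] (by decide +kernel) hx)), d⟩
  exact ⟨N, a, b, fun x hx => (pow_two x).symm.trans (d x hx), e⟩

end Cfsg.Agent.S1558
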