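import Cfsg.Statements.S1560
import Cfsg.Agent.H27.MSub

set_option autoImplicit false
open scoped Pointwise
open Cfsg

namespace Cfsg.Agent.S1560
open H27 MulAction
open scoped Pointwise

/-- Intersection numbers of dodecads: a dodecad meets every other dodecad in 0, 4, 6 or 8 points, meeting 495 of them in 4 points, 1584 in 6 points and 495 in 8 points. -/
theorem result (d : Finset Cfsg.GolayPt) (hd : d ∈ Cfsg.dodecads) : (∀ d' ∈ Cfsg.dodecads, d' ≠ d → (d ∩ d').card = 0 ∨ (d ∩ d').card = 4 ∨ (d ∩ d').card = 6 ∨ (d ∩ d').card = 8) ∧ {d' : Finset Cfsg.GolayPt | d' ∈ Cfsg.dodecads ∧ (d ∩ d').card = 4}.ncard = 495 ∧ {d' : Finset Cfsg.GolayPt | d' ∈ Cfsg.dodecads ∧ (d ∩ d').card = 6}.ncard = 1584 ∧ {d' : Finset Cfsg.GolayPt | d' ∈ Cfsg.dodecads ∧ (d ∩ d').card = 8}.ncard = 495 := by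
  obtain ⟨g, rfl⟩ := exists_smul_eD hd
  refine ⟨fun d' hd' hne => ?_, (ncard_smul g (T := {x | x ∈ Cfsg.dodecads ∧ (eD 0 ∩ x).card = 4}) (fun y => by simp only [Set.mem_ofPred_eq, mm_smul_octads, mm_smul_dodecads, ← mm_smul_inter, Finset.card_smul_finset, Finset.smul_mem_smul_finset_iff])).trans
      ((tabD.ncard_cnt (fun i => force (dM i) fun x => Nat.beq (pop24 (Nat.land dod0 x)) 4) (fun _ h => by simp only [Set.mem_ofPred_eq] at h; tauto) (fun i hi => by
        simp only [Set.mem_ofPred_eq, tabD.mem i hi, true_and]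
        simp only [eD_eq hi, eO_zero, eD_zero, card_inter_gfs, e_mem_gfs (by norm_num : 23 < 24), e_mem_gfs (by norm_num : 0 < 24),
          force_eq, and'_eq, not'_eq, Bool.and_eq_true, beq_iff, Bool.not_eq_true', Bool.not_eq_true, and_assoc])).trans (by decide +kernel)),
    (ncard_smul g (T := {x | x ∈ Cfsg.dodecads ∧ (eD 0 ∩ x).card = 6}) (fun y => by simp only [Set.mem_ofPred_eq, mm_smul_octads, mm_smul_dodecads, ← mm_smul_inter, Finset.card_smul_finset, Finset.smul_mem_smul_finset_iff])).trans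
      ((tabD.ncard_cnt (fun i => force (dM i) fun x => Nat.beq (pop24 (Nat.land dod0 x)) 6) (fun _ h => by simp only [Set.mem_ofPred_eq] at h; tauto) (fun i hi => by
        simp only [Set.mem_ofPred_eq, tabD.mem i hi, true_and]
        simp only [eD_eq hi, eO_zero, eD_zero, card_inter_gfs, e_mem_gfs (by norm_num : 23 < 24), e_mem_gfs (by norm_num : 0 < 24),
          force_eq, and'_eq, not'_eq, Bool.and_eq_true, beq_iff, Bool.not_eq_true', Bool.not_eq_true, and_assoc])).trans (by decide +kernel)),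
    (ncard_smul g (T := {x | x ∈ Cfsg.dodecads ∧ (eD 0 ∩ x).card = 8}) (fun y => by simp only [Set.mem_ofPred_eq, mm_smul_octads, mm_smul_dodecads, ← mm_smul_inter, Finset.card_smul_finset, Finset.smul_mem_smul_finset_iff])).trans
      ((tabD.ncard_cnt (fun i => force (dM i) fun x => Nat.beq (pop24 (Nat.land dod0 x)) 8) (fun _ h => by simp only [Set.mem_ofPred_eq] at h; tauto) (fun i hi => by
        simp only [Set.mem_ofPred_eq, tabD.mem i hi, true_and]
        simp only [eD_eq hi, eO_zero, eD_zero, card_inter_gfs, e_mem_gfs (by norm_num : 23 < 24), e_mem_gfs (by norm_num : 0 < 24),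
          force_eq, and'_eq, not'_eq, Bool.and_eq_true, beq_iff, Bool.not_eq_true', Bool.not_eq_true, and_assoc])).trans (by decide +kernel))⟩
  obtain ⟨d', rfl⟩ := exists_eq_smul g d'
  simp only [Set.mem_ofPred_eq, mm_smul_octads, mm_smul_dodecads, ← mm_smul_inter, Finset.card_smul_finset, Finset.smul_mem_smul_finset_iff] at hd' ⊢
  obtain ⟨i, hi, rfl⟩ := tabD.surj _ hd'
  have h0 : i ≠ 0 := by rintro rfl; exact hne rfl
  have := (allN_iff _ _).1 (by decide +kernel : allN 2576 (fun i => or' (Nat.beq i 0) (force (pop24 (Nat.land dod0 (dM i))) fun w =>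
    or' (Nat.beq w 6) (or' (Nat.beq w 4) (or' (Nat.beq w 8) (Nat.beq w 0))))) = true) i hi
  simp only [or'_eq, Bool.or_eq_true, beq_iff, force_eq] at this
  rw [eD_eq hi, eD_zero, card_inter_gfs]
  omega

end Cfsg.Agent.S1560
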