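import Cfsg.Statements.S1565
import Cfsg.Agent.H27.MSub

set_option autoImplicit false
open scoped Pointwise
open Cfsg

namespace Cfsg.Agent.S1565
open H27 MulAction
open scoped Pointwise

/-- The stabiliser of an octad is a maximal proper subgroup of the group of the length-24 code. -/
theorem result (o : Finset Cfsg.GolayPt) (ho : o ∈ Cfsg.octads) : IsCoatom (MulAction.stabilizer Cfsg.M24 o) := by
  obtain ⟨g, rfl⟩ := exists_smul_eO ho
  exact (CjRel.stab g _).coatom coatom_HO

end Cfsg.Agent.S1565
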