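import Cfsg.Statements.S1567
import Cfsg.Agent.H27.LCo1

set_option autoImplicit false
open Cfsg

namespace Cfsg.Agent.S1567

open H27

/-- The rank-24 lattice is the additive subgroup generated by its 196560 minimal vectors. -/
theorem result : AddSubgroup.closure {x : Cfsg.GolayPt → ℤ | x ∈ Cfsg.leechLattice ∧ Cfsg.sqNorm x = 32} = Cfsg.leechLattice := by
  refine le_antisymm ((AddSubgroup.closure_le _).2 fun _ h => h.1) (LL_le_LB fun X hX => ?_)
  by_cases h : X = cE
  · rw [h, ← coe_e8_none, ← lU_add]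
    exact AddSubgroup.add_mem _ (AddSubgroup.subset_closure ⟨lU.2, norm_lU⟩) (AddSubgroup.subset_closure ⟨lU'.2, norm_lU'⟩)
  · exact AddSubgroup.subset_closure ⟨vc_mem ((allL_iff _ _).1 LB_inL X hX),
      (by decide +kernel : ∀ X ∈ LB, X ≠ cE → sqNorm (vc X) = 32) X hX h⟩

end Cfsg.Agent.S1567
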