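import Cfsg.Statements.S1568
import Cfsg.Agent.H27.LCo1

set_option autoImplicit false
open Cfsg

namespace Cfsg.Agent.S1568

open H27 Finset
theorem cnt48 {A : List ℤ} {N : ℕ} {k : ℤ} (hA : A.Nodup ∧ (tgE (32 * (6 + 6))).Nodup ∧ (tgO (32 * 6)).Nodup ∧
      ∀ r ∈ [0, 1, 2, 3], (A.toFinset.filter (· % 4 = r)).card ≤ 6)
    (hn : Nat.beq (Nat.add (gfM A phT phT phT (tgE (32 * (6 + 6))) 0) (gfM A phT phT phT (tgO (32 * 6)) 1)) N = true)
    (h : ∀ a : ℤ, -6 ≤ a ∧ a ≤ 6 → (a ∈ A ↔ |a| ≠ k)) :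
    {x : VV | x ∈ leechLattice ∧ sqNorm x = 48 ∧ ∃ i, |x i| = k}.ncard = 16773120 - N := by
  have b : ∀ x : VV, sqNorm x = 48 → ∀ i, (x i ∈ A ↔ |x i| ≠ k) := fun x hx i =>
    h _ (abs_le_of_sqNorm (k := 6) (by norm_num) (by rw [hx]; norm_num) i)
  rw [← count_T hA hn, ← ncard_48, ← Set.ncard_diff (by exact fun x h => ⟨h.1, h.2.1⟩)
    (by exact (finite_shell 48).subset fun x h => h.2.1)]
  congr 1; ext x
  simp only [Set.mem_setOf_eq, Set.mem_diff]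
  constructor
  · rintro ⟨a, c, i, d⟩
    exact ⟨⟨a, c⟩, fun e => (b x c i).1 (e.2.2 i) d⟩
  · rintro ⟨⟨a, c⟩, d⟩
    refine ⟨a, c, ?_⟩
    by_contra e
    exact d ⟨a, c, fun i => (b x c i).2 fun f => e ⟨i, f⟩⟩
theorem three {x : VV} (hx : x ∈ leechLattice) (h : sqNorm x = 48) {i : GolayPt} (hi : |x i| = 3) :
    2 < (univ.filter fun i => |x i| = 3).card := by
  obtain ⟨m, c, a⟩ := mem_LL.1 hx
  have m1 : m = 1 := by
    have := a.md i; have := a.m01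
    rcases abs_cases (x i) with b | b <;> omega
  have e : sqNorm x = ∑ j, (1 + (8 * (if |x j| = 3 then 1 else 0) + 24 * (if |x j| = 5 then 1 else 0))) :=
    sum_congr rfl fun j _ => by
      have b := abs_le_of_sqNorm (k := 6) (by norm_num) (by rw [h]; norm_num) j
      have d := a.md j
      obtain e | e | e | e | e | e : x j = -5 ∨ x j = -3 ∨ x j = -1 ∨ x j = 1 ∨ x j = 3 ∨ x j = 5 := by omega
      all_goals rw [e]; decide
  rw [sum_add_distrib, sum_add_distrib, ← mul_sum, ← mul_sum, sum_boole, sum_boole, sum_const_pt, h] at e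
  have := card_pos.2 ⟨i, (mem_filter.2 ⟨mem_univ i, hi⟩ : i ∈ univ.filter fun i => |x i| = 3)⟩
  omega

/-- Shape census of the lattice vectors of sum of squares 48 (customary norm 6): the four families (2^12, 0^12), (±3^3, ±1^21), (±4, ±2^8, 0^15) and (±5, ±1^23) have 5275648, 8290304, 3108864 and 98304 members. -/
theorem result : {x : Cfsg.GolayPt → ℤ | x ∈ Cfsg.leechLattice ∧ Cfsg.sqNorm x = 48 ∧ ∀ i, x i = 0 ∨ x i = 2 ∨ x i = -2}.ncard = 5275648 ∧ {x : Cfsg.GolayPt → ℤ | x ∈ Cfsg.leechLattice ∧ Cfsg.sqNorm x = 48 ∧ ∃ i j k, i ≠ j ∧ j ≠ k ∧ i ≠ k ∧ |x i| = 3 ∧ |x j| = 3 ∧ |x k| = 3}.ncard = 8290304 ∧ {x : Cfsg.GolayPt → ℤ | x ∈ Cfsg.leechLattice ∧ Cfsg.sqNorm x = 48 ∧ ∃ i, |x i| = 4}.ncard = 3108864 ∧ {x : Cfsg.GolayPt → ℤ | x ∈ Cfsg.leechLattice ∧ Cfsg.sqNorm x = 48 ∧ ∃ i, |x i| = 5}.ncard = 98304 := by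
  refine ⟨?_, ?_, cnt48 (A := [-6, -5, -3, -2, -1, 0, 1, 2, 3, 5, 6]) (N := 13664256) (by decide +kernel) (by decide +kernel) ?_,
    cnt48 (A := [-6, -4, -3, -2, -1, 0, 1, 2, 3, 4, 6]) (N := 16674816) (by decide +kernel) (by decide +kernel) ?_⟩
  · rw [← count_T (A := [0, 2, -2]) (n := 6) (N := 5275648) (by decide +kernel) (by decide +kernel)]
    simp
  · rw [show 8290304 = 16773120 - 8482816 from rfl, ← cnt48 (k := 3) (A := [-6, -5, -4, -2, -1, 0, 1, 2, 4, 5, 6]) (by decide +kernel)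
      (by decide +kernel)]
    · congr 1; ext x
      refine ⟨fun ⟨a, b, i, _, _, _, _, _, c, _⟩ => ⟨a, b, i, c⟩, fun ⟨a, b, i, c⟩ => ⟨a, b, ?_⟩⟩
      obtain ⟨i, hi, j, hj, k, hk, d, e, f⟩ := two_lt_card.1 (three a b c)
      exact ⟨i, j, k, d, f, e, (mem_filter.1 hi).2, (mem_filter.1 hj).2, (mem_filter.1 hk).2⟩
    · rintro a ⟨b, c⟩; interval_cases a <;> decide
  all_goals rintro a ⟨b, c⟩; interval_cases a <;> decide

end Cfsg.Agent.S1568
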