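import Cfsg.Statements.S1569
import Cfsg.Agent.H27.LCo1

set_option autoImplicit false
open scoped Pointwise
open Cfsg

namespace Cfsg.Agent.S1569
open H27 MulAction

/-- The cross through a lattice vector of customary norm 8 has exactly 48 members. -/
theorem result (x : Cfsg.GolayPt → ℤ) (hx : x ∈ Cfsg.leechLattice) (hxn : Cfsg.sqNorm x = 64) : (Cfsg.cross x).ncard = 48 := by
  obtain ⟨g, a⟩ := exists_smul_e8 (x := ⟨x, hx⟩) hxn
  have h1 : SC.ncard = 48 := by
    have : SC = Set.range e8 ∪ Set.range fun i => -e8 i := Set.ext fun v => by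
      simp only [mem_SC, Set.mem_union, Set.mem_range, exists_or, eq_comm]
    rw [this, Set.ncard_union_eq (Set.disjoint_left.2 (by rintro _ ⟨i, rfl⟩ ⟨j, h⟩; exact e8_ne_neg _ _ h.symm)),
      Set.ncard_range_of_injective (fun _ _ => e8_inj), Set.ncard_range_of_injective (fun _ _ h => e8_inj (neg_injective h)),
      Nat.card_eq_fintype_card, card_pt]
  rw [← h1]
  refine (ncard_LL (P := fun y => sqNorm y = sqNorm x ∧ ∃ z ∈ leechLattice, x - y = 2 • z)).symm.trans
    (ncard_smul g fun y => ?_)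
  rw [Set.mem_ofPred_eq, co_norm, hxn]
  constructor
  · rintro ⟨b, z, hz, c⟩
    refine mem_SC_of_congr (j := none) (z := -(g⁻¹ • ⟨z, hz⟩)) b (MulAction.injective g ?_)
    simp only [smul_sub, co_nsmul, smul_neg, smul_inv_smul, a]
    rw [← show (⟨x, hx⟩ : LL) - g • y = 2 • ⟨z, hz⟩ from Subtype.ext c, neg_sub]
  · intro b
    obtain ⟨z, c⟩ := exists_congr_of_SC b none
    refine ⟨norm_SC b, _, (-(g • z)).2, ?_⟩
    have := congrArg (fun t => ((-(g • t) : LL) : VV)) c
    simp only [smul_sub, a, co_nsmul, neg_sub] at this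
    simpa using this

end Cfsg.Agent.S1569
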