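import Cfsg.Statements.S1573
import Cfsg.Agent.H27.LCo1

set_option autoImplicit false
open Cfsg

namespace Cfsg.Agent.S1573
open H27 MulAction

/-- Census of minimal vectors by inner product with a fixed minimal vector: 4600 have customary inner product −2, 47104 have −1, and 93150 are orthogonal. -/
theorem result (v : Cfsg.GolayPt → ℤ) (hv : v ∈ Cfsg.leechLattice) (hvn : Cfsg.sqNorm v = 32) : {w : Cfsg.GolayPt → ℤ | w ∈ Cfsg.leechLattice ∧ Cfsg.sqNorm w = 32 ∧ Cfsg.dotInt v w = -16}.ncard = 4600 ∧ {w : Cfsg.GolayPt → ℤ | w ∈ Cfsg.leechLattice ∧ Cfsg.sqNorm w = 32 ∧ Cfsg.dotInt v w = -8}.ncard = 47104 ∧ {w : Cfsg.GolayPt → ℤ | w ∈ Cfsg.leechLattice ∧ Cfsg.sqNorm w = 32 ∧ Cfsg.dotInt v w = 0}.ncard = 93150 := by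
  obtain ⟨g, a⟩ := exists_smul_lU (x := ⟨v, hv⟩) hvn
  have h := fun k => (ncard_LL (P := fun x => sqNorm x = 32 ∧ dotInt v x = k)).symm.trans
    (show (mdot ⟨v, hv⟩ k).ncard = _ from a ▸ ncard_mdot_smul g lU k)
  exact ⟨(h _).trans ncard_U16, (h _).trans ncard_U8, (h _).trans ncard_U0⟩

end Cfsg.Agent.S1573
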