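import Cfsg.Statements.S1578
import Cfsg.Agent.H27.LCo1

set_option autoImplicit false
open Cfsg

namespace Cfsg.Agent.S1578
open H27 MulAction
theorem key {u v : LL} (hu : sqNorm (u : VV) = 48) :
    (sqNorm (v : VV) = 32 ∧ sqNorm ((u - v) : VV) = 32) ↔ v ∈ mdot (-u) (-24) := by
  rw [mdot, Set.mem_ofPred_eq, AddSubgroup.coe_neg, neg_dot, sqNorm_sub]
  exact and_congr_right fun h => by omega


/-- A lattice vector of customary norm 6 is the sum of an unordered pair of minimal vectors in exactly 276 ways (552 ordered summands). -/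
theorem result (u : ↥Cfsg.leechLattice) (hu : Cfsg.sqNorm (u : Cfsg.GolayPt → ℤ) = 48) : {v : ↥Cfsg.leechLattice | Cfsg.sqNorm (v : Cfsg.GolayPt → ℤ) = 32 ∧ Cfsg.sqNorm ((u - v) : Cfsg.GolayPt → ℤ) = 32}.ncard = 552 := by
  obtain ⟨g, a⟩ := exists_smul_lV (x := -u) ((sqNorm_neg _).trans hu)
  rw [Set.ext fun v => key (v := v) hu, ← a]
  exact (ncard_mdot_smul g lV _).trans ncard_V24

end Cfsg.Agent.S1578
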