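import Cfsg.Statements.S1579
import Cfsg.Agent.H27.LCo1

set_option autoImplicit false
open Cfsg

namespace Cfsg.Agent.S1579
open H27 MulAction
theorem key {u v : LL} (hu : sqNorm (u : VV) = 48) :
    (sqNorm (v : VV) = 32 ∧ sqNorm ((u - v) : VV) = 32) ↔ v ∈ mdot (-u) (-24) := by
  rw [mdot, Set.mem_ofPred_eq, AddSubgroup.coe_neg, neg_dot, sqNorm_sub]
  exact and_congr_right fun h => by omega


/-- The stabiliser of a vector of customary norm 6 is transitive on the 552 minimal vectors that complete it to a sum of two minimal vectors. -/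
theorem result (u v v' : ↥Cfsg.leechLattice) (hu : Cfsg.sqNorm (u : Cfsg.GolayPt → ℤ) = 48) (hv : Cfsg.sqNorm (v : Cfsg.GolayPt → ℤ) = 32 ∧ Cfsg.sqNorm ((u - v) : Cfsg.GolayPt → ℤ) = 32) (hv' : Cfsg.sqNorm (v' : Cfsg.GolayPt → ℤ) = 32 ∧ Cfsg.sqNorm ((u - v') : Cfsg.GolayPt → ℤ) = 32) : ∃ g : ↥Cfsg.Co0, g • u = u ∧ g • v = v' := by
  have h : sqNorm ((-u : LL) : VV) = 48 := (sqNorm_neg _).trans hu
  obtain ⟨g, a, rfl⟩ := exists_smul_V orbit_C3_lU h ((key hu).1 hv)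
  obtain ⟨k, b, rfl⟩ := exists_smul_V orbit_C3_lU h ((key hu).1 hv')
  exact ⟨k * g⁻¹, neg_injective (by rw [← smul_neg, ← a, mul_smul, inv_smul_smul, b, a]), by rw [mul_smul, inv_smul_smul]⟩

end Cfsg.Agent.S1579
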