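import Cfsg.Statements.S1583
import Cfsg.Agent.Lead.HS2

set_option autoImplicit false
open Cfsg

namespace Cfsg.Agent.S1583
open Lead.St H27 MulAction


/-- The Higman–Sims configuration: for two vectors of customary norm 6 with inner product −4, exactly 100 minimal vectors have customary inner products 3 and −3 with them, and the joint stabiliser permutes these transitively. -/
theorem result (v w : ↥Cfsg.leechLattice) (hv : Cfsg.sqNorm (v : Cfsg.GolayPt → ℤ) = 48) (hw : Cfsg.sqNorm (w : Cfsg.GolayPt → ℤ) = 48) (hvw : Cfsg.dotInt (v : Cfsg.GolayPt → ℤ) (w : Cfsg.GolayPt → ℤ) = -32) : {x : ↥Cfsg.leechLattice | Cfsg.sqNorm (x : Cfsg.GolayPt → ℤ) = 32 ∧ Cfsg.dotInt (v : Cfsg.GolayPt → ℤ) (x : Cfsg.GolayPt → ℤ) = 24 ∧ Cfsg.dotInt (w : Cfsg.GolayPt → ℤ) (x : Cfsg.GolayPt → ℤ) = -24}.ncard = 100 ∧ ∀ x ∈ {x : ↥Cfsg.leechLattice |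 Cfsg.sqNorm (x : Cfsg.GolayPt → ℤ) = 32 ∧ Cfsg.dotInt (v : Cfsg.GolayPt → ℤ) (x : Cfsg.GolayPt → ℤ) = 24 ∧ Cfsg.dotInt (w : Cfsg.GolayPt → ℤ) (x : Cfsg.GolayPt → ℤ) = -24}, ∀ x' ∈ {x : ↥Cfsg.leechLattice | Cfsg.sqNorm (x : Cfsg.GolayPt → ℤ) = 32 ∧ Cfsg.dotInt (v : Cfsg.GolayPt → ℤ) (x : Cfsg.GolayPt → ℤ) = 24 ∧ Cfsg.dotInt (w : Cfsg.GolayPt → ℤ) (x : Cfsg.GolayPt → ℤ) = -24}, ∃ g : ↥Cfsg.Co0, g • v = v ∧ g • w = w ∧ g • x = x' := by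
  obtain ⟨k, h1, h2⟩ := hs_std hv hw hvw
  refine ⟨(ncard_smul k h1).trans ncard_YH, fun x hx x' hx' => ?_⟩
  obtain ⟨x, rfl⟩ := exists_eq_smul k x
  obtain ⟨x', rfl⟩ := exists_eq_smul k x'
  obtain ⟨s, hs, e⟩ := exists_smul_of_orbit (orbit_YH.ge ((h1 x).1 hx)) (orbit_YH.ge ((h1 x').1 hx'))
  exact ⟨k * s * k⁻¹, (h2 s hs).1, (h2 s hs).2, by rw [mul_smul, mul_smul, inv_smul_smul, e]⟩

end Cfsg.Agent.S1583
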