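import Cfsg.Statements.S1584
import Cfsg.Agent.Lead.HS2

set_option autoImplicit false
open Cfsg

namespace Cfsg.Agent.S1584
open Lead.St H27 MulAction


/-- The Higman–Sims group acts with rank 3 and subdegrees 1, 22, 77 on its 100 points, the orbits of a point stabiliser being distinguished by customary inner product 1 with the fixed point. -/
theorem result (v w x : ↥Cfsg.leechLattice) (hv : Cfsg.sqNorm (v : Cfsg.GolayPt → ℤ) = 48) (hw : Cfsg.sqNorm (w : Cfsg.GolayPt → ℤ) = 48) (hvw : Cfsg.dotInt (v : Cfsg.GolayPt → ℤ) (w : Cfsg.GolayPt → ℤ) = -32) (hx : x ∈ {x : ↥Cfsg.leechLattice | Cfsg.sqNorm (x : Cfsg.GolayPt → ℤ) = 32 ∧ Cfsg.dotInt (v : Cfsg.GolayPt → ℤ) (x : Cfsg.GolayPt → ℤ) = 24 ∧ Cfsg.dotInt (w : Cfsg.GolayPt → ℤ) (x : Cfsg.GolayPt → ℤ) = -24}) : {y : ↥Cfsg.leechLattice | y ∈ {x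 : ↥Cfsg.leechLattice | Cfsg.sqNorm (x : Cfsg.GolayPt → ℤ) = 32 ∧ Cfsg.dotInt (v : Cfsg.GolayPt → ℤ) (x : Cfsg.GolayPt → ℤ) = 24 ∧ Cfsg.dotInt (w : Cfsg.GolayPt → ℤ) (x : Cfsg.GolayPt → ℤ) = -24} ∧ Cfsg.dotInt (x : Cfsg.GolayPt → ℤ) (y : Cfsg.GolayPt → ℤ) = 8}.ncard = 22 ∧ {y : ↥Cfsg.leechLattice | y ∈ {x : ↥Cfsg.leechLattice | Cfsg.sqNorm (x : Cfsg.GolayPt → ℤ) = 32 ∧ Cfsg.dotInt (v : Cfsg.GolayPt → ℤ) (x : Cfsg.GolayPt → ℤ) = 24 ∧ Cfsg.dotInt (w : Cfsg.GolayPt → ℤ) (x : Cfsg.GolayPt → ℤ) = -24} ∧ y ≠ x ∧ Cfsg.dotInt (x : Cfsg.GolayPt → ℤ) (y : Cfsg.GolayPt → ℤ) ≠ 8}.ncard = 77 ∧ ∀ y ∈ {x : ↥Cfsg.leechLattice | Cfsg.sqNorm (x : Cfsg.GolayPt → ℤ) = 32 ∧ Cfsg.dotInt (v : Cfsg.GolayPt → ℤ) (x : Cfsg.GolayPt → ℤ) = 24 ∧ Cfsg.dotInt (w : Cfsg.GolayPt → ℤ) (x : Cfsg.GolayPt → ℤ) = -24}, ∀ y' ∈ {x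 : ↥Cfsg.leechLattice | Cfsg.sqNorm (x : Cfsg.GolayPt → ℤ) = 32 ∧ Cfsg.dotInt (v : Cfsg.GolayPt → ℤ) (x : Cfsg.GolayPt → ℤ) = 24 ∧ Cfsg.dotInt (w : Cfsg.GolayPt → ℤ) (x : Cfsg.GolayPt → ℤ) = -24}, y ≠ x → y' ≠ x → (Cfsg.dotInt (x : Cfsg.GolayPt → ℤ) (y : Cfsg.GolayPt → ℤ) = 8 ↔ Cfsg.dotInt (x : Cfsg.GolayPt → ℤ) (y' : Cfsg.GolayPt → ℤ) = 8) → ∃ g : ↥Cfsg.Co0, g • v = v ∧ g • w = w ∧ g • x = x ∧ g • y = y' := by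
  obtain ⟨k, h1, h2⟩ : ∃ k : CC, (∀ y, k • y ∈ XH v w ↔ y ∈ YH) ∧
      (∀ s ∈ CHS, (k * s * k⁻¹) • v = v ∧ (k * s * k⁻¹) • w = w) ∧ k • lU = x := by
    obtain ⟨k, h1, h2⟩ := hs_std hv hw hvw
    obtain ⟨x, rfl⟩ := exists_eq_smul k x
    obtain ⟨s, rfl⟩ := orbit_YH.ge ((h1 x).1 hx)
    refine ⟨k * s, fun y => ?_, fun t ht => ?_, mul_smul _ _ _⟩
    · rw [mul_smul, h1]
      exact ⟨fun h => by simpa using smul_YH (inv_mem s.2) h, smul_YH s.2⟩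
    · simpa only [mul_assoc, mul_inv_rev] using h2 (s * t * (s : CC)⁻¹) (mul_mem (mul_mem s.2 ht) (inv_mem s.2))
  obtain ⟨h2, rfl⟩ := h2
  refine ⟨(ncard_smul k (T := Y1) fun y => and_congr (h1 y) (by rw [co_dot])).trans ncard_Y1,
    (ncard_smul k (T := Y2) fun y => and_congr (h1 y) (by rw [co_dot, ne_eq, smul_left_cancel_iff])).trans ncard_Y2,
    fun y hy y' hy' a b c => ?_⟩
  obtain ⟨y, rfl⟩ := exists_eq_smul k y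
  obtain ⟨y', rfl⟩ := exists_eq_smul k y'
  rw [co_dot, co_dot] at c
  rw [ne_eq, smul_left_cancel_iff] at a b
  obtain ⟨s, hs, e⟩ : ∃ s ∈ SH, s • y = y' := by
    by_cases d : dotInt (lU : VV) (y : VV) = 8
    · exact exists_smul_of_orbit (orbit_Y1.ge ⟨(h1 y).1 hy, d⟩) (orbit_Y1.ge ⟨(h1 y').1 hy', c.1 d⟩)
    · obtain ⟨z, hz⟩ := exists_orbit_Y2
      exact exists_smul_of_orbit (hz.ge ⟨(h1 y).1 hy, a, d⟩) (hz.ge ⟨(h1 y').1 hy', b, fun e => d (c.2 e)⟩)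
  exact ⟨k * s * k⁻¹, (h2 s hs.1).1, (h2 s hs.1).2,
    by rw [mul_smul, mul_smul, inv_smul_smul, show s • lU = lU from hs.2], by rw [mul_smul, mul_smul, inv_smul_smul, e]⟩

end Cfsg.Agent.S1584
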