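import Cfsg.Statements.S1589
import Cfsg.Agent.H9.Mz4

set_option autoImplicit false
open scoped Pointwise
open Cfsg

namespace Cfsg.Agent.S1589
open H27 MulAction
open scoped Pointwise
open H9 Subgroup
theorem idx {H : Subgroup MM} {n c : Nat} (h : H.index = n) (h0 : 0 < n) (hc : 244823040 = n * c) : Nat.card H = c :=
  Nat.eq_of_mul_eq_mul_left h0 (by rw [← hc, ← h, H.index_mul_card, card_MM])
theorem wT {H : Subgroup MM} {c : Nat} (hc : Nat.card H = c) (h : 2 ^ 10 ∣ c) :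
    ∃ g, ∃ K : Subgroup MM, CjRel g K H ∧ (∀ x ∈ tN.map mm, x ∈ K) ∧ Nat.card K = c := by
  obtain ⟨g, -, K, R, a, -⟩ := exists_conj_ge (A := ⊤) (H := H) le_top le_top Nat.prime_two card_t
    (by rw [card_top, card_MM]; norm_num) (hc ▸ h)
  exact ⟨g, K, R, fun x hx => a (mem_cl hx), R.card.symm.trans hc⟩
theorem sub {K : Subgroup MM} (hT : ∀ x ∈ tN.map mm, x ∈ K) : ∀ x ∈ (tN.drop 3).map mm, x ∈ K ⊓ H23 :=
  fun x h => ⟨hT x (tx_sub x h), tx_m x h⟩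
theorem c24 {K : Subgroup MM} {c : Nat} (h : 24 * c = 24 * Nat.card ↥(K ⊓ H23)) : Nat.card ↥(K ⊓ H23) = c :=
  (Nat.eq_of_mul_eq_mul_left (by norm_num) h).symm
theorem l1 {K : Subgroup MM} (hT : ∀ x ∈ tN.map mm, x ∈ K) (h : ∀ x ∈ a4N.map mm, x ∈ K) : 322560 ≤ Nat.card K :=
  low (actsL_app a4_a t_a) (mem_app h hT) [([15, 10, 16, 4, 19, 1, 20, 10, 22], (.cons 1 0x144014 (.cons 2 0x201312 (.cons 4 0xa0e04 (.cons 8 0x29 (.cons 16 0x71 (.cons 8 0x41 (.cons 4 0x10d00 (.cons 2 0x211300 (.cons 1 0x445400 .nil)))))))))),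
      ([5, 11, 2, 10, 25, 19, 21, 3, 19], (.cons 1 0x45100 (.cons 2 0x31332 (.cons 4 0x60908 (.cons 8 0x4f (.cons 16 0xf (.cons 8 0x7 (.cons 4 0x10800 (.cons 2 0x21320 (.cons 1 0x104140 .nil)))))))))),
      ([3, 0, 0, 3, 0, 3], (.cons 1 0x414514 (.cons 2 0x131010 (.cons 4 0x30c00 (.cons 8 0xdb (.cons 16 0xff (.cons 8 0x4b (.cons 4 0x40700 (.cons 2 0x21010 (.cons 1 0x400110 .nil)))))))))),
      ([2, 2, 5, 2, 4, 2, 4], (.cons 1 0x154150 (.cons 2 0x211200 (.cons 4 0x90a04 (.cons 8 0xe5 (.cons 16 0xfd (.cons 8 0x89 (.cons 4 0x20200 (.cons 2 0x320310 (.cons 1 0x401100 .nil)))))))))),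
      ([3, 0, 0, 0, 0, 2, 2, 0, 0], (.cons 1 0x445040 (.cons 2 0x131030 (.cons 4 0x30800 (.cons 8 0xf4 (.cons 16 0xbc (.cons 8 0x94 (.cons 4 0xe0a00 (.cons 2 0x1320 (.cons 1 0x55140 .nil)))))))))),
      ([5, 2], (.cons 1 0x41110 (.cons 2 0x21120 (.cons 4 0x60600 (.cons 8 0x4a (.cons 16 0x1a (.cons 8 0x12 (.cons 4 0xa0800 (.cons 2 0x120200 (.cons 1 0x505050 .nil)))))))))),
      ([0, 3, 3, 1, 1, 1, 3], (.cons 1 0x45050 (.cons 2 0x333030 (.cons 4 0x50000 (.cons 8 0xe2 (.cons 16 0x72 (.cons 8 0x12 (.cons 4 0xb00 (.cons 2 0x320100 (.cons 1 0x140 .nil)))))))))),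
      ([2, 5, 3, 3, 3, 4, 4], (.cons 1 0x445500 (.cons 2 0x121300 (.cons 4 0x90800 (.cons 8 0xe (.cons 16 0x9e (.cons 8 0x8e (.cons 4 0xe0000 (.cons 1 0x154100 .nil))))))))),
      ([6, 4, 7, 7, 4, 7, 5], (.cons 1 0x50050 (.cons 2 0x203220 (.cons 4 0xc0300 (.cons 8 0x6d (.cons 16 0xfd (.cons 8 0xd (.cons 4 0x20900 (.cons 2 0x303100 (.cons 1 0x411400 .nil)))))))))),
      ([5, 5, 5, 3, 3, 0, 0], (.cons 1 0x114440 (.cons 2 0x313010 (.cons 4 0xe0c00 (.cons 8 0xbc (.cons 16 0xec (.cons 8 0x6c (.cons 4 0x800 (.cons 2 0x300300 (.cons 1 0x1000 .nil)))))))))),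
      ([7, 4, 7, 4, 4, 2, 4], (.cons 1 0x115000 (.cons 2 0x330300 (.cons 4 0x50000 (.cons 8 0x4f (.cons 16 0x9f (.cons 8 0xf (.cons 4 0x50000 (.cons 2 0x210000 (.cons 1 0x114000 .nil)))))))))),
      ([9, 6, 6, 6, 9, 4, 7, 8], (.cons 1 0x511140 (.cons 2 0x223200 (.cons 4 0xa0a00 (.cons 8 0x4c (.cons 16 0x9c (.cons 8 0xc (.cons 4 0x80800 (.cons 2 0x223200 (.cons 1 0x511040 .nil)))))))))),
      ([5, 3, 4, 0, 4, 1, 3], (.cons 1 0x141400 (.cons 2 0x333300 (.cons 4 0x600 (.cons 8 0x9a (.cons 16 0x5a (.cons 8 0x1a (.cons 4 0x60800 (.cons 2 0x111000 (.cons 1 0x505400 .nil))))))))))]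
      [13, 14, 15, 16, 17, 18, 19, 20, 21, 22, 23, 24, 12, 11, 10, 9, 8, 7, 6, 5, 4, 3, 2, 1, 0] [(0, 1, 12), (1, 1, 2), (2, 1, 2), (3, 1, 2), (5, 1, 3), (4, 2, 3), (6, 2, 1)] (by decide +kernel)
theorem l2 {K : Subgroup MM} (h : ∀ x ∈ a2N.map mm, x ∈ K) : 20160 ≤ Nat.card K :=
  low a2_a h [([2, 0, 0, 2, 2, 1, 3, 1, 2, 0, 0], (.cons 1 0x555540 (.cons 2 0x11000 (.cons 4 0x40408 (.cons 8 0x83 (.cons 16 0xfb (.cons 8 0xa3 (.cons 4 0xc0100 (.cons 2 0x10000 (.cons 1 0x401000 .nil)))))))))),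
      ([3, 3, 3, 4], (.cons 1 0x545140 (.cons 2 0x30210 (.cons 4 0x90508 (.cons 8 0xd6 (.cons 16 0x36 (.cons 8 0x16 (.cons 4 0x20000 (.cons 2 0x3020 (.cons 1 0x550410 .nil)))))))))),
      ([3, 1, 2, 2, 2, 2, 0], (.cons 1 0x44550 (.cons 2 0x33220 (.cons 4 0x50900 (.cons 8 0x8c (.cons 16 0x7c (.cons 8 0x6c (.cons 4 0x30800 (.cons 2 0x1100 (.cons 1 0x54000 .nil)))))))))),
      ([5, 5, 3, 3, 3, 5, 2, 2, 2], (.cons 1 0x5550 (.cons 2 0x100220 (.cons 4 0x30c00 (.cons 8 0xba (.cons 16 0x7a (.cons 8 0x4a (.cons 4 0x10600 (.cons 2 0x123100 (.cons 1 0x40400 .nil)))))))))),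
      ([5, 7, 4, 6, 5, 6, 5, 7], (.cons 1 0x110140 (.cons 2 0x31100 (.cons 4 0x50900 (.cons 8 0xfe (.cons 16 0x2e (.cons 8 0x2e (.cons 4 0x40900 (.cons 2 0x31100 (.cons 1 0x110140 .nil)))))))))),
      ([5, 2, 0], (.cons 1 0x455440 (.cons 2 0x122000 (.cons 4 0x30800 (.cons 8 0x56 (.cons 16 0xb6 (.cons 8 0xb6 (.cons 4 0xf0000 (.cons 2 0x103000 (.cons 1 0x440500 .nil))))))))))]
      [6, 7, 5, 4, 3, 2, 1, 0] [(2, 2, 2), (3, 2, 2), (4, 2, 3), (5, 2, 1)] (by decide +kernel)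
theorem l3 {K : Subgroup MM} (hT : ∀ x ∈ tN.map mm, x ∈ K) (h : ∀ x ∈ a2N.map mm, x ∈ K) : 244823040 ≤ Nat.card K :=
  low (actsL_app a2_a t_a) (mem_app h hT) [([5, 11, 0, 5, 16, 15, 15, 12], (.cons 1 0x50001 (.cons 2 0x21000 (.cons 4 0xb0501 (.cons 8 0xad (.cons 16 0x7f (.cons 8 0x2c (.cons 4 0x40400 (.cons 2 0x21000 (.cons 1 0x150400 .nil)))))))))),
      ([9, 17, 18, 22, 16, 9, 6, 6, 13, 16], (.cons 1 0x504000 (.cons 2 0x33030 (.cons 4 0x30808 (.cons 8 0x5d (.cons 16 0xad (.cons 8 0xa5 (.cons 4 0xb0f00 (.cons 2 0x230200 (.cons 1 0x544000 .nil)))))))))),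
      ([1, 2, 1, 3, 0, 0, 3, 0, 3, 3, 0], (.cons 1 0x51450 (.cons 2 0x110100 (.cons 4 0x50201 (.cons 8 0xc0 (.cons 16 0xe3 (.cons 8 0xe0 (.cons 4 0x90200 (.cons 2 0x231210 (.cons 1 0x544440 .nil)))))))))),
      ([3, 4, 2, 5, 2, 5, 2, 2, 5, 2, 5, 5], (.cons 1 0x10401 (.cons 2 0x131220 (.cons 4 0xd0e03 (.cons 8 0x48 (.cons 16 0xda (.cons 8 0x1a (.cons 4 0x40700 (.cons 2 0x220030 (.cons 1 0x1000 .nil)))))))))),
      ([0, 3, 0, 2, 0], (.cons 1 0x404010 (.cons 2 0x100320 (.cons 4 0x70302 (.cons 8 0x12 (.cons 16 0xb2 (.cons 8 0x22 (.cons 4 0x20100 (.cons 2 0x220200 (.cons 1 0x151500 .nil)))))))))),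
      ([3, 3, 4, 3, 3, 5], (.cons 1 0x15440 (.cons 2 0x200230 (.cons 4 0xd0002 (.cons 8 0xcc (.cons 16 0x9c (.cons 8 0xc (.cons 4 0x50400 (.cons 2 0x20000 (.cons 1 0x540000 .nil)))))))))),
      ([1, 3, 1, 2, 0, 2, 2], (.cons 1 0x410110 (.cons 2 0x320130 (.cons 4 0xd0d00 (.cons 8 0xc1 (.cons 16 0xf1 (.cons 8 0x61 (.cons 4 0x60100 (.cons 2 0x220000 (.cons 1 0x400040 .nil)))))))))),
      ([], .nil),
      ([4, 7, 4, 4, 7, 7, 7, 5, 7], (.cons 1 0x51510 (.cons 2 0x312110 (.cons 4 0xf0a00 (.cons 8 0x5e (.cons 16 0x8e (.cons 8 0xe (.cons 4 0x20400 (.cons 2 0x31000 (.cons 1 0x44400 .nil)))))))))),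
      ([5, 1, 5, 5, 0, 0, 4], (.cons 1 0x544140 (.cons 2 0x131020 (.cons 4 0x90100 (.cons 8 0xd1 (.cons 16 0x31 (.cons 8 0x31 (.cons 4 0xc00 (.cons 2 0x3000 (.cons 1 0x544140 .nil)))))))))),
      ([7, 2, 4, 2, 5, 6, 3, 6], (.cons 1 0x110140 (.cons 2 0x200220 (.cons 4 0x80f00 (.cons 8 0xf6 (.cons 16 0xb6 (.cons 8 0x16 (.cons 4 0x40000 (.cons 2 0x21100 (.cons 1 0x414040 .nil)))))))))),
      ([9, 6, 8, 7, 5, 8, 5, 6], (.cons 1 0x414140 (.cons 2 0x103120 (.cons 4 0x300 (.cons 8 0xcd (.cons 16 0xad (.cons 8 0x8d (.cons 4 0x40400 (.cons 2 0x112200 (.cons 1 0x50140 .nil)))))))))),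
      ([5, 1, 5, 1, 4, 2, 1, 5, 5], (.cons 1 0x505400 (.cons 2 0x111000 (.cons 4 0x40e00 (.cons 8 0xb8 (.cons 16 0x78 (.cons 8 0x38 (.cons 4 0x20000 (.cons 2 0x333300 (.cons 1 0x141400 .nil))))))))))]
      [13, 14, 15, 16, 17, 18, 19, 20, 21, 22, 23, 24, 12, 11, 10, 9, 8, 7, 6, 5, 4, 3, 2, 1, 0] [(2, 1, 12), (3, 2, 2), (0, 2, 2), (1, 2, 2), (4, 2, 3), (5, 2, 3), (6, 2, 1)] (by decide +kernel)
theorem l4 {K : Subgroup MM} (hT : ∀ x ∈ tN.map mm, x ∈ K) (h : ∀ x ∈ a3N.map mm, x ∈ K) : 138240 ≤ Nat.card K :=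
  low (actsL_app a3_a t_a) (mem_app h hT) [([5, 2, 21, 16, 19, 21, 4, 2, 5, 1, 16], (.cons 1 0x15044 (.cons 2 0x203020 (.cons 4 0xf0104 (.cons 8 0xe8 (.cons 16 0x3e (.cons 8 0x38 (.cons 4 0xf0c00 (.cons 2 0x222110 (.cons 1 0x54054 .nil)))))))))),
      ([6, 13, 9, 7, 15, 3, 10, 10, 21], (.cons 1 0x110114 (.cons 2 0x313212 (.cons 4 0xf0206 (.cons 8 0xdc (.cons 16 0x7e (.cons 8 0x6c (.cons 4 0x10100 (.cons 2 0x300030 (.cons 1 0x110114 .nil)))))))))),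
      ([19, 6, 11, 19, 15, 25, 7], (.cons 1 0x155554 (.cons 2 0x32032 (.cons 4 0x9070c (.cons 8 0x6c (.cons 16 0xa8 (.cons 8 0x80 (.cons 2 0x121300 (.cons 1 0x44 .nil))))))))),
      ([1, 1, 1, 3, 4, 1, 3], (.cons 1 0x451010 (.cons 2 0x22120 (.cons 4 0x60700 (.cons 8 0xeb (.cons 16 0xbf (.cons 8 0x83 (.cons 4 0x40600 (.cons 2 0x200320 (.cons 1 0x415040 .nil)))))))))),
      ([5, 3], (.cons 1 0x441110 (.cons 2 0x210320 (.cons 4 0xd0c00 (.cons 8 0xb2 (.cons 16 0xda (.cons 8 0x82 (.cons 4 0xe0000 (.cons 2 0x233000 (.cons 1 0x514050 .nil)))))))))),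
      ([3, 1, 2], (.cons 1 0x110110 (.cons 2 0x230110 (.cons 4 0xd0608 (.cons 8 0x3c (.cons 16 0x54 (.cons 8 0x14 (.cons 4 0x10a00 (.cons 2 0x303000 (.cons 1 0x150000 .nil)))))))))),
      ([5, 2, 2, 5], (.cons 1 0x451150 (.cons 2 0x311220 (.cons 4 0x80408 (.cons 8 0x7b (.cons 16 0xc3 (.cons 8 0x83 (.cons 4 0x400 (.cons 2 0x110100 (.cons 1 0x545440 .nil)))))))))),
      ([2, 2, 2, 1, 3, 1, 1, 1], (.cons 1 0x154500 (.cons 2 0x102100 (.cons 4 0x10c00 (.cons 8 0xdf (.cons 16 0xf (.cons 8 0xf (.cons 4 0x10c00 (.cons 2 0x102100 (.cons 1 0x54500 .nil)))))))))),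
      ([4, 2, 2], (.cons 1 0x445440 (.cons 2 0x210120 (.cons 4 0x20f00 (.cons 8 0x9c (.cons 16 0xbc (.cons 8 0xc (.cons 4 0x100 (.cons 2 0x30100 (.cons 1 0x444400 .nil)))))))))),
      ([6, 5, 6, 5, 5, 7, 5], (.cons 1 0x455410 (.cons 2 0x33010 (.cons 4 0x60900 (.cons 8 0x92 (.cons 16 0xf2 (.cons 8 0x62 (.cons 4 0xf0100 (.cons 2 0x230200 (.cons 1 0x411540 .nil)))))))))),
      ([5, 1, 4, 2, 1, 1, 3, 0, 4, 0], (.cons 1 0x440500 (.cons 2 0x103000 (.cons 4 0xf0200 (.cons 8 0xf6 (.cons 16 0xb6 (.cons 8 0x16 (.cons 4 0x10800 (.cons 2 0x122000 (.cons 1 0x455440 .nil))))))))))]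
      [11, 12, 13, 14, 15, 16, 17, 18, 19, 20, 21, 22, 10, 9, 8, 7, 6, 5, 4, 3, 2, 1, 0] [(0, 1, 12), (1, 1, 3), (2, 1, 2), (3, 2, 2), (4, 2, 3), (5, 2, 1)] (by decide +kernel)
theorem tO : ∀ x ∈ tN.map mm, x ∈ HO := t_a.stab_eO (by decide +kernel)
theorem tS : ∀ x ∈ tN.map mm, x ∈ HSx := t_a.stab_eS (by decide +kernel)
theorem p759 {K : Subgroup MM} (hT : ∀ x ∈ tN.map mm, x ∈ K) (c : Nat.card K = 322560) : K = HO := by
  rcases hx hT with a | a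
  · exact eq_of_le_of_card_ge a (card_stab_eO.trans c.symm).le
  have d : _ = 13440 := c24 (c.symm ▸ a)
  rcases kx inf_le_right (sub hT) d (by decide) with b | b | b
  · have := card_le_of_le (cl_a1 ▸ cl_le fun g hg => mem_of_index_lt (le_inf b inf_le_right) (n := 3) (p := 7)
      (by rw [card_A1, d]) (by norm_num) (by norm_num) (a1_m g hg)
      (MM_faithful fun _ => a1_a.pow_fix (K := 5) (by decide +kernel) hg) : HO ⊓ H23 ≤ K ⊓ H23)
    rw [card_A1, d] at this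
    omega
  · have := l2 fun g hg => mem_of_index_lt (le_inf b inf_le_right) (n := 3) (p := 7)
      (by rw [card_A2, d]) (by norm_num) (by norm_num) (a2_m g hg)
      (MM_faithful fun _ => a2_a.pow_fix (K := 5) (by decide +kernel) hg)
    rw [d] at this
    omega
  · have := card_le_of_le (le_inf b inf_le_right : K ⊓ H23 ≤ HSx ⊓ H23)
    rw [card_A3, d] at this
    omega
theorem a41 : ∀ x ∈ a4N.map mm, x ∈ HO ⊓ H23 := fun x h => (a4_m x h).1
theorem p253 {K : Subgroup MM} (hT : ∀ x ∈ tN.map mm, x ∈ K) (c : Nat.card K = 967680) : False := by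
  rcases hx hT with a | a
  · have := card_le_of_le a
    rw [card_stab_eO, c] at this
    omega
  rcases k253 inf_le_right (sub hT) (c24 (c.symm.trans a)) with b | b
  · have e : HO ≤ K := inf_eq_left.1 (eq_of_le_of_card_ge inf_le_left (card_stab_eO.le.trans
      (l1 (mem_inf_of tO hT) fun x h => ⟨(a41 x h).1, (b.ge (a41 x h)).1⟩)))
    rcases e.eq_or_lt with f | f
    · rw [← f, card_stab_eO] at c; omega
    · rw [coatom_HO.2 _ f, card_top, card_MM] at c; omega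
  · have := l3 hT fun x h => (b.ge (a2_m x h)).1
    omega
theorem tet {K : Subgroup MM} {t : Finset Cfsg.GolayPt} (h : K ≤ stabilizer MM t) {s : MM} (hs : s ∈ HSx)
    (hy : s • t = GE.fs 0x800007) : K ≤ HSx := fun g hg => by
  have m : GE.fs 0x800007 ∈ eS 0 := by rw [eS_zero]; exact GE.mem_fam.2 ⟨_, by decide +kernel, rfl⟩
  have e : (s * g * s⁻¹) • GE.fs 0x800007 = GE.fs 0x800007 := by
    rw [← hy, mul_smul, inv_smul_smul, mul_smul, h hg]
  have : s * g * s⁻¹ ∈ HSx :=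
    sextet_eq_of_mem0 (smul_mem_sextets _ eS_zero_mem) (e ▸ Finset.smul_mem_smul_finset m)
  exact (HSx.mul_mem_cancel_left hs).1 ((HSx.mul_mem_cancel_right (inv_mem hs)).1 this)
theorem rest {K : Subgroup MM} (hK : K ≤ H23) {y : Nat} (h : K ≤ stabilizer MM (GE.fs y)) (a : GE.fs y ⊆ GE.fs oct0)
    (b : 5 ≤ (GE.fs y).card) : K ≤ HO ∧ K ≤ stabilizer MM ((GE.fs oct0 \ GE.fs y) \ {GE.e 23}) := by
  have c : ∀ g ∈ K, g • GE.fs oct0 = GE.fs oct0 := fun g hg => stab_oct oct0_mem a b (h hg)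
  refine ⟨HO_eq ▸ c, fun g hg => ?_⟩
  rw [mem_stabilizer_iff, Finset.smul_finset_sdiff, Finset.smul_finset_sdiff, c g hg, h hg, Finset.smul_finset_singleton,
    hK hg]
theorem p1771 {K : Subgroup MM} (hT : ∀ x ∈ tN.map mm, x ∈ K) (c : Nat.card K = 138240) : K = HSx := by
  rcases hx hT with a | a
  · have := card_dvd_of_le a
    rw [card_stab_eO, c] at this
    omega
  have d : _ = 5760 := c24 (c.symm ▸ a)
  have k : K ⊓ H23 ≤ HSx → K = HSx := fun b => by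
    have e := eq_of_le_of_card_ge (le_inf b inf_le_right : K ⊓ H23 ≤ HSx ⊓ H23) (by rw [card_A3, d])
    have f := l4 (mem_inf_of hT tS) fun x h => ⟨(e.ge (a3_m x h)).1, (a3_m x h).1⟩
    exact (eq_of_le_of_card_ge inf_le_left (c.le.trans f)).symm.trans
      (eq_of_le_of_card_ge inf_le_right (card_stab_eS.le.trans f))
  obtain ⟨y, a, b, b', e, f⟩ := orb_sub tx_a (sub hT) (k := 1) (R := [0, 2, 3, 4, 23]) (b := 3) (P := fun y => or' (or' (tb y 23)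
    (elemL (pop24 y) [7, 21, 22, 23])) (elemL y [147496, 147500, 147499, 8388600])) (by norm_num) (by decide +kernel)
  simp only [or'_eq, Bool.or_eq_true, elemL_iff, f 23 (by norm_num) (by norm_num) inf_le_right, Bool.false_eq_true,
    false_or, List.mem_cons, List.not_mem_nil, or_false] at a
  rw [d] at e
  rcases a with a | rfl | rfl | rfl | rfl
  · rcases a with a | a | a | a <;> rw [a] at e <;> omega
  · exact k (tet b (tS _ (.head _)) ((acts_mm (by decide +kernel)).smul_gfs (by decide +kernel)))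
  · obtain ⟨u, v⟩ := rest inf_le_right b (by decide +kernel) (by decide +kernel)
    rw [show (GE.fs oct0 \ GE.fs 147500) \ {GE.e 23} = GE.fs 3 by decide +kernel] at v
    have := card_le_of_le (le_inf (le_inf u inf_le_right) v)
    rw [card_A5, d] at this
    omega
  · obtain ⟨u, v⟩ := rest inf_le_right b (by decide +kernel) (by decide +kernel)
    rw [show (GE.fs oct0 \ GE.fs 147499) \ {GE.e 23} = {GE.e 2} by decide +kernel] at v
    have w : K ⊓ H23 ≤ stabilizer MM (GE.e 2) := fun g hg => Finset.singleton_injective (v hg)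
    have z := eq_of_le_of_card_ge (le_inf (le_inf u inf_le_right) w) (by rw [card_A4, d])
    have := l1 hT fun x h => (z.ge (a4_m x h)).1
    omega
  · exact k (tet b' (one_mem _) (one_smul _ _))
theorem p276 {K : Subgroup MM} (hb : mm beN ∈ K) (c : Nat.card K = 887040) : K = stabilizer MM (eP2 0) := by
  have hg := NZ_le (A := ⊤) le_top (Nat.le_of_dvd (by norm_num) (be_d _)) (NZ_cases (P := (· = 110)) (by norm_num) be_o hb c
    (be_d _) (by norm_num) (by norm_num) (by decide +kernel)) trivial (mem_NZ ga_a be_a [0, 0, 0, 0, 0, 0, 0, 0, 0, 0] (by decide +kernel))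
  obtain ⟨y, a, b, -, d, -⟩ := orb_sub (H := K) (.cons be_a (.cons ga_a .nil)) (by simp [hb, hg]) (k := 6) (R := [0, 1]) (b := 23)
    (P := fun y => elemL y [0x800001, 16777215]) (by norm_num) (by decide +kernel)
  simp only [elemL_iff, List.mem_cons, List.not_mem_nil, or_false] at a
  rcases a with rfl | rfl
  · exact eq_of_le_of_card_ge (eP2_zero ▸ b) (card_stab_eP2.trans c.symm).le
  have d : _ = 36960 := c24 (c.symm ▸ d)
  obtain ⟨y, a, b, b', e, f⟩ := orb_sub (H := K ⊓ H23) (.cons be_a .nil) (fun g h => List.mem_singleton.1 h ▸ ⟨hb, be_m.1⟩) (k := 10) (R := [0, 1, 5, 23]) (b := 1)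
    (P := fun y => or' (or' (tb y 23) (Nat.beq (pop24 y) 23)) (elemL y [0x5335e, 0x5335f, 0x7ffffe])) (by norm_num) (by decide +kernel)
  simp only [or'_eq, Bool.or_eq_true, elemL_iff, f 23 (by norm_num) (by norm_num) inf_le_right, Bool.false_eq_true,
    false_or, List.mem_cons, List.not_mem_nil, or_false, beq_iff] at a
  rw [d] at e
  have k : ¬ K ⊓ H23 ≤ stabilizer MM (GE.fs dod0) := fun h => by
    have := card_dvd_of_le h
    rw [← H12_eq, card_stab_eD, d] at this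
    omega
  rcases a with a | rfl | rfl | rfl
  · rw [a] at e; omega
  · exact (k fun g hg => stab_dod dod0_mem (by decide +kernel) (by decide +kernel) (b hg)).elim
  · exact (k b).elim
  have l : K ⊓ H23 ≤ H22 := fun g hg => ⟨hg.2, Finset.singleton_injective (α := Cfsg.GolayPt) (by
    have h : g • GE.e 23 = GE.e 23 := hg.2
    rw [← Finset.smul_finset_singleton, show {GE.e 0} = GE.fs (0x7ffffe ^^^ (2 ^ 24 - 1)) \ {GE.e 23} by decide +kernel,
      Finset.smul_finset_sdiff, b' hg, Finset.smul_finset_singleton, h])⟩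
  obtain ⟨g, -, H, R, a, b⟩ := exists_conj_mem l x7_m (by norm_num) x7_o (by rw [card_H22]; norm_num) (by rw [d]; norm_num)
  exact NZ_cases (P := fun _ => _) (by norm_num) x7_o a (R.card.symm.trans d)
    ((card_dvd_of_le (inf_le_inf_right _ b)).trans x7_c.dvd) (by norm_num) (by norm_num)
    (fun d a b c => absurd c (by revert d; decide +kernel))
theorem fin {Ω : Type} [MulAction MM Ω] {s : Ω} {g : MM} {K H : Subgroup MM} (R : CjRel g K H) (h : K = stabilizer MM s) :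
    H = stabilizer MM (g • s) := R.eq (h ▸ CjRel.stab g s)


/-- Subgroups of the group of the length-24 code of index 759, 276 and 1771 are exactly the octad, duad and sextet stabilisers, and no subgroup has index 253. -/
theorem result : (∀ H : Subgroup ↥Cfsg.M24, H.index = 759 → ∃ o ∈ Cfsg.octads, H = MulAction.stabilizer Cfsg.M24 o) ∧ (∀ H : Subgroup ↥Cfsg.M24, H.index = 276 → ∃ s : Finset Cfsg.GolayPt, s.card = 2 ∧ H = MulAction.stabilizer Cfsg.M24 s) ∧ (∀ H : Subgroup ↥Cfsg.M24, H.index = 1771 → ∃ S ∈ Cfsg.sextets, H = MulAction.stabilizer Cfsg.M24 S) ∧ ∀ H : Subgroup ↥Cfsg.M24, H.index ≠ 253 := by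
  refine ⟨fun H h => ?_, fun H h => ?_, fun H h => ?_, fun H h => ?_⟩
  · obtain ⟨g, K, R, a, c⟩ := wT (idx h (by norm_num) (c := 322560) rfl) (by norm_num)
    exact ⟨_, (mm_smul_octads g).2 (tabO.mem 0 (by norm_num)), fin R (p759 a c)⟩
  · have c := idx h (by norm_num) (c := 887040) rfl
    obtain ⟨g, -, K, R, a, -⟩ := exists_conj_mem (A := ⊤) (H := H) le_top (mem_top _) (by norm_num) be_o
      (by rw [card_top, card_MM]; norm_num) (by rw [c]; norm_num)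
    exact ⟨_, (Finset.card_smul_finset _ _).trans (by rw [eP2_zero]; decide +kernel), fin R (p276 a (R.card.symm.trans c))⟩
  · obtain ⟨g, K, R, a, c⟩ := wT (idx h (by norm_num) (c := 138240) rfl) (by norm_num)
    exact ⟨_, smul_mem_sextets g eS_zero_mem, fin R (p1771 a c)⟩
  · obtain ⟨g, K, R, a, c⟩ := wT (idx h (by norm_num) (c := 967680) rfl) (by norm_num)
    exact p253 a c

end Cfsg.Agent.S1589
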