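import Mathlib
import Cfsg.Statements.S1590
import Cfsg.Agent.H8.Tern

set_option autoImplicit false
open Cfsg

namespace Cfsg.Agent.S1590

theorem result : Nat.card ↥Cfsg.ternaryGolayCode = 729 ∧ (∀ x ∈ Cfsg.ternaryGolayCode, x ≠ 0 → (Cfsg.ternarySupport x).card = 6 ∨ (Cfsg.ternarySupport x).card = 9 ∨ (Cfsg.ternarySupport x).card = 12) ∧ {x : Cfsg.ArrayPt → ZMod 3 | x ∈ Cfsg.ternaryGolayCode ∧ (Cfsg.ternarySupport x).card = 6}.ncard = 264 ∧ {x : Cfsg.ArrayPt → ZMod 3 | x ∈ Cfsg.ternaryGolayCode ∧ (Cfsg.ternarySupport x).card = 9}.ncard = 440 ∧ {x : Cfsg.ArrayPt → ZMod 3 | x ∈ Cfsg.ternaryGolayCode ∧ (Cfsg.ternarySupport x).card = 12}.ncard = 24 := by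
  exact ⟨H8.Tern.card_code, fun x hx h0 => H8.Tern.weights hx h0,
    (H8.Tern.ncard_wt 6).trans H8.Tern.cnt_chk.1, (H8.Tern.ncard_wt 9).trans H8.Tern.cnt_chk.2.1,
    (H8.Tern.ncard_wt 12).trans H8.Tern.cnt_chk.2.2⟩

end Cfsg.Agent.S1590
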