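import Mathlib
import Cfsg.Statements.S1592
import Cfsg.Agent.H8.Tern2

set_option autoImplicit false
open Cfsg

namespace Cfsg.Agent.S1592

theorem result : Cfsg.IsSteinerSystem 5 6 {h : Finset Cfsg.ArrayPt | ∃ x ∈ Cfsg.ternaryGolayCode, Cfsg.ternarySupport x = h ∧ h.card = 6} ∧ {h : Finset Cfsg.ArrayPt | ∃ x ∈ Cfsg.ternaryGolayCode, Cfsg.ternarySupport x = h ∧ h.card = 6}.ncard = 132 := by
  exact ⟨H8.Tern.steiner, H8.Tern.ncard_BB⟩

end Cfsg.Agent.S1592
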