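import Mathlib
import Cfsg.Statements.S1593
import Cfsg.Agent.H8.Tern

set_option autoImplicit false
open Cfsg

namespace Cfsg.Agent.S1593

theorem result (c : Cfsg.ArrayPt → (ZMod 3)ˣ) (h : (∀ x ∈ Cfsg.ternaryGolayCode, Cfsg.monomialMap 1 c x ∈ Cfsg.ternaryGolayCode)) : (∀ p, c p = 1) ∨ (∀ p, c p = -1) := by
  have k := H8.Tern.ker_const (c := c) h
  exact (H8.Tern.unit_cases (c (0, 0))).imp (fun e p => (k p).trans e) fun e p => (k p).trans e

end Cfsg.Agent.S1593
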