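import Mathlib
import Cfsg.Statements.S1594
import Cfsg.Agent.H8.Tern2

set_option autoImplicit false
open Cfsg

namespace Cfsg.Agent.S1594

theorem result : Nat.card {f : Equiv.Perm Cfsg.ArrayPt × (Cfsg.ArrayPt → (ZMod 3)ˣ) // (∀ x ∈ Cfsg.ternaryGolayCode, Cfsg.monomialMap f.1 f.2 x ∈ Cfsg.ternaryGolayCode)} = 190080 ∧ {σ : Equiv.Perm Cfsg.ArrayPt | ∃ c : Cfsg.ArrayPt → (ZMod 3)ˣ, (∀ x ∈ Cfsg.ternaryGolayCode, Cfsg.monomialMap σ c x ∈ Cfsg.ternaryGolayCode)} = (Cfsg.setSystemAut {h : Finset Cfsg.ArrayPt | ∃ x ∈ Cfsg.ternaryGolayCode, Cfsg.ternarySupport x = h ∧ h.card = 6} : Set (Equiv.Perm Cfsg.ArrayPt)) := by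
  refine ⟨?_, congrArg SetLike.coe H8.Tern.A_eq⟩
  have := H8.Mono.card_pairs (C := Cfsg.ternaryGolayCode)
  rw [H8.Tern.A_eq, H8.Tern.card_aut, H8.Tern.card_ker] at this
  exact this

end Cfsg.Agent.S1594
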