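import Mathlib
import Cfsg.Statements.S1596
import Cfsg.Agent.H8.Quart

set_option autoImplicit false
open scoped Pointwise
open Cfsg

namespace Cfsg.Agent.S1596

open H27 MulAction H8.Quart

theorem result (d : Finset Cfsg.GolayPt) (hd : d ∈ Cfsg.dodecads) (t u : Finset Cfsg.GolayPt) (ht : t.card = 3) (hu : u.card = 3) (htu : Disjoint t u) (hh : t ∪ u ∈ Cfsg.hexadsOn d) : ∃! Q : Finset (Finset Cfsg.GolayPt), Q ∈ Cfsg.quartets d ∧ t ∈ Q ∧ u ∈ Q := by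
  obtain ⟨g, rfl, rfl, rfl⟩ := exists_pair hd ht hu htu hh
  have m : ∀ x ∈ [0x50040, 0x2300, 0x1018, 0x7], g • GE.fs x ∈ g • eQ 0 := fun x hx =>
    Finset.smul_mem_smul_finset (eQ_zero ▸ GE.mem_fam.2 ⟨x, hx, rfl⟩)
  refine ⟨g • eQ 0, ⟨smul_quart g eQ0_mem, m _ (by simp), m _ (by simp)⟩, fun Q hQ => ?_⟩
  obtain ⟨Q, rfl⟩ := exists_eq_smul g Q
  obtain ⟨a, b, c⟩ := hQ
  rw [Finset.smul_mem_smul_finset_iff] at b c
  rw [eq_eQ0 ((smul_quart_iff g).1 a) b c]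

end Cfsg.Agent.S1596
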