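import Mathlib
import Cfsg.Statements.S1597
import Cfsg.Agent.H8.Quart

set_option autoImplicit false
open scoped Pointwise
open Cfsg

namespace Cfsg.Agent.S1597

open H27 MulAction H8.Quart

theorem result (d : Finset Cfsg.GolayPt) (hd : d ∈ Cfsg.dodecads) : (Cfsg.quartets d).ncard = 220 ∧ ∀ Q ∈ Cfsg.quartets d, ∀ Q' ∈ Cfsg.quartets d, ∃ g : Equiv.Perm Cfsg.GolayPt, g ∈ Cfsg.M24 ∧ g • d = d ∧ g • Q = Q' := by
  constructor
  · obtain ⟨g, rfl⟩ := exists_smul_eD hd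
    exact (ncard_smul g fun _ => smul_quart_iff g).trans quart_eq.2
  · intro Q hQ Q' hQ'
    obtain ⟨g, a, rfl⟩ := exists_smul_eQ hd hQ
    obtain ⟨k, b, rfl⟩ := exists_smul_eQ hd hQ'
    refine ⟨(k * g⁻¹ : MM), (k * g⁻¹).2, ?_, ?_⟩
    · change (k * g⁻¹) • d = d
      conv_lhs => rw [← a]
      rw [mul_smul, inv_smul_smul, b]
    · change (k * g⁻¹) • g • eQ 0 = k • eQ 0
      rw [mul_smul, inv_smul_smul]

end Cfsg.Agent.S1597
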