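import Mathlib
import Cfsg.Statements.S1598
import Cfsg.Agent.H8.Quart

set_option autoImplicit false
open scoped Pointwise
open Cfsg

namespace Cfsg.Agent.S1598

open H27 MulAction H8.Quart

theorem result (d : Finset Cfsg.GolayPt) (hd : d ∈ Cfsg.dodecads) (Q : Finset (Finset Cfsg.GolayPt)) (hQ : Q ∈ Cfsg.quartets d) : Nat.card ↥(MulAction.stabilizer Cfsg.M24 d ⊓ MulAction.stabilizer Cfsg.M24 Q) = 432 ∧ (∃ (N : Subgroup ↥(MulAction.stabilizer Cfsg.M24 d ⊓ MulAction.stabilizer Cfsg.M24 Q)) (_ : N.Normal), Nat.card N = 9 ∧ Nonempty (↥(MulAction.stabilizer Cfsg.M24 d ⊓ MulAction.stabilizer Cfsg.M24 Q) ⧸ N ≃* GL (Fin 2) (ZMod 3))) ∧ ∀ p ∈ d, ∀ q ∈ d, ∃ g ∈ (MulAction.stabilizer Cfsg.M24 d ⊓ MulAction.stabilizer Cfsg.M24 Q), ((g : ↥Cfsg.M24) : Equiv.Perm Cfsg.GolayPt) p = q := by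
  obtain ⟨g, rfl, rfl⟩ := exists_smul_eQ hd hQ
  have R := (CjRel.stab g (eD 0)).inf (CjRel.stab g (eQ 0))
  refine ⟨R.card.trans card_HQ, ?_, fun p hp q hq => ?_⟩
  · obtain ⟨N, a, b, c⟩ := struct
    obtain ⟨N, a, b, -, c⟩ := exists_normal_of_equiv (c := 9) (p := 0) R.equiv.some
      ⟨N, a, b, fun x _ => pow_zero x, c⟩
    exact ⟨N, a, b, c⟩
  · obtain ⟨p, rfl⟩ := exists_eq_smul g p
    obtain ⟨q, rfl⟩ := exists_eq_smul g q
    rw [Finset.smul_mem_smul_finset_iff] at hp hq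
    exact R.trans (trans_pts hp hq)

end Cfsg.Agent.S1598
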