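import Mathlib
import Cfsg.Statements.S1599
import Cfsg.Agent.H8.Quart

set_option autoImplicit false
open scoped Pointwise
open Cfsg

namespace Cfsg.Agent.S1599

open H27 MulAction H8.Quart
noncomputable def X1 : Nat := orb hQ 4 (Nat.shiftLeft 1 24)
noncomputable def X2 : Nat := orb hQ 8 (Nat.shiftLeft 1 9)
noncomputable def X3 : Nat := orb hQ 9 (Nat.shiftLeft 1 4)
noncomputable def X4 : Nat := orb hQ 10 (Nat.shiftLeft 1 1)

theorem result (d : Finset Cfsg.GolayPt) (hd : d ∈ Cfsg.dodecads) (Q : Finset (Finset Cfsg.GolayPt)) (hQ : Q ∈ Cfsg.quartets d) : ∃ X₁ ∈ Cfsg.quartets d, ∃ X₂ ∈ Cfsg.quartets d, ∃ X₃ ∈ Cfsg.quartets d, ∃ X₄ ∈ Cfsg.quartets d, (MulAction.orbit ↥(MulAction.stabilizer Cfsg.M24 d ⊓ MulAction.stabilizer Cfsg.M24 Q) X₁).ncard = 12 ∧ (MulAction.orbit ↥(MulAction.stabilizer Cfsg.M24 d ⊓ MulAction.stabilizer Cfsg.M24 Q) X₂).ncard = 27 ∧ (MulAction.orbit ↥(MulAction.stabilizer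 Cfsg.M24 d ⊓ MulAction.stabilizer Cfsg.M24 Q) X₃).ncard = 72 ∧ (MulAction.orbit ↥(MulAction.stabilizer Cfsg.M24 d ⊓ MulAction.stabilizer Cfsg.M24 Q) X₄).ncard = 108 ∧ Cfsg.quartets d = {Q} ∪ MulAction.orbit ↥(MulAction.stabilizer Cfsg.M24 d ⊓ MulAction.stabilizer Cfsg.M24 Q) X₁ ∪ MulAction.orbit ↥(MulAction.stabilizer Cfsg.M24 d ⊓ MulAction.stabilizer Cfsg.M24 Q) X₂ ∪ MulAction.orbit ↥(MulAction.stabilizer Cfsg.M24 d ⊓ MulAction.stabilizer Cfsg.M24 Q) X₃ ∪ MulAction.orbit ↥(MulAction.stabilizer Cfsg.M24 d ⊓ MulAction.stabilizer Cfsg.M24 Q) X₄ := by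
  obtain ⟨g, rfl, rfl⟩ := exists_smul_eQ hd hQ
  have R := (CjRel.stab g (eD 0)).inf (CjRel.stab g (eQ 0))
  obtain ⟨o1, c1⟩ := hQ_acts.orbit_ncard (k := 4) (b := 24) (X := X1) (d := 8) (c := 12) cl_h eQ_inj
    (by norm_num) (by norm_num) (by decide +kernel)
  obtain ⟨o2, c2⟩ := hQ_acts.orbit_ncard (k := 8) (b := 9) (X := X2) (d := 8) (c := 27) cl_h eQ_inj
    (by norm_num) (by norm_num) (by decide +kernel)
  obtain ⟨o3, c3⟩ := hQ_acts.orbit_ncard (k := 9) (b := 4) (X := X3) (d := 8) (c := 72) cl_h eQ_inj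
    (by norm_num) (by norm_num) (by decide +kernel)
  obtain ⟨o4, c4⟩ := hQ_acts.orbit_ncard (k := 10) (b := 1) (X := X4) (d := 8) (c := 108) cl_h eQ_inj
    (by norm_num) (by norm_num) (by decide +kernel)
  refine ⟨g • eQ 24, smul_quart g (eQ_mem (by norm_num)), g • eQ 9, smul_quart g (eQ_mem (by norm_num)),
    g • eQ 4, smul_quart g (eQ_mem (by norm_num)), g • eQ 1, smul_quart g (eQ_mem (by norm_num)),
    (R.ncard_orbit _).trans c1, (R.ncard_orbit _).trans c2, (R.ncard_orbit _).trans c3,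
    (R.ncard_orbit _).trans c4, ?_⟩
  rw [R.orbit, o1, R.orbit, o2, R.orbit, o3, R.orbit, o4, ← Set.smul_set_singleton,
    ← mset_one_shiftLeft eQ (by norm_num : 0 < 220), ← Set.smul_set_union, ← Set.smul_set_union,
    ← Set.smul_set_union, ← Set.smul_set_union, ← mset_or, ← mset_or, ← mset_or, ← mset_or,
    show Nat.shiftLeft 1 0 ||| X1 ||| X2 ||| X3 ||| X4 = ones 220 by decide +kernel, ← quart_eq.1,
    smul_set_eq g (fun _ => smul_quart_iff g)]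

end Cfsg.Agent.S1599
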