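import Cfsg.Statements.S1600
import Cfsg.Agent.H27.MX

set_option autoImplicit false
open scoped Pointwise
open Cfsg

namespace Cfsg.Agent.S1600
open H27 MulAction
open scoped Pointwise


/-- The pointwise stabiliser of three points of a dodecad inside the dodecad stabiliser (order 72) is transitive on the complementary dodecad. -/
theorem result (d : Finset Cfsg.GolayPt) (hd : d ∈ Cfsg.dodecads) (p q r : Cfsg.GolayPt) (hp : p ∈ d) (hq : q ∈ d) (hr : r ∈ d) (hpq : p ≠ q) (hpr : p ≠ r) (hqr : q ≠ r) : Nat.card ↥(MulAction.stabilizer Cfsg.M24 d ⊓ MulAction.stabilizer Cfsg.M24 p ⊓ MulAction.stabilizer Cfsg.M24 q ⊓ MulAction.stabilizer Cfsg.M24 r) = 72 ∧ ∀ x ∉ d, ∀ y ∉ d, ∃ g ∈ (MulAction.stabilizer Cfsg.M24 d ⊓ MulAction.stabilizer Cfsg.M24 p ⊓ MulAction.stabilizer Cfsg.M24 q ⊓ MulAction.stabilizer Cfsg.M24 r), ((g : ↥Cfsg.M24) : Equiv.Perm Cfsg.GolayPt) x = y := by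
  obtain ⟨g, rfl, rfl, rfl, rfl⟩ := exists_smul_dod3 hd hp hq hr hpq hpr hqr
  have R := (((CjRel.stab g (eD 0)).inf (CjRel.stab g (GE.e 0))).inf (CjRel.stab g (GE.e 1))).inf (CjRel.stab g (GE.e 2))
  rw [stab3_eq] at R
  refine ⟨R.card.trans card_D3, fun x hx y hy => ?_⟩
  obtain ⟨x, rfl⟩ := exists_eq_smul g x
  obtain ⟨y, rfl⟩ := exists_eq_smul g y
  rw [Finset.smul_mem_smul_finset_iff, not_mem_eD0] at hx hy
  obtain ⟨i, ⟨-, hi⟩, rfl⟩ := hx
  obtain ⟨j, ⟨-, hj⟩, rfl⟩ := hy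
  exact R.trans ((sD_drop 3).conn_mask (k := 3) (b := 23) (fun _ h => sD_cl3 ▸ mem_cl h) (by norm_num) (by decide +kernel) hi hj)

end Cfsg.Agent.S1600
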