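import Cfsg.Statements.S1606
import Cfsg.Agent.H9.Mz4

set_option autoImplicit false
open scoped Pointwise
open Cfsg

namespace Cfsg.Agent.S1606
open H27 MulAction
open scoped Pointwise
open H9 Subgroup
theorem key {K : Subgroup MM} (hK : K ≤ H22) : Nat.card K ≠ 7920 ∧ Nat.card K ≠ 2112 := by
  have c22 : Nat.card ↥(H22 ⊓ NZ (mm beN)) = 55 :=
    NZ_cases (P := (· = 55)) (by norm_num) be_o be_m card_H22 (be_d _) (by norm_num) (by norm_num) (by decide +kernel)
  constructor <;> intro c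
  · obtain ⟨g, -, H, R, a, b⟩ := exists_conj_mem hK be_m (by norm_num) be_o (by rw [card_H22]; norm_num) (by rw [c]; norm_num)
    replace c := R.card.symm.trans c
    have d := NZ_le b c22.le (NZ_cases (P := (· = 55)) (by norm_num) be_o a c (be_d _) (by norm_num) (by norm_num)
      (by decide +kernel)) de_m (mem_NZ de_a be_a [0, 0, 0] (by decide +kernel))
    have e := NZ_le b (Nat.le_of_dvd (by norm_num) de_d) (NZ_cases (P := (· = 20)) (by norm_num) de_o d c
      ((card_dvd_of_le (inf_le_inf_right _ b)).trans de_d) (by norm_num) (by norm_num)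
      (by decide +kernel)) n4_m (mem_NZ n4_a de_a [0, 0, 0] (by decide +kernel))
    have := low (.cons be_a (.cons de_a (.cons n4_a .nil))) (H := H) (by simp [a, d, e]) (c := 443520) [([3, 1, 5, 5, 0, 3, 1, 2, 4], (.cons 1 0x401400 (.cons 2 0x211320 (.cons 4 0x10c0c (.cons 8 0x40 (.cons 16 0xb4 (.cons 8 0xa0 (.cons 4 0x20200 (.cons 2 0x222010 (.cons 1 0x404040 .nil)))))))))),
      ([2, 5, 3, 3, 5, 3], (.cons 1 0x440540 (.cons 2 0x322320 (.cons 4 0xe0a04 (.cons 8 0x57 (.cons 16 0x6b (.cons 8 0x6b (.cons 4 0x20800 (.cons 2 0x100220 (.cons 1 0x455400 .nil)))))))))),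
      ([0, 2, 0, 0, 3, 0, 0], (.cons 1 0x514510 (.cons 2 0x233100 (.cons 4 0xd0908 (.cons 8 0x6a (.cons 16 0xd2 (.cons 8 0x12 (.cons 4 0x70000 (.cons 2 0x212220 (.cons 1 0x445400 .nil)))))))))),
      ([5, 5, 2, 2, 5], (.cons 1 0x541400 (.cons 2 0x122000 (.cons 4 0x90a00 (.cons 8 0x86 (.cons 16 0x5e (.cons 8 0x46 (.cons 4 0xf0800 (.cons 2 0x301120 (.cons 1 0x410010 .nil)))))))))),
      ([3, 1, 3, 1, 1, 1, 2, 2, 2], (.cons 1 0x545500 (.cons 2 0x13000 (.cons 4 0x30900 (.cons 8 0x49 (.cons 16 0xb9 (.cons 8 0x39 (.cons 4 0x20400 (.cons 2 0x203000 (.cons 1 0x544100 .nil)))))))))),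
      ([3, 5, 2, 4, 3, 3], (.cons 1 0x154140 (.cons 2 0x3210 (.cons 4 0x50900 (.cons 8 0xd2 (.cons 16 0x32 (.cons 8 0x32 (.cons 4 0x20000 (.cons 2 0x3200 (.cons 1 0x140 .nil)))))))))),
      ([7, 5, 6, 4, 7, 5], (.cons 1 0x451400 (.cons 2 0x10010 (.cons 4 0x30b00 (.cons 8 0x19 (.cons 16 0x99 (.cons 8 0x19 (.cons 4 0x800 (.cons 2 0x10000 (.cons 1 0x451000 .nil)))))))))),
      ([4, 1, 5, 0, 4, 3, 3, 5], (.cons 1 0x455440 (.cons 2 0x122000 (.cons 4 0x30800 (.cons 8 0x56 (.cons 16 0xb6 (.cons 8 0xb6 (.cons 4 0xf0000 (.cons 2 0x103000 (.cons 1 0x440500 .nil))))))))))]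
      [8, 9, 10, 7, 6, 5, 4, 3, 2, 1, 0] [(1, 1, 3), (2, 2, 2), (3, 2, 2), (4, 2, 3), (5, 2, 1)] (by decide +kernel)
    omega
  · obtain ⟨g, -, H, R, a, b⟩ := exists_conj_mem hK be_m (by norm_num) be_o (by rw [card_H22]; norm_num) (by rw [c]; norm_num)
    exact NZ_cases (P := fun _ => False) (by norm_num) be_o a (R.card.symm.trans c)
      ((card_dvd_of_le (inf_le_inf_right _ b)).trans c22.dvd) (by norm_num) (by norm_num) (by decide +kernel)


/-- The stabiliser of two points in the group of the length-24 code has no subgroups of index 56 or 210. -/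
theorem result (p q : Cfsg.GolayPt) (hpq : p ≠ q) (H : Subgroup ↥(MulAction.stabilizer Cfsg.M24 p ⊓ MulAction.stabilizer Cfsg.M24 q)) : H.index ≠ 56 ∧ H.index ≠ 210 := by
  obtain ⟨g, rfl, rfl⟩ := exists_smul_pt2 hpq
  have R := (CjRel.stab g (GE.e 23)).inf (CjRel.stab g (GE.e 0))
  have c := card_map_index H
  have S := CjRel.of_map g⁻¹ (H.map (Subgroup.subtype _))
  have k := key (S.le R.symm (map_subtype_le H))
  rw [S.card] at k
  rw [R.card, card_H22] at c
  exact ⟨fun h => k.1 (Nat.eq_of_mul_eq_mul_left (by norm_num : 0 < 56) ((h ▸ c).trans (by norm_num))),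
    fun h => k.2 (Nat.eq_of_mul_eq_mul_left (by norm_num : 0 < 210) ((h ▸ c).trans (by norm_num)))⟩

end Cfsg.Agent.S1606
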