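import Cfsg.Statements.S1609
import Cfsg.Agent.H9.Mz4

set_option autoImplicit false
open scoped Pointwise
open Cfsg

namespace Cfsg.Agent.S1609
open H27 MulAction
open scoped Pointwise
open H9 Subgroup

/-- Subgroups of index 253 in the Mathieu group of degree 23 are exactly the duad stabilisers and the heptad stabilisers. -/
theorem result (x : Cfsg.GolayPt) (H : Subgroup ↥(MulAction.stabilizer Cfsg.M24 x)) (hH : H.index = 253) : (∃ s : Finset Cfsg.GolayPt, s.card = 2 ∧ x ∉ s ∧ H = (MulAction.stabilizer Cfsg.M24 s).subgroupOf (MulAction.stabilizer Cfsg.M24 x)) ∨ ∃ o ∈ Cfsg.octads, x ∈ o ∧ H = (MulAction.stabilizer Cfsg.M24 o).subgroupOf (MulAction.stabilizer Cfsg.M24 x) := by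
  obtain ⟨g, rfl⟩ := exists_smul_pt x
  have R := CjRel.stab g (GE.e 23)
  have c := card_map_index H
  have S := CjRel.of_map g⁻¹ (H.map (Subgroup.subtype _))
  rw [R.card, card_H23, hH, ← S.card] at c
  obtain ⟨k, hk, K, U, a, b⟩ := exists_conj_ge (S.le R.symm (map_subtype_le H)) (cl_le tx_m) Nat.prime_two card_tx
    (by rw [card_H23]; norm_num) (by omega)
  have V := cjc U S.symm
  rw [inv_inv] at V
  have e : (g * k) • GE.e 23 = g • GE.e 23 := by rw [mul_smul, hk]
  have f : ∀ s : Finset Cfsg.GolayPt, K = stabilizer MM s ⊓ H23 →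
      H = (stabilizer MM ((g * k) • s)).subgroupOf (stabilizer MM (g • GE.e 23)) := fun s hs => by
    have W : CjRel (g * k) (stabilizer MM s ⊓ H23) (H.map (Subgroup.subtype _)) := hs ▸ V
    rw [← inf_subgroupOf_right, ← W.eq ((CjRel.stab _ s).inf (CjRel.stab' e))]
    exact (comap_map_eq_self_of_injective (Subgroup.subtype_injective _) H).symm
  rcases k253 b (fun _ h => a (mem_cl h)) (by rw [← U.card]; omega) with h | h
  · exact .inr ⟨_, (mm_smul_octads _).2 (tabO.mem 0 (by norm_num)), e ▸ Finset.smul_mem_smul_finset (by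
      rw [eO_zero]; decide +kernel), f _ h⟩
  · exact .inl ⟨_, (Finset.card_smul_finset _ _).trans (by decide +kernel), by
      rw [← e, Finset.smul_mem_smul_finset_iff]; decide +kernel, f _ (h.trans tri_pair)⟩

end Cfsg.Agent.S1609
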