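import Cfsg.Statements.S1612
import Cfsg.Agent.H18.TT6

set_option autoImplicit false
open Cfsg

namespace Cfsg.Agent.S1612



/-- In a 3-transposition group (no solvable normal subgroup, perfect derived group), the normaliser of a commuting set of transpositions of maximum size contains a Sylow 2-subgroup and is doubly transitive on the set. -/
theorem result {G : Type*} [Group G] [Finite G] (hsol : ∀ N : Subgroup G, N.Normal → Group.IsSolvable ↥N → N = ⊥) (hperf : ⁅commutator G, commutator G⁆ = commutator G) {D : Set G} (hD : Cfsg.IsThreeTranspositionClass D) {E : Set G} (hE : E ⊆ D) (hc : ∀ a ∈ E, ∀ b ∈ E, Commute a b) (hmax : ∀ E' : Set G, E' ⊆ D → (∀ a ∈ E', ∀ b ∈ E', Commute a b) → E'.ncard ≤ E.ncard) : (∃ P : Sylow 2 G, (P : Subgroup G) ≤ Subgroup.normalizer E) ∧ ∀ a ∈ E, ∀ b ∈ E, ∀ c ∈ E, ∀ d ∈ E, a ≠ b → c ≠ d → ∃ g ∈ Subgroup.normalizer E, g * a * g⁻¹ = c ∧ g * b * g⁻¹ = d := by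
  have h := H18.tp_of_fischer hsol hperf hD
  have p2 := H28.isPGroup_closure_commuting (fun a ha => h.sq (hE ha)) hc
  have key : ∀ (T : Subgroup G) (g : G), IsPGroup 2 T → (∀ x ∈ E, x ∈ T) →
      (∀ x ∈ E, g * x * g⁻¹ ∈ T) → g ∈ Subgroup.normalizer E := fun T g hT h1 h2 => by
    have e : E = {d | d ∈ D ∧ d ∈ T} := Set.eq_of_subset_of_ncard_le (fun x hx => ⟨hE hx, h1 x hx⟩)
      (hmax _ (fun _ h => h.1) fun a ha b hb =>
        H28.tt_commute_of_mem_two_group h.tt hT ha.1 hb.1 (T.mul_mem ha.2 hb.2)) (Set.toFinite _)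
    have := Set.toFinite E
    exact Subgroup.mem_normalizer_fintype fun x hx => e ▸ ⟨h.cj g x (hE hx), h2 x hx⟩
  refine ⟨?_, fun a ha b hb c hc' d hd ab cd => ?_⟩
  · obtain ⟨P, hP⟩ := p2.exists_le_sylow
    exact ⟨P, fun g hg => key P g P.isPGroup' (fun x hx => hP (Subgroup.subset_closure hx))
      fun x hx => mul_mem (mul_mem hg (hP (Subgroup.subset_closure hx))) (inv_mem hg)⟩
  · obtain ⟨g, e1, e2⟩ := h.pe_edge (hE ha) (hE hc') ⟨hE hb, ab.symm, hc a ha b hb⟩
      ⟨hE hd, cd.symm, hc c hc' d hd⟩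
    have le : ∀ u ∈ E, ∀ v ∈ E,
        Subgroup.closure E ≤ Subgroup.centralizer {u} ⊓ Subgroup.centralizer {v} :=
      fun u hu v hv => (Subgroup.closure_le _).2 fun x hx =>
        ⟨H6.mem_cent_iff_commute.2 (hc x hx u hu), H6.mem_cent_iff_commute.2 (hc x hx v hv)⟩
    obtain ⟨T, hT, l⟩ := H10.exists_isSylowIn_ge p2 (le c hc' d hd)
    obtain ⟨k, hk, l'⟩ := hT.exists_cj_le (P := H10.cj g (Subgroup.closure E)) (p2.map _) (by
      rintro _ ⟨x, hx, rfl⟩
      have := le a ha b hb hx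
      exact ⟨H6.mem_cent_iff_commute.2 (e1 ▸ (H28.commute_conj_iff g _ _).2
        (H6.mem_cent_iff_commute.1 this.1)), H6.mem_cent_iff_commute.2 (e2 ▸
          (H28.commute_conj_iff g _ _).2 (H6.mem_cent_iff_commute.1 this.2))⟩)
    refine ⟨k * g, key T _ hT.2.1 (fun x hx => l (Subgroup.subset_closure hx)) fun x hx => ?_,
      ?_, ?_⟩
    · have := l' (Subgroup.mem_map_of_mem _ (Subgroup.mem_map_of_mem _ (Subgroup.subset_closure hx)))
      simpa [mul_assoc] using this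
    · rw [← H6.conj_eq_iff_commute.2 (H6.mem_cent_iff_commute.1 hk.1), ← e1]; group
    · rw [← H6.conj_eq_iff_commute.2 (H6.mem_cent_iff_commute.1 hk.2), ← e2]; group

end Cfsg.Agent.S1612
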