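import Cfsg.Statements.S1614
import Cfsg.Agent.H1.Fe
import Cfsg.Agent.S0247

set_option autoImplicit false
open Cfsg

namespace Cfsg.Agent.S1614

open H1.Fi H18

/-- If the commuting transpositions of one transposition generate a solvable group, a Fischer 3-transposition group is S5, S6, PSU(4, 2) or PSU(5, 2). -/
theorem result {G : Type*} [Group G] [Finite G] (hsol : ∀ N : Subgroup G, N.Normal → Group.IsSolvable ↥N → N = ⊥) (hperf : ⁅commutator G, commutator G⁆ = commutator G) {D : Set G} (hD : Cfsg.IsThreeTranspositionClass D) (x : G) (hx : x ∈ D) (hs : Group.IsSolvable ↥(Subgroup.closure {y : G | y ∈ D ∧ y ≠ x ∧ Commute x y})) : Nonempty (G ≃* Equiv.Perm (Fin 5)) ∨ Nonempty (G ≃* Equiv.Perm (Fin 6)) ∨ ∃ (F : Type) (_ : Field F) (_ : Fintype F), Fintype.card F = 4 ∧ (Nonempty (G ≃* Cfsg.PSU 4 F 2) ∨ Nonempty (G ≃* Cfsg.PSU 5 F 2)) := by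
  have t := tp_of_fischer hsol hperf hD
  by_cases w : ∃ b c, Wl D x b c
  · obtain ⟨b, c, w⟩ := w
    obtain ⟨e, -⟩ := w.equiv_s5 t
    exact Or.inl ⟨e⟩
  by_cases v : ∀ a ∈ dd D x, ∀ b ∈ dd D x, Vr (dd D x) a b → a = b
  · haveI : Group.IsSolvable (Subgroup.closure (dd D x)) := hs
    exact (H5.qs_not_solvable (tp_res t hx (by simpa using w) v).qs inferInstance).elim
  push Not at v
  obtain ⟨a, ha, b, hb, v, n⟩ := v
  rcases fischer_b t hx ha hb n v with ⟨n, hn, k⟩ | ⟨n, hn, k⟩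
  · obtain ⟨m, hm, e, -⟩ := conv_sp t.toTC (cent_of hsol) (by omega) k
    obtain rfl : m = 2 := by have := mt (k.nsol t.toTC hx) (not_not.2 hs); omega
    obtain ⟨f⟩ := S0247.result (F := ZMod 2) rfl
    exact Or.inr (Or.inl ⟨e.trans f⟩)
  · obtain ⟨e, -⟩ := conv_u t.toTC (cent_of hsol) hn k
    obtain rfl | rfl : n = 4 ∨ n = 5 := by have := mt (k.nsol t.toTC hx) (not_not.2 hs); omega
    exacts [Or.inr (Or.inr ⟨K4, _, _, card_K4, Or.inl ⟨e⟩⟩), Or.inr (Or.inr ⟨K4, _, _, card_K4, Or.inr ⟨e⟩⟩)]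

end Cfsg.Agent.S1614
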