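import Cfsg.Statements.S1616
import Cfsg.Agent.H1.Fe

set_option autoImplicit false
open Cfsg

namespace Cfsg.Agent.S1616

open H1.Fi H18

/-- If O₂(⟨D_x⟩) is not central in ⟨D_x⟩ for some transposition x, the 3-transposition group is some Sp(2n, 2) or PSU(n, 2). -/
theorem result {G : Type*} [Group G] [Finite G] (hsol : ∀ N : Subgroup G, N.Normal → Group.IsSolvable ↥N → N = ⊥) (hperf : ⁅commutator G, commutator G⁆ = commutator G) {D : Set G} (hD : Cfsg.IsThreeTranspositionClass D) (x : G) (hx : x ∈ D) (h : ¬ Cfsg.pCore 2 ↥(Subgroup.closure {y : G | y ∈ D ∧ y ≠ x ∧ Commute x y}) ≤ Subgroup.center ↥(Subgroup.closure {y : G | y ∈ D ∧ y ≠ x ∧ Commute x y})) : (∃ n : ℕ, Nonempty (G ≃* Matrix.symplecticGroup (Fin n) (ZMod 2))) ∨ ∃ (F : Type) (_ : Field F) (_ : Fintype F) (n : ℕ), Fintype.card F = 4 ∧ Nonempty (G ≃* Cfsg.PSU n F 2) := by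
  have t := tp_of_fischer hsol hperf hD
  have := mt (o2_iff t hx).2 h
  push Not at this
  obtain ⟨a, ha, b, hb, v, n⟩ := this
  rcases fischer_b t hx ha hb n v with ⟨n, hn, k⟩ | ⟨n, hn, k⟩
  · obtain ⟨m, -, e, -⟩ := conv_sp t.toTC (cent_of hsol) (by omega) k
    exact Or.inl ⟨m, ⟨e⟩⟩
  · obtain ⟨e, -⟩ := conv_u t.toTC (cent_of hsol) hn k
    exact Or.inr ⟨K4, _, _, n, card_K4, ⟨e⟩⟩

end Cfsg.Agent.S1616
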