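import Cfsg.Statements.S1620
import Cfsg.Agent.H29.J2

set_option autoImplicit false
open Quaternion
open Cfsg

namespace Cfsg.Agent.S1620

/-- The Hall–Janko group is simple and non-abelian. -/
theorem result : IsSimpleGroup Cfsg.Spor.J2 ∧ ∃ a b : Cfsg.Spor.J2, a * b ≠ b * a := by
  haveI := H29.j2_simple
  haveI := Nat.finite_of_card_ne_zero (H29.j2_card.trans_ne (by norm_num))
  exact ⟨H29.j2_simple, H29.exists_ne_comm_of_simple H29.j2_card (by norm_num)⟩

end Cfsg.Agent.S1620
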