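import Cfsg.Statements.S1623
import Cfsg.Agent.H29.J2j

set_option autoImplicit false
open Quaternion
open Cfsg

namespace Cfsg.Agent.S1623

/-- A reflection centraliser in the Hall–Janko group is an extension of an extraspecial group of order 32 by the alternating group of degree 5. -/
theorem result (f : Equiv.Perm ↥Cfsg.Spor.icoLeech) (hf : Cfsg.Spor.IsIcoReflection f) (hfm : f ∈ Cfsg.Spor.twoJ2) : ∃ (Q : Subgroup ↥(Subgroup.centralizer {(QuotientGroup.mk ⟨f, hfm⟩ : Cfsg.Spor.J2)})) (_ : Q.Normal), Nat.card Q = 32 ∧ Cfsg.IsExtraspecial 2 Q ∧ Nonempty (↥(Subgroup.centralizer {(QuotientGroup.mk ⟨f, hfm⟩ : Cfsg.Spor.J2)}) ⧸ Q ≃* alternatingGroup (Fin 5)) := by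
  obtain ⟨φ, h1, h2, h3, -⟩ := H29.j2_inv.{0}.1
  have := Nat.finite_of_card_ne_zero (H29.j2_card.trans_ne (by norm_num))
  obtain ⟨j, rfl⟩ := H29.Ic.isRefl_iff'.1 hf
  obtain ⟨g, -, e⟩ := H29.Ic.conj_rj j j.2
  obtain ⟨f⟩ := H29.cent_conj (t := (QuotientGroup.mk (H29.Ic.rj 0) : Spor.J2)) (t' := QuotientGroup.mk (H29.Ic.rj j))
    (isConj_iff.2 ⟨QuotientGroup.mk g, congrArg QuotientGroup.mk e⟩)
  exact H29.ext_of_equiv f h1 h2 h3

end Cfsg.Agent.S1623
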