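import Mathlib
import Cfsg.Statements.S1632
import Cfsg.Agent.H8.Theta2

set_option autoImplicit false
open Matrix
open Cfsg

namespace Cfsg.Agent.S1632

theorem result (B : Matrix (Fin 24) (Fin 24) ℤ) (hsymm : B.IsSymm) (hpos : ∀ x : Fin 24 → ℤ, x ≠ 0 → 0 < x ⬝ᵥ (B *ᵥ x)) (heven : ∀ x : Fin 24 → ℤ, (2 : ℤ) ∣ x ⬝ᵥ (B *ᵥ x)) (hdet : B.det = 1) (h2 : ∀ x : Fin 24 → ℤ, x ⬝ᵥ (B *ᵥ x) ≠ 2) : {x : Fin 24 → ℤ | x ⬝ᵥ (B *ᵥ x) = 4}.ncard = 196560 ∧ {x : Fin 24 → ℤ | x ⬝ᵥ (B *ᵥ x) = 6}.ncard = 16773120 ∧ {x : Fin 24 → ℤ | x ⬝ᵥ (B *ᵥ x) = 8}.ncard = 398034000 := by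
  obtain ⟨f, hf⟩ := H8.Theta.th_form hsymm hpos heven hdet
  obtain ⟨e2, e3, e4⟩ := H8.Theta.coeffs f (by
    rw [hf, show {x : Fin 24 → ℤ | x ⬝ᵥ (B *ᵥ x) = 2 * (0 : ℕ)} = {0} from Set.ext fun x =>
      ⟨fun h => by_contra fun e => (hpos x e).ne' (by simpa using h), fun h => by
        rw [Set.mem_singleton_iff.1 h]; simp⟩]
    simp) (by
    rw [hf, show {x : Fin 24 → ℤ | x ⬝ᵥ (B *ᵥ x) = 2 * (1 : ℕ)} = ∅ from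
      Set.eq_empty_of_forall_notMem fun x h => h2 x (by simpa using h)]
    simp)
  rw [hf] at e2 e3 e4
  exact ⟨by exact_mod_cast e2, by exact_mod_cast e3, by exact_mod_cast e4⟩

end Cfsg.Agent.S1632
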