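import Cfsg.Statements.S1633
import Cfsg.Agent.H9.Le3

set_option autoImplicit false
open Cfsg

namespace Cfsg.Agent.S1633

open H27 H9 MulAction
open scoped Pointwise
theorem key (g : CC) : {x : LL | sqNorm (x : VV) = 32 ∧ dotInt ((g • lV' : LL) : VV) (x : VV) = 16 ∧
    dotInt ((g • lV : LL) : VV) (x : VV) = -24} = g • M352 := by
  refine (smul_set_eq g fun y => ?_).symm
  simp only [Set.mem_setOf_eq, co_norm, co_dot, M352, D1, mdot, lV', AddSubgroup.coe_neg, AddSubgroup.coe_add, neg_dot, add_dot]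
  omega

/-- The Higman–Sims group acts transitively on 352 vectors, a set closed under x ↦ −w − x, with vector stabiliser isomorphic to PSU(3, 5). -/
theorem result (v w : ↥Cfsg.leechLattice) (hv : Cfsg.sqNorm (v : Cfsg.GolayPt → ℤ) = 48) (hw : Cfsg.sqNorm (w : Cfsg.GolayPt → ℤ) = 48) (hvw : Cfsg.dotInt (v : Cfsg.GolayPt → ℤ) (w : Cfsg.GolayPt → ℤ) = -32) (F : Type) [Field F] [Fintype F] (hF : Fintype.card F = 25) : {x : ↥Cfsg.leechLattice | Cfsg.sqNorm (x : Cfsg.GolayPt → ℤ) = 32 ∧ Cfsg.dotInt (v : Cfsg.GolayPt → ℤ) (x : Cfsg.GolayPt → ℤ) = 16 ∧ Cfsg.dotInt (w : Cfsg.GolayPt → ℤ) (x : Cfsg.GolayPt → ℤ) = -24}.ncard = 352 ∧ (∀ x ∈ {x : ↥Cfsg.leechLattice | Cfsg.sqNorm (x : Cfsg.GolayPt → ℤ) = 32 ∧ Cfsg.dotInt (v : Cfsg.GolayPt → ℤ) (x : Cfsg.GolayPt → ℤ) = 16 ∧ Cfsg.dotInt (w : Cfsg.GolayPt → ℤ) (x : Cfsg.GolayPt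 → ℤ) = -24}, -w - x ∈ {x : ↥Cfsg.leechLattice | Cfsg.sqNorm (x : Cfsg.GolayPt → ℤ) = 32 ∧ Cfsg.dotInt (v : Cfsg.GolayPt → ℤ) (x : Cfsg.GolayPt → ℤ) = 16 ∧ Cfsg.dotInt (w : Cfsg.GolayPt → ℤ) (x : Cfsg.GolayPt → ℤ) = -24}) ∧ (∀ x ∈ {x : ↥Cfsg.leechLattice | Cfsg.sqNorm (x : Cfsg.GolayPt → ℤ) = 32 ∧ Cfsg.dotInt (v : Cfsg.GolayPt → ℤ) (x : Cfsg.GolayPt → ℤ) = 16 ∧ Cfsg.dotInt (w : Cfsg.GolayPt → ℤ) (x : Cfsg.GolayPt → ℤ) = -24}, ∀ x' ∈ {x : ↥Cfsg.leechLattice | Cfsg.sqNorm (x : Cfsg.GolayPt → ℤ) = 32 ∧ Cfsg.dotInt (v : Cfsg.GolayPt → ℤ) (x : Cfsg.GolayPt → ℤ) = 16 ∧ Cfsg.dotInt (w : Cfsg.GolayPt → ℤ) (x : Cfsg.GolayPt → ℤ) = -24}, ∃ g : ↥Cfsg.Co0, g • v = v ∧ g • w = w ∧ g • x = x') ∧ ∀ x ∈ {x : ↥Cfsg.leechLattice | Cfsg.sqNorm (x : Cfsg.GolayPt → ℤ) = 32 ∧ Cfsg.dotInt (v : Cfsg.GolayPt → ℤ) (x : Cfsg.GolayPt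 → ℤ) = 16 ∧ Cfsg.dotInt (w : Cfsg.GolayPt → ℤ) (x : Cfsg.GolayPt → ℤ) = -24}, Nonempty (↥(MulAction.stabilizer ↥Cfsg.Co0 v ⊓ MulAction.stabilizer ↥Cfsg.Co0 w ⊓ MulAction.stabilizer ↥Cfsg.Co0 x) ≃* Cfsg.PSU 3 F 5) := by
  refine and_left_comm.1 ⟨?_, ?_⟩
  · intro x ⟨a, b, c⟩
    have := sqNorm_eq_dot (w : VV)
    simp only [Set.mem_setOf_eq, AddSubgroup.coe_sub, AddSubgroup.coe_neg, sqNorm_sub, sqNorm_neg, neg_dot, dot_sub, dot_neg]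
    omega
  obtain ⟨g, rfl, rfl⟩ := exists_smul_VV hw hv ((dot_comm _ _).trans hvw)
  have k : ∀ g : CC, CjRel g CHS (stabilizer CC (g • lV') ⊓ stabilizer CC (g • lV)) := fun g =>
    C3_inf_lV' ▸ inf_comm (stabilizer CC (g • lV)) _ ▸ (CjRel.stab g lV).inf (.stab g lV')
  rw [key]
  refine ⟨(Set.ncard_smul_set g _).trans M352_tr.1, fun x hx y hy => ?_, ?_⟩
  · obtain ⟨k, hk, e⟩ := cj_tr g (k g) M352_tr.2.2 x hx y hy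
    exact ⟨k, hk.1, hk.2, e⟩
  · rintro _ ⟨x, hx, rfl⟩
    obtain ⟨h, hh, rfl⟩ := M352_tr.2.2 _ M352_tr.2.1 x hx
    have r := (k (g * h)).inf (.stab (g * h) (e552 23))
    simp only [mul_smul, show h • lV = lV from hh.1, show h • lV' = lV' from (C3_inf_lV'.ge hh).2] at r
    exact r.iso (hs_u35 hF)

end Cfsg.Agent.S1633
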