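import Cfsg.Statements.S1634
import Cfsg.Agent.H9.Le2

set_option autoImplicit false
open Cfsg

namespace Cfsg.Agent.S1634

open H27 H9 MulAction
open scoped Pointwise
theorem key (g : CC) : {x : LL | sqNorm (x : VV) = 32 ∧ dotInt ((g • lU : LL) : VV) (x : VV) = 0 ∧
    dotInt ((g • lW : LL) : VV) (x : VV) = 16} = g • M2025 := by
  refine (smul_set_eq g fun y => ?_).symm
  simp only [Set.mem_setOf_eq, co_norm, co_dot, M2025, D1, mdot, lW, AddSubgroup.coe_neg, AddSubgroup.coe_add, neg_dot, add_dot]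
  omega

/-- The McLaughlin group acts on 2025 points (minimal vectors orthogonal to v with customary inner product 2 with w) transitively with rank 4 and subdegrees 1, 330, 462, 1232. -/
theorem result (v w : ↥Cfsg.leechLattice) (hv : Cfsg.sqNorm (v : Cfsg.GolayPt → ℤ) = 32) (hw : Cfsg.sqNorm (w : Cfsg.GolayPt → ℤ) = 32) (hvw : Cfsg.dotInt (v : Cfsg.GolayPt → ℤ) (w : Cfsg.GolayPt → ℤ) = -8) : {x : ↥Cfsg.leechLattice | Cfsg.sqNorm (x : Cfsg.GolayPt → ℤ) = 32 ∧ Cfsg.dotInt (v : Cfsg.GolayPt → ℤ) (x : Cfsg.GolayPt → ℤ) = 0 ∧ Cfsg.dotInt (w : Cfsg.GolayPt → ℤ) (x : Cfsg.GolayPt → ℤ) = 16}.ncard = 2025 ∧ (∀ x ∈ {x : ↥Cfsg.leechLattice | Cfsg.sqNorm (x : Cfsg.GolayPt → ℤ) = 32 ∧ Cfsg.dotInt (v : Cfsg.GolayPt → ℤ) (x : Cfsg.GolayPt → ℤ) = 0 ∧ Cfsg.dotInt (w : Cfsg.GolayPt → ℤ) (x : Cfsg.GolayPt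 → ℤ) = 16}, ∀ x' ∈ {x : ↥Cfsg.leechLattice | Cfsg.sqNorm (x : Cfsg.GolayPt → ℤ) = 32 ∧ Cfsg.dotInt (v : Cfsg.GolayPt → ℤ) (x : Cfsg.GolayPt → ℤ) = 0 ∧ Cfsg.dotInt (w : Cfsg.GolayPt → ℤ) (x : Cfsg.GolayPt → ℤ) = 16}, ∃ g : ↥Cfsg.Co0, g • v = v ∧ g • w = w ∧ g • x = x') ∧ ∀ x ∈ {x : ↥Cfsg.leechLattice | Cfsg.sqNorm (x : Cfsg.GolayPt → ℤ) = 32 ∧ Cfsg.dotInt (v : Cfsg.GolayPt → ℤ) (x : Cfsg.GolayPt → ℤ) = 0 ∧ Cfsg.dotInt (w : Cfsg.GolayPt → ℤ) (x : Cfsg.GolayPt → ℤ) = 16}, ∃ y₁ ∈ {x : ↥Cfsg.leechLattice | Cfsg.sqNorm (x : Cfsg.GolayPt → ℤ) = 32 ∧ Cfsg.dotInt (v : Cfsg.GolayPt → ℤ) (x : Cfsg.GolayPt → ℤ) = 0 ∧ Cfsg.dotInt (w : Cfsg.GolayPt → ℤ) (x : Cfsg.GolayPt → ℤ) = 16}, ∃ y₂ ∈ {x : ↥Cfsg.leechLattice | Cfsg.sqNorm (x : Cfsg.GolayPt → ℤ) = 32 ∧ Cfsg.dotInt (v : Cfsg.GolayPt → ℤ) (x : Cfsg.GolayPt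 → ℤ) = 0 ∧ Cfsg.dotInt (w : Cfsg.GolayPt → ℤ) (x : Cfsg.GolayPt → ℤ) = 16}, ∃ y₃ ∈ {x : ↥Cfsg.leechLattice | Cfsg.sqNorm (x : Cfsg.GolayPt → ℤ) = 32 ∧ Cfsg.dotInt (v : Cfsg.GolayPt → ℤ) (x : Cfsg.GolayPt → ℤ) = 0 ∧ Cfsg.dotInt (w : Cfsg.GolayPt → ℤ) (x : Cfsg.GolayPt → ℤ) = 16}, (MulAction.orbit ↥(MulAction.stabilizer ↥Cfsg.Co0 v ⊓ MulAction.stabilizer ↥Cfsg.Co0 w ⊓ MulAction.stabilizer ↥Cfsg.Co0 x) y₁).ncard = 330 ∧ (MulAction.orbit ↥(MulAction.stabilizer ↥Cfsg.Co0 v ⊓ MulAction.stabilizer ↥Cfsg.Co0 w ⊓ MulAction.stabilizer ↥Cfsg.Co0 x) y₂).ncard = 462 ∧ (MulAction.orbit ↥(MulAction.stabilizer ↥Cfsg.Co0 v ⊓ MulAction.stabilizer ↥Cfsg.Co0 w ⊓ MulAction.stabilizer ↥Cfsg.Co0 x) y₃).ncard = 1232 := by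
  obtain ⟨g, rfl, rfl⟩ := exists_smul_pair norm_lU lW_mem.1 hv hw (lW_mem.2.trans hvw.symm)
  have k : ∀ g : CC, CjRel g CMc _ := fun g => C2_inf_lW ▸ (CjRel.stab g lU).inf (.stab g lW)
  rw [key]
  refine ⟨(Set.ncard_smul_set g _).trans card_2025, fun x hx y hy => ?_, ?_⟩
  · obtain ⟨k, hk, e⟩ := cj_tr g (k g) (fun _ a _ b => exists_smul_of_orbit (orbit_2025.ge a) (orbit_2025.ge b)) x hx y hy
    exact ⟨k, hk.1, hk.2, e⟩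
  · rintro _ ⟨x, hx, rfl⟩
    obtain ⟨⟨h, hh⟩, rfl⟩ := orbit_2025.ge hx
    obtain ⟨y₁, a, y₂, b, y₃, c, e₁, e₂, e₃⟩ := mcl_rank4
    have hU : h • lU = lU := hh.2
    have hW : h • lW = lW := (C2_inf_lW.ge hh).2
    have r := (k (g * h)).inf (.stab (g * h) lU')
    rw [inf_right_comm] at r
    have m := key (g * h)
    simp only [mul_smul, hU, hW] at r m
    rw [key] at m
    have s : ∀ y ∈ M2025, g • h • y ∈ g • M2025 := fun y hy => m ▸ ⟨_, ⟨y, hy, rfl⟩, rfl⟩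
    exact ⟨_, s _ a, _, s _ b, _, s _ c, (mul_smul g h y₁ ▸ r.ncard_orbit _).trans e₁, (mul_smul g h y₂ ▸ r.ncard_orbit _).trans e₂,
      (mul_smul g h y₃ ▸ r.ncard_orbit _).trans e₃⟩

end Cfsg.Agent.S1634
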