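import Cfsg.Statements.S1638
import Cfsg.Agent.H27.MX

set_option autoImplicit false
open scoped Pointwise
open Cfsg

namespace Cfsg.Agent.S1638
open H27 MulAction
open scoped Pointwise
noncomputable def gN : List Net := [(.cons 1 0x51054 (.cons 2 0x212122 (.cons 4 0xe0700 (.cons 8 0xbd (.cons 16 0x7d (.cons 8 0x49 (.cons 4 0x60700 (.cons 2 0x300000 (.cons 1 0x14104 .nil))))))))),
  (.cons 1 0x445054 (.cons 2 0x123202 (.cons 4 0x10704 (.cons 8 0x64 (.cons 16 0xf4 (.cons 8 0xd0 (.cons 4 0x90e00 (.cons 2 0x120110 (.cons 1 0x400144 .nil)))))))))]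
noncomputable def gM : List Net := [(.cons 1 0x440051050044401501115451440540400145041011514400445440415144545411114
 (.cons 2 0x122332031103321102130303231203312203033202331230013232213132113123010
 (.cons 4 0xa03030d0e070f070603000b0f0b0b00000203010c010d0509050d020903000c000b
 (.cons 8 0x73003200cf002900a100a7002600ec003300640051004f009b00d100bc00fa00c6
 (.cons 16 0x300005e600000f629000002490000146a00009f3000003cef000081e90000cd83
 (.cons 32 0x5211f3a800000000e0ae150e00000000c734684700000000eb638c60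
 (.cons 64 0x4d1f90f8ba035f47000000000000000042c61f513156128f
 (.cons 128 0xf690db4bcb73fd9f845f51a378a7214b
 (.cons 256 0xfffef
 (.cons 128 0x1236f
 (.cons 64 0x20c68808a2d0e2650000000000000000000000000003f201
 (.cons 32 0xdf180d75000000008cca503c00000000829399c6000000000004a222
 (.cons 16 0x800005bd20000624f000001030000804d000088bb00000052000019780000a400
 (.cons 8 0x9d00d2008c0069006300a500fa009d00a400de0012004400a300ac000e0002000e
 (.cons 4 0xf030a00050700080f070e00070b0d07080b040a0a0203020d080201060005000105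
 (.cons 2 0x313010330111221031301302203223131113200133022201233130123000231123220
 (.cons 1 0x501040145551110415151544404105145151114515511005405054454515545541010
 .nil))))))))))))))))),
 (.cons 1 0x541050104511410515445100411101054041540514011415040510100041404450454
 (.cons 2 0x333232112133310122330120033232030000123201101303301312232110221321320
 (.cons 4 0x1060c0501040a00040b0b070d0309040c0e0c0c0201070a0f0608090f0b0e090406
 (.cons 8 0x8c00d40093000a001b00150015008f00be00e000bf009c009e00fc00a400f30034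
 (.cons 16 0x10000290400003b5700006cd800008c680000adb700002264000064600000b648
 (.cons 32 0x8d97473e0000000030c12fa0000000004a9a027d00000000a472da6f
 (.cons 64 0x7fdb467d8d067b5700000000000000004295b216c9a77784
 (.cons 128 0xc73d15b1f2b8da329a79a2485c4d6def
 (.cons 256 0xbffff
 (.cons 128 0xb1462
 (.cons 64 0x450497990266a7f6000000000000000000000000000262bc
 (.cons 32 0xb274dbcc00000000c959ec9b000000004405081f000000000008a345
 (.cons 16 0x400003a350000165100001f520000b14a0000839000001a1900008f1800000600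
 (.cons 8 0xd00b4008e0023000f00c5007100de0082008c0009006d0049009d005700000000
 (.cons 4 0xc0e06000803080d07000d0901080f060909030701010a040c080c0b0209080b080c
 (.cons 2 0x2301313203103012103110311021210100012121322002010023112232012100220
 (.cons 1 0x44001115444404101401140111054150105054410150455414541444041004055004
 .nil)))))))))))))))))]
theorem ga : ActsL 24 GE.e (gN.map mm) gN := actsL_mm (by decide +kernel)
noncomputable def Os : List Nat := [0x82402f, 0x841907, 0x908607, 0xa800c7, 0xc12017]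
noncomputable def inO (x : Nat) : Bool := force (Nat.lor 0x800007 x) fun y => anyL Os fun o => Nat.beq (Nat.land y o) y
theorem hO (i : Nat) : (∃ o ∈ Cfsg.octads, GE.e 23 ∈ o ∧ GE.e 0 ∈ o ∧ GE.fs 6 ∪ eP2 i ⊆ o) ↔ inO (p2M i) = true := by
  have e : ∀ o : Finset Cfsg.GolayPt, (GE.e 23 ∈ o ∧ GE.e 0 ∈ o ∧ GE.fs 6 ∪ eP2 i ⊆ o) ↔ GE.fs 0x800007 ∪ eP2 i ⊆ o := fun o => by
    rw [show GE.fs 0x800007 = {GE.e 23} ∪ ({GE.e 0} ∪ GE.fs 6) by decide +kernel]
    simp only [Finset.union_subset_iff, Finset.singleton_subset_iff, and_assoc]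
  simp only [e]
  rw [eP2_eq, ← GE.fs_or, inO, force_eq]
  exact exists_oct_iff' (T := 0x800007) (Nat.or_lt_two_pow (by norm_num) (p2M_lt i))
    (Nat.eq_of_testBit_eq fun j => by
      change (0x800007 &&& (0x800007 ||| p2M i)).testBit j = _
      rw [Nat.testBit_and, Nat.testBit_or]; cases Nat.testBit 0x800007 j <;> simp) (by decide +kernel)
theorem hD (i : Nat) : Disjoint (GE.fs 6) (eP2 i) ↔ Nat.beq (Nat.land 6 (p2M i)) 0 = true := by
  rw [eP2_eq, GE.fs_disjoint_iff (by norm_num), beq_iff]; rfl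
noncomputable def ok (x : Nat) : Bool := and' (not' (tb x 23)) (not' (tb x 0))
theorem hok {i : Nat} (hi : i < 276) : ((eP2 i).card = 2 ∧ GE.e 23 ∉ eP2 i ∧ GE.e 0 ∉ eP2 i) ↔ ok (p2M i) = true := by
  have := tabP2.mem i hi
  simp only [Set.mem_ofPred_eq] at this
  simp only [this, true_and]
  simp only [eP2_eq, e_mem_gfs (by norm_num : 23 < 24), e_mem_gfs (by norm_num : 0 < 24), ok, and'_eq, not'_eq,
    Bool.and_eq_true, Bool.not_eq_true', Bool.not_eq_true]
theorem hin (i : Nat) : (GE.fs 6 ∩ eP2 i).card = pop24 (Nat.land 6 (p2M i)) := by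
  rw [eP2_eq, card_inter_gfs]
noncomputable def cls (i : Nat) : Nat := force (p2M i) fun x => ite' (ok x) (pop24 (Nat.land 6 x) * 2 + ite' (inO x) 1 0) 99
theorem key {i j : Nat} (hi : i < 276) (hj : j < 276) (h : cls i = cls j) (h99 : cls i ≠ 99) :
    ∃ k ∈ H22 ⊓ stabilizer MM (GE.fs 6), k • eP2 i = eP2 j :=
  (ga.toP2 (Ms := gM) (by decide +kernel)).conn (k := 7) (reps := [(0, 1), (1, 8), (3, 3), (5, 108)])
    (mem_inf_of (mem_inf_of (ga.stab_pt (b := 23) (by norm_num) (by decide +kernel)) (ga.stab_pt (b := 0) (by norm_num) (by decide +kernel))) (ga.stab_gfs (by decide +kernel))) (by decide +kernel) hi hj h h99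
theorem inv (g : MM) (x : Finset Cfsg.GolayPt) :
    (∃ o ∈ Cfsg.octads, g • GE.e 23 ∈ o ∧ g • GE.e 0 ∈ o ∧ g • GE.fs 6 ∪ g • x ⊆ o) ↔
    (∃ o ∈ Cfsg.octads, GE.e 23 ∈ o ∧ GE.e 0 ∈ o ∧ GE.fs 6 ∪ x ⊆ o) := by
  rw [exists_smul_iff g]
  simp only [mm_smul_octads, Finset.smul_mem_smul_finset_iff, ← mm_smul_union, mm_smul_subset]


/-- Fix two points p ≠ q and a pair s of two further points. Among the pairs avoiding p, q and disjoint from s, exactly 30 lie in an octad together with p, q and s and exactly 160 do not; and any two pairs other than s that meet s in equally many points and agree on that octad property are carried to one another by an element of the group of the length-24 code fixing p, q and s. -/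
theorem result (p q : Cfsg.GolayPt) (hpq : p ≠ q) (s : Finset Cfsg.GolayPt) (hs : (s.card = 2 ∧ p ∉ s ∧ q ∉ s)) : {t : Finset Cfsg.GolayPt | (t.card = 2 ∧ p ∉ t ∧ q ∉ t) ∧ Disjoint s t ∧ (∃ o ∈ Cfsg.octads, p ∈ o ∧ q ∈ o ∧ s ∪ t ⊆ o)}.ncard = 30 ∧ {t : Finset Cfsg.GolayPt | (t.card = 2 ∧ p ∉ t ∧ q ∉ t) ∧ Disjoint s t ∧ ¬ (∃ o ∈ Cfsg.octads, p ∈ o ∧ q ∈ o ∧ s ∪ t ⊆ o)}.ncard = 160 ∧ ∀ t t' : Finset Cfsg.GolayPt, (t.card = 2 ∧ p ∉ t ∧ q ∉ t) → (t'.card = 2 ∧ p ∉ t' ∧ q ∉ t') → t ≠ s → t' ≠ s → (s ∩ t).card = (s ∩ t').card → ((∃ o ∈ Cfsg.octads, p ∈ o ∧ q ∈ o ∧ s ∪ t ⊆ o) ↔ (∃ o ∈ Cfsg.octads, p ∈ o ∧ q ∈ o ∧ s ∪ t' ⊆ o)) → ∃ g : Equiv.Perm Cfsg.GolayPt, g ∈ Cfsg.M24 ∧ g p = p ∧ g q = q ∧ g • s = s ∧ g • t = t' := by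
  obtain ⟨a, b, hab, rfl⟩ := Finset.card_eq_two.1 hs.1
  obtain ⟨-, h1, h2⟩ := hs
  simp only [Finset.mem_insert, Finset.mem_singleton, not_or] at h1 h2
  obtain ⟨g, e⟩ := exists_smul_list (l := [23, 0, 1, 2].map GE.e) (l' := [p, q, a, b]) (by decide +kernel)
    (by simp [hpq, hab, h1.1, h1.2, h2.1, h2.2]) rfl (by norm_num)
  simp only [List.map_cons, List.map_nil, List.cons.injEq, and_true] at e
  obtain ⟨rfl, rfl, rfl, rfl⟩ := e
  rw [← Finset.smul_finset_singleton, ← Finset.smul_finset_insert, show ({GE.e 1, GE.e 2} : Finset _) = GE.fs 6 by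
    decide +kernel]
  refine ⟨(ncard_smul g (T := {t | (t.card = 2 ∧ GE.e 23 ∉ t ∧ GE.e 0 ∉ t) ∧ Disjoint (GE.fs 6) t ∧
      (∃ o ∈ Cfsg.octads, GE.e 23 ∈ o ∧ GE.e 0 ∈ o ∧ GE.fs 6 ∪ t ⊆ o)}) (fun y => by simp only [Set.mem_ofPred_eq, inv, Finset.card_smul_finset, mm_smul_disjoint, Finset.smul_mem_smul_finset_iff, ← mm_smul_inter])).trans
      ((tabP2.ncard_cnt (fun i => force (p2M i) fun x => and' (ok x) (and' (Nat.beq (Nat.land 6 x) 0) (inO x))) (fun _ h => h.1.1) (fun i hi => by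
        simp only [Set.mem_ofPred_eq, hok hi, hD, hO, force_eq, and'_eq, not'_eq, Bool.and_eq_true,
          Bool.not_eq_true', Bool.not_eq_true])).trans (by decide +kernel)),
    (ncard_smul g (T := {t | (t.card = 2 ∧ GE.e 23 ∉ t ∧ GE.e 0 ∉ t) ∧ Disjoint (GE.fs 6) t ∧
      ¬ (∃ o ∈ Cfsg.octads, GE.e 23 ∈ o ∧ GE.e 0 ∈ o ∧ GE.fs 6 ∪ t ⊆ o)}) (fun y => by simp only [Set.mem_ofPred_eq, inv, Finset.card_smul_finset, mm_smul_disjoint, Finset.smul_mem_smul_finset_iff, ← mm_smul_inter])).trans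
      ((tabP2.ncard_cnt (fun i => force (p2M i) fun x => and' (ok x) (and' (Nat.beq (Nat.land 6 x) 0) (not' (inO x)))) (fun _ h => h.1.1) (fun i hi => by
        simp only [Set.mem_ofPred_eq, hok hi, hD, hO, force_eq, and'_eq, not'_eq, Bool.and_eq_true,
          Bool.not_eq_true', Bool.not_eq_true])).trans (by decide +kernel)), fun U U' h1 h2 _ _ h3 h => ?_⟩
  obtain ⟨U, rfl⟩ := exists_eq_smul g U
  obtain ⟨U', rfl⟩ := exists_eq_smul g U'
  simp only [Set.mem_ofPred_eq, inv, Finset.card_smul_finset, mm_smul_disjoint, Finset.smul_mem_smul_finset_iff, ← mm_smul_inter] at h1 h2 h3 h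
  obtain ⟨i, hi, rfl⟩ := tabP2.surj _ h1.1
  obtain ⟨j, hj, rfl⟩ := tabP2.surj _ h2.1
  rw [hok hi] at h1
  rw [hok hj] at h2
  rw [hin, hin] at h3
  rw [hO, hO] at h
  obtain ⟨k, hk, a⟩ := (((CjRel.stab g (GE.e 23)).inf (CjRel.stab g (GE.e 0))).inf (CjRel.stab g (GE.fs 6))).trans (key hi hj
    (by simp only [cls, force_eq, ite'_eq, h1, h2, h3, h, if_true])
    (by simp only [cls, force_eq, ite'_eq, h1, if_true]
        have := card_gfs (Nat.land 6 (p2M i)) ▸ Finset.card_le_univ (GE.fs _)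
        rw [card_pt] at this
        split_ifs <;> omega))
  exact ⟨k, k.2, hk.1.1, hk.1.2, hk.2, a⟩

end Cfsg.Agent.S1638
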