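import Cfsg.Statements.S1640
import Cfsg.Agent.H27.LCo1

set_option autoImplicit false
open Cfsg

namespace Cfsg.Agent.S1640
open H27 MulAction

/-- The stabiliser of a vector of customary norm 6 is transitive on the 11178 minimal vectors of customary inner product −2 with it. -/
theorem result (u : ↥Cfsg.leechLattice) (hu : Cfsg.sqNorm (u : Cfsg.GolayPt → ℤ) = 48) : {x : ↥Cfsg.leechLattice | Cfsg.sqNorm (x : Cfsg.GolayPt → ℤ) = 32 ∧ Cfsg.dotInt (u : Cfsg.GolayPt → ℤ) (x : Cfsg.GolayPt → ℤ) = -16}.ncard = 11178 ∧ ∀ x ∈ {x : ↥Cfsg.leechLattice | Cfsg.sqNorm (x : Cfsg.GolayPt → ℤ) = 32 ∧ Cfsg.dotInt (u : Cfsg.GolayPt → ℤ) (x : Cfsg.GolayPt → ℤ) = -16}, ∀ x' ∈ {x : ↥Cfsg.leechLattice | Cfsg.sqNorm (x : Cfsg.GolayPt → ℤ) = 32 ∧ Cfsg.dotInt (u : Cfsg.GolayPt → ℤ) (x : Cfsg.GolayPt → ℤ) = -16}, ∃ g : ↥Cfsg.Co0, g • u = u ∧ g • x = x' := by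
  refine ⟨?_, fun x hx x' hx' => ?_⟩
  · obtain ⟨g, rfl⟩ := exists_smul_lV hu
    exact (ncard_mdot_smul g lV _).trans ncard_V16
  · obtain ⟨g, a, rfl⟩ := exists_smul_V orbit_C3_lU' hu hx
    obtain ⟨k, b, rfl⟩ := exists_smul_V orbit_C3_lU' hu hx'
    exact ⟨k * g⁻¹, by rw [← a, mul_smul, inv_smul_smul, b, a], by rw [mul_smul, inv_smul_smul]⟩

end Cfsg.Agent.S1640
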