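import Cfsg.Statements.S1642
import Cfsg.Agent.Lead.HS2

set_option autoImplicit false
open Cfsg

namespace Cfsg.Agent.S1642
open Lead.St H27 MulAction


/-- Some involution of the Higman–Sims group acts without fixed points on its 100 points. -/
theorem result (v w : ↥Cfsg.leechLattice) (hv : Cfsg.sqNorm (v : Cfsg.GolayPt → ℤ) = 48) (hw : Cfsg.sqNorm (w : Cfsg.GolayPt → ℤ) = 48) (hvw : Cfsg.dotInt (v : Cfsg.GolayPt → ℤ) (w : Cfsg.GolayPt → ℤ) = -32) : ∃ g : ↥Cfsg.Co0, g • v = v ∧ g • w = w ∧ orderOf g = 2 ∧ ∀ x ∈ {x : ↥Cfsg.leechLattice | Cfsg.sqNorm (x : Cfsg.GolayPt → ℤ) = 32 ∧ Cfsg.dotInt (v : Cfsg.GolayPt → ℤ) (x : Cfsg.GolayPt → ℤ) = 24 ∧ Cfsg.dotInt (w : Cfsg.GolayPt → ℤ) (x : Cfsg.GolayPt → ℤ) = -24}, g • x ≠ x := by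
  obtain ⟨k, h1, h2⟩ := hs_std hv hw hvw
  obtain ⟨t, ht, o, f⟩ := exists_fpf
  refine ⟨k * t * k⁻¹, (h2 t ht).1, (h2 t ht).2, ?_, fun x hx => ?_⟩
  · rw [← o]; exact ((MulAut.conj k).orderOf_eq t)
  · obtain ⟨x, rfl⟩ := exists_eq_smul k x
    rw [mul_smul, mul_smul, inv_smul_smul, ne_eq, smul_left_cancel_iff]
    exact f x ((h1 x).1 hx)

end Cfsg.Agent.S1642
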