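import Cfsg.Statements.S1643
import Cfsg.Agent.H9.Mz4

set_option autoImplicit false
open scoped Pointwise
open Cfsg

namespace Cfsg.Agent.S1643
open H27 MulAction
open scoped Pointwise
open H9 Subgroup
theorem pe {g h : Equiv.Perm GolayPt} {N : Net} (a : Acts 24 GE.e g N) (b : Acts 24 GE.e h N) : g = h :=
  Equiv.ext fun p => by
    have := (a.act _ (GE.ix_lt p)).trans (b.act _ (GE.ix_lt p)).symm
    rwa [GE.e_ix] at this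
noncomputable def u2 : (ZMod 23)ˣ := ⟨2, 12, by decide, by decide⟩
noncomputable def mu : (ZMod 23)ˣ →* Equiv.Perm GolayPt where
  toFun u := Equiv.optionCongr (Units.mulLeft u)
  map_one' := Equiv.ext fun p => by cases p <;> simp
  map_mul' u v := Equiv.ext fun p => by cases p <;> simp [mul_assoc]
theorem ea : Equiv.optionCongr (Equiv.addRight (1 : ZMod 23)) = (mm alN : MM) :=
  pe ⟨Net.ok_of_valid (by decide +kernel), by decide +kernel⟩ al_a.coe_mm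
theorem eg : projInv = (mm gaN : MM) := pe ⟨Net.ok_of_valid (by decide +kernel), by decide +kernel⟩ ga_a.coe_mm
theorem eb : mu u2 = (mm beN : MM) := pe ⟨Net.ok_of_valid (by decide +kernel), by decide +kernel⟩ be_a.coe_mm
theorem clo (l : List MM) {X : Set (Equiv.Perm GolayPt)} (h : ∀ x, x ∈ X ↔ x ∈ l.map M24.subtype) :
    closure (X ∪ {g | ∃ u : (ZMod 23)ˣ, IsSquare u ∧ g = Equiv.optionCongr (Units.mulLeft u)}) =
      (cl (mm beN :: l)).map M24.subtype := by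
  refine le_antisymm ((closure_le _).2 ?_) (map_le_iff_le_comap.2 (cl_le fun g hg => subset_closure ?_))
  · rintro g (a | ⟨_, ⟨v, rfl⟩, rfl⟩)
    · obtain ⟨x, b, rfl⟩ := List.mem_map.1 ((h g).1 a)
      exact ⟨x, mem_cl (.tail _ b), rfl⟩
    · obtain ⟨k, -, b⟩ := (by decide +kernel : ∀ x y : ZMod 23, x * y = 1 → ∃ k < 11, x * x = 2 ^ k) v.1 v.2 v.3
      refine ⟨mm beN ^ k, pow_mem (mem_cl (.head _)) k, ?_⟩
      change _ = mu (v * v)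
      rw [show v * v = u2 ^ k from Units.ext b, map_pow, map_pow, eb]; rfl
  · rcases List.mem_cons.1 hg with rfl | a
    · exact .inr ⟨u2, ⟨u2 ^ 6, by decide⟩, eb.symm⟩
    · exact .inl ((h _).2 (List.mem_map_of_mem a))
noncomputable abbrev B : Subgroup MM := cl [mm beN, mm alN]
noncomputable abbrev L : Subgroup MM := cl [mm beN, mm alN, mm gaN]
theorem B_eq : B = H23 ⊓ NZ (mm alN) := ActsL.mm_cl_eq (.cons be_a (.cons al_a .nil))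
  (by simpa using ⟨⟨be_m.1, mem_NZ be_a al_a [0, 0] (by decide +kernel)⟩, al_m, le_normalizer (mem_zpowers _)⟩) al_c.le
  [([], .nil),
      ([4, 3, 3, 5], (.cons 1 0x14040 (.cons 2 0x313000 (.cons 4 0xe0d0c (.cons 8 0x94 (.cons 16 0xad (.cons 8 0x2c (.cons 4 0xf0800 (.cons 2 0x202330 (.cons 1 0x41410 .nil))))))))))]
      [2, 3, 1, 0] [(1, 3, 2), (0, 10, 2)] (by decide +kernel)
theorem cB : Nat.card B = 253 := B_eq ▸ al_c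
theorem Bl : B ≤ H23 := B_eq ▸ inf_le_left
theorem maxB {K : Subgroup MM} (h : B ≤ K) (k : K ≤ H23) : K = B ∨ K = H23 := by
  obtain ⟨n, a, b⟩ := sylow_cnt (by norm_num) al_o (h (mem_cl (by simp)))
    (fun c => absurd (c.trans (card_H23 ▸ card_dvd_of_le k)) (by norm_num))
  rw [le_antisymm (B_eq ▸ inf_le_inf_right _ k) (le_inf h (B_eq ▸ inf_le_right) : B ≤ K ⊓ NZ _), cB] at b
  have d : n ∣ 40320 := Nat.dvd_of_mul_dvd_mul_right (k := 253) (by norm_num) (by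
    have := card_dvd_of_le k
    rwa [b, card_H23] at this)
  have e := (by decide +kernel : ∀ n ∈ Nat.divisors 40320, n % 23 = 1 → n = 1 ∨ n = 40320 ∨ n ∈ [24, 70, 576, 1680]) n
    (Nat.mem_divisors.2 ⟨d, by norm_num⟩) a
  rcases e with rfl | rfl | e
  · exact .inl (eq_of_le_of_card_ge h (by rw [cB, b])).symm
  · exact .inr (eq_of_le_of_card_ge k (by rw [card_H23, b]))
  exact NZ_cases (P := fun _ => _) (by norm_num) be_o (h (mem_cl (by simp))) b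
    ((card_dvd_of_le (inf_le_inf_right _ k)).trans be_c23.dvd) (by norm_num) (by clear a b d; revert n; decide +kernel)
    (by clear a b d; exact fun d a b c => absurd c (by clear c; revert n d; decide +kernel))
theorem maxL {K : Subgroup MM} (h : L ≤ K) : Nat.card K = 6072 ∨ K = ⊤ := by
  obtain ⟨y, a, -, -, d, -⟩ := orb_sub (H := K) (.cons al_a (.cons ga_a .nil)) (fun g c => h (mem_cl (.tail _ c)))
    (k := 6) (R := [0]) (b := 23) (P := fun y => Nat.beq y 16777215) (by norm_num) (by decide +kernel)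
  rw [(beq_iff _ _).1 a] at d
  rcases maxB (K := K ⊓ H23) (le_inf ((cl_le fun g c => mem_cl (List.mem_append_left [_] c)).trans h) Bl) inf_le_right with b | b <;>
    rw [b] at d
  · exact .inl (d.trans (by rw [cB]; rfl))
  · exact .inr (eq_of_le_of_card_ge le_top (by rw [d, card_H23, card_top, card_MM]; decide +kernel))
noncomputable def Xs : List Nat := [0x1abeb, 0x357d6, 0x47aaf, 0x4f769, 0x5335f, 0x61fcb, 0x6afac, 0x7f2c3, 0x8c8ff, 0x8f55e, 0x9eed2, 0xa66be, 0xaad9b, 0xbe46b, 0xc3f96, 0xc8ff1, 0xd4bc7, 0xd5f58, 0xd62f9, 0xe352f, 0xe4e6d, 0xf55e1, 0xfe586, 0xff119, 0x109eed, 0x1191fe, 0x11ac5f, 0x11eabc, 0x11fe23, 0x12764f, 0x139b47, 0x13b279, 0x13c93b, 0x13dda4, 0x14cd7c, 0x1534eb, 0x155b36, 0x16187f, 0x178e35, 0x17c8d6, 0x187f2c, 0x191fe2, 0x19af85, 0x1a7595, 0x1a978e, 0x1abeb0, 0x1ac5f2, 0x1af853, 0x1b155b, 0x1b4727, 0x1c6a5e, 0x1c9cda,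 0x1cda39, 0x1d654d, 0x1d93c9, 0x1e49d9, 0x1eabc2, 0x1eed21, 0x1fcb0c, 0x1fe232, 0x213dda, 0x2323fc, 0x2358be, 0x23939b, 0x23d578, 0x23fc46, 0x2427bb, 0x24ec9e, 0x25e38d, 0x266be1, 0x269d65, 0x27368e, 0x275953, 0x2764f2, 0x279276, 0x27bb48, 0x2978e3, 0x299af8, 0x29a759, 0x2a69d6, 0x2ab66c, 0x2ad9b1, 0x2af08f, 0x2b66c5, 0x2bc23d, 0x2beb03, 0x2c0d5f, 0x2c30fe, 0x2c5f23, 0x2ca9a7, 0x2d9b15, 0x2f08f5, 0x2f1c6a, 0x2f8533, 0x2f91ac, 0x2fac0d, 0x30357d, 0x30c3f9, 0x30fe58, 0x3155b3, 0x317c8d, 0x323fc4, 0x327927, 0x32a69d, 0x335f0a, 0x3362ab, 0x347273, 0x3484f7, 0x34eb2a, 0x352f1c, 0x357d60, 0x358be4, 0x35f0a6, 0x362ab6, 0x366c55, 0x368e4e, 0x38d4bc, 0x3939b4, 0x39b472, 0x3aca9a, 0x3b2792, 0x3b484f, 0x3c23d5, 0x3c71a9, 0x3c93b2, 0x3d5784, 0x3dda42, 0x3e14cd, 0x3e46b1, 0x3eb035, 0x3f9618, 0x3fc464, 0x40d5f5, 0x423d57, 0x427bb4, 0x4299af, 0x430fe5,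 0x43f961, 0x44647f, 0x4556cd, 0x45f235, 0x4647f8, 0x46a5e3, 0x46b17c, 0x471a97, 0x472736, 0x47aaf0, 0x47f88c, 0x484f76, 0x48d62f, 0x48ff11, 0x493b27, 0x49cda3, 0x49d93c, 0x49e49d, 0x4a9a75, 0x4b0c3f, 0x4bc71a, 0x4cd7c2, 0x4d3aca, 0x4d7c29, 0x4d8aad, 0x4da393, 0x4e6d1c, 0x4eb2a6, 0x4ec9e4, 0x4f24ec, 0x4f7690, 0x51c9cd, 0x5213dd, 0x52f1c6, 0x5335f0, 0x534eb2, 0x53aca9, 0x54bc71, 0x54d3ac, 0x556cd8, 0x557847, 0x55b362, 0x55e11e, 0x55f581, 0x5606af, 0x562f91, 0x5654d3, 0x56cd8a, 0x57847a, 0x57c299, 0x57d606, 0x581abe, 0x5861fc, 0x58aad9, 0x58be46, 0x593c93, 0x59534e, 0x59b155, 0x5a3939, 0x5a427b, 0x5b362a, 0x5da427, 0x5e11ea, 0x5e38d4, 0x5f0a66, 0x5f2358, 0x5f581a, 0x606afa, 0x611eab, 0x614cd7, 0x6187f2, 0x61fcb0, 0x62323f, 0x62ab66, 0x62f91a, 0x6352f1, 0x638d4b, 0x646b17, 0x647f88, 0x649d93, 0x64e6d1, 0x64f24e, 0x654d3a, 0x65861f, 0x66be14,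 0x66c556, 0x66d1c9, 0x68e4e6, 0x6909ee, 0x69d654, 0x6a5e38, 0x6abc23, 0x6afac0, 0x6b0357, 0x6b17c8, 0x6b2a69, 0x6be14c, 0x6c556c, 0x6c9e49, 0x6cd8aa, 0x6d1c9c, 0x6d213d, 0x6ed213, 0x708f55, 0x70a66b, 0x71191f, 0x71a978, 0x71c6a5, 0x72358b, 0x724ec9, 0x727368, 0x72c30f, 0x7368e4, 0x755e11, 0x7581ab, 0x759534, 0x764f24, 0x76909e, 0x776909, 0x7847aa, 0x785335, 0x788c8f, 0x78e352, 0x791ac5, 0x792764, 0x796187, 0x7aaf08, 0x7ac0d5, 0x7bb484, 0x7c299a, 0x7c4647, 0x7c8d62, 0x7cb0c3, 0x7d606a, 0x7e2323, 0x7e5861, 0x7f1191, 0x7f2c30, 0x7f88c8, 0x807737, 0x80d3cf, 0x80ee6e, 0x81a79e, 0x81dcdc, 0x829f95, 0x834f3c, 0x83729d, 0x83b9b8, 0x83d665, 0x844b7b, 0x853f2a, 0x8550f7, 0x869e78, 0x86d89b, 0x86e53a, 0x871cad, 0x877370, 0x87acca, 0x87b855, 0x8896f6, 0x896f61, 0x89b0db, 0x8a6acb, 0x8a7e54, 0x8aa1ee, 0x8c971b, 0x8d3cf0, 0x8d8c97, 0x8db136, 0x8dca74,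 0x8e395a, 0x8e5687, 0x8ee6e0, 0x8f5994, 0x8f70aa, 0x912dec, 0x92dec2, 0x92e363, 0x932755, 0x9361b6, 0x93aa93, 0x941eb3, 0x94d596, 0x94e837, 0x94fca8, 0x95053f, 0x9543dc, 0x95a1c7, 0x9629ab, 0x96f611, 0x971b19, 0x992e36, 0x993aa9, 0x9941eb, 0x9a79e0, 0x9ab2c5, 0x9b0db1, 0x9b192e, 0x9b626c, 0x9b8077, 0x9b94e8, 0x9c72b4, 0x9cad0e, 0x9d06e5, 0x9d5499, 0x9dcdc0, 0x9e034f, 0x9e780d, 0x9eb328, 0x9ee154, 0x9f9505, 0xa0a7e5, 0xa0dca7, 0xa0f599, 0xa1c72b, 0xa1ee15, 0xa25bd8, 0xa4c9d5, 0xa5bd84, 0xa5c6c6, 0xa64eaa, 0xa6acb1, 0xa6c36c, 0xa741b9, 0xa75526, 0xa79e03, 0xa7e541, 0xa829f9, 0xa83d66, 0xa87b85, 0xa93275, 0xa9ab2c, 0xa9d06e, 0xa9f950, 0xaa0a7e, 0xaa1ee1, 0xaa4c9d, 0xaa87b8, 0xaa9327, 0xab2c53, 0xab438e, 0xac5356, 0xacb14d, 0xacca0f, 0xad0e39, 0xadec22, 0xae3632, 0xb0896f, 0xb0db13, 0xb1361b, 0xb14d59, 0xb192e3, 0xb25c6c, 0xb27552, 0xb283d6,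 0xb2c535, 0xb3283d, 0xb438e5, 0xb4f3c0, 0xb5658a, 0xb61b62, 0xb626c3, 0xb6325c, 0xb6c4d8, 0xb700ee, 0xb729d0, 0xb7b089, 0xb80773, 0xb8550f, 0xb8d8c9, 0xb8e568, 0xb94e83, 0xb95a1c, 0xb9b807, 0xba0dca, 0xbaa932, 0xbb9b80, 0xbc069e, 0xbcf01a, 0xbd6650, 0xbd844b, 0xbdc2a8, 0xbf2a0a, 0xc03b9b, 0xc069e7, 0xc14fca, 0xc1b94e, 0xc1eb32, 0xc225bd, 0xc2a87b, 0xc36c4d, 0xc38e56, 0xc3dc2a, 0xc4b7b0, 0xc4d86d, 0xc53565, 0xc64b8d, 0xc6c64b, 0xc72b43, 0xc971b1, 0xc993aa, 0xc9d549, 0xca0f59, 0xca741b, 0xca829f, 0xcad0e3, 0xcb14d5, 0xcb7b08, 0xcb8d8c, 0xcc9d54, 0xcca0f5, 0xcd5962, 0xcd86d8, 0xcdc03b, 0xce8372, 0xceaa4c, 0xcf01a7, 0xcf3c06, 0xcfca82, 0xd053f2, 0xd06e53, 0xd07acc, 0xd0e395, 0xd0f70a, 0xd264ea, 0xd35658, 0xd3a0dc, 0xd3cf01, 0xd3f2a0, 0xd414fc, 0xd43dc2, 0xd4993a, 0xd50f70, 0xd5264e, 0xd54993, 0xd59629, 0xd658a6, 0xd66507, 0xd6871c, 0xd844b7,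 0xd86d89, 0xd89b0d, 0xd8a6ac, 0xd8c971, 0xd9629a, 0xd9941e, 0xda1c72, 0xdb1361, 0xdbd844, 0xdc03b9, 0xdc2a87, 0xdc6c64, 0xdca741, 0xdcdc03, 0xdec225, 0xe01dcd, 0xe034f3, 0xe112de, 0xe1543d, 0xe1b626, 0xe26c36, 0xe29ab2, 0xe325c6, 0xe36325, 0xe395a1, 0xe4b8d8, 0xe4eaa4, 0xe507ac, 0xe53a0d, 0xe5414f, 0xe56871, 0xe58a6a, 0xe6507a, 0xe6e01d, 0xe780d3, 0xe83729, 0xe871ca, 0xe9e780, 0xeaa4c9, 0xeacb14, 0xeb3283, 0xec225b, 0xec36c4, 0xec4d86, 0xec64b8, 0xed89b0, 0xee01dc, 0xee1543, 0xee53a0, 0xee6e01, 0xef6112, 0xf00ee6, 0xf01a79, 0xf0aa1e, 0xf1b192, 0xf1cad0, 0xf29d06, 0xf2a0a7, 0xf2b438, 0xf3700e, 0xf3c069, 0xf41b94, 0xf55264, 0xf59941, 0xf6112d, 0xf70aa1, 0xf73700, 0xf80d3c, 0xf95053, 0xf9e034, 0xfacca0, 0xfb0896, 0xfb8550, 0xfca829, 0xfe5414]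
theorem Ln : L ≠ ⊤ := fun h => by
  have a : mm deN ∈ stabilizer MM (GE.fam Xs) :=
    cl_le (GE.stab_fam (.cons be_a (.cons al_a (.cons ga_a .nil))) (by decide +kernel)) (h ▸ trivial : mm deN ∈ L)
  have b : mm deN • GE.fs 0x1abeb ∈ mm deN • GE.fam Xs :=
    Finset.smul_mem_smul_finset (GE.mem_fam.2 ⟨_, by decide +kernel, rfl⟩)
  rw [a, de_a.smul_gfs (y := 0x2db22b) (by decide +kernel), GE.fs_mem_fam (by decide +kernel) (by norm_num)] at b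
  exact absurd b (by decide +kernel)
theorem cL : Nat.card L = 6072 := (maxL le_rfl).resolve_right Ln
theorem cm (K : Subgroup MM) : (K.map M24.subtype).subgroupOf M24 = K :=
  comap_map_eq_self_of_injective M24.subtype_injective K


/-- PSL(2, 23) = ⟨t ↦ t+1, t ↦ u t (u square), t ↦ −1/t⟩ is maximal of order 6072 in the group of the length-24 code, and its point stabiliser 23:11 (order 253) is maximal in the Mathieu group of degree 23. -/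
theorem result : (Subgroup.closure ({Equiv.optionCongr (Equiv.addRight (1 : ZMod 23)), Cfsg.projInv} ∪ {g : Equiv.Perm Cfsg.GolayPt | ∃ u : (ZMod 23)ˣ, IsSquare u ∧ g = Equiv.optionCongr (Units.mulLeft u)}) ≤ Cfsg.M24 ∧ Nat.card ↥(Subgroup.closure ({Equiv.optionCongr (Equiv.addRight (1 : ZMod 23)), Cfsg.projInv} ∪ {g : Equiv.Perm Cfsg.GolayPt | ∃ u : (ZMod 23)ˣ, IsSquare u ∧ g = Equiv.optionCongr (Units.mulLeft u)})) = 6072 ∧ IsCoatom ((Subgroup.closure ({Equiv.optionCongr (Equiv.addRight (1 : ZMod 23)), Cfsg.projInv} ∪ {g : Equiv.Perm Cfsg.GolayPt | ∃ u : (ZMod 23)ˣ, IsSquare u ∧ g = Equiv.optionCongr (Units.mulLeft u)})).subgroupOf Cfsg.M24)) ∧ (Subgroup.closure ({Equiv.optionCongr (Equiv.addRight (1 : ZMod 23))} ∪ {g : Equiv.Perm Cfsg.GolayPt | ∃ u : (ZMod 23)ˣ, IsSquare u ∧ g = Equiv.optionCongr (Units.mulLeft u)}) ≤ Cfsg.M24 ⊓ MulAction.stabilizer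 (Equiv.Perm Cfsg.GolayPt) (none : Cfsg.GolayPt) ∧ Nat.card ↥(Subgroup.closure ({Equiv.optionCongr (Equiv.addRight (1 : ZMod 23))} ∪ {g : Equiv.Perm Cfsg.GolayPt | ∃ u : (ZMod 23)ˣ, IsSquare u ∧ g = Equiv.optionCongr (Units.mulLeft u)})) = 253 ∧ IsCoatom (((Subgroup.closure ({Equiv.optionCongr (Equiv.addRight (1 : ZMod 23))} ∪ {g : Equiv.Perm Cfsg.GolayPt | ∃ u : (ZMod 23)ˣ, IsSquare u ∧ g = Equiv.optionCongr (Units.mulLeft u)})).subgroupOf Cfsg.M24).subgroupOf (MulAction.stabilizer Cfsg.M24 (none : Cfsg.GolayPt)))) := by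
  rw [clo [mm alN, mm gaN] (by simp [ea, eg]), clo [mm alN] (by simp [ea]), cm, cm,
    card_map_of_injective M24.subtype_injective, card_map_of_injective M24.subtype_injective]
  refine ⟨⟨map_subtype_le _, cL, Ln, fun K h => (maxL h.le).resolve_left fun c =>
    h.ne (eq_of_le_of_card_ge h.le (by rw [cL, c]))⟩, le_inf (map_subtype_le _) ?_, cB, fun h => ?_, fun K h => ?_⟩
  · rintro _ ⟨g, hg, rfl⟩; exact Bl hg
  · have := card_le_of_le (subgroupOf_eq_top.1 h : H23 ≤ B)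
    rw [card_H23, cB] at this
    omega
  · have e : ∀ A : Subgroup MM, A = K.map (Subgroup.subtype _) → A.subgroupOf _ = K := fun _ c =>
      c ▸ comap_map_eq_self_of_injective (Subgroup.subtype_injective _) K
    rcases maxB (K := K.map (Subgroup.subtype _)) (fun g c => ⟨⟨g, Bl c⟩, h.le c, rfl⟩) (map_subtype_le _) with c | c
    · exact absurd (e _ c.symm) h.ne
    · exact (e _ c.symm).symm.trans (subgroupOf_self _)

end Cfsg.Agent.S1643
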