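import Cfsg.Statements.S1667
import Cfsg.Agent.H29.Mr4

set_option autoImplicit false
set_option maxRecDepth 100000
open Cfsg

namespace Cfsg.Agent.S1667
open H29 Subgroup MulAction

theorem aux {S A Ω : Type*} [Group S] [Finite S] [IsSimpleGroup S] [Group A] (M : Model S) (h1 : M.mul = a2_24.mul)
    (h2 : M.eqb = Nat.beq) (h3 : M.one = a2_24.one) (vs : ∀ c ∈ mrX_aux, M.In ⊤ c) (top : M.cl cMc_g = ⊤)
    (hs : ∀ a g, M.R a g → a < 2 ^ (nat_lit 576)) {H : Subgroup S}
    (F : MrF (M.sub H)) (nS : Nat.card S = 898128000) (e0 : H ≃* A) [Fintype Ω] [DecidableEq Ω]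
    (hΩ : Fintype.card Ω = 275) (G : Subgroup (Equiv.Perm Ω)) [IsPretransitive G Ω] (a : Ω) (e : stabilizer G a ≃* A)
    (b c : Ω) (hb : (orbit (stabilizer G a) b).ncard = 112) (hc : (orbit (stabilizer G a) c).ncard = 162) :
    Nonempty (G ≃* S) := by
  obtain ⟨h, hG⟩ := rk3_of (n1 := 112) (n2 := 162) (hΩ.trans (by norm_num)) G a (e0.trans e.symm) b c hb hc
    (by norm_num) (by norm_num) (by norm_num)
  have nH := F.card
  exact mr_fin M h1 h2 h3 vs top hs (fun e => by rw [e, card_top, nS] at nH; omega) F h (by rw [hG, nH, nS])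

/-- Recognition of the McLaughlin group as a rank 3 permutation group: a transitive permutation group on 275 points in which the stabiliser of a point is isomorphic to the unitary group U₄(3) and has two further orbits, of sizes 112 and 162, is isomorphic to the McLaughlin group. -/
theorem result {Ω : Type*} [Fintype Ω] [DecidableEq Ω] (hΩ : Fintype.card Ω = 275) (G : Subgroup (Equiv.Perm Ω)) [MulAction.IsPretransitive G Ω] (a : Ω) (K : Type) [Field K] [Fintype K] (hK : Fintype.card K = 9) (e : MulAction.stabilizer G a ≃* Cfsg.PSU 4 K 3) (b c : Ω) (hb : (MulAction.orbit (MulAction.stabilizer G a) b).ncard = 112) (hc : (MulAction.orbit (MulAction.stabilizer G a) c).ncard = 162) : Cfsg.Spor.IsoMcL G := by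
  haveI : Finite H27.CMc := Nat.finite_of_card_ne_zero (H27.card_CMc.trans_ne (by norm_num))
  haveI := H27.simple_CMc
  obtain ⟨St, k⟩ := cMc_key
  obtain ⟨vs, vX, nH⟩ := mrX_card cMcM rfl rfl rfl cMc_valid.1 k
  have hs : ∀ a g, cMcM.R a g → a < 2 ^ (nat_lit 576) := a2_24.model_lt _ cMc_inj (by decide +kernel)
  obtain ⟨e0⟩ := mr_iso cMcM rfl rfl rfl hs vX nH hK
  obtain ⟨St', k'⟩ : ∃ St, Key cMcM St mr1_key mr1_fix := ⟨_, lee_key _ _ _ _ (by decide +kernel)⟩
  have F : MrF (cMcM.sub (cMcM.cl mrX1_g)) :=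
    mr_facts _ rfl rfl rfl (fun c hc => sub_in (in_cl_self vX c hc)) (k'.comap _ _) (sub_cl_top vX) nH
  have := @aux H27.CMc (PSU 4 K 3) Ω _ _ _ _ cMcM rfl rfl rfl vs cMc_valid.2 hs _ F H27.card_CMc e0
  obtain ⟨f⟩ := this hΩ G a e b c hb hc
  exact ⟨f.trans H27.mclEquiv⟩

end Cfsg.Agent.S1667
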