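import Cfsg.Statements.S1668
import Cfsg.Agent.H29.Sz6
import Cfsg.Agent.H29.SzI

set_option autoImplicit false
open Cfsg

namespace Cfsg.Agent.S1668
open H29 Subgroup MulAction
attribute [local instance] H28.suz_simple

/-- Recognition of the sporadic Suzuki group as a rank 3 permutation group: a transitive permutation group on 1782 points in which the stabiliser of a point is isomorphic to the Chevalley group G₂(4) and has two further orbits, of sizes 416 and 1365, is isomorphic to the sporadic Suzuki group. -/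
theorem result {Ω : Type*} [Fintype Ω] [DecidableEq Ω] (hΩ : Fintype.card Ω = 1782) (G : Subgroup (Equiv.Perm Ω)) [MulAction.IsPretransitive G Ω] (a : Ω) (K : Type) [Field K] [Fintype K] (hK : Fintype.card K = 4) (e : MulAction.stabilizer G a ≃* Cfsg.Lie.chevG2.group K) (b c : Ω) (hb : (MulAction.orbit (MulAction.stabilizer G a) b).ncard = 416) (hc : (MulAction.orbit (MulAction.stabilizer G a) c).ncard = 1365) : Cfsg.Spor.IsoSuz G := by
  obtain ⟨q, hq⟩ := H29.suz_ex
  obtain ⟨St, k⟩ := sz_key q
  have vX : ∀ c ∈ szX, q.M.In ⊤ c := valid_sub q.valid (by decide +kernel)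
  have hr : ∀ i < 6, q.M.R (lgetD a2_24.one szX i) (H28.ev H28.suzX [i]) := fun i hi => by
    refine Model.R_congr (M := q.M) (?_ : q.M.R _ (H28.suzX.getD i 1)) (by simp [H28.ev, H27.wordG])
    have := hq i
    interval_cases i <;> exact this
  have hH : q.M.cl szX = H27.cl (H28.suz_Sb.map (H28.ev H28.suzX)) := by
    refine le_antisymm (Model.cl_le' fun c hc g rg => ?_) (H27.cl_le fun g hg => ?_)
    · obtain ⟨i, hi, rfl⟩ := exists_lgetD a2_24.one hc
      have hi' : i < 6 := hi
      rw [q.M.unique rg (hr i hi')]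
      exact H27.mem_cl (List.mem_map_of_mem (by interval_cases i <;> decide))
    · obtain ⟨w, hw, rfl⟩ := List.mem_map.1 hg
      obtain ⟨i, hi, rfl⟩ : ∃ i < 6, w = [i] := by clear hg; revert w; decide
      exact Model.mem_cl (lgetD_mem hi) (hr i hi)
  obtain ⟨e0⟩ := hH ▸ sz_iso K hK
  have nH : Nat.card (q.M.cl szX) = 251596800 := (Nat.card_congr e0.toEquiv).trans ((S1059.result hK).trans (by norm_num))
  have F : SzF (q.M.sub (q.M.cl szX)) :=
    sz_facts _ rfl rfl rfl (fun c hc => sub_in (in_cl_self vX c hc)) (k.comap _ _) (sub_cl_top vX) nH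
  obtain ⟨h, hG⟩ := rk3_of (n1 := 416) (n2 := 1365) hΩ G a (e0.trans e.symm) b c hb hc (by norm_num) (by norm_num)
    (by norm_num)
  refine sz_fin q.M rfl rfl rfl q.cl_top (hq 6) (fun e => ?_) F h (by rw [hG, nH, H28.suz_card])
  rw [e, card_top, H28.suz_card] at nH
  cases nH

end Cfsg.Agent.S1668
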