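import Cfsg.Statements.S1669
import Cfsg.Agent.H29.Rr6

set_option autoImplicit false
set_option maxRecDepth 100000
open Cfsg

namespace Cfsg.Agent.S1669
open H29 Subgroup MulAction

theorem aux {S A Ω : Type*} [Group S] [Finite S] [IsSimpleGroup S] [Group A] (M : Model S) (h1 : M.mul = a2_28.mul)
    (h2 : M.eqb = Nat.beq) (h3 : M.one = a2_28.one) (vv : ∀ c ∈ ru1_g, M.In ⊤ c) (top : M.cl ru1_g = ⊤) {H : Subgroup S}
    (F : RrF (M.sub H)) (nS : Nat.card S = 145926144000) (e0 : H ≃* A) [Fintype Ω] [DecidableEq Ω]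
    (hΩ : Fintype.card Ω = 4060) (G : Subgroup (Equiv.Perm Ω)) [IsPretransitive G Ω] (a : Ω) (e : stabilizer G a ≃* A)
    (b c : Ω) (hb : (orbit (stabilizer G a) b).ncard = 1755) (hc : (orbit (stabilizer G a) c).ncard = 2304) :
    Nonempty (G ≃* S) := by
  obtain ⟨h, hG⟩ := rk3_of (n1 := 1755) (n2 := 2304) (hΩ.trans (by norm_num)) G a (e0.trans e.symm) b c hb hc
    (by norm_num) (by norm_num) (by norm_num)
  have nH := F.card
  exact rr_fin M h1 h2 h3 vv top (fun e => by rw [e, card_top, nS] at nH; omega) F h.symm (by rw [hG, nH, nS])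

/-- Recognition of the Rudvalis group as a rank 3 permutation group: a transitive permutation group on 4060 points in which the stabiliser of a point is isomorphic to the Ree group ²F₄(2) and has two further orbits, of sizes 1755 and 2304, is isomorphic to the Rudvalis group. -/
theorem result {Ω : Type*} [Fintype Ω] [DecidableEq Ω] (hΩ : Fintype.card Ω = 4060) (G : Subgroup (Equiv.Perm Ω)) [MulAction.IsPretransitive G Ω] (a : Ω)  (e : MulAction.stabilizer G a ≃* Cfsg.Lie.twistedF4 (ZMod 2) 1) (b c : Ω) (hb : (MulAction.orbit (MulAction.stabilizer G a) b).ncard = 1755) (hc : (MulAction.orbit (MulAction.stabilizer G a) c).ncard = 2304) : Cfsg.Spor.IsoRu G := by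
  obtain ⟨e0⟩ := f42_iso
  obtain ⟨vX, nH⟩ := ruA2_facts
  obtain ⟨St, k⟩ : ∃ St, Key ruKM St rr1_key rr1_fix := ruK_key _ _ (by decide +kernel)
  obtain ⟨-, -, top, -⟩ := ruK_all
  have F : RrF (ruKM.sub (ruKM.cl ruA2_g)) :=
    rr_facts _ rfl rfl rfl (fun c hc => sub_in (in_cl_self vX c hc)) (k.comap _ _) (sub_cl_top vX) nH
  have := @aux RuK (Cfsg.Lie.twistedF4 (ZMod 2) 1) Ω _ _ _ _ ruKM rfl rfl rfl ruK_valid top _ F ruK_card e0
  obtain ⟨f⟩ := this hΩ G a e b c hb hc
  exact ⟨f.trans ruEquiv.symm⟩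

end Cfsg.Agent.S1669
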