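import Cfsg.Statements.S1685
import Cfsg.Agent.H28.Fi22
set_option maxRecDepth 100000
-- import your own Cfsg.Agent.* helpers here

set_option autoImplicit false
open Cfsg

namespace Cfsg.Agent.S1685
open H27 H28


/-- In the presented Fischer group Fi₂₂ (generators a, …, i), the subgroup generated by the images of b, c, d, e, f, g, h, i has index 14080. -/
theorem result : (((Subgroup.closure ({Cfsg.Spor.Fi22.b, Cfsg.Spor.Fi22.c, Cfsg.Spor.Fi22.d, Cfsg.Spor.Fi22.e, Cfsg.Spor.Fi22.f, Cfsg.Spor.Fi22.g, Cfsg.Spor.Fi22.h, Cfsg.Spor.Fi22.i} : Set (FreeGroup Cfsg.Spor.Fi22.Gen))).map (PresentedGroup.mk (Cfsg.Spor.coxRelators Cfsg.Spor.Fi22.edges ∪ {r | r ∈ Cfsg.Spor.Fi22.extra})))).index = 14080 := by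
  rw [open Cfsg.Spor.Fi22 in fi22B.map_closure [b, c, d, e, f, g, h, i] (by simp) (W := f2_Sb) (by decide +kernel)]
  exact index_eq_of_card (le_antisymm (fi22_o7 _ _ rfl fi22B.rels).2
    (fi22_idx.le_card rfl fi22B.rels fi22B.cl_top (by norm_num) fi22_card)) (by norm_num) fi22_card

end Cfsg.Agent.S1685
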