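import Cfsg.Statements.S1690
import Cfsg.Agent.H28.P24
-- import your own Cfsg.Agent.* helpers here

set_option autoImplicit false
open Cfsg

namespace Cfsg.Agent.S1690

open H27 H28

/-- In the presented group Fi₂₄ = Fi₂₄′:2, the subgroup generated by the images of a, b, c, d, e, f, g, h, i, j and l (every generator but k) has index 306936. -/
theorem result : (((Subgroup.closure ({Cfsg.Spor.Fi24.a, Cfsg.Spor.Fi24.b, Cfsg.Spor.Fi24.c, Cfsg.Spor.Fi24.d, Cfsg.Spor.Fi24.e, Cfsg.Spor.Fi24.f, Cfsg.Spor.Fi24.g, Cfsg.Spor.Fi24.h, Cfsg.Spor.Fi24.i, Cfsg.Spor.Fi24.j, Cfsg.Spor.Fi24.l} : Set (FreeGroup Cfsg.Spor.Fi24.Gen))).map (PresentedGroup.mk (Cfsg.Spor.coxRelators Cfsg.Spor.Fi24.edges ∪ {r | r ∈ Cfsg.Spor.Fi24.extra})))).index = 306936 := by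
  rw [open Cfsg.Spor.Fi24 in fi24B.map_closure [l, a, b, c, d, e, f, g, j, h, i] (by simp; tauto) (W := f24K) (by decide +kernel)]
  obtain ⟨e, he⟩ := fi24_equiv
  have k : (cl (f24K.map (ev fi24X))).map e.toMonoidHom = cl k24 := by
    rw [← cl_map, List.map_map, k24, ← he]; exact congrArg _ (List.map_congr_left fun w _ => (ev_map e.toMonoidHom _ w).symm)
  have := (cl k24).index_mul_card
  rw [le_antisymm k24_bd.2 k24_lb, f24_card, ← k, MulEquiv.toMonoidHom_eq_coe, Subgroup.index_map_equiv] at this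
  exact Nat.eq_of_mul_eq_mul_right (by norm_num) this

end Cfsg.Agent.S1690
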