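import Cfsg.Statements.S1691
import Cfsg.Agent.H28.P24
-- import your own Cfsg.Agent.* helpers here

set_option autoImplicit false
open Cfsg

namespace Cfsg.Agent.S1691

open H27 H28

/-- The commutator subgroup of the presented group Fi₂₄ has index 2 (the presented group is Fi₂₄′:2 with Fi₂₄′ its derived subgroup). -/
theorem result : (commutator Cfsg.Spor.Fi24).index = 2 := by
  obtain ⟨e, -⟩ := fi24_equiv
  rw [← ker24_index, ← f24_commutator, ← Subgroup.index_map_equiv _ e]
  congr 1
  exact (map_commutator_eq _ e.toMonoidHom).trans (by rw [MonoidHom.range_eq_top.2 e.surjective, commutator_def])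

end Cfsg.Agent.S1691
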