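import Cfsg.Statements.S1693
import Cfsg.Agent.H29.OnH

set_option autoImplicit false
open Cfsg

namespace Cfsg.Agent.S1693

/-- In the presented O'Nan group, the subgroup H generated by the images of a, …, f has a normal subgroup of index 2 isomorphic to PSL(3, 7). -/
theorem result : ∃ N : Subgroup (((Subgroup.closure ({Cfsg.Spor.ON.a, Cfsg.Spor.ON.b, Cfsg.Spor.ON.c, Cfsg.Spor.ON.d, Cfsg.Spor.ON.e, Cfsg.Spor.ON.f} : Set (FreeGroup Cfsg.Spor.ON.Gen))).map (PresentedGroup.mk (Cfsg.Spor.coxRelators Cfsg.Spor.ON.edges ∪ {r | r ∈ Cfsg.Spor.ON.extra})))), N.Normal ∧ N.index = 2 ∧ Nonempty (N ≃* Matrix.ProjectiveSpecialLinearGroup (Fin 3) (ZMod 7)) := by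
  rw [open Cfsg.Spor.ON in H29.onB.map_closure [a, b, c, d, e, f] (by simp) (W := H29.onH) (by decide +kernel)]
  obtain ⟨q⟩ := H29.l37_ex (F := ZMod 7) (ZMod.card 7)
  have := H22.PSL_isSimpleGroup_of_three_le (ι := Fin 3) (F := ZMod 7) (by simp)
  refine H29.on_l37 q ?_
  have h1 := H22.gcd_mul_card_PSL (F := ZMod 7) 3 (by norm_num)
  have h2 := H22.card_SL (F := ZMod 7) 3 (by norm_num)
  rw [← h1, ZMod.card] at h2
  have h3 : 6 * (3 * Nat.card (Matrix.ProjectiveSpecialLinearGroup (Fin 3) (ZMod 7))) = 33784128 :=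
    h2.trans (by decide +kernel)
  omega

end Cfsg.Agent.S1693
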