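import Cfsg.Statements.S1698
import Cfsg.Agent.H28.P24
-- import your own Cfsg.Agent.* helpers here

set_option autoImplicit false
open Cfsg

namespace Cfsg.Agent.S1698

open H27 H28

/-- The commutator subgroup of the presented Fi₂₄ (our definition of Fi₂₄′) is simple of the expected order (that is, it is a simple group of the order of the Fischer group Fi₂₄′). -/
theorem result : Cfsg.IsFi24' Cfsg.Spor.Fi24' := by
  obtain ⟨e, -⟩ := fi24_equiv
  have k : (commutator Spor.Fi24).map e.toMonoidHom = sgn24.ker := (map_commutator_eq _ e.toMonoidHom).trans
    (by rw [MonoidHom.range_eq_top.2 e.surjective, ← f24_commutator, commutator_def])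
  have q := (e.subgroupMap _).trans (MulEquiv.subgroupCongr k)
  have := ker24_simple
  exact ⟨q.isSimpleGroup, (Nat.card_congr q.toEquiv).trans ker24_card⟩

end Cfsg.Agent.S1698
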