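import Cfsg.Statements.S1717
import Cfsg.Agent.H18.LX3
import Cfsg.Agent.H12.AffL

set_option autoImplicit false
open Cfsg

namespace Cfsg.Agent.S1717



/-- Let G be a finite group with an involution z whose centraliser C is isomorphic to the centraliser of a transvection of SL(5, 2). Then a Sylow 2-subgroup of C, viewed in G, is a Sylow 2-subgroup of G (its index in G is odd). -/
theorem result {G : Type*} [Group G] [Finite G] (s : Matrix.SpecialLinearGroup (Fin 5) (ZMod 2)) (hs : (s : Matrix (Fin 5) (Fin 5) (ZMod 2)) = Matrix.transvection 0 1 1) (z : G) (hz : orderOf z = 2) (e : (Subgroup.centralizer ({z} : Set G)) ≃* Subgroup.centralizer ({s} : Set (Matrix.SpecialLinearGroup (Fin 5) (ZMod 2)))) (T : Sylow 2 (Subgroup.centralizer ({z} : Set G))) : ¬ 2 ∣ ((T : Subgroup (Subgroup.centralizer ({z} : Set G))).map (Subgroup.subtype (Subgroup.centralizer ({z} : Set G)))).index := by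
  obtain ⟨A, -⟩ := H12.exists_affC_sl (F := ZMod 2) (n := 3) (by decide) (by norm_num)
    (by decide) hs
  have key : ∀ c : H13.Cz z, (∀ t ∈ pCore 2 (H13.Cz z), t * c = c * t) → e c = 1 ∨ e c = A.z :=
    fun c hc => (H13.mem_zpowers_two A.orderOf_z).1 (A.cent fun b hb => by
      rw [← A.pCore_eq, ← H1.map_pCore_equiv 2 e] at hb
      obtain ⟨t, ht, rfl⟩ := hb
      have := congrArg e (hc t ht)
      rw [map_mul, map_mul] at this
      exact this.symm)
  let z' : H13.Cz z := ⟨z, H13.self_mem_Cz z⟩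
  have hz' : e z' = A.z := (key z' fun t _ => Subtype.ext (H13.mem_Cz.1 t.2)).resolve_left fun a => by
    rw [show z = 1 from congrArg Subtype.val (e.map_eq_one_iff.1 a), orderOf_one] at hz; omega
  have hzT : z' ∈ (T : Subgroup (H13.Cz z)) := by
    have : (Subgroup.zpowers z').Normal := ⟨fun n hn g => by
      obtain ⟨k, rfl⟩ := hn
      have : Commute g z' := Subtype.ext (H13.mem_Cz.1 g.2)
      rw [(this.zpow_right k).eq, mul_inv_cancel_right]; exact ⟨k, rfl⟩⟩
    refine H1.pCore_le_sylow T (H1.le_pCore (N := Subgroup.zpowers z') (IsPGroup.of_card (n := 1) ?_)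
      (Subgroup.mem_zpowers z'))
    rw [Nat.card_zpowers, ← Subgroup.orderOf_coe, hz]; rfl
  obtain ⟨-, h6⟩ := H18.lx_sylow hz (L := ⊤) (T := (T : Subgroup (H13.Cz z)).map (H13.Cz z).subtype)
    (le_inf le_top (Subgroup.map_subtype_le _)) (T.2.map _) (fun R hR h1 h2 => by
      have := T.is_maximal' (hR.comap_subtype (K := H13.Cz z)) (Subgroup.map_le_iff_le_comap.1 h1)
      rw [← this]
      exact (Subgroup.map_subgroupOf_eq_of_le (h2.trans inf_le_right)).symm) (by
      rintro _ ⟨c, hc, rfl⟩ ht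
      rcases key c fun t h => Subtype.ext (ht _ ⟨t, H1.pCore_le_sylow T h, rfl⟩) with a | a
      · exact Or.inl (congrArg Subtype.val (e.map_eq_one_iff.1 a))
      · exact Or.inr (congrArg Subtype.val (e.injective (a.trans hz'.symm)))) ⟨z', hzT, rfl⟩
  let P : Sylow 2 G := ⟨_, T.2.map (H13.Cz z).subtype, fun {R} hR hle => h6 R hR hle le_top⟩
  exact P.not_dvd_index

end Cfsg.Agent.S1717
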