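import Cfsg.Statements.S1755
import Cfsg.Agent.H1.Sympl

set_option autoImplicit false
open Cfsg

namespace Cfsg.Agent.S1755

open H10

/-- Let G be a finite group and let z be an involution of G such that Q, the generalized Fitting subgroup of the centralizer C of z, is a 2-group of symplectic type (every characteristic abelian subgroup of Q is cyclic). Let B be a characteristic abelian subgroup of Q, viewed as a subgroup of G. Then for every g in G, the conjugate of B by g either equals B or meets B trivially. -/
theorem result {G : Type*} [Group G] [Finite G] (z : G) (hz : orderOf z = 2) (hQ : Cfsg.IsOfSymplecticType ↥(Cfsg.generalizedFittingSubgroup ↥(Subgroup.centralizer ({z} : Set G))))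
    (B : Subgroup ↥(Cfsg.generalizedFittingSubgroup ↥(Subgroup.centralizer ({z} : Set G)))) (hBc : B.Characteristic) (hBa : IsMulCommutative ↥B) (g : G) :
    ((B.map (Cfsg.generalizedFittingSubgroup ↥(Subgroup.centralizer ({z} : Set G))).subtype).map (Subgroup.centralizer ({z} : Set G)).subtype).map (MulAut.conj g).toMonoidHom =
        (B.map (Cfsg.generalizedFittingSubgroup ↥(Subgroup.centralizer ({z} : Set G))).subtype).map (Subgroup.centralizer ({z} : Set G)).subtype ∨
      ((B.map (Cfsg.generalizedFittingSubgroup ↥(Subgroup.centralizer ({z} : Set G))).subtype).map (Subgroup.centralizer ({z} : Set G)).subtype).map (MulAut.conj g).toMonoidHom ⊓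
        (B.map (Cfsg.generalizedFittingSubgroup ↥(Subgroup.centralizer ({z} : Set G))).subtype).map (Subgroup.centralizer ({z} : Set G)).subtype = ⊥ := by
  have : Fact (Nat.Prime 2) := ⟨Nat.prime_two⟩
  let C := Subgroup.centralizer ({z} : Set G)
  let F := generalizedFittingSubgroup C
  let B' := (B.map F.subtype).map C.subtype
  have hn : (B.map F.subtype).Normal := inferInstance
  have h1 : C ≤ NN(B') := le_NN_map_subtype _
  have h2 : B' ≤ H5.fstarOf C := Subgroup.map_mono (Subgroup.map_subtype_le _)
  have h3 : IsCyclic B' := by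
    have := hQ.2 B hBc hBa
    exact isCyclic_of_surjective _ (((B.equivMapOfInjective _ F.subtype_injective).trans
      (Subgroup.equivMapOfInjective _ _ C.subtype_injective)).surjective)
  have hp := H1.isPGroup_of_sympl hQ
  have key : ∀ t ∈ B', orderOf t = 2 → t = z := by
    intro t ht ht2
    obtain ⟨s, hs, hs2⟩ := exists_orderOf_eq_of_ne_bot (hp.to_le (inf_le_left.trans h2))
      (inf_CC_ne_bot hp h2 le_rfl ((H5.fstarOf_le _).trans h1) (fun h0 => by
        rw [h0, Subgroup.mem_bot] at ht; exact H6.ord2_ne_one ht2 ht))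
    rw [← H1.sympl_eq_of_center hz hQ hs2 (h2 hs.1) hs.2]
    exact H6.ord2_unique_of_isCyclic h3 ht hs.1 ht2 hs2
  refine or_iff_not_imp_right.2 fun h0 => mem_NN.1 (h1 ?_)
  obtain ⟨t, ht, ht2⟩ := exists_orderOf_eq_of_ne_bot (hp.to_le (inf_le_right.trans h2)) h0
  have e1 := key t ht.2 ht2
  have e2 := key _ (mem_cj.1 ht.1) (by rw [H6.orderOf_conj'', ht2])
  rw [e1] at e2
  rw [Subgroup.mem_centralizer_singleton_iff]
  calc g * z = g * (g⁻¹ * z * g) := by rw [e2]
    _ = _ := by group

end Cfsg.Agent.S1755
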