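import Cfsg.Statements.S1756
import Cfsg.Agent.H1.ExtraAmb
import Cfsg.Agent.H6.Inv

set_option autoImplicit false
open Cfsg

namespace Cfsg.Agent.S1756

open H10
open scoped commutatorElement

/-- Let Q be an extraspecial 2-subgroup of the finite group G (special with centre of order 2) and t an involution of G normalizing Q such that the centralizer of t in Q has index at most 2 in Q. Then t lies in the product of Q with the centralizer of Q. -/
theorem result {G : Type*} [Group G] [Finite G] (Q : Subgroup G)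
    (hQ : Cfsg.IsExtraspecial 2 ↥Q) (t : G) (ht : orderOf t = 2) (htN : t ∈ Subgroup.normalizer (Q : Set G))
    (hi : (Subgroup.centralizer ({t} : Set G) ⊓ Q).relIndex Q ≤ 2) :
    t ∈ Q ⊔ Subgroup.centralizer (Q : Set G) := by
  have : Fact (Nat.Prime 2) := ⟨Nat.prime_two⟩
  have hZ := H1.extraspecial_two_NN_le hQ
  refine H1.extraspecial_mem_sup hQ (hZ htN) fun x hx => ?_
  have hcQ : ⁅t, x⁆ ∈ Q := Q.mul_mem (conj_mem_of_mem_NN htN hx) (Q.inv_mem hx)
  refine ⟨hcQ, ?_⟩
  by_cases hxt : Commute t x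
  · rw [hxt.commutator_eq]; exact Subgroup.one_mem _
  have key : ∀ x ∈ Q, ¬ Commute t x → ∀ y ∈ Q, ¬ Commute t y → Commute t (x⁻¹ * y) := by
    intro x hx hxt y hy hyt
    have h0 : ((Subgroup.centralizer ({t} : Set G) ⊓ Q).subgroupOf Q).index ≠ 0 :=
      Subgroup.index_ne_zero_of_finite
    have h1 : ((Subgroup.centralizer ({t} : Set G) ⊓ Q).subgroupOf Q).index ≠ 1 := fun h => by
      have := (Subgroup.index_eq_one.1 h).ge (Subgroup.mem_top ⟨x, hx⟩)
      exact hxt (H6.mem_cent_iff_commute.1 this.1).symm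
    have h2 : ((Subgroup.centralizer ({t} : Set G) ⊓ Q).subgroupOf Q).index = 2 := by
      rw [Subgroup.relIndex] at hi; omega
    have := (Subgroup.mul_mem_iff_of_index_two h2 (a := ⟨x, hx⟩⁻¹) (b := ⟨y, hy⟩)).2 (by
      simp only [inv_mem_iff, Subgroup.mem_subgroupOf, Subgroup.mem_inf, H6.mem_cent_iff_commute,
        hx, hy, and_true]
      exact ⟨fun h => absurd h.symm hxt, fun h => absurd h.symm hyt⟩)
    exact (H6.mem_cent_iff_commute.1 this.1).symm
  have hcz : ∀ a ∈ Q, ∀ b ∈ Q, ⁅a, b⁆ ∈ Q ⊓ CC(Q) := fun a ha b hb =>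
    H7.extraspecial_commutator hQ ▸ Subgroup.commutator_mem_commutator ha hb
  set c := ⁅t, x⁆ with hc
  have e : t * x * t⁻¹ = c * x := by rw [hc, commutatorElement_def]; group
  -- `c` commutes with the fixed points of `t`
  have h1 : ∀ y ∈ Q, Commute t y → Commute c y := by
    intro y hy hyt
    have h2 : t * ⁅x, y⁆ * t⁻¹ = ⁅x, y⁆ := H6.conj_eq_iff_commute.2 (hZ htN _ (hcz x hx y hy)).symm
    have h3 : t * ⁅x, y⁆ * t⁻¹ = ⁅c * x, y⁆ := by
      rw [← e]; conv_rhs => rw [← H6.conj_eq_iff_commute.2 hyt]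
      simp only [commutatorElement_def]; group
    have h4 : ⁅c * x, y⁆ = c * ⁅x, y⁆ * c⁻¹ * ⁅c, y⁆ := by simp only [commutatorElement_def]; group
    rw [h3, h4, (hcz x hx y hy).2 c hcQ, mul_inv_cancel_right, mul_eq_left] at h2
    exact commutatorElement_eq_one_iff_commute.1 h2
  have ht2 := H6.ord2_mul_self ht
  have h2 : Commute c x := by
    have h3 : t * (x * x) * t⁻¹ = x * x := by
      rw [← pow_two]
      exact H6.conj_eq_iff_commute.2 (hZ htN _ (H7.extraspecial_pow_mem hQ hx)).symm
    have h4 : c * x * (c * x) = x * x := by rw [← e]; conv_rhs => rw [← h3]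
                                            group
    have h5 : Commute t c := by
      have h7 : ¬ Commute t x⁻¹ := fun h => hxt (by simpa using h)
      have h6 := key (t * x⁻¹ * t⁻¹) (conj_mem_of_mem_NN htN (Q.inv_mem hx)) (fun h => h7 (by
        have := (h.mul_right (Commute.refl t)).eq
        rw [inv_mul_cancel_right, mul_assoc] at this
        exact mul_left_cancel this)) x⁻¹ (Q.inv_mem hx) h7
      rwa [show (t * x⁻¹ * t⁻¹)⁻¹ * x⁻¹ = c by rw [hc, commutatorElement_def]; group] at h6
    have h6 : c * c = 1 := by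
      have : t * (t * x * t⁻¹) * t⁻¹ = x := by
        rw [show t * (t * x * t⁻¹) * t⁻¹ = (t * t) * x * (t * t)⁻¹ by group, ht2]; group
      rw [e, show t * (c * x) * t⁻¹ = t * c * t⁻¹ * (t * x * t⁻¹) by group, e,
        H6.conj_eq_iff_commute.2 h5, ← mul_assoc] at this
      exact mul_eq_right.1 this
    have h7 : c * x * c = x := mul_right_cancel (b := x) (by rw [← h4]; group)
    calc c * x = c * (c * x * c) := by rw [h7]
      _ = c * c * x * c := by group
      _ = x * c := by rw [h6, one_mul]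
  intro y hy
  by_cases hyt : Commute t y
  · exact (h1 y hy hyt).symm
  · have := h2.mul_right (h1 _ (Q.mul_mem (Q.inv_mem hx) hy) (key x hx hxt y hy hyt))
    rw [mul_inv_cancel_left] at this
    exact this.symm

end Cfsg.Agent.S1756
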