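import Cfsg.Statements.S1757
import Cfsg.Agent.H10.Act

set_option autoImplicit false
open Cfsg

namespace Cfsg.Agent.S1757

open H10

/-- Let p be a prime and A, B p-subgroups of the finite group G, each of which meets every conjugate of itself other than itself trivially. Suppose the order of A is at most that of B, A and B intersect trivially, and B normalizes A. Then A and B commute elementwise. -/
theorem result {G : Type*} [Group G] [Finite G] (p : ℕ) [Fact p.Prime] (A B : Subgroup G)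
    (hA : IsPGroup p ↥A) (hB : IsPGroup p ↥B)
    (hAti : ∀ g : G, A.map (MulAut.conj g).toMonoidHom = A ∨ A.map (MulAut.conj g).toMonoidHom ⊓ A = ⊥)
    (hBti : ∀ g : G, B.map (MulAut.conj g).toMonoidHom = B ∨ B.map (MulAut.conj g).toMonoidHom ⊓ B = ⊥)
    (hle : Nat.card ↥A ≤ Nat.card ↥B) (hAB : A ⊓ B = ⊥) (hN : B ≤ Subgroup.normalizer (A : Set G)) : ⁅A, B⁆ = ⊥ := by
  rw [comm_eq_bot]
  set C := A ⊓ CC(B) with hC
  have hCB : C ≤ NN(B) := inf_le_right.trans (CC_le_NN _)
  by_contra h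
  have hlt : C < A := lt_of_le_of_ne inf_le_left fun h0 => h (inf_eq_left.1 h0)
  have h1 : C ⊔ B < A ⊔ B := lt_of_le_of_ne (sup_le_sup_right hlt.le _) fun h0 => hlt.ne (by
    have := dedekind_left (A := C) (B := B) (C := A) hlt.le hCB
    rw [h0, inf_eq_right.2 le_sup_left, inf_comm, hAB, sup_bot_eq] at this
    exact this.symm)
  obtain ⟨g, hg, hg'⟩ := SetLike.exists_of_lt (lt_inf_NN (isPGroup_sup_of_NN' hA hB hN) h1)
  obtain ⟨a, ha, b, hb, rfl⟩ := (mem_sup_of_NN' hN).1 hg.1
  have hb' : b ∈ C ⊔ B := Subgroup.mem_sup_right hb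
  have haN : a ∈ NN(C ⊔ B) := (Subgroup.mul_mem_cancel_right _ (le_NN_self _ hb')).1 hg.2
  rcases hBti a with h2 | h2
  · refine hg' (Subgroup.mul_mem _ (Subgroup.mem_sup_left ⟨ha, fun x hx => ?_⟩) hb')
    have : a * x * a⁻¹ * x⁻¹ ∈ A ⊓ B :=
      ⟨by
        rw [mul_assoc, mul_assoc, ← mul_assoc x]
        exact A.mul_mem ha (conj_mem_of_mem_NN (hN hx) (A.inv_mem ha)),
      B.mul_mem (conj_mem_of_mem_NN (mem_NN.2 h2) hx) (B.inv_mem hx)⟩
    rw [hAB, Subgroup.mem_bot, mul_inv_eq_one, mul_inv_eq_iff_eq_mul] at this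
    exact this.symm
  · rw [cj_def] at h2
    have h3 : cj a B ≤ C ⊔ B := cj_le_of_mem_NN haN le_sup_right
    have h4 := card_sup_mul_card_inf (h3.trans (sup_le hCB (le_NN_self B)))
    have h5 := card_sup_mul_card_inf hCB
    rw [h2, card_cj, Subgroup.card_bot, mul_one] at h4
    rw [eq_bot_iff.2 ((inf_le_inf_right B hlt.le).trans hAB.le), Subgroup.card_bot, mul_one] at h5
    have h6 := Subgroup.card_le_of_le (sup_le h3 le_sup_right)
    rw [h4, h5] at h6
    have := Nat.le_of_mul_le_mul_right h6 Nat.card_pos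
    have := card_lt_of_lt hlt
    omega

end Cfsg.Agent.S1757
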