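import Cfsg.Statements.S1774
import Cfsg.Agent.H10.LS

set_option autoImplicit false
open Cfsg H10

namespace Cfsg.Agent.S1774

/-- Let G be a finite group and let z be an involution of G such that Q, the generalized Fitting subgroup of the centralizer C of z, is a 2-group of symplectic type (every characteristic abelian subgroup of Q is cyclic); suppose every element of Q has order dividing 4. Let g ∈ G with z' = g z g⁻¹ ≠ z and z' ∈ Q. Then z lies in the conjugate g Q g⁻¹, and the subgroup X generated by Q and g Q g⁻¹ induces every automorphism of the four-group generated by z and z': for any two distinct non-identity elements u, v of that four-group there is x ∈ X with x z x⁻¹ = u and x z' x⁻¹ = v. -/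
theorem result {G : Type*} [Group G] [Finite G] (z : G) (hz : orderOf z = 2) (hQ : Cfsg.IsOfSymplecticType ↥(Cfsg.generalizedFittingSubgroup ↥(Subgroup.centralizer ({z} : Set G))))
    (h4 : ∀ q ∈ (Cfsg.generalizedFittingSubgroup ↥(Subgroup.centralizer ({z} : Set G))).map (Subgroup.centralizer ({z} : Set G)).subtype, q ^ 4 = 1) (g : G) (hne : g * z * g⁻¹ ≠ z) (hin : g * z * g⁻¹ ∈ (Cfsg.generalizedFittingSubgroup ↥(Subgroup.centralizer ({z} : Set G))).map (Subgroup.centralizer ({z} : Set G)).subtype) :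
    z ∈ ((Cfsg.generalizedFittingSubgroup ↥(Subgroup.centralizer ({z} : Set G))).map (Subgroup.centralizer ({z} : Set G)).subtype).map (MulAut.conj g).toMonoidHom ∧
      ∀ u ∈ Subgroup.closure ({z, g * z * g⁻¹} : Set G), ∀ v ∈ Subgroup.closure ({z, g * z * g⁻¹} : Set G),
        u ≠ 1 → v ≠ 1 → u ≠ v →
          ∃ x ∈ (Cfsg.generalizedFittingSubgroup ↥(Subgroup.centralizer ({z} : Set G))).map (Subgroup.centralizer ({z} : Set G)).subtype ⊔ ((Cfsg.generalizedFittingSubgroup ↥(Subgroup.centralizer ({z} : Set G))).map (Subgroup.centralizer ({z} : Set G)).subtype).map (MulAut.conj g).toMonoidHom, x * z * x⁻¹ = u ∧ x * (g * z * g⁻¹) * x⁻¹ = v := by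
  let Qf : G → Subgroup G := fun a => H5.fstarOf (Subgroup.centralizer {a})
  have hcj : ∀ a x : G, H5.cj x (Qf a) = Qf (x * a * x⁻¹) := fun a x => by
    simp only [Qf]
    rw [H5.cj_fstarOf, H5.cj_centralizer_singleton]
  have hmem : ∀ a b x : G, b ∈ Qf a → x * b * x⁻¹ ∈ Qf (x * a * x⁻¹) := fun a b x hb =>
    hcj a x ▸ ⟨b, hb, rfl⟩
  change _ ∈ Qf z at hin
  change z ∈ H5.cj g (Qf z) ∧ ∀ u ∈ _, ∀ v ∈ _, _ → _ → _ → ∃ x ∈ Qf z ⊔ H5.cj g (Qf z), _
  have h : LSy z (Qf z) := ls_of_sympl hz hQ h4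
  have e : Subgroup.centralizer ({z} : Set G) ≃* Subgroup.centralizer ({g * z * g⁻¹} : Set G) :=
    (H5.cjEquiv g _).trans (MulEquiv.subgroupCongr (H5.cj_centralizer_singleton g z))
  have h' : LSy (g * z * g⁻¹) (Qf (g * z * g⁻¹)) := by
    refine ls_of_sympl (H6.ord2_conj hz g) (H1.isOfSymplecticType_of_equiv hQ
      ((e.subgroupMap _).trans (MulEquiv.subgroupCongr (H5.map_fstar_equiv e)))) ?_
    intro q hq
    change q ∈ Qf _ at hq
    rw [← hcj] at hq
    obtain ⟨q, hq, rfl⟩ := hq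
    rw [← map_pow, h4 q hq, map_one]
  rw [hcj]
  generalize g * z * g⁻¹ = t at *
  have hzt : t * z = z * t := h.cz hin
  obtain ⟨a, ha, hna⟩ := h.exists_nc hin h'.ord hne
  have at' := h.conj ha hin hna
  have az : a * z * a⁻¹ = z := by rw [h.cz ha]; group
  have hzP : z ∈ Qf t := by
    by_cases hx : ∃ x ∈ Qf t, x * z * x⁻¹ = t * z
    · obtain ⟨x, hx, e1⟩ := hx
      have h1 := hmem _ _ x hin
      rw [e1, h'.cz hx, mul_inv_cancel_right] at h1
      have h2 := hmem _ _ a h1
      have e2 : a * (t * z) * a⁻¹ = t := by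
        calc a * (t * z) * a⁻¹ = (a * t * a⁻¹) * (a * z * a⁻¹) := by group
          _ = t := by rw [at', az, mul_assoc, hzt, ← mul_assoc, h.zz, one_mul]
      rw [e2, at'] at h2
      exact (Subgroup.mul_mem_cancel_right _ h'.mem).1 h2
    · push Not at hx
      exact h.mem_other h' hin hne hx fun h2 => h2.of_equiv e
  refine ⟨hzP, ?_⟩
  obtain ⟨b, hb, hnb⟩ := h'.exists_nc hzP hz hne.symm
  have bz := h'.conj hb hzP hnb
  have bt : b * t * b⁻¹ = t := by rw [h'.cz hb]; group
  have ha' : a ∈ Qf z ⊔ Qf t := Subgroup.mem_sup_left ha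
  have hb' : b ∈ Qf z ⊔ Qf t := Subgroup.mem_sup_right hb
  have azt : a * (z * t) * a⁻¹ = t := by
    calc a * (z * t) * a⁻¹ = (a * z * a⁻¹) * (a * t * a⁻¹) := by group
      _ = t := by rw [at', az, ← mul_assoc, h.zz, one_mul]
  have bzt : b * (z * t) * b⁻¹ = z := by
    calc b * (z * t) * b⁻¹ = (b * z * b⁻¹) * (b * t * b⁻¹) := by group
      _ = z := by rw [bz, bt, hzt, mul_assoc, h'.zz, mul_one]
  rw [hzt] at bz
  have cm : ∀ x y w : G, x * y * w * (x * y)⁻¹ = x * (y * w * y⁻¹) * x⁻¹ := fun x y w => by group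
  intro u hu v hv hu1 hv1 huv
  rw [H6.mem_closure_commute h.zz h'.zz hzt.symm] at hu hv
  rcases hu with rfl | hu | hu | hu
  · exact absurd rfl hu1
  all_goals rcases hv with rfl | hv | hv | hv
  all_goals first | (refine absurd ?_ hv1; rfl) | skip
  all_goals first | (refine absurd ?_ huv; rw [hu, hv]; done) | skip
  all_goals rw [hu, hv]
  · exact ⟨1, Subgroup.one_mem _, by simp, by simp⟩
  · exact ⟨a, ha', az, at'⟩
  · exact ⟨a * b * a, Subgroup.mul_mem _ (Subgroup.mul_mem _ ha' hb') ha',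
      by rw [cm, az, cm, bz, azt], by rw [cm, at', cm, bzt, az]⟩
  · exact ⟨a * b, Subgroup.mul_mem _ ha' hb', by rw [cm, bz, azt], by rw [cm, bt, at']⟩
  · exact ⟨b * a, Subgroup.mul_mem _ hb' ha', by rw [cm, az, bz], by rw [cm, at', bzt]⟩
  · exact ⟨b, hb', bz, bt⟩

end Cfsg.Agent.S1774
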