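import Cfsg.Statements.S1775
import Cfsg.Agent.H5.Std

set_option autoImplicit false
open Cfsg

namespace Cfsg.Agent.S1775

/-- Let G be a finite group whose generalized Fitting subgroup is a non-abelian simple group and in which every proper section (every quotient H/N of a proper subgroup H, or of G by a nontrivial normal subgroup) has the B-property. Let x, y be commuting involutions, let D be the intersection of the 2-layer of C_G(x) with C_G(y), and let J be a 2-component of D. Write Q for the quotient of C_G(y) by its largest normal odd-order subgroup. Then (i) the image of J in Q is a component of the centralizer in Q of the image of x; and (ii) for every J-invariant subgroup E of odd order of C_G(x) ∩ C_G(y), the commutator subgroup [J, E] lies in the largest normal odd-order subgroup of C_G(y). -/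
theorem result {G : Type*} [Group G] [Finite G]
    (hF : IsSimpleGroup ↥(Cfsg.generalizedFittingSubgroup G)) (hF' : ¬ IsMulCommutative ↥(Cfsg.generalizedFittingSubgroup G))
    (hsec : ∀ (H : Subgroup G) (N : Subgroup ↥H) [N.Normal], (H ≠ ⊤ ∨ N ≠ ⊥) → Cfsg.HasBProperty (↥H ⧸ N))
    (x y : G) (hx : orderOf x = 2) (hy : orderOf y = 2) (hxy : x * y = y * x)
    (J : Subgroup ↥((Cfsg.pLayer 2 ↥(Subgroup.centralizer ({x} : Set G))).map (Subgroup.centralizer ({x} : Set G)).subtype ⊓ Subgroup.centralizer ({y} : Set G)))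
    (hJ : Cfsg.IsPComponent 2 J) :
    Cfsg.IsComponent
        ((((J.map (Subgroup.subtype _)).subgroupOf (Subgroup.centralizer ({y} : Set G))).map (QuotientGroup.mk' (Cfsg.oddCore ↥(Subgroup.centralizer ({y} : Set G))))).subgroupOf
          (Subgroup.centralizer ({(QuotientGroup.mk' (Cfsg.oddCore ↥(Subgroup.centralizer ({y} : Set G))) ⟨x, Subgroup.mem_centralizer_singleton_iff.mpr hxy⟩ : ↥(Subgroup.centralizer ({y} : Set G)) ⧸ Cfsg.oddCore ↥(Subgroup.centralizer ({y} : Set G)))} : Set _))) ∧
      ∀ E : Subgroup G, E ≤ Subgroup.centralizer ({x} : Set G) ⊓ Subgroup.centralizer ({y} : Set G) → Odd (Nat.card ↥E) →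
        (∀ j ∈ J.map (Subgroup.subtype _), ∀ e ∈ E, j * e * j⁻¹ ∈ E) →
          ⁅J.map (Subgroup.subtype _), E⁆ ≤ (Cfsg.oddCore ↥(Subgroup.centralizer ({y} : Set G))).map (Subgroup.centralizer ({y} : Set G)).subtype := by
  set C := Subgroup.centralizer ({y} : Set G) with hC
  set f := QuotientGroup.mk' (Cfsg.oddCore ↥C) with hf
  set x' : C := ⟨x, Subgroup.mem_centralizer_singleton_iff.mpr hxy⟩ with hx'
  have hCt : C ≠ ⊤ := by
    intro e
    have h1 : Subgroup.zpowers y ≤ H5.fitOf ⊤ := H5.le_fitOf_of_le_zOf le_top (by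
      rw [Subgroup.le_centralizer_iff, H5.centralizer_zpowers]; exact e.ge)
    have h2 : H5.fitOf (⊤ : Subgroup G) ≤ generalizedFittingSubgroup G := by
      rw [← H5.fstarOf_top]; exact H5.fitOf_le_fstarOf _
    obtain ⟨N, hN⟩ := H5.exists_map_subtype h2
    have hNn : N.Normal := by
      rw [H5.normal_iff_top_le_normalizer, ← H5.le_normalizer_map_iff (Subgroup.subtype_injective _), hN]
      exact le_top.trans (H5.self_le_normalizer_fitOf ⊤)
    rcases hF.eq_bot_or_eq_top_of_normal N hNn with rfl | rfl
    · rw [← hN, Subgroup.map_bot, le_bot_iff, Subgroup.zpowers_eq_bot] at h1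
      exact H6.ord2_ne_one hy h1
    · rw [H5.map_subtype_top] at hN
      have h3 := H5.isSolvable_fitOf (⊤ : Subgroup G)
      rw [← hN] at h3
      exact hF' (IsSimpleGroup.comm_iff_isSolvable.2 h3 |> fun h => ⟨⟨h⟩⟩)
  have hB := hsec C (Cfsg.oddCore ↥C) (Or.inl hCt)
  have hO : oddCore (↥C ⧸ Cfsg.oddCore ↥C) = ⊥ := by
    have := H5.oppOf_map_mk' (G := C) 2
    rwa [H5.oppOf_top] at this
  have hx2 : orderOf x' = 2 := by rw [← hx, ← Subgroup.orderOf_coe]
  have hk : (Nat.card f.ker).Coprime 2 := by
    have := H5.coprime_inf_ker_mk' (G := C) 2 ⊤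
    rwa [top_inf_eq] at this
  have hfx := H5.orderOf_map_of_coprime_ker f hx2 hk
  have hJ1 := H5.isPComponent_iff_map_subtype.1 hJ
  have hJ2 := hJ1.trans ((H5.sn_plOf (p := 2) (Subgroup.centralizer ({x} : Set G))).inf_right C)
  obtain ⟨J', hJ'⟩ := H5.exists_map_subtype (hJ2.le.trans inf_le_right)
  have e1 : (Subgroup.centralizer ({x'} : Set C)).map C.subtype =
      Subgroup.centralizer ({x} : Set G) ⊓ C := by
    rw [← H5.centralizer_zpowers, H5.map_subtype_centralizer, MonoidHom.map_zpowers,
      H5.centralizer_zpowers, inf_comm]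
    rfl
  have e2 : (Subgroup.centralizer ({x'} : Set C)).map f = Subgroup.centralizer {f x'} := by
    have := H5.map_inf_centralizer_of_isPGroup f (H5.isPGroup_zpowers hx2)
      (H5.le_normalizer_of_normal' _ ⊤) (H5.coprime_inf_ker_mk' 2 ⊤)
    rwa [top_inf_eq, Subgroup.map_top_of_surjective _ (QuotientGroup.mk'_surjective _), top_inf_eq,
      MonoidHom.map_zpowers, H5.centralizer_zpowers, H5.centralizer_zpowers] at this
  rw [← hJ', ← e1, H5.pCompOf_map_iff C.subtype_injective] at hJ2
  have hJ3 := hJ2.map f (H5.coprime_inf_ker_mk' 2 _)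
  rw [e2] at hJ3
  have hJ4 := H5.compOf_of_bProperty hB hO hfx hJ3
  rw [← hJ']
  refine ⟨?_, fun E hE ho hn => ?_⟩
  · have e3 : (J'.map C.subtype).subgroupOf C = J' :=
      Subgroup.comap_map_eq_self_of_injective C.subtype_injective _
    have := (H5.compOf_iff.1 hJ4).2
    rw [← e3] at this
    exact this
  · obtain ⟨E, rfl⟩ := H5.exists_map_subtype (hE.trans inf_le_right)
    rw [← e1, Subgroup.map_le_map_iff_of_injective C.subtype_injective] at hE
    rw [← H5.le_normalizer_iff_conj, H5.le_normalizer_map_iff C.subtype_injective] at hn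
    rw [H5.card_map_of_inj C.subtype_injective] at ho
    have := hJ4.commutator_eq_bot_of_le_normalizer (e2 ▸ Subgroup.map_mono hE)
      (H5.le_normalizer_map' f hn)
      (H5.isSolvable_map f (H5.isSolvable_of_coprime_two (Nat.coprime_two_right.2 ho)))
    rw [← Subgroup.map_commutator, Subgroup.map_eq_bot_iff, QuotientGroup.ker_mk'] at this
    rw [← Subgroup.map_commutator]
    exact Subgroup.map_mono this

end Cfsg.Agent.S1775
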