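import Cfsg.Statements.S1780
import Cfsg.Agent.H1.ActP

set_option autoImplicit false
open Cfsg

namespace Cfsg.Agent.S1780

/-- Let A be a finite abelian 2-group and t an automorphism of A whose order is a power of 2. If every element of A fixed by t² is fixed by t, then t fixes every element of A. -/
theorem result {A : Type*} [CommGroup A] [Finite A]
    (hA : IsPGroup 2 A) (t : MulAut A) (ht : ∃ k : ℕ, orderOf t = 2 ^ k) (hC : ∀ a : A, t (t a) = a → t a = a) :
    ∀ a : A, t a = a := by
  obtain ⟨k, hk⟩ := ht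
  have : Fact (Nat.Prime 2) := ⟨Nat.prime_two⟩
  by_contra h
  obtain ⟨v, h1, h2, h3⟩ := H1.exists_fixed_aut_mod (Subgroup.zpowers t).subtype
    (H10.isPGroup_zpowers_of_orderOf hk) hA (t.toMonoidHom.eqLocus (MonoidHom.id A))
    (fun h0 => h fun a => by have := h0.ge (Subgroup.mem_top a); exact this) (by
      rintro ⟨_, n, rfl⟩ v hv
      have hv' : t v = v := hv
      change t ((t ^ n) v) = (t ^ n) v
      rw [← MulAut.mul_apply, (Commute.refl t).zpow_right n, MulAut.mul_apply, hv'])
  have h4 : t (t v * v⁻¹) = t v * v⁻¹ := h3 ⟨t, Subgroup.mem_zpowers t⟩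
  have h5 : t (v ^ 2) = v ^ 2 := h2
  refine h1 (hC v ?_)
  rw [map_mul, map_inv, mul_inv_eq_iff_eq_mul] at h4
  rw [map_pow] at h5
  rw [h4, mul_right_comm, ← pow_two, h5, pow_two, mul_inv_cancel_right]

end Cfsg.Agent.S1780
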