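import Cfsg.Statements.S1781
import Cfsg.Agent.S1757
import Cfsg.Agent.S1780
import Cfsg.Agent.H6.Inv

set_option autoImplicit false
open Cfsg

namespace Cfsg.Agent.S1781

open H10
open scoped IsMulCommutative

/-- Let A be an abelian 2-subgroup of the finite group G such that every conjugate of A equals A or meets A trivially, and let g ∈ G with g A g⁻¹ ≠ A. Then either the subgroup of those elements of A that normalize g A g⁻¹ is an elementary abelian 2-group, or A and g A g⁻¹ commute elementwise. -/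
theorem result {G : Type*} [Group G] [Finite G] (A : Subgroup G)
    (hA2 : IsPGroup 2 ↥A) (hAa : IsMulCommutative ↥A)
    (hti : ∀ h : G, A.map (MulAut.conj h).toMonoidHom = A ∨ A.map (MulAut.conj h).toMonoidHom ⊓ A = ⊥)
    (g : G) (hg : A.map (MulAut.conj g).toMonoidHom ≠ A) :
    Cfsg.IsElementaryAbelian 2 (A ⊓ Subgroup.normalizer ((A.map (MulAut.conj g).toMonoidHom : Subgroup G) : Set G)) ∨
      ⁅A, A.map (MulAut.conj g).toMonoidHom⁆ = ⊥ := by
  have : Fact (Nat.Prime 2) := ⟨Nat.prime_two⟩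
  simp only [cj_def] at *
  set B := cj g A with hB
  have hAB : A ⊓ B = ⊥ := by rw [inf_comm]; exact (hti g).resolve_left hg
  have hAc := isMulCommutative_iff_le_CC.1 hAa
  have hti' : ∀ b a : G, a ∈ A → a ≠ 1 → Commute b a → b ∈ NN(A) := fun b a ha h1 h2 =>
    mem_NN.2 ((hti b).resolve_right fun h => h1 (by
      have : a ∈ cj b A ⊓ A := ⟨H6.conj_eq_iff_commute.2 h2 ▸ conj_mem_cj ha, ha⟩
      rwa [h, Subgroup.mem_bot] at this))
  refine or_iff_not_imp_left.2 fun h => ?_
  obtain ⟨t, ht, ht2⟩ : ∃ t ∈ A ⊓ NN(B), t ^ 2 ≠ 1 := by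
    by_contra h0
    push Not at h0
    exact h (isElementaryAbelian_iff.2 ⟨inf_le_left.trans (hAc.trans (CC_anti inf_le_left)), h0⟩)
  have hBa : IsMulCommutative B := isMulCommutative_iff_le_CC.2 (by
    rw [hB, ← cj_centralizer, cj_le_cj]; exact hAc)
  have hB2 : IsPGroup 2 B := isPGroup_cj g hA2
  have h1 := S1780.result hB2 (B.normalizerMonoidHom ⟨t, ht.2⟩) (by
    obtain ⟨k, hk⟩ := isPGroup_iff_mem.1 hA2 t ht.1
    obtain ⟨j, -, hj⟩ := (Nat.dvd_prime_pow Nat.prime_two).1 (orderOf_dvd_of_pow_eq_one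
      (show (B.normalizerMonoidHom ⟨t, ht.2⟩) ^ 2 ^ k = 1 by
        rw [← map_pow, ← map_one B.normalizerMonoidHom]; congr 1; exact Subtype.ext hk))
    exact ⟨j, hj⟩) fun b hb => by
      have e : t * (t * b * t⁻¹) * t⁻¹ = b := congrArg Subtype.val hb
      have hN := hti' b (t ^ 2) (A.pow_mem ht.1 2) ht2 (H6.conj_eq_iff_commute.1 (by
        rw [← e]; conv_rhs => rw [e]
        rw [e, pow_two, ← e]; conv_rhs => rw [e]
        rw [e]; conv_rhs => rw [← e]
        group)).symm
      have : t * b * t⁻¹ * (b : G)⁻¹ ∈ A ⊓ B := ⟨by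
        rw [mul_assoc, mul_assoc, ← mul_assoc (b : G)]
        exact A.mul_mem ht.1 (conj_mem_of_mem_NN hN (A.inv_mem ht.1)),
        B.mul_mem (conj_mem_of_mem_NN ht.2 b.2) (B.inv_mem b.2)⟩
      rw [hAB, Subgroup.mem_bot, mul_inv_eq_one] at this
      exact Subtype.ext this
  refine S1757.result 2 A B hA2 hB2 hti (fun h => ?_) (card_cj g A).ge hAB fun b hb => ?_
  · simp only [cj_def, hB]
    have := hti (g⁻¹ * h * g)
    rw [← cj_inj (g := g), ← cj_eq_bot (g := g), cj_inf, ← cj_mul, ← mul_assoc, ← mul_assoc,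
      mul_inv_cancel, one_mul, cj_mul] at this
    exact this
  · refine hti' b t ht.1 (fun h0 => ht2 (by rw [h0, one_pow])) (H6.conj_eq_iff_commute.1 ?_).symm
    exact congrArg Subtype.val (h1 ⟨b, hb⟩)

end Cfsg.Agent.S1781
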