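import Cfsg.Statements.S1782
import Cfsg.Agent.S1757
import Cfsg.Agent.H6.Inv
import Cfsg.Agent.H3.Critical

set_option autoImplicit false
open Cfsg

namespace Cfsg.Agent.S1782

open H10
open scoped commutatorElement

section
variable {S : Type*} [Group S] [Finite S] {R T : Subgroup S}

omit [Finite S] in
theorem mem_NN_of_commute (hT : ∀ g, cj g T = T ∨ cj g T ⊓ T = ⊥) {c t : S} (ht : t ∈ T)
    (h1 : t ≠ 1) (h : Commute c t) : c ∈ NN(T) :=
  mem_NN.2 ((hT c).resolve_right fun h0 => h1 (by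
    have : t ∈ cj c T ⊓ T := ⟨H6.conj_eq_iff_commute.2 h ▸ conj_mem_cj ht, ht⟩
    rwa [h0, Subgroup.mem_bot] at this))

omit [Finite S] in
theorem comm_aux {r t : S} (h : ⁅T, cj r T⁆ = ⊥) (ht : t ∈ T) : Commute ⁅r, t⁆ t :=
  (show Commute (r * t * r⁻¹) t from comm_eq_bot.1 h ht _ (conj_mem_cj ht)).mul_left
    (Commute.refl t).inv_left

omit [Finite S] in
theorem exists_inj (hT : ∀ g, cj g T = T ∨ cj g T ⊓ T = ⊥) {r : S} (hr : r ∈ R) (hn : r ∉ NN(T))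
    (h : ⁅T, cj r T⁆ = ⊥) : ∃ f : (T ⊓ NN(R) : Subgroup S) → (R ⊓ NN(T) : Subgroup S),
      Function.Injective f ∧ ∀ t, (f t : S) = ⁅r, (t : S)⁆ := by
  refine ⟨fun t => ⟨⁅r, (t : S)⁆, ?_, ?_⟩, fun t s e => ?_, fun _ => rfl⟩
  · rw [commutatorElement_def, mul_assoc, mul_assoc, ← mul_assoc (t : S)]
    exact R.mul_mem hr (conj_mem_of_mem_NN t.2.2 (R.inv_mem hr))
  · by_cases h1 : (t : S) = 1
    · rw [h1, commutatorElement_one_right]; exact Subgroup.one_mem _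
    · exact mem_NN_of_commute hT t.2.1 h1 (comm_aux h t.2.1)
  · have e' : ⁅r, (t : S)⁆ = ⁅r, (s : S)⁆ := congrArg Subtype.val e
    have h1 : (s : S)⁻¹ * t ∈ T := T.mul_mem (T.inv_mem s.2.1) t.2.1
    have h2 : (s : S)⁻¹ * t ∈ cj r T ⊓ T := ⟨mem_cj'.2 ⟨_, h1, by
      calc r * ((s : S)⁻¹ * t) * r⁻¹ = (r * s * r⁻¹)⁻¹ * ⁅r, (t : S)⁆ * t := by
            simp only [commutatorElement_def]; group
        _ = _ := by rw [e']; simp only [commutatorElement_def]; group⟩, h1⟩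
    rw [(hT r).resolve_left fun h0 => hn (mem_NN.2 h0), Subgroup.mem_bot, inv_mul_eq_one] at h2
    exact (Subtype.ext h2).symm

theorem main (hS : IsPGroup 2 S) (hR : ∀ g, cj g R = R ∨ cj g R ⊓ R = ⊥)
    (hT : ∀ g, cj g T = T ∨ cj g T ⊓ T = ⊥) (hR1 : R ≠ ⊥) (hT1 : frattini T ≠ ⊥)
    (hc : Nat.card R = Nat.card T) (hRT : R ⊓ T = ⊥)
    (h1 : ∀ t ∈ T, t ∉ NN(R) → ⁅R, cj t R⁆ = ⊥) (h2 : ∀ r ∈ R, r ∉ NN(T) → ⁅T, cj r T⁆ = ⊥) :
    ⁅R, T⁆ = ⊥ := by
  have : Fact (Nat.Prime 2) := ⟨Nat.prime_two⟩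
  by_cases ha : T ≤ NN(R)
  · exact S1757.result 2 R T (hS.to_subgroup _) (hS.to_subgroup _) hR hT hc.le hRT ha
  by_cases hb : R ≤ NN(T)
  · rw [Subgroup.commutator_comm]
    exact S1757.result 2 T R (hS.to_subgroup _) (hS.to_subgroup _) hT hR hc.ge
      (by rwa [inf_comm]) hb
  exfalso
  obtain ⟨s, hs, hsn⟩ := SetLike.not_le_iff_exists.1 ha
  obtain ⟨r, hr, hrn⟩ := SetLike.not_le_iff_exists.1 hb
  obtain ⟨f, hf, hf'⟩ := exists_inj hT hr hrn (h2 r hr hrn)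
  obtain ⟨g, hg, hg'⟩ := exists_inj hR hs hsn (h1 s hs hsn)
  have hbij := (Finite.injective_iff_bijective.1 (hg.comp hf)).2
  have hT0 : T ⊓ NN(R) = ⊥ := by
    refine eq_bot_of_le_comm (hS.to_subgroup T) inf_le_left le_rfl fun x hx => ?_
    obtain ⟨t, ht⟩ := hbij ⟨x, hx⟩
    have e : ⁅s, ⁅r, (t : S)⁆⁆ = x := by rw [← hf', ← hg']; exact congrArg Subtype.val ht
    have hm : r * t * r⁻¹ ∈ CC(T) := comm_eq_bot'.1 (h2 r hr hrn) (conj_mem_cj t.2.1)
    have e2 : ⁅s, ⁅r, (t : S)⁆⁆ = ⁅s, (t : S)⁻¹⁆ := by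
      have h3 := hm s hs
      have h4 := hm _ (T.mul_mem (T.mul_mem (T.mul_mem hs (T.inv_mem t.2.1)) (T.inv_mem hs)) t.2.1)
      rw [commutatorElement_def r]
      generalize r * t * r⁻¹ = u at h3 h4
      calc ⁅s, u * (t : S)⁻¹⁆ = s * u * (t : S)⁻¹ * s⁻¹ * t * u⁻¹ := by
            simp only [commutatorElement_def]; group
        _ = u * (s * (t : S)⁻¹ * s⁻¹ * t) * u⁻¹ := by rw [h3]; group
        _ = _ := by rw [← h4]; simp only [commutatorElement_def]; group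
    rw [← e, e2, Subgroup.commutator_comm]
    exact Subgroup.commutator_mem_commutator hs (Subgroup.inv_mem _ t.2)
  have hR0 : R ⊓ NN(T) = ⊥ := by
    have := Nat.card_le_card_of_injective g hg
    rw [hT0, Subgroup.card_bot] at this
    exact Subgroup.card_le_one_iff_eq_bot _ |>.1 this
  obtain ⟨a, ha, ha2⟩ := exists_orderOf_eq_of_ne_bot (hS.to_subgroup R) hR1
  obtain ⟨t, ht, ht2⟩ : ∃ t ∈ T, t ^ 2 ≠ 1 := by
    by_contra h0
    push Not at h0
    have h3 : ∀ x : T, x ^ 2 = 1 := fun x => Subtype.ext (h0 x x.2)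
    refine hT1 (eq_bot_iff.2 (H3.frattini_le_of (p := 2) ?_ fun x => h3 x))
    rw [commutator, Subgroup.commutator_le]
    intro x _ y _
    exact commutatorElement_eq_one_iff_commute.2 (Commute.of_orderOf_dvd_two
      (fun z => orderOf_dvd_of_pow_eq_one (h3 z)) x y)
  have han : a ∉ NN(T) := fun h => H6.ord2_ne_one ha2 (by
    have : a ∈ R ⊓ NN(T) := ⟨ha, h⟩
    rwa [hR0, Subgroup.mem_bot] at this)
  have htn : ∀ u ∈ T, u ≠ 1 → u ∉ NN(R) := fun u hu h1 h => h1 (by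
    have : u ∈ T ⊓ NN(R) := ⟨hu, h⟩
    rwa [hT0, Subgroup.mem_bot] at this)
  have c1 := comm_aux (h2 a ha han) ht
  have c2 := comm_aux (h1 t ht (htn t ht fun h => ht2 (by rw [h, one_pow]))) ha
  have c3 : Commute a ⁅a, t⁆ := by rw [← commutatorElement_inv]; exact c2.symm.inv_right
  have c4 := commutator_pow_of_commute c3 2
  have c5 := commutator_pow_of_commute (x := t) (v := a)
    (by rw [← commutatorElement_inv]; exact c1.symm.inv_right) 2
  rw [pow_two a, H6.ord2_mul_self ha2, commutatorElement_one_left] at c4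
  rw [← commutatorElement_inv a t, inv_pow, ← c4, inv_one,
    commutatorElement_eq_one_iff_commute] at c5
  exact htn _ (T.pow_mem ht 2) ht2 (mem_NN_of_commute hR ha (H6.ord2_ne_one ha2) c5)

end

/-- Let S be a finite 2-group and Δ a set of subgroups of S closed under conjugation by S, all of the same order, each with nontrivial Frattini subgroup, and such that two distinct members of Δ meet trivially. Then any two distinct members of Δ commute elementwise. -/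
theorem result {S : Type*} [Group S] [Finite S] (hS : IsPGroup 2 S)
    (Δ : Set (Subgroup S)) (hinv : ∀ s : S, ∀ R ∈ Δ, R.map (MulAut.conj s).toMonoidHom ∈ Δ)
    (hΦ : ∀ R ∈ Δ, frattini ↥R ≠ ⊥) (hord : ∀ R ∈ Δ, ∀ T ∈ Δ, Nat.card ↥R = Nat.card ↥T)
    (hti : ∀ R ∈ Δ, ∀ T ∈ Δ, R = T ∨ R ⊓ T = ⊥) :
    ∀ R ∈ Δ, ∀ T ∈ Δ, R ≠ T → ⁅R, T⁆ = ⊥ := by
  have : Fact (Nat.Prime 2) := ⟨Nat.prime_two⟩
  have hti' : ∀ R ∈ Δ, ∀ g, cj g R = R ∨ cj g R ⊓ R = ⊥ := fun R hR g => hti _ (hinv g R hR) R hR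
  have key : ∀ (n : ℕ) (L : Subgroup S), Nat.card L = n → ∀ R ∈ Δ, ∀ T ∈ Δ, R ≤ L → T ≤ L →
      R ≠ T → ⁅R, T⁆ = ⊥ := by
    intro n
    induction n using Nat.strong_induction_on with
    | _ n ih =>
    intro L hL
    have aux : ∀ R ∈ Δ, ∀ T ∈ Δ, R ≤ L → T ≤ L → R ≠ T → ∀ t ∈ T, t ∉ NN(R) → ⁅R, cj t R⁆ = ⊥ := by
      intro R hR T hT hRL hTL hne t ht hn
      obtain ⟨N, h1, h2, h3⟩ := (subnIn_of_isPGroup (hS.to_subgroup L) hRL).exists_normal
        (fun h => hne (Subgroup.eq_of_le_of_card_ge (h ▸ hTL) (hord R hR T hT).le).symm)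
      exact ih _ (hL ▸ card_lt_of_lt h2) N rfl R hR _ (hinv t R hR) h1
        (cj_le_of_mem_NN (h3 (hTL ht)) h1) fun h => hn (mem_NN.2 h.symm)
    intro R hR T hT hRL hTL hne
    refine main hS (hti' R hR) (hti' T hT) (fun h => hΦ R hR ?_) (hΦ T hT) (hord R hR T hT)
      ((hti R hR T hT).resolve_left hne) (aux R hR T hT hRL hTL hne)
      (aux T hT R hR hTL hRL hne.symm)
    subst h
    exact Subsingleton.elim _ _
  exact fun R hR T hT => key _ ⊤ rfl R hR T hT le_top le_top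

end Cfsg.Agent.S1782
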