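import Cfsg.Statements.S1783
import Cfsg.Agent.H10.PMin2
import Cfsg.Agent.S1782
import Cfsg.Agent.H5.Fstar

set_option autoImplicit false
open Cfsg H10

namespace Cfsg.Agent.S1783

open scoped commutatorElement

theorem tiComm {G : Type*} [Group G] [Finite G] {L K R : Subgroup G} (hKL : K ≤ L)
    (hK : IsPGroup 2 K) (hR : ∀ g ∈ L, cj g R ≤ K) (hΦ : ¬ ∀ x ∈ R, x ^ 2 = 1)
    (hti : ∀ g, cj g R = R ∨ cj g R ⊓ R = ⊥) (hc : R ≤ CC(R)) : ncl R L ≤ CC(ncl R L) := by
  have key : ∀ g ∈ L, ∀ k ∈ L, cj g R ≤ CC(cj k R) := by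
    intro g hg k hk
    by_cases e : cj g R = cj k R
    · rw [e, ← cj_centralizer]; exact cj_mono _ hc
    have := Cfsg.Agent.S1782.result hK {T | ∃ g ∈ L, (cj g R).subgroupOf K = T} ?_ ?_ ?_ ?_
      _ ⟨g, hg, rfl⟩ _ ⟨k, hk, rfl⟩ fun e' => e (by
        rw [← map_subgroupOf_of_le (hR g hg), e', map_subgroupOf_of_le (hR k hk)])
    · rw [← comm_eq_bot, ← map_subgroupOf_of_le (hR g hg), ← map_subgroupOf_of_le (hR k hk),
        ← Subgroup.map_commutator, this, Subgroup.map_bot]
    · rintro s _ ⟨g, hg, rfl⟩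
      refine ⟨s * g, mul_mem (hKL s.2) hg, ?_⟩
      ext x
      rw [cj_def, mem_cj, Subgroup.mem_subgroupOf, Subgroup.mem_subgroupOf, cj_mul, mem_cj]
      rfl
    · rintro _ ⟨g, hg, rfl⟩ h0
      refine hΦ fun x hx => ?_
      have h1 : g * x * g⁻¹ ∈ cj g R := conj_mem_cj hx
      have h2 := pow_mem_frOf (p := 2) (P := (cj g R).subgroupOf K) (hK.to_subgroup _)
        (x := ⟨_, hR g hg h1⟩) h1
      rw [← frOf_def, h0, Subgroup.map_bot, Subgroup.mem_bot] at h2
      have h3 : (g * x * g⁻¹) ^ 2 = 1 := congrArg Subtype.val h2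
      rw [conj_pow] at h3
      simpa using h3
    · rintro _ ⟨g, hg, rfl⟩ _ ⟨k, hk, rfl⟩
      rw [card_subgroupOf_of_le (hR g hg), card_subgroupOf_of_le (hR k hk), card_cj, card_cj]
    · rintro _ ⟨g, hg, rfl⟩ _ ⟨k, hk, rfl⟩
      rcases hti (k⁻¹ * g) with h | h
      · rw [cj_mul, cj_eq_iff, inv_inv] at h
        exact Or.inl (by rw [h])
      · right
        have : cj g R ⊓ cj k R = ⊥ := by
          rw [← cj_eq_bot (g := k⁻¹), cj_inf, ← cj_mul, cj_inv_cj, h]
        rw [eq_bot_iff, ← Subgroup.bot_subgroupOf, ← this]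
        exact fun x hx => hx
  exact ncl_le_iff.2 fun g hg => le_CC_symm (ncl_le_iff.2 fun k hk => key k hk g hg)

/-- Let X be a finite group whose generalized Fitting subgroup equals its largest normal 2-subgroup Q, and let A be an abelian 2-subgroup of X such that every conjugate of A equals A or meets A trivially. Let B be the subgroup generated by the squares of the elements of A. Then B lies in Q, and if B is not an elementary abelian 2-group then the normal closure of B in X is commutative. -/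
theorem result {X : Type*} [Group X] [Finite X]
    (hX : Cfsg.generalizedFittingSubgroup X = Cfsg.pCore 2 X) (A : Subgroup X) (hA2 : IsPGroup 2 ↥A) (hAa : IsMulCommutative ↥A)
    (hti : ∀ h : X, A.map (MulAut.conj h).toMonoidHom = A ∨ A.map (MulAut.conj h).toMonoidHom ⊓ A = ⊥) :
    Subgroup.closure ((fun a : X => a ^ 2) '' (A : Set X)) ≤ Cfsg.pCore 2 X ∧
      (¬ Cfsg.IsElementaryAbelian 2 (Subgroup.closure ((fun a : X => a ^ 2) '' (A : Set X))) →
        IsMulCommutative ↥(Subgroup.normalClosure ((fun a : X => a ^ 2) '' (A : Set X)))) := by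
  simp only [cj_def] at hti
  have hA := isMulCommutative_iff_le_CC.1 hAa
  have hch : CharPIn 2 (⊤ : Subgroup X) := charPIn_top.2 (H5.fstar_eq_pCore_iff_centralizer.1 hX)
  haveI : (pCore 2 X).Normal := by rw [← pCoreOf_top]; exact normal_of_top_le_NN (le_NN_pCoreOf _)
  have hQ : IsPGroup 2 (pCore 2 X) := isPGroup_pCore'
  have h1 : Subgroup.closure ((fun a : X => a ^ 2) '' (A : Set X)) ≤ pCore 2 X := by
    rw [Subgroup.closure_le]
    rintro _ ⟨a, ha, rfl⟩
    by_cases hΦ : ∀ x ∈ A, x ^ 2 = 1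
    · simp only [hΦ a ha]; exact one_mem _
    have hn := tiComm (L := A ⊔ pCore 2 X) le_rfl
      (isPGroup_sup_of_NN hA2 hQ (le_NN_of_normal _ _))
      (fun g hg => cj_le_of_mem hg le_sup_left) hΦ hti hA
    set Q := pCore 2 X with hQd
    haveI hF : (frOf Q).Normal := normal_of_top_le_NN (le_NN_frOf (le_NN_of_normal _ _))
    haveI hKn : (stabMod Q (frOf Q)).Normal := by
      refine normal_of_top_le_NN (le_NN_of_cj_le fun g _ => le_stabMod.2 ⟨le_NN_of_normal _ _, ?_⟩)
      rw [← cj_eq_of_normal g Q, ← cj_commutator, cj_eq_of_normal g Q]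
      exact cj_le_of_mem_NN (le_NN_of_normal ⊤ _ trivial) (le_stabMod.1 le_rfl).2
    have hK : IsPGroup 2 (stabMod Q (frOf Q)) := hch.isPGroup le_top (by
      rw [pCoreOf_top]
      exact resOf_le_CC_of_frOf hQ (le_NN_of_normal _ _)
        (by rw [Subgroup.commutator_comm]; exact (le_stabMod.1 le_rfl).2))
    refine le_pCore' hK ((le_stabMod (L := Subgroup.zpowers (a ^ 2))).2
      ⟨le_NN_of_normal _ _, ?_⟩ (Subgroup.mem_zpowers _))
    rw [Subgroup.zpowers_eq_closure]
    refine comm_closure_le (le_NN_of_normal _ _) fun x hx q hq => ?_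
    rw [Set.mem_singleton_iff.1 hx]
    have h2 : ⁅a, q⁆ ∈ ncl A (A ⊔ Q) := by
      have := comm_le_ncl A (A ⊔ Q)
      rw [Subgroup.commutator_comm] at this
      exact this (Subgroup.commutator_mem_commutator ha (Subgroup.mem_sup_right hq))
    rw [commutator_pow_of_commute (mem_CC.1 (hn h2) a (le_ncl _ _ ha))]
    exact pow_mem_frOf hQ (comm_le_right (H := ⊤) (le_NN_of_normal _ _)
      (Subgroup.commutator_mem_commutator trivial hq))
  refine ⟨h1, fun hB => ?_⟩
  have hBA : Subgroup.closure ((fun a : X => a ^ 2) '' (A : Set X)) ≤ A := by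
    rw [Subgroup.closure_le]
    rintro _ ⟨a, ha, rfl⟩
    exact pow_mem ha 2
  have hAB : NN(A) ≤ NN(Subgroup.closure ((fun a : X => a ^ 2) '' (A : Set X))) := by
    refine le_NN_of_cj_le fun g hg => ?_
    rw [cj_le_iff, Subgroup.closure_le]
    rintro _ ⟨a, ha, rfl⟩
    refine mem_cj.2 (Subgroup.subset_closure ⟨g * a * g⁻¹, conj_mem_of_mem_NN hg ha, ?_⟩)
    simp [conj_pow]
  rw [← Subgroup.normalClosure_closure_eq_normalClosure, ← ncl_top, isMulCommutative_iff_le_CC]
  generalize Subgroup.closure ((fun a : X => a ^ 2) '' (A : Set X)) = B at *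
  have hBc : B ≤ CC(B) := hBA.trans (hA.trans (CC_anti hBA))
  refine tiComm le_top hQ (fun g _ => cj_le_of_mem_NN (le_NN_of_normal ⊤ _ trivial) h1)
    (fun h => hB (isElementaryAbelian_iff.2 ⟨hBc, h⟩)) (fun g => ?_) hBc
  rcases hti g with h | h
  · exact Or.inl (cj_eq_of_mem_NN (hAB (mem_NN.2 h)))
  · exact Or.inr (le_bot_iff.1 (h ▸ inf_le_inf (cj_mono _ hBA) hBA))

end Cfsg.Agent.S1783
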