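import Cfsg.Statements.S1784
import Cfsg.Agent.H1.ExtraAmb
import Cfsg.Agent.H1.Sympl
import Cfsg.Agent.H7.Heisen

set_option autoImplicit false
open Cfsg

namespace Cfsg.Agent.S1784

open H10
open scoped commutatorElement

theorem aux {G : Type*} [Group G] [Finite G] {Q Q₀ : Subgroup G} {z α : G} (hz : orderOf z = 2)
    (hE : IsExtraspecial 2 Q) (hZ : Q ⊓ CC(Q) = Subgroup.zpowers z) (hα : orderOf α = 2)
    (hN : α ∈ NN(Q)) (hC : α ∉ CC(Q))
    (hQ₀ : ∀ q, q ∈ Q₀ ↔ q ∈ Q ∧ α * q * α⁻¹ * q⁻¹ ∈ Subgroup.zpowers z) :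
    Subgroup.closure ((fun q : G => α * q * α⁻¹ * q⁻¹) '' (Q : Set G)) = Q₀ ⊓ CC(Q₀) := by
  have : Fact (Nat.Prime 2) := ⟨Nat.prime_two⟩
  set K := Subgroup.closure ((fun q : G => α * q * α⁻¹ * q⁻¹) '' (Q : Set G)) with hK
  have hm : ∀ q ∈ Q, α * q * α⁻¹ * q⁻¹ ∈ K := fun q hq => Subgroup.subset_closure ⟨q, hq, rfl⟩
  have hmQ : ∀ q ∈ Q, α * q * α⁻¹ * q⁻¹ ∈ Q := fun q hq =>
    Q.mul_mem (conj_mem_of_mem_NN hN hq) (Q.inv_mem hq)
  have hKQ : K ≤ Q := (Subgroup.closure_le _).2 (by rintro _ ⟨q, hq, rfl⟩; exact hmQ q hq)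
  have hαZ := H1.extraspecial_two_NN_le hE hN
  have hcz : ∀ a ∈ Q, ∀ b ∈ Q, ⁅a, b⁆ ∈ Q ⊓ CC(Q) := fun a ha b hb =>
    H7.extraspecial_commutator hE ▸ Subgroup.commutator_mem_commutator ha hb
  have hα2 := H6.ord2_inv hα
  have hKn : Q ≤ NN(K) := le_NN_of_cj_le fun g hg => by
    rw [cj_le_iff, hK, Subgroup.closure_le]
    rintro _ ⟨q, hq, rfl⟩
    refine mem_cj.2 ?_
    have := K.mul_mem (K.inv_mem (hm g hg)) (hm _ (Q.mul_mem hg hq))
    convert this using 1; group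
  have hZK : Q ⊓ CC(Q) ≤ K := by
    have h0 : K ≠ ⊥ := fun h => hC fun q hq => by
      have := hm q hq
      rw [h, Subgroup.mem_bot, mul_inv_eq_one, mul_inv_eq_iff_eq_mul] at this
      exact this.symm
    rcases H7.eq_or_eq_bot_of_card_prime (H7.extraspecial_card_center hE)
      (inf_le_inf_right CC(Q) hKQ) with h | h
    · exact absurd h (inf_CC_ne_bot hE.1.1 hKQ le_rfl hKn h0)
    · exact h.ge.trans inf_le_left
  -- the basic commutator identity
  have key : ∀ y ∈ Q, ∀ q ∈ Q, ⁅α * q * α⁻¹ * q⁻¹, y⁆ = ⁅q, α * y * α⁻¹ * y⁻¹⁆ := by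
    intro y hy q hq
    have hy' := conj_mem_of_mem_NN hN hy
    have hq' := conj_mem_of_mem_NN hN hq
    have e1 : ⁅α * q * α⁻¹, y⁆ = ⁅q, α * y * α⁻¹⁆ := by
      have := H6.conj_eq_iff_commute.2 (hαZ _ (hcz q hq _ hy')).symm
      rw [← this]
      simp only [commutatorElement_def, mul_inv_rev, hα2, mul_assoc, H6.ord2_mul_self hα, mul_one]
    have e2 : ⁅α * q * α⁻¹ * q⁻¹, y⁆ = (α * q * α⁻¹) * ⁅q⁻¹, y⁆ * (α * q * α⁻¹)⁻¹ * ⁅α * q * α⁻¹, y⁆ := by
      simp only [commutatorElement_def]; group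
    have e3 : ⁅q, α * y * α⁻¹ * y⁻¹⁆ = ⁅q, α * y * α⁻¹⁆ * ((α * y * α⁻¹) * ⁅q, y⁻¹⁆ * (α * y * α⁻¹)⁻¹) := by
      simp only [commutatorElement_def]; group
    have e4 : ⁅q⁻¹, y⁆ = ⁅q, y⁻¹⁆ := by
      have h1 : ⁅q⁻¹, y⁆ = q⁻¹ * ⁅y, q⁆ * q := by simp only [commutatorElement_def]; group
      have h2 : ⁅q, y⁻¹⁆ = y⁻¹ * ⁅y, q⁆ * y := by simp only [commutatorElement_def]; group
      rw [h1, h2, mul_assoc, mul_assoc, ← (hcz y hy q hq).2 q hq, ← (hcz y hy q hq).2 y hy]; group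
    rw [e2, e3, e1, (hcz _ (Q.inv_mem hq) y hy).2 _ hq', (hcz q hq _ (Q.inv_mem hy)).2 _ hy',
      mul_inv_cancel_right, mul_inv_cancel_right, e4]
    exact (hcz q hq _ hy').2 _ (hcz q hq _ (Q.inv_mem hy)).1
  have h1 : Q₀ = Q ⊓ CC(K) := by
    ext y
    rw [hQ₀, ← hZ]
    constructor
    · rintro ⟨hy, h⟩
      refine ⟨hy, le_CC_symm (H := K) (K := Subgroup.zpowers y) ?_ (Subgroup.mem_zpowers y)⟩
      rw [CC_zpowers, hK, Subgroup.closure_le]
      rintro _ ⟨q, hq, rfl⟩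
      refine H6.mem_cent_iff_commute.2 (commutatorElement_eq_one_iff_commute.1 ?_)
      rw [key y hy q hq]
      exact commutatorElement_eq_one_iff_commute.2 (h.2 q hq)
    · rintro ⟨hy, h⟩
      refine ⟨hy, hmQ y hy, fun q hq => commutatorElement_eq_one_iff_commute.1 ?_⟩
      rw [← key y hy q hq]
      exact commutatorElement_eq_one_iff_commute.2 (h _ (hm q hq))
  have h2 : K ≤ Q₀ := by
    rw [hK, Subgroup.closure_le]
    rintro _ ⟨q, hq, rfl⟩
    refine (hQ₀ _).2 ⟨hmQ q hq, ?_⟩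
    rw [← hZ]
    have := Subgroup.inv_mem _ (H7.extraspecial_pow_mem hE (hmQ q hq))
    convert this using 1
    simp only [pow_two, mul_inv_rev, inv_inv, hα2, mul_assoc, H6.ord2_mul_mul hα]
  have h3 := H1.extraspecial_CC_CC hE hKQ hZK
  rw [← h1] at h3
  exact le_antisymm (le_inf h2 (h3.ge.trans inf_le_right))
    ((inf_le_inf_right _ (h1.le.trans inf_le_left)).trans h3.le)

/-- Let G be a finite group and let z be an involution of G such that Q, the generalized Fitting subgroup of the centralizer C of z, is a 2-group of symplectic type (every characteristic abelian subgroup of Q is cyclic); suppose Q is extraspecial, and view Q inside G. Let α be an involution of C that is not in Q, and let Q₀ be the subgroup of those q ∈ Q whose commutator with α lies in the subgroup generated by z. Then (a) the subgroup generated by the commutators α q α⁻¹ q⁻¹, q ∈ Q, equals the centre of Q₀; and (b) if Q₀ is not contained in the product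 of the centralizer of α in Q with the subgroup generated by z, then some element of Q conjugates α to α z. -/
theorem result {G : Type*} [Group G] [Finite G] (z : G) (hz : orderOf z = 2) (hQ : Cfsg.IsOfSymplecticType ↥(Cfsg.generalizedFittingSubgroup ↥(Subgroup.centralizer ({z} : Set G)))) (hE : Cfsg.IsExtraspecial 2 ↥(Cfsg.generalizedFittingSubgroup ↥(Subgroup.centralizer ({z} : Set G))))
    (α : G) (hα : orderOf α = 2) (hαC : α ∈ Subgroup.centralizer ({z} : Set G)) (hαQ : α ∉ (Cfsg.generalizedFittingSubgroup ↥(Subgroup.centralizer ({z} : Set G))).map (Subgroup.centralizer ({z} : Set G)).subtype)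
    (Q₀ : Subgroup G) (hQ₀ : ∀ q : G, q ∈ Q₀ ↔ (q ∈ (Cfsg.generalizedFittingSubgroup ↥(Subgroup.centralizer ({z} : Set G))).map (Subgroup.centralizer ({z} : Set G)).subtype ∧ α * q * α⁻¹ * q⁻¹ ∈ Subgroup.zpowers z)) :
    Subgroup.closure ((fun q : G => α * q * α⁻¹ * q⁻¹) '' ((Cfsg.generalizedFittingSubgroup ↥(Subgroup.centralizer ({z} : Set G))).map (Subgroup.centralizer ({z} : Set G)).subtype : Set G)) = (Subgroup.center ↥Q₀).map Q₀.subtype ∧
      (¬ Q₀ ≤ ((Cfsg.generalizedFittingSubgroup ↥(Subgroup.centralizer ({z} : Set G))).map (Subgroup.centralizer ({z} : Set G)).subtype ⊓ Subgroup.centralizer ({α} : Set G)) ⊔ Subgroup.zpowers z →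
        ∃ q ∈ (Cfsg.generalizedFittingSubgroup ↥(Subgroup.centralizer ({z} : Set G))).map (Subgroup.centralizer ({z} : Set G)).subtype, q * α * q⁻¹ = α * z) := by
  have : Fact (Nat.Prime 2) := ⟨Nat.prime_two⟩
  have hE' : IsExtraspecial 2 (H5.fstarOf (Subgroup.centralizer ({z} : Set G))) :=
    H7.isExtraspecial_of_equiv hE (Subgroup.equivMapOfInjective _ _ (Subgroup.subtype_injective _))
  have hzQ := H1.mem_fstarOf_centralizer z
  have hZ := ((Subgroup.eq_of_le_of_card_ge (Subgroup.zpowers_le.2 (show z ∈ _ ⊓ CC(_) from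
    ⟨hzQ, fun _ hx => Subgroup.mem_centralizer_singleton_iff.1 (H5.fstarOf_le _ hx)⟩)))
    (by rw [H7.extraspecial_card_center hE', Nat.card_zpowers, hz])).symm
  refine ⟨?_, fun h => ?_⟩
  · rw [map_center_subtype]
    exact aux hz hE' hZ hα (H5.self_le_normalizer_fstarOf _ hαC)
      (fun h => hαQ (H5.inf_centralizer_fstarOf_le _ ⟨hαC, h⟩)) hQ₀
  · obtain ⟨q, hq, h1⟩ := SetLike.not_le_iff_exists.1 h
    obtain ⟨h2, h3⟩ := (hQ₀ q).1 hq
    refine ⟨q, h2, ?_⟩
    have h4 : α * q * α⁻¹ * q⁻¹ = z := by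
      rw [← mem_powers_iff_mem_zpowers] at h3
      obtain ⟨n, hn⟩ := h3
      dsimp only at hn
      rw [← pow_mod_orderOf, hz] at hn
      rcases Nat.mod_two_eq_zero_or_one n with h0 | h0 <;> rw [h0] at hn
      · refine absurd (Subgroup.mem_sup_left (Subgroup.mem_inf.2 ⟨h2, H6.mem_cent_singleton.2 ?_⟩)) h1
        rw [pow_zero, eq_comm, mul_inv_eq_one, mul_inv_eq_iff_eq_mul] at hn
        exact hn.symm
      · exact hn.symm.trans (pow_one z)
    rw [← h4, H6.ord2_inv hα]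
    simp only [mul_assoc, H6.ord2_mul_mul hα]

end Cfsg.Agent.S1784
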