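import Cfsg.Statements.S1785
import Cfsg.Agent.H10.SG2

set_option autoImplicit false
open Cfsg H10

namespace Cfsg.Agent.S1785

open Subgroup H10.Sg

variable {G : Type*} [Group G] [Finite G]

def E (k : ℕ) (B : Subgroup G) : Prop := IsElementaryAbelian 2 B ∧ Nat.card B = 2 ^ k

theorem E.ea {k : ℕ} {B : Subgroup G} (h : E k B) : EA k B := ⟨h.1, h.2.ge⟩

theorem E.succ {k : ℕ} {B : Subgroup G} (h : E k B) {x : G} (hx : x * x = 1)
    (hc : B ≤ centralizer {x}) (hn : x ∉ B) : E (k + 1) (B ⊔ zpowers x) := by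
  refine ⟨(h.ea.succ hx hc hn).1, ?_⟩
  have h2 := H6.ord2_of hx fun e => hn (e ▸ one_mem B)
  have := card_sup_mul_card_inf (L := B) (N := zpowers x) ((CC_zpowers x ▸ hc).trans (CC_le_NN _))
  have e : B ⊓ zpowers x = ⊥ := eq_bot_iff.2 fun y hy =>
    ((mem_zp h2).1 hy.2).elim id fun e => absurd (e ▸ hy.1) hn
  rw [e, Nat.card_zpowers, h2, h.2, card_bot, mul_one] at this
  rw [this, pow_succ]

theorem half {k : ℕ} {B : Subgroup G} (h : EA (2 * k + 1) B) {x : G} (hx : x * x = 1)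
    (hn : x ∈ NN(B)) : EA (k + 1) (B ⊓ centralizer {x}) := by
  have h1 := H5.elemAb_of_le h.1 (inf_le_left (b := centralizer {x}))
  refine ⟨h1, H5.pow_succ_le_of_lt (H5.isPGroup_of_elemAb h1) ?_⟩
  have h2 := h.2.trans (H5.card_le_sq_inf_centralizer h.1 hx hn)
  by_contra! hc
  have := Nat.mul_le_mul hc hc
  rw [← pow_add, ← two_mul] at this
  have := (Nat.pow_le_pow_iff_right one_lt_two).1 (h2.trans this)
  omega

theorem sub {k : ℕ} {B : Subgroup G} (h : EA k B) : ∃ U, U ≤ B ∧ E k U := by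
  obtain ⟨U, h1, h2⟩ := H5.exists_le_card_eq_pow h.two h.2
  exact ⟨U, h1, H5.elemAb_of_le h.1 h1, h2⟩

theorem out {k l : ℕ} {A B : Subgroup G} (h : EA (k + 1) A) (hB : E l B) (hl : l ≤ k) :
    ∃ a ∈ A, a ∉ B := SetLike.not_le_iff_exists.1 fun e => by
  have := (Nat.pow_le_pow_iff_right one_lt_two).1 (h.2.trans ((card_le_of_le e).trans hB.2.le))
  omega

theorem quarter {B : Subgroup G} [B.Normal] (h : EA 5 B) {a b : G} (ha : a * a = 1) (hb : b * b = 1)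
    (hab : b * a = a * b) : EA 2 (B ⊓ centralizer {a} ⊓ centralizer {b}) :=
  half (k := 1) (half (k := 2) h ha (le_NN_of_normal ⊤ B (mem_top a))) hb
    (mem_NN_inf (le_NN_of_normal ⊤ B (mem_top b)) (le_NN_self _ (mem_C1.2 hab)))

def R (C D : Subgroup G) : Prop := IsElementaryAbelian 2 C ∧ Nat.card C = 8 ∧
  IsElementaryAbelian 2 D ∧ Nat.card D = 8 ∧ ⁅C, D⁆ = ⊥

theorem mkR {C D : Subgroup G} (h1 : E 3 C) (h2 : E 3 D) (h : C ≤ CC(D)) : R C D :=
  ⟨h1.1, h1.2, h2.1, h2.2, comm_eq_bot.2 h⟩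

theorem conn {B : Subgroup G} [B.Normal] (hG : IsPGroup 2 G) (h : EA 5 B) {A : Subgroup G}
    (hA : E 3 A) : ∃ U, U ≤ B ∧ E 3 U ∧ Relation.ReflTransGen R A U := by
  have key : ∀ A : Subgroup G, E 3 A → EA 2 (B ⊓ CC(A)) →
      ∃ U, U ≤ B ∧ E 3 U ∧ Relation.ReflTransGen R A U := fun A hA h1 => by
    obtain ⟨F, hF, h2⟩ := sub h1
    obtain ⟨a, ha, haF⟩ := out hA.ea h2 le_rfl
    have h3 : F ≤ centralizer {a} := CC_zpowers a ▸ (hF.trans inf_le_right).trans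
      (CC_anti (zpowers_le.2 ha))
    have h4 := h2.succ (hA.ea.sq ha) h3 haF
    obtain ⟨U, hU, h5⟩ := sub (half (k := 2) h (hA.ea.sq ha) (le_NN_of_normal ⊤ B (mem_top a)))
    refine ⟨U, hU.trans inf_le_left, h5, .head (mkR hA h4 (le_CC_symm (sup_le (hF.trans inf_le_right)
      (zpowers_le.2 (hA.ea.le_CC ha))))) (.single (mkR h4 h5 (sup_le ?_ (le_CC_symm ?_))))⟩
    · exact (hF.trans inf_le_left).trans (h.le_CC.trans (CC_anti (hU.trans inf_le_left)))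
    · exact CC_zpowers a ▸ hU.trans inf_le_right
  obtain ⟨z, hz, hzC, hz2⟩ := H5.exists_central_of_isPGroup (hG.to_subgroup ⊤) h.two
    (le_NN_of_normal ⊤ B) (by rintro rfl; simpa using h.2)
  have h1 : E 1 (zpowers z) := ⟨(ea_one hz2).1, by rw [Nat.card_zpowers, hz2]; rfl⟩
  have hz' : ∀ X : Subgroup G, zpowers z ≤ CC(X) := fun X => zpowers_le.2 (CC_anti le_top hzC)
  obtain ⟨a, ha, haz⟩ := out hA.ea h1 (by norm_num)
  have h2 := h1.succ (hA.ea.sq ha) (CC_zpowers a ▸ hz' _) haz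
  obtain ⟨b, hb, hbz⟩ := out hA.ea h2 le_rfl
  have h3 := h2.succ (hA.ea.sq hb) (sup_le (CC_zpowers b ▸ hz' _)
    (zpowers_le.2 (hA.ea.le_C1 hb ha))) hbz
  have h4 := quarter h (hA.ea.sq ha) (hA.ea.sq hb) (hA.ea.comm hb ha)
  obtain ⟨U, h5, h6, h7⟩ := key _ h3 ⟨H5.elemAb_of_le h.1 inf_le_left, h4.2.trans (card_le_of_le (by
    rw [CC_sup, CC_sup, CC_zpowers a, CC_zpowers b]
    exact le_inf (inf_le_left.trans inf_le_left) (le_inf (le_inf (le_top.trans (le_CC_symm (hz' _)))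
      (inf_le_left.trans inf_le_right)) inf_le_right)))⟩
  exact ⟨U, h5, h6, .head (mkR hA h3 (le_CC_symm (sup_le (sup_le (hz' _)
    (zpowers_le.2 (hA.ea.le_CC ha))) (zpowers_le.2 (hA.ea.le_CC hb))))) h7⟩

/-- Let X be a finite 2-group having a normal elementary abelian subgroup of order at least 32. Then (a) for any two elementary abelian subgroups A, B of X of order 8 there is a chain A = A₁, A₂, …, Aₙ = B of elementary abelian subgroups of order 8 in which consecutive members commute elementwise; and (b) every elementary abelian subgroup of X of order 4 is contained in an elementary abelian subgroup of order 8. -/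
theorem result {X : Type*} [Group X] [Finite X]
    (hX : IsPGroup 2 X) (E : Subgroup X) [E.Normal] (hE : Cfsg.IsElementaryAbelian 2 E) (hE32 : 32 ≤ Nat.card ↥E) :
    (∀ A B : Subgroup X, Cfsg.IsElementaryAbelian 2 A → Nat.card ↥A = 8 → Cfsg.IsElementaryAbelian 2 B → Nat.card ↥B = 8 →
        Relation.ReflTransGen
          (fun C D : Subgroup X => Cfsg.IsElementaryAbelian 2 C ∧ Nat.card ↥C = 8 ∧ Cfsg.IsElementaryAbelian 2 D ∧ Nat.card ↥D = 8 ∧ ⁅C, D⁆ = ⊥)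
          A B) ∧
      (∀ V : Subgroup X, Cfsg.IsElementaryAbelian 2 V → Nat.card ↥V = 4 →
        ∃ A : Subgroup X, V ≤ A ∧ Cfsg.IsElementaryAbelian 2 A ∧ Nat.card ↥A = 8) := by
  have h : EA 5 E := ⟨hE, hE32⟩
  refine ⟨fun A B h1 h2 h3 h4 => ?_, fun V h1 h2 => ?_⟩
  · obtain ⟨U, a1, a2, a3⟩ := conn hX h ⟨h1, h2⟩
    obtain ⟨U', b1, b2, b3⟩ := conn hX h ⟨h3, h4⟩
    refine (a3.tail (mkR a2 b2 (a1.trans (h.le_CC.trans (CC_anti b1))))).trans ?_
    refine Relation.ReflTransGen.mono (fun C D hh => ?_) _ _ (Relation.ReflTransGen.swap _ _ b3)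
    exact ⟨hh.2.2.1, hh.2.2.2.1, hh.1, hh.2.1, Subgroup.commutator_comm C D ▸ hh.2.2.2.2⟩
  have hV : Cfsg.Agent.S1785.E 2 V := ⟨h1, h2⟩
  obtain ⟨a, ha, a1⟩ := out (l := 0) (B := ⊥) hV.ea ⟨H5.elemAb_of_le h1 bot_le, by simp⟩ (by norm_num)
  have ha2 := hV.ea.ord ha a1
  have h3 : Cfsg.Agent.S1785.E 1 (zpowers a) := ⟨(ea_one ha2).1, by rw [Nat.card_zpowers, ha2]; rfl⟩
  obtain ⟨b, hb, hba⟩ := out hV.ea h3 le_rfl
  have h4 := h3.succ (hV.ea.sq hb) (zpowers_le.2 (hV.ea.le_C1 hb ha)) hba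
  have e : zpowers a ⊔ zpowers b = V := H5.eq_of_le_of_card_le
    (sup_le (zpowers_le.2 ha) (zpowers_le.2 hb)) (h2.trans h4.2.symm).le
  have h5 := quarter h (hV.ea.sq ha) (hV.ea.sq hb) (hV.ea.comm hb ha)
  have h6 : E ⊓ centralizer {a} ⊓ centralizer {b} = E ⊓ CC(V) := by
    rw [← e, CC_sup, CC_zpowers, CC_zpowers, inf_assoc]
  rw [h6] at h5
  obtain ⟨x, hx, hxV⟩ : ∃ x ∈ E ⊓ CC(V), x ∉ V := SetLike.not_le_iff_exists.1 fun hh => by
    have e' := H5.eq_of_le_of_card_le hh (h2.le.trans h5.2)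
    have : E ≤ V := (le_inf le_rfl (h.le_CC.trans (CC_anti (e' ▸ inf_le_left)))).trans hh
    have := card_le_of_le this
    omega
  have h7 := hV.succ (h.sq hx.1) (fun v hv => mem_C1.2 (mem_CC.1 hx.2 v hv)) hxV
  exact ⟨_, le_sup_left, h7⟩

end Cfsg.Agent.S1785
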