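import Cfsg.Statements.S1850
import Cfsg.Agent.H11.CharP
import Cfsg.Agent.H5.Fstar
import Cfsg.Agent.H15.Pi
import Cfsg.Agent.H10.AG

set_option autoImplicit false
open Cfsg H10

namespace Cfsg.Agent.S1850

/-- Let G be a non-abelian finite simple QTKE-group and T a Sylow 2-subgroup of G. If U is a nontrivial 2-subgroup of G with U ∩ Z(T) ≠ 1, then F*(N_G(U)) = O₂(N_G(U)). -/
theorem result {G : Type*} [Group G] [Finite G] [IsSimpleGroup G]
    (hG : ¬ IsMulCommutative G) (hQ : Cfsg.IsQTKE G) (T : Sylow 2 G) (U : Subgroup G)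
    (hU : IsPGroup 2 ↥U) (hZ : U ⊓ ((T : Subgroup G) ⊓ Subgroup.centralizer ((T : Subgroup G) : Set G)) ≠ ⊥) :
    Subgroup.normalizer (U : Set G) ∈ Cfsg.calHe G := by
  have step : ∀ V W : Subgroup G, H11.IsCharP 2 (Subgroup.normalizer (V : Set G)) → V ≤ W →
      W ≤ Subgroup.normalizer (V : Set G) → IsPGroup 2 W →
      H11.IsCharP 2 (Subgroup.normalizer (W : Set G)) := by
    intro V W hV hVW hWV hW
    have h1 := hV.inf_centralizer hWV hW
    rw [inf_eq_right.2 ((Subgroup.centralizer_le hVW).trans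
      (Subgroup.centralizer_le_normalizer _))] at h1
    refine H11.isCharP_of_forall fun c _ hc ho => h1.eq_one ?_ ?_ ho
    · exact Subgroup.centralizer_le (H11.le_pCoreOf Subgroup.le_normalizer le_rfl hW) hc
    · refine Subgroup.centralizer_le ?_ hc
      exact H11.le_pCoreOf ((H11.pCoreOf_le _).trans (Subgroup.centralizer_le_normalizer _))
        ((H5.normalizer_le_normalizer_centralizer W).trans (H11.normalizer_le_normalizer_pCoreOf _))
        (H11.isPGroup_pCoreOf _)
  set V₀ := U ⊓ ((T : Subgroup G) ⊓ Subgroup.centralizer ((T : Subgroup G) : Set G)) with hV₀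
  have h0 : H11.IsCharP 2 (Subgroup.normalizer (V₀ : Set G)) := by
    refine H11.isCharP_iff.2 (hQ.2.2 _ ⟨V₀, hU.to_le inf_le_left, hZ, rfl⟩ ⟨T, ?_⟩)
    exact (Subgroup.le_centralizer_iff.1 (inf_le_right.trans inf_le_right)).trans
      (Subgroup.centralizer_le_normalizer _)
  obtain ⟨V, -, hV⟩ := Finite.exists_le_maximal
    (p := fun V : Subgroup G => V ≤ U ∧ H11.IsCharP 2 (Subgroup.normalizer (V : Set G)))
    (a := V₀) ⟨inf_le_left, h0⟩
  have e : V = U := H11.eq_of_inf_normalizer_le hU hV.prop.1 (hV.le_of_ge ⟨inf_le_left,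
    step V _ hV.prop.2 (le_inf hV.prop.1 Subgroup.le_normalizer) inf_le_right
      (hU.to_le inf_le_left)⟩ (le_inf hV.prop.1 Subgroup.le_normalizer))
  exact H5.fstar_eq_pCore_iff_centralizer.2 (H11.isCharP_iff.1 (e ▸ hV.prop.2))

end Cfsg.Agent.S1850
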