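import Cfsg.Statements.S1851
import Cfsg.Agent.H10.JC3
import Cfsg.Agent.H10.PRed
import Cfsg.Agent.H11.CharP
import Cfsg.Agent.S1850

set_option autoImplicit false
open Cfsg

namespace Cfsg.Agent.S1851
open Subgroup H10

section
variable {G : Type*} [Group G] [Finite G]

omit [Finite G] in
theorem perf {V L : Subgroup G} (hL : ⁅L, L⁆ = L) (h : ⁅⁅V, L⁆, L⁆ = ⊥) : ⁅V, L⁆ = ⊥ := by
  rw [commutator_comm, ← hL]
  exact commutator_commutator_eq_bot_of_rotate (by rwa [commutator_comm L V]) h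

theorem axb {V R L : Subgroup G} (hL : ⁅L, L⁆ = L) (hV : IsPGroup 2 V) (hR : IsPGroup 2 R)
    (hLV : L ≤ normalizer (V : Set G)) (h1 : ⁅R, L⁆ ≤ centralizer (V : Set G))
    (h2 : V ⊓ centralizer (R : Set G) ≤ centralizer (L : Set G)) (W : Subgroup G) (hW : W ≤ V)
    (hn : R ≤ normalizer (W : Set G)) : ⁅W, L⁆ = ⊥ := by
  induction W using WellFoundedLT.induction with
  | ind W ih =>
    by_cases h0 : W = ⊥
    · simp [h0]
    have h3 := comm_lt_of_resOf_le (hV.to_le hW) hn (by rw [resOf_eq_bot hR]; exact bot_le) h0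
    have h4 := ih _ h3 (h3.le.trans hW) (le_NN_commutator hn le_normalizer)
    have h5 := commutator_commutator_eq_bot_of_rotate h4 (comm_eq_bot.2 (h1.trans (centralizer_le hW)))
    refine perf hL (comm_eq_bot.2 (le_trans (le_inf ?_ ?_) h2))
    · exact (commutator_mono hW le_rfl).trans (comm_le_left hLV)
    · rw [commutator_comm]; exact comm_eq_bot.1 h5

end


/-- Let G be a non-abelian finite simple QTKE-group and T a Sylow 2-subgroup of G, and let L be a member of ℒ_f(G, T) (a member of ℒ(G, T) that lies in 𝒳 — L ≠ 1, L = O²(L), F*(L) = O₂(L) — and acts nontrivially on Ω₁(Z(O₂(L)))). Then (1) every member K of ℒ(G, T) containing L is again in ℒ_f(G, T) (a sharper form of (1) also compares the modules [Ω₁(Z(R)), L] and [Ω₁(Z(R')), K] for suitable 2-subgroups R, R'; that comparison is not included); and (2) if L is maximal under inclusion among the members of ℒ_f(G, T), then L is a maximal member of ℒ(G, T), hence a member of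 ℒ_f*(G, T). -/
theorem result {G : Type*} [Group G] [Finite G] [IsSimpleGroup G]
    (hG : ¬ IsMulCommutative G) (hQ : Cfsg.IsQTKE G) (T : Sylow 2 G) (L : Subgroup G)
    (hL : L ∈ Cfsg.calLf (T : Subgroup G)) :
    (∀ K ∈ Cfsg.calL (T : Subgroup G), L ≤ K → K ∈ Cfsg.calLf (T : Subgroup G)) ∧
    ((∀ K ∈ Cfsg.calLf (T : Subgroup G), L ≤ K → K = L) → L ∈ Cfsg.calLfMax (T : Subgroup G)) := by
  have ch : ∀ K ∈ calL (T : Subgroup G), H11.IsCharP 2 (K ⊔ T : Subgroup G) := fun K hK => by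
    have h0 : pCoreOf 2 (K ⊔ T : Subgroup G) ≠ ⊥ := fun h => hK.2.2 ((map_eq_bot_iff_of_injective _
      (subtype_injective _)).1 h)
    have h1 : H11.IsCharP 2 (normalizer (pCoreOf 2 (K ⊔ T : Subgroup G) : Set G)) :=
      H11.isCharP_iff.2 (hQ.2.2 _ ⟨_, isPGroup_pCoreOf _, h0, rfl⟩ ⟨T, le_sup_right.trans (le_NN_pCoreOf _)⟩)
    exact h1.of_pCoreOf_le (le_NN_pCoreOf _) (le_sup_of_le_right ((isSylowIn_top T).le_of_NN
      (isPGroup_pCoreOf _) le_top ((le_sup_right.trans (le_NN_pCoreOf _)).trans (le_NN_pCoreOf _))))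
  have pf : ∀ K ∈ calL (T : Subgroup G), K ≠ ⊥ ∧ ⁅K, K⁆ = K ∧ SubnIn K (K ⊔ T) := fun K hK => by
    refine ⟨fun h => hK.1.1 (by rw [h, bot_subgroupOf]), ?_, le_sup_left, hK.1.2.2.1⟩
    have := congrArg (map (K ⊔ T).subtype) hK.1.2.1
    rwa [map_commutator, map_subgroupOf_eq_of_le le_sup_left] at this
  have key : ∀ K ∈ calL (T : Subgroup G), L ≤ K → K ∈ calLf (T : Subgroup G) := fun K hK hLK => by
    obtain ⟨k0, k1, k2⟩ := pf K hK
    obtain ⟨-, l1, l2⟩ := pf L hL.1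
    refine ⟨hK, ⟨k0, ?_, ?_⟩, fun h => hL.2.2 ?_⟩
    · simpa only [resOf_eq_closure, Nat.coprime_two_right, oddGenerated] using resOf_eq_of_perfect (p := 2) k1
    · refine H5.fstar_eq_pCore_iff_centralizer.2 (H11.isCharP_iff.1 ?_)
      exact k2.induction (motive := fun X => H11.IsCharP 2 X) (ch K hK) fun _ _ h _ hn ih => ih.of_le_normalizer h hn
    set Q := pCoreOf 2 (K ⊔ T : Subgroup G)
    set R := pCoreOf 2 (L ⊔ T : Subgroup G)
    have nQ : Q ≤ normalizer (K : Set G) := k2.le_NN_of_res (resOf_eq_of_perfect k1) (isPGroup_pCoreOf _)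
      (pCoreOf_le _) (le_sup_left.trans (le_NN_pCoreOf _))
    have nR : R ≤ normalizer (L : Set G) := l2.le_NN_of_res (resOf_eq_of_perfect l1) (isPGroup_pCoreOf _)
      (pCoreOf_le _) (le_sup_left.trans (le_NN_pCoreOf _))
    have QR : Q ≤ R := le_pCoreOf_of_le (sup_le_sup_right hLK _) (le_sup_of_le_right ((isSylowIn_top T).le_of_NN
      (isPGroup_pCoreOf _) le_top (le_sup_right.trans (le_NN_pCoreOf _)))) le_rfl
    have h1 : ⁅ZO 2 Q, K⁆ = ⊥ := by
      have e : ⁅ZO 2 Q, K⁆ ≤ ZO 2 Q := comm_le_left (le_NN_ZO (le_sup_left.trans (le_NN_pCoreOf _)))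
      refine perf k1 (eq_bot_iff.2 (le_trans (commutator_mono (le_ZO ?_ ?_ fun a ha => (mem_ZO.1 (e ha)).2.2) le_rfl)
        h.le))
      · exact le_trans (le_inf (e.trans (ZO_le _)) (comm_le_right ((ZO_le _).trans nQ))) k2.pCoreOf_eq.ge
      · exact e.trans ((ZO_le_CC _).trans (centralizer_le k2.pCoreOf_le))
    refine axb (R := R) l1 (isPGroup_ZO _) (isPGroup_pCoreOf _) (le_NN_ZO (le_NN_pCoreOf L)) ?_ ?_ _ le_rfl
      (le_NN_ZO (nR.trans (NN_le_NN_pCoreOf L)))
    · refine le_trans ?_ (le_CC_ZO _)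
      rw [l2.pCoreOf_eq]
      exact le_inf (comm_le_left (le_sup_left.trans (le_NN_pCoreOf _))) (comm_le_right nR)
    · refine le_trans (fun x hx => mem_ZO.2 ⟨?_, centralizer_le QR hx.2, (mem_ZO.1 hx.1).2.2⟩)
        ((comm_eq_bot.1 h1).trans (centralizer_le hLK))
      exact ch K hK ⟨sup_le_sup_right hLK _ (le_sup_left (a := L) (pCoreOf_le L (ZO_le _ hx.1))),
        centralizer_le QR hx.2⟩
  exact ⟨key, fun h => ⟨⟨hL.1, fun K hK hLK => h K (key K hK hLK) hLK⟩, hL.2⟩⟩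

end Cfsg.Agent.S1851
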