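import Cfsg.Statements.S1957
import Cfsg.Agent.H5.Four
import Cfsg.Agent.H5.PRank

set_option autoImplicit false
open Cfsg

namespace Cfsg.Agent.S1957

open H5 Subgroup
open scoped commutatorElement

local notation "𝒩(" X ")" => Subgroup.normalizer (SetLike.coe X)
local notation "𝒞(" X ")" => Subgroup.centralizer (SetLike.coe X)
local notation "𝒞₁(" a ")" => Subgroup.centralizer (Singleton.singleton a : Set _)

theorem four_cases {G : Type*} [Group G] {U : Subgroup G} (hU : IsKleinFour U) {u v w : G}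
    (hu : u ∈ U) (hv : v ∈ U) (hw : w ∈ U) (u1 : u ≠ 1) (v1 : v ≠ 1) (huv : u ≠ v) :
    w = 1 ∨ w = u ∨ w = v ∨ w = u * v := by
  by_contra h
  push Not at h
  obtain ⟨h1, h2, h3, h4⟩ := h
  apply h4
  have := IsKleinFour.eq_mul_of_ne_all (G := U) (x := ⟨u, hu⟩) (y := ⟨v, hv⟩) (z := ⟨w, hw⟩)
    (fun e => u1 (congrArg Subtype.val e)) (fun e => v1 (congrArg Subtype.val e))
    (fun e => huv (congrArg Subtype.val e)) (fun e => h1 (congrArg Subtype.val e))
    (fun e => h2 (congrArg Subtype.val e)) (fun e => h3 (congrArg Subtype.val e))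
  exact congrArg Subtype.val this

theorem index_two_of_card {G : Type*} [Group G] [Finite G] {T P : Subgroup G} (h : T ≤ P)
    (hc : Nat.card P ≤ 2 * Nat.card T) (hne : ¬ P ≤ T) : T.relIndex P = 2 := by
  have h1 := card_mul_relIndex h
  have h0 : T.relIndex P ≠ 0 := index_ne_zero_of_finite
  have h3 : T.relIndex P ≠ 1 := fun e => hne (relIndex_eq_one.1 e)
  have h4 : 0 < Nat.card T := Nat.card_pos
  have : T.relIndex P ≤ 2 := by
    by_contra h5
    have : 3 ≤ T.relIndex P := by omega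
    nlinarith
  omega

theorem mul_mem_of_card {G : Type*} [Group G] [Finite G] {T P : Subgroup G} (h : T ≤ P)
    (hc : Nat.card P ≤ 2 * Nat.card T) {a b : G} (ha : a ∈ P) (hb : b ∈ P) (h1 : a ∉ T)
    (h2 : b ∉ T) : a * b ∈ T := by
  have h3 := index_two_of_card h hc fun e => h1 (e ha)
  exact (Subgroup.mul_mem_iff_of_index_two h3 (a := ⟨a, ha⟩) (b := ⟨b, hb⟩)).2
    (by simp [mem_subgroupOf, h1, h2])

theorem norm_four {G : Type*} [Group G] [Finite G]
    (P : Sylow 2 G) (U : Subgroup G) (hUP : U ≤ (P : Subgroup G))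
    (hUn : (P : Subgroup G) ≤ 𝒩(U)) (hU4 : IsKleinFour ↥U)
    (hUZ : ¬ IsCyclic ↥((P : Subgroup G) ⊓ 𝒞((P : Subgroup G))) → U ≤ 𝒞((P : Subgroup G)))
    {u : G} (hu : u ∈ U) : opOf 2 𝒞₁(u) ≤ 𝒩(U) := by
  set Q := opOf 2 𝒞₁(u) with hQ
  have hQ2 : IsPGroup 2 Q := isPGroup_opOf 2 _
  obtain ⟨hUe, -⟩ := elemAb_of_kleinFour hU4
  have hsq : ∀ w ∈ U, w * w = 1 := fun w hw => by rw [← pow_two]; exact hUe.2 w hw
  have hUc : U ≤ 𝒞(U) := fun a ha b hb =>
    congrArg Subtype.val (hUe.1.is_comm.comm (⟨b, hb⟩ : U) ⟨a, ha⟩)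
  by_cases hP : (P : Subgroup G) ≤ 𝒞₁(u)
  · have h1 := isPGroup_sup (hP.trans (self_le_normalizer_opOf 2 _)) P.isPGroup' hQ2
    have h2 := P.is_maximal' h1 le_sup_left
    exact le_sup_right.trans (h2.le.trans hUn)
  obtain ⟨x, hxP, hxu⟩ := SetLike.not_le_iff_exists.1 hP
  have hcyc : IsCyclic ↥((P : Subgroup G) ⊓ 𝒞((P : Subgroup G))) := by
    by_contra h
    exact hxu (mem_centralizer_singleton_iff.2 (mem_centralizer_iff.1 (hUZ h hu) x hxP))
  set T : Subgroup G := (P : Subgroup G) ⊓ 𝒞(U) with hT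
  have hU2 : IsPGroup 2 U := P.isPGroup'.to_le hUP
  have hPT : Nat.card (P : Subgroup G) ≤ 2 * Nat.card T :=
    card_le_mul_inf_centralizer hU2 (by rw [hU4.card_four]; norm_num) P.isPGroup' hUn
  have hTu : T ≤ 𝒞₁(u) := fun g hg =>
    mem_centralizer_singleton_iff.2 (mem_centralizer_iff.1 hg.2 u hu).symm
  have hxT : x ∉ T := fun h => hxu (hTu h)
  have hUT : U ≤ T := le_inf hUP hUc
  have hTn : (P : Subgroup G) ≤ 𝒩(T) := le_normalizer_inf le_normalizer
    (le_normalizer_centralizer hUn)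
  -- every element of order at most two in the centre of `T` lies in `U`
  have hcent : ∀ w ∈ T, w ∈ 𝒞(T) → x * w * x⁻¹ = w → w ∈ (P : Subgroup G) ⊓ 𝒞((P : Subgroup G)) := by
    intro w hw hwc hx
    refine ⟨hw.1, fun g hg => ?_⟩
    have hx' : x * w = w * x := by rwa [mul_inv_eq_iff_eq_mul] at hx
    by_cases hgT : g ∈ T
    · exact mem_centralizer_iff.1 hwc g hgT
    · have h1 := mul_mem_of_card inf_le_left hPT hg (inv_mem hxP) hgT
        (fun h => hxT ((inv_mem_iff (H := T)).1 h))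
      have h2 := mem_centralizer_iff.1 hwc _ h1
      calc g * w = g * x⁻¹ * (x * w) := by group
        _ = (g * x⁻¹ * w) * x := by rw [hx']; group
        _ = w * g := by rw [h2]; group
  have hxx : x * x ∈ T := mul_mem_of_card inf_le_left hPT hxP hxP hxT hxT
  have hnorm : ∀ w ∈ T, w ∈ 𝒞(T) → w * w = 1 →
      w * (x * w * x⁻¹) ∈ (P : Subgroup G) ⊓ 𝒞((P : Subgroup G)) ∧
      (w * (x * w * x⁻¹)) * (w * (x * w * x⁻¹)) = 1 := by
    intro w hw hwc hw2
    have h1 : x * w * x⁻¹ ∈ T := (mem_normalizer_iff.1 (hTn hxP) w).1 hw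
    have h2 : x * w * x⁻¹ ∈ 𝒞(T) :=
      (mem_normalizer_iff.1 (normalizer_le_normalizer_centralizer T (hTn hxP)) w).1 hwc
    have h3 : (x * w * x⁻¹) * w = w * (x * w * x⁻¹) := mem_centralizer_iff.1 hwc _ h1
    have h4 : x * x * w = w * (x * x) := mem_centralizer_iff.1 hwc _ hxx
    refine ⟨hcent _ (mul_mem hw h1) (mul_mem hwc h2) ?_, ?_⟩
    · calc x * (w * (x * w * x⁻¹)) * x⁻¹ = (x * w * x⁻¹) * ((x * x * w) * (x * x)⁻¹) := by group
        _ = w * (x * w * x⁻¹) := by rw [h4, ← h3]; group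
    · calc w * (x * w * x⁻¹) * (w * (x * w * x⁻¹))
          = w * ((x * w * x⁻¹) * w) * (x * w * x⁻¹) := by group
        _ = (w * w) * (x * (w * w) * x⁻¹) := by rw [h3]; group
        _ = 1 := by rw [hw2]; group
  have huT : u ∈ 𝒞(T) := fun g hg => mem_centralizer_singleton_iff.1 (hTu hg)
  obtain ⟨hz1, hz2⟩ := hnorm u (hUT hu) huT (hsq u hu)
  set z := u * (x * u * x⁻¹) with hz
  have hzU : z ∈ U := mul_mem hu ((mem_normalizer_iff.1 (hUn hxP) u).1 hu)
  have hz0 : z ≠ 1 := fun h => hxu (mem_centralizer_singleton_iff.2 (by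
    have h1 : x * u * x⁻¹ = u⁻¹ := eq_inv_of_mul_eq_one_right h
    rw [inv_eq_of_mul_eq_one_right (hsq u hu), mul_inv_eq_iff_eq_mul] at h1
    exact h1))
  have hZ : ∀ w ∈ (P : Subgroup G) ⊓ 𝒞((P : Subgroup G)), w * w = 1 → w = 1 ∨ w = z := by
    intro w hw hw2
    by_cases h : w = 1
    · exact Or.inl h
    · exact Or.inr (H6.ord2_unique_of_isCyclic hcyc hw hz1
        (orderOf_eq_prime (by rw [pow_two, hw2]) h) (orderOf_eq_prime (by rw [pow_two, hz2]) hz0))
  have hZU : ∀ w ∈ (P : Subgroup G) ⊓ 𝒞((P : Subgroup G)), w * w = 1 → w ∈ U := by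
    intro w hw hw2
    rcases hZ w hw hw2 with rfl | rfl
    · exact one_mem _
    · exact hzU
  have hkey : ∀ w ∈ T, w ∈ 𝒞(T) → w * w = 1 → w ∈ U := by
    intro w hw hwc hw2
    obtain ⟨h1, h2⟩ := hnorm w hw hwc hw2
    have hwi : w⁻¹ = w := inv_eq_of_mul_eq_one_right hw2
    rcases hZ _ h1 h2 with h | h
    · refine hZU w (hcent w hw hwc ?_) hw2
      rw [eq_inv_of_mul_eq_one_right h, hwi]
    · have huw : u * w = w * u := mem_centralizer_iff.1 hwc u (hUT hu)
      have h3 : w * u ∈ U := by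
        refine hZU _ (hcent _ (mul_mem hw (hUT hu)) (mul_mem hwc huT) ?_) ?_
        · have e1 : x * w * x⁻¹ = w * z := by rw [← h, ← mul_assoc, hw2, one_mul]
          have e2 : x * u * x⁻¹ = u * z := by rw [hz, ← mul_assoc, hsq u hu, one_mul]
          have e3 : z * u = u * z := mem_centralizer_iff.1 (hUc hu) z hzU
          calc x * (w * u) * x⁻¹ = (x * w * x⁻¹) * (x * u * x⁻¹) := by group
            _ = w * (z * u) * z := by rw [e1, e2]; group
            _ = w * u * (z * z) := by rw [e3]; group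
            _ = w * u := by rw [hz2, mul_one]
        · calc w * u * (w * u) = w * (u * w) * u := by group
            _ = (w * w) * (u * u) := by rw [huw]; group
            _ = 1 := by rw [hw2, hsq u hu, one_mul]
      have := mul_mem h3 (inv_mem hu)
      simpa using this
  -- `Q` normalizes `T`
  have hTQ : IsPGroup 2 (T ⊔ Q : Subgroup G) :=
    isPGroup_sup (hTu.trans (self_le_normalizer_opOf 2 _)) (P.isPGroup'.to_le inf_le_left) hQ2
  have hc : Nat.card (T ⊔ Q : Subgroup G) ≤ 2 * Nat.card T := by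
    obtain ⟨P', hP'⟩ := hTQ.exists_le_sylow
    refine (Subgroup.card_le_of_le hP').trans (le_trans ?_ hPT)
    rw [Sylow.card_eq_multiplicity, Sylow.card_eq_multiplicity]
  have hQT : Q ≤ 𝒩(T) := by
    refine le_normalizer_iff_cj.2 fun q hq => ?_
    rintro _ ⟨t, ht, rfl⟩
    change q * t * q⁻¹ ∈ T
    by_cases hqT : q ∈ T
    · exact mul_mem (mul_mem hqT ht) (inv_mem hqT)
    · refine mul_mem_of_card le_sup_left hc (mul_mem (mem_sup_right hq) (mem_sup_left ht))
        (inv_mem (mem_sup_right hq)) (fun h => hqT ?_) (fun h => hqT (by simpa using inv_mem h))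
      simpa using mul_mem h (inv_mem ht)
  refine le_normalizer_iff_cj.2 fun q hq => ?_
  rintro _ ⟨w, hw, rfl⟩
  change q * w * q⁻¹ ∈ U
  have hwc : w ∈ 𝒞(T) := fun g hg => (mem_centralizer_iff.1 hg.2 w hw).symm
  refine hkey _ ((mem_normalizer_iff.1 (hQT hq) w).1 (hUT hw))
    ((mem_normalizer_iff.1 (normalizer_le_normalizer_centralizer T (hQT hq)) w).1 hwc) ?_
  calc q * w * q⁻¹ * (q * w * q⁻¹) = q * (w * w) * q⁻¹ := by group
    _ = 1 := by rw [hsq w hw]; group

/-- Let `G` be a finite non-abelian simple group in which every local subgroup is solvable and which is of characteristic 2 type. Let `P` be a Sylow 2-subgroup of `G` and `U` a normal subgroup of `P` that is a four-group, with `U` central in `P` if the centre of `P` is not cyclic. Then `U` centralizes every subgroup of odd order of `G` that it normalizes. -/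
theorem result {G : Type*} [Group G] [Finite G]
    [IsSimpleGroup G] (hna : ¬ IsMulCommutative G) (hN : Cfsg.IsNGroup G) (h2 : Cfsg.IsCharacteristicTwoType G)
    (P : Sylow 2 G) (U : Subgroup G) (hUP : U ≤ (P : Subgroup G)) (hUn : (P : Subgroup G) ≤ Subgroup.normalizer (U : Set G))
    (hU4 : IsKleinFour ↥U)
    (hUZ : ¬ IsCyclic ↥((P : Subgroup G) ⊓ Subgroup.centralizer ((P : Subgroup G) : Set G)) →
      U ≤ Subgroup.centralizer ((P : Subgroup G) : Set G))
    (K : Subgroup G) (hK : Odd (Nat.card K)) (hUK : U ≤ Subgroup.normalizer (K : Set G)) :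
    U ≤ Subgroup.centralizer (K : Set G) := by
  obtain ⟨hUe, -⟩ := elemAb_of_kleinFour hU4
  have hsq : ∀ w ∈ U, w * w = 1 := fun w hw => by rw [← pow_two]; exact hUe.2 w hw
  have hUc : U ≤ 𝒞(U) := fun a ha b hb =>
    congrArg Subtype.val (hUe.1.is_comm.comm (⟨b, hb⟩ : U) ⟨a, ha⟩)
  have hKc : (Nat.card K).Coprime 2 := Nat.coprime_two_right.2 hK
  have key : ∀ u ∈ U, u ≠ 1 → K ⊓ 𝒞₁(u) ≤ 𝒞(U) := by
    intro u hu u1
    have huo : orderOf u = 2 := orderOf_eq_prime (by rw [pow_two, hsq u hu]) u1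
    have hN : 𝒩(zpowers u) = 𝒞₁(u) := by
      refine le_antisymm (fun g hg => mem_centralizer_singleton_iff.2 ?_) ?_
      · rcases mem_zpowers_two (hsq u hu) ((mem_normalizer_iff.1 hg u).1 (mem_zpowers u)) with h | h
        · rw [mul_inv_eq_one, mul_eq_left] at h; exact absurd h u1
        · rwa [mul_inv_eq_iff_eq_mul] at h
      · rw [← centralizer_zpowers]; exact Subgroup.centralizer_le_normalizer _
    have hch := h2.2 (zpowers u) (isPGroup_zpowers huo) (by simpa using u1)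
    rw [hN] at hch
    have hch' : 𝒞₁(u) ⊓ 𝒞(opOf 2 𝒞₁(u)) ≤ opOf 2 𝒞₁(u) :=
      fstarOf_eq_opOf_iff_centralizer.1
        (fstar_eq_pCore_iff_of.1 (fstar_eq_pCore_iff_centralizer.2 hch))
    have hQU := norm_four P U hUP hUn hU4 hUZ hu
    set Q := opOf 2 𝒞₁(u) with hQ
    set Y := K ⊓ 𝒞₁(u) with hY
    have hUu : U ≤ 𝒞₁(u) := fun g hg =>
      mem_centralizer_singleton_iff.2 (mem_centralizer_iff.1 (hUc hg) u hu).symm
    have hUY : U ≤ 𝒩(Y) := le_normalizer_inf hUK (le_normalizer_of_le hUu)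
    have hYc : (Nat.card Y).Coprime 2 := coprime_of_le hKc inf_le_left
    have hXY : ⁅Y, U⁆ ≤ Y := commutator_le_left_of_le_normalizer hUY
    have hQu : Q ≤ 𝒞₁(u) := opOf_le 2 _
    have h1 : ⁅U, Q⁆ ≤ zpowers u := by
      refine commutator_le.2 fun v hv q hq => ?_
      have hqu : q * u = u * q := mem_centralizer_singleton_iff.1 (hQu hq)
      have h3 : q * v * q⁻¹ ∈ U := (mem_normalizer_iff.1 (hQU hq) v).1 hv
      have e : ⁅v, q⁆ = v * (q * v * q⁻¹) := by
        rw [commutatorElement_def, inv_eq_of_mul_eq_one_right (hsq v hv)]; group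
      rw [e]
      by_cases v1 : v = 1
      · simp [v1]
      by_cases vu : v = u
      · rw [vu, hqu, mul_inv_cancel_right, hsq u hu]; exact one_mem _
      rcases four_cases hU4 hu hv h3 u1 v1 (Ne.symm vu) with h | h | h | h
      · rw [mul_inv_eq_one, mul_eq_left] at h; exact absurd h v1
      · exfalso; apply vu
        rw [mul_inv_eq_iff_eq_mul, ← hqu] at h
        exact mul_left_cancel h
      · rw [h, hsq v hv]; exact one_mem _
      · rw [h, ← mul_assoc, mem_centralizer_iff.1 (hUc hu) v hv, mul_assoc, hsq v hv, mul_one]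
        exact mem_zpowers u
    have h3 : ⁅⁅Y, U⁆, Q⁆ ≤ zpowers u := by
      refine three_subgroups_mod (hN ▸ inf_le_right) (hN ▸ hUu) (hN ▸ hQu) ?_ ?_
      · refine (commutator_mono h1 le_rfl).trans (commutator_le_left_of_le_normalizer ?_)
        exact hN ▸ inf_le_right
      · refine (commutator_mono (commutator_le_left_of_le_normalizer ?_) le_rfl).trans ?_
        · exact inf_le_right.trans (self_le_normalizer_opOf 2 _)
        · rw [commutator_comm]; exact h1
    have h4 : ⁅Y, U⁆ ≤ 𝒞(Q) := by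
      refine H1.le_centralizer_of_commutator_le (N := zpowers u) (by rwa [commutator_comm]) ?_ ?_
      · rw [← commutator_eq_bot_iff_le_centralizer, commutator_comm,
          commutator_eq_bot_iff_le_centralizer, centralizer_zpowers]
        exact hXY.trans inf_le_right
      · rw [Nat.card_zpowers, huo]; exact coprime_of_le hYc hXY
    have h5 : ⁅Y, U⁆ = ⊥ := by
      rw [eq_bot_iff, ← opOf_inf_oppOf 2 𝒞₁(u) Y]
      exact le_inf ((le_inf (hXY.trans inf_le_right) h4).trans hch')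
        (hXY.trans (oppOf_eq_self_iff.2 hYc).ge)
    exact commutator_eq_bot_iff_le_centralizer.1 h5
  obtain ⟨a, ha⟩ : ∃ a : U, a ≠ 1 := by
    have : Nontrivial U := Finite.one_lt_card_iff_nontrivial.1 (by rw [hU4.card_four]; norm_num)
    exact exists_ne 1
  obtain ⟨b, hb⟩ : ∃ b : U, b ∉ zpowers a := by
    by_contra h
    push Not at h
    exact IsKleinFour.not_isCyclic (G := U) ⟨⟨a, h⟩⟩
  have a1 : (a : G) ≠ 1 := fun h => ha (Subtype.ext h)
  have b1 : (b : G) ≠ 1 := fun h => hb (by rw [show b = 1 from Subtype.ext h]; exact one_mem _)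
  have ab1 : (a : G) * b ≠ 1 := fun h => hb (by
    have : b = a⁻¹ := Subtype.ext (eq_inv_of_mul_eq_one_right h)
    rw [this]; exact inv_mem (mem_zpowers a))
  rw [← commutator_eq_bot_iff_le_centralizer, commutator_comm,
    commutator_eq_bot_iff_le_centralizer]
  exact le_of_four (hsq _ a.2) (hsq _ b.2) (mem_centralizer_iff.1 (hUc b.2) _ a.2) (hUK a.2)
    (hUK b.2) hKc (key _ a.2 a1) (key _ b.2 b1) (key _ (mul_mem a.2 b.2) ab1)

end Cfsg.Agent.S1957
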