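import Cfsg.Statements.S1958
import Cfsg.Agent.H5.Balance3

set_option autoImplicit false
open Cfsg

namespace Cfsg.Agent.S1958

/-- Let `G` be a finite group, `p` a prime, and `x, y` commuting elements of order `p` whose centralizers `C_G(x)` and `C_G(y)` are both solvable. Then `O_{p'}(C_G(x)) ∩ C_G(y) = O_{p'}(C_G(y)) ∩ C_G(x)` (balance). -/
theorem result {G : Type*} [Group G] [Finite G]
    (p : ℕ) [Fact p.Prime] (x y : G) (hx : orderOf x = p) (hy : orderOf y = p) (hxy : x * y = y * x)
    (hCx : Group.IsSolvable ↥(Subgroup.centralizer ({x} : Set G))) (hCy : Group.IsSolvable ↥(Subgroup.centralizer ({y} : Set G))) :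
    Cfsg.centralizerPPrimeCore p x ⊓ Subgroup.centralizer {y} = Cfsg.centralizerPPrimeCore p y ⊓ Subgroup.centralizer {x} := by
  have key : ∀ x y : G, orderOf x = p → x * y = y * x →
      Group.IsSolvable (Subgroup.centralizer ({y} : Set G)) →
      Cfsg.centralizerPPrimeCore p x ⊓ Subgroup.centralizer {y} ≤ Cfsg.centralizerPPrimeCore p y := by
    intro x y hx hxy hs
    have h1 := H5.oppOf_inf_centralizer_le_of_solvable (H5.isPGroup_zpowers hx)
      ((Subgroup.zpowers_le.2 (Subgroup.mem_centralizer_singleton_iff.2 hxy)).trans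
        Subgroup.le_normalizer) hs
    rw [H5.centralizer_zpowers] at h1
    refine le_trans ?_ ((H5.oppOf_inf_le p inf_le_right).trans h1)
    exact le_inf inf_le_left (le_inf inf_le_right (inf_le_left.trans (H5.oppOf_le p _)))
  exact le_antisymm (le_inf (key x y hx hxy hCy) (inf_le_left.trans (H5.oppOf_le p _)))
    (le_inf (key y x hy hxy.symm hCx) (inf_le_left.trans (H5.oppOf_le p _)))

end Cfsg.Agent.S1958
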