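import Cfsg.Statements.S1961
import Cfsg.Agent.H12.Functor

set_option autoImplicit false
open Cfsg

namespace Cfsg.Agent.S1961

open H12 Subgroup

/-- Local-to-global control of strong fusion through well-placed subgroups. Let p be a prime, G a finite group with Sylow p-subgroup S, and W a conjugacy functor for p on G. If W controls strong fusion in N_G(T) for every nonidentity subgroup T of S that is well placed in S with respect to W, then W controls strong fusion in G. -/
theorem result {G : Type*} [Group G] [Finite G] {p : ℕ} [Fact p.Prime] (S : Sylow p G) (W : Subgroup G → Subgroup G) (hW : Cfsg.IsConjugacyFunctor p W) (hloc : ∀ T : Subgroup G, T ≠ ⊥ → Cfsg.IsWellPlaced p W (S : Subgroup G) T → Cfsg.ControlsStrongFusionIn p W (Subgroup.normalizer ((T : Subgroup G) : Set G))) : Cfsg.ControlsStrongFusionIn p W ⊤ := by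
  have hS := sylIn_top S
  refine controlsFus_iff.2 ⟨S, hS, local_global_fus hS _ (wellPl_family hW hS) _ (fun T hT => ?_)
    (upCond_wellPl hW hS) fun U h1 _ h2 _ _ => ⟨h2, h1⟩⟩
  obtain ⟨T', hT', h⟩ := controlsFus_iff.1 (hloc T hT.1 ((wellPl_top_iff hS.pgrp).1 hT.2))
  have hext := hT.2.ext
  rw [top_inf_eq] at hext ⊢
  exact h.of_sylIn (equivar_image (by rintro _ rfl; exact hW)) hT' hext

end Cfsg.Agent.S1961
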