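import Cfsg.Statements.S1965
import Cfsg.Agent.H12.Functor

set_option autoImplicit false
open Cfsg

namespace Cfsg.Agent.S1965

open H12 Subgroup

/-- Let p be a prime, G a finite group with Sylow p-subgroup S and 𝓕 a set of subgroups of S. Suppose that every subgroup T of S is G-conjugate to some member U of 𝓕 for which N_S(U) is a Sylow p-subgroup of N_G(U). Then 𝓕 is a conjugation family for S in G. -/
theorem result {G : Type*} [Group G] [Finite G] {p : ℕ} [Fact p.Prime] (S : Sylow p G) (𝓕 : Set (Subgroup G)) (h𝓕 : ∀ U ∈ 𝓕, U ≤ (S : Subgroup G)) (h : ∀ T : Subgroup G, T ≤ (S : Subgroup G) → ∃ U ∈ 𝓕, (∃ g : G, T.map (MulAut.conj g).toMonoidHom = U) ∧ ¬ p ∣ ((S : Subgroup G) ⊓ Subgroup.normalizer ((U : Subgroup G) : Set G)).relIndex (Subgroup.normalizer ((U : Subgroup G) : Set G))) : Cfsg.IsConjugationFamily 𝓕 (S : Subgroup G) := by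
  have hS := sylIn_top S
  refine ⟨h𝓕, fun A g _ hA hgA => ?_⟩
  have h𝒢 := fusPred_chain (S : Subgroup G) (M := fun A x => ∃ T ∈ 𝓕, A ≤ T ∧ x ∈ 𝒩 T)
    (by
      rintro A x ⟨T, hT, h1, h2⟩
      exact ⟨T, hT, H7.cj_le_of_mem_normalizer h2 h1, inv_mem h2⟩)
    (by
      rintro A B x hAB ⟨T, hT, h1, h2⟩
      exact ⟨T, hT, hAB.trans h1, h2⟩)
  have := alperin_ind hS (· ∈ 𝓕) (fun T hT => by
    obtain ⟨U, hU, ⟨x, rfl⟩, h2⟩ := h T hT
    exact ⟨x, mem_top x, hU, h𝓕 _ hU, (sylIn_top_inf hS.pgrp).2 h2⟩) h𝒢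
    (fun U hU _ _ _ g _ hg => Chain.single ⟨U, hU, le_rfl, hg⟩) (closure A) ((closure_le _).2 hA)
    g⁻¹ (mem_top _) (cj_closure_le.2 (by simpa using hgA))
  obtain ⟨n, c, h0, hn, hc⟩ := chain_iff_seq.1 this
  choose T hT hAT hx using hc
  refine ⟨n, fun i => T i i.2, fun i => c i * (c (i + 1))⁻¹, ?_, fun i => hT _ _, fun i => ?_,
    fun h => ?_, fun i h => ?_⟩
  · rw [prod_ofFn_tele c h0, hn, inv_inv]
  · simpa using inv_mem (hx i i.2)
  · have := hAT 0 h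
    rw [h0, H7.cj_one, closure_le] at this
    exact this
  · rw [prod_take_ofFn c h0 n _ h.le]
    simpa using cj_closure_le.1 (hAT _ h)

end Cfsg.Agent.S1965
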