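import Cfsg.Statements.S1966
import Cfsg.Agent.H12.Functor

set_option autoImplicit false
open Cfsg

namespace Cfsg.Agent.S1966

open H12 Subgroup

/-- Let p be a prime, G a finite group with Sylow p-subgroup S and 𝓕 a conjugation family for S in G. Then the members of 𝓕 containing O_p(G) still form a conjugation family for S in G. -/
theorem result {G : Type*} [Group G] [Finite G] {p : ℕ} [Fact p.Prime] (S : Sylow p G) (𝓕 : Set (Subgroup G)) (h : Cfsg.IsConjugationFamily 𝓕 (S : Subgroup G)) : Cfsg.IsConjugationFamily {T : Subgroup G | T ∈ 𝓕 ∧ Cfsg.pCore p G ≤ T} (S : Subgroup G) := by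
  refine ⟨fun T hT => h.1 T hT.1, fun A g hA hAS hgA => ?_⟩
  have hQ : ∀ x : G, (pCore p G : Set G) ⊆ (fun a => x⁻¹ * a * x) '' (A ∪ pCore p G) := by
    intro x q hq
    exact ⟨x * q * x⁻¹, Or.inr ((inferInstance : (pCore p G).Normal).conj_mem q hq x), by group⟩
  obtain ⟨n, T, x, h1, h2, h3, h4, h5⟩ := h.2 (A ∪ pCore p G) g (hA.mono Set.subset_union_left)
    (Set.union_subset hAS (H1.pCore_le_sylow S)) (by
      rintro _ ⟨a, ha | ha, rfl⟩
      · exact hgA ⟨a, ha, rfl⟩
      · exact H1.pCore_le_sylow S ((inferInstance : (pCore p G).Normal).conj_mem' a ha g))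
  refine ⟨n, T, x, h1, fun i => ⟨h2 i, ?_⟩, h3, fun h => Set.subset_union_left.trans (h4 h),
    fun i h => (Set.image_mono Set.subset_union_left).trans (h5 i h)⟩
  obtain ⟨i, hi⟩ := i
  cases i with
  | zero => exact Set.subset_union_right.trans (h4 hi)
  | succ i => exact (hQ _).trans (h5 ⟨i, by omega⟩ hi)

end Cfsg.Agent.S1966
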