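import Cfsg.Statements.S1967
import Cfsg.Agent.H12.Functor

set_option autoImplicit false
open Cfsg

namespace Cfsg.Agent.S1967

open H12 Subgroup

/-- Let p be a prime, G a finite group with Sylow p-subgroup S and W a conjugacy functor for p on G. Then W controls strong fusion in G if and only if, whenever T ≤ S and g ∈ G satisfy gTg⁻¹ ≤ S, one can write g = n c with n ∈ N_G(W(S)) and c ∈ C_G(T). -/
theorem result {G : Type*} [Group G] [Finite G] {p : ℕ} [Fact p.Prime] (S : Sylow p G) (W : Subgroup G → Subgroup G) (hW : Cfsg.IsConjugacyFunctor p W) : Cfsg.ControlsStrongFusionIn p W ⊤ ↔ ∀ (T : Subgroup G) (g : G), T ≤ (S : Subgroup G) → T.map (MulAut.conj g).toMonoidHom ≤ (S : Subgroup G) → ∃ n ∈ Subgroup.normalizer ((W (S : Subgroup G) : Subgroup G) : Set G), ∃ c ∈ Subgroup.centralizer (T : Set G), g = n * c := by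
  have hS := sylIn_top S
  have h1 : ControlsStrongFusionIn p W ⊤ ↔ FusCtl (nrm '' {W}) (S : Subgroup G) ⊤ := by
    rw [controlsFus_iff]
    exact ⟨fun ⟨T, hT, h⟩ => h.of_sylIn (equivar_image (by rintro _ rfl; exact hW)) hT hS,
      fun h => ⟨S, hS, h⟩⟩
  rw [h1, Set.image_singleton, fusCtl_singleton_iff]
  constructor
  · intro h T g hT hg
    obtain ⟨x, hx, e⟩ := h T hT g (mem_top g) hg
    refine ⟨x, hx.2, x⁻¹ * g, conj_eq_iff_mem_centralizer.1 fun a ha => (e a ha).symm, by group⟩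
  · intro h T hT g _ hg
    obtain ⟨n, hn, c, hc, rfl⟩ := h T g hT hg
    refine ⟨n, ⟨mem_top _, hn⟩, fun a ha => ?_⟩
    exact (conj_eq_iff_mem_centralizer.2 (by simpa using hc) a ha).symm

end Cfsg.Agent.S1967
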