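import Cfsg.Statements.S1976
import Cfsg.Agent.H12.KInf

set_option autoImplicit false
open Cfsg

namespace Cfsg.Agent.S1976

open H12 Subgroup

/-- Let P be a finite p-group. The K-sequence of P is eventually constant on each parity: from some index on, every even-indexed term equals the lower K-infinity subgroup and every odd-indexed term equals the upper K-infinity subgroup. -/
theorem result {P : Type*} [Group P] [Finite P] {p : ℕ} [Fact p.Prime] (hP : IsPGroup p P) : ∃ n : ℕ, ∀ m : ℕ, n ≤ m → Cfsg.kSeqEven P m = Cfsg.kInfLower P ∧ Cfsg.kSeqOdd P m = Cfsg.kInfUpper P := by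
  simp only [kSeqOdd_eq, kSeqEven_eq, kInfLower_eq, kInfUpper_eq]
  exact k_stable ⊤

end Cfsg.Agent.S1976
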