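import Cfsg.Statements.S1981
import Cfsg.Agent.H12.KInf

set_option autoImplicit false
open Cfsg

namespace Cfsg.Agent.S1981

open H12 Subgroup

/-- Let P be a finite p-group generated by its abelian normal subgroups. Then both K-infinity subgroups of P equal P. -/
theorem result {P : Type*} [Group P] [Finite P] {p : ℕ} [Fact p.Prime] (hP : IsPGroup p P) (hgen : ⨆ A ∈ {A : Subgroup P | A.Normal ∧ IsMulCommutative ↥A}, A = ⊤) : Cfsg.kInfLower P = ⊤ ∧ Cfsg.kInfUpper P = ⊤ := by
  rw [kInfLower_eq, kInfUpper_eq]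
  obtain ⟨n, hn⟩ := k_stable (⊤ : Subgroup P)
  rw [← (hn n le_rfl).1, ← (hn n le_rfl).2, eq_top_iff, eq_top_iff, ← hgen]
  have key : ∀ A : Subgroup P, A.Normal ∧ IsMulCommutative A → A ≤ kE ⊤ n ∧ A ≤ kO ⊤ n := by
    rintro A ⟨h1, h2⟩
    exact abelian_le_k (le_centralizer A) le_top le_normalizer_of_normal n
  rw [hgen]
  constructor
  · conv_lhs => rw [← hgen]
    exact iSup₂_le fun A hA => (key A hA).1
  · conv_lhs => rw [← hgen]
    exact iSup₂_le fun A hA => (key A hA).2

end Cfsg.Agent.S1981
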