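import Cfsg.Statements.S1989
import Cfsg.Agent.H12.QdX

set_option autoImplicit false
universe u
open Cfsg

namespace Cfsg.Agent.S1989

open H12 Subgroup

/-- Let p be an odd prime and G a finite group. Then Qd(p) (the natural semidirect product of an elementary abelian group of order p² by SL₂(p)) is not involved in G if and only if, in every section K/R of G and for every Sylow p-subgroup T of K/R, the lower K-infinity subgroup of T controls strong fusion in K/R. -/
theorem result {G : Type u} [Group G] [Finite G] {p : ℕ} [Fact p.Prime] (hp : p ≠ 2) : ¬ Cfsg.Involves ↥(Cfsg.qd p) G ↔ ∀ (K R : Subgroup G) [hR : (R.subgroupOf K).Normal], ∀ T : Sylow p (↥K ⧸ R.subgroupOf K), Cfsg.ControlsStrongFusion p (Cfsg.inducedFunctor (G := (↥K ⧸ R.subgroupOf K)) Cfsg.kInfLower (T : Subgroup (↥K ⧸ R.subgroupOf K))) := by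
  have hW := isCharPFunctor_kInfLower.{u} (p := p)
  rw [involves_iff]
  refine ⟨fun h K R _ => (fc_single_iff hW).1 (fc_kinf (Or.inl rfl) (fun Y _ hY => ?_) _
    (isSec_section K R)), fun h h1 => ?_⟩
  · have := IsSec.finite hY
    exact stable_of_qdFree hp fun h1 => h (hY.trans h1)
  · obtain ⟨K, R, _, ⟨e⟩⟩ := exists_section_equiv h1
    exact (qdLike_of_equiv (F := ZMod p) e).not_fc (single_char hW) ((fc_single_iff hW).2 (h K R))

end Cfsg.Agent.S1989
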