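import Cfsg.Statements.S1996
import Cfsg.Agent.H12.Red2

set_option autoImplicit false
universe u
open Cfsg

namespace Cfsg.Agent.S1996

open H12 Subgroup

/-- Let p be a prime, G a finite group and W₁, W₂ two isomorphism-invariant p-group functors (W assigns to every group Q a subgroup W(Q), nontrivial whenever Q is a nontrivial finite p-group, and every isomorphism from a finite p-group Q onto a group R carries W(Q) onto W(R)). Suppose that G* = N_{G*}(W₁(S*)) N_{G*}(W₂(S*)) whenever G* = K/R is a section of G with C_{G*}(O_p(G*)) ≤ O_p(G*) and S* is a Sylow p-subgroup of G*. Then the pair {W₁, W₂} controls strong fusion in G. -/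
theorem result {G : Type u} [Group G] [Finite G] {p : ℕ} [Fact p.Prime] (W₁ W₂ : ∀ (Q : Type u) [Group Q], Subgroup Q) (hW₁ : Cfsg.IsCharPFunctor.{u} p W₁) (hW₂ : Cfsg.IsCharPFunctor.{u} p W₂) (hfac : ∀ (K R : Subgroup G) [hR : (R.subgroupOf K).Normal], Subgroup.centralizer ((Cfsg.pCore p (↥K ⧸ R.subgroupOf K) : Subgroup (↥K ⧸ R.subgroupOf K)) : Set (↥K ⧸ R.subgroupOf K)) ≤ Cfsg.pCore p (↥K ⧸ R.subgroupOf K) → ∀ T : Sylow p (↥K ⧸ R.subgroupOf K), ∀ x : (↥K ⧸ R.subgroupOf K), ∃ a ∈ Subgroup.normalizer ((Cfsg.inducedFunctor (G := (↥K ⧸ R.subgroupOf K)) W₁ (T : Subgroup (↥K ⧸ R.subgroupOf K)) : Subgroup (↥K ⧸ R.subgroupOf K)) : Set (↥K ⧸ R.subgroupOf K)), ∃ b ∈ Subgroup.normalizer ((Cfsg.inducedFunctor (G := (↥K ⧸ R.subgroupOf K)) W₂ (T : Subgroup (↥K ⧸ R.subgroupOf K)) : Subgroup (↥K ⧸ R.subgroupOf K)) : Set (↥K ⧸ R.subgroupOf K)), x = a * b) : Cfsg.FamilyControlsStrongFusionIn p {Cfsg.inducedFunctor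 (G := G) W₁, Cfsg.inducedFunctor (G := G) W₂} ⊤ := by
  have h𝓦 : ∀ W ∈ ({W₁, W₂} : Set GF.{u}), Cfsg.IsCharPFunctor.{u} p W := by
    rintro _ (rfl | rfl); exacts [hW₁, hW₂]
  rw [← Set.image_pair (fun W : GF.{u} => Cfsg.inducedFunctor (G := G) W), fc_iff h𝓦]
  refine fc_of_charp h𝓦 (fun K R _ _ hC S hS A hA x _ hxA => ?_) G (isSec_self G)
  obtain ⟨T, rfl⟩ := hS.exists_sylow
  obtain ⟨a, ha, b, hb, rfl⟩ := hfac K R hC T x
  have h1 := le_normalizer_induced hW₁ hS.pgrp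
  have h2 := le_normalizer_induced hW₂ hS.pgrp
  obtain ⟨y, hy, h3⟩ := (hS.of_le (le_inf h1 h2) le_top).exists_cj_le
    (H7.isPGroup_cj (hS.pgrp.to_le hA) b) (le_inf (by
      have := H7.cj_le_of_mem (inv_mem ha) (hxA.trans h1)
      rwa [H7.cj_cj, inv_mul_cancel_left] at this) (H7.cj_le_of_mem hb (hA.trans h2)))
  rw [H7.cj_cj] at h3
  have e : a * y⁻¹ * (y * b) = a * b := by group
  rw [← e] at hxA ⊢
  refine (fusPredC_step _ _ _ _).mul hA h3 hxA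
    (Gen.single (mem_stepSet_LL.2 ⟨W₂, Or.inr rfl, trivial, mul_mem hy.2 hb⟩) hA h3)
    (Gen.single (mem_stepSet_LL.2 ⟨W₁, Or.inl rfl, trivial, Subgroup.mul_mem _ ha (Subgroup.inv_mem _ hy.1)⟩) h3 ?_)
  rwa [H7.cj_cj]

end Cfsg.Agent.S1996
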