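import Cfsg.Statements.S2004
import Cfsg.Agent.H12.QdX

set_option autoImplicit false
open Cfsg

namespace Cfsg.Agent.S2004

open H12 Subgroup

/-- Let p be an odd prime and G a finite group such that SL₂(p) is not involved in N_G(P) for any nonidentity p-subgroup P of G. Then every section of G is p-stable in the normalizer form: in each section, whenever an element of the normalizer of a p-subgroup Q acts quadratically on Q, its image in N(Q)/C(Q) lies in O_p(N(Q)/C(Q)). -/
theorem result {G : Type*} [Group G] [Finite G] {p : ℕ} [Fact p.Prime] (hp : p ≠ 2) (h : ∀ P : Subgroup G, IsPGroup p ↥P → P ≠ ⊥ → ¬ Cfsg.Involves (Matrix.SpecialLinearGroup (Fin 2) (ZMod p)) ↥(Subgroup.normalizer ((P : Subgroup G) : Set G))) : ∀ (K R : Subgroup G) [hR : (R.subgroupOf K).Normal], Cfsg.IsNormalizerPStable p (↥K ⧸ R.subgroupOf K) := by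
  intro K R _
  refine stable_of_qdFree hp fun h1 => ?_
  obtain ⟨P, H, φ, h2, h3, -, h4, h5, -⟩ :=
    exists_sl2_of_qd (p := p) (F := ZMod p) ((isSec_section K R).trans h1)
  exact h P h2 h3 (involves_iff.2 (H4.IsSec.top_subgroup ⟨H, φ, h4, h5⟩))

end Cfsg.Agent.S2004
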