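import Cfsg.Statements.S2009
import Cfsg.Agent.H12.Gold

set_option autoImplicit false
open Cfsg

namespace Cfsg.Agent.S2009

open H12 Subgroup

theorem inv_of_fpf {H : Type*} [Group H] [Finite H] {N : Subgroup H} [N.Normal] {e : H}
    (he : e * e = 1) (h : N ⊓ centralizer {e} = ⊥) {x : H} (hx : x ∈ N) : e * x * e⁻¹ = x⁻¹ := by
  have h1 : MonoidHom.FixedPointFree (MulAut.conjNormal (H := N) e) := fun y hy => by
    have h2 : (y : H) ∈ N ⊓ centralizer {e} :=
      ⟨y.2, mem_centralizer_singleton_iff.2 (mul_inv_eq_iff_eq_mul.1 (congrArg Subtype.val hy)).symm⟩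
    rw [h] at h2
    exact Subtype.ext h2
  have h2 := h1.coe_eq_inv_of_involutive (fun y => by
    rw [← MulAut.mul_apply, ← map_mul, he, map_one, MulAut.one_apply])
  exact congrArg Subtype.val (congrFun h2 ⟨x, hx⟩)

/-- Let H be a finite group and z an involution such that every proper normal subgroup of H meets the centralizer of z trivially, and suppose z lies in a Klein four-subgroup E of H all three of whose involutions are conjugate to z in H. Then H is simple. -/
theorem result {H : Type*} [Group H] [Finite H] (z : H) (hz : orderOf z = 2) (hN : ∀ N : Subgroup H, N.Normal → N ≠ ⊤ → N ⊓ Subgroup.centralizer ({z} : Set H) = ⊥) (E : Subgroup H) (hE : IsKleinFour ↥E) (hzE : z ∈ E) (hc : ∀ e ∈ E, e ≠ 1 → IsConj z e) : IsSimpleGroup H := by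
  have : Nontrivial H := ⟨⟨z, 1, fun h => by simp [h] at hz⟩⟩
  refine ⟨fun N hNn => or_iff_not_imp_right.2 fun hNT => ?_⟩
  have h1 : ∀ e ∈ E, e ≠ 1 → N ⊓ centralizer {e} = ⊥ := by
    intro e he h1
    obtain ⟨g, rfl⟩ := isConj_iff.1 (hc e he h1)
    refine eq_bot_iff.2 fun x hx => ?_
    have h2 : g⁻¹ * x * g ∈ N ⊓ centralizer {z} := by
      refine ⟨by simpa using hNn.conj_mem x hx.1 g⁻¹, mem_centralizer_singleton_iff.2 ?_⟩
      have := mem_centralizer_singleton_iff.1 hx.2
      calc g⁻¹ * x * g * z = g⁻¹ * (x * (g * z * g⁻¹)) * g := by group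
        _ = _ := by rw [this]; group
    rw [hN N hNn hNT, mem_bot] at h2
    rw [mem_bot, ← conj_eq_one_iff (a := g⁻¹), inv_inv, h2]
  have h2 : ∀ e ∈ E, e * e = 1 := fun e he => congrArg Subtype.val (IsKleinFour.mul_self ⟨e, he⟩)
  have hz1 : z ≠ 1 := fun h => by simp [h] at hz
  obtain ⟨e, he, he1, hez⟩ : ∃ e ∈ E, e ≠ 1 ∧ e ≠ z := by
    by_contra hn
    push Not at hn
    have h3 : E ≤ zpowers z := fun e he => by
      by_cases h : e = 1
      · rw [h]; exact one_mem _
      · rw [hn e he h]; exact mem_zpowers z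
    have := card_le_of_le h3
    rw [hE.card_four, Nat.card_zpowers, hz] at this
    omega
  have h3 : e * z ≠ 1 := fun h => hez (mul_right_cancel (h.trans (h2 z hzE).symm))
  rw [eq_bot_iff, ← h1 _ (mul_mem he hzE) h3]
  refine fun x hx => ⟨hx, mem_centralizer_singleton_iff.2 (mul_inv_eq_iff_eq_mul.1 ?_).symm⟩
  have h4 := inv_of_fpf (h2 z hzE) (h1 z hzE hz1) hx
  have h5 := inv_of_fpf (h2 e he) (h1 e he he1) (inv_mem hx)
  calc e * z * x * (e * z)⁻¹ = e * (z * x * z⁻¹) * e⁻¹ := by group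
    _ = x := by rw [h4, h5, inv_inv]

end Cfsg.Agent.S2009
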