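import Cfsg.Statements.S2035
import Cfsg.Agent.H29.M12Cov

set_option autoImplicit false
open Cfsg

namespace Cfsg.Agent.S2035

/-- The Schur multiplier of the Mathieu group M₁₂ (the stabiliser of a dodecad in the automorphism group of the length-24 binary code) is cyclic of order 2; here the Schur multiplier is described through stem extensions, as in the definitions: surjective homomorphisms onto the group from a finite group, whose kernel is central in that finite group and contained in that finite group's commutator subgroup. -/
theorem result : Cfsg.HasCyclicSchurMultiplier ↥Cfsg.Spor.M12 2 := by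
  obtain ⟨y, hy⟩ := H29.valid_M12 (N := (.cons 1 0x410445 (.cons 2 0x202201 (.cons 4 0x1050b (.cons 8 0xe9 (.cons 16 0xa2 (.cons 8 0x20 (.cons 4 0x80000 (.cons 2 0x222210 (.cons 1 0x515014 .nil)))))))))) (c := (nat_lit 0x800000008000020000080000000020040000100000002000000080400000000100000004000400004000000040000010200000000008000800000001000002000200010000001000)) (by decide +kernel) (by decide +kernel)
  obtain ⟨h, hh⟩ := H29.valid_M12 (N := (.cons 1 0x110011 (.cons 2 0x303003 (.cons 4 0x30808 (.cons 8 0xa5 (.cons 16 0xfe (.cons 8 0x6a (.cons 4 0xc0c00 (.cons 2 0x301200 (.cons 1 0x110510 .nil)))))))))) (c := (nat_lit 0x8000000020000400000080000800000040400000000008080000004000010000000002200000800000000004000001100000001000020000000010002000040000000200000100)) (by decide +kernel) (by decide +kernel)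
  obtain ⟨St, k⟩ := H29.s24_key Spor.M12 (nat_lit 0x2) (nat_lit 0x3d) (by decide +kernel)
  have vv : ∀ c ∈ H29.m12s_g, (H29.s24M.sub Spor.M12).In ⊤ c := by
    intro c hc
    rcases List.mem_pair.1 hc with rfl | rfl
    exacts [⟨y, trivial, hy⟩, ⟨h, trivial, hh⟩]
  haveI : IsSimpleGroup Spor.M12 := haveI := H27.simple_H12; H27.m12Equiv.symm.isSimpleGroup
  have hs : ∀ a g, (H29.s24M.sub Spor.M12).R a g → a < 2 ^ (nat_lit 576) := by
    intro a g h
    exact H29.a2_24.model_lt (H29.enumRep 2 _ H27.GE) (H29.enumRep_inj H27.GE) (s := nat_lit 576) (by decide +kernel) a g.1 h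
  refine (H29.m12c_cov _ rfl rfl rfl vv k H29.card_M12 hs
    (H29.perfect_of_simple H29.card_M12 (by norm_num))).cyc.schur H29.card_M12 (ps := [2, 3, 5, 11]) (l := [(2, 1), (3, 0)])
    (by simp; norm_num) (by decide +kernel) ?_
  simpa using H29.m12_sbd

end Cfsg.Agent.S2035
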