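import Cfsg.Statements.S2036
import Cfsg.Agent.H29.M22C3
import Cfsg.Agent.H29.M22C4
import Cfsg.Agent.H29.QM

set_option autoImplicit false
open Cfsg

namespace Cfsg.Agent.S2036

/-- The Schur multiplier of the Mathieu group M₂₂ (the permutations in the automorphism group of the length-24 binary code that fix each of two given points) is cyclic of order 12; here the Schur multiplier is described through stem extensions, as in the definitions: surjective homomorphisms onto the group from a finite group, whose kernel is central in that finite group and contained in that finite group's commutator subgroup. -/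
theorem result : Cfsg.HasCyclicSchurMultiplier ↥Cfsg.Spor.M22 12 := by
  obtain ⟨y, hy⟩ := H29.valid_M22 (N := (.cons 1 0x145040 (.cons 2 0x132032 (.cons 4 0xd0902 (.cons 8 0x31 (.cons 16 0xa5 (.cons 8 0x85 (.cons 4 0xe0400 (.cons 2 0x103100 (.cons 1 0x114510 .nil)))))))))) (c := (nat_lit 0x800000080000000004040000000020010000002000004000000080000008020000200000400000001000008000000200000800000010000100100000000002000400000040000001)) (by decide +kernel) (by decide +kernel) (by decide +kernel)
  obtain ⟨h, hh⟩ := H29.valid_M22 (N := (.cons 1 0x404000 (.cons 2 0x112332 (.cons 4 0xe0e00 (.cons 8 0xf (.cons 16 0x8d (.cons 8 0x89 (.cons 4 0x40600 (.cons 2 0x323200 (.cons 1 0x440140 .nil)))))))))) (c := (nat_lit 0x800000020000000020008000010000200000002000000400000008001000080000000004000800000100040000400000000010000200000080000040000002100000004000000001)) (by decide +kernel) (by decide +kernel) (by decide +kernel)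
  obtain ⟨St, k⟩ := H29.s24_key Spor.M22 (nat_lit 0x2) (nat_lit 0x8b) (by decide +kernel)
  have vv : ∀ c ∈ H29.m22s_g, (H29.s24M.sub Spor.M22).In ⊤ c := by
    intro c hc
    rcases List.mem_pair.1 hc with rfl | rfl
    exacts [⟨y, trivial, hy⟩, ⟨h, trivial, hh⟩]
  haveI : IsSimpleGroup Spor.M22 := haveI := H27.simple_H22; H27.m22Equiv.symm.isSimpleGroup
  have hs : ∀ a g, (H29.s24M.sub Spor.M22).R a g → a < 2 ^ (nat_lit 576) := by
    intro a g h
    exact H29.a2_24.model_lt (H29.enumRep 2 _ H27.GE) (H29.enumRep_inj H27.GE) (s := nat_lit 576) (by decide +kernel) a g.1 h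
  refine ((H29.m22c_cov _ rfl rfl rfl vv k H29.card_M22 hs (H29.perfect_of_simple H29.card_M22 (by norm_num))).cyc.crt
    (H29.m22d_cov _ rfl rfl rfl vv k H29.card_M22 hs) (by norm_num)).schur H29.card_M22 (ps := [2, 3, 5, 7, 11])
    (l := [(2, 2), (3, 1)]) (by simp; norm_num) (by decide +kernel) ?_
  simpa using H29.m22_sbd

end Cfsg.Agent.S2036
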