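import Cfsg.Statements.S2040
import Cfsg.Agent.H29.J2
import Cfsg.Agent.H29.J2S2
import Cfsg.Agent.H29.J2S3
import Cfsg.Agent.H29.J2S5

set_option autoImplicit false
open Cfsg

namespace Cfsg.Agent.S2040

/-- The Schur multiplier of the Hall–Janko group J₂ (the icosian reflection group modulo its centre) is cyclic of order 2; here the Schur multiplier is described through stem extensions, as in the definitions: surjective homomorphisms onto the group from a finite group, whose kernel is central in that finite group and contained in that finite group's commutator subgroup. -/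
theorem result : Cfsg.HasCyclicSchurMultiplier Cfsg.Spor.J2 2 := by
  obtain ⟨q, St, d⟩ := H29.j2_ex
  have := d.simple
  have := Nat.finite_of_card_ne_zero (d.card.trans_ne (by norm_num))
  refine (H29.j2_cov q (H29.perfect_of_simple d.card (by norm_num))).schur d.card
    (ps := [2, 3, 5, 7]) (l := [(2, 1), (3, 0), (5, 0)]) (by simp; norm_num) (by decide +kernel) ?_
  simpa using ⟨H29.j2s2_sbd _ rfl rfl rfl q.valid d.key d.card, H29.j2s3_sbd _ rfl rfl rfl q.valid d.key d.card,
    H29.j2s5_sbd _ rfl rfl rfl q.valid d.key d.card⟩

end Cfsg.Agent.S2040
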