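import Cfsg.Statements.S2043
import Cfsg.Agent.H29.C1S2
import Cfsg.Agent.H29.C1S3
import Cfsg.Agent.H29.C1S5
import Cfsg.Agent.H29.C1S7

set_option autoImplicit false
open Cfsg

namespace Cfsg.Agent.S2043

/-- The Schur multiplier of the Conway group Co₁ (the automorphism group of the rank-24 lattice modulo its centre) is cyclic of order 2; here the Schur multiplier is described through stem extensions, as in the definitions: surjective homomorphisms onto the group from a finite group, whose kernel is central in that finite group and contained in that finite group's commutator subgroup. -/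
theorem result : Cfsg.HasCyclicSchurMultiplier Cfsg.Spor.Co1 2 := by
  obtain ⟨St, k⟩ := H29.c1_key
  haveI : Finite H27.CC := Nat.finite_of_card_ne_zero (by rw [H27.card_CC]; norm_num)
  haveI := H27.simple_Co1
  have hk : (QuotientGroup.mk' (Subgroup.center H27.CC)).ker = Subgroup.zpowers H27.neg1 := by
    rw [QuotientGroup.ker_mk']
    refine le_antisymm (fun g hg => ?_) (Subgroup.zpowers_le.2 H27.neg1_center)
    rcases H27.mem_center_iff.1 hg with rfl | rfl
    exacts [one_mem _, Subgroup.mem_zpowers _]
  have hc : H27.neg1 ∈ _root_.commutator H27.CC := by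
    rcases H27.normal_cases (_root_.commutator H27.CC) with h | h
    · obtain ⟨a, b, hab⟩ := H29.exists_ne_comm_of_simple H27.card_Co1 (by norm_num)
      induction a using QuotientGroup.induction_on with | H a => ?_
      induction b using QuotientGroup.induction_on with | H b => ?_
      refine absurd ?_ hab
      have := (QuotientGroup.eq_one_iff _).2 (H27.mem_center_iff.2 (h _ (Subgroup.commutator_mem_commutator (Subgroup.mem_top a) (Subgroup.mem_top b))))
      exact commutatorElement_eq_one_iff_mul_comm.1 ((map_commutatorElement (QuotientGroup.mk' _) a b).symm.trans this)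
    · exact h ▸ trivial
  refine H29.hasCyclicSchur_of (QuotientGroup.mk'_surjective _) hk H27.neg1_center hc
    (orderOf_eq_prime ((sq _).trans H27.neg1_sq) H27.neg1_ne) H27.card_Co1 (ps := [2, 3, 5, 7, 11, 13, 23])
    (l := [(2, 1), (3, 0), (5, 0), (7, 0)]) (by simp; norm_num) (by decide +kernel) ?_
  simpa using ⟨H29.c1s2_sbd _ rfl rfl rfl H29.c1_valid'.1 k H27.card_Co1, H29.c1s3_sbd _ rfl rfl rfl H29.c1_valid'.1 k H27.card_Co1,
    H29.c1s5_sbd _ rfl rfl rfl H29.c1_valid'.1 k H27.card_Co1, H29.c1s7_sbd _ rfl rfl rfl H29.c1_valid'.1 k H27.card_Co1⟩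

end Cfsg.Agent.S2043
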