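import Cfsg.Statements.S2044
import Cfsg.Agent.H29.C2S2
import Cfsg.Agent.H29.C2S3
import Cfsg.Agent.H29.C2S5

set_option autoImplicit false
open Cfsg

namespace Cfsg.Agent.S2044

/-- The Schur multiplier of the Conway group Co₂ (the stabiliser of a minimal vector of the rank-24 lattice) is trivial; here the Schur multiplier is described through stem extensions, as in the definitions: surjective homomorphisms onto the group from a finite group, whose kernel is central in that finite group and contained in that finite group's commutator subgroup. -/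
theorem result : Cfsg.HasCyclicSchurMultiplier ↥Cfsg.Spor.Co2 1 := by
  obtain ⟨St, k⟩ := H29.c2_key
  haveI : Finite H27.C2 := Nat.finite_of_card_ne_zero (by rw [H27.card_C2]; norm_num)
  refine H8.hasSchur_congr_left (H29.hasSchur_one_of_sbd H27.card_C2 (ps := [2, 3, 5, 7, 11, 23]) (l := [2, 3, 5])
    (by simp; norm_num) (by decide +kernel) ?_) H27.co2Equiv
  simpa using ⟨H29.c2s2_sbd _ rfl rfl rfl H29.c2_valid.1 k H27.card_C2, H29.c2s3_sbd _ rfl rfl rfl H29.c2_valid.1 k H27.card_C2,
    H29.c2s5_sbd _ rfl rfl rfl H29.c2_valid.1 k H27.card_C2⟩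

end Cfsg.Agent.S2044
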