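import Cfsg.Statements.S2045
import Cfsg.Agent.H29.C3S2
import Cfsg.Agent.H29.C3S3
import Cfsg.Agent.H29.C3S5

set_option autoImplicit false
open Cfsg

namespace Cfsg.Agent.S2045

/-- The Schur multiplier of the Conway group Co₃ (the stabiliser of a vector of the second shortest length in the rank-24 lattice) is trivial; here the Schur multiplier is described through stem extensions, as in the definitions: surjective homomorphisms onto the group from a finite group, whose kernel is central in that finite group and contained in that finite group's commutator subgroup. -/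
theorem result : Cfsg.HasCyclicSchurMultiplier ↥Cfsg.Spor.Co3 1 := by
  obtain ⟨St, k⟩ := H29.c3_key
  haveI : Finite H27.C3 := Nat.finite_of_card_ne_zero (by rw [H27.card_C3]; norm_num)
  refine H8.hasSchur_congr_left (H29.hasSchur_one_of_sbd H27.card_C3 (ps := [2, 3, 5, 7, 11, 23]) (l := [2, 3, 5])
    (by simp; norm_num) (by decide +kernel) ?_) H27.co3Equiv
  simpa using ⟨H29.c3s2_sbd _ rfl rfl rfl H29.c3_valid.1 k H27.card_C3, H29.c3s3_sbd _ rfl rfl rfl H29.c3_valid.1 k H27.card_C3,
    H29.c3s5_sbd _ rfl rfl rfl H29.c3_valid.1 k H27.card_C3⟩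

end Cfsg.Agent.S2045
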