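import Cfsg.Statements.S2047
import Cfsg.Agent.H29.McLC
import Cfsg.Agent.H29.CMcS2
import Cfsg.Agent.H29.CMcS3
import Cfsg.Agent.H29.CMcS5

set_option autoImplicit false
open Cfsg

namespace Cfsg.Agent.S2047

/-- The Schur multiplier of the McLaughlin group (as a two-vector stabiliser in the automorphism group of the rank-24 lattice) is cyclic of order 3; here the Schur multiplier is described through stem extensions, as in the definitions: surjective homomorphisms onto the group from a finite group, whose kernel is central in that finite group and contained in that finite group's commutator subgroup. -/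
theorem result : Cfsg.HasCyclicSchurMultiplier ↥Cfsg.Spor.McL 3 := by
  obtain ⟨St, k⟩ := H29.cMc_key
  have : Finite H27.CMc := Nat.finite_of_card_ne_zero (by rw [H27.card_CMc]; norm_num)
  have hs : ∀ a g, H29.cMcM.R a g → a < 2 ^ (nat_lit 576) := H29.a2_24.model_lt _ H29.cMc_inj (by decide +kernel)
  refine H8.hasSchur_congr_left ((H29.mcd_cov _ rfl rfl rfl H29.cMc_valid.1 k H27.card_CMc hs).schur H27.card_CMc
    (ps := [2, 3, 5, 7, 11]) (l := [(2, 0), (3, 1), (5, 0)]) (by simp; norm_num) (by decide +kernel) ?_) H27.mclEquiv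
  simpa using ⟨H29.cMcs2_sbd _ rfl rfl rfl H29.cMc_valid.1 k H27.card_CMc, H29.cMcs3_sbd _ rfl rfl rfl H29.cMc_valid.1 k H27.card_CMc,
    H29.cMcs5_sbd _ rfl rfl rfl H29.cMc_valid.1 k H27.card_CMc⟩

end Cfsg.Agent.S2047
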