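import Cfsg.Statements.S2049
import Cfsg.Agent.H29.HeS2
import Cfsg.Agent.H29.HeS3
import Cfsg.Agent.H29.HeS5
import Cfsg.Agent.H29.HeS7

set_option autoImplicit false
open Cfsg

namespace Cfsg.Agent.S2049

/-- The Schur multiplier of the Held group (the finitely presented group of the definitions) is trivial; here the Schur multiplier is described through stem extensions, as in the definitions: surjective homomorphisms onto the group from a finite group, whose kernel is central in that finite group and contained in that finite group's commutator subgroup. -/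
theorem result : Cfsg.HasCyclicSchurMultiplier Cfsg.Spor.He 1 := by
  obtain ⟨q, -⟩ := H29.he_ex
  obtain ⟨St, k⟩ := H29.he_key q
  refine H29.hasSchur_one_of_sbd H28.he_card (ps := [2, 3, 5, 7, 17]) (l := [2, 3, 5, 7])
    (by simp; norm_num) (by decide +kernel) ?_
  simpa using ⟨H29.hes2_sbd _ rfl rfl rfl q.valid k H28.he_card, H29.hes3_sbd _ rfl rfl rfl q.valid k H28.he_card,
    H29.hes5_sbd _ rfl rfl rfl q.valid k H28.he_card, H29.hes7_sbd _ rfl rfl rfl q.valid k H28.he_card⟩

end Cfsg.Agent.S2049
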