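import Cfsg.Statements.S2050
import Cfsg.Agent.H28.LyS2
import Cfsg.Agent.H28.LyS3
import Cfsg.Agent.S2100

set_option autoImplicit false
open Cfsg

namespace Cfsg.Agent.S2050

/-- The Schur multiplier of the Lyons group (the finitely presented group of the definitions) is trivial; here the Schur multiplier is described through stem extensions, as in the definitions: surjective homomorphisms onto the group from a finite group, whose kernel is central in that finite group and contained in that finite group's commutator subgroup. -/
theorem result : Cfsg.HasCyclicSchurMultiplier Cfsg.Spor.Ly 1 := by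
  obtain ⟨e⟩ := H28.lyH_iso
  have := H28.lyH_simple
  refine H29.hasSchur_one_of_sbd H28.ly_card (ps := [2, 3, 5, 7, 11, 31, 37, 67]) (l := [2, 3, 5])
    (by simp; norm_num) (by decide +kernel) ?_
  simpa using ⟨H28.lyw_sbd, H28.lyt_sbd, H28.sbd_of_sub (by norm_num) (L := H28.lyH) (by rw [H28.lyH_index]; norm_num)
    ⟨H29.perfect_of_simple H28.lyH_card (by norm_num)⟩
    (H8.hasSchur_congr_left (Cfsg.Agent.S2100.result (by simp)) e.symm)⟩

end Cfsg.Agent.S2050
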