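import Cfsg.Statements.S2051
import Cfsg.Agent.H29.Ru6
import Cfsg.Agent.H29.RuS3
import Cfsg.Agent.H29.RuS5

set_option autoImplicit false
open Cfsg

namespace Cfsg.Agent.S2051

/-- The Schur multiplier of the Rudvalis group (the unitary automorphism group of the rank-28 Gaussian lattice modulo its centre) is cyclic of order 2; here the Schur multiplier is described through stem extensions, as in the definitions: surjective homomorphisms onto the group from a finite group, whose kernel is central in that finite group and contained in that finite group's commutator subgroup. -/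
theorem result : Cfsg.HasCyclicSchurMultiplier Cfsg.Spor.Ru 2 := by
  obtain ⟨St, k, -⟩ := H29.ruK_all
  refine H8.hasSchur_congr_left (H29.ruK_cov.schur H29.ruK_card
    (ps := [2, 3, 5, 7, 13, 29]) (l := [(2, 1), (3, 0), (5, 0)]) (by simp; norm_num) (by decide +kernel) ?_) H29.ruEquiv.symm
  simpa using ⟨H29.rus2_sbd _ rfl rfl rfl H29.ruK_valid k H29.ruK_card, H29.rus3_sbd _ rfl rfl rfl H29.ruK_valid k H29.ruK_card,
    H29.rus5_sbd _ rfl rfl rfl H29.ruK_valid k H29.ruK_card⟩

end Cfsg.Agent.S2051
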