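import Cfsg.Statements.S2056
import Cfsg.Agent.H28.HnS
import Cfsg.Agent.H8.Schur2
set_option maxRecDepth 100000
-- import your own Cfsg.Agent.* helpers here

set_option autoImplicit false
open Cfsg

namespace Cfsg.Agent.S2056
open H27 H28


/-- The Schur multiplier of the Harada–Norton group (the finitely presented group of the definitions) is trivial; here the Schur multiplier is described through stem extensions, as in the definitions: surjective homomorphisms onto the group from a finite group, whose kernel is central in that finite group and contained in that finite group's commutator subgroup. -/
theorem result : Cfsg.HasCyclicSchurMultiplier Cfsg.Spor.HN 1 := by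
  exact H8.hasSchur_one_iff.2 fun _ _ _ _ h => hn_schur h

end Cfsg.Agent.S2056
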