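import Cfsg.Statements.S2087
import Cfsg.Agent.S2086
import Cfsg.Agent.S0495
import Cfsg.Agent.H8.Schur2
import Cfsg.Agent.H22.Linear

set_option autoImplicit false
open Cfsg

namespace Cfsg.Agent.S2087

/-- Exceptional Schur multiplier: over the field with 2 elements, PSL₃ has Schur multiplier cyclic of order 2 (here the Schur multiplier is described through stem extensions, as in the definitions). -/
theorem result {F : Type*} [Field F] [Fintype F] (hF : Fintype.card F = 2) : Cfsg.HasCyclicSchurMultiplier (Matrix.ProjectiveSpecialLinearGroup (Fin 3) F) 2 := by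
  have := H22.PSL_fin_isSimpleGroup (F := F) 3 (by norm_num) (by norm_num)
  have hN : Nat.card (Matrix.ProjectiveSpecialLinearGroup (Fin 3) F) = 168 := by
    have h := H22.gcd_mul_card_PSL (F := F) 3 (by norm_num)
    have h2 := H22.card_SL (F := F) 3 (by norm_num)
    rw [hF] at h h2
    have h3 := h2.trans (show _ = 168 by decide +kernel)
    norm_num at h
    omega
  have := Nat.finite_of_card_ne_zero (hN.trans_ne (by norm_num))
  haveI : Fact (Nat.Prime 7) := ⟨by norm_num⟩
  obtain ⟨e⟩ := Cfsg.Agent.S0495.result hN (F := ZMod 7) (by simp)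
  have h := Cfsg.Agent.S2086.result (F := ZMod 7) (q := 7) (by simp) 2 le_rfl (by norm_num) (by simp)
  exact H8.hasSchur_congr_left h e.symm

end Cfsg.Agent.S2087
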