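import Cfsg.Statements.S2088
import Cfsg.Agent.H29.L34C
import Cfsg.Agent.H29.L34S2
import Cfsg.Agent.H29.L34S3

set_option autoImplicit false
open Cfsg

namespace Cfsg.Agent.S2088

/-- Exceptional Schur multiplier: over the field with 4 elements, PSL₃ has Schur multiplier isomorphic to the product of cyclic groups of orders 3, 4 and 4 (order 48, not cyclic; here the Schur multiplier is described through stem extensions, as in the definitions). -/
theorem result {F : Type*} [Field F] [Fintype F] (hF : Fintype.card F = 4) : Cfsg.HasSchurMultiplier (Matrix.ProjectiveSpecialLinearGroup (Fin 3) F) (Multiplicative (ZMod 3 × ZMod 4 × ZMod 4)) := by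
  obtain ⟨q⟩ := H29.l34_ex hF
  obtain ⟨St, k⟩ := H29.l34_key q
  have := H22.PSL_fin_isSimpleGroup (F := F) 3 (by norm_num) (by norm_num)
  have hN : Nat.card (Matrix.ProjectiveSpecialLinearGroup (Fin 3) F) = 20160 := by
    have h := H22.gcd_mul_card_PSL (F := F) 3 (by norm_num)
    have h2 := H22.card_SL (F := F) 3 (by norm_num)
    rw [hF] at h h2
    have h3 := h2.trans (show _ = 181440 by decide +kernel)
    norm_num at h
    omega
  have := Nat.finite_of_card_ne_zero (hN.trans_ne (by norm_num))
  refine (H29.l34c_cov _ rfl rfl rfl q.valid k hN (q.lt (by decide +kernel))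
    (H29.perfect_of_simple hN (by norm_num))).schur hN
    (ps := [2, 3, 5, 7]) (l := [(2, 4), (3, 1)]) (by simp; norm_num) (by decide +kernel) ?_
  simpa using ⟨H29.l34s2_sbd _ rfl rfl rfl q.valid k hN, H29.l34s3_sbd _ rfl rfl rfl q.valid k hN⟩

end Cfsg.Agent.S2088
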