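import Cfsg.Statements.S2089
import Cfsg.Agent.H24.US8

set_option autoImplicit false
set_option maxHeartbeats 400000
open Cfsg

namespace Cfsg.Agent.S2089

/-- Schur multipliers of the unitary groups: for n ≥ 3 and a field F with q² elements, (n, q) ≠ (3, 2), apart from the exceptional pairs (n, q) = (4, 2), (4, 3), (6, 2), the Schur multiplier of PSU_n(q) is cyclic of order gcd(n, q + 1); here the Schur multiplier is described through stem extensions, as in the definitions. -/
theorem result {F : Type*} [Field F] [Fintype F] (n q : ℕ) (hF : Fintype.card F = q ^ 2) (hn : 3 ≤ n) (h3 : ¬ (n = 3 ∧ q = 2)) (hexc : (n, q) ∉ ({(4, 2), (4, 3), (6, 2)} : Set (ℕ × ℕ))) : Cfsg.HasCyclicSchurMultiplier (Cfsg.PSU n F q) (Nat.gcd n (q + 1)) := by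
  obtain ⟨m, rfl⟩ : ∃ m, n = m + 3 := ⟨n - 3, by omega⟩
  let e := (Shrink.ringEquiv.{0} F).symm
  have := Fintype.ofEquiv F e.toEquiv
  have hK : Fintype.card (Shrink.{0} F) = q ^ 2 := (Fintype.card_congr e.toEquiv).symm.trans hF
  have h2 := H23.two_le_of_card_eq_sq hF
  simp only [Set.mem_insert_iff, Set.mem_singleton_iff, Prod.mk.injEq] at hexc
  have hp := H22.commutator_SU_eq_top hF _ hn h3
  refine (H24.spl_of_stem hp fun E _ _ π h => ?_).cyc hp (H24.isCyclic_center_SU hF (by omega))
    (H22.card_center_SU hF _ (by omega))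
  let φ := H22.suCongr e (m + 3) q
  have h1 : (φ.toMonoidHom.comp π).ker = π.ker := Subgroup.ext fun x => φ.map_eq_one_iff
  exact h1 ▸ H24.SUn.ker_bot hK (by omega) (by omega) (by omega) ⟨φ.surjective.comp h.1, h1 ▸ h.2.1, h1 ▸ h.2.2⟩

end Cfsg.Agent.S2089
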