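import Cfsg.Statements.S2093
import Cfsg.Agent.H29.Sp62C
import Cfsg.Agent.H29.Sp62S2
import Cfsg.Agent.H29.Sp62S3
import Cfsg.Agent.S0270

set_option autoImplicit false
open Cfsg

namespace Cfsg.Agent.S2093

/-- Exceptional Schur multiplier: over the field with 2 elements, PSp₆ has Schur multiplier cyclic of order 2 (here the Schur multiplier is described through stem extensions, as in the definitions). -/
theorem result {F : Type*} [Field F] [Fintype F] (hF : Fintype.card F = 2) : Cfsg.HasCyclicSchurMultiplier (Cfsg.PSp 3 F) 2 := by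
  obtain ⟨q⟩ := H29.sp62_ex hF
  obtain ⟨St, k⟩ := H29.sp62_key q
  have := Cfsg.Agent.S0270.result (F := F) 3 (by norm_num) (by norm_num)
  have hN : Nat.card (PSp 3 F) = 1451520 := by
    have h := H22.card_center_mul_card_quotient (Matrix.symplecticGroup (Fin 3) F)
    rw [Cfsg.Agent.S0245.result hF 3, Cfsg.Agent.S0246.result hF 3 (by norm_num)] at h
    exact (one_mul _).symm.trans (h.trans (by decide +kernel))
  have := Nat.finite_of_card_ne_zero (hN.trans_ne (by norm_num))
  refine (H29.sp62c_cov _ rfl rfl rfl q.valid k hN (q.lt (by decide +kernel))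
    (H29.perfect_of_simple hN (by norm_num))).cyc.schur hN
    (ps := [2, 3, 5, 7]) (l := [(2, 1), (3, 0)]) (by simp; norm_num) (by decide +kernel) ?_
  simpa using ⟨H29.sp62s2_sbd _ rfl rfl rfl q.valid k hN, H29.sp62s3_sbd _ rfl rfl rfl q.valid k hN⟩

end Cfsg.Agent.S2093
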