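import Cfsg.Statements.S2094
import Cfsg.Agent.H7.SchC6

set_option autoImplicit false
open Cfsg

namespace Cfsg.Agent.S2094



/-- Schur multipliers of the odd-dimensional orthogonal groups: for m ≥ 3 and a field F of odd order q with (m, q) ≠ (3, 3), the Schur multiplier of PΩ_(2m+1)(F) (for the form x₀² + Σ xᵢyᵢ) is cyclic of order 2 = gcd(2, q − 1); here the Schur multiplier is described through stem extensions, as in the definitions. -/
theorem result {F : Type*} [Field F] [Fintype F] {q : ℕ} (hF : Fintype.card F = q) (hq : Odd q) (m : ℕ) (hm : 3 ≤ m) (hexc : ¬ (m = 3 ∧ q = 3)) : Cfsg.HasCyclicSchurMultiplier (Cfsg.POmega F (Cfsg.quadFormOdd m F)) 2 := by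
  subst hF
  obtain ⟨m, rfl⟩ : ∃ l, m = l + 2 := ⟨m - 2, by omega⟩
  have h3 : 3 ≤ Fintype.card F := by have := Fintype.one_lt_card (α := F); obtain ⟨k, hk⟩ := hq; omega
  obtain ⟨S, hS, -⟩ := H7.exists_stOdd' (F := F) (m := m) (.inl (by omega))
  obtain ⟨e⟩ := H7.ker_B (F := F) (m := m) (hk := .inr (.inl rfl)) (hm := nofun) rfl
  obtain ⟨e'⟩ := H7.mu_equiv (F := F) 2
  rw [show Nat.gcd 2 (Fintype.card F - 1) = 2 from Nat.gcd_eq_left (by obtain ⟨k, hk⟩ := hq; omega)] at e'
  refine H7.schur_cdC S hS (by omega) (fun _ _ _ _ _ c S => ?_) (e.trans e')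
  rcases H24.small_cases h3 with h | h | h
  · exact H7.lifts_B5 c S rfl (by omega) h
  · refine H7.lifts_B3 c S rfl ?_ h.1 h.2
    classical
    have : Fintype.card F ≤ 3 := (Finset.card_le_card (t := {0, 1, -1}) fun t _ => by simpa using h.1 t).trans Finset.card_le_three
    omega
  · have : CharP F 2 := (CharP.charP_iff_prime_eq_zero Nat.prime_two).2 h.1
    exact absurd (FiniteField.even_card_of_char_two (ringChar.eq F 2)) (by obtain ⟨k, hk⟩ := hq; omega)

end Cfsg.Agent.S2094
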