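import Cfsg.Statements.S2095
import Cfsg.Agent.H29.O73C
import Cfsg.Agent.H29.O73S2
import Cfsg.Agent.H29.O73S3
import Cfsg.Agent.S0295

set_option autoImplicit false
open Cfsg

namespace Cfsg.Agent.S2095

/-- Exceptional Schur multiplier: over the field with 3 elements, PΩ₇ (for the form x₀² + Σ xᵢyᵢ) has Schur multiplier cyclic of order 6 (the product of cyclic groups of orders 3 and 2; here the Schur multiplier is described through stem extensions, as in the definitions). -/
theorem result {F : Type*} [Field F] [Fintype F] (hF : Fintype.card F = 3) : Cfsg.HasCyclicSchurMultiplier (Cfsg.POmega F (Cfsg.quadFormOdd 3 F)) 6 := by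
  obtain ⟨q⟩ := H29.o73_ex hF
  obtain ⟨St, k⟩ := H29.o73_key q
  have := Cfsg.Agent.S0295.result (F := F) (by rw [hF]; decide) 3 le_rfl
  have hN := H29.card_o73 hF
  have := Nat.finite_of_card_ne_zero (hN.trans_ne (by norm_num))
  refine ((H29.o73c_cov _ rfl rfl rfl q.valid k hN (q.lt (by decide +kernel))
    (H29.perfect_of_simple hN (by norm_num))).two.congr' (AddEquiv.toMultiplicative
    (ZMod.chineseRemainder (by norm_num : Nat.Coprime 2 3)).symm.toAddEquiv)).schur hN
    (ps := [2, 3, 5, 7, 13]) (l := [(2, 1), (3, 1)]) (by simp; norm_num) (by decide +kernel) ?_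
  simpa using ⟨H29.o73s2_sbd _ rfl rfl rfl q.valid k hN, H29.o73s3_sbd _ rfl rfl rfl q.valid k hN⟩

end Cfsg.Agent.S2095
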