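import Cfsg.Statements.S2096
import Cfsg.Agent.H7.SchC6

set_option autoImplicit false
open Cfsg

namespace Cfsg.Agent.S2096



/-- Schur multipliers of the even-dimensional orthogonal groups of plus type and odd rank: for odd l ≥ 5 and a field F with q elements, the Schur multiplier of PΩ⁺_2l(F) (for the form Σ xᵢyᵢ) is cyclic of order gcd(4, q^l − 1); here the Schur multiplier is described through stem extensions, as in the definitions. -/
theorem result {F : Type*} [Field F] [Fintype F] {q : ℕ} (hF : Fintype.card F = q) (l : ℕ) (hl : 5 ≤ l) (hodd : Odd l) : Cfsg.HasCyclicSchurMultiplier (Cfsg.POmega F (Cfsg.quadFormPlus l F)) (Nat.gcd 4 (q ^ l - 1)) := by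
  subst hF
  obtain ⟨m, rfl⟩ : ∃ m, l = m + 2 := ⟨l - 2, by omega⟩
  obtain ⟨S, hS, -⟩ := H7.exists_stPlus (F := F) (m := m) (by omega)
  obtain ⟨e⟩ := H7.ker_D1 (F := F) (hk := .inl rfl) (hm := fun _ => (by omega : 1 ≤ m)) rfl (by simpa [Nat.odd_add] using hodd)
  obtain ⟨e'⟩ := H7.mu_equiv (F := F) 4
  rw [H7.gcd_pow_odd Fintype.card_pos hodd]
  exact H7.schur_cdC S hS (by omega) (fun _ _ _ _ _ c S => H7.lifts_D c S rfl (by omega)) (e.trans e')

end Cfsg.Agent.S2096
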