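import Cfsg.Statements.S2097
import Cfsg.Agent.H7.SchC6
import Cfsg.Agent.S1082

set_option autoImplicit false
open Cfsg

namespace Cfsg.Agent.S2097



/-- Schur multipliers of the even-dimensional orthogonal groups of plus type and even rank: for even l ≥ 4 and a field F with q elements, (l, q) ≠ (4, 2), the Schur multiplier of PΩ⁺_2l(F) (for the form Σ xᵢyᵢ) is the product of two cyclic groups of order gcd(2, q^l − 1) (so trivial for q even and a four-group for q odd; here the Schur multiplier is described through stem extensions, as in the definitions). -/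
theorem result {F : Type*} [Field F] [Fintype F] {q : ℕ} (hF : Fintype.card F = q) (l : ℕ) (hl : 4 ≤ l) (heven : Even l) (hexc : ¬ (l = 4 ∧ q = 2)) : Cfsg.HasSchurMultiplier (Cfsg.POmega F (Cfsg.quadFormPlus l F)) (Multiplicative (ZMod (Nat.gcd 2 (q ^ l - 1)) × ZMod (Nat.gcd 2 (q ^ l - 1)))) := by
  subst hF
  obtain ⟨e'⟩ := H7.mu_equiv (F := F) 2
  rw [H7.gcd_pow_two Fintype.card_pos (by omega)]
  have e2 := (e'.prodCongr e').trans (MulEquiv.prodMultiplicative _ _).symm
  obtain rfl | h := hl.eq_or_lt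
  · have h3 : 3 ≤ Fintype.card F := by have := Fintype.one_lt_card (α := F); omega
    obtain ⟨ρ⟩ := S1082.result (F := F)
    obtain ⟨e⟩ := (H24.thetaD4 F).1
    exact H7.schur_tab H24.tabD4_chk (H24.scD4 F) (H24.tabD4_chk.perf H24.perfD4 _)
      (fun _ _ _ => H24.liftsD4 (H24.small_cases h3) _) ρ (e.trans ((MulEquiv.mk (finTwoArrowEquiv _) fun _ _ => rfl).trans e2))
  obtain ⟨m, rfl⟩ : ∃ m, l = m + 2 := ⟨l - 2, by omega⟩
  obtain ⟨S, hS, -⟩ := H7.exists_stPlus (F := F) (m := m) (by omega)
  obtain ⟨e⟩ := H7.ker_D2 (F := F) (hk := .inl rfl) (hm := fun _ => (by omega : 1 ≤ m)) rfl (by simpa [Nat.even_add] using heven)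
  exact H7.schur_cdC S hS (by omega) (fun _ _ _ _ _ c S => H7.lifts_D c S rfl (by omega)) (e.trans e2)

end Cfsg.Agent.S2097
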