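import Cfsg.Statements.S2098
import Cfsg.Agent.H29.O8p2C
import Cfsg.Agent.H29.O8p2S2
import Cfsg.Agent.H29.O8p2S3
import Cfsg.Agent.H29.O8p2S5
import Cfsg.Agent.S0296

set_option autoImplicit false
open Cfsg

namespace Cfsg.Agent.S2098

/-- Exceptional Schur multiplier: over the field with 2 elements, PΩ⁺₈ (for the form Σ xᵢyᵢ) has Schur multiplier a four-group, the product of two cyclic groups of order 2 (here the Schur multiplier is described through stem extensions, as in the definitions). -/
theorem result {F : Type*} [Field F] [Fintype F] (hF : Fintype.card F = 2) : Cfsg.HasSchurMultiplier (Cfsg.POmega F (Cfsg.quadFormPlus 4 F)) (Multiplicative (ZMod 2 × ZMod 2)) := by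
  obtain ⟨q⟩ := H29.o8p2_ex hF
  obtain ⟨St, k⟩ := H29.o8p2_key q
  have := Cfsg.Agent.S0296.result (F := F) 4 le_rfl
  have hN := H29.card_o8p2 hF
  have := Nat.finite_of_card_ne_zero (hN.trans_ne (by norm_num))
  refine (H29.o8p2c_cov _ rfl rfl rfl q.valid k hN (q.lt (by decide +kernel))
    (H29.perfect_of_simple hN (by norm_num))).two.schur hN
    (ps := [2, 3, 5, 7]) (l := [(2, 2), (3, 0), (5, 0)]) (by simp; norm_num) (by decide +kernel) ?_
  simpa using ⟨H29.o8p2s2_sbd _ rfl rfl rfl q.valid k hN, H29.o8p2s3_sbd _ rfl rfl rfl q.valid k hN,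
    H29.o8p2s5_sbd _ rfl rfl rfl q.valid k hN⟩

end Cfsg.Agent.S2098
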