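import Cfsg.Statements.S2099
import Cfsg.Agent.H24.DM4

set_option autoImplicit false
set_option maxHeartbeats 400000
open Cfsg

namespace Cfsg.Agent.S2099

/-- Schur multipliers of the even-dimensional orthogonal groups of minus type: for l ≥ 4 and a field F with q elements, the Schur multiplier of PΩ⁻_2l(F) (for the form Σ_{i<l−1} xᵢyᵢ + z₁² + a z₁z₂ + b z₂² with the binary part anisotropic) is cyclic of order gcd(4, q^l + 1); here the Schur multiplier is described through stem extensions, as in the definitions. -/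
theorem result {F : Type*} [Field F] [Fintype F] {q : ℕ} (hF : Fintype.card F = q) (l : ℕ) (hl : 4 ≤ l) (a b : F) (hab : ∀ z₁ z₂ : F, z₁ ^ 2 + a * z₁ * z₂ + b * z₂ ^ 2 = 0 → z₁ = 0 ∧ z₂ = 0) : Cfsg.HasCyclicSchurMultiplier (Cfsg.POmega F (Cfsg.quadFormMinus (l - 1) F a b)) (Nat.gcd 4 (q ^ l + 1)) := by
  obtain ⟨m, rfl⟩ : ∃ m, l = m + 2 := ⟨l - 2, by omega⟩
  let e := (Shrink.ringEquiv.{0} F).symm
  have := Fintype.ofEquiv F e.toEquiv
  obtain ⟨K, _, _, _, hK, hm, ⟨φ⟩⟩ := H24.exists_minus_equiv (m := m) (Shrink.{0} F) (by omega) (a := e a) (b := e b)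
    fun x y h => by
      obtain ⟨x, rfl⟩ := e.surjective x
      obtain ⟨y, rfl⟩ := e.surjective y
      simpa using hab x y (e.injective (by simpa using h))
  rw [← hF, Fintype.card_congr e.toEquiv]
  exact H8.hasSchur_congr_left (H24.DM.schur hK (by omega) hm (H23.conj_conj hK)
    (not_forall.1 fun h => H23.conj_ne_id hK (RingHom.ext h)) (fun _ => rfl) φ)
    (H22.pOmegaCongr e (H22.quadFormMinus_comp e _ a b)).symm

end Cfsg.Agent.S2099
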