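import Cfsg.Statements.S2101
import Cfsg.Agent.H29.G23C
import Cfsg.Agent.H29.G23S2
import Cfsg.Agent.H29.G23S3
import Cfsg.Agent.S1055

set_option autoImplicit false
open Cfsg

namespace Cfsg.Agent.S2101

/-- Exceptional Schur multiplier: over the field with 3 elements the Chevalley group of type G₂ has Schur multiplier cyclic of order 3 (here the Schur multiplier is described through stem extensions, as in the definitions). -/
theorem result {F : Type*} [Field F] [Fintype F] (hF : Fintype.card F = 3) : Cfsg.HasCyclicSchurMultiplier ↥(Cfsg.Lie.chevG2.group F) 3 := by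
  obtain ⟨q⟩ := H29.g23_ex hF
  obtain ⟨St, k⟩ := H29.g23_key q
  have h3 : (3 : F) = 0 := H29.cast_eq_zero_of_card (p := 3) (k := 1) hF
  have := (Cfsg.Agent.S1055.result (F := F) ⟨-1, by simp, fun h => one_ne_zero (α := F) (by linear_combination h + h3)⟩).1
  have hN := (Cfsg.Agent.S1059.result hF).trans (show _ = 4245696 by norm_num)
  have := Nat.finite_of_card_ne_zero (hN.trans_ne (by norm_num))
  refine (H29.g23c_cov _ rfl rfl rfl q.valid k hN (q.lt (by decide +kernel))
    (H29.perfect_of_simple hN (by norm_num))).cyc.schur hN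
    (ps := [2, 3, 7, 13]) (l := [(2, 0), (3, 1)]) (by simp; norm_num) (by decide +kernel) ?_
  simpa using ⟨H29.g23s2_sbd _ rfl rfl rfl q.valid k hN, H29.g23s3_sbd _ rfl rfl rfl q.valid k hN⟩

end Cfsg.Agent.S2101
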