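import Cfsg.Statements.S2102
import Cfsg.Agent.H29.G24C
import Cfsg.Agent.H29.G24S2
import Cfsg.Agent.H29.G24S3
import Cfsg.Agent.H29.G24S5
import Cfsg.Agent.S1055

set_option autoImplicit false
open Cfsg

namespace Cfsg.Agent.S2102

/-- Exceptional Schur multiplier: over the field with 4 elements the Chevalley group of type G₂ has Schur multiplier cyclic of order 2 (here the Schur multiplier is described through stem extensions, as in the definitions). -/
theorem result {F : Type*} [Field F] [Fintype F] (hF : Fintype.card F = 4) : Cfsg.HasCyclicSchurMultiplier ↥(Cfsg.Lie.chevG2.group F) 2 := by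
  obtain ⟨q⟩ := H29.g24_ex hF
  obtain ⟨St, k⟩ := H29.g24_key q
  obtain ⟨g, g1, g2⟩ := H29.exists_root_of_card (n := 3) hF
  have := (Cfsg.Agent.S1055.result (F := F) ⟨g, by rintro rfl; simp at g1, pow_one g ▸ g2 1 one_pos (by norm_num)⟩).1
  have hN := (Cfsg.Agent.S1059.result hF).trans (show _ = 251596800 by norm_num)
  have := Nat.finite_of_card_ne_zero (hN.trans_ne (by norm_num))
  refine (H29.g24c_cov _ rfl rfl rfl q.valid k hN (q.lt (by decide +kernel))
    (H29.perfect_of_simple hN (by norm_num))).cyc.schur hN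
    (ps := [2, 3, 5, 7, 13]) (l := [(2, 1), (3, 0), (5, 0)]) (by simp; norm_num) (by decide +kernel) ?_
  simpa using ⟨H29.g24s2_sbd _ rfl rfl rfl q.valid k hN, H29.g24s3_sbd _ rfl rfl rfl q.valid k hN,
    H29.g24s5_sbd _ rfl rfl rfl q.valid k hN⟩

end Cfsg.Agent.S2102
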