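import Cfsg.Statements.S2103
import Cfsg.Agent.H24.Lift3

set_option autoImplicit false
set_option maxHeartbeats 400000
open Cfsg

namespace Cfsg.Agent.S2103

/-- Schur multipliers of the Chevalley groups of type F₄: over a finite field with more than 2 elements the Schur multiplier of F₄(q) is trivial (here the Schur multiplier is described through stem extensions, as in the definitions); q = 2 is exceptional. -/
theorem result {F : Type*} [Field F] [Fintype F] (hF : 3 ≤ Fintype.card F) : Cfsg.HasCyclicSchurMultiplier ↥(Cfsg.Lie.chevF4.group F) 1 := by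
  exact H24.tabF4_chk.hasSchur _ (H24.tabF4_chk.grp_Gr F) (H24.tabF4_chk.perf H24.perfF4 _)
    (fun _ _ _ => H24.liftsF4 (H24.small_cases hF) _) (Or.inl rfl)
    ((H24.tabF4_chk.card_ker_grp (H24.scF4 F)).trans (H24.cardThetaF4 F))

end Cfsg.Agent.S2103
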