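import Cfsg.Statements.S2104
import Cfsg.Agent.H7.F4c
import Cfsg.Agent.H24.MS4

set_option autoImplicit false
open Cfsg

namespace Cfsg.Agent.S2104



/-- Exceptional Schur multiplier: over the field with 2 elements the Chevalley group of type F₄ has Schur multiplier cyclic of order 2 (here the Schur multiplier is described through stem extensions, as in the definitions). -/
theorem result {F : Type*} [Field F] [Fintype F] (hF : Fintype.card F = 2) : Cfsg.HasCyclicSchurMultiplier ↥(Cfsg.Lie.chevF4.group F) 2 := by
  classical
  have h2 : H7.F42.Two F := fun t => by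
    have := FiniteField.pow_card t
    rw [hF] at this
    have : t * (t - 1) = 0 := by linear_combination this
    simpa only [mul_eq_zero, sub_eq_zero] using this
  obtain ⟨Γ, _, _, σ, h⟩ := H7.F42.exists_cover h2
  exact H24.hasSchur_of (Or.inr Nat.prime_two) ⟨Γ, _, ‹_›, σ, Or.inl h⟩ fun _ _ _ _ hσ => H7.F42.bound h2 hσ

end Cfsg.Agent.S2104
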