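import Cfsg.Statements.S2105
import Cfsg.Agent.H24.Lift3

set_option autoImplicit false
set_option maxHeartbeats 400000
open Cfsg

namespace Cfsg.Agent.S2105

/-- Schur multipliers of the (adjoint, simple) Chevalley groups of type E₆: over a field with q elements the Schur multiplier is cyclic of order gcd(3, q − 1) (here the Schur multiplier is described through stem extensions, as in the definitions). -/
theorem result {F : Type*} [Field F] [Fintype F] {q : ℕ} (hF : Fintype.card F = q) : Cfsg.HasCyclicSchurMultiplier ↥(Cfsg.Lie.chevE6.group F) (Nat.gcd 3 (q - 1)) := by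
  subst hF
  exact H24.tabE6_chk.hasSchur _ (H24.tabE6_chk.grp_Gr F) (H24.tabE6_chk.perf H24.perfE6 _)
    (fun _ _ _ => H24.liftsE6 _) (((Nat.dvd_prime Nat.prime_three).1 (Nat.gcd_dvd_left _ _)).imp_right
      fun h => by rw [h]; exact Nat.prime_three) ((H24.tabE6_chk.card_ker_grp (H24.scE6 F)).trans (H24.cardThetaE6 F))

end Cfsg.Agent.S2105
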