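import Cfsg.Statements.S2107
import Cfsg.Agent.H24.Lift3

set_option autoImplicit false
set_option maxHeartbeats 400000
open Cfsg

namespace Cfsg.Agent.S2107

/-- Schur multipliers of the Chevalley groups of type E₈: over every finite field the Schur multiplier of E₈(q) is trivial (here the Schur multiplier is described through stem extensions, as in the definitions). -/
theorem result {F : Type*} [Field F] [Fintype F] : Cfsg.HasCyclicSchurMultiplier ↥(Cfsg.Lie.chevE8.group F) 1 := by
  exact H24.tabE8_chk.hasSchur _ (H24.tabE8_chk.grp_Gr F) (H24.tabE8_chk.perf H24.perfE8 _)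
    (fun _ _ _ => H24.liftsE8 _) (Or.inl rfl)
    ((H24.tabE8_chk.card_ker_grp (H24.scE8 F)).trans (H24.cardThetaE8 F))

end Cfsg.Agent.S2107
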