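import Cfsg.Statements.S2112
import Cfsg.Agent.H29.Sz8C
import Cfsg.Agent.H29.Sz8S2
import Cfsg.Agent.S1162

set_option autoImplicit false
open Cfsg

namespace Cfsg.Agent.S2112

/-- Exceptional Schur multiplier: the Suzuki group Sz(8), built over the field with 8 elements using the map x ↦ x⁴, has Schur multiplier a four-group, the product of two cyclic groups of order 2 (here the Schur multiplier is described through stem extensions, as in the definitions). -/
theorem result {F : Type*} [Field F] [Fintype F] (hF : Fintype.card F = 8) : Cfsg.HasSchurMultiplier ↥(Cfsg.Lie.Sz F 4) (Multiplicative (ZMod 2 × ZMod 2)) := by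
  obtain ⟨q⟩ := H29.sz8_ex hF
  obtain ⟨St, k⟩ := H29.sz8_key q
  have : IsSimpleGroup (Cfsg.Lie.Sz F 4) := Cfsg.Agent.S1162.result (F := F) (m := 1) le_rfl hF
  have hN := H29.sz8_card hF
  have := Nat.finite_of_card_ne_zero (hN.trans_ne (by norm_num))
  refine (H29.sz8c_cov _ rfl rfl rfl q.valid k hN (q.lt (by decide +kernel))
    (H29.perfect_of_simple hN (by norm_num))).two.schur hN
    (ps := [2, 5, 7, 13]) (l := [(2, 2)]) (by simp; norm_num) (by decide +kernel) ?_
  simpa using H29.sz8s2_sbd _ rfl rfl rfl q.valid k hN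

end Cfsg.Agent.S2112
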