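import Cfsg.Statements.S2113
import Cfsg.Agent.H24.Ree6
import Cfsg.Agent.H24.ReeF
import Cfsg.Agent.S0102

set_option autoImplicit false
set_option maxHeartbeats 400000
open Cfsg

namespace Cfsg.Agent.S2113

/-- Schur multipliers of the small Ree groups: for q = 3^(2m+1) with m ≥ 1 the Schur multiplier of ²G₂(q) is trivial (here the Schur multiplier is described through stem extensions, as in the definitions). -/
theorem result {K : Type*} [Field K] [Fintype K] {m : ℕ} (hm : 1 ≤ m) (hK : Fintype.card K = 3 ^ (2 * m + 1)) : Cfsg.HasCyclicSchurMultiplier ↥(Cfsg.Lie.twistedG2 K (3 ^ m)) 1 := by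
  obtain ⟨_, R, F⟩ := H24.G2.exists_full hK
  obtain ⟨y, hy⟩ := H24.exists_cube_ne (K := K) (hK ▸ Nat.pow_lt_pow_right (a := 3) (m := 1) (by decide) (by omega))
  refine ⟨⟨_, inferInstance, inferInstance, MonoidHom.id _, ⟨Function.surjective_id, by simp, by simp⟩, ?_⟩, ?_⟩
  · rw [MonoidHom.ker_id]
    exact ⟨MulEquiv.ofUnique⟩
  · rintro Γ _ _ σ ⟨h1, h2, h3⟩
    have hΓ : commutator Γ = ⊤ := by
      have h4 : (commutator Γ).map σ = ⊤ := by
        rw [map_commutator_eq, MonoidHom.range_eq_top.2 h1, ← commutator_def, R.perfect hy]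
      rw [← Subgroup.comap_map_eq_self h3, h4, Subgroup.comap_top]
    have h5 : Nat.card σ.ker = 1 := by
      by_contra h
      obtain ⟨p, hp, hd⟩ := Nat.exists_prime_and_dvd h
      have : Fact p.Prime := ⟨hp⟩
      obtain ⟨z, hz⟩ := exists_prime_orderOf_dvd_card' p hd
      rw [← Subgroup.orderOf_coe] at hz
      let E : H24.CExt σ := ⟨_, Function.surjInv_eq h1, h2⟩
      by_cases h2' : p = 2
      · exact R.not_two_dvd E F.N hK z.2 (h3 z.2) (by rw [hz, h2'])
      by_cases h3' : p = 3
      · exact R.not_three_dvd E hy F.N hK z.2 (h3 z.2) (by rw [hz, h3'])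
      exact Cfsg.Agent.S0102.result (R.perfect hy)
        (fun P => F.isCyclic_p hp (by have := hp.two_le; omega) P.isPGroup') σ h1 h2 hΓ hd
    have := (Nat.card_eq_one_iff_unique.1 h5).1
    exact ⟨1, fun x => ⟨1, Subsingleton.elim _ _⟩⟩

end Cfsg.Agent.S2113
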