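import Cfsg.Statements.S2115
import Cfsg.Agent.H29.Tits
import Cfsg.Agent.H29.TitsS2
import Cfsg.Agent.H29.TitsS3
import Cfsg.Agent.H29.TitsS5

set_option autoImplicit false
open Cfsg

namespace Cfsg.Agent.S2115

/-- The Tits group, the commutator subgroup of ²F₄(2), has trivial Schur multiplier (here the Schur multiplier is described through stem extensions, as in the definitions). -/
theorem result : Cfsg.HasCyclicSchurMultiplier Cfsg.Lie.TitsGroup 1 := by
  obtain ⟨M, St, h1, h2, h3, hv, k, -, -, -, -, hN, -⟩ := H29.tits_model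
  have := Nat.finite_of_card_ne_zero (hN.trans_ne (by norm_num))
  refine H29.hasSchur_one_of_sbd hN (ps := [2, 3, 5, 13]) (l := [2, 3, 5]) (by simp; norm_num) (by decide +kernel) ?_
  simpa using ⟨H29.tts2_sbd M h1 h2 h3 hv k hN, H29.tts3_sbd M h1 h2 h3 hv k hN, H29.tts5_sbd M h1 h2 h3 hv k hN⟩

end Cfsg.Agent.S2115
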