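import Cfsg.Statements.S2125
import Cfsg.Agent.H24.Aut3

set_option autoImplicit false
set_option maxHeartbeats 400000
open Cfsg

namespace Cfsg.Agent.S2125

/-- Outer automorphisms of the Chevalley groups of type E₈: over a field with p^f elements, p prime, the outer automorphism group of E₈(p^f) has order f (field automorphisms only). -/
theorem result {F : Type*} [Field F] [Fintype F] (p f : ℕ) [Fact p.Prime] [CharP F p] (hF : Fintype.card F = p ^ f) : Nat.card (Cfsg.Out ↥(Cfsg.Lie.chevE8.group F)) = f := by
  rw [H24.tabE8_chk.card_out H24.bondE8 H24.connE8 ⟨0, by decide⟩, H24.cardThetaE8, (H24.ringAut_facts F p).2 f hF,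
    H24.card_Γ_one F (H24.shapeE8 F), one_mul, mul_one]

end Cfsg.Agent.S2125
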