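import Cfsg.Statements.S2128
import Cfsg.Agent.H24.OT3

set_option autoImplicit false
set_option maxHeartbeats 400000
open Cfsg

namespace Cfsg.Agent.S2128

/-- Outer automorphisms of the large Ree groups: for q = 2^(2m+1) with m ≥ 1 the outer automorphism group of ²F₄(q) has order 2m + 1 (field automorphisms only). -/
theorem result {K : Type*} [Field K] [Fintype K] {m : ℕ} (hm : 1 ≤ m) (hK : Fintype.card K = 2 ^ (2 * m + 1)) : Nat.card (Cfsg.Out ↥(Cfsg.Lie.twistedF4 K (2 ^ m))) = 2 * m + 1 := by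
  obtain ⟨h2, g, h1, h3⟩ := H24.F4.exists_f hK
  have : CharP K 2 := (CharP.charP_iff_prime_eq_zero Nat.prime_two).2 h2
  refine (H24.card_out_congr (H24.F4.pack h2 g h1 h3).e').trans ?_
  exact (H24.F4.card_out h2 g h1 (Nat.pow_lt_pow_right (a := 2) (m := 1) (by decide) (by omega)) hK h3).trans
    ((one_mul _).trans ((H24.ringAut_facts K 2).2 _ hK))

end Cfsg.Agent.S2128
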