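import Cfsg.Statements.S2136
import Cfsg.Agent.H29.C2z
import Cfsg.Agent.S0270

set_option autoImplicit false
open Cfsg

namespace Cfsg.Agent.S2136

/-- The Conway group Co₂ (the stabiliser of a minimal vector of the rank-24 lattice) has an involution whose centraliser C has largest normal 2-subgroup extraspecial of order 2^9 with quotient C / O₂(C) isomorphic to the symplectic group Sp(6, 2) (shape 2^{1+8}Sp(6, 2)). -/
theorem result : ∃ t : ↥Cfsg.Spor.Co2, orderOf t = 2 ∧ Cfsg.IsExtraspecial 2 (Cfsg.pCore 2 ↥(Subgroup.centralizer ({t} : Set ↥Cfsg.Spor.Co2))) ∧ Nat.card (Cfsg.pCore 2 ↥(Subgroup.centralizer ({t} : Set ↥Cfsg.Spor.Co2))) = 2 ^ 9 ∧ Nonempty (↥(Subgroup.centralizer ({t} : Set ↥Cfsg.Spor.Co2)) ⧸ Cfsg.pCore 2 ↥(Subgroup.centralizer ({t} : Set ↥Cfsg.Spor.Co2)) ≃* Matrix.symplecticGroup (Fin 3) (ZMod 2)) := by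
  obtain ⟨St, k⟩ := H29.c2_key
  have hN := (Nat.card_congr H27.co2Equiv.symm.toEquiv).trans H27.card_C2
  have := Nat.finite_of_card_ne_zero (hN.trans_ne (by norm_num))
  obtain ⟨fm⟩ := H29.exists_fm1 (ZMod.card 2)
  have hA := (Cfsg.Agent.S0245.result (ZMod.card 2) 3).trans (show _ = 1451520 by decide +kernel)
  have := Nat.finite_of_card_ne_zero (hA.trans_ne (by norm_num))
  obtain ⟨z, h1, φ, h2, h3, h4⟩ := H29.c2z_cent (H29.c2M.comap H27.co2Equiv.symm.toMonoidHom H27.co2Equiv.symm.injective) rfl rfl rfl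
    (fun c hc => let ⟨g, _, r⟩ := H29.c2_valid.1 c hc
      ⟨H27.co2Equiv g, trivial, H29.c2M.R_congr r (H27.co2Equiv.symm_apply_apply g).symm⟩)
    (k.comap _ _) hN (fun _ _ _ a b => a.trans b.symm)
    (fun c g => H29.a2_24.model_lt _ H29.c2_inj (by decide +kernel) c _)
    (H29.FM.in_Sp (fm := fm) (a := H29.a2_6) (n := 6) (L := H29.sp62_g) (e := (finSumFinEquiv (m := 3) (n := 3)).symm)
      (cJ := fun x y => if x = y + 3 ∨ y = x + 3 then 1 else 0) (by decide +kernel) (by decide +kernel)) hA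
  have := Cfsg.Agent.S0270.result (F := ZMod 2) 3 (by norm_num) (by norm_num)
  have := H29.simple_of_center (Cfsg.Agent.S0246.result (ZMod.card 2) 3 (by norm_num))
  have e := H29.pCore_eq_ker h2 (IsPGroup.of_card (p := 2) (n := 9) h3)
    (H29.bot_of_simple Nat.prime_two Nat.prime_three (by norm_num) hA (by norm_num))
  exact ⟨z, h1, e ▸ h4, e ▸ h3, ⟨(QuotientGroup.quotientMulEquivOfEq e).trans
    (QuotientGroup.quotientKerEquivOfSurjective φ h2)⟩⟩

end Cfsg.Agent.S2136
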