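import Cfsg.Statements.S2149
import Cfsg.Agent.H18.Su5
import Cfsg.Agent.H9.Le3

set_option autoImplicit false
open Cfsg

namespace Cfsg.Agent.S2149

theorem aux {G X : Type*} [Group G] [Group X] (C M U : Subgroup G) (hC : Nat.card C = 44352000)
    (hM : Nat.card M = 443520) (hMC : M ≤ C) (hUC : U ≤ C) (e : U ≃* X) (hX : Nat.card X = 126000)
    (h : ∀ H : Subgroup X, H ≠ ⊤ → H.index ≤ 125 → H.index = 125 ∨ H.index = 50) :
    ∃ H : Subgroup X, H.index = 50 := by
  have h1 := (M.subgroupOf C).card_mul_index
  rw [Nat.card_congr (Subgroup.subgroupOfEquivOfLe hMC).toEquiv, hC, hM] at h1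
  have h2 : M.relIndex C = 100 := by unfold Subgroup.relIndex; omega
  have h3 := Subgroup.relIndex_le_of_le_right (H := M) hUC (by omega)
  have h4 : ((M.subgroupOf U).map e.toMonoidHom).index = M.relIndex U :=
    Subgroup.index_map_of_bijective e.bijective _
  refine ⟨_, (h ((M.subgroupOf U).map e.toMonoidHom) ?_ (by omega)).resolve_left (by omega)⟩
  intro ht
  rw [ht, Subgroup.index_top, eq_comm, Subgroup.relIndex_eq_one] at h4
  have := Subgroup.card_dvd_of_le h4
  rw [Nat.card_congr e.toEquiv, hX, hM] at this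
  norm_num at this

/-- Minimal index of a proper subgroup of PSU₃(5), realised over the field with 25 elements: every proper subgroup has index at least 50, and that index is attained. -/
theorem result {F : Type*} [Field F] [Fintype F] (hF : Fintype.card F = 25) : (∀ H : Subgroup (Cfsg.PSU 3 F 5), H ≠ ⊤ → 50 ≤ H.index) ∧ (∃ H : Subgroup (Cfsg.PSU 3 F 5), H.index = 50) := by
  have key : ∀ H : Subgroup (PSU 3 F 5), H ≠ ⊤ → H.index ≤ 125 → H.index = 125 ∨ H.index = 50 :=
    fun H hH hi => (H18.Su.main_PSU (q := 5) hF (by norm_num) H hH hi).2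
  refine ⟨fun H hH => ?_, ?_⟩
  · by_contra h
    have := key H hH (by omega)
    omega
  · obtain ⟨e⟩ := H9.hs_u35 hF
    have c := H22.card_SU (q := 5) hF 3 (by norm_num)
    rw [Subgroup.card_eq_card_quotient_mul_card_subgroup (Subgroup.center _),
      H22.card_center_SU (q := 5) hF 3 (by norm_num)] at c
    norm_num [Finset.prod_range_succ] at c
    exact aux _ _ _ H27.card_CHS H27.card_CHS_inf inf_le_left inf_le_left e
      (by change Nat.card (_ ⧸ _) = _; omega) key

end Cfsg.Agent.S2149
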