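import Cfsg.Statements.S2150
import Cfsg.Agent.H22.MdL
import Cfsg.Agent.S0303

set_option autoImplicit false
open Cfsg

namespace Cfsg.Agent.S2150

/-- Minimal index of a proper subgroup of the four-dimensional unitary groups: for a field F with q² elements, every proper subgroup of PSU₄(q) has index at least (q + 1)(q³ + 1), and that index is attained. -/
theorem result {F : Type*} [Field F] [Fintype F] (q : ℕ) (hF : Fintype.card F = q ^ 2) (hq : 2 ≤ q) : (∀ H : Subgroup (Cfsg.PSU 4 F q), H ≠ ⊤ → (q + 1) * (q ^ 3 + 1) ≤ H.index) ∧ (∃ H : Subgroup (Cfsg.PSU 4 F q), H.index = (q + 1) * (q ^ 3 + 1)) := by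
  obtain ⟨K, _, _, hK⟩ := H22.exists_field_sqrt hF
  obtain ⟨a, b, hab⟩ := H22.exists_aniso_pair K
  obtain ⟨e⟩ := Cfsg.Agent.S0303.result hK hF a b hab
  have h := (H22.minIdx_minus 2 le_rfl hab).congr e.symm
  rw [hK, show (q ^ (2 + 1) + 1) * (q ^ 2 - 1) / (q - 1) = (q + 1) * (q ^ 3 + 1) by
    obtain ⟨r, rfl⟩ : ∃ r, q = r + 1 := ⟨q - 1, by omega⟩
    rw [show (r + 1) ^ 2 - 1 = (r + 2) * r from Nat.sub_eq_of_eq_add (by ring), ← mul_assoc,
      Nat.add_sub_cancel, Nat.mul_div_cancel _ (by omega)]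
    ring] at h
  exact h

end Cfsg.Agent.S2150
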