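import Cfsg.Statements.S2154
import Cfsg.Agent.H20.BT
-- import your own Cfsg.Agent.* helpers here

set_option autoImplicit false
open Cfsg

namespace Cfsg.Agent.S2154

/-- The Borel–Tits property of the finite Chevalley groups of types G₂, B₂, D₄, F₄, E₆, E₇, E₈ over a finite field of characteristic p: for every non-trivial p-subgroup U of the group G there are an element g of G and a proper set J of fundamental roots such that the normaliser of U in G lies in the conjugate by g of the standard parabolic subgroup P_J and U lies in the conjugate by g of its unipotent radical U_J. -/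
theorem result {F : Type*} [Field F] [Fintype F] (p : ℕ) [Fact p.Prime] [CharP F p] (D : Cfsg.Lie.ChevalleyDatum) (hD : D ∈ [Cfsg.Lie.chevG2, Cfsg.Lie.chevB2, Cfsg.Lie.chevD4, Cfsg.Lie.chevF4, Cfsg.Lie.chevE6, Cfsg.Lie.chevE7, Cfsg.Lie.chevE8]) (U : Subgroup (GL D.Idx F)) (hUG : U ≤ D.group F) (hU : IsPGroup p ↥U) (hne : U ≠ ⊥) : ∃ g ∈ D.group F, ∃ J : Set ℕ, (∃ i, i < D.rank ∧ i ∉ J) ∧ Subgroup.normalizer (U : Set (GL D.Idx F)) ⊓ D.group F ≤ (D.parabolicSubgroup F J).map (MulAut.conj g).toMonoidHom ∧ U ≤ (D.unipotentRadical F J).map (MulAut.conj g).toMonoidHom := by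
  -----
  obtain ⟨T, h⟩ := H24.exists_tab hD
  obtain ⟨g, J, ⟨i, hi⟩, h1, h2⟩ := H20.BT.borel_tits (h.grp F) (h.grp_Gr F) p
    (D := U.subgroupOf (D.group F)) (hU.comap_of_injective _ (D.group F).subtype_injective)
    (fun h => hne (by rwa [Subgroup.subgroupOf_eq_bot, disjoint_iff, inf_eq_left.2 hUG] at h))
  have e : {i : Fin D.rank | (i : ℕ) ∈ Fin.val '' J} = J := by
    ext i; simp [Fin.val_inj]
  refine ⟨g, g.2, Fin.val '' J, ⟨i, i.2, fun h => hi (e ▸ h)⟩, fun x ⟨hx, hx'⟩ => ?_, fun x hx => ?_⟩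
  · rw [h.grp_PJ, e]
    refine ⟨_, ⟨_, h1 ⟨x, hx'⟩ fun y => ?_, rfl⟩, by simp [mul_assoc]⟩
    exact Subgroup.mem_normalizer_iff.1 hx y
  · rw [h.unipotentRadical_eq, e, H24.St0.UJ, ← H24.St0.map_XS _ (h.grp_x F)]
    exact ⟨_, ⟨_, h2 ⟨x, hUG hx⟩ hx, rfl⟩, by simp [mul_assoc]⟩

end Cfsg.Agent.S2154
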