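import Cfsg.Statements.S2155
import Cfsg.Agent.H24.Misc
import Cfsg.Agent.H5.Fstar

set_option autoImplicit false
set_option maxHeartbeats 400000
open Cfsg

namespace Cfsg.Agent.S2155

theorem aux {ι Φ : Type} [Fintype ι] [DecidableEq ι] [Fintype Φ] [DecidableEq Φ] {R : H24.CD ι Φ} {F : Type*}
    [Field F] [Fintype F] {G : Type*} [Group G] (S : H24.St R F G) (p : ℕ) [Fact p.Prime] [CharP F p] (ha : S.Adj)
    (hc : ∃ r, ∀ i, R.rt r i ≠ 0) {J : Set ι} {i0 : ι} (h0 : i0 ∉ J) [Finite (S.PJ J)] :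
    IsPGroup p (generalizedFittingSubgroup (S.PJ J)) := by
  have hU : S.UJ J ≤ S.PJ J := (S.UJ_le_U J).trans (S.U_le_B.trans (S.B_le_PJ J))
  have hn : ((S.UJ J).subgroupOf (S.PJ J)).Normal := (Subgroup.normal_subgroupOf_iff_le_normalizer hU).2
    (S.PJ_le_normalizer J)
  have hp : IsPGroup p (S.U.subgroupOf (S.PJ J)) := (S.isPGroup_U p).comap_subtype
  rw [(H5.fstar_eq_pCore_iff_centralizer (p := p)).2 ?_]
  · exact H1.isPGroup_pCore p
  refine H1.le_pCore (hp.to_le fun g hg => S.mem_U_of_cent ha hc h0 g.2 fun u hu => ?_)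
  exact congrArg Subtype.val (hg ⟨u, hU hu⟩ (H1.le_pCore (hN := hn) (hp.to_le (Subgroup.comap_mono (S.UJ_le_U J))) hu)).symm

/-- In a Chevalley group of type G₂, B₂, D₄, F₄, E₆, E₇ or E₈ over a finite field of characteristic p (for types G₂ and B₂ the field is assumed to have at least 3 elements, so that the group is simple), the generalized Fitting subgroup of every proper standard parabolic subgroup P_J is a p-group (P_J is p-constrained with trivial largest normal subgroup of order prime to p). -/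
theorem result {F : Type*} [Field F] [Fintype F] (p : ℕ) [Fact p.Prime] [CharP F p] (D : Cfsg.Lie.ChevalleyDatum) (hD : D ∈ [Cfsg.Lie.chevG2, Cfsg.Lie.chevB2, Cfsg.Lie.chevD4, Cfsg.Lie.chevF4, Cfsg.Lie.chevE6, Cfsg.Lie.chevE7, Cfsg.Lie.chevE8]) (hq : (D = Cfsg.Lie.chevG2 ∨ D = Cfsg.Lie.chevB2) → 3 ≤ Fintype.card F) (J : Set ℕ) (hJ : ∃ i, i < D.rank ∧ i ∉ J) : IsPGroup p ↥(Cfsg.generalizedFittingSubgroup ↥(D.parabolicSubgroup F J)) := by
  obtain ⟨i, hi, hi'⟩ := hJ
  have key : ∀ {T : H24.Tab} (h : T.Chk D), T.chkConn = true →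
      IsPGroup p ↥(Cfsg.generalizedFittingSubgroup ↥(D.parabolicSubgroup F J)) := fun h hc => by
    have := h.finite_grp F
    rw [h.parabolicSubgroup_eq]
    exact aux (h.st F) p (h.adj F) (h.conn hc) (i0 := ⟨i, hi⟩) hi'
  simp only [List.mem_cons, List.not_mem_nil, or_false] at hD
  rcases hD with rfl | rfl | rfl | rfl | rfl | rfl | rfl
  exacts [key H24.tabG2_chk H24.connG2, key H24.tabB2_chk H24.connB2, key H24.tabD4_chk H24.connD4,
    key H24.tabF4_chk H24.connF4, key H24.tabE6_chk H24.connE6, key H24.tabE7_chk H24.connE7,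
    key H24.tabE8_chk H24.connE8]

end Cfsg.Agent.S2155
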