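import Cfsg.Statements.S2158
import Cfsg.Agent.H24.Chr

set_option autoImplicit false
open Cfsg

namespace Cfsg.Agent.S2158

/-- In a Chevalley group of type G₂, B₂, D₄, F₄, E₆, E₇ or E₈ over any field, an element of the group whose matrix is the diagonal matrix `ĥ(χ)` of a character `χ` of the root lattice already lies in the diagonal subgroup H (the non-trivial inclusion of the statement that the group meets the group of all such diagonal matrices in H). -/
theorem result {F : Type*} [Field F] (D : Cfsg.Lie.ChevalleyDatum) (hD : D ∈ [Cfsg.Lie.chevG2, Cfsg.Lie.chevB2, Cfsg.Lie.chevD4, Cfsg.Lie.chevF4, Cfsg.Lie.chevE6, Cfsg.Lie.chevE7, Cfsg.Lie.chevE8]) (χ : ℕ → Fˣ) (hχ : D.IsRootCharacter χ) (g : GL D.Idx F) (hg : g ∈ D.group F)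
    (hgχ : (g : Matrix D.Idx D.Idx F) = D.charDiag F χ) : g ∈ D.diagonalSubgroup F := by
  obtain ⟨T, h⟩ := H24.exists_tab hD
  rw [h.charDiag_eq (h.chi_of_char hχ)] at hgχ
  rw [h.grp_H]
  refine ⟨⟨g, hg⟩, (h.grp F).mem_H_of_rep_one' (h.grp_Gr F) ⟨one_mem _,
    fun r => H24.RS.chi (fun i : Fin D.rank => χ (D.simple i)) (h.cd.rt r), fun r => ?_, fun r t => ?_⟩, rfl⟩
  · simp only
    rw [H24.RS.rt_neg, H24.RS.chi_neg]
  · obtain rfl := Units.ext hgχ
    exact Subtype.ext (h.dg_acts _ r t)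

end Cfsg.Agent.S2158
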