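import Cfsg.Statements.S2159
import Cfsg.Agent.H24.Aut3

set_option autoImplicit false
set_option maxHeartbeats 400000
open Cfsg

namespace Cfsg.Agent.S2159

/-- Structure of the outer automorphism group of the Chevalley group `G` of type G₂, B₂, D₄, F₄, E₆, E₇ or E₈ over a finite field. Let `D̄` be the image in `Out(G)` of the subgroup generated by the diagonal automorphisms and `F̄` the image of the subgroup generated by the field automorphisms. Then `D̄` is a normal abelian subgroup of `Out(G)`, `F̄` is cyclic, `D̄F̄` is a normal subgroup, and the quotient of `Out(G)` by `D̄F̄` is trivial, of order 2, or non-abelian of order 6 (so isomorphic to the symmetric group on three letters): its index is 1 or 2, or it is 6 with the commutator subgroup of `Out(G)` not inside `D̄F̄`. -/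
theorem result {F : Type*} [Field F] [Finite F] (D : Cfsg.Lie.ChevalleyDatum) (hD : D ∈ [Cfsg.Lie.chevG2, Cfsg.Lie.chevB2, Cfsg.Lie.chevD4, Cfsg.Lie.chevF4, Cfsg.Lie.chevE6, Cfsg.Lie.chevE7, Cfsg.Lie.chevE8])
    (Dbar Fbar : Subgroup (Cfsg.Out ↥(D.group F)))
    (hDbar : Dbar = (Subgroup.closure {φ : MulAut ↥(D.group F) | D.IsDiagonalAut φ}).map (QuotientGroup.mk' (Cfsg.Inn ↥(D.group F))))
    (hFbar : Fbar = (Subgroup.closure {φ : MulAut ↥(D.group F) | D.IsFieldAut φ}).map (QuotientGroup.mk' (Cfsg.Inn ↥(D.group F)))) :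
    Dbar.Normal ∧ IsMulCommutative ↥Dbar ∧ IsCyclic ↥Fbar ∧ (Dbar ⊔ Fbar).Normal ∧
      ((Dbar ⊔ Fbar).index = 1 ∨ (Dbar ⊔ Fbar).index = 2 ∨
        ((Dbar ⊔ Fbar).index = 6 ∧ ¬ commutator (Cfsg.Out ↥(D.group F)) ≤ Dbar ⊔ Fbar)) := by
  have key : ∀ {T : H24.Tab} (h : T.Chk D), T.chkBond = true → T.chkConn = true → 0 < D.rank →
      (Nat.card (h.Γ F) = 1 ∨ Nat.card (h.Γ F) = 2 ∨ Nat.card (h.Γ F) = 6 ∧ ∃ a ∈ h.Γ F, ∃ b ∈ h.Γ F, ¬ Commute a b) →
      Dbar.Normal ∧ IsMulCommutative ↥Dbar ∧ IsCyclic ↥Fbar ∧ (Dbar ⊔ Fbar).Normal ∧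
      ((Dbar ⊔ Fbar).index = 1 ∨ (Dbar ⊔ Fbar).index = 2 ∨
        ((Dbar ⊔ Fbar).index = 6 ∧ ¬ commutator (Cfsg.Out ↥(D.group F)) ≤ Dbar ⊔ Fbar)) := fun h h1 h2 h3 H => by
    obtain ⟨a, b, c, d, e, f⟩ := h.out_structure h1 h2 ⟨0, h3⟩ hDbar hFbar
    refine ⟨a, b, c, d, e ▸ H.imp_right fun H => H.imp_right fun ⟨H, x, hx, y, hy, hn⟩ => ⟨H, fun hc => hn (f hc x hx y hy)⟩⟩
  simp only [List.mem_cons, List.not_mem_nil, or_false] at hD
  rcases hD with rfl | rfl | rfl | rfl | rfl | rfl | rfl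
  · exact key H24.tabG2_chk H24.bondG2 H24.connG2 (by decide) (by rw [H24.ΓG2]; split_ifs <;> simp)
  · exact key H24.tabB2_chk H24.bondB2 H24.connB2 (by decide) (by rw [H24.ΓB2]; split_ifs <;> simp)
  · exact key H24.tabD4_chk H24.bondD4 H24.connD4 (by decide)
      (Or.inr (Or.inr ⟨(H24.ΓD4 F).1, _, (H24.ΓD4 F).2.1, _, (H24.ΓD4 F).2.2, by unfold Commute SemiconjBy; decide⟩))
  · exact key H24.tabF4_chk H24.bondF4 H24.connF4 (by decide) (by rw [H24.ΓF4]; split_ifs <;> simp)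
  · exact key H24.tabE6_chk H24.bondE6 H24.connE6 (by decide) (Or.inr (Or.inl (H24.ΓE6 F)))
  · exact key H24.tabE7_chk H24.bondE7 H24.connE7 (by decide) (Or.inl (H24.card_Γ_one F (H24.shapeE7 F)))
  · exact key H24.tabE8_chk H24.bondE8 H24.connE8 (by decide) (Or.inl (H24.card_Γ_one F (H24.shapeE8 F)))

end Cfsg.Agent.S2159
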