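import Cfsg.Statements.S2161
import Cfsg.Agent.H24.Chr

set_option autoImplicit false
set_option maxHeartbeats 400000
open Cfsg

namespace Cfsg.Agent.S2161

/-- For the Chevalley groups of types D₄ and E₆ (one root length) over any field: if `π` is a symmetry of the Dynkin diagram and `φ` is an automorphism sending `x_{p_i}(t)` to `x_{p_{π i}}(t)` and `x_{-p_i}(t)` to `x_{-p_{π i}}(t)` for every fundamental root `p_i`, then for every root `r` there is a sign `ε = ±1` with `φ(x_r(t)) = x_{π·r}(ε t)` for all `t`, where `π·r` is the root whose coefficients are those of `r` permuted by `π`. -/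
theorem result {F : Type*} [Field F] (D : Cfsg.Lie.ChevalleyDatum) (hD : D ∈ [Cfsg.Lie.chevD4, Cfsg.Lie.chevE6])
    (π : Equiv.Perm (Fin D.rank)) (hπ : D.IsDiagramSymmetry π) (φ : ↥(D.group F) ≃* ↥(D.group F))
    (hφ : ∀ (g : ↥(D.group F)) (i : Fin D.rank) (t : F),
      (((g : GL D.Idx F) : Matrix D.Idx D.Idx F) = D.x F (D.simple i) t →
        ((φ g : GL D.Idx F) : Matrix D.Idx D.Idx F) = D.x F (D.simple (π i)) t) ∧
      (((g : GL D.Idx F) : Matrix D.Idx D.Idx F) = D.x F (D.neg (D.simple i)) t →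
        ((φ g : GL D.Idx F) : Matrix D.Idx D.Idx F) = D.x F (D.neg (D.simple (π i))) t))
    (r : ℕ) (hr : r < D.nroots) :
    ∃ ε : F, (ε = 1 ∨ ε = -1) ∧ ∀ (g : ↥(D.group F)) (t : F),
      ((g : GL D.Idx F) : Matrix D.Idx D.Idx F) = D.x F r t →
        ((φ g : GL D.Idx F) : Matrix D.Idx D.Idx F) = D.x F (D.permRoot π r) (ε * t) := by
  obtain ⟨T, h, hs⟩ : ∃ (T : H24.Tab) (h : T.Chk D), ∀ i j : Fin D.rank, i ≠ j → h.cd.C i j = - D.bonds i j := by
    simp only [List.mem_cons, List.not_mem_nil, or_false] at hD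
    rcases hD with rfl | rfl
    · exact ⟨_, H24.tabD4_chk, by decide +kernel⟩
    · exact ⟨_, H24.tabE6_chk, by decide +kernel⟩
  have hC : ∀ i j, h.cd.C (π i) (π j) = h.cd.C i j := fun i j => by
    by_cases e : i = j
    · rw [e, H24.RS.C_self, H24.RS.C_self]
    · rw [hs _ _ e, hs _ _ (π.injective.ne e), hπ i j e]
  obtain ⟨s, h1, ε, h2⟩ := (h.grp F).exists_sign (θ := φ.toMonoidHom) hC ((h.simple_iff φ π fun _ t => t).1 hφ) ⟨r, hr⟩
  have h3 : ∀ u : Fin D.nroots, ((List.finRange D.rank).all fun i =>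
      (D.coroot.getD u #[]).getD (π i).val 0 == (D.coroot.getD r #[]).getD i.val 0) = true ↔ u = s := fun u => by
    simp only [List.all_eq_true, List.mem_finRange, true_imp_iff, beq_iff_eq, ← h.co_eq' u]
    refine ⟨fun H => H24.RS.co_inj (R := h.rsys) (funext fun j => ?_), fun e i => ?_⟩
    · obtain ⟨i, rfl⟩ := π.surjective j
      exact ((H i).trans (h.co_eq' ⟨r, hr⟩ i).symm).trans (h1 i).symm
    · rw [e]; exact (h1 i).trans (h.co_eq' ⟨r, hr⟩ i)
  have h4 : D.permRoot π r = s := by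
    rw [Cfsg.Lie.ChevalleyDatum.permRoot]
    cases e : (List.range D.nroots).find? fun s => (List.finRange D.rank).all fun i =>
      (D.coroot.getD s #[]).getD (π i).val 0 == (D.coroot.getD r #[]).getD i.val 0 with
    | none => exact absurd ((h3 s).2 rfl) (List.find?_eq_none.1 e s (List.mem_range.2 s.2))
    | some u =>
      exact congrArg Fin.val ((h3 ⟨u, List.mem_range.1 (List.mem_of_find?_eq_some e)⟩).1 (List.find?_some e :))
  refine ⟨(ε : ℤ), ?_, fun g t e => ?_⟩
  · rcases Int.units_eq_one_or ε with rfl | rfl <;> simp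
  · rw [h.eq_grp_x hr e, h4, ← h.coe_grp_x, ← h2]; rfl

end Cfsg.Agent.S2161
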