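import Cfsg.Statements.S2299
import Cfsg.Agent.H4.SL2Half

set_option autoImplicit false
open Cfsg

namespace Cfsg.Agent.S2299

/-- Over a finite field F with q elements, q odd, every irreducible complex character of SL₂ has degree 1, q, q + 1, q − 1, (q + 1)/2 or (q − 1)/2; and when q ≥ 5 (so that these six numbers are distinct) there are exactly one irreducible character of degree 1, one of degree q, (q − 3)/2 of degree q + 1, (q − 1)/2 of degree q − 1, two of degree (q + 1)/2 and two of degree (q − 1)/2. -/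
theorem result {F : Type*} [Field F] [Fintype F] (hodd : Odd (Fintype.card F)) :
    (∀ χ : Matrix.SpecialLinearGroup (Fin 2) F → ℂ, Cfsg.IsIrrCharacter (Matrix.SpecialLinearGroup (Fin 2) F) χ →
      χ 1 = 1 ∨ χ 1 = (Fintype.card F : ℂ) ∨ χ 1 = (Fintype.card F : ℂ) + 1 ∨ χ 1 = (Fintype.card F : ℂ) - 1 ∨
        χ 1 = (((Fintype.card F + 1) / 2 : ℕ) : ℂ) ∨ χ 1 = (((Fintype.card F - 1) / 2 : ℕ) : ℂ)) ∧
    (5 ≤ Fintype.card F →
      Nat.card {χ : Cfsg.IrrCharacter (Matrix.SpecialLinearGroup (Fin 2) F) // (χ : Matrix.SpecialLinearGroup (Fin 2) F → ℂ) 1 = 1} = 1 ∧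
      Nat.card {χ : Cfsg.IrrCharacter (Matrix.SpecialLinearGroup (Fin 2) F) // (χ : Matrix.SpecialLinearGroup (Fin 2) F → ℂ) 1 = (Fintype.card F : ℂ)} = 1 ∧
      Nat.card {χ : Cfsg.IrrCharacter (Matrix.SpecialLinearGroup (Fin 2) F) // (χ : Matrix.SpecialLinearGroup (Fin 2) F → ℂ) 1 = (Fintype.card F : ℂ) + 1} = (Fintype.card F - 3) / 2 ∧
      Nat.card {χ : Cfsg.IrrCharacter (Matrix.SpecialLinearGroup (Fin 2) F) // (χ : Matrix.SpecialLinearGroup (Fin 2) F → ℂ) 1 = (Fintype.card F : ℂ) - 1} = (Fintype.card F - 1) / 2 ∧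
      Nat.card {χ : Cfsg.IrrCharacter (Matrix.SpecialLinearGroup (Fin 2) F) // (χ : Matrix.SpecialLinearGroup (Fin 2) F → ℂ) 1 = (((Fintype.card F + 1) / 2 : ℕ) : ℂ)} = 2 ∧
      Nat.card {χ : Cfsg.IrrCharacter (Matrix.SpecialLinearGroup (Fin 2) F) // (χ : Matrix.SpecialLinearGroup (Fin 2) F → ℂ) 1 = (((Fintype.card F - 1) / 2 : ℕ) : ℂ)} = 2) := by
  classical
  refine ⟨fun χ hχ => ?_, fun hq => ⟨H4.sl_card_deg_one (by omega), H4.sl_card_deg_card, ?_, ?_,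
    H4.sl_card_deg_hadd (by omega) hodd, H4.sl_card_deg_hsub (by omega) hodd⟩⟩
  · obtain ⟨e, he⟩ := H4.exists_ell_sl (F := F)
    rcases H4.sl_irr_cases he hχ with rfl | rfl | ⟨α, -, rfl⟩ | ⟨θ, -, rfl⟩ | ⟨α, ψ, h1, h2, h⟩ |
      ⟨θ, ψ, h1, h2, h⟩
    · exact Or.inl rfl
    · exact Or.inr (Or.inl H4.sSt_one)
    · exact Or.inr (Or.inr (Or.inl (H4.sW_one _)))
    · exact Or.inr (Or.inr (Or.inr (Or.inl (H4.sX_one he _))))
    · exact Or.inr (Or.inr (Or.inr (Or.inr (Or.inl (h.one_sW h1 h2)))))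
    · exact Or.inr (Or.inr (Or.inr (Or.inr (Or.inr (h.one_sX he h1 h2)))))
  · rw [H4.sl_card_deg_add, Nat.gcd_eq_right (Nat.Odd.sub_odd hodd odd_one).two_dvd]; rfl
  · rw [H4.sl_card_deg_sub (by omega), Nat.gcd_eq_right hodd.add_one.two_dvd]; rfl

end Cfsg.Agent.S2299
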