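import Cfsg.Statements.S2300
import Cfsg.Agent.H4.SL2Half

set_option autoImplicit false
open Cfsg

namespace Cfsg.Agent.S2300

/-- Over a finite field F with q elements, q even, every irreducible complex character of SL₂ has degree 1, q − 1, q or q + 1; and when q ≥ 4 (so that these four numbers are distinct) there are exactly one irreducible character of degree 1, one of degree q, (q − 2)/2 of degree q + 1 and q/2 of degree q − 1. -/
theorem result {F : Type*} [Field F] [Fintype F] [CharP F 2] :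
    (∀ χ : Matrix.SpecialLinearGroup (Fin 2) F → ℂ, Cfsg.IsIrrCharacter (Matrix.SpecialLinearGroup (Fin 2) F) χ →
      χ 1 = 1 ∨ χ 1 = (Fintype.card F : ℂ) - 1 ∨ χ 1 = (Fintype.card F : ℂ) ∨ χ 1 = (Fintype.card F : ℂ) + 1) ∧
    (4 ≤ Fintype.card F →
      Nat.card {χ : Cfsg.IrrCharacter (Matrix.SpecialLinearGroup (Fin 2) F) // (χ : Matrix.SpecialLinearGroup (Fin 2) F → ℂ) 1 = 1} = 1 ∧
      Nat.card {χ : Cfsg.IrrCharacter (Matrix.SpecialLinearGroup (Fin 2) F) // (χ : Matrix.SpecialLinearGroup (Fin 2) F → ℂ) 1 = (Fintype.card F : ℂ)} = 1 ∧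
      Nat.card {χ : Cfsg.IrrCharacter (Matrix.SpecialLinearGroup (Fin 2) F) // (χ : Matrix.SpecialLinearGroup (Fin 2) F → ℂ) 1 = (Fintype.card F : ℂ) + 1} = (Fintype.card F - 2) / 2 ∧
      Nat.card {χ : Cfsg.IrrCharacter (Matrix.SpecialLinearGroup (Fin 2) F) // (χ : Matrix.SpecialLinearGroup (Fin 2) F → ℂ) 1 = (Fintype.card F : ℂ) - 1} = Fintype.card F / 2) := by
  classical
  have hev : Fintype.card F % 2 = 0 := FiniteField.even_card_of_char_two (ringChar.eq F 2)
  have hq1 := H4.one_lt_card' (F := F)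
  refine ⟨fun χ hχ => ?_, fun hq => ⟨H4.sl_card_deg_one hq, H4.sl_card_deg_card, ?_, ?_⟩⟩
  · obtain ⟨e, he⟩ := H4.exists_ell_sl (F := F)
    rcases H4.sl_irr_cases he hχ with rfl | rfl | ⟨α, -, rfl⟩ | ⟨θ, -, rfl⟩ | ⟨α, ψ, h1, h2, h⟩ |
      ⟨θ, ψ, h1, h2, h⟩
    · exact Or.inl rfl
    · exact Or.inr (Or.inr (Or.inl H4.sSt_one))
    · exact Or.inr (Or.inr (Or.inr (H4.sW_one _)))
    · exact Or.inr (Or.inl (H4.sX_one he _))
    · have := H4.odd_of_mulChar h1 h2; omega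
    · have := H4.odd_of_theta he h1 h2; omega
  · rw [H4.sl_card_deg_add, (Nat.coprime_two_right.2 (Nat.odd_iff.2 (by omega))).gcd_eq_one]; rfl
  · rw [H4.sl_card_deg_sub hq, (Nat.coprime_two_right.2 (Nat.odd_iff.2 (by omega))).gcd_eq_one]; rfl

end Cfsg.Agent.S2300
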