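import Cfsg.Statements.S2301
import Cfsg.Agent.H4.M2c

set_option autoImplicit false
open Cfsg

namespace Cfsg.Agent.S2301

/-- Over a finite field with q elements of odd characteristic p, the elements of order p of SL₂ (the non-identity unipotent elements) fall into exactly two conjugacy classes, each of size (q² − 1)/2; two upper unitriangular matrices with non-zero off-diagonal entries b and b′ are conjugate exactly when bb′ is a square. -/
theorem result {F : Type*} [Field F] [Fintype F] (p : ℕ) [Fact p.Prime] [CharP F p] (hp : p ≠ 2) :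
    Nat.card {C : ConjClasses (Matrix.SpecialLinearGroup (Fin 2) F) // ∃ g : Matrix.SpecialLinearGroup (Fin 2) F, orderOf g = p ∧ ConjClasses.mk g = C} = 2 ∧
    (∀ g : Matrix.SpecialLinearGroup (Fin 2) F, orderOf g = p → Nat.card (ConjClasses.mk g).carrier = (Fintype.card F ^ 2 - 1) / 2) ∧
    ∀ g h : Matrix.SpecialLinearGroup (Fin 2) F, (g : Matrix (Fin 2) (Fin 2) F) 0 0 = 1 → (g : Matrix (Fin 2) (Fin 2) F) 1 1 = 1 → (g : Matrix (Fin 2) (Fin 2) F) 1 0 = 0 → (g : Matrix (Fin 2) (Fin 2) F) 0 1 ≠ 0 →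
      (h : Matrix (Fin 2) (Fin 2) F) 0 0 = 1 → (h : Matrix (Fin 2) (Fin 2) F) 1 1 = 1 → (h : Matrix (Fin 2) (Fin 2) F) 1 0 = 0 → (h : Matrix (Fin 2) (Fin 2) F) 0 1 ≠ 0 →
      (IsConj g h ↔ IsSquare ((g : Matrix (Fin 2) (Fin 2) F) 0 1 * (h : Matrix (Fin 2) (Fin 2) F) 0 1)) := by
  have h2 : (2 : F) ≠ 0 := fun h => hp ((Nat.prime_dvd_prime_iff_eq Fact.out Nat.prime_two).1
    ((CharP.cast_eq_zero_iff F p 2).1 h))
  obtain ⟨n, hn⟩ := H4.exists_nonsquare_of_two h2
  have hn0 : n ≠ 0 := fun h => hn (h ▸ IsSquare.zero)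
  refine ⟨?_, fun g hg => ?_, fun g h g0 g1 g2 g3 h0 h1 h2 h3 => ?_⟩
  · rw [Nat.card_eq_two_iff]
    refine ⟨⟨_, H4.upT 1, H4.sl_orderOf_eq_iff p |>.2 (H4.un_upT one_ne_zero), rfl⟩,
      ⟨_, H4.upT n, H4.sl_orderOf_eq_iff p |>.2 (H4.un_upT hn0), rfl⟩, fun h => ?_, ?_⟩
    · have := ConjClasses.mk_eq_mk_iff_isConj.1 (congrArg Subtype.val h)
      rw [H4.upT_isConj_iff one_ne_zero hn0, one_mul] at this
      exact hn this
    · refine Set.eq_univ_of_forall fun ⟨C, g, hg, hC⟩ => ?_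
      subst hC
      rcases ((H4.sl_orderOf_eq_iff p).1 hg).isConj_upT_or hn with h | h
      · exact Or.inl (Subtype.ext (ConjClasses.mk_eq_mk_iff_isConj.2 h))
      · exact Or.inr (Subtype.ext (ConjClasses.mk_eq_mk_iff_isConj.2 h))
  · have h4 := (Subgroup.centralizer ({g} : Set (Matrix.SpecialLinearGroup (Fin 2) F))).card_mul_index
    rw [H4.card_slCent_un h2 ((H4.sl_orderOf_eq_iff p).1 hg), H22.card_SL_two, mul_comm 2,
      mul_assoc] at h4
    rw [H8.card_carrier_mk, ← Nat.eq_of_mul_eq_mul_left Fintype.card_pos h4]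
    simp
  · have e1 : g = H4.upT (g.1 0 1) := H4.sl2_ext g0 rfl g2 g1
    have e2 : h = H4.upT (h.1 0 1) := H4.sl2_ext h0 rfl h2 h1
    rw [← H4.upT_isConj_iff g3 h3, ← e1, ← e2]

end Cfsg.Agent.S2301
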