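import Cfsg.Statements.S2302
import Cfsg.Agent.H4.M2c

set_option autoImplicit false
open Cfsg

namespace Cfsg.Agent.S2302

/-- Over a finite field with q elements of characteristic 2, the involutions of SL₂ (the non-identity unipotent elements) form a single conjugacy class, of size q² − 1. -/
theorem result {F : Type*} [Field F] [Fintype F] [CharP F 2] (g h : Matrix.SpecialLinearGroup (Fin 2) F) (hg : orderOf g = 2) (hh : orderOf h = 2) :
    IsConj g h ∧ Nat.card (ConjClasses.mk g).carrier = Fintype.card F ^ 2 - 1 := by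
  have h2 : (2 : F) = 0 := CharP.cast_eq_zero F 2
  have h1 := (H4.sl_orderOf_eq_iff 2).1 hg
  have h3 := (H4.sl_orderOf_eq_iff 2).1 hh
  refine ⟨H4.sl_isConj_of h1.1 h3.1 (h1.2.1.trans h3.2.1.symm) (Or.inr h2), ?_⟩
  have h4 := (Subgroup.centralizer ({g} : Set (Matrix.SpecialLinearGroup (Fin 2) F))).card_mul_index
  rw [H4.card_slCent_un_two h2 h1, H22.card_SL_two] at h4
  rw [H8.card_carrier_mk]
  exact Nat.eq_of_mul_eq_mul_left Fintype.card_pos h4

end Cfsg.Agent.S2302
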