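import Cfsg.Statements.S2310
import Cfsg.Agent.H4.GL2Deg

set_option autoImplicit false
open Cfsg

namespace Cfsg.Agent.S2310

/-- Over a finite field F with q ≥ 3 elements, let u be the upper unitriangular matrix of GL₂ with off-diagonal entry 1. An irreducible complex character χ of GL₂ takes at u the value 1 if χ has degree 1 or q + 1, the value −1 if χ has degree q − 1, and the value 0 if χ has degree q. -/
theorem result {F : Type*} [Field F] [Fintype F] (hq : 3 ≤ Fintype.card F) (χ : Matrix.GeneralLinearGroup (Fin 2) F → ℂ) (hχ : Cfsg.IsIrrCharacter (Matrix.GeneralLinearGroup (Fin 2) F) χ)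
    (u : Matrix.GeneralLinearGroup (Fin 2) F) (hu : (u : Matrix (Fin 2) (Fin 2) F) = !![1, 1; 0, 1]) :
    (χ 1 = 1 → χ u = 1) ∧ (χ 1 = (Fintype.card F : ℂ) + 1 → χ u = 1) ∧
    (χ 1 = (Fintype.card F : ℂ) - 1 → χ u = -1) ∧ (χ 1 = (Fintype.card F : ℂ) → χ u = 0) := by
  classical
  have h1 : H4.Un u.1 1 := by rw [hu]; exact H4.un_upT (F := F) one_ne_zero
  refine ⟨fun h => ?_, fun h => ?_, fun h => ?_, fun h => ?_⟩
  · obtain ⟨α, rfl⟩ := H4.gl_deg_one hq hχ h
    simp [H4.gL, h1.2.2]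
  · obtain ⟨α, β, -, rfl⟩ := H4.gl_deg_add hχ h
    rw [H4.gP, H4.gW_un _ h1]; simp
  · obtain ⟨e, he⟩ := H4.exists_ell_gl (F := F)
    obtain ⟨θ, -, rfl⟩ := H4.gl_deg_sub he hq hχ h
    rw [H4.gX_un he _ (a := 1) h1]; simp
  · obtain ⟨α, rfl⟩ := H4.gl_deg_card hχ h
    rw [H4.gS, H4.gSt_un h1, zero_mul]

end Cfsg.Agent.S2310
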