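import Cfsg.Statements.S2315
import Cfsg.Agent.H15.Nil

set_option autoImplicit false
open Cfsg

namespace Cfsg.Agent.S2315

/-- Steinberg's count of unipotent elements for the general linear group: over a finite field with q elements of characteristic p, the number of elements of GL_n of p-power order (the unipotent matrices) is q^(n(n−1)). -/
theorem result {F : Type*} [Field F] [Fintype F] (p : ℕ) [Fact p.Prime] [CharP F p] (n : ℕ) :
    Nat.card {g : Matrix.GeneralLinearGroup (Fin n) F // ∃ k : ℕ, orderOf g = p ^ k} = Fintype.card F ^ (n * (n - 1)) := by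
  rw [← Nat.card_eq_fintype_card, ← H15.Nil.card_nil n (Fin n → F) (Module.finrank_fin_fun F),
    ← Nat.card_congr (Matrix.toLinAlgEquiv'.toEquiv.subtypeEquiv (p := IsNilpotent) fun A =>
      (IsNilpotent.map_iff Matrix.toLinAlgEquiv'.injective).symm)]
  rcases subsingleton_or_nontrivial (Matrix (Fin n) (Fin n) F) with h | h
  · have : Nonempty {g : GL (Fin n) F // ∃ k : ℕ, orderOf g = p ^ k} := ⟨⟨1, 0, by simp⟩⟩
    have : Nonempty {A : Matrix (Fin n) (Fin n) F // IsNilpotent A} := ⟨⟨0, .zero⟩⟩
    rw [Nat.card_unique, Nat.card_unique]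
  have : CharP (Matrix (Fin n) (Fin n) F) p := charP_of_injective_algebraMap (algebraMap F _).injective p
  have k : ∀ (g : GL (Fin n) F) (k : ℕ), g ^ p ^ k = 1 ↔ (g.1 - 1) ^ p ^ k = 0 := fun g k => by
    rw [sub_pow_char_pow_of_commute _ _ (Commute.one_right _), one_pow, sub_eq_zero, Units.ext_iff,
      Units.val_pow_eq_pow_val, Units.val_one]
  refine Nat.card_congr
    { toFun := fun g => ⟨g.1.1 - 1, let ⟨j, hj⟩ := g.2; ⟨_, (k _ j).1 (hj ▸ pow_orderOf_eq_one _)⟩⟩
      invFun := fun A => ⟨A.2.isUnit_add_one.unit, by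
        obtain ⟨m, hm⟩ := A.2
        obtain ⟨j, -, hj⟩ := (Nat.dvd_prime_pow Fact.out).1 (orderOf_dvd_of_pow_eq_one ((k A.2.isUnit_add_one.unit m).2
          (by simpa using pow_eq_zero_of_le (Nat.lt_pow_self (Fact.out : p.Prime).one_lt).le hm)))
        exact ⟨j, hj⟩⟩
      left_inv := fun g => Subtype.ext (Units.ext (by simp))
      right_inv := fun A => Subtype.ext (by simp) }

end Cfsg.Agent.S2315
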