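import Cfsg.Statements.S2316
import Cfsg.Agent.H22.StA
import Cfsg.Agent.S2315
import Cfsg.Agent.S0245

set_option autoImplicit false
open Cfsg

namespace Cfsg.Agent.S2316

theorem card_congr {G H : Type*} [Group G] [Group H] (p : ℕ) (e : G ≃* H) :
    Nat.card {g : G // ∃ k : ℕ, orderOf g = p ^ k} = Nat.card {g : H // ∃ k : ℕ, orderOf g = p ^ k} :=
  Nat.card_congr (e.toEquiv.subtypeEquiv fun g => by simp [MulEquiv.orderOf_eq])

/-- Steinberg's count of unipotent elements for the symplectic group: over a finite field with q elements of characteristic p, the number of elements of Sp_{2m} of p-power order is q^(2m²). -/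
theorem result {F : Type*} [Field F] [Fintype F] (p : ℕ) [Fact p.Prime] [CharP F p] (m : ℕ) :
    Nat.card {g : ↥(Matrix.symplecticGroup (Fin m) F) // ∃ k : ℕ, orderOf g = p ^ k} = Fintype.card F ^ (2 * m ^ 2) := by
  classical
  obtain _ | _ | m := m
  · have : Subsingleton (Matrix.symplecticGroup (Fin 0) F) := ⟨fun a b => Subtype.ext (by
      ext (i | i) <;> exact i.elim0)⟩
    rw [Nat.card_of_subsingleton (⟨1, 0, by simp⟩ : {g : Matrix.symplecticGroup (Fin 0) F // _})]
    simp
  · obtain ⟨e⟩ := H22.sp_one_equiv F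
    rw [card_congr p e]
    refine Eq.trans (Nat.card_eq_of_bijective (fun g => ⟨Matrix.SpecialLinearGroup.toGL g.1, by
      rw [orderOf_injective _ Matrix.SpecialLinearGroup.toGL_injective]; exact g.2⟩) ⟨fun a b h =>
        Subtype.ext (Matrix.SpecialLinearGroup.toGL_injective (congrArg Subtype.val h)), ?_⟩)
      (Cfsg.Agent.S2315.result (F := F) p 2)
    rintro ⟨g, k, hk⟩
    have h1 : (g : Matrix (Fin 2) (Fin 2) F).det ^ p ^ k = 1 := by
      rw [← Matrix.det_pow, ← Units.val_pow_eq_pow_val, ← hk, pow_orderOf_eq_one]; simp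
    have h2 : (g : Matrix (Fin 2) (Fin 2) F).det = 1 := by
      rw [← sub_eq_zero, ← pow_eq_zero_iff (pow_ne_zero k (Fact.out : p.Prime).ne_zero), sub_pow_char_pow, h1]
      simp
    have h3 : Matrix.SpecialLinearGroup.toGL (⟨g, h2⟩ : Matrix.SpecialLinearGroup (Fin 2) F) = g :=
      Units.ext rfl
    exact ⟨⟨⟨g, h2⟩, k, (orderOf_injective _ Matrix.SpecialLinearGroup.toGL_injective _).symm.trans
        ((congrArg orderOf h3).trans hk)⟩,
      Subtype.ext h3⟩
  · obtain ⟨S, hS, -⟩ := H7.exists_stSp (m := m) (F := F)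
    have := Fintype.ofFinite (Matrix.symplecticGroup (Fin (m + 2)) F)
    have h1 := S.card_unip hS S.r3_of_finite p
    have h := (S.sylU hS S.r3_of_finite p).card_eq_multiplicity
    change Nat.card S.U = _ at h
    obtain ⟨n, hp, hn⟩ := FiniteField.card F p
    have h2 : ¬ p ∣ ∏ i ∈ Finset.range (m + 2), (Fintype.card F ^ (2 * (i + 1)) - 1) := by
      rw [hp.prime.dvd_finsetProd_iff]
      rintro ⟨i, -, hi⟩
      have := Nat.dvd_sub (dvd_pow (show p ∣ Fintype.card F from hn ▸ dvd_pow_self p n.ne_zero)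
        (show 2 * (i + 1) ≠ 0 by omega)) hi
      rw [Nat.sub_sub_self (Nat.one_le_pow _ _ Fintype.card_pos)] at this
      exact hp.one_lt.ne' (Nat.dvd_one.1 this)
    rw [Cfsg.Agent.S0245.result rfl, Nat.factorization_mul (pow_ne_zero _ Fintype.card_ne_zero)
      (fun e => h2 (by rw [e]; exact dvd_zero p)), Finsupp.add_apply, Nat.factorization_eq_zero_of_not_dvd h2, hn,
      ← pow_mul, hp.factorization_pow, Finsupp.single_eq_same, add_zero, pow_mul, ← hn] at h
    rw [Nat.card_eq_fintype_card, Fintype.card_subtype]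
    refine Eq.trans (by congr!) (h1.trans ?_)
    rw [h, ← pow_mul, mul_comm]

end Cfsg.Agent.S2316
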