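import Cfsg.Statements.S2317
import Cfsg.Agent.H16.LA4
-- import your own Cfsg.Agent.* helpers here

set_option autoImplicit false
open Cfsg

namespace Cfsg.Agent.S2317

open H16 Polynomial in
/-- Over a finite field of characteristic p, the conjugacy classes of GL_n consisting of elements of p-power order (the unipotent classes) are as many as the partitions of n. -/
theorem result {F : Type*} [Field F] [Fintype F] (p : ℕ) [Fact p.Prime] [CharP F p] (n : ℕ) :
    Nat.card {C : ConjClasses (Matrix.GeneralLinearGroup (Fin n) F) //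
      ∃ g : Matrix.GeneralLinearGroup (Fin n) F, (∃ k : ℕ, orderOf g = p ^ k) ∧ ConjClasses.mk g = C} =
      Fintype.card (Nat.Partition n) := by
  simp only [and_comm (a := ∃ k : ℕ, _)]
  rw [card_classes_eq (fun g : GL (Fin n) F => ∃ k : ℕ, orderOf g = p ^ k) (fun g => jt g.1), ← Nat.card_eq_fintype_card]
  · symm
    refine Nat.card_congr (Equiv.ofBijective (fun μ => ⟨μ.parts, ?_⟩) ⟨?_, ?_⟩)
    · obtain ⟨g, hg⟩ := exists_uni (F := F) (n := Fin n) (μ := μ.parts) (fun e he => μ.parts_pos he)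
        (by simp [μ.parts_sum])
      exact ⟨Matrix.SpecialLinearGroup.toGL g, (GL_ppow_iff p _).2 ⟨n, (uni_pow_eq_zero_iff hg n).2
        fun e he => μ.parts_sum ▸ Multiset.single_le_sum (by simp) e he⟩, jt_of_edM hg⟩
    · intro a b h
      exact Nat.Partition.ext (congrArg Subtype.val h)
    · rintro ⟨_, g, hg, rfl⟩
      exact ⟨⟨jt g.1, jt_pos, by simp [jt_sum]⟩, rfl⟩
  · intro g h hg hh
    obtain ⟨a, ha⟩ := (GL_ppow_iff p g).1 hg
    obtain ⟨b, hb⟩ := (GL_ppow_iff p h).1 hh
    rw [GL_isConj_iff]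
    exact ⟨fun h => by rw [jt, jt, h], fun h => by rw [edM_eq_uni ha, edM_eq_uni hb, h]⟩

end Cfsg.Agent.S2317
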