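import Cfsg.Statements.S2318
import Cfsg.Agent.H20.Stn
-- import your own Cfsg.Agent.* helpers here

set_option autoImplicit false
open Cfsg

namespace Cfsg.Agent.S2318

/-- In a Chevalley group of type G₂, B₂, D₄, F₄, E₆, E₇ or E₈ over a finite field of characteristic p (for types G₂ and B₂ the field is assumed to have at least 3 elements, so that the group is perfect), the Steinberg character is the only irreducible complex character whose degree is divisible by the full power of p dividing the group order (the only irreducible character of p-defect zero). -/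
theorem result {F : Type*} [Field F] [Fintype F] (p : ℕ) [Fact p.Prime] [CharP F p] (D : Cfsg.Lie.ChevalleyDatum) (hD : D ∈ [Cfsg.Lie.chevG2, Cfsg.Lie.chevB2, Cfsg.Lie.chevD4, Cfsg.Lie.chevF4, Cfsg.Lie.chevE6, Cfsg.Lie.chevE7, Cfsg.Lie.chevE8]) (hq : (D = Cfsg.Lie.chevG2 ∨ D = Cfsg.Lie.chevB2) → 3 ≤ Fintype.card F)
    (χ : ↥(D.group F) → ℂ) (hχ : Cfsg.IsIrrCharacter ↥(D.group F) χ)
    (hdeg : ∃ d : ℕ, χ 1 = (d : ℂ) ∧ p ^ (Nat.card ↥(D.group F)).factorization p ∣ d) :
    χ = D.steinbergCharacter F := by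
  -----
  obtain ⟨T, h⟩ := H24.exists_tab hD
  have := h.finite_grp F
  have := Fintype.ofFinite (D.group F)
  obtain ⟨d, hd, h1⟩ := hdeg
  rw [h.steinberg_eq]
  refine congrArg Subtype.val (H20.st_unique (p := p) (h.grp F) (h.grp_Gr F) (h.grp_r3 F)
    (H20.vd_stCh (h.grp F) (h.grp_Gr F) (h.grp_r3 F)) (ψ := ⟨χ, hχ⟩) ?_)
  refine le_antisymm (H20.vd_le p _) ((Nat.Prime.pow_dvd_iff_le_factorization Fact.out
    (H19.deg_ne_zero ⟨χ, hχ⟩)).1 ?_)
  rwa [H19.charDegree_natCast hd]

end Cfsg.Agent.S2318
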