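import Cfsg.Statements.S2322
import Cfsg.Agent.H4.SL2Half

set_option autoImplicit false
open Cfsg

namespace Cfsg.Agent.S2322

/-- Over a finite field F with q elements, q odd: every irreducible complex character of SL₂ of degree q − 1 or (q − 1)/2 vanishes at every diagonal matrix whose diagonal entry a has a² ≠ 1, and every irreducible complex character of degree q + 1 or (q + 1)/2 vanishes at every element with no eigenvector in F². -/
theorem mem_zpowers_of_orderOf_eq_card_aux {G : Type*} [Group G] [Finite G] {z : G}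
    (h : orderOf z = Nat.card G) (w : G) : w ∈ Subgroup.zpowers z := by
  rw [Subgroup.eq_top_of_card_eq (Subgroup.zpowers z) (by rw [Nat.card_zpowers, h])]; trivial

theorem result {F : Type*} [Field F] [Fintype F] (hodd : Odd (Fintype.card F)) (χ : Matrix.SpecialLinearGroup (Fin 2) F → ℂ) (hχ : Cfsg.IsIrrCharacter (Matrix.SpecialLinearGroup (Fin 2) F) χ) (g : Matrix.SpecialLinearGroup (Fin 2) F) :
    ((χ 1 = (Fintype.card F : ℂ) - 1 ∨ χ 1 = (((Fintype.card F - 1) / 2 : ℕ) : ℂ)) →
      (g : Matrix (Fin 2) (Fin 2) F) 0 1 = 0 → (g : Matrix (Fin 2) (Fin 2) F) 1 0 = 0 → (g : Matrix (Fin 2) (Fin 2) F) 0 0 ^ 2 ≠ 1 → χ g = 0) ∧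
    ((χ 1 = (Fintype.card F : ℂ) + 1 ∨ χ 1 = (((Fintype.card F + 1) / 2 : ℕ) : ℂ)) →
      (∀ (c : F) (v : Fin 2 → F), v ≠ 0 → (g : Matrix (Fin 2) (Fin 2) F).mulVec v ≠ c • v) → χ g = 0) := by
  classical
  obtain ⟨e, he⟩ := H4.exists_ell_sl (F := F)
  have hq3 := H4.three_le_card (H4.two_ne_zero_of_odd hodd)
  refine ⟨fun h _ h2 h3 => ?_, fun h h1 => ?_⟩
  · have hs : H4.Sp g.1 (g.1 0 0) (g.1 1 1) := H4.sp_of_tri h2 fun h => h3 (by
      have := H4.sl2_det g
      rw [h2, ← h] at this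
      linear_combination this)
    have hq : 4 ≤ Fintype.card F := by
      have := H4.orderOf_dvd_card_cent g
      rw [H4.card_slCent_sp hs] at this
      by_contra h4
      rw [show Fintype.card F - 1 = 2 by omega, orderOf_dvd_iff_pow_eq_one, sq,
        mul_eq_one_iff_eq_inv] at this
      exact H4.sl_ne_inv hs.sl_disc this
    rcases h with h | h
    · obtain ⟨θ, -, rfl⟩ := H4.sl_deg_sub he hq hχ h
      exact H4.sX_sp he _ hs
    · obtain ⟨θ, ψ, -, -, h⟩ := H4.sl_deg_hsub he hq hodd hχ h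
      rw [h.half_of_ss (Or.inr hs.sl_disc), H4.sX_sp he _ hs, zero_div]
  · have hg := H4.ell_iff.2 h1
    rcases h with h | h
    · obtain ⟨α, -, rfl⟩ := H4.sl_deg_add hχ h
      exact H4.sW_ell _ hg
    · rw [Nat.odd_iff] at hodd
      rcases H4.sl_irr_deg he hχ h with h | h | h | ⟨h, θ, h2, rfl⟩ | ⟨-, α, ψ, -, -, h⟩ | h
      pick_goal 5
      · rw [h.half_of_ss (Or.inr hg.sl_disc), H4.sW_ell _ hg, zero_div]
      pick_goal 4
      · obtain ⟨z, hz, -, h3⟩ := H4.sX_ell' he θ hg
        have hc : Nat.card (H4.sC e) = 2 ^ 2 := by rw [H4.card_slCent_ell he]; omega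
        have h4 : orderOf z = 2 ^ 2 := orderOf_eq_prime_pow (n := 1) (fun h4 => H4.sl_ne_inv
          (H4.ell_of_mem_sC he hz).sl_disc (congrArg Subtype.val (H4.sq_eq_one_iff_eq_inv.1 h4)))
          (by rw [← hc]; exact pow_card_eq_one')
        have h5 : θ z ^ 2 ≠ 1 := fun h5 => h2 (by
          ext w
          obtain ⟨k, rfl⟩ := mem_zpowers_of_orderOf_eq_card_aux (h4.trans hc.symm) w
          rw [MonoidHom.pow_apply, map_zpow, ← zpow_natCast, ← zpow_mul, mul_comm, zpow_mul,
            zpow_natCast, h5]; simp)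
        have h6 : (θ z : ℂ) ^ 2 * (θ z : ℂ) ^ 2 = 1 := by
          rw [← pow_add, ← Units.val_pow_eq_pow_val, ← map_pow, show 2 + 2 = orderOf z by omega,
            pow_orderOf_eq_one]; simp
        have h7 := (mul_self_eq_one_iff.1 h6).resolve_left fun h => h5 (Units.ext h)
        rw [h3, map_inv, Units.val_inv_eq_inv_val]
        field_simp
        linear_combination -h7
      all_goals omega

end Cfsg.Agent.S2322
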