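import Cfsg.Statements.S2324
import Cfsg.Agent.H4.SL2Half

set_option autoImplicit false
open Cfsg

namespace Cfsg.Agent.S2324

/-- Over a finite field F with q elements, q odd and q ≥ 5, let u be the upper unitriangular matrix of SL₂ with off-diagonal entry 1 and let δ = (−1)^((q−1)/2). Every irreducible complex character χ of SL₂ of degree (q + 1)/2 satisfies (2χ(u) − 1)² = δq, and every irreducible complex character χ of degree (q − 1)/2 satisfies (2χ(u) + 1)² = δq; that is, χ(u) = (1 ± √(δq))/2 in the first case and χ(u) = (−1 ± √(δq))/2 in the second. Moreover two different irreducible characters of degree (q + 1)/2 take the two different values (their values at u add up to 1), and likewise for degree (q − 1)/2 (values adding up to −1). -/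
theorem result {F : Type*} [Field F] [Fintype F] (hodd : Odd (Fintype.card F)) (hq : 5 ≤ Fintype.card F)
    (u : Matrix.SpecialLinearGroup (Fin 2) F) (hu : (u : Matrix (Fin 2) (Fin 2) F) = !![1, 1; 0, 1]) :
    (∀ χ : Matrix.SpecialLinearGroup (Fin 2) F → ℂ, Cfsg.IsIrrCharacter (Matrix.SpecialLinearGroup (Fin 2) F) χ → χ 1 = (((Fintype.card F + 1) / 2 : ℕ) : ℂ) → (2 * χ u - 1) ^ 2 = (-1 : ℂ) ^ ((Fintype.card F - 1) / 2) * (Fintype.card F : ℂ)) ∧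
    (∀ χ : Matrix.SpecialLinearGroup (Fin 2) F → ℂ, Cfsg.IsIrrCharacter (Matrix.SpecialLinearGroup (Fin 2) F) χ → χ 1 = (((Fintype.card F - 1) / 2 : ℕ) : ℂ) → (2 * χ u + 1) ^ 2 = (-1 : ℂ) ^ ((Fintype.card F - 1) / 2) * (Fintype.card F : ℂ)) ∧
    (∀ χ₁ χ₂ : Matrix.SpecialLinearGroup (Fin 2) F → ℂ, Cfsg.IsIrrCharacter (Matrix.SpecialLinearGroup (Fin 2) F) χ₁ → Cfsg.IsIrrCharacter (Matrix.SpecialLinearGroup (Fin 2) F) χ₂ → χ₁ ≠ χ₂ →
      χ₁ 1 = (((Fintype.card F + 1) / 2 : ℕ) : ℂ) → χ₂ 1 = (((Fintype.card F + 1) / 2 : ℕ) : ℂ) → χ₁ u + χ₂ u = 1) ∧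
    (∀ χ₁ χ₂ : Matrix.SpecialLinearGroup (Fin 2) F → ℂ, Cfsg.IsIrrCharacter (Matrix.SpecialLinearGroup (Fin 2) F) χ₁ → Cfsg.IsIrrCharacter (Matrix.SpecialLinearGroup (Fin 2) F) χ₂ → χ₁ ≠ χ₂ →
      χ₁ 1 = (((Fintype.card F - 1) / 2 : ℕ) : ℂ) → χ₂ 1 = (((Fintype.card F - 1) / 2 : ℕ) : ℂ) → χ₁ u + χ₂ u = -1) := by
  classical
  obtain rfl : u = H4.upT 1 := Subtype.ext hu
  have h1 : H4.Un (H4.upT (1 : F)).1 1 := H4.un_upT one_ne_zero
  have h2 := H4.two_ne_zero_of_odd hodd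
  obtain ⟨e, he⟩ := H4.exists_ell_sl (F := F)
  have hW : ∀ α : MulChar F ℂ, H4.sW α (H4.upT 1) = 1 := fun α => by rw [H4.sW_un _ h1, map_one]
  have hX : ∀ θ, H4.sX he θ (H4.upT 1) = -1 := fun θ => by rw [H4.sX_un he _ (a := 1) h1]; simp
  refine ⟨fun χ hχ h => ?_, fun χ hχ h => ?_, fun χ₁ χ₂ k1 k2 hne h h' => ?_,
    fun χ₁ χ₂ k1 k2 hne h h' => ?_⟩
  · obtain ⟨α, ψ, -, -, h⟩ := H4.sl_deg_hadd (by omega) hodd hχ h
    rw [← h.sq_diff h2, ← hW α, ← h.add]; ring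
  · obtain ⟨θ, ψ, -, -, h⟩ := H4.sl_deg_hsub he (by omega) hodd hχ h
    rw [← h.sq_diff h2, ← sub_neg_eq_add, ← hX θ, ← h.add]; ring
  · obtain ⟨α, ψ, a1, a2, h⟩ := H4.sl_deg_hadd (by omega) hodd k1 h
    obtain ⟨ψ', h'⟩ := H4.half_hadd (by omega) hodd a1 a2 k2 h'
    rw [(h.eq_or_eq h').resolve_left hne.symm, h.add, hW]
  · obtain ⟨α, ψ, a1, a2, h⟩ := H4.sl_deg_hsub he (by omega) hodd k1 h
    obtain ⟨ψ', h'⟩ := H4.half_hsub he (by omega) hodd a1 a2 k2 h'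
    rw [(h.eq_or_eq h').resolve_left hne.symm, h.add, hX]

end Cfsg.Agent.S2324
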