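import Cfsg.Statements.S2328
import Cfsg.Agent.H24.StCh2

set_option autoImplicit false
set_option maxHeartbeats 400000
open Cfsg

namespace Cfsg.Agent.S2328

/-- In a Chevalley group of type G₂, B₂, D₄, F₄, E₆, E₇ or E₈ over a finite field of characteristic p, the Steinberg character vanishes at every element whose order is divisible by p (every element that is not semisimple). -/
theorem result {F : Type*} [Field F] [Fintype F] (p : ℕ) [Fact p.Prime] [CharP F p] (D : Cfsg.Lie.ChevalleyDatum) (hD : D ∈ [Cfsg.Lie.chevG2, Cfsg.Lie.chevB2, Cfsg.Lie.chevD4, Cfsg.Lie.chevF4, Cfsg.Lie.chevE6, Cfsg.Lie.chevE7, Cfsg.Lie.chevE8]) (g : ↥(D.group F)) (hg : p ∣ orderOf g) :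
    D.steinbergCharacter F g = 0 := by
  obtain ⟨T, h⟩ := H24.exists_tab hD
  have := h.finite_grp F
  have := Fintype.ofFinite (D.group F)
  rw [h.steinberg_eq]
  refine H19.vanish_of_vd (χ := ⟨_, (h.grp F).isIrr_stCh (h.grp_Gr F)⟩) ?_ hg
  change (charDegree (h.grp F).stCh).factorization p = _
  rw [charDegree, (h.grp F).stCh_one (h.grp_Gr F), Complex.natCast_re, Nat.floor_natCast]
  have := ((h.grp F).sylU (h.grp_Gr F) (h.grp_r3 F) p).card_eq_multiplicity
  change Nat.card (h.grp F).U = _ at this
  rw [this, Nat.Prime.factorization_pow Fact.out, Finsupp.single_eq_same]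

end Cfsg.Agent.S2328
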