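import Cfsg.Statements.S2329
import Cfsg.Agent.H4.M2c

set_option autoImplicit false
open Cfsg

namespace Cfsg.Agent.S2329

/-- Over a finite field of characteristic p, any two elements of order p of GL₂ are conjugate: there is a single conjugacy class of non-identity unipotent elements. -/
theorem result {F : Type*} [Field F] [Fintype F] (p : ℕ) [Fact p.Prime] [CharP F p] (g h : Matrix.GeneralLinearGroup (Fin 2) F)
    (hg : orderOf g = p) (hh : orderOf h = p) : IsConj g h := by
  have h1 := (H4.gl_orderOf_eq_iff p).1 hg
  have h2 := (H4.gl_orderOf_eq_iff p).1 hh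
  exact H4.gl_isConj_of h1.1 h2.1 (h1.2.1.trans h2.2.1.symm) (h1.2.2.trans h2.2.2.symm)

end Cfsg.Agent.S2329
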