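import Cfsg.Statements.S2362
import Cfsg.Agent.H14.Sp4

set_option autoImplicit false
set_option linter.unusedVariables false
set_option linter.style.haveILetI false
open Cfsg H14.Wall H16 H23 Polynomial
open scoped Matrix

namespace Cfsg.Agent.S2362

/-- Let F be a finite field of odd order and n ≥ 3. The simple orthogonal group PΩ(2n+1, F) (type B_n) and the projective symplectic group PSp(2n, F) (type C_n), which have the same order, do not have the same set of element orders. -/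
theorem result {F : Type*} [Field F] [Fintype F] (hodd : Odd (Fintype.card F)) (n : ℕ) (hn : 3 ≤ n) :
    Set.range (orderOf : Cfsg.POmega F (Cfsg.quadFormOdd n F) → ℕ) ≠ Set.range (orderOf : Cfsg.PSp n F → ℕ) := by
  have h2 := two_ne_zero_odd hodd
  obtain ⟨p, hp⟩ := CharP.exists F
  haveI := Fact.mk (CharP.char_is_prime F p)
  have hΦ := qs_odd h2 n
  have hd := finrank_odd (F := F) n
  have hL := sm_PO hΦ (by omega)
  have hS := sm_PSp (F := F) (show 1 ≤ n by omega)
  have hq := Fintype.one_lt_card (α := F)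
  obtain ⟨q1, -⟩ := sq_mod rfl h2
  obtain ⟨m, rfl⟩ : ∃ m, n = m + 1 := ⟨n - 1, by omega⟩
  obtain ⟨k, h3, h4, h5⟩ : ∃ k, Et k m ∧ 3 ≤ k ∧ ¬ (k ∣ m ↔ 4 ∣ Fintype.card F ^ m - 1) := by
    by_cases h : 4 ∣ Fintype.card F ^ m - 1
    · exact ⟨2 * m, .inr ⟨by simp, rfl⟩, by omega, by
        simp [h, Nat.not_dvd_of_pos_of_lt (show 0 < m by omega) (show m < 2 * m by omega)]⟩
    · have := Nat.not_even_iff_odd.1 fun h' => h ((four_dvd_iff q1 m).1.2 (.inl h'))
      exact ⟨m, .inl ⟨this, rfl⟩, by rw [Nat.odd_iff] at this; omega, by simp [h]⟩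
  obtain ⟨r, hr'⟩ := H25.zsigmondy hq (show 2 ≤ k by omega) (by omega) (by omega)
  obtain ⟨hr, rfl⟩ := (H25.ppd_iff hq.le (by omega)).1 hr'
  have h6 := fun j => h3.pm_iff (j := j) (by omega) hr
  have h7 : r ≠ 2 := by
    rintro rfl
    have := Nat.le_of_dvd one_pos ((orderOf_zmod_dvd_iff (m := 2) (show 0 < Fintype.card F by omega) 1).2
      (by rw [pow_one]; omega))
    omega
  have h8 : r ≠ p := by
    rintro rfl
    obtain ⟨j, -, h⟩ := FiniteField.card F r
    rw [h, Nat.cast_pow, ZMod.natCast_self, zero_pow j.ne_zero, orderOf_zero] at h4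
    omega
  rw [← H22.coe_qOdd]
  refine fun h => h5 ?_
  rw [orderOf_zmod_dvd_iff (by omega)]
  refine po_2rp h2 p hΦ hd hL rfl (by omega) hr h7 h8
    (fun j h h' => Nat.le_of_dvd h ((h6 j).1 h')) ?_
  have h9 := Nat.odd_iff.1 (hodd.pow (n := m))
  have hc := Nat.coprime_two_left.2 (hr.odd_of_ne_two h7)
  obtain ⟨j, a1, -, a2⟩ := exists_tor (F := F) (m := 2 * r) (d := m) (by omega)
    (((h6 m).2 dvd_rfl).imp (hc.mul_dvd_of_dvd_of_dvd (by omega))
      (hc.mul_dvd_of_dvd_of_dvd (by omega))) (not_two hr h7 (dvd_mul_left _ _))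
  exact h ▸ a2.psp_p hS p (by omega) (Nat.Coprime.mul_left
    ((Nat.coprime_primes Nat.prime_two Fact.out).2 ((two_ne_iff p).1 h2).symm)
    ((Nat.coprime_primes hr Fact.out).2 h8))

end Cfsg.Agent.S2362
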