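import Cfsg.Statements.S2363
import Cfsg.Agent.H24.Ord
import Cfsg.Agent.S0243
import Cfsg.Agent.S0245
import Cfsg.Agent.S0246
import Cfsg.Agent.S0280
import Cfsg.Agent.S0292
import Cfsg.Agent.S0293
import Cfsg.Agent.S0294
import Cfsg.Agent.S1059
import Cfsg.Agent.S1062
import Cfsg.Agent.S1063
import Cfsg.Agent.S1064
import Cfsg.Agent.S1065
import Cfsg.Agent.S1066
import Cfsg.Agent.S1067
import Cfsg.Agent.S1068
import Cfsg.Agent.S1069
import Cfsg.Agent.H26.SzInst
import Cfsg.Agent.H26.SzBasic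

set_option autoImplicit false
set_option maxHeartbeats 400000
open Cfsg

namespace Cfsg.Agent.S2363

open H24.Ord in
theorem fld {F : Type} [Field F] [Fintype F] (p : ℕ) [CharP F p] (hp : p.Prime) :
    ∃ a, a ≠ 0 ∧ Fintype.card F = p ^ a := by
  obtain ⟨n, -, h⟩ := FiniteField.card F p
  exact ⟨n, n.ne_zero, h⟩

theorem root {p a q k : ℕ} (hp : p.Prime) (ha : a ≠ 0) (hk : k ≠ 0) (h : p ^ a = q ^ k) :
    ∃ b, b ≠ 0 ∧ q = p ^ b := by
  have : q ∣ p ^ a := h ▸ dvd_pow_self q hk
  obtain ⟨b, -, rfl⟩ := (Nat.dvd_prime_pow hp).1 this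
  refine ⟨b, ?_, rfl⟩
  rintro rfl
  rw [pow_zero, one_pow] at h
  exact (Nat.one_lt_pow ha hp.one_lt).ne' h

/-- Let G be a finite simple group of Lie type in characteristic p and let p^k be the exact power of p dividing the order of G. Then the order of G is less than p^(3k); and unless G is isomorphic to PSL(2, F) for the field F with p^k elements, the cube of the order of G is less than p^(8k) (that is, the order is below p^(8k/3)). -/
theorem result {G : Type*} [Group G] [Finite G] (p : ℕ) (hp : p.Prime) (hG : Cfsg.IsLieTypeChar p G) :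
    Nat.card G < p ^ (3 * (Nat.card G).factorization p) ∧
      ((¬ ∃ (F : Type) (_ : Field F) (_ : Fintype F), Fintype.card F = p ^ (Nat.card G).factorization p ∧
          Nonempty (G ≃* Matrix.ProjectiveSpecialLinearGroup (Fin 2) F)) →
        Nat.card G ^ 3 < p ^ (8 * (Nat.card G).factorization p)) := by
  open H24.Ord in
  suffices h : (Nat.card G < p ^ (3 * (Nat.card G).factorization p) ∧
      Nat.card G ^ 3 < p ^ (8 * (Nat.card G).factorization p)) ∨
      (Nat.card G < p ^ (3 * (Nat.card G).factorization p) ∧ ∃ (F : Type) (_ : Field F) (_ : Fintype F),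
        Fintype.card F = p ^ (Nat.card G).factorization p ∧
          Nonempty (G ≃* Matrix.ProjectiveSpecialLinearGroup (Fin 2) F)) by
    rcases h with h | h
    · exact ⟨h.1, fun _ => h.2⟩
    · exact ⟨h.1, fun h' => absurd h.2 h'⟩
  have h1 : ¬ p ∣ 1 := by simpa using hp.one_lt.ne'
  rcases hG with ⟨F, _, _, _, n, hn, -, ⟨e⟩⟩ | ⟨F, _, _, _, m, hm, -, ⟨e⟩⟩ | ⟨F, _, _, _, n, q, hF, hn, -, ⟨e⟩⟩ |
    ⟨F, _, _, _, m, hm, ho, ⟨e⟩⟩ | ⟨F, _, _, _, m, hm, ⟨e⟩⟩ | ⟨F, _, _, _, m, c, d, hm, hcd, ⟨e⟩⟩ |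
    ⟨F, _, _, _, h⟩ | ⟨F, _, _, _, q, hq, h⟩ | ⟨rfl, F, _, _, m, hm, hF, ⟨e⟩⟩ | ⟨rfl, F, _, _, m, hm, hF, ⟨e⟩⟩ |
    ⟨rfl, F, _, _, m, hm, hF, ⟨e⟩⟩
  · obtain ⟨a, ha, hF⟩ := fld (F := F) p hp
    have h := S0243.result hF n hn
    obtain ⟨N, hN, h2⟩ := prod_gl (p ^ a) n
    rw [h2, ← mul_assoc, ← Nat.card_congr e.toEquiv] at h
    obtain ⟨n, rfl⟩ : ∃ k, n = k + 1 := ⟨n - 1, by omega⟩
    obtain ⟨D, hD, h3⟩ := prod_sl_le (p ^ a) n
    have hR := nd_prod hp (fun i => (p ^ a) ^ (i + 1) - 1) (n + 1) fun i => nd_sub hp ha (by omega)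
    have hd := nd_mul hp (nd_gcd (x := n + 1) (nd_sub1 hp ha)) (nd_sub1 hp ha)
    have hb := h3.trans (by rw [mul_assoc]; exact le_gcd_mul (by omega) :
      (p ^ a - 1) * (p ^ a) ^ D ≤ Nat.gcd (n + 1) (p ^ a - 1) * (p ^ a - 1) * (p ^ a) ^ D)
    have hD0 : D ≠ 0 := by rintro rfl; nlinarith
    by_cases h2 : n = 1
    · subst h2
      obtain rfl : N = 1 := by omega
      obtain rfl : D = 2 := by omega
      have h4 := key0 hp ha h hR hd hb hD0
      have h5 := fac_eq hp h hR hd
      right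
      refine ⟨by rw [h5]; convert h4 using 2; ring, F, inferInstance, inferInstance, by rw [h5, hF, mul_one], ⟨e⟩⟩
    · exact Or.inl (key hp ha h hR hd hb hD0 (by
        obtain ⟨k, rfl⟩ : ∃ k, n = k + 2 := ⟨n - 2, by omega⟩
        nlinarith))
  · obtain ⟨a, ha, hF⟩ := fld (F := F) p hp
    have h := S0245.result hF m
    rw [Subgroup.card_eq_card_quotient_mul_card_subgroup (Subgroup.center _), S0246.result hF m (by omega),
      mul_comm, ← Nat.card_congr e.toEquiv] at h
    exact Or.inl (key hp ha h (nd_prod hp _ m fun i => nd_sub hp ha (by omega)) (nd_gcd (nd_sub1 hp ha))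
      ((prod_even_le _ m).trans (le_gcd_mul (by omega))) (by positivity) (by nlinarith))
  · obtain ⟨a, ha, hF'⟩ := fld (F := F) p hp
    obtain ⟨b, hb, rfl⟩ := root hp ha two_ne_zero (hF'.symm.trans hF)
    have h := S0280.result hF n (by omega)
    rw [← mul_assoc, ← Nat.card_congr e.toEquiv] at h
    obtain ⟨n, rfl⟩ : ∃ k, n = k + 1 := ⟨n - 1, by omega⟩
    obtain ⟨D, hD, h3⟩ := prod_su_le (Nat.pow_pos hp.pos : 1 ≤ p ^ b) n
    refine Or.inl (key (D := D) hp hb h (nd_prod hp _ _ fun i => ?_)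
      (nd_mul hp (nd_gcd (nd_add1 hp hb)) (nd_add1 hp hb))
      (h3.trans (by rw [mul_assoc]; exact le_gcd_mul (by omega))) (by rintro rfl; nlinarith) ?_)
    · split_ifs
      · exact nd_add hp hb (by omega)
      · exact nd_sub hp hb (by omega)
    · obtain ⟨k, rfl⟩ : ∃ k, n = k + 2 := ⟨n - 2, by omega⟩
      have h6 : 2 * ((k + 2 + 1) * (k + 2 + 1 - 1) / 2) = (k + 2 + 1) * (k + 2) :=
        Nat.mul_div_cancel' (even_iff_two_dvd.1 (by simpa [mul_comm] using Nat.even_mul_succ_self (k + 2)))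
      nlinarith
  · obtain ⟨a, ha, hF⟩ := fld (F := F) p hp
    have h := S0292.result hF (hF ▸ ho) m hm
    rw [← Nat.card_congr e.toEquiv] at h
    refine Or.inl (key hp ha h (nd_prod hp _ m fun i => nd_sub hp ha (by omega)) (fun h2 => ?_)
      ((prod_even_le _ m).trans (Nat.le_mul_of_pos_left _ two_pos)) (by positivity) (by nlinarith))
    obtain rfl := (Nat.prime_dvd_prime_iff_eq hp Nat.prime_two).1 h2
    rw [hF] at ho
    exact (Nat.not_odd_iff_even.2 (Nat.even_pow.2 ⟨even_two, ha⟩)) ho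
  · obtain ⟨a, ha, hF⟩ := fld (F := F) p hp
    have h := S0293.result hF m hm
    rw [← Nat.card_congr e.toEquiv, mul_assoc] at h
    obtain ⟨k, rfl⟩ : ∃ k, m = k + 1 := ⟨m - 1, by omega⟩
    rw [Nat.add_sub_cancel] at h
    refine Or.inl (key (D := k + 1 + k * (k + 1)) hp ha h (nd_mul hp (nd_sub hp ha (by omega))
      (nd_prod hp _ k fun i => nd_sub hp ha (by omega))) (nd_gcd (nd_sub hp ha (by omega)))
      (le_trans ?_ (le_gcd_mul (by omega))) (by omega) (by nlinarith))
    rw [pow_add _ (k + 1)]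
    exact Nat.mul_le_mul (Nat.sub_le _ _) (prod_even_le _ k)
  · obtain ⟨a, ha, hF⟩ := fld (F := F) p hp
    have h := S0294.result hF m hm c d hcd
    rw [← Nat.card_congr e.toEquiv, mul_assoc] at h
    obtain ⟨k, rfl⟩ : ∃ k, m = k + 1 := ⟨m - 1, by omega⟩
    rw [Nat.add_sub_cancel] at h
    refine Or.inl (key (D := k + 1 + 1 + k * (k + 1)) hp ha h (nd_mul hp (nd_add hp ha (by omega))
      (nd_prod hp _ k fun i => nd_sub hp ha (by omega))) (nd_gcd (nd_add hp ha (by omega)))
      (le_trans ?_ (le_gcd_mul (by omega))) (by omega) (by nlinarith))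
    rw [pow_add _ (k + 1 + 1)]
    exact Nat.mul_le_mul (add_le (Nat.one_lt_pow ha hp.one_lt) _) (prod_even_le _ k)
  · obtain ⟨a, ha, hF⟩ := fld (F := F) p hp
    have s := fun k (hk : k ≠ 0) => nd_sub hp ha hk
    have l := fun k => Nat.sub_le ((p ^ a) ^ k) 1
    left
    rcases h with ⟨-, ⟨e⟩⟩ | ⟨⟨e⟩⟩ | ⟨⟨e⟩⟩ | ⟨⟨e⟩⟩ | ⟨⟨e⟩⟩
    · have h := S1059.result hF
      rw [← Nat.card_congr e.toEquiv, ← one_mul (Nat.card G)] at h
      simp only [mul_assoc] at h
      refine key (D := 2 + 6) hp ha h (nd_mul hp (s _ (by omega)) (s _ (by omega))) h1 ?_ (by omega) (by omega)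
      simp only [pow_add, one_mul]
      gcongr <;> exact l _
    · have h := S1062.result hF
      rw [← Nat.card_congr e.toEquiv, ← one_mul (Nat.card G)] at h
      simp only [mul_assoc] at h
      refine key (D := 2 + (6 + (8 + 12))) hp ha h ?_ h1 ?_ (by omega) (by omega)
      · repeat (first | exact s _ (by omega) | refine nd_mul hp (s _ (by omega)) ?_)
      simp only [pow_add, one_mul]
      gcongr <;> exact l _
    · have h := S1063.result hF
      rw [← Nat.card_congr e.toEquiv] at h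
      simp only [mul_assoc] at h
      refine key (D := 2 + (5 + (6 + (8 + (9 + 12))))) hp ha h ?_ (nd_gcd (nd_sub1 hp ha))
        (le_trans ?_ (le_gcd_mul (by omega))) (by omega) (by omega)
      · repeat (first | exact s _ (by omega) | refine nd_mul hp (s _ (by omega)) ?_)
      simp only [pow_add]
      gcongr <;> exact l _
    · have h := S1064.result hF
      rw [← Nat.card_congr e.toEquiv] at h
      simp only [mul_assoc] at h
      refine key (D := 2 + (6 + (8 + (10 + (12 + (14 + 18)))))) hp ha h ?_ (nd_gcd (nd_sub1 hp ha))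
        (le_trans ?_ (le_gcd_mul (by omega))) (by omega) (by omega)
      · repeat (first | exact s _ (by omega) | refine nd_mul hp (s _ (by omega)) ?_)
      simp only [pow_add]
      gcongr <;> exact l _
    · have h := S1065.result hF
      rw [← Nat.card_congr e.toEquiv, ← one_mul (Nat.card G)] at h
      simp only [mul_assoc] at h
      refine key (D := 2 + (8 + (12 + (14 + (18 + (20 + (24 + 30))))))) hp ha h ?_ h1 ?_ (by omega) (by omega)
      · repeat (first | exact s _ (by omega) | refine nd_mul hp (s _ (by omega)) ?_)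
      simp only [pow_add, one_mul]
      gcongr <;> exact l _
  · obtain ⟨a, ha, hF'⟩ := fld (F := F) p hp
    left
    rcases h with ⟨hF, ⟨e⟩⟩ | ⟨hF, ⟨e⟩⟩
    · obtain ⟨b, hb, rfl⟩ := root hp ha two_ne_zero (hF'.symm.trans hF)
      have s := fun k (hk : k ≠ 0) => nd_sub hp hb hk
      have s' := fun k (hk : k ≠ 0) => nd_add hp hb hk
      have l := fun k => Nat.sub_le ((p ^ b) ^ k) 1
      have l' := add_le (Nat.one_lt_pow hb hp.one_lt)
      have h := S1066.result hq hF
      rw [← Nat.card_congr e.toEquiv] at h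
      simp only [mul_assoc] at h
      refine key (D := 2 + (6 + (6 + (8 + (10 + 12))))) hp hb h ?_ (nd_gcd (nd_add1 hp hb))
        (le_trans ?_ (le_gcd_mul (by omega))) (by omega) (by omega)
      · repeat (first | exact s _ (by omega) | refine nd_mul hp (s _ (by omega)) ?_ | refine nd_mul hp (s' _ (by omega)) ?_)
      simp only [pow_add]
      gcongr <;> first | exact l _ | exact l' _
    · obtain ⟨b, hb, rfl⟩ := root hp ha three_ne_zero (hF'.symm.trans hF)
      have s := fun k (hk : k ≠ 0) => nd_sub hp hb hk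
      have l := fun k => Nat.sub_le ((p ^ b) ^ k) 1
      have h := S1067.result hq hF
      rw [← Nat.card_congr e.toEquiv, ← one_mul (Nat.card G)] at h
      simp only [mul_assoc] at h
      refine key (D := 2 + (6 + 9)) hp hb h ?_ h1 ?_ (by omega) (by omega)
      · refine nd_mul hp (s _ (by omega)) (nd_mul hp (s _ (by omega)) fun h2 => h1 ?_)
        have h3 : p ∣ p ^ b := dvd_pow_self p hb
        exact (Nat.dvd_add_right (dvd_add (dvd_pow h3 (by omega)) (dvd_pow h3 (by omega)))).1 h2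
      simp only [pow_add, one_mul]
      have h2 : 2 ≤ p ^ b := Nat.one_lt_pow hb hp.one_lt
      have h3 : (p ^ b) ^ 4 + 1 ≤ (p ^ b) ^ 8 := (add_le h2 4).trans (Nat.pow_le_pow_right (by omega) (by omega))
      have h4 : (p ^ b) ^ 8 + (p ^ b) ^ 4 + 1 ≤ (p ^ b) ^ 9 := by
        rw [pow_succ _ 8]
        have := Nat.mul_le_mul_left ((p ^ b) ^ 8) h2
        omega
      gcongr <;> exact l _
  · have h := (H26.Sz.lieModel hm hF).card_G
    rw [← Nat.card_congr e.toEquiv, ← one_mul (Nat.card G), hF, mul_assoc, mul_comm (_ + 1)] at h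
    left
    refine key (D := 1 + 2) hp (by omega) h (nd_mul hp (nd_sub1 hp (by omega)) (nd_add hp (by omega) (by omega)))
      h1 ?_ (by omega) (by omega)
    have := pair_le (q := 2 ^ (2 * m + 1)) (Nat.pow_pos two_pos) (a := 1) (b := 2) (by omega)
    rwa [pow_one, ← one_mul (_ ^ (1 + 2))] at this
  · have h := S1068.result hF
    rw [← Nat.card_congr e.toEquiv, ← one_mul (Nat.card G)] at h
    simp only [mul_assoc] at h
    have hb : 2 * m + 1 ≠ 0 := by omega
    have l' := add_le (Nat.one_lt_pow hb hp.one_lt)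
    left
    refine key (D := 1 + (4 + (4 + 7))) hp hb h (nd_mul hp (nd_sub1 hp hb) (nd_mul hp (nd_add hp hb (by omega))
      (nd_mul hp (nd_sub hp hb (by omega)) (nd_add hp hb (by omega))))) h1 ?_ (by omega) (by omega)
    rw [one_mul, pow_add _ 1, pow_add _ 4, pow_add _ 4, pow_one (2 ^ (2 * m + 1))]
    exact Nat.mul_le_mul (Nat.sub_le _ _) (Nat.mul_le_mul (l' _) (Nat.mul_le_mul (Nat.sub_le _ _) (l' _)))
  · have h := S1069.result hF
    rw [← Nat.card_congr e.toEquiv, ← one_mul (Nat.card G), mul_assoc] at h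
    have hb : 2 * m + 1 ≠ 0 := by omega
    left
    refine key (D := 1 + 4) hp hb h (nd_mul hp (nd_sub1 hp hb) (nd_add hp hb (by omega))) h1 ?_ (by omega) (by omega)
    rw [one_mul, pow_add _ 1, pow_one (3 ^ (2 * m + 1))]
    exact Nat.mul_le_mul (Nat.sub_le _ _) (add_le (Nat.one_lt_pow hb hp.one_lt) _)

end Cfsg.Agent.S2363
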