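import Cfsg.Statements.S2365
import Cfsg.Agent.H14.Sp5

set_option autoImplicit false
set_option linter.unusedVariables false
set_option linter.style.haveILetI false
open Cfsg H14.Wall H16 H23 Polynomial
open scoped Matrix

namespace Cfsg.Agent.S2365

/-- Let q be a power of the prime p, F the field with q² elements, m ≥ 4, and let a, b be commuting elements of PSU(m, q) with a of order p. Then every prime divisor of the order of b divides the order of SU(m − 2, q). -/
theorem result {F : Type*} [Field F] [Fintype F] (p : ℕ) [Fact p.Prime] [CharP F p] (m q : ℕ) (hm : 4 ≤ m) (hF : Fintype.card F = q ^ 2)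
    (a b : Cfsg.PSU m F q) (ha : orderOf a = p) (hab : Commute a b) :
    (orderOf b).primeFactors ⊆ (Nat.card ↥(Cfsg.SU (m - 2) F q)).primeFactors := by
  intro r hr
  have hq := two_le_of_card_eq_sq hF
  have hp : p.Prime := Fact.out
  have h0 := H22.card_SU hF (m - 2) (by omega)
  obtain ⟨n, hn⟩ : ∃ n, m - 2 = n + 2 := ⟨m - 4, by omega⟩
  rw [hn, Finset.prod_range_succ', if_pos (by simp), zero_add, pow_one, ← mul_assoc, mul_comm,
    mul_left_inj' (by omega)] at h0
  rw [Nat.mem_primeFactors] at hr ⊢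
  refine ⟨hr.1, ?_, Nat.card_pos.ne'⟩
  rw [hn, h0]
  by_cases hrp : r = p
  · obtain ⟨k, -, hk⟩ := FiniteField.card F p
    have h1 : p ∣ q := hp.dvd_of_dvd_pow (hF ▸ hk ▸ dvd_pow_self p k.ne_zero)
    refine (hrp ▸ h1.trans (dvd_pow_self _ (Nat.div_pos ?_ two_pos).ne')).mul_right _
    rw [show n + 2 - 1 = n + 1 by omega]
    nlinarith
  obtain ⟨s, ⟨h1, h2, -⟩, h3⟩ := (sm_PSU hF (show 2 ≤ m by omega)).1
    (a * b ^ (orderOf b / r))
  have h4 := (hab.pow_right (orderOf b / r)).orderOf_mul_eq_mul_orderOf_of_coprime (by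
    rw [ha, orderOf_pow_orderOf_div hr.2.2 hr.2.1]
    exact (Nat.coprime_primes hp hr.1).2 (Ne.symm hrp))
  rw [ha, orderOf_pow_orderOf_div hr.2.2 hr.2.1] at h4
  obtain ⟨j, h5, h6, h7⟩ := UR.char p h1 (fun k _ => (h3 k).2) hr.1 (h4 ▸ dvd_mul_left _ _) hrp
    (h4 ▸ dvd_mul_right _ _)
  refine Dvd.dvd.mul_left ?_ _
  obtain rfl | ⟨i, rfl⟩ : j = 1 ∨ ∃ i, j = i + 2 := by
    rcases j with _ | _ | i
    · omega
    · simp
    · simp
  · refine .trans ?_ (Finset.dvd_prod_of_mem _ (a := 0) (by simp))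
    rw [if_neg (by simp), show q ^ (0 + 1 + 1) - 1 = _ by simpa using Nat.sq_sub_sq q 1]
    exact Dvd.dvd.mul_right (by simpa [um] using h6) _
  · refine .trans ?_ (Finset.dvd_prod_of_mem _ (a := i) (Finset.mem_range.2 (by omega)))
    by_cases h : Even i <;> simpa [um, h, Nat.even_add_one, Nat.even_add] using h6

end Cfsg.Agent.S2365
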