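import Mathlib
import Cfsg.Statements.S2367
import Cfsg.Agent.H8.SymP

set_option autoImplicit false
open Cfsg

namespace Cfsg.Agent.S2367

theorem eight (k : ℕ) : 2 ^ (3 * k) ∣ (4 * k).factorial := by
  induction k with
  | zero => simp
  | succ k ih =>
    obtain ⟨c, hc⟩ := ih
    refine ⟨(k + 1) * (4 * k + 3) * (2 * k + 1) * (4 * k + 1) * c, ?_⟩
    rw [show 4 * (k + 1) = 4 * k + 1 + 1 + 1 + 1 by ring]
    simp only [Nat.factorial_succ, hc]
    ring

theorem cube (p : ℕ) : p ^ 3 < 2 ^ (p + 3) := by
  induction p with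
  | zero => simp
  | succ p ih =>
    by_cases h : p < 4
    · interval_cases p <;> norm_num
    · rw [show p + 1 + 3 = p + 3 + 1 by ring, pow_succ 2]
      have : (p + 1) ^ 3 ≤ p ^ 3 * 2 := by
        obtain ⟨k, rfl⟩ := Nat.exists_eq_add_of_le (not_lt.1 h)
        ring_nf; omega
      omega

theorem spor {M N p : ℕ} (hp : p.Prime) (hodd : p ≠ 2) (h3 : M.factorization p = 3) (a : ℕ)
    (e : M = N) (h1 : N ∣ Nat.factorial 71) (h2 : 2 ^ a ∣ N)
    (h4 : ∀ q ∈ List.range 72, q ^ 3 ∣ N → ¬ q ^ 4 ∣ N → q % 2 = 1 →
      (∀ d ∈ [3, 5, 7], d ∣ q → d = q) → q ^ 3 < 2 ^ a) :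
    p ^ 3 < 2 ^ M.factorization 2 := by
  subst e
  have h0 : M ≠ 0 := fun e => (Nat.factorial_pos 71).ne' (Nat.eq_zero_of_zero_dvd (e ▸ h1))
  have k1 : p ^ 3 ∣ M := (hp.pow_dvd_iff_le_factorization h0).2 h3.ge
  have k2 := hp.dvd_factorial.1 (((dvd_pow_self p (by decide)).trans k1).trans h1)
  exact (h4 p (List.mem_range.2 (by omega)) k1 (fun h => by
    have := (hp.pow_dvd_iff_le_factorization h0).1 h; omega)
    (Nat.odd_iff.1 (hp.odd_of_ne_two hodd)) fun d hd h =>
      (hp.eq_one_or_self_of_dvd d h).resolve_left (by rintro rfl; simp at hd)).trans_le (Nat.pow_le_pow_right two_pos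
      ((Nat.prime_two.pow_dvd_iff_le_factorization h0).1 h2))

theorem result {G : Type*} [Group G] [Finite G] (hG : Cfsg.IsAlternating G ∨ Cfsg.IsSporadic G)
    (p : ℕ) (hp : p.Prime) (hodd : p ≠ 2) (h3 : (Nat.card G).factorization p = 3) :
    p ^ 3 < 2 ^ (Nat.card G).factorization 2 := by
  rcases hG with ⟨n, hn, ⟨e⟩⟩ | hG
  · rw [Nat.card_congr e.toEquiv] at h3 ⊢
    have : Nontrivial (Fin n) := Fin.nontrivial_iff_two_le.2 (by omega)
    have h2 := two_mul_nat_card_alternatingGroup (α := Fin n)
    rw [Nat.card_perm, Nat.card_fin] at h2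
    have h0 : Nat.card (alternatingGroup (Fin n)) ≠ 0 := Nat.card_pos.ne'
    have h4 : p ^ 3 ∣ n.factorial := h2 ▸ Dvd.dvd.mul_left (h3 ▸ Nat.ordProj_dvd _ p) 2
    have p3 : 3 ≤ p := by have := hp.two_le; omega
    have h5 : 3 * p ≤ n := by
      by_cases h : n < p * p
      · exact H8.Sy.le_of_pow_dvd_factorial hp h h4
      · nlinarith
    have h6 := (eight (3 * p / 4)).trans (Nat.factorial_dvd_factorial (show _ ≤ n by omega))
    rw [← h2, show 3 * (3 * p / 4) = 3 * (3 * p / 4) - 1 + 1 by omega, pow_succ'] at h6
    have h7 := (Nat.prime_two.pow_dvd_iff_le_factorization h0).1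
      (Nat.dvd_of_mul_dvd_mul_left two_pos h6)
    refine lt_of_lt_of_le ?_ (Nat.pow_le_pow_right two_pos h7)
    by_cases h : p = 3
    · subst h; decide
    · have : p ≠ 4 := by rintro rfl; exact absurd hp (by decide)
      exact (cube p).trans_le (Nat.pow_le_pow_right two_pos (by omega))
  · rcases hG with h | h | h | h | h | h | h | h | h | h | h | h | h | h | h | h | h | h | h | h | h | h | h | h | h | h
    · exact spor hp hodd h3 4 h.2 (by decide +kernel) (by decide +kernel) (by decide +kernel)
    · exact spor hp hodd h3 6 h.2 (by decide +kernel) (by decide +kernel) (by decide +kernel)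
    · exact spor hp hodd h3 7 h.2 (by decide +kernel) (by decide +kernel) (by decide +kernel)
    · exact spor hp hodd h3 7 h.2 (by decide +kernel) (by decide +kernel) (by decide +kernel)
    · exact spor hp hodd h3 10 h.2 (by decide +kernel) (by decide +kernel) (by decide +kernel)
    · exact spor hp hodd h3 3 h.2 (by decide +kernel) (by decide +kernel) (by decide +kernel)
    · exact spor hp hodd h3 7 h.2 (by decide +kernel) (by decide +kernel) (by decide +kernel)
    · exact spor hp hodd h3 7 h.2 (by decide +kernel) (by decide +kernel) (by decide +kernel)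
    · exact spor hp hodd h3 21 h.2 (by decide +kernel) (by decide +kernel) (by decide +kernel)
    · exact spor hp hodd h3 21 h.2 (by decide +kernel) (by decide +kernel) (by decide +kernel)
    · exact spor hp hodd h3 18 h.2 (by decide +kernel) (by decide +kernel) (by decide +kernel)
    · exact spor hp hodd h3 10 h.2 (by decide +kernel) (by decide +kernel) (by decide +kernel)
    · exact spor hp hodd h3 17 h.2 (by decide +kernel) (by decide +kernel) (by decide +kernel)
    · exact spor hp hodd h3 18 h.2 (by decide +kernel) (by decide +kernel) (by decide +kernel)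
    · exact spor hp hodd h3 21 h.2 (by decide +kernel) (by decide +kernel) (by decide +kernel)
    · exact spor hp hodd h3 9 h.2 (by decide +kernel) (by decide +kernel) (by decide +kernel)
    · exact spor hp hodd h3 7 h.2 (by decide +kernel) (by decide +kernel) (by decide +kernel)
    · exact spor hp hodd h3 10 h.2 (by decide +kernel) (by decide +kernel) (by decide +kernel)
    · exact spor hp hodd h3 14 h.2 (by decide +kernel) (by decide +kernel) (by decide +kernel)
    · exact spor hp hodd h3 13 h.2 (by decide +kernel) (by decide +kernel) (by decide +kernel)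
    · exact spor hp hodd h3 9 h.2 (by decide +kernel) (by decide +kernel) (by decide +kernel)
    · exact spor hp hodd h3 14 h.2 (by decide +kernel) (by decide +kernel) (by decide +kernel)
    · exact spor hp hodd h3 8 h.2 (by decide +kernel) (by decide +kernel) (by decide +kernel)
    · exact spor hp hodd h3 15 h.2 (by decide +kernel) (by decide +kernel) (by decide +kernel)
    · exact spor hp hodd h3 41 h.2 (by decide +kernel) (by decide +kernel) (by decide +kernel)
    · exact spor hp hodd h3 46 h.2 (by decide +kernel) (by decide +kernel) (by decide +kernel)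

end Cfsg.Agent.S2367
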