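import Cfsg.Statements.S2368
import Cfsg.Agent.H16.LA4
-- import your own Cfsg.Agent.* helpers here

set_option autoImplicit false
open Cfsg

namespace Cfsg.Agent.S2368

open H16 Polynomial in
/-- Let F be a finite field of characteristic p and m ≥ 1. Every element of GL(m, F) of p-power order has order less than p·m, and GL(m, F) has an element of p-power order at least m; so the largest order of a p-element of GL(m, F) is the least power of p that is at least m. -/
theorem result {F : Type*} [Field F] [Fintype F] (p : ℕ) [Fact p.Prime] [CharP F p] (m : ℕ) (hm : 1 ≤ m) :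
    (∀ g : Matrix.GeneralLinearGroup (Fin m) F, (∃ j : ℕ, orderOf g = p ^ j) → orderOf g < p * m) ∧
      ∃ g : Matrix.GeneralLinearGroup (Fin m) F, (∃ j : ℕ, orderOf g = p ^ j) ∧ m ≤ orderOf g := by
  have hp : p.Prime := Fact.out
  constructor
  · rintro g ⟨j, hj⟩
    have h0 := pow_card_eq_zero_of_nilpotent ((GL_ppow_iff p g).1 ⟨j, hj⟩)
    rw [Fintype.card_fin] at h0
    rw [hj]
    rcases j with _ | j
    · have := hp.two_le
      simp; nlinarith
    · rw [pow_succ']
      refine Nat.mul_lt_mul_of_pos_left ?_ hp.pos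
      by_contra hle
      have h1 : g ^ p ^ j = 1 := by
        rw [GL_pow_eq_one_iff, pow_char_pow_eq_one_iff]
        exact pow_eq_zero_of_le (by omega) h0
      have := Nat.le_of_dvd (pow_pos hp.pos _) (hj ▸ orderOf_dvd_of_pow_eq_one h1)
      have := Nat.pow_lt_pow_right hp.one_lt (Nat.lt_add_one j)
      omega
  · obtain ⟨g, hg⟩ := exists_uni (F := F) (n := Fin m) (μ := {m}) (by simp; omega) (by simp)
    obtain ⟨j, hj⟩ := (GL_ppow_iff p (Matrix.SpecialLinearGroup.toGL g)).2
      ⟨m, (uni_pow_eq_zero_iff hg m).2 (by simp)⟩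
    refine ⟨_, ⟨j, hj⟩, ?_⟩
    have h3 := (pow_char_pow_eq_one_iff p _ j).1 ((GL_pow_eq_one_iff _ _).1 (hj ▸ pow_orderOf_eq_one _))
    rw [hj]
    exact (uni_pow_eq_zero_iff hg _).1 h3 m (by simp)

end Cfsg.Agent.S2368
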