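import Cfsg.Statements.S2370
import Cfsg.Agent.H24.Misc

set_option autoImplicit false
set_option maxHeartbeats 400000
open Cfsg

namespace Cfsg.Agent.S2370

/-- Let q = 2^(2m+1) with m ≥ 1. Every element of 2-power order of the large Ree group ²F₄(q) has order at most 32. -/
theorem result {K : Type*} [Field K] [Fintype K] (m : ℕ) (hm : 1 ≤ m) (hK : Fintype.card K = 2 ^ (2 * m + 1))
    (x : ↥(Cfsg.Lie.twistedF4 K (2 ^ m))) (hx : ∃ j : ℕ, orderOf x = 2 ^ j) : orderOf x ≤ 32 := by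
  have h := H24.tabF4_chk
  have : CharP K 2 := charP_of_card_eq_prime_pow hK
  have hle : Lie.twistedF4 K (2 ^ m) ≤ Lie.chevF4.group K := by
    obtain ⟨h2, f, hf, hq⟩ := H24.F4.exists_f hK
    rw [H24.F4.gen_eq h2 f hf hq]
    exact Subgroup.map_subtype_le _
  obtain ⟨j, hj⟩ := hx
  rw [← orderOf_injective _ (Subgroup.inclusion_injective hle)] at hj ⊢
  generalize Subgroup.inclusion hle x = g at hj
  obtain ⟨y, hy⟩ := (h.grp K).exists_conj_mem_U (h.grp_Gr K) 2 (A := Subgroup.zpowers g)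
    (IsPGroup.of_card (by rw [Nat.card_zpowers, hj]))
  have h1 := hy g (Subgroup.mem_zpowers g)
  have hf : ∀ r ∈ {r | h.cd.Pos r}, 0 < H24.RS.htv (h.cd.rt r) := fun _ hr => h.cd.ht_pos hr
  have k := (h.grp K).sq_mem_lvl (CharTwo.two_eq_zero) H24.RS.closed_pos hf
  rw [H24.St0.U, ← H24.St0.lvl_one hf] at h1
  have h2 := k _ _ (k _ _ (k _ _ (k _ _ h1)))
  have h3 : h.cd.lvl {r | h.cd.Pos r} H24.RS.htv (2 * (2 * (2 * (2 * 1)))) = ∅ := by
    refine Set.eq_empty_of_forall_notMem fun r hr => ?_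
    have h4 : ∀ r < 48, H24.sumLt 4 (H24.tabF4.rtv r) < 16 := by decide +kernel
    exact (h4 r r.2).not_ge ((hr.2.trans_eq (h.sumLt_eq' (H24.tabF4.rtv r)).symm))
  rw [h3, H24.St0.XS_empty, Subgroup.mem_bot, ← pow_mul, ← pow_mul, ← pow_mul,
    show y⁻¹ * g * y = y⁻¹ * g * y⁻¹⁻¹ by simp, conj_pow, mul_inv_eq_one, mul_eq_left] at h2
  exact (Nat.le_of_dvd (by norm_num) (orderOf_dvd_of_pow_eq_one h2)).trans (by norm_num)

end Cfsg.Agent.S2370
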