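import Cfsg.Statements.S2371
import Cfsg.Agent.H24.Tor2
import Cfsg.Agent.H24.Facts

set_option autoImplicit false
set_option maxHeartbeats 400000
open Cfsg

namespace Cfsg.Agent.S2371

open H24

def a : List (List ℤ) := [[-1, 0], [-1, 1]]

theorem c0 : tabG2.chkCyc (([0, 1, 0, 1] : List (Fin 2)).map Fin.val) (List.range tabG2.l)
    [[-1, 0], [-1, 1], [2, -1]] a [1, 1] = true := by
  decide +kernel

theorem c3 : tabG2.chkSm a 3 13 [(4, 4), (0, 11)] = true := by decide +kernel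
theorem c4 : tabG2.chkSm a 4 21 [(4, 5), (0, 18)] = true := by decide +kernel
theorem c5 : tabG2.chkSm a 5 31 [(4, 6), (0, 27)] = true := by decide +kernel

theorem sm (q : ℕ) (h : 3 ≤ q) : 6 ≤ q ∨ ∃ U, tabG2.chkSm a q (q ^ 2 + q + 1) U = true := by
  by_cases h' : 6 ≤ q
  · exact Or.inl h'
  · have : q < 6 := by omega
    interval_cases q
    exacts [Or.inr ⟨_, c3⟩, Or.inr ⟨_, c4⟩, Or.inr ⟨_, c5⟩]

theorem hn (q : ℕ) (h : 0 < q) : ((q ^ 2 + q + 1 : ℕ) : ℤ) = q ^ 2 + ∑ i ∈ Finset.range 2, ([1, 1] : List ℤ).getD i 0 * q ^ i := by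
  simp [Finset.sum_range_succ]; ring

/-- The group G₂(q), q ≥ 3, contains a cyclic subgroup of order q² + q + 1 which is its own centralizer. -/
theorem result {F : Type*} [Field F] [Fintype F] (q : ℕ) (hF : Fintype.card F = q) (hq : 3 ≤ q) :
    ∃ H : Subgroup ↥(Cfsg.Lie.chevG2.group F), IsCyclic ↥H ∧ Nat.card ↥H = q ^ 2 + q + 1 ∧
      Subgroup.centralizer (H : Set ↥(Cfsg.Lie.chevG2.group F)) = H := by
  obtain ⟨A, e1, e2, e3⟩ := tabG2_chk.selfcent_frob (scG2 _) (scG2 F) hF _ c0 (by decide +kernel)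
    (hn q (hF ▸ Fintype.card_pos)) (sm q hq)
  refine ⟨A, e1, ?_, e3⟩
  rw [← e2, cardThetaG2, mul_one]

end Cfsg.Agent.S2371
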