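import Cfsg.Statements.S2372
import Cfsg.Agent.H24.Tor2
import Cfsg.Agent.H24.Facts

set_option autoImplicit false
set_option maxHeartbeats 400000
open Cfsg

namespace Cfsg.Agent.S2372

open H24

def a : List (List ℤ) := [[-1, 0, 0, 0], [-1, 0, 0, 1], [-1, -1, 1, 1], [-1, 0, 1, 0]]

theorem c0 : tabF4.chkCyc (([0, 1, 2, 1, 2, 3] : List (Fin 4)).map Fin.val) (List.range tabF4.l)
    [[-1, 0, 0, 0], [-1, 1, -1, 1], [-1, 0, 0, 1], [-1, 1, 0, 0], [1, 0, 0, 0]] a [1, 0, 0, 0] = true := by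
  decide +kernel

theorem c2 : tabF4.chkSm a 2 17 [(19, 10), (11, 5), (17, 4), (5, 8)] = true := by decide +kernel
theorem c3 : tabF4.chkSm a 3 82 [(12, 3), (17, 36), (2, 62)] = true := by decide +kernel
theorem c4 : tabF4.chkSm a 4 257 [(12, 4), (17, 144), (2, 206)] = true := by decide +kernel
theorem c5 : tabF4.chkSm a 5 626 [(12, 5), (17, 400), (2, 522)] = true := by decide +kernel

theorem sm (q : ℕ) (h : 2 ≤ q) : 6 ≤ q ∨ ∃ U, tabF4.chkSm a q (q ^ 4 + 1) U = true := by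
  by_cases h' : 6 ≤ q
  · exact Or.inl h'
  · have : q < 6 := by omega
    interval_cases q
    exacts [Or.inr ⟨_, c2⟩, Or.inr ⟨_, c3⟩, Or.inr ⟨_, c4⟩, Or.inr ⟨_, c5⟩]

theorem hn (q : ℕ) (h : 0 < q) : ((q ^ 4 + 1 : ℕ) : ℤ) = q ^ 4 + ∑ i ∈ Finset.range 4, ([1, 0, 0, 0] : List ℤ).getD i 0 * q ^ i := by
  simp [Finset.sum_range_succ]

/-- The group F₄(q) contains a cyclic subgroup of order q⁴ + 1 which is its own centralizer. -/
theorem result {F : Type*} [Field F] [Fintype F] (q : ℕ) (hF : Fintype.card F = q) :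
    ∃ H : Subgroup ↥(Cfsg.Lie.chevF4.group F), IsCyclic ↥H ∧ Nat.card ↥H = q ^ 4 + 1 ∧
      Subgroup.centralizer (H : Set ↥(Cfsg.Lie.chevF4.group F)) = H := by
  obtain ⟨A, e1, e2, e3⟩ := tabF4_chk.selfcent_frob (scF4 _) (scF4 F) hF _ c0 (by decide +kernel)
    (hn q (hF ▸ Fintype.card_pos)) (sm q (hF ▸ Fintype.one_lt_card))
  refine ⟨A, e1, ?_, e3⟩
  rw [← e2, cardThetaF4, mul_one]

end Cfsg.Agent.S2372
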