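import Cfsg.Statements.S2373
import Cfsg.Agent.H24.Tor2
import Cfsg.Agent.H24.Facts

set_option autoImplicit false
set_option maxHeartbeats 400000
open Cfsg

namespace Cfsg.Agent.S2373

open H24

def a : List (List ℤ) := [[-1, 0, 0, 0, -1, 0], [1, 0, -1, -1, 0, 1], [-1, -1, 0, 0, -1, -1], [0, 0, -1, -1, -1, 0], [0, 0, 0, -1, -1, 0], [0, 0, 0, 0, -1, 0]]

theorem c0 : tabE6.chkCyc (([5, 4, 3, 1, 2, 0] : List (Fin 6)).map Fin.val) (List.range tabE6.l)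
    [[-1, 0, 0, 0, 0, 1], [0, -1, -1, 1, 0, 0], [0, 0, 0, -1, 1, 0], [0, 0, 0, 0, -1, 1], [0, 0, 0, 0, 0, -1], [1, 1, 0, -1, 0, 0], [0, 0, 1, 0, -1, 0]] a [1, 1, 0, -1, 0, 1] = true := by
  decide +kernel

theorem c2 : tabE6.chkSm a 2 91 [(32, 2), (15, 74), (35, 8), (2, 47)] = true := by decide +kernel
theorem c3 : tabE6.chkSm a 3 949 [(20, 897), (28, 463), (7, 739), (2, 319)] = true := by decide +kernel
theorem c4 : tabE6.chkSm a 4 5061 [(20, 4872), (28, 1989), (7, 4113), (2, 1269)] = true := by decide +kernel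
theorem c5 : tabE6.chkSm a 5 18631 [(20, 18135), (28, 6131), (7, 15651), (2, 3731)] = true := by decide +kernel

theorem sm (q : ℕ) (h : 2 ≤ q) : 6 ≤ q ∨ ∃ U, tabE6.chkSm a q ((q ^ 4 - q ^ 2 + 1) * (q ^ 2 + q + 1)) U = true := by
  by_cases h' : 6 ≤ q
  · exact Or.inl h'
  · have : q < 6 := by omega
    interval_cases q
    exacts [Or.inr ⟨_, c2⟩, Or.inr ⟨_, c3⟩, Or.inr ⟨_, c4⟩, Or.inr ⟨_, c5⟩]

theorem hn (q : ℕ) (h : 0 < q) : (((q ^ 4 - q ^ 2 + 1) * (q ^ 2 + q + 1) : ℕ) : ℤ) = q ^ 6 + ∑ i ∈ Finset.range 6, ([1, 1, 0, -1, 0, 1] : List ℤ).getD i 0 * q ^ i := by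
  simp [Finset.sum_range_succ, Nat.cast_sub (Nat.pow_le_pow_right h (show 2 ≤ 4 by norm_num))]; ring

/-- The group E₆(q) (the simple Chevalley group of type E₆) contains a cyclic subgroup of order (q⁴ − q² + 1)(q² + q + 1)/gcd(3, q − 1) which is its own centralizer. -/
theorem result {F : Type*} [Field F] [Fintype F] (q : ℕ) (hF : Fintype.card F = q) :
    ∃ H : Subgroup ↥(Cfsg.Lie.chevE6.group F), IsCyclic ↥H ∧ Nat.card ↥H = (q ^ 4 - q ^ 2 + 1) * (q ^ 2 + q + 1) / Nat.gcd 3 (q - 1) ∧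
      Subgroup.centralizer (H : Set ↥(Cfsg.Lie.chevE6.group F)) = H := by
  obtain ⟨A, e1, e2, e3⟩ := tabE6_chk.selfcent_frob (scE6 _) (scE6 F) hF _ c0 (by decide +kernel)
    (hn q (hF ▸ Fintype.card_pos)) (sm q (hF ▸ Fintype.one_lt_card))
  refine ⟨A, e1, ?_, e3⟩
  rw [← e2, cardThetaE6, hF, Nat.mul_div_cancel _ (Nat.gcd_pos_of_pos_left _ (by norm_num))]

end Cfsg.Agent.S2373
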