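import Cfsg.Statements.S2374
import Cfsg.Agent.H24.Tor2
import Cfsg.Agent.H24.Facts

set_option autoImplicit false
set_option maxHeartbeats 400000
open Cfsg

namespace Cfsg.Agent.S2374

open H24

def a : List (List ℤ) := [[-1, 0, 1, 0, 0, 1, 1], [0, 0, 1, 1, 0, 1, 2], [-1, 1, 2, 0, 0, 2, 2], [-1, 1, 3, 1, 0, 3, 3], [-1, 1, 2, 0, 0, 3, 2], [-1, 0, 2, 0, -1, 2, 2], [0, 0, 1, 0, 0, 1, 1]]

theorem c0 : tabE7.chkCyc (([1, 2, 5, 4, 0, 3, 2, 4, 1, 3, 4, 1, 3, 2, 6] : List (Fin 7)).map Fin.val) (List.range tabE7.l)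
    [[-1, 0, 0, 0, 0, 0, 1], [-1, 0, 1, 0, 0, 0, -1], [0, -1, 0, 1, -1, 0, 1], [0, 0, -1, 1, 0, 0, -1], [1, 0, 0, 0, 0, -1, 1], [0, 0, -1, 0, 1, 0, 0], [0, 1, 1, -1, 0, 0, 0], [0, -1, 0, 0, 0, 1, 0]] a [1, 0, -1, 1, 1, -1, 0] = true := by
  decide +kernel

theorem c2 : tabE7.chkSm a 2 117 [(20, 43), (54, 98), (55, 14), (19, 86), (7, 56)] = true := by decide +kernel
theorem c3 : tabE7.chkSm a 3 2044 [(21, 1364), (40, 1396), (25, 1972), (5, 1206), (0, 1064)] = true := by decide +kernel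
theorem c4 : tabE7.chkSm a 4 15665 [(21, 11750), (40, 11825), (25, 15425), (5, 11248), (0, 10530)] = true := by decide +kernel
theorem c5 : tabE7.chkSm a 5 75726 [(21, 60582), (40, 60726), (25, 75126), (5, 59350), (0, 56952)] = true := by decide +kernel

theorem sm (q : ℕ) (h : 2 ≤ q) : 6 ≤ q ∨ ∃ U, tabE7.chkSm a q ((q ^ 4 - q ^ 2 + 1) * (q ^ 3 + 1)) U = true := by
  by_cases h' : 6 ≤ q
  · exact Or.inl h'
  · have : q < 6 := by omega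
    interval_cases q
    exacts [Or.inr ⟨_, c2⟩, Or.inr ⟨_, c3⟩, Or.inr ⟨_, c4⟩, Or.inr ⟨_, c5⟩]

theorem hn (q : ℕ) (h : 0 < q) : (((q ^ 4 - q ^ 2 + 1) * (q ^ 3 + 1) : ℕ) : ℤ) = q ^ 7 + ∑ i ∈ Finset.range 7, ([1, 0, -1, 1, 1, -1, 0] : List ℤ).getD i 0 * q ^ i := by
  simp [Finset.sum_range_succ, Nat.cast_sub (Nat.pow_le_pow_right h (show 2 ≤ 4 by norm_num))]; ring

/-- The group E₇(q) (the simple Chevalley group of type E₇) contains a cyclic subgroup of order (q⁴ − q² + 1)(q³ + 1)/gcd(2, q − 1) which is its own centralizer. -/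
theorem result {F : Type*} [Field F] [Fintype F] (q : ℕ) (hF : Fintype.card F = q) :
    ∃ H : Subgroup ↥(Cfsg.Lie.chevE7.group F), IsCyclic ↥H ∧ Nat.card ↥H = (q ^ 4 - q ^ 2 + 1) * (q ^ 3 + 1) / Nat.gcd 2 (q - 1) ∧
      Subgroup.centralizer (H : Set ↥(Cfsg.Lie.chevE7.group F)) = H := by
  obtain ⟨A, e1, e2, e3⟩ := tabE7_chk.selfcent_frob (scE7 _) (scE7 F) hF _ c0 (by decide +kernel)
    (hn q (hF ▸ Fintype.card_pos)) (sm q (hF ▸ Fintype.one_lt_card))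
  refine ⟨A, e1, ?_, e3⟩
  rw [← e2, cardThetaE7, hF, Nat.mul_div_cancel _ (Nat.gcd_pos_of_pos_left _ (by norm_num))]

end Cfsg.Agent.S2374
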