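import Cfsg.Statements.S2375
import Cfsg.Agent.H24.Tor2
import Cfsg.Agent.H24.Facts

set_option autoImplicit false
set_option maxHeartbeats 400000
open Cfsg

namespace Cfsg.Agent.S2375

open H24

def a : List (List ℤ) := [[0, 1, 1, 0, -1, -2, -2, -1], [1, 2, 1, 0, -2, -3, -3, -1], [1, 2, 2, 0, -2, -4, -4, -2], [2, 4, 3, 0, -3, -6, -6, -3], [2, 3, 2, -1, -3, -5, -4, -2], [2, 3, 2, -1, -3, -4, -3, -1], [1, 2, 1, -1, -2, -2, -2, -1], [1, 1, 0, -1, -1, -1, -1, 0]]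

theorem c0 : tabE8.chkCyc (([3, 2, 5, 0, 6, 4, 1, 7] : List (Fin 8)).map Fin.val) (List.range tabE8.l)
    [[-2, 0, 1, 0, 0, 0, 0, 0], [1, 0, -2, 1, 0, 0, 0, 0], [0, -1, 1, 0, -1, 1, 0, 0], [-1, 1, 0, 0, 0, 0, 0, -1], [1, -1, -1, 1, 0, 0, -1, 1], [-1, 0, 1, 0, -1, 0, 1, 0], [0, 0, -1, 0, 1, 0, 0, -1], [1, 0, 0, 0, -1, 1, -1, 1], [-1, 0, 1, 0, 0, -1, 1, -1]] a [1, 1, 0, -1, -1, -1, 0, 1] = true := by
  decide +kernel

theorem c2 : tabE8.chkSm a 2 331 [(41, 89), (63, 179), (59, 12), (68, 251), (7, 220), (6, 110)] = true := by decide +kernel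
theorem c3 : tabE8.chkSm a 3 8401 [(41, 959), (63, 2878), (59, 36), (68, 6538), (7, 3150), (0, 1076)] = true := by decide +kernel
theorem c4 : tabE8.chkSm a 4 80581 [(41, 5099), (63, 20397), (59, 80), (68, 65477), (7, 21488), (0, 5435)] = true := by decide +kernel
theorem c5 : tabE8.chkSm a 5 464881 [(41, 18719), (63, 93596), (59, 150), (68, 390506), (7, 96850), (0, 19494)] = true := by decide +kernel

theorem sm (q : ℕ) (h : 2 ≤ q) : 6 ≤ q ∨ ∃ U, tabE8.chkSm a q (q ^ 8 + q ^ 7 - q ^ 5 - q ^ 4 - q ^ 3 + q + 1) U = true := by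
  by_cases h' : 6 ≤ q
  · exact Or.inl h'
  · have : q < 6 := by omega
    interval_cases q
    exacts [Or.inr ⟨_, c2⟩, Or.inr ⟨_, c3⟩, Or.inr ⟨_, c4⟩, Or.inr ⟨_, c5⟩]

theorem hn (q : ℕ) (h : 2 ≤ q) : ((q ^ 8 + q ^ 7 - q ^ 5 - q ^ 4 - q ^ 3 + q + 1 : ℕ) : ℤ) = q ^ 8 + ∑ i ∈ Finset.range 8, ([1, 1, 0, -1, -1, -1, 0, 1] : List ℤ).getD i 0 * q ^ i := by
  have h1 : ∀ a b, a ≤ b → q ^ a ≤ q ^ b := fun a b => Nat.pow_le_pow_right (by omega)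
  have h2 : 2 * q ^ 5 ≤ q ^ 8 := (Nat.mul_le_mul_right _ h).trans (pow_succ' q 5 ▸ h1 6 8 (by omega))
  have := h1 4 5 (by omega)
  have := h1 3 7 (by omega)
  rw [show q ^ 8 + q ^ 7 - q ^ 5 - q ^ 4 - q ^ 3 = q ^ 8 + q ^ 7 - (q ^ 5 + q ^ 4 + q ^ 3) by omega]
  simp [Finset.sum_range_succ, Nat.cast_sub (show q ^ 5 + q ^ 4 + q ^ 3 ≤ q ^ 8 + q ^ 7 by omega)]; ring

/-- The group E₈(q) contains a cyclic subgroup of order q⁸ + q⁷ − q⁵ − q⁴ − q³ + q + 1 which is its own centralizer. -/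
theorem result {F : Type*} [Field F] [Fintype F] (q : ℕ) (hF : Fintype.card F = q) :
    ∃ H : Subgroup ↥(Cfsg.Lie.chevE8.group F), IsCyclic ↥H ∧ Nat.card ↥H = q ^ 8 + q ^ 7 - q ^ 5 - q ^ 4 - q ^ 3 + q + 1 ∧
      Subgroup.centralizer (H : Set ↥(Cfsg.Lie.chevE8.group F)) = H := by
  obtain ⟨A, e1, e2, e3⟩ := tabE8_chk.selfcent_frob (scE8 _) (scE8 F) hF _ c0 (by decide +kernel)
    (hn q (hF ▸ Fintype.one_lt_card)) (sm q (hF ▸ Fintype.one_lt_card))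
  refine ⟨A, e1, ?_, e3⟩
  rw [← e2, cardThetaE8, mul_one]

end Cfsg.Agent.S2375
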