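import Cfsg.Statements.S2376
import Cfsg.Agent.H24.Tor2
import Cfsg.Agent.H24.Facts

set_option autoImplicit false
set_option maxHeartbeats 400000
open Cfsg

namespace Cfsg.Agent.S2376

open H24

def a : List (List ℤ) := [[0, 1, 1, 0], [1, 1, 1, 0], [0, 0, 1, 1], [1, 1, 0, 0]]

theorem c0 : tabD4.chkCyc (([1] : List (Fin 4)).map Fin.val) [2, 1, 3, 0]
    [[-1, 1, 0, 0], [1, -1, 0, 1], [0, 1, 0, -1], [0, -1, 1, 1], [0, 1, -1, 0]] a [-1, -1, 0, 1] = true := by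
  decide +kernel

theorem c2 : tabD4.chkSm a 2 21 [(5, 16), (4, 2), (2, 6), (3, 3)] = true := by decide +kernel
theorem c3 : tabD4.chkSm a 3 104 [(5, 93), (4, 15), (2, 60), (0, 91)] = true := by decide +kernel
theorem c4 : tabD4.chkSm a 4 315 [(5, 296), (4, 44), (2, 220), (0, 294)] = true := by decide +kernel
theorem c5 : tabD4.chkSm a 5 744 [(5, 715), (4, 95), (2, 570), (0, 713)] = true := by decide +kernel

theorem sm (q : ℕ) (h : 2 ≤ q) : 6 ≤ q ∨ ∃ U, tabD4.chkSm a q ((q ^ 3 - 1) * (q + 1)) U = true := by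
  by_cases h' : 6 ≤ q
  · exact Or.inl h'
  · have : q < 6 := by omega
    interval_cases q
    exacts [Or.inr ⟨_, c2⟩, Or.inr ⟨_, c3⟩, Or.inr ⟨_, c4⟩, Or.inr ⟨_, c5⟩]

theorem hn (q : ℕ) (h : 0 < q) : (((q ^ 3 - 1) * (q + 1) : ℕ) : ℤ) = q ^ 4 + ∑ i ∈ Finset.range 4, ([-1, -1, 0, 1] : List ℤ).getD i 0 * q ^ i := by
  simp [Finset.sum_range_succ, Nat.cast_sub (Nat.one_le_pow _ _ h)]; ring

/-- The group ³D₄(q) contains a cyclic subgroup of order (q³ − 1)(q + 1) which is its own centralizer. -/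
theorem result {K : Type*} [Field K] [Fintype K] (q : ℕ) (hq : IsPrimePow q) (hK : Fintype.card K = q ^ 3) :
    ∃ H : Subgroup ↥(Cfsg.Lie.twistedD4 K q), IsCyclic ↥H ∧ Nat.card ↥H = (q ^ 3 - 1) * (q + 1) ∧
      Subgroup.centralizer (H : Set ↥(Cfsg.Lie.twistedD4 K q)) = H := by
  obtain ⟨M, h1, h2, -, -, h3⟩ := D4.exists_mdl (algebraMap K (AlgebraicClosure K)) hq hK
  obtain ⟨A, e1, e2, e3⟩ := tabD4_chk.selfcent M (q := q) (by
    refine pow_eq_zero_iff three_ne_zero |>.1 ?_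
    rw [← Nat.cast_pow, ← map_natCast (algebraMap K (AlgebraicClosure K)), ← hK, FiniteField.cast_card_eq_zero, map_zero])
    h2 _ (by rw [h1]; decide) c0 (hn q hq.pos) (sm q hq.two_le)
  exact ⟨A, e1, by rwa [h3, mul_one] at e2, e3⟩

end Cfsg.Agent.S2376
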