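import Cfsg.Statements.S2379
import Cfsg.Agent.H16.LA17
-- import your own Cfsg.Agent.* helpers here

set_option autoImplicit false
open Cfsg

namespace Cfsg.Agent.S2379

open H16 in
/-- Sylow subgroups of `SL_n(q)` for large primes. Let `F` be a field with `q` elements and `r` a prime with `r > n` and `r ∤ q` (so `r` does not divide the order `n!` of the Weyl group). Let `d` be the multiplicative order of `q` modulo `r`, `a` the number of integers `i` with `2 ≤ i ≤ n` divisible by `d` (the degrees of the Weyl group are `2, …, n`), and `m` the `r`-part of the value at `q` of the `d`-th cyclotomic polynomial. Then every Sylow `r`-subgroup of `SL_n(q)` is a direct product of `a` cyclic groups of order `m`. -/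
theorem result {F : Type*} [Field F] [Fintype F] {q : ℕ} (hq : Fintype.card F = q) (n : ℕ)
    (r : ℕ) [Fact r.Prime] (hrn : n < r) (hrq : ¬ r ∣ q) (P : Sylow r (Matrix.SpecialLinearGroup (Fin n) F)) :
    Nonempty (↥(P : Subgroup (Matrix.SpecialLinearGroup (Fin n) F)) ≃*
      (Fin ((Finset.Icc 2 n).filter (fun i => orderOf (q : ZMod r) ∣ i)).card →
        Multiplicative (ZMod (r ^ padicValNat r ((Polynomial.cyclotomic (orderOf (q : ZMod r)) ℤ).eval (q : ℤ)).natAbs)))) := by
  subst hq
  have h0 := orderOf_zmod_pos hrq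
  have hq := Fintype.one_lt_card (α := F)
  rw [padicValNat_cyclotomic hq hrq]
  obtain ⟨φ, hφ⟩ := exists_cycM (F := F) h0.ne' (pow_padicValNat_dvd (p := r))
  rcases n with _ | n
  · rw [Finset.Icc_eq_empty (by simp), Finset.filter_empty, Finset.card_empty]
    have : Subsingleton (Matrix.SpecialLinearGroup (Fin 0) F) :=
      ⟨fun a b => Subtype.ext (Subsingleton.elim _ _)⟩
    have : Unique P := uniqueOfSubsingleton 1
    exact ⟨MulEquiv.ofUnique⟩
  have h1 := congrArg (padicValNat r) (H22.card_SL (F := F) (n + 1) n.succ_pos)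
  rw [← Matrix.card_GL_field, card_GL_glc, Fintype.card_fin, padicValNat_glc_lt hq hrq hrn,
    padicValNat.mul (by omega) Nat.card_pos.ne'] at h1
  by_cases he : orderOf (Fintype.card F : ZMod r) = 1
  · revert φ
    rw [he] at h1 ⊢
    rw [Finset.filter_true_of_mem fun _ _ => one_dvd _, Nat.card_Icc, pow_one]
    intro φ hφ
    rw [pow_one, Nat.div_one] at h1
    obtain ⟨φ, hφ⟩ := exists_piM (β := Fin (n + 1 + 1 - 2)) φ hφ
    obtain ⟨φ, hφ⟩ := exists_toSL (n := Fin (n + 1)) φ hφ (by simp)
    refine sylow_equiv_of_card φ hφ ?_ P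
    rw [add_mul, one_mul, add_comm, add_left_inj] at h1
    rw [h1, mul_comm, pow_mul]
    simp [Nat.card_fun]
  have h2 : ¬ r ∣ Fintype.card F - 1 := fun h => he (Nat.dvd_one.1
    ((orderOf_zmod_dvd_iff (by omega) 1).2 (by simpa using h)))
  rw [show (Finset.Icc 2 (n + 1)).filter (orderOf (Fintype.card F : ZMod r) ∣ ·) =
    (Finset.Ioc 0 (n + 1)).filter (orderOf (Fintype.card F : ZMod r) ∣ ·) from by
      ext i
      simp only [Finset.mem_filter, Finset.mem_Icc, Finset.mem_Ioc, and_congr_left_iff]
      intro hi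
      have : i ≠ 1 := fun h => he (Nat.dvd_one.1 (h ▸ hi))
      omega, Nat.Ioc_filter_dvd_card_eq_div]
  obtain ⟨φ, hφ⟩ := exists_piM (β := Fin ((n + 1) / orderOf (Fintype.card F : ZMod r))) φ hφ
  obtain ⟨ψ, -, hψ⟩ := exists_extM (n := Fin (n + 1)) φ (by simpa using Nat.mul_div_le _ _)
  refine sylow_equiv_of_card _ (toSL_injective (φ := ψ) (fun a => det_eq_one_of_pow h2
    (k := padicValNat r (Fintype.card F ^ orderOf (Fintype.card F : ZMod r) - 1)) ?_)
    ((injective_iff_map_eq_one _).2 fun a ha => hφ (((hψ a).1 ha).trans φ.map_one.symm))) ?_ P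
  · rw [← Matrix.det_pow, ← map_pow, show a ^ _ = 1 from funext fun i => by
      simpa using pow_card_eq_one' (x := a i), map_one, Matrix.det_one]
  · rw [padicValNat.eq_zero_of_not_dvd h2, zero_add] at h1
    rw [h1, mul_comm, pow_mul]
    simp [Nat.card_fun]

end Cfsg.Agent.S2379
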