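import Cfsg.Statements.S2380
import Cfsg.Agent.H16.LA17
-- import your own Cfsg.Agent.* helpers here

set_option autoImplicit false
open scoped MatrixGroups
open Cfsg

namespace Cfsg.Agent.S2380

open H16 in
/-- Sylow subgroups of `GL_n(q)` for large primes. Let `F` be a field with `q` elements and `r` a prime with `r > n` and `r ∤ q`. Let `d` be the multiplicative order of `q` modulo `r` and `m` the `r`-part of the value at `q` of the `d`-th cyclotomic polynomial. Then every Sylow `r`-subgroup of `GL_n(q)` is a direct product of `⌊n/d⌋` cyclic groups of order `m` (the degrees of the Weyl group being `1, …, n`). -/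
theorem result {F : Type*} [Field F] [Fintype F] {q : ℕ} (hq : Fintype.card F = q) (n : ℕ)
    (r : ℕ) [Fact r.Prime] (hrn : n < r) (hrq : ¬ r ∣ q) (P : Sylow r (GL (Fin n) F)) :
    Nonempty (↥(P : Subgroup (GL (Fin n) F)) ≃*
      (Fin (n / orderOf (q : ZMod r)) →
        Multiplicative (ZMod (r ^ padicValNat r ((Polynomial.cyclotomic (orderOf (q : ZMod r)) ℤ).eval (q : ℤ)).natAbs)))) := by
  subst hq
  have h0 := orderOf_zmod_pos hrq
  have hq := Fintype.one_lt_card (α := F)
  rw [padicValNat_cyclotomic hq hrq]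
  obtain ⟨φ, hφ⟩ := exists_cycM (F := F) h0.ne' (pow_padicValNat_dvd (p := r))
  obtain ⟨φ, hφ⟩ := exists_piM (β := Fin (n / orderOf (Fintype.card F : ZMod r))) φ hφ
  obtain ⟨ψ, -, hψ⟩ := exists_extM (n := Fin n) φ (by simpa using Nat.mul_div_le _ _)
  refine sylow_equiv_of_card _ (toHomUnits_injective ((injective_iff_map_eq_one _).2 fun a ha =>
    hφ (((hψ a).1 ha).trans φ.map_one.symm))) ?_ P
  rw [card_GL_glc, Fintype.card_fin, padicValNat_glc_lt hq hrq hrn, mul_comm, pow_mul]
  simp [Nat.card_fun]

end Cfsg.Agent.S2380
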