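import Cfsg.Statements.S2381
import Cfsg.Agent.H16.LA22
-- import your own Cfsg.Agent.* helpers here

set_option autoImplicit false
open Cfsg

namespace Cfsg.Agent.S2381

open H16 in
/-- Sylow subgroups of `Sp_{2n}(q)` for large primes. Let `F` be a field with `q` elements and `r` an odd prime with `r > n` and `r ∤ q` (so `r` does not divide the order `2^n n!` of the Weyl group). Let `d` be the multiplicative order of `q` modulo `r`, `a` the number of `i` with `1 ≤ i ≤ n` and `d ∣ 2i` (the degrees being `2, 4, …, 2n`), and `m` the `r`-part of the value at `q` of the `d`-th cyclotomic polynomial. Then every Sylow `r`-subgroup of the symplectic group `Sp_{2n}(q)` is a direct product of `a` cyclic groups of order `m`. -/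
theorem result {F : Type*} [Field F] [Fintype F] {q : ℕ} (hq : Fintype.card F = q) (n : ℕ)
    (r : ℕ) [Fact r.Prime] (hr2 : r ≠ 2) (hrn : n < r) (hrq : ¬ r ∣ q) (P : Sylow r ↥(Matrix.symplecticGroup (Fin n) F)) :
    Nonempty (↥(P : Subgroup ↥(Matrix.symplecticGroup (Fin n) F)) ≃*
      (Fin ((Finset.Icc 1 n).filter (fun i => orderOf (q : ZMod r) ∣ 2 * i)).card →
        Multiplicative (ZMod (r ^ padicValNat r ((Polynomial.cyclotomic (orderOf (q : ZMod r)) ℤ).eval (q : ℤ)).natAbs)))) := by
  subst hq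
  have hq := Fintype.one_lt_card (α := F)
  have h0 : 0 < orderOf ((Fintype.card F : ZMod r) ^ 2) := by
    simpa using orderOf_zmod_pos (mt (Fact.out : r.Prime).dvd_of_dvd_pow hrq : ¬ r ∣ Fintype.card F ^ 2)
  have h1 : ((Finset.Icc 1 n).filter (fun i => orderOf (Fintype.card F : ZMod r) ∣ 2 * i)).card =
      n / orderOf ((Fintype.card F : ZMod r) ^ 2) := by
    rw [← Nat.Ioc_filter_dvd_card_eq_div]
    congr 1
    ext i
    simp [orderOf_dvd_iff_pow_eq_one, pow_mul, Nat.one_le_iff_ne_zero, Nat.pos_iff_ne_zero]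
  rw [padicValNat_cyclotomic hq hrq, h1]
  obtain ⟨φ, hφ⟩ := exists_cyc_sp hr2 hrq
  obtain ⟨ψ, hψ⟩ := exists_spWr (β := Fin (n / orderOf ((Fintype.card F : ZMod r) ^ 2)))
    (Q := Equiv.Perm (Fin (n / orderOf ((Fintype.card F : ZMod r) ^ 2)))) (n := n) h0.ne' (by simpa using Nat.div_mul_le_self _ _) φ hφ
  refine sylow_equiv_of_card (ψ.comp SemidirectProduct.inl)
    (hψ.comp SemidirectProduct.inl_injective) ?_ P
  rw [val_Sp_lt hr2 hrq hrn, mul_comm, pow_mul]
  simp [Nat.card_fun]

end Cfsg.Agent.S2381
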