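import Cfsg.Statements.S2383
import Cfsg.Agent.H20.CR3
import Cfsg.Agent.H24.Facts
-- import your own Cfsg.Agent.* helpers here

set_option autoImplicit false
open Cfsg

namespace Cfsg.Agent.S2383

/-- Steinberg's count of semisimple classes in characteristic 2 for the types B₂, D₄, E₇, where the finite simply connected group has trivial centre and so coincides with the Chevalley group: for the Chevalley group of type B₂, D₄ or E₇ over a field with `q` elements of characteristic 2, the conjugacy classes of elements of odd order number exactly `q^l`, `l` the rank. -/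
theorem result {F : Type*} [Field F] [Fintype F] {q : ℕ} (hq : Fintype.card F = q) [CharP F 2]
    (D : Cfsg.Lie.ChevalleyDatum) (hD : D ∈ [Cfsg.Lie.chevB2, Cfsg.Lie.chevD4, Cfsg.Lie.chevE7]) :
    Nat.card {c : ConjClasses ↥(D.group F) // ∃ g : ↥(D.group F), ConjClasses.mk g = c ∧ Odd (orderOf g)} = q ^ D.rank := by
  have H : ∀ {D : Cfsg.Lie.ChevalleyDatum} {T : H24.Tab} (h : T.Chk D), Nat.card (h.rsys.theta F).ker = 1 →
      Nat.card {c : ConjClasses ↥(D.group F) // ∃ g : ↥(D.group F), ConjClasses.mk g = c ∧
        Odd (orderOf g)} = q ^ D.rank := fun h hk => by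
    have := h.finite_grp F
    simp only [← Nat.coprime_two_right]
    rw [H20.CR.card_classes 2 (h.grp F) (h.grp_Gr F) (h.grp_r3 F) (h.grp_adj F) hk, hq, Fintype.card_fin]
  have h2 : Nat.gcd 2 (Fintype.card F - 1) = 1 := by
    obtain ⟨e, -, he⟩ := FiniteField.card F 2
    rw [he]
    exact Nat.coprime_two_left.2 (Nat.Even.sub_odd (Nat.one_le_two_pow)
      (Nat.even_pow.2 ⟨even_two, e.ne_zero⟩) odd_one)
  simp only [List.mem_cons, List.not_mem_nil, or_false] at hD
  rcases hD with rfl | rfl | rfl
  exacts [H _ ((H24.cardThetaB2 F).trans h2), H _ (by rw [H24.cardThetaD4, h2, one_pow]),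
    H _ ((H24.cardThetaE7 F).trans h2)]

end Cfsg.Agent.S2383
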