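import Cfsg.Statements.S2391
import Cfsg.Agent.H13.LinSyl
-- import your own Cfsg.Agent.* helpers here

set_option autoImplicit false
open Cfsg

namespace Cfsg.Agent.S2391

open Matrix in
/-- The Borel–Tits property of `SL_n(q)` in flag form: for a field `F` of characteristic `p` with finitely many elements and a non-trivial `p`-subgroup `U` of `SL_n(F)`, there is a flag `0 = V₀ < V₁ < ⋯ < V_{k+1} = F^n` with at least one proper non-zero member such that every element of the normaliser of `U` maps each `V_i` onto itself and every element of `U` acts trivially on each quotient `V_{i+1}/V_i` (so the normaliser lies in the parabolic subgroup of the flag and `U` in its unipotent radical). -/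
theorem result {F : Type*} [Field F] [Fintype F] (p : ℕ) [Fact p.Prime] [CharP F p] (n : ℕ)
    (U : Subgroup (Matrix.SpecialLinearGroup (Fin n) F)) (hU : IsPGroup p ↥U) (hne : U ≠ ⊥) :
    ∃ (k : ℕ) (V : Fin (k + 2) → Submodule F (Fin n → F)), 1 ≤ k ∧ StrictMono V ∧ V 0 = ⊥ ∧ V (Fin.last (k + 1)) = ⊤ ∧
      (∀ g ∈ Subgroup.normalizer (U : Set (Matrix.SpecialLinearGroup (Fin n) F)), ∀ i, (V i).map (Matrix.mulVecLin (g : Matrix (Fin n) (Fin n) F)) = V i) ∧
      (∀ u ∈ U, ∀ i : Fin (k + 1), ∀ v ∈ V i.succ, (u : Matrix (Fin n) (Fin n) F).mulVec v - v ∈ V (Fin.castSucc i)) := by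
  classical
  let ι : Matrix.SpecialLinearGroup (Fin n) F →* ((Fin n → F) ≃ₗ[F] (Fin n → F)) :=
    (H23.glE (Fin n) F).toMonoidHom.comp Matrix.SpecialLinearGroup.toGL
  have hι : ∀ g v, ι g v = (g : Matrix (Fin n) (Fin n) F) *ᵥ v := fun g v => rfl
  let st : Submodule F (Fin n → F) → Submodule F (Fin n → F) := fun W =>
    ⨅ u : U, W.comap ((ι u).toLinearMap - LinearMap.id)
  have hst : ∀ W v, v ∈ st W ↔ ∀ u ∈ U, ι u v - v ∈ W := by
    intro W v
    simp [st, Submodule.mem_iInf]
  let c : ℕ → Submodule F (Fin n → F) := fun i => st^[i] ⊥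
  have hc0 : c 0 = ⊥ := rfl
  have hcs : ∀ i, c (i + 1) = st (c i) := fun i => Function.iterate_succ_apply' _ _ _
  have hN : ∀ i, ∀ g ∈ Subgroup.normalizer (U : Set (Matrix.SpecialLinearGroup (Fin n) F)),
      ∀ v ∈ c i, ι g v ∈ c i := by
    intro i
    induction i with
    | zero => intro g _ v hv; rw [hc0, Submodule.mem_bot] at *; simp [hv]
    | succ i ih =>
      intro g hg v hv
      rw [hcs, hst] at hv ⊢
      intro u hu
      have h1 : g⁻¹ * u * g ∈ U := by
        have := (Subgroup.mem_normalizer_iff.1 (inv_mem hg) u).1 hu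
        simpa using this
      have h2 := ih g hg _ (hv _ h1)
      have h3 : ι g (ι (g⁻¹ * u * g) v) = ι u (ι g v) := by
        rw [← LinearEquiv.mul_apply, ← map_mul, ← LinearEquiv.mul_apply, ← map_mul]
        congr 2; group
      rwa [map_sub, h3] at h2
  have hUN : ∀ u ∈ U, u ∈ Subgroup.normalizer (U : Set (Matrix.SpecialLinearGroup (Fin n) F)) :=
    fun u hu => Subgroup.le_normalizer hu
  have hS : IsPGroup p (U.map ι) := hU.map ι
  have : Finite (U.map ι) := Finite.of_surjective _ (ι.subgroupMap_surjective U)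
  have hlt : ∀ i, c i ≠ ⊤ → c i < c (i + 1) := by
    intro i hi
    have hle : c i ≤ c (i + 1) := by
      intro v hv
      rw [hcs, hst]
      exact fun u hu => sub_mem (hN i u (hUN u hu) v hv) hv
    obtain ⟨x, -, hx, hx'⟩ := H13.exists_fixed_mod hS (W := c i) (M := ⊤)
      (by rintro _ ⟨u, hu, rfl⟩; exact H23.mem_stabL_of_le.2 (hN i u (hUN u hu)))
      (fun s _ => H13.mem_stabL_top s) (fun h => hi (top_le_iff.1 h))
    refine lt_of_le_of_ne hle fun h => hx ?_
    rw [h, hcs, hst]
    exact fun u hu => hx' _ ⟨u, hu, rfl⟩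
  have hex : ∃ m, c m = ⊤ := by
    by_contra! h
    have : ∀ i, i ≤ Module.finrank F (c i) := by
      intro i
      induction i with
      | zero => exact Nat.zero_le _
      | succ i ih => exact lt_of_le_of_lt ih (Submodule.finrank_lt_finrank_of_lt (hlt i (h i)))
    have h1 := this (n + 1)
    have h2 := Submodule.finrank_le (c (n + 1))
    simp at h2
    omega
  have h1 : c 1 ≠ ⊤ := by
    intro h
    apply hne
    rw [eq_bot_iff]
    intro u hu
    have : ∀ v, ι u v - v ∈ c 0 := fun v => (hst _ _).1 (by rw [← hcs, h]; trivial) u hu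
    rw [Subgroup.mem_bot]
    apply Subtype.ext
    apply Matrix.toLin'.injective
    refine LinearMap.ext fun v => ?_
    have h2 := this v
    rw [hc0, Submodule.mem_bot, sub_eq_zero, hι] at h2
    simpa using h2
  have hm := Nat.find_spec hex
  have hmin : ∀ i < Nat.find hex, c i ≠ ⊤ := fun i hi => Nat.find_min hex hi
  have h0 : c 0 ≠ ⊤ := fun h => h1 (top_le_iff.1 (by
    rw [hcs]; intro v _; rw [hst]; intro u _; rw [h]; trivial))
  obtain ⟨k, hk⟩ : ∃ k, Nat.find hex = k + 2 := by
    refine ⟨Nat.find hex - 2, ?_⟩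
    have a0 : Nat.find hex ≠ 0 := fun h => h0 (h ▸ hm)
    have a1 : Nat.find hex ≠ 1 := fun h => h1 (h ▸ hm)
    omega
  refine ⟨k + 1, fun i => c i, by omega, ?_, rfl, ?_, ?_, ?_⟩
  · rw [Fin.strictMono_iff_lt_succ]
    intro i
    exact hlt _ (hmin _ (by rw [hk]; exact i.2))
  · simpa [hk] using hm
  · intro g hg i
    exact H23.mem_stabL.1 (H23.mem_stabL_of_le.2 (hN i g hg))
  · intro u hu i v hv
    exact (hst _ _).1 (by rw [← hcs]; exact hv) u hu

end Cfsg.Agent.S2391
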