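import Cfsg.Statements.S2392
import Cfsg.Agent.H16.LA17
import Cfsg.Agent.H16.LA13
-- import your own Cfsg.Agent.* helpers here

set_option autoImplicit false
open scoped MatrixGroups
open Cfsg

namespace Cfsg.Agent.S2392

open H16 Module Matrix in
/-- A lower bound for representations in cross characteristic: for `n ≥ 3` and a field `F` with `q` elements, every homomorphism from `SL_n(F)` to `GL_d(K)`, `K` a field of characteristic different from that of `F`, whose kernel is central has `d ≥ q^(n-1) - 1`. -/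
theorem result {F : Type*} [Field F] [Fintype F] {q : ℕ} (hq : Fintype.card F = q) (n : ℕ) (hn : 3 ≤ n)
    {K : Type*} [Field K] (hK : ringChar K ≠ ringChar F) {d : ℕ}
    (ρ : Matrix.SpecialLinearGroup (Fin n) F →* GL (Fin d) K) (hker : ρ.ker ≤ Subgroup.center (Matrix.SpecialLinearGroup (Fin n) F)) :
    q ^ (n - 1) - 1 ≤ d := by
  classical
  subst hq
  let L := AlgebraicClosure K
  let i0 : Fin n := ⟨0, by omega⟩
  let A : Submodule F (Fin n → F) := LinearMap.ker (LinearMap.proj i0)
  have hA : ∀ w : A, w.1 i0 = 0 := fun w => w.2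
  let e : Fin n → F := Pi.single i0 1
  let t : Multiplicative A →* SpecialLinearGroup (Fin n) F :=
    { toFun := fun w => ⟨1 + vecMulVec e w.toAdd.1, by
        rw [vecMulVec_eq Unit, det_one_add_replicateCol_mul_replicateRow]; simp [e, hA]⟩
      map_one' := Subtype.ext (by simp)
      map_mul' := fun a b => Subtype.ext (by
        show _ = (1 + vecMulVec e a.toAdd.1) * (1 + vecMulVec e b.toAdd.1)
        simp [mul_add, add_mul, vecMulVec_mul_vecMulVec, e, hA, vecMulVec_add, add_assoc]) }
  let τ := ((matRep (Fin d) (algebraMap K L)).comp ρ)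
  have hc : Nat.card (Multiplicative A) = Fintype.card F ^ (n - 1) := by
    have := LinearMap.finrank_range_add_finrank_ker (LinearMap.proj (R := F) (φ := fun _ => F) i0)
    rw [LinearMap.range_eq_top.2 (LinearMap.proj_surjective i0)] at this
    simp only [finrank_top, finrank_self, finrank_fin_fun] at this
    rw [Nat.card_congr Multiplicative.toAdd, Module.natCard_eq_pow_finrank (K := F),
      Nat.card_eq_fintype_card, Nat.eq_sub_of_add_eq' this]
  have hL : (Nat.card (Multiplicative A) : L) ≠ 0 := by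
    obtain ⟨k, hp, hk⟩ := FiniteField.card F (ringChar F)
    rw [hc, hk, ← pow_mul, Nat.cast_pow, ← map_natCast (algebraMap K L)]
    refine pow_ne_zero _ ((map_ne_zero _).2 fun h => hK ?_)
    exact CharP.ringChar_of_prime_eq_zero hp h
  have := H2.finite_weights hL
  have := Fintype.ofFinite (Multiplicative A →* Lˣ)
  have := Fintype.ofFinite (Multiplicative A)
  have h1 := H2.card_weights hL
  rw [commutator_eq_bot, Subgroup.index_bot] at h1
  let i1 : Fin n := ⟨1, by omega⟩
  have h01 : i0 ≠ i1 := by simp [i0, i1]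
  obtain ⟨l, hl, hl'⟩ : ∃ l, l ≠ 1 ∧ H2.wsp (τ.comp t) l ≠ ⊥ := by
    by_contra! h
    have h2 := H2.fix_commutator_le (τ.comp t) hL (U := H2.wsp (τ.comp t) 1) fun l => by
      by_cases hl : l = 1
      exacts [hl ▸ le_rfl, h l hl ▸ bot_le]
    rw [commutator_eq_bot, H2.fix_bot, H2.wsp_one, top_le_iff, H2.fix_eq_top_iff] at h2
    let w : A := ⟨Pi.single i1 1, by simp [A, h01]⟩
    obtain ⟨c, hc⟩ := (mem_center_SL_iff _).1 (hker (x := t (.ofAdd w))
      (matRep_injective _ ((h2 trivial : τ (t _) = 1).trans (map_one _).symm)))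
    replace hc : 1 + vecMulVec e w.1 = c • 1 := hc
    simpa [w, e, h01, vecMulVec_apply] using congrFun₂ hc i0 i1
  obtain ⟨a, ha⟩ : ∃ a, l a ≠ 1 := by
    by_contra! h; exact hl (MonoidHom.ext h)
  let μ : A → Multiplicative A →* Lˣ := fun u =>
    { toFun := fun w => l (.ofAdd ((w.toAdd.1 ⬝ᵥ u.1) • a.toAdd))
      map_one' := by simp
      map_mul' := fun a b => by simp [add_smul] }
  have hμ : Function.Bijective μ := (Nat.bijective_iff_injective_and_card _).2 ⟨fun u v h => by
    by_contra hne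
    obtain ⟨i, hi⟩ := Function.ne_iff.1 (Subtype.coe_ne_coe.2 hne)
    have h2 := DFunLike.congr_fun h (.ofAdd ⟨Pi.single i (u.1 i - v.1 i)⁻¹, by
      have : i0 ≠ i := fun e => hi (by rw [← e, hA, hA])
      simp [A, this]⟩)
    refine ha ?_
    simp only [μ, MonoidHom.coe_mk, OneHom.coe_mk, toAdd_ofAdd, single_dotProduct] at h2
    rw [← div_eq_one, ← map_div, ← ofAdd_sub, ← sub_smul (M := A), ← mul_sub,
      inv_mul_cancel₀ (sub_ne_zero.2 hi), one_smul] at h2
    exact h2, h1.symm⟩
  have h0 : μ 0 = 1 := MonoidHom.ext fun w => by simp [μ]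
  have hi : ∀ u : A, u ≠ 0 → LinearIndependent F ![e, u.1] := fun u hu =>
    LinearIndependent.pair_iff.2 fun s r h => by
      have h2 : s = 0 := by simpa [e, hA] using congrFun h i0
      exact ⟨h2, by simpa [h2, hu] using h⟩
  obtain ⟨u, hu⟩ := hμ.2 l
  have key : ∀ l', l' ≠ 1 → 1 ≤ finrank L (H2.wsp (τ.comp t) l') := fun l' h => by
    obtain ⟨v, rfl⟩ := hμ.2 l'
    obtain ⟨g, hg, h2⟩ := H23.exists_SLv_map_family (hi u (by rintro rfl; exact hl (hu.symm.trans h0)))
      (hi v (by rintro rfl; exact h h0)) (by simp; omega)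
    obtain ⟨g, rfl⟩ := mem_range_slE g (H23.mem_SLv.1 hg)
    have h3 : g.1 *ᵥ e = e := (slE_apply g _).symm.trans (h2 0)
    have h4 : g.1 *ᵥ u.1 = v.1 := (slE_apply g _).symm.trans (h2 1)
    obtain ⟨x, hx, hx0⟩ := Submodule.exists_mem_ne_zero_of_ne_bot hl'
    refine finrank_pos_iff.2 (Submodule.nontrivial_iff_ne_bot.2 ((Submodule.ne_bot_iff _).2
      ⟨τ g x, H2.mem_wsp.2 fun w => ?_, fun h => hx0 (by simpa using congrArg (τ g⁻¹) h)⟩))
    let w' : A := ⟨w.toAdd.1 ᵥ* g.1, by
      have := dotProduct_mulVec w.toAdd.1 g.1 e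
      rw [h3] at this
      simpa [A, e, hA] using this.symm⟩
    have h5 : t w * g = g * t (.ofAdd w') := Subtype.ext (by
      show (1 + vecMulVec e w.toAdd.1) * g.1 = g.1 * (1 + vecMulVec e (w.toAdd.1 ᵥ* g.1))
      rw [add_mul, mul_add, vecMulVec_mul, mul_vecMulVec, h3, one_mul, mul_one])
    rw [MonoidHom.comp_apply, ← End.mul_apply, ← map_mul, h5, map_mul, End.mul_apply,
      ← MonoidHom.comp_apply τ t, H2.mem_wsp.1 hx, map_smul, ← hu]
    simp only [μ, MonoidHom.coe_mk, OneHom.coe_mk, toAdd_ofAdd, w', ← dotProduct_mulVec, h4]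
  have h2 := (H2.sum_finrank_wsp (τ.comp t) (by rwa [← Nat.card_eq_fintype_card])).trans_le
    (Submodule.finrank_le _)
  rw [finrank_fin_fun, ← Finset.add_sum_erase _ _ (Finset.mem_univ 1)] at h2
  have h3 := Finset.card_nsmul_le_sum (Finset.univ.erase 1) _ 1 fun l hl =>
    key l (Finset.ne_of_mem_erase hl)
  rw [Finset.card_erase_of_mem (Finset.mem_univ _), Finset.card_univ, ← Nat.card_eq_fintype_card,
    h1, hc, smul_eq_mul] at h3
  omega

end Cfsg.Agent.S2392
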