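import Cfsg.Statements.S2393
import Cfsg.Agent.H22.LsC
import Cfsg.Agent.H22.LsH
import Cfsg.Agent.H16.LA16

set_option autoImplicit false
open scoped MatrixGroups
open Cfsg

namespace Cfsg.Agent.S2393

open Module H23 H23.Form H22 H22.Ls Matrix

theorem wt_reg {G : Type*} [Group G] (A : Subgroup G) (μ : A →* ℂˣ) (χ : G → ℂ)
    (h : ∀ a : A, χ a = μ a) : wt (fnRep G G) A χ ≠ ⊥ := by
  classical
  refine (Submodule.ne_bot_iff _).2 ⟨fun x => if hx : x ∈ A then (μ ⟨x, hx⟩)⁻¹ else 0, fun b hb => ?_, fun e => ?_⟩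
  · ext x
    by_cases hx : x ∈ A
    · have : b⁻¹ * x ∈ A := mul_mem (inv_mem hb) hx
      have e : μ ⟨_, this⟩ = (μ ⟨b, hb⟩)⁻¹ * μ ⟨x, hx⟩ := by rw [← map_inv, ← map_mul]; rfl
      simp [hx, this, e, h ⟨b, hb⟩, mul_comm]
    · have : b⁻¹ * x ∉ A := fun e => hx (by simpa using mul_mem hb e)
      simp [hx, this]
  · simpa using congrFun e 1

theorem main {F V : Type*} [Field F] [Fintype F] [AddCommGroup V] [Module F V] [FiniteDimensional F V]
    {Φ : Form (RingHom.id F) V} (hΦ : Φ.Nondeg) (hε : Φ.ε = -1) (hκ : Φ.κ = 0)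
    {E : Submodule F V} (hE : ∀ u ∈ E, ∀ v ∈ E, Φ.B u v = 0) (h2 : (2 : F) ≠ 0) (h0 : E ≠ ⊥)
    {K : Type*} [Field K] [IsAlgClosed K] (hK : (ringChar F : K) ≠ 0) {d : ℕ}
    (ρ : Φ.O →* Matrix (Fin d) (Fin d) K) (hρ : ∀ g, ρ g = 1 → g ∈ Subgroup.center Φ.O) :
    Fintype.card F ^ finrank F E - 1 ≤ 2 * d := by
  classical
  have := finite_O (Φ := Φ)
  have : Fact (ringChar F).Prime := ⟨CharP.char_is_prime F _⟩
  set A := AE Φ E
  have : IsMulCommutative A := ⟨⟨fun a b => Subtype.ext (AE_comm a.2 b.2)⟩⟩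
  have hP : IsPGroup (ringChar F) A := fun a => ⟨1, Subtype.ext (O_ext _ fun x => by
    have : ∀ k : ℕ, (a.1 ^ k).1 x = x + (k : F) • (a.1.1 x - x) := fun k => by
      induction k with
      | zero => simp
      | succ k ih => rw [pow_succ, AE_mul_apply (pow_mem a.2 k) a.2, ih]; push_cast; module
    rw [pow_one, Subgroup.coe_pow, this]; simp)⟩
  have hN := H16.natCard_ne_zero_of_pgroup hP hK
  have : NeZero (Nat.card A : K) := ⟨hN⟩
  have : NeZero (Nat.card A) := ⟨Nat.card_pos.ne'⟩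
  obtain ⟨x, l, hx⟩ := H16.exists_diag hN (ρ.comp A.subtype)
  replace hx : ∀ a : A, ρ a * x.1 = x.1 * diagonal fun j => (l j a).1 := hx
  let e : rootsOfUnity (Nat.card A) K ≃* rootsOfUnity (Nat.card A) ℂ := mulEquivOfCyclicCardEq (by
    rw [HasEnoughRootsOfUnity.natCard_rootsOfUnity, HasEnoughRootsOfUnity.natCard_rootsOfUnity])
  let μ : Fin d → A →* ℂˣ := fun j => (Subgroup.subtype _).comp (e.toMonoidHom.comp
    ((l j).codRestrict _ fun a => by rw [mem_rootsOfUnity, ← map_pow, pow_card_eq_one', map_one]))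
  have hμ : ∀ i j a b, l i a = l j b → μ i a = μ j b := fun i j a b h =>
    congrArg (fun y => (e y).1) (Subtype.ext h)
  have m := fun (v : E) c => spTv_mem hΦ hε hκ hE v.2 c
  choose Q hQ using fun j => exists_Q hΦ hε hκ hE
    (wt_reg A (μ j) (fun g => if h : g ∈ A then μ j ⟨g, h⟩ else 0) fun a => by simp)
  replace hQ : ∀ j (v : E) c, (μ j ⟨_, m v c⟩ : ℂ) = LC.ψ0 F (Q j v * c) := fun j v c => by
    rw [← hQ, dif_pos (m v c)]
  have hcl : ∀ j (k : E ≃ₗ[F] E), ∃ i, Q i = (Q j).comp k.toLinearMap := fun j k => by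
    obtain ⟨g, hg, hk⟩ := hΦ.witt k (fun x y => by rw [hE _ x.2 _ y.2, hE _ (k x).2 _ (k y).2])
      fun x => by rw [Q_of_κ hκ, Q_of_κ hκ]
    let g' : Φ.O := ⟨g, hg⟩
    have hc : ∀ a : A, g' * a * g'⁻¹ ∈ A := fun a =>
      AE_conj (fun e he => by rw [show g e = _ from hk ⟨e, he⟩]; exact Subtype.property _) a.2
    let Y := (x⁻¹).1 * ρ g'⁻¹ * x.1
    have hY : ∀ a : A, (diagonal fun j => (l j a).1) * Y = Y * diagonal fun j => (l j ⟨_, hc a⟩).1 := fun a => by
      have h1 : (diagonal fun j => (l j a).1) * (x⁻¹).1 = (x⁻¹).1 * ρ a := by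
        rw [Units.eq_inv_mul_iff_mul_eq, ← mul_assoc, ← hx, Units.mul_inv_cancel_right]
      simp only [Y, ← mul_assoc, h1]
      simp only [mul_assoc, ← hx]
      simp only [← mul_assoc, ← map_mul]
      simp only [mul_assoc (x⁻¹).1, ← map_mul]
      congr 3
      group
    obtain ⟨i, hi⟩ : ∃ i, Y i j ≠ 0 := by
      by_contra! h
      have h1 : (x⁻¹).1 * ρ g' * x.1 * Y = 1 := by
        simp only [Y, mul_assoc, Units.mul_inv_cancel_left]
        rw [← mul_assoc (ρ g'), ← map_mul]; simp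
      simpa [mul_apply, h] using congrFun₂ h1 j j
    refine ⟨i, QuadraticMap.ext fun v => shift_inj LC.hψ0 fun c => ?_⟩
    rw [← hQ, QuadraticMap.comp_apply, ← hQ]
    refine congrArg _ (hμ _ _ _ _ (Units.ext ?_))
    have := congrFun₂ (hY ⟨_, m v c⟩) i j
    rw [diagonal_mul, mul_diagonal, mul_comm] at this
    refine (mul_left_cancel₀ hi this).trans ?_
    congr 3
    rw [conj_spTv]
    exact congrArg (spTv hΦ hε hκ · c) (hk v)
  obtain ⟨v0, hv0, hv⟩ := Submodule.exists_mem_ne_zero_of_ne_bot h0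
  obtain ⟨j, ha⟩ : ∃ j, Q j ⟨v0, hv0⟩ ≠ 0 := by
    by_contra! h
    have h1 : ∀ j, l j ⟨_, m ⟨v0, hv0⟩ 1⟩ = 1 := fun j => by
      have := hQ j ⟨v0, hv0⟩ 1
      rw [h, zero_mul, AddChar.map_zero_eq_one, Units.val_eq_one] at this
      exact congrArg Subtype.val (e.map_eq_one_iff.1 (Subtype.ext this))
    have h3 := hx ⟨_, m ⟨v0, hv0⟩ 1⟩
    simp only [h1, Units.val_one, diagonal_one, mul_one] at h3
    obtain ⟨w, hw⟩ := hΦ.exists_ne hv
    have h4 := conj_spTv hΦ hε hκ w 1 (spTv hΦ hε hκ v0 1)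
    rw [← Subgroup.mem_center_iff.1 (hρ (spTv hΦ hε hκ v0 1) (x.isUnit.mul_right_cancel
      (h3.trans (one_mul _).symm))) (spTv hΦ hε hκ w 1), mul_inv_cancel_right] at h4
    have h5 := congrArg (fun g : Φ.O => Φ.B v0 (g.1 w)) h4
    simp [spTv_apply, hw, (sing_alt hε hκ _).1] at h5
  have hS : (Set.range Q).ncard ≤ d := by
    simpa [Set.ncard_univ] using Set.ncard_image_le (f := Q) (s := Set.univ)
  refine le_trans (abs_one (Set.finite_range Q) (fun Q => Q)
    (a := Q j ⟨v0, hv0⟩) (fun v hv' => ?_) ?_ (fun R _ v h y => ?_)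
    fun Q _ v h y s s' e => ?_) (Nat.mul_le_mul_left _ hS)
  · obtain ⟨k, hk⟩ := exists_equiv_map_family (F := F) (v := fun _ : Unit => v)
      (w := fun _ : Unit => (⟨v0, hv0⟩ : E)) (linearIndependent_unique_iff.2 hv')
      (linearIndependent_unique_iff.2 fun e => hv (congrArg Subtype.val e))
    exact ⟨_, hcl j k, by simp [hk ()]⟩
  · rintro _ ⟨i, rfl⟩ φ v h
    exact ⟨_, hcl i (LC.t v φ), fun x => by simp [LC.t_apply h]⟩
  · refine le_trans (Set.ncard_le_ncard fun t ht => ?_)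
      (ncard_quad_le (b := QuadraticMap.polar R y v) (c := R y - Q j ⟨v0, hv0⟩) ha)
    have h4 : R (y + t • v) = _ := ht
    rw [QuadraticMap.map_add R, QuadraticMap.polar_smul_right, R.map_smul, h] at h4
    simp only [smul_eq_mul] at h4
    change _ = _
    linear_combination h4
  · have e0 := e 0
    have e1 := e 1
    simp only [QuadraticMap.map_add Q, QuadraticMap.polar_smul_right, Q.map_smul, h,
      smul_eq_mul] at e0 e1
    refine mul_left_cancel₀ (mul_ne_zero h2 ha) ?_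
    linear_combination e1 - e0

/-- A lower bound for representations in cross characteristic: for `n ≥ 2` and a field `F` with `q` elements, `q` odd, every homomorphism from the symplectic group `Sp_{2n}(F)` to `GL_d(K)`, `K` a field of characteristic different from that of `F`, whose kernel is central has `d ≥ q^(n-1)(q-1)/2`. -/
theorem result {F : Type*} [Field F] [Fintype F] {q : ℕ} (hq : Fintype.card F = q) (hodd : Odd q) (n : ℕ) (hn : 2 ≤ n)
    {K : Type*} [Field K] (hK : ringChar K ≠ ringChar F) {d : ℕ}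
    (ρ : ↥(Matrix.symplecticGroup (Fin n) F) →* GL (Fin d) K) (hker : ρ.ker ≤ Subgroup.center ↥(Matrix.symplecticGroup (Fin n) F)) :
    q ^ (n - 1) * (q - 1) / 2 ≤ d := by
  subst hq
  let e : Matrix.symplecticGroup (Fin n) F ≃* (H22.spForm n F).O := by convert H22.spEquiv n F
  obtain ⟨E, hE, hd⟩ := exists_lagr F n
  let σ := algebraMap K (AlgebraicClosure K)
  have h := main (H22.spForm_nondeg n) rfl rfl hE (H22.two_ne_zero_of_odd_card hodd)
    (fun h => by rw [h] at hd; simp at hd; omega) (K := AlgebraicClosure K) (by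
      rw [← map_natCast σ, map_ne_zero, Ne, ringChar.spec]
      intro h
      rcases (Nat.dvd_prime (CharP.char_is_prime F _)).1 h with h | h
      exacts [CharP.ringChar_ne_one h, hK h])
    (σ.mapMatrix.toMonoidHom.comp ((Units.coeHom _).comp (ρ.comp e.symm.toMonoidHom))) fun g hg => by
      have : e.symm g ∈ ρ.ker := Units.ext (Matrix.map_injective σ.injective (by simpa using hg))
      exact Subgroup.mem_center_iff.2 fun y => e.symm.injective (by
        rw [map_mul, map_mul, Subgroup.mem_center_iff.1 (hker this)])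
  rw [hd] at h
  refine Nat.div_le_of_le_mul (le_trans ?_ h)
  obtain ⟨n, rfl⟩ := Nat.exists_eq_add_of_le' (show 1 ≤ n by omega)
  rw [Nat.add_sub_cancel, Nat.mul_sub, ← pow_succ, mul_one]
  exact Nat.sub_le_sub_left (Nat.one_le_pow _ _ Fintype.card_pos) _

end Cfsg.Agent.S2393
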