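import Cfsg.Statements.S2394
import Cfsg.Agent.H25.Zsig
import Cfsg.Agent.S0245

set_option autoImplicit false
open scoped MatrixGroups
open Cfsg

namespace Cfsg.Agent.S2394

/-- The smallest degree of a faithful representation of the symplectic group `Sp_{2n}(q)` over its own field `F_q` is `2n`: every injective homomorphism from `Sp_{2n}(F)` to `GL_d(F)`, `F` the field with `q` elements, has `d ≥ 2n`. -/
theorem result {F : Type*} [Field F] [Fintype F] (n : ℕ) {d : ℕ}
    (ρ : ↥(Matrix.symplecticGroup (Fin n) F) →* GL (Fin d) F) (hρ : Function.Injective ρ) : 2 * n ≤ d := by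
  classical
  by_contra! hd
  have h1 := Subgroup.card_dvd_of_injective ρ hρ
  rw [Cfsg.Agent.S0245.result rfl, Matrix.card_GL_field] at h1
  have hq := Fintype.one_lt_card (α := F)
  generalize Fintype.card F = q at *
  obtain _ | _ | n := n
  · omega
  · have h2 := Nat.le_of_dvd (Finset.prod_pos fun i _ => Nat.sub_pos_of_lt (Nat.pow_lt_pow_right hq i.2)) h1
    have : q ^ 2 = q * q := sq q
    obtain rfl | rfl : d = 0 ∨ d = 1 := by omega
    · simp at h2
      have : 2 * 2 ≤ q * q := Nat.mul_le_mul hq hq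
      have : 2 * 3 ≤ q * (q ^ 2 - 1) := Nat.mul_le_mul hq (by omega)
      omega
    · simp at h2
      have : 2 * 2 ≤ q * q := Nat.mul_le_mul hq hq
      have : q * 3 ≤ q * (q ^ 2 - 1) := Nat.mul_le_mul le_rfl (by omega)
      omega
  by_cases h6 : q = 2 ∧ 2 * (n + 2) = 6
  · obtain ⟨rfl, h6⟩ := h6
    obtain rfl : n = 1 := by omega
    have : d < 6 := hd
    revert h1
    interval_cases d <;> decide +kernel
  obtain ⟨r, hr, h2, h3⟩ := H25.zsigmondy hq (by omega) h6 (by omega)
  have h4 : r ∣ ∏ i : Fin d, (q ^ d - q ^ (i : ℕ)) := by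
    refine (h2.trans ?_).trans h1
    exact (Finset.dvd_prod_of_mem (fun i => q ^ (2 * (i + 1)) - 1)
      (Finset.mem_range.2 (Nat.lt_succ_self _))).mul_left _
  obtain ⟨i, -, hi⟩ := (hr.prime.dvd_finsetProd_iff _).1 h4
  have e : q ^ d - q ^ (i : ℕ) = q ^ (i : ℕ) * (q ^ (d - i) - 1) := by
    rw [Nat.mul_sub, ← pow_add, Nat.add_sub_cancel' i.2.le, mul_one]
  rw [e, hr.dvd_mul] at hi
  refine hi.elim (fun h => ?_) (h3 _ (by omega) (by omega))
  have := Nat.dvd_sub (dvd_pow (hr.dvd_of_dvd_pow h) (show 2 * (n + 2) ≠ 0 by omega)) h2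
  rw [Nat.sub_sub_self (Nat.one_le_pow _ _ (by omega))] at this
  exact hr.one_lt.ne' (Nat.dvd_one.1 this)

end Cfsg.Agent.S2394
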