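import Cfsg.Statements.S2397
import Cfsg.Agent.H24.Misc

set_option autoImplicit false
set_option maxHeartbeats 400000
open Cfsg

namespace Cfsg.Agent.S2397

/-- Over a finite field the relators (R3) h̄_r(t₁) h̄_r(t₂) = h̄_r(t₁ t₂) are consequences of (R1) and (R2): for each of the types G₂, B₂, D₄, F₄, E₆, E₇, E₈ (for types B₂ and G₂ the field must have more than two elements — the cases where the Chevalley group is not simple are set aside) the group presented by (R1), (R2) is canonically isomorphic to the one presented by (R1)–(R3), by an isomorphism matching the generators x̄_r(t). -/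
theorem result {K : Type*} [Field K] [Finite K] (D : Cfsg.Lie.ChevalleyDatum) (hD : D ∈ [Cfsg.Lie.chevG2, Cfsg.Lie.chevB2, Cfsg.Lie.chevD4, Cfsg.Lie.chevF4, Cfsg.Lie.chevE6, Cfsg.Lie.chevE7, Cfsg.Lie.chevE8]) (hK : D ∈ [Cfsg.Lie.chevB2, Cfsg.Lie.chevG2] → ∃ x : K, x ≠ 0 ∧ x ≠ 1) :
    ∃ e : D.SteinbergCover K ≃* D.SteinbergGroup K, ∀ (r : ℕ) (t : K), e (D.scGen K r t) = D.stGen K r t := by
  obtain ⟨T, h⟩ := H24.exists_tab hD
  let a := h.liftC (h.stb K).toSt0
  let b := h.liftS (h.cov K).toSt0 (h.cov K).r3_of_finite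
  have ha : ∀ r t, a ((h.cov K).x r t) = (h.stb K).x r t := h.liftC_x _
  have hb : ∀ r t, b ((h.stb K).x r t) = (h.cov K).x r t := h.liftS_x _ _
  refine ⟨a.toMulEquiv b ((h.cov K).hom_ext_simple (h.cov_Gr K) fun i t => by simp [ha, hb])
    ((h.stb K).hom_ext_simple (h.stb_Gr K) fun i t => by simp [ha, hb]), fun r t => ?_⟩
  by_cases hr : r < D.nroots
  · rw [h.scGen_eq K hr, h.stGen_eq K hr]; exact ha _ _
  · simp [Lie.ChevalleyDatum.scGen, Lie.ChevalleyDatum.stGen, Lie.ChevalleyDatum.stX, hr]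

end Cfsg.Agent.S2397
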