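import Cfsg.Statements.S2399
import Cfsg.Agent.H24.Lift3

set_option autoImplicit false
set_option maxHeartbeats 400000
open scoped MatrixGroups
open Cfsg

namespace Cfsg.Agent.S2399

/-- Projective representations in the natural characteristic lift: for each of the types G₂, B₂, D₄, F₄, E₆, E₇, E₈ over any field `K` (for types B₂ and G₂ the field must have more than two elements — the cases where the Chevalley group is not simple are set aside), every homomorphism from the Chevalley group to `PGL_n(L) = GL_n(L)/Z`, `L` a field of the same characteristic as `K`, lifts uniquely to a homomorphism from the group Δ presented by (R1), (R2) to `GL_n(L)`, compatibly with the projection Δ → Chevalley group sending x̄_r(t) to x_r(t). -/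
theorem result {K : Type*} [Field K] (D : Cfsg.Lie.ChevalleyDatum) (hD : D ∈ [Cfsg.Lie.chevG2, Cfsg.Lie.chevB2, Cfsg.Lie.chevD4, Cfsg.Lie.chevF4, Cfsg.Lie.chevE6, Cfsg.Lie.chevE7, Cfsg.Lie.chevE8]) (hK : D ∈ [Cfsg.Lie.chevB2, Cfsg.Lie.chevG2] → ∃ x : K, x ≠ 0 ∧ x ≠ 1)
    (θ : D.SteinbergCover K →* ↥(D.group K))
    (hθ : ∀ (r : ℕ) (t : K), r < D.nroots → ((θ (D.scGen K r t) : GL D.Idx K) : Matrix D.Idx D.Idx K) = D.x K r t)
    {L : Type*} [Field L] (hL : ringChar L = ringChar K) {n : ℕ}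
    (φ : ↥(D.group K) →* GL (Fin n) L ⧸ Subgroup.center (GL (Fin n) L)) :
    ∃! ψ : D.SteinbergCover K →* GL (Fin n) L, (QuotientGroup.mk' (Subgroup.center (GL (Fin n) L))).comp ψ = φ.comp θ := by
  obtain ⟨T, h, h1, h2⟩ := H24.exists_tab_big (F := K) (GL (Fin n) L) hD hK
  have c : H24.CE (QuotientGroup.mk' (Subgroup.center (GL (Fin n) L))) :=
    H24.CE.of_ker (QuotientGroup.mk'_surjective _) (QuotientGroup.ker_mk' _).le
  refine existsUnique_of_exists_of_unique ?_ fun τ τ' h h' => c.hom_unique h1 (h.trans h'.symm)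
  obtain ⟨p, hp⟩ := CharP.exists K
  rcases CharP.char_is_prime_or_zero K p with hp' | rfl
  swap
  · have := CharP.charP_to_charZero K
    obtain ⟨s, hs⟩ := Infinite.exists_subset_card_eq K 5
    exact h.universal c _ fun c => h2 ⟨s, by omega⟩ c
  have : CharP L p := ringChar.of_eq (hL.trans (ringChar.eq K p))
  have := Fact.mk hp'
  let A := ((QuotientGroup.mk' (Subgroup.center (GL (Fin n) L))).comp (MonoidHom.fst _ _)).eqLocus
    ((φ.comp θ).comp (MonoidHom.snd _ _)) ⊓ (Matrix.GeneralLinearGroup.det.comp (MonoidHom.fst (GL (Fin n) L) (D.SteinbergCover K))).ker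
  have hz : ∀ z : A, z.1.2 = 1 → z.1.1 ∈ Subgroup.center (GL (Fin n) L) := fun z hz =>
    (QuotientGroup.eq_one_iff _).1 (z.2.1.trans ((congrArg (φ.comp θ) hz).trans (map_one _)))
  obtain ⟨m, hm, hm'⟩ : ∃ m, p.Coprime m ∧ ∀ g ∈ Subgroup.center (GL (Fin n) L),
      Matrix.GeneralLinearGroup.det g = 1 → g ^ m = 1 := by
    rcases Nat.eq_zero_or_pos n with rfl | hn
    · exact ⟨1, by simp, fun g _ _ => Subsingleton.elim _ _⟩
    obtain ⟨k, m, hm, rfl⟩ := Nat.exists_eq_pow_mul_and_not_dvd hn.ne' p hp'.ne_one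
    refine ⟨m, (Nat.Prime.coprime_iff_not_dvd hp').2 hm, fun g hg e => ?_⟩
    rw [Matrix.GeneralLinearGroup.center_eq_range_scalar] at hg
    obtain ⟨a, rfl⟩ := hg
    rw [← map_pow, show a ^ m = 1 from ?_, map_one]
    rw [Matrix.GeneralLinearGroup.det_scalar, Fintype.card_fin, mul_comm, pow_mul] at e
    refine Units.ext (iterateFrobenius_inj L p k ?_)
    simpa [iterateFrobenius_def] using congrArg Units.val e
  refine h.exists_lift _ (A := A) (fun a ha => ha.1) (H24.CE.lifts_coprime ⟨fun d => ?_, fun z h e => ?_⟩ _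
    (CharP.cast_eq_zero K p) hm fun z h => Subtype.ext (Prod.ext (hm' _ (hz z h) z.2.2) ?_))
  · have : commutator _ ≤ ((MonoidHom.snd _ _).comp A.subtype).range := Subgroup.commutator_le.2 fun a _ b _ => by
      obtain ⟨x, hx⟩ := c.surj (φ.comp θ a)
      obtain ⟨y, hy⟩ := c.surj (φ.comp θ b)
      refine ⟨⟨(x * y * x⁻¹ * y⁻¹, a * b * a⁻¹ * b⁻¹), ?_, ?_⟩, rfl⟩
      · change QuotientGroup.mk' _ (x * y * x⁻¹ * y⁻¹) = φ.comp θ (a * b * a⁻¹ * b⁻¹)
        simp only [map_mul, map_inv, hx, hy]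
      · change Matrix.GeneralLinearGroup.det (x * y * x⁻¹ * y⁻¹) = 1
        simp [mul_comm]
    exact this (h1 ▸ Subgroup.mem_top d)
  · refine Subtype.ext (Prod.ext (Subgroup.mem_center_iff.1 (hz z h) _).symm ?_)
    change z.1.2 * _ = _ * z.1.2
    rw [show z.1.2 = 1 from h, one_mul, mul_one]
  · change z.1.2 ^ m = 1
    rw [show z.1.2 = 1 from h, one_pow]

end Cfsg.Agent.S2399
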