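import Cfsg.Statements.S2400
import Cfsg.Agent.H24.Lift3

set_option autoImplicit false
set_option maxHeartbeats 400000
open Cfsg

namespace Cfsg.Agent.S2400

/-- Over a finite field `K`, the group presented by Steinberg's relators (R1)–(R3) (the universal Chevalley group) of type E₆ or E₇, or of type B₂ or D₄ with `K` of more than two elements, has trivial Schur multiplier: every finite stem extension of it is an isomorphism (Schur multiplier described through stem extensions as in the definitions). Types G₂, F₄ and E₈ are not covered here. -/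
theorem result {K : Type*} [Field K] [Fintype K] (e : Cfsg.Lie.ChevalleyDatum × ℕ)
    (he : e ∈ [(Cfsg.Lie.chevE6, 0), (Cfsg.Lie.chevE7, 0), (Cfsg.Lie.chevB2, 2), (Cfsg.Lie.chevD4, 2)]) (hK : Fintype.card K ≠ e.2) :
    Cfsg.HasCyclicSchurMultiplier (e.1.SteinbergGroup K) 1 := by
  simp only [List.mem_cons, List.not_mem_nil, or_false] at he
  have h3 : e.2 = 2 → 3 ≤ Fintype.card K := fun h => by have := Fintype.one_lt_card (α := K); omega
  rcases he with rfl | rfl | rfl | rfl
  · exact H24.tabE6_chk.hasSchur _ (H24.tabE6_chk.stb_Gr K) (H24.tabE6_chk.perf H24.perfE6 _)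
      (fun _ _ _ => H24.liftsE6 _) (Or.inl rfl) H24.tabE6_chk.card_ker_stb
  · exact H24.tabE7_chk.hasSchur _ (H24.tabE7_chk.stb_Gr K) (H24.tabE7_chk.perf H24.perfE7 _)
      (fun _ _ _ => H24.liftsE7 _) (Or.inl rfl) H24.tabE7_chk.card_ker_stb
  · exact H24.tabB2_chk.hasSchur _ (H24.tabB2_chk.stb_Gr K) (H24.goodB2 _ (H24.exists_ne_zero_one K (h3 rfl)))
      (fun _ _ _ => H24.liftsB2 (H24.small_cases (h3 rfl)) _) (Or.inl rfl) H24.tabB2_chk.card_ker_stb
  · exact H24.tabD4_chk.hasSchur _ (H24.tabD4_chk.stb_Gr K) (H24.tabD4_chk.perf H24.perfD4 _)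
      (fun _ _ _ => H24.liftsD4 (H24.small_cases (h3 rfl)) _) (Or.inl rfl) H24.tabD4_chk.card_ker_stb

end Cfsg.Agent.S2400
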