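import Cfsg.Statements.S2401
import Cfsg.Agent.H7.TA1

set_option autoImplicit false
open Cfsg

namespace Cfsg.Agent.S2401



/-- The Steinberg presentation of `SL_n` over a finite field for `n ≥ 3`: the group generated by symbols `x_ij(t)` (`i ≠ j`, `t` in the field) subject to `x_ij(t) x_ij(u) = x_ij(t + u)` and, for `i ≠ l`, `x_ij(t) x_kl(u) x_ij(t)⁻¹ x_kl(u)⁻¹ = x_il(tu)` if `j = k` and `= 1` if `j ≠ k`, is isomorphic to `SL_n` by an isomorphism sending `x_ij(t)` to the elementary matrix `1 + t E_ij`. -/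
theorem result {K : Type*} [Field K] [Finite K] (n : ℕ) (hn : 3 ≤ n) :
    ∃ e : PresentedGroup
        ({g : FreeGroup ({ij : Fin n × Fin n // ij.1 ≠ ij.2} × K) | ∃ (a : {ij : Fin n × Fin n // ij.1 ≠ ij.2}) (t u : K),
            g = FreeGroup.of (a, t) * FreeGroup.of (a, u) * (FreeGroup.of (a, t + u))⁻¹} ∪
          {g | ∃ (a b : {ij : Fin n × Fin n // ij.1 ≠ ij.2}) (t u : K), a.1.1 ≠ b.1.2 ∧ a.1.2 ≠ b.1.1 ∧
            g = FreeGroup.of (a, t) * FreeGroup.of (b, u) * (FreeGroup.of (a, t))⁻¹ * (FreeGroup.of (b, u))⁻¹} ∪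
          {g | ∃ (a b : {ij : Fin n × Fin n // ij.1 ≠ ij.2}) (h : a.1.1 ≠ b.1.2) (t u : K), a.1.2 = b.1.1 ∧
            g = FreeGroup.of (a, t) * FreeGroup.of (b, u) * (FreeGroup.of (a, t))⁻¹ * (FreeGroup.of (b, u))⁻¹ *
              (FreeGroup.of (⟨(a.1.1, b.1.2), h⟩, t * u))⁻¹}) ≃* Matrix.SpecialLinearGroup (Fin n) K,
      ∀ (a : {ij : Fin n × Fin n // ij.1 ≠ ij.2}) (t : K), ((e (PresentedGroup.of (a, t)) : Matrix (Fin n) (Fin n) K)) = Matrix.transvection a.1.1 a.1.2 t := by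
  set R := ({g : FreeGroup ({ij : Fin n × Fin n // ij.1 ≠ ij.2} × K) | ∃ (a : {ij : Fin n × Fin n // ij.1 ≠ ij.2}) (t u : K),
            g = FreeGroup.of (a, t) * FreeGroup.of (a, u) * (FreeGroup.of (a, t + u))⁻¹} ∪
          {g | ∃ (a b : {ij : Fin n × Fin n // ij.1 ≠ ij.2}) (t u : K), a.1.1 ≠ b.1.2 ∧ a.1.2 ≠ b.1.1 ∧
            g = FreeGroup.of (a, t) * FreeGroup.of (b, u) * (FreeGroup.of (a, t))⁻¹ * (FreeGroup.of (b, u))⁻¹} ∪
          {g | ∃ (a b : {ij : Fin n × Fin n // ij.1 ≠ ij.2}) (h : a.1.1 ≠ b.1.2) (t u : K), a.1.2 = b.1.1 ∧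
            g = FreeGroup.of (a, t) * FreeGroup.of (b, u) * (FreeGroup.of (a, t))⁻¹ * (FreeGroup.of (b, u))⁻¹ *
              (FreeGroup.of (⟨(a.1.1, b.1.2), h⟩, t * u))⁻¹}) with hR
  have hf : ∀ r ∈ R, FreeGroup.lift (fun p : {ij : Fin n × Fin n // ij.1 ≠ ij.2} × K =>
      H7.tv p.1.1.1 p.1.1.2 p.2) r = 1 := by
    rintro _ ((⟨a, t, u, rfl⟩ | ⟨a, b, t, u, h1, h2, rfl⟩) | ⟨a, b, h, t, u, h1, rfl⟩)
    · simp [H7.tv_add a.2]
    · simp [(H7.tv_commute a.2 b.2 h2 h1 t u).eq]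
    · simp only [map_mul, map_inv, FreeGroup.lift_apply_of, mul_inv_eq_one, ← h1]
      exact H7.tv_comm a.2 (h1 ▸ b.2) h t u
  have rel : ∀ r ∈ R, PresentedGroup.mk R r = 1 := fun r hr => PresentedGroup.one_of_mem hr
  obtain ⟨φ, hφ⟩ := H7.exists_hom_SL (G := PresentedGroup R) hn
    (fun a b t => if h : a ≠ b then PresentedGroup.of (⟨(a, b), h⟩, t) else 1)
    (fun a b h t u => by
      simp only [dif_pos h]
      exact (mul_inv_eq_one.1 (rel _ (Or.inl (Or.inl ⟨⟨(a, b), h⟩, t, u, rfl⟩)))).symm)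
    (fun a b c h1 h2 h3 t u => by
      simp only [dif_pos h1, dif_pos h2, dif_pos h3]
      exact mul_inv_eq_one.1 (rel _ (Or.inr ⟨⟨(a, b), h1⟩, ⟨(b, c), h2⟩, h3, t, u, rfl, rfl⟩)))
    (fun a b c d h1 h2 h3 h4 t u => by
      simp only [dif_pos h1, dif_pos h2]
      exact commutatorElement_eq_one_iff_commute.1
        (rel _ (Or.inl (Or.inr ⟨⟨(a, b), h1⟩, ⟨(c, d), h2⟩, t, u, h4, h3, rfl⟩))))
  refine ⟨MonoidHom.toMulEquiv (PresentedGroup.toGroup hf) φ ?_ ?_, fun a t => ?_⟩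
  · ext ⟨a, t⟩
    simp [hφ _ _ a.2, a.2]
  · refine MonoidHom.ext fun g => ?_
    have : ((PresentedGroup.toGroup hf).comp φ).eqLocus (MonoidHom.id _) = ⊤ :=
      H7.eq_top_of_tv fun a b h t => by
        change PresentedGroup.toGroup hf (φ _) = H7.tv a b t
        rw [hφ a b h, dif_pos h, PresentedGroup.toGroup.of]
    exact (this.ge (Subgroup.mem_top g) :)
  · change H7.slM _ _ (PresentedGroup.toGroup hf (PresentedGroup.of (a, t))) = _
    rw [PresentedGroup.toGroup.of, H7.coe_tv a.2]; rfl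

end Cfsg.Agent.S2401
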