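import Cfsg.Statements.S2404
import Cfsg.Agent.H20.CR3
import Cfsg.Agent.H24.Facts
-- import your own Cfsg.Agent.* helpers here

set_option autoImplicit false
open Cfsg

namespace Cfsg.Agent.S2404

/-- Steinberg's count of semisimple classes for type E₆ when the finite simply connected group has trivial centre: over a field with `q` elements of characteristic `p` with `q ≢ 1 (mod 3)`, the simply connected group E₆(q) coincides with the Chevalley group, and the conjugacy classes of elements of order prime to `p` in the Chevalley group of type E₆ number exactly `q^6`. -/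
theorem result {F : Type*} [Field F] [Fintype F] {q : ℕ} (hq : Fintype.card F = q) (hq3 : q % 3 ≠ 1) (p : ℕ) [Fact p.Prime] [CharP F p] :
    Nat.card {c : ConjClasses ↥(Cfsg.Lie.chevE6.group F) // ∃ g : ↥(Cfsg.Lie.chevE6.group F), ConjClasses.mk g = c ∧ (orderOf g).Coprime p} = q ^ 6 := by
  have h := H24.tabE6_chk
  have := h.finite_grp F
  rw [H20.CR.card_classes p (h.grp F) (h.grp_Gr F) (h.grp_r3 F) (h.grp_adj F), hq, Fintype.card_fin]
  · rfl
  refine (H24.cardThetaE6 F).trans ((Nat.Prime.coprime_iff_not_dvd Nat.prime_three).2 fun h => ?_)
  have := Fintype.card_pos (α := F)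
  omega

end Cfsg.Agent.S2404
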