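import Cfsg.Statements.S2405
import Cfsg.Agent.H7.TG3

set_option autoImplicit false
open Cfsg

namespace Cfsg.Agent.S2405



/-- Each Chevalley group of type G₂, B₂, D₄, F₄, E₆, E₇ or E₈ over a finite field is generated by two of its elements (types B₂ and G₂ over the field with two elements, where the group is not simple, excepted). -/
theorem result {F : Type*} [Field F] [Finite F] (D : Cfsg.Lie.ChevalleyDatum) (hD : D ∈ [Cfsg.Lie.chevG2, Cfsg.Lie.chevB2, Cfsg.Lie.chevD4, Cfsg.Lie.chevF4, Cfsg.Lie.chevE6, Cfsg.Lie.chevE7, Cfsg.Lie.chevE8])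
    (hF : D ∈ [Cfsg.Lie.chevB2, Cfsg.Lie.chevG2] → ∃ x : F, x ≠ 0 ∧ x ≠ 1) :
    ∃ a b : ↥(D.group F), Subgroup.closure ({a, b} : Set ↥(D.group F)) = ⊤ := by
  simp only [List.mem_cons, List.not_mem_nil, or_false] at hD hF
  by_cases h : ∃ x : F, x ≠ 0 ∧ x ≠ 1 <;> rcases hD with rfl | rfl | rfl | rfl | rfl | rfl | rfl
  · exact H7.bigG2.gen (H24.tabG2_chk.grp F) (H24.tabG2_chk.grp_Gr F) h
  · exact H7.bigB2.gen (H24.tabB2_chk.grp F) (H24.tabB2_chk.grp_Gr F) h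
  · exact H7.bigD4.gen (H24.tabD4_chk.grp F) (H24.tabD4_chk.grp_Gr F) h
  · exact H7.bigF4.gen (H24.tabF4_chk.grp F) (H24.tabF4_chk.grp_Gr F) h
  · exact H7.bigE6.gen (H24.tabE6_chk.grp F) (H24.tabE6_chk.grp_Gr F) h
  · exact H7.bigE7.gen (H24.tabE7_chk.grp F) (H24.tabE7_chk.grp_Gr F) h
  · exact H7.bigE8.gen (H24.tabE8_chk.grp F) (H24.tabE8_chk.grp_Gr F) h
  · exact absurd (hF (.inr rfl)) h
  · exact absurd (hF (.inl rfl)) h
  · exact H7.smallD4.gen (H24.tabD4_chk.grp F) (H24.tabD4_chk.grp_Gr F) h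
  · exact H7.smallF4.gen (H24.tabF4_chk.grp F) (H24.tabF4_chk.grp_Gr F) h
  · exact H7.smallE6.gen (H24.tabE6_chk.grp F) (H24.tabE6_chk.grp_Gr F) h
  · exact H7.smallE7.gen (H24.tabE7_chk.grp F) (H24.tabE7_chk.grp_Gr F) h
  · exact H7.smallE8.gen (H24.tabE8_chk.grp F) (H24.tabE8_chk.grp_Gr F) h

end Cfsg.Agent.S2405
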