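import Cfsg.Statements.S2410
import Cfsg.Agent.H26.SzSub2

set_option autoImplicit false
open Cfsg

namespace Cfsg.Agent.S2410


/-- The Suzuki group over the field with `2^(2m+1)` elements, `m ≥ 1` (realised as the stabiliser in `SL₄` of the Suzuki–Tits ovoid), is generated by two of its elements. -/
theorem result {F : Type*} [Field F] [Fintype F] {m : ℕ} (hm : 1 ≤ m) (hF : Fintype.card F = 2 ^ (2 * m + 1)) :
    ∃ a b : ↥(Cfsg.Sz F m), Subgroup.closure ({a, b} : Set ↥(Cfsg.Sz F m)) = ⊤ := by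
  classical
  let N := H26.Sz.ovoidModel hm hF
  have := N.finite
  have h8 := N.eight_le_card
  obtain ⟨a, ha⟩ := (Subgroup.isCyclic_iff_exists_zpowers_eq_top N.H).1 N.isCyclic_H
  have haH : a ∈ N.H := ha ▸ Subgroup.mem_zpowers a
  have hoa : orderOf a = Fintype.card F - 1 := by rw [← Nat.card_zpowers, ha, N.card_H]
  have ha1 : a ≠ 1 := by
    rintro rfl
    rw [orderOf_one] at hoa
    omega
  obtain ⟨b, hb, -⟩ := N.exists_torus (Or.inl rfl)
  refine ⟨a, b, ?_⟩
  have haS : a ∈ Subgroup.closure {a, b} := Subgroup.subset_closure (Or.inl rfl)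
  have hbS : b ∈ Subgroup.closure {a, b} := Subgroup.subset_closure (Or.inr rfl)
  rcases N.subgroup_cases (Subgroup.closure {a, b}) with ⟨U, hU, h⟩ | ⟨g, E, hE, h⟩
  · exfalso
    have hB : ∀ k, b ∉ Subgroup.normalizer ((N.conj k).Q : Set _) := fun k h => by
      rw [H26.SzModel.normalizer_Q] at h
      exact N.not_fpf_of_mem_conj_B h hb
    rcases N.part_cases_of_H hU haH ha1 (h haS) with rfl | rfl | rfl
    · exact hB 1 (by rw [N.conj_Q_of_mem_B N.B.one_mem]; exact h hbS)
    · exact hB _ (h hbS)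
    · have h1 := orderOf_dvd_natCard (⟨b, h hbS⟩ : Subgroup.normalizer (N.H : Set _))
      rw [N.card_normalizer_H, Subgroup.orderOf_mk] at h1
      have h2 : orderOf b ∣ Fintype.card F ^ 2 * (Fintype.card F - 1) :=
        h1.trans (Nat.mul_dvd_mul_right (even_iff_two_dvd.1 (N.even_card.pow_of_ne_zero two_ne_zero)) _)
      exact hb.ne_one (orderOf_eq_one_iff.1 (Nat.eq_one_of_dvd_coprimes N.coprime_card_B hb.orderOf_dvd h2))
  · rcases N.subfield_eq_top_or hE with rfl | h3
    · rw [h, H26.SzModel.sub_top]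
    · exfalso
      rw [h] at haS
      have h1 := orderOf_dvd_natCard (⟨a, haS⟩ : (N.conj g).sub E)
      rw [(N.conj g).card_sub hE, Subgroup.orderOf_mk, hoa, mul_assoc] at h1
      obtain ⟨k, -, hc, -⟩ := N.card_subfield hE
      have h4 : Nat.Coprime (Fintype.card F - 1) (Nat.card E ^ 2) := by
        rw [hc, ← pow_mul]
        exact Nat.Coprime.pow_right _ (Nat.coprime_two_right.2 N.odd_card_sub_one)
      have h5 := Nat.le_of_dvd (Nat.mul_pos (by omega) (by omega)) (h4.dvd_of_dvd_mul_left h1)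
      obtain ⟨e, he⟩ : ∃ e, Nat.card E = e + 1 := ⟨Nat.card E - 1, by omega⟩
      obtain ⟨q, hq⟩ : ∃ q, Fintype.card F = q + 1 := ⟨Fintype.card F - 1, by omega⟩
      rw [he, hq] at h3 h5
      rw [he] at hE
      simp only [Nat.add_sub_cancel] at h5
      nlinarith

end Cfsg.Agent.S2410
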