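import Cfsg.Statements.S2413
import Cfsg.Agent.H7.TG2

set_option autoImplicit false
open Cfsg

namespace Cfsg.Agent.S2413



/-- The simple orthogonal group `PΩ_{2m+1}(q)` (commutator subgroup of the orthogonal group of `x₀² + Σ x_i y_i` modulo its centre) with `m ≥ 2` and `q` odd is generated by two of its elements. -/
theorem result {F : Type*} [Field F] [Fintype F] (hodd : Odd (Fintype.card F)) (m : ℕ) (hm : 2 ≤ m) :
    ∃ a b : Cfsg.POmega F (Cfsg.quadFormOdd m F), Subgroup.closure ({a, b} : Set (Cfsg.POmega F (Cfsg.quadFormOdd m F))) = ⊤ := by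
  obtain ⟨m, rfl⟩ : ∃ k, m = k + 2 := ⟨m - 2, by omega⟩
  have h := H7.exists_ne01 (F := F) (by have := Fintype.one_lt_card (α := F); obtain ⟨k, e⟩ := hodd; omega)
  obtain ⟨S, hS, -⟩ := H7.exists_stOdd' (F := F) (m := m) (.inr h)
  exact H7.two_gen_quot (H7.two_gen_cdC S hS nofun (.inl h))

end Cfsg.Agent.S2413
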