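import Cfsg.Statements.S2416
import Cfsg.Agent.H24.Chr

set_option autoImplicit false
set_option maxHeartbeats 400000
open scoped MatrixGroups
open Cfsg

namespace Cfsg.Agent.S2416

theorem aux {K : Type*} [Field K] {D : Cfsg.Lie.ChevalleyDatum} {T : H24.Tab} (h : T.Chk D) (hd : T.chkDom = true)
    (i : Fin D.rank) (H : ∀ j : Fin D.rank, T.len (T.simple j) = T.len (T.simple i) ∨ ∃ a b r : ℕ, ∃ c : ℤ,
      (a < T.n ∧ b < T.n ∧ r < T.n ∧ b ≠ a ∧ b ≠ T.neg a ∧ H24.gTerms T.chain a b = [(r, c, 1, 1)] ∧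
      T.len a = T.len (T.simple i) ∧ T.len b = T.len (T.simple i) ∧ T.len r = T.len (T.simple j)) ∧ (c : K) ≠ 0) :
    D.group K ≤ D.monomialSubgroup K ⊔ D.rootSubgroup K (D.simple i) := by
  rw [h.group_eq, h.monomialSubgroup_eq, ← h.val_sim', h.rootSubgroup_eq]
  generalize h.st K = S
  have key : ∀ r s : Fin D.nroots, T.len r = T.len s →
      (∀ t, S.x r t ∈ S.N ⊔ S.XS {h.rsys.sim i}) → ∀ t, S.x s t ∈ S.N ⊔ S.XS {h.rsys.sim i} := fun r s e H => by
    obtain ⟨w, hw, rfl⟩ := h.exists_W_of_len hd r s (congrArg Nat.cast e)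
    exact S.x_mem_W le_sup_left H hw
  have k0 : ∀ s : Fin D.nroots, T.len s = T.len (T.simple i) → ∀ t, S.x s t ∈ S.N ⊔ S.XS {h.rsys.sim i} :=
    fun s e => key (h.rsys.sim i) s (by rw [h.val_sim, e]) fun t =>
      Subgroup.mem_sup_right (S.x_mem (Set.mem_singleton _) t)
  refine S.Gr_le_of_N le_sup_left fun j => ?_
  rcases H j with e | ⟨a, b, r, c, ⟨h1, h2, h3, h4, h5, h6, h7, h8, h9⟩, hc⟩
  · exact k0 _ (by rw [← e]; exact congrArg _ (h.val_sim j))
  · refine key (h.fin r) _ (by rw [h.val_fin h3, h9]; exact congrArg _ (h.val_sim j).symm) ?_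
    exact S.x_mem_of_terms (h.fin_ne h1 h2 h4) (h.fin_ne_neg h1 h2 h5) (by rw [h.terms_eq h1 h2, h6]; rfl) hc
      (k0 _ (by rw [h.val_fin h1, h7])) (k0 _ (by rw [h.val_fin h2, h8]))

theorem ne0 {K : Type*} [Field K] {p : ℕ} (hp : p.Prime) (h : ringChar K ≠ p) : ((p : ℤ) : K) ≠ 0 := fun e => by
  have := (ringChar.spec K p).1 (by exact_mod_cast e)
  exact ((Nat.dvd_prime hp).1 this).elim (CharP.ringChar_ne_one) h

/-- A Chevalley group of type G₂, B₂, D₄, F₄, E₆, E₇ or E₈ over a finite field lies in (indeed equals) the subgroup generated by its monomial subgroup `N` and a single fundamental root subgroup `X_p`, where `p` is a short fundamental root if there are two root lengths (any fundamental root otherwise), provided the characteristic is not 2 for types B₂, F₄ and not 3 for type G₂ (and the field has more than two elements for B₂, G₂). -/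
theorem result {K : Type*} [Field K] [Finite K] (D : Cfsg.Lie.ChevalleyDatum) (hD : D ∈ [Cfsg.Lie.chevG2, Cfsg.Lie.chevB2, Cfsg.Lie.chevD4, Cfsg.Lie.chevF4, Cfsg.Lie.chevE6, Cfsg.Lie.chevE7, Cfsg.Lie.chevE8])
    (hK : D ∈ [Cfsg.Lie.chevB2, Cfsg.Lie.chevG2] → ∃ x : K, x ≠ 0 ∧ x ≠ 1)
    (h2 : D ∈ [Cfsg.Lie.chevB2, Cfsg.Lie.chevF4] → ringChar K ≠ 2) (h3 : D = Cfsg.Lie.chevG2 → ringChar K ≠ 3)
    (i : ℕ) (hi : i < D.rank) (hshort : D.isLong (D.simple i) = false) :
    D.group K ≤ D.monomialSubgroup K ⊔ D.rootSubgroup K (D.simple i) := by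
  obtain ⟨i, rfl⟩ : ∃ j : Fin D.rank, (j : ℕ) = i := ⟨⟨i, hi⟩, rfl⟩
  simp only [List.mem_cons, List.not_mem_nil, or_false] at hD
  rcases hD with rfl | rfl | rfl | rfl | rfl | rfl | rfl
  · refine aux H24.tabG2_chk H24.domG2 i fun j => ?_
    refine or_iff_not_imp_left.2 fun e => ⟨7, 9, 10, 3, ?_, ne0 Nat.prime_three (h3 rfl)⟩
    revert hshort e; clear hi; revert i j; decide +kernel
  · refine aux H24.tabB2_chk H24.domB2 i fun j => ?_
    refine or_iff_not_imp_left.2 fun e => ⟨5, 6, 7, 2, ?_, ne0 Nat.prime_two (h2 (by simp))⟩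
    revert hshort e; clear hi; revert i j; decide +kernel
  · exact aux H24.tabD4_chk H24.domD4 i fun j => Or.inl (by clear hi hshort; revert i j; decide +kernel)
  · refine aux H24.tabF4_chk H24.domF4 i fun j => ?_
    refine or_iff_not_imp_left.2 fun e => ⟨27, 28, 30, 2, ?_, ne0 Nat.prime_two (h2 (by simp))⟩
    revert hshort e; clear hi; revert i j; decide +kernel
  · exact aux H24.tabE6_chk H24.domE6 i fun j => Or.inl (by clear hi hshort; revert i j; decide +kernel)
  · exact aux H24.tabE7_chk H24.domE7 i fun j => Or.inl (by clear hi hshort; revert i j; decide +kernel)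
  · exact aux H24.tabE8_chk H24.domE8 i fun j => Or.inl (by clear hi hshort; revert i j; decide +kernel)

end Cfsg.Agent.S2416
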