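import Cfsg.Statements.S2417
import Cfsg.Agent.H24.Chr

set_option autoImplicit false
set_option maxHeartbeats 400000
open scoped MatrixGroups
open Cfsg

namespace Cfsg.Agent.S2417

theorem aux {K : Type*} [Field K] {D : Cfsg.Lie.ChevalleyDatum} {T : H24.Tab} (h : T.Chk D) (hd : T.chkDom = true)
    (i j : Fin D.rank) (H : ∀ k : Fin D.rank, T.len (T.simple k) = T.len (T.simple i) ∨
      T.len (T.simple k) = T.len (T.simple j)) :
    D.group K ≤ D.monomialSubgroup K ⊔ D.rootSubgroup K (D.simple i) ⊔ D.rootSubgroup K (D.simple j) := by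
  rw [h.group_eq, h.monomialSubgroup_eq, ← h.val_sim', ← h.val_sim', h.rootSubgroup_eq, h.rootSubgroup_eq]
  generalize h.st K = S
  refine S.Gr_le_of_N (le_sup_left.trans le_sup_left) fun k => ?_
  rcases H k with e | e
  · obtain ⟨w, hw, e⟩ := h.exists_W_of_len hd (h.rsys.sim i) (h.rsys.sim k) (by
      change (T.len _ : ℤ) = T.len _
      rw [h.val_sim, h.val_sim, e])
    rw [← show w _ = h.cd.sim k from e]
    exact S.x_mem_W (le_sup_left.trans le_sup_left)
      (fun t => Subgroup.mem_sup_left (Subgroup.mem_sup_right (S.x_mem (Set.mem_singleton _) t))) hw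
  · obtain ⟨w, hw, e⟩ := h.exists_W_of_len hd (h.rsys.sim j) (h.rsys.sim k) (by
      change (T.len _ : ℤ) = T.len _
      rw [h.val_sim, h.val_sim, e])
    rw [← show w _ = h.cd.sim k from e]
    exact S.x_mem_W (le_sup_left.trans le_sup_left)
      (fun t => Subgroup.mem_sup_right (S.x_mem (Set.mem_singleton _) t)) hw

/-- In the characteristics with an exceptional graph symmetry — type B₂ or F₄ in characteristic 2 (field of more than two elements for B₂) and type G₂ in characteristic 3 — the Chevalley group lies in the subgroup generated by its monomial subgroup `N` and the two fundamental root subgroups `X_a`, `X_b` of a short root `a` and a long root `b` joined in the Dynkin diagram. -/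
theorem result {K : Type*} [Field K] [Finite K] (e : Cfsg.Lie.ChevalleyDatum × ℕ)
    (he : e ∈ [(Cfsg.Lie.chevB2, 2), (Cfsg.Lie.chevF4, 2), (Cfsg.Lie.chevG2, 3)]) [CharP K e.2]
    (hK : e.1 = Cfsg.Lie.chevB2 → ∃ x : K, x ≠ 0 ∧ x ≠ 1)
    (i j : ℕ) (hi : i < e.1.rank) (hj : j < e.1.rank) (hshort : e.1.isLong (e.1.simple i) = false)
    (hlong : e.1.isLong (e.1.simple j) = true) (hbond : e.1.bonds i j ≠ 0) :
    e.1.group K ≤ e.1.monomialSubgroup K ⊔ e.1.rootSubgroup K (e.1.simple i) ⊔ e.1.rootSubgroup K (e.1.simple j) := by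
  obtain ⟨i, rfl⟩ : ∃ k : Fin e.1.rank, (k : ℕ) = i := ⟨⟨i, hi⟩, rfl⟩
  obtain ⟨j, rfl⟩ : ∃ k : Fin e.1.rank, (k : ℕ) = j := ⟨⟨j, hj⟩, rfl⟩
  simp only [List.mem_cons, List.not_mem_nil, or_false] at he
  clear hi hj hbond hK
  rcases he with rfl | rfl | rfl
  · exact aux H24.tabB2_chk H24.domB2 i j (by revert i j; decide +kernel)
  · exact aux H24.tabF4_chk H24.domF4 i j (by revert i j; decide +kernel)
  · exact aux H24.tabG2_chk H24.domG2 i j (by revert i j; decide +kernel)

end Cfsg.Agent.S2417
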