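import Cfsg.Statements.S2418
import Cfsg.Agent.H15.Wy

set_option autoImplicit false
open Cfsg

namespace Cfsg.Agent.S2418

/-- For the Coxeter groups of types B₂, G₂, D₄, F₄, E₇, E₈ the centre has order 2 (the element acting as −1 on the root system) and is generated by a power of the Coxeter element `s₁ s₂ ⋯ s_l`; the Coxeter group of type E₆ has trivial centre. -/
theorem result (c : (Σ n : ℕ, CoxeterMatrix (Fin n)) × ℕ)
    (hc : c ∈ [(⟨2, CoxeterMatrix.B 2⟩, 2), (⟨2, CoxeterMatrix.G₂⟩, 2), (⟨4, Cfsg.Lie.coxeterD4⟩, 2), (⟨4, CoxeterMatrix.F₄⟩, 2),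
      (⟨6, CoxeterMatrix.E₆⟩, 1), (⟨7, CoxeterMatrix.E₇⟩, 2), (⟨8, CoxeterMatrix.E₈⟩, 2)]) :
    Nat.card (Subgroup.center c.1.2.Group) = c.2 ∧
      Subgroup.center c.1.2.Group ≤ Subgroup.zpowers ((List.finRange c.1.1).map c.1.2.simple).prod := by
  simp only [List.mem_cons, List.not_mem_nil, or_false] at hc
  rcases hc with rfl | rfl | rfl | rfl | rfl | rfl | rfl
  · exact H15.Wy.center_two H24.tabB2_chk _ H24.coxB2 H24.connB2 _ 2 (by decide +kernel) (by decide +kernel)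
  · exact H15.Wy.center_two H24.tabG2_chk _ H24.coxG2 H24.connG2 _ 3 (by decide +kernel) (by decide +kernel)
  · exact H15.Wy.center_two H24.tabD4_chk _ H24.coxD4 H24.connD4 _ 3 (by decide +kernel) (by decide +kernel)
  · exact H15.Wy.center_two H24.tabF4_chk _ H24.coxF4 H24.connF4 _ 6 (by decide +kernel) (by decide +kernel)
  · have := H15.Wy.center_one H24.tabE6_chk _ H24.coxE6 H24.connE6 ([0, 1, 2, 0, 3, 1, 2, 0, 3, 2, 4, 3, 1, 2, 0, 3, 2, 4, 3, 1, 5, 4, 3, 1, 2, 0, 3, 2, 4, 3, 1, 5, 4, 3, 2, 0] : List (Fin 6))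
      (![5, 1, 4, 3, 2, 0] : Fin 6 → Fin 6) (by decide +kernel) ⟨(0 : Fin 6), (by decide : (5 : Fin 6) ≠ 0)⟩
    exact ⟨Subgroup.card_eq_one.2 this, this.le.trans bot_le⟩
  · exact H15.Wy.center_two H24.tabE7_chk _ H24.coxE7 H24.connE7 _ 9 (by decide +kernel) (by decide +kernel)
  · exact H15.Wy.center_two H24.tabE8_chk _ H24.coxE8 H24.connE8 _ 15 (by decide +kernel) (by decide +kernel)


end Cfsg.Agent.S2418
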