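import Cfsg.Statements.S2419
import Cfsg.Agent.H15.Wy

set_option autoImplicit false
open Cfsg

namespace Cfsg.Agent.S2419

open H15.Wy in
theorem one {D : Lie.ChevalleyDatum} {T : H24.Tab} (h : T.Chk D) (M : CoxeterMatrix (Fin D.rank))
    (H : ∃ e : M.Group ≃* h.rsys.W, ∀ i, e (M.simple i) = h.rsys.sW i) (t : Fin D.rank) (ws : List (List ℕ))
    (hw : ∀ i : Fin D.rank, T.chkOrd ((((ws.getD i []).flatMap fun a =>
      [List.finRange D.rank, [t], (List.finRange D.rank).reverse].getD a []) ++ [i].reverse).map Fin.val) 1 = true) :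
    ∃ S : Finset M.Group, S.card = 1 ∧ (∀ t ∈ S, ∃ (g : M.Group) (i : Fin D.rank), t = g * M.simple i * g⁻¹) ∧
      Subgroup.closure (({((List.finRange D.rank).map M.simple).prod} : Set M.Group) ∪ ↑S) = ⊤ := by
  refine ⟨{M.simple t}, rfl, fun x hx => ⟨1, t, by simpa using hx⟩, gen h M H _ ?_ ws hw⟩
  simp only [List.mem_cons, List.not_mem_nil, or_false]
  rintro w (rfl | rfl | rfl)
  · exact Subgroup.subset_closure (by simp [wp])
  · exact Subgroup.subset_closure (by simp [wp])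
  · rw [wp_reverse]; exact inv_mem (Subgroup.subset_closure (by simp [wp]))

open H15.Wy in
theorem two {D : Lie.ChevalleyDatum} {T : H24.Tab} (h : T.Chk D) (M : CoxeterMatrix (Fin D.rank))
    (H : ∃ e : M.Group ≃* h.rsys.W, ∀ i, e (M.simple i) = h.rsys.sW i) (t u : Fin D.rank) (ws : List (List ℕ))
    (hw : ∀ i : Fin D.rank, T.chkOrd ((((ws.getD i []).flatMap fun a =>
      [List.finRange D.rank, [t], [u], (List.finRange D.rank).reverse].getD a []) ++ [i].reverse).map Fin.val) 1 = true)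
    (htu : T.chkOrd (([t] ++ [u].reverse).map Fin.val) 3 = true ∨ T.chkOrd (([t] ++ [u].reverse).map Fin.val) 2 = true) :
    ∃ S : Finset M.Group, S.card = 2 ∧ (∀ t ∈ S, ∃ (g : M.Group) (i : Fin D.rank), t = g * M.simple i * g⁻¹) ∧
      Subgroup.closure (({((List.finRange D.rank).map M.simple).prod} : Set M.Group) ∪ ↑S) = ⊤ := by
  classical
  refine ⟨{M.simple t, M.simple u}, Finset.card_pair fun e => ?_, fun x hx => ?_, gen h M H _ ?_ ws hw⟩
  · have : wp M ([t] ++ [u].reverse) = 1 := by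
      rw [wp_append, wp_reverse, mul_inv_eq_one]; simpa [wp] using e
    rcases htu with h1 | h1 <;> have o := ord h M H _ h1 <;> rw [this, orderOf_one] at o <;> omega
  · rcases Finset.mem_insert.1 hx with rfl | hx
    · exact ⟨1, t, by simp⟩
    · exact ⟨1, u, by simpa using hx⟩
  simp only [List.mem_cons, List.not_mem_nil, or_false]
  rintro w (rfl | rfl | rfl | rfl)
  · exact Subgroup.subset_closure (by simp [wp])
  · exact Subgroup.subset_closure (by simp [wp])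
  · exact Subgroup.subset_closure (by simp [wp])
  · rw [wp_reverse]; exact inv_mem (Subgroup.subset_closure (by simp [wp]))

/-- The Coxeter groups of types B₂, G₂, E₆, E₇, E₈ are generated by the Coxeter element `s₁ s₂ ⋯ s_l` together with one suitable reflection (a conjugate of a simple reflection); for types D₄ and F₄ the Coxeter element together with two suitable reflections suffices. -/
theorem result (c : (Σ n : ℕ, CoxeterMatrix (Fin n)) × ℕ)
    (hc : c ∈ [(⟨2, CoxeterMatrix.B 2⟩, 1), (⟨2, CoxeterMatrix.G₂⟩, 1), (⟨4, Cfsg.Lie.coxeterD4⟩, 2), (⟨4, CoxeterMatrix.F₄⟩, 2),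
      (⟨6, CoxeterMatrix.E₆⟩, 1), (⟨7, CoxeterMatrix.E₇⟩, 1), (⟨8, CoxeterMatrix.E₈⟩, 1)]) :
    ∃ T : Finset c.1.2.Group, T.card = c.2 ∧ (∀ t ∈ T, ∃ (g : c.1.2.Group) (i : Fin c.1.1), t = g * c.1.2.simple i * g⁻¹) ∧
      Subgroup.closure (({((List.finRange c.1.1).map c.1.2.simple).prod} : Set c.1.2.Group) ∪ ↑T) = ⊤ := by
  simp only [List.mem_cons, List.not_mem_nil, or_false] at hc
  rcases hc with rfl | rfl | rfl | rfl | rfl | rfl | rfl
  · exact one H24.tabB2_chk _ H24.coxB2 (0 : Fin 2) [[1], [1, 0]] (by decide +kernel)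
  · exact one H24.tabG2_chk _ H24.coxG2 (0 : Fin 2) [[1], [1, 0]] (by decide +kernel)
  · exact two H24.tabD4_chk _ H24.coxD4 (1 : Fin 4) (2 : Fin 4) [[3, 1, 0], [1], [2], [0, 2, 1, 2, 3]] (by decide +kernel) (by decide +kernel)
  · exact two H24.tabF4_chk _ H24.coxF4 (0 : Fin 4) (2 : Fin 4) [[1], [0, 1, 3], [2], [0, 2, 3]] (by decide +kernel) (by decide +kernel)
  · exact one H24.tabE6_chk _ H24.coxE6 (3 : Fin 6) [[2, 2, 2, 2, 2, 1, 0, 0, 0, 0, 0], [1, 2, 2, 2, 1, 0, 0, 0, 1], [2, 2, 2, 2, 1, 0, 0, 0, 0], [1], [0, 1, 2], [0, 0, 1, 2, 2]] (by decide +kernel)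
  · exact one H24.tabE7_chk _ H24.coxE7 (3 : Fin 7) [[2, 1, 2, 2, 2, 2, 1, 0, 0, 0, 0, 1, 0], [1, 0, 1, 2, 2, 2, 2, 1, 0, 0, 0, 0, 1, 2, 1], [1, 2, 2, 2, 2, 1, 0, 0, 0, 0, 1], [1], [0, 1, 2], [0, 0, 1, 2, 2], [0, 0, 0, 1, 2, 2, 2]] (by decide +kernel)
  · exact one H24.tabE8_chk _ H24.coxE8 (3 : Fin 8) [[2, 1, 0, 0, 0, 0, 0, 0, 1, 2, 2, 2, 2, 2, 2, 1, 0], [1, 0, 1, 0, 0, 0, 0, 0, 0, 1, 2, 2, 2, 2, 2, 2, 1, 2, 1], [1, 0, 0, 0, 0, 0, 0, 1, 2, 2, 2, 2, 2, 2, 1], [1], [0, 1, 2], [0, 0, 1, 2, 2], [0, 0, 0, 1, 2, 2, 2], [0, 0, 0, 0, 1, 2, 2, 2, 2]] (by decide +kernel)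


end Cfsg.Agent.S2419
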