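import Cfsg.Statements.S2426
import Cfsg.Agent.H11.R1c

set_option autoImplicit false
open Cfsg

namespace Cfsg.Agent.S2426

open Subgroup H16 H16.H11 Cfsg.IsRankOnePair
open scoped commutatorElement


/-- The rank-one Steinberg presentation of `SL₂` over a finite field `K`: generators `x(t)`, `y(t)` (`t ∈ K`; the two opposite root subgroups) subject to additivity `x(t)x(u) = x(t+u)`, `y(t)y(u) = y(t+u)` and, with `w(t) = x(t) y(−t⁻¹) x(t)` and `w'(t) = y(t) x(−t⁻¹) y(t)` for `t ≠ 0`, the relations `w(t) x(u) w(t)⁻¹ = y(−t⁻² u)` and `w'(t) y(u) w'(t)⁻¹ = x(−t⁻² u)`, present `SL₂(K)`, with `x(t) ↦ (1 t; 0 1)` and `y(t) ↦ (1 0; t 1)`. -/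
theorem result {K : Type*} [Field K] [Finite K] :
    ∃ e : PresentedGroup
        ({g : FreeGroup (Bool × K) | ∃ (b : Bool) (t u : K), g = FreeGroup.of (b, t) * FreeGroup.of (b, u) * (FreeGroup.of (b, t + u))⁻¹} ∪
          {g | ∃ (b : Bool) (t u : K), t ≠ 0 ∧
            g = (FreeGroup.of (b, t) * FreeGroup.of (!b, -t⁻¹) * FreeGroup.of (b, t)) * FreeGroup.of (b, u) *
                  (FreeGroup.of (b, t) * FreeGroup.of (!b, -t⁻¹) * FreeGroup.of (b, t))⁻¹ * (FreeGroup.of (!b, -(t⁻¹ ^ 2 * u)))⁻¹})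
        ≃* Matrix.SpecialLinearGroup (Fin 2) K,
      (∀ t : K, ((e (PresentedGroup.of (true, t)) : Matrix (Fin 2) (Fin 2) K)) = !![1, t; 0, 1]) ∧
      (∀ t : K, ((e (PresentedGroup.of (false, t)) : Matrix (Fin 2) (Fin 2) K)) = !![1, 0; t, 1]) := by
  set R : Set (FreeGroup (Bool × K)) :=
    ({g : FreeGroup (Bool × K) | ∃ (b : Bool) (t u : K), g = FreeGroup.of (b, t) * FreeGroup.of (b, u) * (FreeGroup.of (b, t + u))⁻¹} ∪
          {g | ∃ (b : Bool) (t u : K), t ≠ 0 ∧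
            g = (FreeGroup.of (b, t) * FreeGroup.of (!b, -t⁻¹) * FreeGroup.of (b, t)) * FreeGroup.of (b, u) *
                  (FreeGroup.of (b, t) * FreeGroup.of (!b, -t⁻¹) * FreeGroup.of (b, t))⁻¹ * (FreeGroup.of (!b, -(t⁻¹ ^ 2 * u)))⁻¹}) with hR
  have hrel : ∀ r ∈ R, (PresentedGroup.mk R r) = 1 := fun r hr => PresentedGroup.one_of_mem hr
  have hadd : ∀ (b : Bool) (t u : K), (PresentedGroup.of (b, t + u) : PresentedGroup R) =
      PresentedGroup.of (b, t) * PresentedGroup.of (b, u) := fun b t u => by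
    have := hrel _ (Or.inl ⟨b, t, u, rfl⟩)
    simp only [map_mul, map_inv] at this
    exact (mul_inv_eq_one.1 this).symm
  have hw : ∀ (b : Bool) (t u : K), t ≠ 0 → (PresentedGroup.of (b, t) * PresentedGroup.of (!b, -t⁻¹) *
      PresentedGroup.of (b, t) * PresentedGroup.of (b, u) * (PresentedGroup.of (b, t) * PresentedGroup.of (!b, -t⁻¹) *
      PresentedGroup.of (b, t))⁻¹ : PresentedGroup R) = PresentedGroup.of (!b, -(t⁻¹ ^ 2 * u)) := fun b t u ht => by
    have := hrel _ (Or.inr ⟨b, t, u, ht, rfl⟩)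
    simp only [map_mul, map_inv] at this
    exact mul_inv_eq_one.1 this
  have S : St2 (fun t : K => (PresentedGroup.of (true, t) : PresentedGroup R)) (fun t => PresentedGroup.of (false, t)) :=
    ⟨hadd true, hadd false, hw true, hw false⟩
  obtain ⟨φ, h1, h2⟩ := S.lift_fin
  let f : Bool × K → Matrix.SpecialLinearGroup (Fin 2) K := fun z => if z.1 then H4.upT z.2 else H4.loT z.2
  have hf : ∀ r ∈ R, FreeGroup.lift f r = 1 := by
    rintro _ (⟨b, t, u, rfl⟩ | ⟨b, t, u, ht, rfl⟩)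
    · cases b <;> simp [f, H4.upT_add, H4.loT_add]
    · simp only [map_mul, map_inv, FreeGroup.lift_apply_of, mul_inv_eq_one]
      cases b
      · exact sl2_st.wy t u ht
      · exact sl2_st.wx t u ht
  let ψ := PresentedGroup.toGroup hf
  have hψ : ∀ z, ψ (PresentedGroup.of z) = f z := fun z => PresentedGroup.toGroup.of hf
  refine ⟨MonoidHom.toMulEquiv ψ φ ?_ ?_, fun t => congrArg Subtype.val (hψ (true, t)),
    fun t => congrArg Subtype.val (hψ (false, t))⟩
  · ext ⟨b, t⟩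
    cases b
    · simp [hψ, f, h2]
    · simp [hψ, f, h1]
  · ext1 g
    have : (ψ.comp φ).eqLocus (MonoidHom.id _) = ⊤ := H4.sl2_eq_top_of_upT_loT
      (fun t => show ψ (φ _) = _ by rw [h1, hψ]; rfl) (fun t => show ψ (φ _) = _ by rw [h2, hψ]; rfl)
    exact (this ▸ mem_top g : g ∈ (ψ.comp φ).eqLocus (MonoidHom.id _))

end Cfsg.Agent.S2426
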