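import Cfsg.Statements.S2427
import Cfsg.Agent.H4.Tor3
import Cfsg.Agent.H6.Dihedral

set_option autoImplicit false
open Cfsg

namespace Cfsg.Agent.S2427

abbrev S := Matrix.SpecialLinearGroup (Fin 2) (ZMod 3)

def i : S := ⟨!![0, 1; 2, 0], by decide⟩
def j : S := ⟨!![1, 1; 1, 2], by decide⟩

theorem a1 : ∀ a b : S, a ^ 4 = 1 → b ^ 4 = 1 → (a * b) ^ 4 = 1 := by decide +kernel
theorem a2 : ∀ a b : S, (a * b * a⁻¹ * b⁻¹) ^ 4 = 1 := by decide +kernel
theorem a3 : ∀ g : S, g ^ 4 = 1 → g = 1 ∨ g = -1 ∨ ((∃ x : S, x * g * x⁻¹ = i) ∧ ∃ x : S, x * i * x⁻¹ = g) := by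
  decide +kernel
theorem a4 : ∀ g : S, g ^ 4 ≠ 1 → (g ^ 4) ^ 3 = 1 ∧ g * (i * g⁻¹ * i⁻¹) ≠ 1 ∧ g * (i * g⁻¹ * i⁻¹) ≠ -1 ∧
    (g * (i * g⁻¹ * i⁻¹)) ^ 4 = 1 := by decide +kernel
theorem a5 : ∃ a b : S, a * b * a⁻¹ * b⁻¹ = i := by decide +kernel
theorem a6 : ∀ g : S, g ^ 4 = 1 → ∃ k : Fin 4, g = i ^ k.1 ∨ g = i ^ k.1 * j := by decide +kernel

def Q : Subgroup S where
  carrier := {g | g ^ 4 = 1}
  one_mem' := one_pow 4
  inv_mem' := fun {a} h => by
    change a⁻¹ ^ 4 = 1
    rw [inv_pow, show a ^ 4 = 1 from h, inv_one]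
  mul_mem' := fun {a b} ha hb => a1 a b ha hb

theorem Q_le {N : Subgroup S} (hN : N.Normal) {g : S} (hg : g ∈ N) (h : g ^ 4 = 1) (h1 : g ≠ 1)
    (h2 : g ≠ -1) : Q ≤ N := by
  obtain ⟨⟨x, hx⟩, -⟩ := ((a3 g h).resolve_left h1).resolve_left h2
  have hi : i ∈ N := hx ▸ hN.conj_mem g hg x
  intro y hy
  rcases a3 y hy with rfl | rfl | ⟨-, x, rfl⟩
  · exact one_mem _
  · rw [← show i * i = -1 by decide]; exact mul_mem hi hi
  · exact hN.conj_mem i hi x

theorem comm_eq : commutator S = Q := by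
  refine le_antisymm (Subgroup.commutator_le.2 fun a _ b _ => a2 a b) ?_
  obtain ⟨a, b, h⟩ := a5
  exact Q_le inferInstance (g := i)
    (h ▸ Subgroup.commutator_mem_commutator (Subgroup.mem_top a) (Subgroup.mem_top b))
    (by decide) (by decide) (by decide)

theorem Q_equiv : Nonempty (Q ≃* QuaternionGroup 2) := by
  have h : orderOf i = 2 * 2 := orderOf_eq_prime_pow (p := 2) (n := 1) (by decide) (by decide)
  refine H6.subgroup_equiv_quaternion (b := j) h (by decide) (by decide) ?_ ?_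
  · rw [H4.mem_zpowers_four (by decide)]; decide
  · refine le_antisymm (fun g hg => ?_) ((Subgroup.closure_le _).2 ?_)
    · have hi : i ∈ Subgroup.closure ({i, j} : Set S) := Subgroup.subset_closure (Or.inl rfl)
      obtain ⟨k, rfl | rfl⟩ := a6 g hg
      · exact pow_mem hi _
      · exact mul_mem (pow_mem hi _) (Subgroup.subset_closure (Or.inr rfl))
    · rintro _ (rfl | rfl)
      · exact show i ^ 4 = 1 by decide
      · exact show j ^ 4 = 1 by decide

theorem cent_eq : Subgroup.center S = Subgroup.zpowers (-1) := by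
  refine le_antisymm (fun g hg => ?_) (Subgroup.zpowers_le_of_mem
    (H4.sl_mem_center_iff.2 (H4.sl_sc_iff.2 (Or.inr rfl))))
  rcases H4.sl_sc_iff.1 (H4.sl_mem_center_iff.1 hg) with rfl | rfl
  exacts [one_mem _, Subgroup.mem_zpowers _]


/-- The group SL₂ over the field with 3 elements has order 24 and centre of order 2; its commutator subgroup has order 8, is isomorphic to the quaternion group of order 8 and is complemented by every Sylow 3-subgroup (so the group is a semidirect product of a quaternion group of order 8 by a cyclic group of order 3); and its only normal subgroups besides the trivial subgroup and the whole group are the centre and the commutator subgroup. -/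
theorem result :
    Nat.card (Matrix.SpecialLinearGroup (Fin 2) (ZMod 3)) = 24 ∧
    Nat.card (Subgroup.center (Matrix.SpecialLinearGroup (Fin 2) (ZMod 3))) = 2 ∧
    Nat.card (commutator (Matrix.SpecialLinearGroup (Fin 2) (ZMod 3))) = 8 ∧
    Nonempty (commutator (Matrix.SpecialLinearGroup (Fin 2) (ZMod 3)) ≃* QuaternionGroup 2) ∧
    (∀ P : Sylow 3 (Matrix.SpecialLinearGroup (Fin 2) (ZMod 3)),
      Subgroup.IsComplement' (commutator (Matrix.SpecialLinearGroup (Fin 2) (ZMod 3)))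
        (P : Subgroup (Matrix.SpecialLinearGroup (Fin 2) (ZMod 3)))) ∧
    ∀ N : Subgroup (Matrix.SpecialLinearGroup (Fin 2) (ZMod 3)), N.Normal →
      N = ⊥ ∨ N = ⊤ ∨ N = Subgroup.center (Matrix.SpecialLinearGroup (Fin 2) (ZMod 3)) ∨
        N = commutator (Matrix.SpecialLinearGroup (Fin 2) (ZMod 3)) := by
  have h24 : Nat.card S = 24 := by rw [H4.card_sl2, ZMod.card]
  have h8 : Nat.card Q = 8 := by
    rw [H4.card_of_equiv Q_equiv, Nat.card_eq_fintype_card, QuaternionGroup.card]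
  have : Fact (Nat.Prime 3) := ⟨Nat.prime_three⟩
  rw [comm_eq]
  refine ⟨h24, ?_, h8, Q_equiv, fun P => ?_, fun N hN => ?_⟩
  · rw [cent_eq, Nat.card_zpowers]
    exact orderOf_eq_prime (by decide) (by decide)
  · have h3 : Nat.card P = 3 := H22.card_sylow_of_card_eq (k := 1) (m := 8) (by norm_num) h24 P
    exact Subgroup.isComplement'_of_coprime (by rw [h8, h3, h24]) (by rw [h8, h3]; norm_num)
  by_cases h1 : N ≤ Q
  · by_cases h2 : N ≤ Subgroup.center S
    · by_cases h3 : -1 ∈ N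
      · exact Or.inr (Or.inr (Or.inl (le_antisymm h2 (cent_eq ▸ Subgroup.zpowers_le_of_mem h3))))
      · refine Or.inl (eq_bot_iff.2 fun g hg => ?_)
        exact (H4.sl_sc_iff.1 (H4.sl_mem_center_iff.1 (h2 hg))).resolve_right fun h => h3 (h ▸ hg)
    · obtain ⟨g, hg, h3⟩ := SetLike.not_le_iff_exists.1 h2
      rw [H4.sl_mem_center_iff, H4.sl_sc_iff, not_or] at h3
      exact Or.inr (Or.inr (Or.inr (le_antisymm h1 (Q_le hN hg (h1 hg) h3.1 h3.2))))
  · obtain ⟨g, hg, h2⟩ := SetLike.not_le_iff_exists.1 h1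
    obtain ⟨h3, h4, h5, h6⟩ := a4 g h2
    have h7 := Subgroup.card_dvd_of_le (Q_le hN (mul_mem hg (hN.conj_mem _ (inv_mem hg) i)) h6 h4 h5)
    have h9 := H4.orderOf_dvd_card_of_mem (pow_mem hg 4)
    rw [orderOf_eq_prime h3 h2] at h9
    rw [h8] at h7
    refine Or.inr (Or.inl (Subgroup.eq_top_of_le_card _ ?_))
    rw [h24]
    exact Nat.le_of_dvd Nat.card_pos (Nat.Coprime.mul_dvd_of_dvd_of_dvd (by norm_num) h7 h9)

end Cfsg.Agent.S2427
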