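import Cfsg.Statements.S2428
import Cfsg.Agent.H4.Tor

set_option autoImplicit false
open Cfsg

namespace Cfsg.Agent.S2428

/-- Let F be a finite field with q elements, q odd, and let d be a diagonal element of SL₂ over F whose diagonal entry a has a² ≠ 1 (such d exist exactly when q > 3). Then the centraliser of d is precisely the diagonal subgroup T; the normaliser of T has order 2(q − 1) and exactly (q + 5)/2 conjugacy classes; and every element of that normaliser outside T has square equal to −1. -/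
theorem result {F : Type*} [Field F] [Fintype F] (hodd : Odd (Fintype.card F))
    (d : Matrix.SpecialLinearGroup (Fin 2) F) (hd01 : (d : Matrix (Fin 2) (Fin 2) F) 0 1 = 0) (hd10 : (d : Matrix (Fin 2) (Fin 2) F) 1 0 = 0) (hda : (d : Matrix (Fin 2) (Fin 2) F) 0 0 ^ 2 ≠ 1) :
    (∀ g : Matrix.SpecialLinearGroup (Fin 2) F, g ∈ Subgroup.centralizer ({d} : Set (Matrix.SpecialLinearGroup (Fin 2) F)) ↔ ((g : Matrix (Fin 2) (Fin 2) F) 0 1 = 0 ∧ (g : Matrix (Fin 2) (Fin 2) F) 1 0 = 0)) ∧
    Nat.card (Subgroup.normalizer ((Subgroup.centralizer ({d} : Set (Matrix.SpecialLinearGroup (Fin 2) F))) : Set (Matrix.SpecialLinearGroup (Fin 2) F))) = 2 * (Fintype.card F - 1) ∧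
    Nat.card (ConjClasses (Subgroup.normalizer ((Subgroup.centralizer ({d} : Set (Matrix.SpecialLinearGroup (Fin 2) F))) : Set (Matrix.SpecialLinearGroup (Fin 2) F)))) = (Fintype.card F + 5) / 2 ∧
    ∀ g : Matrix.SpecialLinearGroup (Fin 2) F, g ∈ Subgroup.normalizer ((Subgroup.centralizer ({d} : Set (Matrix.SpecialLinearGroup (Fin 2) F))) : Set (Matrix.SpecialLinearGroup (Fin 2) F)) →
      g ∉ Subgroup.centralizer ({d} : Set (Matrix.SpecialLinearGroup (Fin 2) F)) → ((g * g) : Matrix (Fin 2) (Fin 2) F) = -1 := by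
  have h2 := H4.two_ne_zero_of_odd hodd
  have hdet : d.1 0 0 * d.1 1 1 = 1 := by
    have := d.2
    rw [Matrix.det_fin_two, hd01] at this
    linear_combination this
  have hne : d.1 0 0 ≠ d.1 1 1 := fun h => hda (by linear_combination hdet + d.1 0 0 * h)
  have hsp : H4.Sp (H4.sgl d).1 _ _ := H4.sp_of_tri hd10 hne
  have hg : H4.disc (H4.sgl d).1 ≠ 0 := hsp.disc_ne_zero
  have hq := H4.odd_card_of_two_ne_zero h2
  have hN : Subgroup.normalizer ((Subgroup.centralizer ({d} : Set (Matrix.SpecialLinearGroup (Fin 2) F))) : Set (Matrix.SpecialLinearGroup (Fin 2) F)) = H4.sN (H4.sgl d) :=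
    H4.normalizer_eq_sN hg (H4.sT_sgl d).ge (Subgroup.mem_centralizer_singleton_iff.2 rfl) hsp.not_sc
  refine ⟨fun g => ?_, ?_, ?_, fun g h1 h3 => ?_⟩
  · rw [H4.sl_mem_cent_iff, H4.m2_eq_iff]
    simp only [H4.m2_mul, hd01, hd10]
    have hne' := sub_ne_zero.2 hne
    constructor
    · rintro ⟨-, h1, h3, -⟩
      exact ⟨(mul_eq_zero.1 (show (d.1 0 0 - d.1 1 1) * g.1 0 1 = 0 by
        linear_combination h1)).resolve_left hne', (mul_eq_zero.1
        (show (d.1 0 0 - d.1 1 1) * g.1 1 0 = 0 by linear_combination -h3)).resolve_left hne'⟩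
    · rintro ⟨h1, h3⟩
      rw [h1, h3]
      refine ⟨by ring, by ring, by ring, by ring⟩
  · rw [hN, H4.card_sN hg, H4.card_sT hg, H4.card_pT_sp hsp]
  · have := H4.card_conjClasses_sN h2 hg
    rw [H4.card_pT_sp hsp] at this
    rw [hN]
    omega
  · rw [hN] at h1
    rw [← H4.sT_sgl] at h3
    exact congrArg Subtype.val (H4.sN_sq hg h1 h3)

end Cfsg.Agent.S2428
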