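import Cfsg.Statements.S2429
import Cfsg.Agent.H4.Tor

set_option autoImplicit false
open Cfsg

namespace Cfsg.Agent.S2429

/-- Let F be a finite field with q elements, q odd. Then SL₂ over F contains a cyclic subgroup T′ of order q + 1 (a non-split torus) with the following properties: T′ is its own centraliser, and indeed the centraliser of each element of T′ other than 1 and −1 is exactly T′; every element of SL₂ having no eigenvector in F² is conjugate to an element of T′; the normaliser of T′ has order 2(q + 1) and exactly (q + 7)/2 conjugacy classes; and every element of that normaliser outside T′ has square −1. -/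
theorem result {F : Type*} [Field F] [Fintype F] (hodd : Odd (Fintype.card F)) :
    ∃ T' : Subgroup (Matrix.SpecialLinearGroup (Fin 2) F), IsCyclic T' ∧ Nat.card T' = Fintype.card F + 1 ∧
      Subgroup.centralizer ((T' : Set (Matrix.SpecialLinearGroup (Fin 2) F))) = T' ∧
      (∀ g : Matrix.SpecialLinearGroup (Fin 2) F, g ∈ T' → (g : Matrix (Fin 2) (Fin 2) F) ≠ 1 → (g : Matrix (Fin 2) (Fin 2) F) ≠ -1 → Subgroup.centralizer ({g} : Set (Matrix.SpecialLinearGroup (Fin 2) F)) = T') ∧
      (∀ g : Matrix.SpecialLinearGroup (Fin 2) F, (∀ (c : F) (v : Fin 2 → F), v ≠ 0 → (g : Matrix (Fin 2) (Fin 2) F).mulVec v ≠ c • v) → ∃ h : Matrix.SpecialLinearGroup (Fin 2) F, h * g * h⁻¹ ∈ T') ∧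
      Nat.card (Subgroup.normalizer (T' : Set (Matrix.SpecialLinearGroup (Fin 2) F))) = 2 * (Fintype.card F + 1) ∧
      Nat.card (ConjClasses (Subgroup.normalizer (T' : Set (Matrix.SpecialLinearGroup (Fin 2) F)))) = (Fintype.card F + 7) / 2 ∧
      ∀ g : Matrix.SpecialLinearGroup (Fin 2) F, g ∈ Subgroup.normalizer (T' : Set (Matrix.SpecialLinearGroup (Fin 2) F)) → g ∉ T' → ((g * g) : Matrix (Fin 2) (Fin 2) F) = -1 := by
  have h2 := H4.two_ne_zero_of_odd hodd
  obtain ⟨e, he⟩ := H4.exists_ell_sl (F := F)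
  have he' : H4.Ell (H4.sgl e).1 := he
  have hg : H4.disc (H4.sgl e).1 ≠ 0 := he'.disc_ne_zero
  have hq := H4.odd_card_of_two_ne_zero h2
  have hN := H4.normalizer_eq_sN hg le_rfl (H4.mem_sT_self e) he.not_sc
  refine ⟨H4.sT (H4.sgl e), H4.isCyclic_sT hg, by rw [H4.card_sT hg, H4.card_pT_ell he'],
    H4.centralizer_eq_sT he'.not_sc le_rfl (H4.mem_sT_self e) he.not_sc, fun g h1 h3 h4 => ?_,
    fun g h1 => ?_, ?_, ?_, fun g h1 h3 => ?_⟩
  · refine H4.cent_eq_sT he'.not_sc h1 fun h => ?_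
    rcases H4.sl_sc_iff.1 h with rfl | rfl
    exacts [h3 rfl, h4 rfl]
  · obtain ⟨z, hz, h3⟩ := H4.exists_isConj_mem_slCent he (H4.ell_iff.2 h1)
    obtain ⟨h, rfl⟩ := isConj_iff.1 h3
    exact ⟨h, by rwa [H4.sT_sgl]⟩
  · rw [hN, H4.card_sN hg, H4.card_sT hg, H4.card_pT_ell he']
  · have := H4.card_conjClasses_sN h2 hg
    rw [H4.card_pT_ell he'] at this
    rw [hN]
    omega
  · rw [hN] at h1
    exact congrArg Subtype.val (H4.sN_sq hg h1 h3)

end Cfsg.Agent.S2429
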