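import Cfsg.Statements.S2430
import Cfsg.Agent.H4.Tor

set_option autoImplicit false
open Cfsg

namespace Cfsg.Agent.S2430

open H4 in
theorem key {F : Type*} [Field F] [Fintype F] (hodd : Odd (Fintype.card F)) (ℓ : ℕ) [hl : Fact ℓ.Prime]
    (hℓ : ℓ ≠ 2) (P : Sylow ℓ (Matrix.SpecialLinearGroup (Fin 2) F))
    (h : ℓ ∣ Fintype.card F - 1 ∨ ℓ ∣ Fintype.card F + 1) :
    ∃ g : GL (Fin 2) F, disc g.1 ≠ 0 ∧ ℓ ∣ Nat.card (pT g) ∧
      Subgroup.centralizer ((P : Subgroup (Matrix.SpecialLinearGroup (Fin 2) F)) : Set (Matrix.SpecialLinearGroup (Fin 2) F)) = sT g ∧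
      Subgroup.normalizer ((P : Subgroup (Matrix.SpecialLinearGroup (Fin 2) F)) : Set (Matrix.SpecialLinearGroup (Fin 2) F)) = sN g := by
  have h2 := two_ne_zero_of_odd hodd
  obtain ⟨p, hp⟩ := CharP.exists F
  have : Fact p.Prime := ⟨CharP.char_is_prime F p⟩
  have hpl : ¬ p ∣ ℓ := fun h1 => by
    rcases h with h | h
    exacts [not_dvd_card_sub_one p (h1.trans h), not_dvd_card_add_one p (h1.trans h)]
  have hd : ℓ ∣ Nat.card (Matrix.SpecialLinearGroup (Fin 2) F) := by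
    have h1 := card_comap_smk (⊤ : Subgroup (Matrix.ProjGenLinGroup (Fin 2) F))
    rw [Subgroup.comap_top, top_inf_eq, card_pL, Subgroup.card_top, sq_sub_one_eq] at h1
    rw [h1]
    rcases h with h | h
    exacts [(h.mul_right _).mul_left _, (h.mul_left _).mul_left _]
  have hP : Nontrivial P := (Subgroup.nontrivial_iff_ne_bot _).2 (P.ne_bot_of_dvd_card hd)
  have := P.isPGroup'.center_nontrivial
  obtain ⟨⟨z, hz⟩, hz1⟩ := exists_ne (1 : Subgroup.center P)
  obtain ⟨k, hk⟩ := P.isPGroup' z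
  have hk' : z.1 ^ ℓ ^ k = 1 := congrArg Subtype.val hk
  have hz2 : z.1 ≠ 1 := fun h => hz1 (Subtype.ext (Subtype.ext h))
  have hodd' : Odd (ℓ ^ k) := (hl.out.odd_of_ne_two hℓ).pow
  have hs : ¬ Sc z.1.1 := fun h => by
    rcases sl_sc_iff.1 h with h | h
    · exact hz2 h
    · rw [h, hodd'.neg_one_pow] at hk'
      exact sl_neg_one_ne_one h2 hk'
  have hg : disc (sgl z.1).1 ≠ 0 := disc_ne_zero_of_pow p (fun h => hs (pmk_eq_one_iff.1 h))
    (n := ℓ ^ k) (fun h => hpl ((Fact.out : p.Prime).dvd_of_dvd_pow h))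
    (by rw [pmk_sgl, ← map_pow, hk', map_one])
  have hle : (P : Subgroup (Matrix.SpecialLinearGroup (Fin 2) F)) ≤ sT (sgl z.1) := fun x hx => by
    rw [sT_sgl, Subgroup.mem_centralizer_singleton_iff]
    exact congrArg Subtype.val (Subgroup.mem_center_iff.1 hz ⟨x, hx⟩)
  refine ⟨_, hg, ?_, centralizer_eq_sT hs hle z.2 hs, normalizer_eq_sN hg hle z.2 hs⟩
  rw [← card_sT hg]
  exact (P.dvd_card_of_dvd_card hd).trans (Subgroup.card_dvd_of_le hle)


/-- Let F be a finite field with q elements, q odd, ℓ an odd prime, and P a Sylow ℓ-subgroup of SL₂ over F. If ℓ divides q − 1, the centraliser of P is cyclic of order q − 1 (a split torus) and the normaliser of P has order 2(q − 1); if ℓ divides q + 1, the centraliser of P is cyclic of order q + 1 (a non-split torus) and the normaliser of P has order 2(q + 1). -/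
theorem result {F : Type*} [Field F] [Fintype F] (hodd : Odd (Fintype.card F)) (ℓ : ℕ) [Fact ℓ.Prime] (hℓ : ℓ ≠ 2)
    (P : Sylow ℓ (Matrix.SpecialLinearGroup (Fin 2) F)) :
    (ℓ ∣ Fintype.card F - 1 →
      Nat.card (Subgroup.centralizer ((P : Subgroup (Matrix.SpecialLinearGroup (Fin 2) F)) : Set (Matrix.SpecialLinearGroup (Fin 2) F))) = Fintype.card F - 1 ∧
      IsCyclic (Subgroup.centralizer ((P : Subgroup (Matrix.SpecialLinearGroup (Fin 2) F)) : Set (Matrix.SpecialLinearGroup (Fin 2) F))) ∧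
      Nat.card (Subgroup.normalizer ((P : Subgroup (Matrix.SpecialLinearGroup (Fin 2) F)) : Set (Matrix.SpecialLinearGroup (Fin 2) F))) = 2 * (Fintype.card F - 1)) ∧
    (ℓ ∣ Fintype.card F + 1 →
      Nat.card (Subgroup.centralizer ((P : Subgroup (Matrix.SpecialLinearGroup (Fin 2) F)) : Set (Matrix.SpecialLinearGroup (Fin 2) F))) = Fintype.card F + 1 ∧
      IsCyclic (Subgroup.centralizer ((P : Subgroup (Matrix.SpecialLinearGroup (Fin 2) F)) : Set (Matrix.SpecialLinearGroup (Fin 2) F))) ∧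
      Nat.card (Subgroup.normalizer ((P : Subgroup (Matrix.SpecialLinearGroup (Fin 2) F)) : Set (Matrix.SpecialLinearGroup (Fin 2) F))) = 2 * (Fintype.card F + 1)) := by
  have hp : ℓ.Prime := Fact.out
  have hb : ℓ ∣ Fintype.card F - 1 → ℓ ∣ Fintype.card F + 1 → False := fun h1 h2 => by
    have := Nat.dvd_sub h2 h1
    rw [show Fintype.card F + 1 - (Fintype.card F - 1) = 2 by have := H4.one_lt_card' (F := F); omega] at this
    exact hℓ ((Nat.prime_dvd_prime_iff_eq hp Nat.prime_two).1 this)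
  refine ⟨fun h => ?_, fun h => ?_⟩
  · obtain ⟨g, hg, h1, h3, h4⟩ := key hodd ℓ hℓ P (Or.inl h)
    have := (H4.card_pT hg).resolve_left fun h5 => hb h (h5 ▸ h1)
    rw [h3, h4, H4.card_sN hg, H4.card_sT hg, this]
    exact ⟨rfl, H4.isCyclic_sT hg, rfl⟩
  · obtain ⟨g, hg, h1, h3, h4⟩ := key hodd ℓ hℓ P (Or.inr h)
    have := (H4.card_pT hg).resolve_right fun h5 => hb (h5 ▸ h1) h
    rw [h3, h4, H4.card_sN hg, H4.card_sT hg, this]
    exact ⟨rfl, H4.isCyclic_sT hg, rfl⟩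

end Cfsg.Agent.S2430
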