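import Cfsg.Statements.S2431
import Cfsg.Agent.H4.Tor2

set_option autoImplicit false
open Cfsg

namespace Cfsg.Agent.S2431

/-- Let F be a finite field with q elements, q odd, and S a Sylow 2-subgroup of SL₂ over F. The centraliser of S is the centre of SL₂ (of order 2); S is its own normaliser when q ≡ ±1 mod 8, and has index 3 in its normaliser when q ≡ ±3 mod 8. -/
theorem result {F : Type*} [Field F] [Fintype F] (hodd : Odd (Fintype.card F)) (S : Sylow 2 (Matrix.SpecialLinearGroup (Fin 2) F)) :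
    Subgroup.centralizer ((S : Subgroup (Matrix.SpecialLinearGroup (Fin 2) F)) : Set (Matrix.SpecialLinearGroup (Fin 2) F)) = Subgroup.center (Matrix.SpecialLinearGroup (Fin 2) F) ∧
    ((Fintype.card F % 8 = 1 ∨ Fintype.card F % 8 = 7) →
      Subgroup.normalizer ((S : Subgroup (Matrix.SpecialLinearGroup (Fin 2) F)) : Set (Matrix.SpecialLinearGroup (Fin 2) F)) = (S : Subgroup (Matrix.SpecialLinearGroup (Fin 2) F))) ∧
    ((Fintype.card F % 8 = 3 ∨ Fintype.card F % 8 = 5) →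
      Nat.card (Subgroup.normalizer ((S : Subgroup (Matrix.SpecialLinearGroup (Fin 2) F)) : Set (Matrix.SpecialLinearGroup (Fin 2) F))) = 3 * Nat.card S) := by
  have h2 := H4.two_ne_zero_of_odd hodd
  obtain ⟨a, ha, h3, h4, y, hy, h5⟩ := H4.exists_sylow_two h2 S
  have hg := H4.sgl_disc h2 h3
  have hs := H4.not_sc_of_disc hg
  obtain ⟨k, hk, h6⟩ := H4.card_sylow_two h2 S h3
  have h7 := H4.card_sT_inner h2 h3
  refine ⟨le_antisymm (fun x hx => ?_) (Subgroup.center_le_centralizer _), fun h8 => ?_,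
    fun h8 => ?_⟩
  · have h9 : x ∈ H4.sT (H4.sgl a) := by
      rw [H4.sT_sgl, Subgroup.mem_centralizer_singleton_iff]; exact (hx a ha).symm
    have h10 := H4.sN_inv hg (h4 hy) h5 h9
    rw [hx y hy, mul_inv_cancel_right] at h10
    exact H4.sl_mem_center_iff.2 (H4.sl_sc_iff.2 (H4.sl_sq_eq_one h2 (mul_eq_one_iff_eq_inv.2 h10)))
  · refine le_antisymm (fun g hgN => ?_) Subgroup.le_normalizer
    have h9 := H4.card_inf_sT hg h4 hy h5
    have h10 : 8 ∣ Nat.card ((S : Subgroup (Matrix.SpecialLinearGroup (Fin 2) F)) ⊓ H4.sT (H4.sgl a) : Subgroup _) := by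
      have h11 : 8 ∣ Nat.card (H4.sT (H4.sgl a)) := by omega
      rw [h9, mul_assoc] at h6
      rw [Nat.eq_of_mul_eq_mul_left two_pos h6] at h11
      exact Nat.Coprime.dvd_of_dvd_mul_right (Nat.Coprime.pow_left 3
        (Nat.coprime_two_left.2 (Nat.odd_iff.2 hk))) h11
    have := H4.isCyclic_sT hg
    have := Subgroup.isCyclic_of_le (inf_le_right : (S : Subgroup (Matrix.SpecialLinearGroup (Fin 2) F)) ⊓ H4.sT (H4.sgl a) ≤ _)
    obtain ⟨⟨t, ht⟩, h11⟩ := IsCyclic.exists_ofOrder_eq_natCard (α := ((S : Subgroup (Matrix.SpecialLinearGroup (Fin 2) F)) ⊓ H4.sT (H4.sgl a) : Subgroup _))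
    rw [← h11, ← Subgroup.orderOf_coe] at h10
    have h12 : t ^ 4 ≠ 1 := fun h => by
      have := Nat.le_of_dvd (by norm_num) (h10.trans (orderOf_dvd_of_pow_eq_one h))
      omega
    have h13 : ¬ H4.Sc t.1 := fun h => h12 (by rcases H4.sl_sc_iff.1 h with rfl | rfl <;> simp [Even.neg_one_pow (by decide : Even 4)])
    have h14 : g * t * g⁻¹ ∈ H4.sT (H4.sgl a) := by
      by_contra h
      have h15 := H4.sN_sq hg (h4 ((Subgroup.mem_normalizer_iff.1 hgN t).1 ht.1)) h
      apply h12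
      calc t ^ 4 = g⁻¹ * ((g * t * g⁻¹ * (g * t * g⁻¹)) * (g * t * g⁻¹ * (g * t * g⁻¹))) * g := by
            rw [show (4 : ℕ) = 1 + 1 + 1 + 1 from rfl, pow_succ, pow_succ, pow_succ, pow_one]; group
        _ = 1 := by rw [h15]; simp
    have h15 : g ∈ H4.sN (H4.sgl a) := by
      rw [H4.sN, ← H4.pN_eq_of_mem (h := H4.sgl t) hg h13 ht.2]
      refine H4.mem_pN_of_conj (H4.disc_of_mem_pT (h := H4.sgl t) hg h13 ht.2) ?_
      rwa [H4.pT_eq_of_mem (h := H4.sgl t) hs h13 ht.2, H4.pmk_sgl, ← map_inv, ← map_mul, ← map_mul]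
    have k1 : ∀ c ∈ H4.sT (H4.sgl a), c ∈ Subgroup.normalizer ((S : Subgroup (Matrix.SpecialLinearGroup (Fin 2) F)) : Set (Matrix.SpecialLinearGroup (Fin 2) F)) → c ∈ (S : Subgroup (Matrix.SpecialLinearGroup (Fin 2) F)) := fun c hc hc' => by
      obtain ⟨n, hn⟩ := H8.exists_pow_eq_one_of_mem S.isPGroup'
        (H4.mem_of_odd_normalizer hg hy (h4 hy) h5 hc hc')
      rw [← sq, ← pow_mul, ← pow_succ'] at hn
      exact H8.mem_sylow_of_mem_normalizer S hc' (H8.isPGroup_zpowers_of_pow hn)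
    by_cases h16 : g ∈ H4.sT (H4.sgl a)
    · exact k1 g h16 hgN
    · exact (mul_mem_cancel_right hy).1 (k1 _ (H4.sN_mul hg h15 h16 (h4 hy) h5)
        (mul_mem hgN (Subgroup.le_normalizer hy)))
  · have hn := H4.neg_one_mem_sylow S
    have h9 : Nat.card S = 8 := by
      obtain ⟨n, hn⟩ := IsPGroup.iff_card.1 S.isPGroup'
      have h10 : 8 ∣ Nat.card S := Nat.Coprime.dvd_of_dvd_mul_right (Nat.Coprime.pow_left 3
        (Nat.coprime_two_left.2 (Nat.odd_iff.2 hk))) (h6 ▸ by omega)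
      have h11 : ¬ 16 ∣ Nat.card S := fun h => by
        have := h.mul_right k
        omega
      rw [hn] at h10 h11 ⊢
      have h12 : 3 ≤ n := (Nat.pow_dvd_pow_iff_le_right one_lt_two).1 h10
      have h13 : ¬ 4 ≤ n := fun h => h11 (pow_dvd_pow 2 h)
      rw [show n = 3 by omega]; rfl
    have h10 := H4.card_of_neg_one_mem h2 hn
    have h11 := H4.four_of_trace h2 h3 (H4.sN_trace hg (h4 hy) h5) (H4.sN_trace hg
      (h4 (mul_mem ha hy)) fun h => h5 ((mul_mem_cancel_left (H4.mem_sT_self a)).1 h))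
    have h12 : H4.V4 (H4.smk a) (H4.smk y) = (S : Subgroup (Matrix.SpecialLinearGroup (Fin 2) F)).map H4.smk :=
      H4.eq_of_le_of_card ((Subgroup.closure_le _).2 (by
        rintro _ (rfl | rfl)
        exacts [⟨a, ha, rfl⟩, ⟨y, hy, rfl⟩])) (by rw [h11.card]; omega)
    have h13 := Subgroup.comap_normalizer_eq_of_le_range (Subgroup.map_le_range H4.smk (S : Subgroup (Matrix.SpecialLinearGroup (Fin 2) F)))
    rw [Subgroup.comap_map_eq_self (H4.ker_smk_le hn)] at h13
    have hq := H4.odd_card_of_two_ne_zero h2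
    have h14 := H4.card_inf_pL hq fun h => by
      have := (H4.s4_le_pL_iff h2 (H4.normalizer_four_equiv h2 (H4.smk_mem_pL a) (H4.smk_mem_pL y) h11)).1 h
      omega
    rw [← h13, H4.card_comap_smk, ← h12, H4.gcd_eq_two hq, h14,
      H4.card_normalizer_four h2 (H4.smk_mem_pL a) (H4.smk_mem_pL y) h11, h9]

end Cfsg.Agent.S2431
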