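import Cfsg.Statements.S2434
import Cfsg.Agent.H4.SL2Half

set_option autoImplicit false
open Cfsg

namespace Cfsg.Agent.S2434

/-- Let F be a finite field with q elements, q odd, and C a cyclic subgroup of order q + 1 of SL₂ over F (a non-split torus; it contains the centre). For every homomorphism θ from C to the non-zero complex numbers with θ² ≠ 1 there is an irreducible complex character χ of degree q − 1 such that χ(c) = −θ(c) − θ(c)⁻¹ for every non-central c in C, χ(zg) = θ(z)χ(g) for central z in C, χ vanishes at diagonal elements with entry a, a² ≠ 1, and χ takes the value −1 at every upper unitriangular element other than 1. Conversely every irreducible character of degree q − 1 has, for some such θ, the values −θ(c) − θ(c)⁻¹ at the non-central elements c of C (for q ≥ 5 these are exactly the cuspidal characters of degree q − 1). -/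
theorem result {F : Type*} [Field F] [Fintype F] (hodd : Odd (Fintype.card F))
    (C : Subgroup (Matrix.SpecialLinearGroup (Fin 2) F)) (hC : IsCyclic C) (hcard : Nat.card C = Fintype.card F + 1) :
    (∀ θ : C →* ℂˣ, (∃ c : C, θ c ^ 2 ≠ 1) →
      ∃ χ : Matrix.SpecialLinearGroup (Fin 2) F → ℂ, Cfsg.IsIrrCharacter (Matrix.SpecialLinearGroup (Fin 2) F) χ ∧ χ 1 = (Fintype.card F : ℂ) - 1 ∧
        (∀ c : C, (c : Matrix.SpecialLinearGroup (Fin 2) F) ∉ Subgroup.center (Matrix.SpecialLinearGroup (Fin 2) F) → χ c = -((θ c).val + (θ c)⁻¹.val)) ∧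
        (∀ c : C, (c : Matrix.SpecialLinearGroup (Fin 2) F) ∈ Subgroup.center (Matrix.SpecialLinearGroup (Fin 2) F) → ∀ g : Matrix.SpecialLinearGroup (Fin 2) F, χ ((c : Matrix.SpecialLinearGroup (Fin 2) F) * g) = (θ c).val * χ g) ∧
        (∀ g : Matrix.SpecialLinearGroup (Fin 2) F, (g : Matrix (Fin 2) (Fin 2) F) 0 1 = 0 → (g : Matrix (Fin 2) (Fin 2) F) 1 0 = 0 → (g : Matrix (Fin 2) (Fin 2) F) 0 0 ^ 2 ≠ 1 → χ g = 0) ∧
        (∀ g : Matrix.SpecialLinearGroup (Fin 2) F, (g : Matrix (Fin 2) (Fin 2) F) 1 0 = 0 → (g : Matrix (Fin 2) (Fin 2) F) 0 0 = 1 → (g : Matrix (Fin 2) (Fin 2) F) 1 1 = 1 → (g : Matrix (Fin 2) (Fin 2) F) 0 1 ≠ 0 → χ g = -1)) ∧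
    (∀ χ : Matrix.SpecialLinearGroup (Fin 2) F → ℂ, Cfsg.IsIrrCharacter (Matrix.SpecialLinearGroup (Fin 2) F) χ → χ 1 = (Fintype.card F : ℂ) - 1 →
      ∃ θ : C →* ℂˣ, (∃ c : C, θ c ^ 2 ≠ 1) ∧
        ∀ c : C, (c : Matrix.SpecialLinearGroup (Fin 2) F) ∉ Subgroup.center (Matrix.SpecialLinearGroup (Fin 2) F) → χ c = -((θ c).val + (θ c)⁻¹.val)) := by
  classical
  have : Fintype (Matrix.SpecialLinearGroup (Fin 2) F) := Fintype.ofFinite _
  have h2 := H4.two_ne_zero_of_odd hodd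
  have h3 := H4.three_le_card h2
  obtain ⟨e, rfl⟩ := (Subgroup.isCyclic_iff_exists_zpowers_eq_top C).1 hC
  have ho : orderOf e = Fintype.card F + 1 := (Nat.card_zpowers e).symm.trans hcard
  have he : H4.Ell e.1 := by
    have k := H4.orderOf_dvd_card_cent e
    rw [ho] at k
    rcases H4.m2_cases e.1 with h | ⟨a, h⟩ | ⟨a, b, h⟩ | h
    · have k1 : orderOf e ∣ 2 := orderOf_dvd_of_pow_eq_one (by
        rcases H4.sl_sc_iff.1 h with rfl | rfl <;> simp)
      have := Nat.le_of_dvd two_pos k1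
      omega
    · rw [H4.card_slCent_un h2 h] at k
      have k1 : Fintype.card F + 1 ∣ 2 :=
        (Nat.dvd_add_right k).1 ⟨2, by ring⟩
      have := Nat.le_of_dvd two_pos k1
      omega
    · rw [H4.card_slCent_sp h] at k
      have := Nat.le_of_dvd (by omega) k
      omega
    · exact h
  have hCe : Subgroup.zpowers e = H4.sC e := Subgroup.eq_of_le_of_card_ge (Subgroup.zpowers_le.2
    (Subgroup.mem_centralizer_singleton_iff.2 rfl)) ((H4.card_slCent_ell he).trans hcard.symm).le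
  have hge : ∀ c : H4.sC e, ¬ H4.Sc c.1.1 → Fintype.card F = 3 → ∀ θ : H4.sC e →* ℂˣ,
      θ ^ 2 ≠ 1 → (θ c).val + (θ c)⁻¹.val = 0 := fun c hc hq θ hθ => by
    have k0 : Nat.card (H4.sC e) = 4 := by rw [H4.card_slCent_ell he, hq]
    have k1 : c ^ 4 = 1 := k0 ▸ pow_card_eq_one'
    have k2 : orderOf c = 2 ^ 2 := orderOf_eq_prime_pow (fun h => hc (by
      have k3 : c.1 * c.1 = 1 := by rw [← sq]; exact congrArg Subtype.val h
      have k4 : c.1.1 * c.1.1 = 1 := congrArg Subtype.val k3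
      by_contra hs
      have k5 := H4.m2_cayley c.1.1
      rw [k4, c.1.2, one_smul] at k5
      have k6 := H4.lin_inj hs (a := 2) (b := 0) (c := 0) (d := c.1.1.trace) (by
        rw [zero_smul, add_zero, zero_smul, zero_add, two_smul]
        exact (eq_sub_iff_add_eq.1 k5))
      exact h2 k6.1)) k1
    have k3 : Subgroup.zpowers c = ⊤ := Subgroup.eq_top_of_card_eq _
      (by rw [Nat.card_zpowers, k2, k0]; norm_num)
    have k4 : (θ c).val ^ 2 ≠ 1 := fun h => hθ (MonoidHom.ext fun y => by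
      obtain ⟨i, rfl⟩ := k3.ge (Subgroup.mem_top y)
      have : θ c ^ 2 = 1 := Units.ext h
      simp only [MonoidHom.pow_apply, map_zpow, this, one_zpow, MonoidHom.one_apply])
    have k5 : (θ c).val ^ 4 = 1 := by rw [← Units.val_pow_eq_pow_val, ← map_pow, k1]; simp
    have k6 : (θ c).val ^ 2 = -1 :=
      (mul_self_eq_one_iff.1 (by rw [← k5]; ring)).resolve_left k4
    rw [Units.val_inv_eq_inv_val]
    field_simp
    linear_combination k6
  revert hC hcard
  rw [hCe]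
  intro _ _
  have hθ : ∀ θ : H4.sC e →* ℂˣ, θ ^ 2 ≠ 1 ↔ ∃ c, θ c ^ 2 ≠ 1 := fun θ => by
    rw [ne_eq, MonoidHom.ext_iff, not_forall]; rfl
  refine ⟨fun θ h => ⟨H4.sX he θ, H4.sX_irr he ((hθ θ).2 h), H4.sX_one he θ, fun c hc => ?_,
    fun c hc g => ?_, fun g k1 k2 k3 => ?_, fun g k1 k2 k3 k4 => ?_⟩, fun χ hχ h => ?_⟩
  · rw [H4.sX_ell he θ (mt H4.sl_mem_center_iff.2 hc), map_inv]
  · have k1 := H4.irr_apply_center_mul (H4.sX_irr he ((hθ θ).2 h)) hc g
    have k2 := (H4.sl_mem_center_iff.1 hc).eq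
    have k3 : c.1.1 0 0 ≠ 0 := left_ne_zero_of_mul_eq_one (H4.sl_sq_of_sc k2)
    rw [H4.sX_one, H4.sX_sc he θ (a := Units.mk0 _ k3) k2, H4.sZ_apply he θ (z := c) k2,
      mul_assoc] at k1
    refine mul_left_cancel₀ (sub_ne_zero.2 ?_) k1
    exact_mod_cast (by omega : Fintype.card F ≠ 1)
  · have k4 : g.1 0 0 * g.1 1 1 = 1 := by
      have := g.2
      rw [Matrix.det_fin_two, k1] at this
      simpa using this
    exact H4.sX_sp he θ (H4.sp_of_tri k2 fun e => k3 (by rw [sq]; rwa [← e] at k4))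
  · have k5 := H4.un_of_tri k1 (k2.trans k3.symm) k4
    rw [k2] at k5
    rw [H4.sX_un he θ (a := 1) k5]
    simp
  · rcases H4.sl_irr_deg he hχ (n := Fintype.card F - 1) (by rw [h, Nat.cast_sub (by omega)]; simp)
      with ⟨k, -⟩ | ⟨k, -⟩ | ⟨k, -⟩ | ⟨-, θ, k1, rfl⟩ | ⟨k, α, ψ, -, -, k1⟩ | ⟨k, -⟩
    any_goals omega
    · exact ⟨θ, (hθ θ).1 k1, fun c hc => by
        rw [H4.sX_ell he θ (mt H4.sl_mem_center_iff.2 hc), map_inv]⟩
    · have hq : Fintype.card F = 3 := by omega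
      have := H4.isCyclic_dual_sC he
      obtain ⟨θ, k2⟩ := IsCyclic.exists_ofOrder_eq_natCard (α := H4.sC e →* ℂˣ)
      rw [H4.card_dual_sC he, hq] at k2
      have k3 : θ ^ 2 ≠ 1 := fun k3 => by
        have := orderOf_dvd_of_pow_eq_one k3
        rw [k2] at this
        omega
      refine ⟨θ, (hθ θ).1 k3, fun c hc => ?_⟩
      have k4 := mt H4.sl_mem_center_iff.2 hc
      have k5 := H4.ell_of_mem_sC he k4
      rw [hge c k4 hq θ k3, k1.half_of_ss (Or.inr k5.sl_disc), H4.sW_ell _ k5]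
      simp

end Cfsg.Agent.S2434
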