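import Cfsg.Statements.S2435
import Cfsg.Agent.H4.SL2Half

set_option autoImplicit false
open Cfsg

namespace Cfsg.Agent.S2435

open H4 Matrix in
theorem mc_sq {F : Type*} [Field F] [Fintype F] {α : MulChar F ℂ} (h : α ^ 2 = 1) {a : F}
    (ha : a ≠ 0) : α a * α a = 1 := by
  have := congrArg (fun β : MulChar F ℂ => β a) h
  simp only [sq, MulChar.mul_apply] at this
  rw [this, MulChar.one_apply (Ne.isUnit ha)]

theorem mc_of_sq {F : Type*} [Field F] [Fintype F] {α : MulChar F ℂ} (h : α ^ 2 = 1) {a : F}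
    (ha : a ≠ 0) (hs : IsSquare a) : α a = 1 := by
  obtain ⟨b, rfl⟩ := hs
  rw [map_mul, mc_sq h (left_ne_zero_of_mul ha)]

theorem mc_of_nsq {F : Type*} [Field F] [Fintype F] {α : MulChar F ℂ} (h : α ^ 2 = 1) (h1 : α ≠ 1)
    {a : F} (hs : ¬ IsSquare a) : α a = -1 := by
  obtain ⟨b, hb⟩ := MulChar.ne_one_iff.1 h1
  have ha : a ≠ 0 := fun e => hs (e ▸ IsSquare.zero)
  have k1 := mc_of_sq h (mul_ne_zero ha b.ne_zero)
    (H4.isSquare_mul_of_not hs fun k => hb (mc_of_sq h b.ne_zero k))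
  have k2 := (mul_self_eq_one_iff.1 (mc_sq h b.ne_zero)).resolve_left hb
  rw [map_mul, k2] at k1
  linear_combination -k1

theorem th_val {C : Type*} [Group C] [Finite C] [IsCyclic C] {m : ℕ} (hm : Nat.card C = 2 * m)
    {θ : C →* ℂˣ} (h : θ ^ 2 = 1) (h1 : θ ≠ 1) (z : C) :
    (z ^ m = 1 → θ z = 1) ∧ (z ^ m ≠ 1 → θ z = -1) := by
  obtain ⟨γ, hγ⟩ := IsCyclic.exists_monoid_generator (α := C)
  have ho : orderOf γ = 2 * m := (orderOf_eq_card_of_forall_mem_powers hγ).trans hm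
  have k1 : θ γ = -1 := by
    have k2 : θ γ * θ γ = 1 := by simpa [sq] using DFunLike.congr_fun h γ
    rcases mul_self_eq_one_iff.1 (congrArg Units.val k2) with k | k
    · refine absurd (MonoidHom.ext fun y => ?_) h1
      obtain ⟨i, rfl⟩ := hγ y
      simp [show θ γ = 1 from Units.ext k]
    · exact Units.ext k
  obtain ⟨i, rfl⟩ := hγ z
  have hm0 : 0 < m := by have := Nat.card_pos (α := C); omega
  simp only
  rw [map_pow, k1, ← pow_mul, ne_eq, ← orderOf_dvd_iff_pow_eq_one, ho,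
    Nat.mul_dvd_mul_iff_right hm0, ← even_iff_two_dvd]
  exact ⟨fun k => k.neg_one_pow, fun k => (Nat.not_even_iff_odd.1 k).neg_one_pow⟩


/-- Let F be a finite field with q elements, q odd and q ≥ 5, and χ an irreducible complex character of SL₂ over F. If χ has degree (q + 1)/2, then at a diagonal element with entry a, a² ≠ 1, χ takes the value 1 when a is a square in F and −1 otherwise. If χ has degree (q − 1)/2, then at an element g with no eigenvector in F² (so g has order dividing q + 1), χ takes the value −1 when g raised to the power (q + 1)/2 is the identity and the value 1 otherwise. -/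
theorem result {F : Type*} [Field F] [Fintype F] (hodd : Odd (Fintype.card F)) (hq : 5 ≤ Fintype.card F)
    (χ : Matrix.SpecialLinearGroup (Fin 2) F → ℂ) (hχ : Cfsg.IsIrrCharacter (Matrix.SpecialLinearGroup (Fin 2) F) χ) (g : Matrix.SpecialLinearGroup (Fin 2) F) :
    (χ 1 = (((Fintype.card F + 1) / 2 : ℕ) : ℂ) → (g : Matrix (Fin 2) (Fin 2) F) 0 1 = 0 → (g : Matrix (Fin 2) (Fin 2) F) 1 0 = 0 → (g : Matrix (Fin 2) (Fin 2) F) 0 0 ^ 2 ≠ 1 →
      (IsSquare ((g : Matrix (Fin 2) (Fin 2) F) 0 0) → χ g = 1) ∧ (¬ IsSquare ((g : Matrix (Fin 2) (Fin 2) F) 0 0) → χ g = -1)) ∧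
    (χ 1 = (((Fintype.card F - 1) / 2 : ℕ) : ℂ) → (∀ (c : F) (v : Fin 2 → F), v ≠ 0 → (g : Matrix (Fin 2) (Fin 2) F).mulVec v ≠ c • v) →
      (((g ^ ((Fintype.card F + 1) / 2)) : Matrix (Fin 2) (Fin 2) F) = 1 → χ g = -1) ∧ (((g ^ ((Fintype.card F + 1) / 2)) : Matrix (Fin 2) (Fin 2) F) ≠ 1 → χ g = 1)) := by
  classical
  have : Fintype (Matrix.SpecialLinearGroup (Fin 2) F) := Fintype.ofFinite _
  refine ⟨fun h1 h2 h3 h4 => ?_, fun h1 h2 => ?_⟩
  · obtain ⟨α, ψ, k1, k2, k3⟩ := H4.sl_deg_hadd (by omega) hodd hχ h1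
    have k4 : g.1 0 0 * g.1 1 1 = 1 := by
      have := g.2
      rw [Matrix.det_fin_two, h2] at this
      simpa using this
    have k5 : H4.Sp g.1 (g.1 0 0) (g.1 1 1) := H4.sp_of_tri h3 fun e => h4 (by rw [sq]; rwa [← e] at k4)
    have k6 := k3.half_of_ss (Or.inr k5.sl_disc)
    have k7 : α (g.1 1 1) = α (g.1 0 0) := by
      have k8 := mc_sq k1 (left_ne_zero_of_mul_eq_one k4)
      have k9 : α (g.1 0 0) * α (g.1 1 1) = 1 := by rw [← map_mul, k4, map_one]
      linear_combination α (g.1 0 0) * k9 - α (g.1 1 1) * k8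
    rw [H4.sW_sp _ k5, k7] at k6
    exact ⟨fun k => by rw [k6, mc_of_sq k1 (left_ne_zero_of_mul_eq_one k4) k]; norm_num,
      fun k => by rw [k6, mc_of_nsq k1 k2 k]; norm_num⟩
  · have he : H4.Ell g.1 := H4.ell_iff.2 h2
    obtain ⟨θ, ψ, k1, k2, k3⟩ := H4.sl_deg_hsub he (by omega) hodd hχ h1
    have k6 := k3.half_of_ss (Or.inr he.sl_disc)
    let z : H4.sC g := ⟨g, Subgroup.mem_centralizer_singleton_iff.2 rfl⟩
    have k7 := H4.sX_ell he θ (z := z) he.not_sc
    have : IsCyclic (H4.sC g) := H4.isCyclic_slCent he.sl_disc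
    have k8 := th_val (m := (Fintype.card F + 1) / 2) ((H4.card_slCent_ell he).trans
      (by have := Nat.odd_iff.1 hodd; omega)) k1 k2 z
    have k9 : z ^ ((Fintype.card F + 1) / 2) = 1 ↔ g.1 ^ ((Fintype.card F + 1) / 2) = 1 := by
      rw [Subtype.ext_iff]; exact Subtype.ext_iff
    rw [show H4.sX he θ g = _ from k7, map_inv] at k6
    exact ⟨fun k => by rw [k6, k8.1 (k9.2 k)]; norm_num,
      fun k => by rw [k6, k8.2 (mt k9.1 k)]; norm_num⟩

end Cfsg.Agent.S2435
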