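import Cfsg.Statements.S2436
import Cfsg.Agent.H4.SL2Deg
import Cfsg.Agent.S2431
import Cfsg.Agent.H16.Misc
import Cfsg.Agent.H16.PL1
import Cfsg.Agent.Lead.GW1
import Cfsg.Agent.H21.FS

set_option autoImplicit false
open Cfsg

namespace Cfsg.Agent.S2436

open H17 H4 H16 Matrix Subgroup
open scoped MatrixGroups commutatorElement

/-- number of irreducible characters of degree prime to `ℓ` -/
noncomputable abbrev cnt (ℓ : ℕ) (X : Type*) [Group X] : ℕ :=
  Nat.card {χ : IrrCharacter X // ¬ ℓ ∣ charDegree χ.1}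

theorem card_or {α : Type*} [Finite α] (P Q : α → Prop) (h : ∀ x, P x → Q x → False) :
    Nat.card {x // P x ∨ Q x} = Nat.card {x // P x} + Nat.card {x // Q x} := by
  classical
  rw [Nat.card_congr (subtypeOrEquiv P Q (Pi.disjoint_iff.2 fun x => Prop.disjoint_iff.2
    fun k => h x k.1 k.2)), Nat.card_sum]

theorem card_iff {α : Type*} {P Q : α → Prop} (h : ∀ x, P x ↔ Q x) :
    Nat.card {x // P x} = Nat.card {x // Q x} := Nat.card_congr (Equiv.subtypeEquivRight h)

section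
variable {X : Type*} [Group X] [Finite X] {ℓ : ℕ}

theorem cnt_equiv {Y : Type*} [Group Y] (e : X ≃* Y) : cnt ℓ X = cnt ℓ Y :=
  Nat.card_congr
    { toFun := fun χ => ⟨⟨_, χ.1.2.comp_equiv e.symm⟩, by simpa [charDegree] using χ.2⟩
      invFun := fun χ => ⟨⟨_, χ.1.2.comp_equiv e⟩, by simpa [charDegree] using χ.2⟩
      left_inv := fun χ => Subtype.ext (Subtype.ext (funext fun x => by simp))
      right_inv := fun χ => Subtype.ext (Subtype.ext (funext fun x => by simp)) }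

theorem cnt_add : cnt ℓ X + Nat.card {χ : IrrCharacter X // ℓ ∣ charDegree χ.1} =
    Nat.card (ConjClasses X) := by
  rw [← card_or _ _ fun _ h h' => h h', ← card_irr]
  exact Nat.card_congr (Equiv.subtypeUnivEquiv fun _ => (em _).symm)

theorem cnt_conj [Fact ℓ.Prime] {P Q : Subgroup X} (hP : Sy[ℓ] P ⊤) (hQ : Sy[ℓ] Q ⊤) :
    cnt ℓ N[Q] = cnt ℓ N[P] := by
  obtain ⟨g, -, rfl⟩ := sy_conj hP hQ
  rw [norm_cj]
  exact (cnt_equiv (equivMapOfInjective _ _ (MulAut.conj g).injective)).symm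

theorem deg_dvd {T N : Subgroup X} (h1 : T ≤ N) (h2 : N ≤ N[T]) (h3 : T ≤ C[T])
    (χ : IrrCharacter N) : charDegree χ.1 ∣ T.relIndex N := by
  have := normal_subgroupOf_of_le_normalizer h2
  exact χ.2.degree_dvd_index_of_comm (irr_one_eq χ.2) (T.subgroupOf N)
    ⟨⟨fun a b => Subtype.ext (Subtype.ext (mem_cent.1 (h3 b.2) _ a.2))⟩⟩

theorem cnt_ab [hp : Fact ℓ.Prime] {P : Subgroup X} (hP : Sy[ℓ] P ⊤) (h : P ≤ C[P]) :
    cnt ℓ N[P] = Nat.card (ConjClasses N[P]) := by
  rw [← card_irr]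
  exact Nat.card_congr (Equiv.subtypeUnivEquiv fun χ k => sy_not_dvd (hl_of_le hP (le_norm P) le_top)
    hp.out (k.trans (deg_dvd (le_norm P) le_rfl h χ)))

theorem cnt_two (h : ∀ χ : IrrCharacter X, charDegree χ.1 ∣ 2) :
    Nat.card X + 3 * cnt 2 X = 4 * Nat.card (ConjClasses X) := by
  classical
  rw [← H21.sum_deg_sq, ← card_irr, cnt, Nat.card_eq_fintype_card, Fintype.card_subtype,
    Nat.card_eq_fintype_card, Finset.card_filter, Finset.mul_sum, ← Finset.sum_add_distrib,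
    ← Finset.card_univ, Finset.card_eq_sum_ones, Finset.mul_sum]
  refine Finset.sum_congr rfl fun χ _ => ?_
  rcases (Nat.dvd_prime Nat.prime_two).1 (h χ) with e | e <;> simp [e]

theorem cnt_24 (h : Nat.card X = 24) (h3 : (commutator X).index = 3) : cnt 2 X = 4 := by
  classical
  have k0 : ∀ χ : IrrCharacter X, χ.1 1 = 1 ↔ charDegree χ.1 = 1 := fun χ => by
    rw [irr_one_eq χ.2, Nat.cast_eq_one]
  rw [← card_linear_irr, card_iff k0, Nat.card_eq_fintype_card, Fintype.card_subtype,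
    Finset.card_filter] at h3
  rw [← H21.sum_deg_sq] at h
  rw [cnt, Nat.card_eq_fintype_card, Fintype.card_subtype, Finset.card_filter]
  have k1 : 9 * ∑ χ : IrrCharacter X, (if ¬ 2 ∣ charDegree χ.1 then 1 else 0) ≤
      ∑ χ : IrrCharacter X, charDegree χ.1 ^ 2 +
        8 * ∑ χ : IrrCharacter X, if charDegree χ.1 = 1 then 1 else 0 := by
    rw [Finset.mul_sum, Finset.mul_sum, ← Finset.sum_add_distrib]
    refine Finset.sum_le_sum fun χ _ => ?_
    split_ifs with h1 h2 h2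
    · omega
    · omega
    · simp [h2]
    · nlinarith [show 3 ≤ charDegree χ.1 by omega]
  have k2 : (∑ χ : IrrCharacter X, if charDegree χ.1 = 1 then 1 else 0) ≤
      ∑ χ : IrrCharacter X, if ¬ 2 ∣ charDegree χ.1 then 1 else 0 :=
    Finset.sum_le_sum fun χ _ => by split_ifs <;> omega
  have k3 : (∑ χ : IrrCharacter X, charDegree χ.1 ^ 2) % 4 =
      (∑ χ : IrrCharacter X, if ¬ 2 ∣ charDegree χ.1 then 1 else 0) % 4 := by
    rw [Finset.sum_nat_mod, Finset.sum_nat_mod _ 4 (fun χ : IrrCharacter X =>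
      if ¬ 2 ∣ charDegree χ.1 then 1 else 0)]
    refine congrArg (· % 4) (Finset.sum_congr rfl fun χ _ => ?_)
    obtain ⟨k, e | e⟩ := Nat.even_or_odd' (charDegree χ.1)
    · rw [if_neg (not_not.2 ⟨k, e⟩), e, show (2 * k) ^ 2 = 4 * k ^ 2 by ring, Nat.mul_mod_right]
    · rw [if_pos (by omega), e, show (2 * k + 1) ^ 2 = 4 * (k ^ 2 + k) + 1 by ring,
        Nat.mul_add_mod]
  omega

end

variable {F : Type*} [Field F] [Fintype F]

theorem deg_iff (χ : IrrCharacter SL(2, F)) (n : ℕ) : χ.1 1 = n ↔ charDegree χ.1 = n := by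
  rw [irr_one_eq χ.2, Nat.cast_inj]

theorem not_dvd {p : ℕ} [hp : Fact p.Prime] [CharP F p] {χ : IrrCharacter SL(2, F)}
    (h : χ.1 1 ≠ Fintype.card F) : ¬ p ∣ charDegree χ.1 := fun k => by
  have k1 := not_dvd_card_add_one (F := F) p
  have k2 := not_dvd_card_sub_one (F := F) p
  rcases sl_deg_cases ⟨χ, rfl⟩ with e | e | e | e | e | e
  · exact hp.out.not_dvd_one (e ▸ k)
  · exact h (by rw [irr_one_eq χ.2, e])
  · exact k1 (e ▸ k)
  · exact k2 (k.trans ⟨1, by omega⟩)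
  · exact k1 (k.trans ⟨2, by omega⟩)
  · exact k2 (k.trans ⟨2, by omega⟩)

theorem der_norm (hodd : Odd (Fintype.card F)) (S : Sylow 2 SL(2, F)) (h8 : Nat.card S = 8)
    (h24 : Nat.card N[(S : Subgroup SL(2, F))] = 24) :
    (commutator N[(S : Subgroup SL(2, F))]).index = 3 := by
  have h2 := two_ne_zero_of_odd hodd
  have k1 : (S : Subgroup SL(2, F)).relIndex N[(S : Subgroup SL(2, F))] = 3 := by
    have := card_mul_relIndex (le_norm (S : Subgroup SL(2, F)))
    rw [h8, h24] at this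
    omega
  have k2 := der_le_of_relIndex_prime le_rfl (k1 ▸ Nat.prime_three)
  rw [← relIndex_map_subtype_top, map_subtype_commutator, ← k1]
  refine congrArg (relIndex · _) (by_contra fun k => ?_)
  generalize hD : (⁅N[(S : Subgroup SL(2, F))], N[(S : Subgroup SL(2, F))]⁆ : Subgroup _) = D at k k2
  have k3 : Nat.card D ≤ 4 := by
    have k4 := card_lt (lt_of_le_of_ne k2 k)
    obtain ⟨j, k5, k6⟩ := pg_card_cases Nat.prime_two (k := 3) h8 k2
    rw [k6, h8] at k4
    rw [k6]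
    interval_cases j <;> omega
  obtain ⟨x, hx, k4⟩ := exists_orderOf Nat.prime_three (h24 ▸ by norm_num :
    3 ∣ Nat.card N[(S : Subgroup SL(2, F))])
  have k5 : D ≤ C[zpowers x] := fun m hm => by
    by_cases m1 : m = 1 ∨ m = -1
    · exact center_le_centralizer _ (sl_mem_center_iff.2 (sl_sc_iff.2 m1))
    obtain ⟨z, hz, k6⟩ := exists_orderOf Nat.prime_two (H10.dvd_card_of_isPGroup_ne_bot
      (S.isPGroup'.to_le k2) (ne_bot_of_mem hm fun e => m1 (Or.inl e)))
    obtain rfl : z = -1 := (sl_sq_eq_one h2 (by rw [← sq]; exact orderOf_dvd_iff_pow_eq_one.1 k6.dvd)).resolve_left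
      (H10.ne_one_of_orderOf_eq k6)
    have k7 : {u | ∃ w ∈ zpowers x, w * m * w⁻¹ = u} ⊆ (D : Set SL(2, F)) \ {1, -1} := by
      rintro _ ⟨w, hw, rfl⟩
      refine ⟨conj_mem (hD ▸ norm_der_self _ (zpowers_le.2 hx hw)) hm, fun e => m1 ?_⟩
      exact sl_sc_iff.1 ((sl_sc_iff_of_isConj (isConj_iff.2 ⟨w, rfl⟩)).2 (sl_sc_iff.2 e))
    have k8 := Set.ncard_le_ncard k7
    rw [GW.ncard_cls, Set.ncard_sdiff (by rintro _ (rfl | rfl); exacts [D.one_mem, hz]),
      Set.ncard_pair (sl_neg_one_ne_one h2).symm, ← Nat.card_coe_set_eq] at k8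
    have k9 := relIndex_dvd_card C1[m] (zpowers x)
    rw [card_zpowers, k4] at k9
    refine le_cent1.1 (relIndex_eq_one.1 (((Nat.dvd_prime Nat.prime_three).1 k9).resolve_right ?_))
    change Nat.card D ≤ 4 at k3
    change _ ≤ Nat.card D - 2 at k8
    change C1[m].relIndex _ ≤ _ at k8
    omega
  have k6 := cop_cent_of_comm_cent (K := (S : Subgroup SL(2, F))) (zpowers_le.2 hx)
    (by rw [card_zpowers, k4, h8]; norm_num)
    ((hD ▸ comm_le_der (le_norm _) (zpowers_le.2 hx)).trans k5) (mem_zpowers x)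
  rw [(S2431.result hodd S).1] at k6
  rcases sl_sc_iff.1 (sl_mem_center_iff.1 k6) with rfl | rfl
  · simp at k4
  · have := orderOf_dvd_of_pow_eq_one (x := (-1 : SL(2, F))) (n := 2) (by simp)
    rw [k4] at this
    omega

theorem two (hodd : Odd (Fintype.card F)) (S : Sylow 2 SL(2, F)) :
    cnt 2 SL(2, F) = cnt 2 N[(S : Subgroup SL(2, F))] := by
  have h2 := two_ne_zero_of_odd hodd
  have ho := Nat.odd_iff.1 hodd
  have : Fintype SL(2, F) := Fintype.ofFinite _
  obtain ⟨-, s1, s2⟩ := S2431.result hodd S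
  obtain ⟨a, ha, h3, h4, y, hy, h5⟩ := exists_sylow_two h2 S
  have hg := sgl_disc h2 h3
  obtain ⟨k, hk, h6⟩ := card_sylow_two h2 S h3
  have h7 := card_sT_inner h2 h3
  have h8 : Fintype.card F % 8 = 3 ∨ Fintype.card F % 8 = 5 → Nat.card S = 8 := fun h8 => by
    obtain ⟨n, hn⟩ := IsPGroup.iff_card.1 S.isPGroup'
    have h10 : 8 ∣ Nat.card S := Nat.Coprime.dvd_of_dvd_mul_right (Nat.Coprime.pow_left 3
      (Nat.coprime_two_left.2 (Nat.odd_iff.2 hk))) (h6 ▸ by omega)
    have h11 : ¬ 16 ∣ Nat.card S := fun h => by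
      have := h.mul_right k
      omega
    rw [hn] at h10 h11 ⊢
    have h12 : 3 ≤ n := (Nat.pow_dvd_pow_iff_le_right one_lt_two).1 h10
    have h13 : ¬ 4 ≤ n := fun h => h11 ((Nat.pow_dvd_pow_iff_le_right one_lt_two (k := 4)).2 h)
    rw [show n = 3 by omega]
    rfl
  by_cases hq : Fintype.card F = 3
  · rw [eq_top_of_card_eq N[(S : Subgroup SL(2, F))] (by
      rw [s2 (by omega), h8 (by omega), card_sl2, hq])]
    exact cnt_equiv topEquiv.symm
  have h4' : 4 ≤ Fintype.card F := by have := one_lt_card' (F := F); omega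
  have k1 : cnt 2 SL(2, F) = 4 := by
    obtain ⟨d, hd, k⟩ : ∃ d, (2 * d = Fintype.card F + 1 ∧ Fintype.card F % 4 = 1 ∨
        2 * d + 1 = Fintype.card F ∧ Fintype.card F % 4 = 3) ∧
        Nat.card {χ : IrrCharacter SL(2, F) // χ.1 1 = (d : ℕ)} = 2 := by
      rcases h7 with h | h
      exacts [⟨_, by omega, sl_card_deg_hadd h4' hodd⟩, ⟨_, by omega, sl_card_deg_hsub h4' hodd⟩]
    rw [cnt, card_iff (Q := fun χ : IrrCharacter SL(2, F) =>
      (χ.1 1 = 1 ∨ χ.1 1 = (Fintype.card F : ℂ)) ∨ χ.1 1 = (d : ℂ))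
      fun χ => ?_, card_or _ _ fun χ => ?_, card_or _ _ fun χ => ?_, k, sl_card_deg_one h4',
      sl_card_deg_card]
    all_goals rw [← Nat.cast_one]; simp only [deg_iff]
    · omega
    · omega
    · have := sl_deg_cases ⟨χ, rfl⟩
      omega
  rw [k1]
  by_cases h9 : Fintype.card F % 8 = 3 ∨ Fintype.card F % 8 = 5
  · have k2 := s2 h9
    rw [h8 h9] at k2
    exact (cnt_24 k2 (der_norm hodd S (h8 h9) k2)).symm
  rw [s1 (by omega)]
  have k2 := card_inf_sT hg h4 hy h5
  have k3 := card_conjClasses_inv (T := (S : Subgroup SL(2, F)) ⊓ sT (sgl a)) inf_le_left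
    (fun x hx y hy => sT_comm (not_sc_of_disc hg) hx.2 hy.2)
    (fun x hx hx' t ht => sN_inv hg (h4 hx) (fun k => hx' ⟨hx, k⟩) ht.2)
    (fun x hx hx' y hy hy' => ⟨S.1.mul_mem hx hy,
      sN_mul hg (h4 hx) (fun k => hx' ⟨hx, k⟩) (h4 hy) fun k => hy' ⟨hy, k⟩⟩) k2
    (z := -1) ⟨neg_one_mem_sylow S, neg_one_mem_sT _⟩ (sl_neg_one_ne_one h2) (by simp)
    fun t _ ht => sl_sq_eq_one h2 ht
  have k4 : ((S : Subgroup SL(2, F)) ⊓ sT (sgl a)).relIndex S = 2 := by
    have := card_mul_relIndex (inf_le_left : (S : Subgroup SL(2, F)) ⊓ sT (sgl a) ≤ S)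
    rw [k2, mul_comm] at this
    exact Nat.eq_of_mul_eq_mul_right Nat.card_pos this
  have k5 := cnt_two (X := (S : Subgroup SL(2, F))) fun χ => (deg_dvd inf_le_left
    (le_norm_iff.2 fun x hx t ht => ⟨conj_mem (le_norm _ hx) ht.1, by
      by_cases k : x ∈ sT (sgl a)
      · exact (sT _).mul_mem ((sT _).mul_mem k ht.2) ((sT _).inv_mem k)
      · rw [sN_inv hg (h4 hx) k ht.2]; exact (sT _).inv_mem ht.2⟩)
    (fun x hx => mem_cent.2 fun y hy => sT_comm (not_sc_of_disc hg) hy.2 hx.2) χ).trans k4.dvd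
  omega


/-- Let F be a finite field with q elements, q odd, ℓ any prime and S a Sylow ℓ-subgroup of SL₂ over F with normaliser N. Then SL₂ and N have the same number of irreducible complex characters of degree not divisible by ℓ (the McKay equality holds for SL₂ over F at every prime). -/
theorem result {F : Type*} [Field F] [Fintype F] (hodd : Odd (Fintype.card F)) (ℓ : ℕ) [Fact ℓ.Prime] (S : Sylow ℓ (Matrix.SpecialLinearGroup (Fin 2) F)) :
    Nat.card {χ : Cfsg.IrrCharacter (Matrix.SpecialLinearGroup (Fin 2) F) // ¬ ℓ ∣ Cfsg.charDegree (χ : Matrix.SpecialLinearGroup (Fin 2) F → ℂ)} =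
      Nat.card {ψ : Cfsg.IrrCharacter (Subgroup.normalizer ((S : Subgroup (Matrix.SpecialLinearGroup (Fin 2) F)) : Set (Matrix.SpecialLinearGroup (Fin 2) F))) //
        ¬ ℓ ∣ Cfsg.charDegree (ψ : Subgroup.normalizer ((S : Subgroup (Matrix.SpecialLinearGroup (Fin 2) F)) : Set (Matrix.SpecialLinearGroup (Fin 2) F)) → ℂ)} := by
  change cnt ℓ SL(2, F) = cnt ℓ N[(S : Subgroup SL(2, F))]
  have hp : ℓ.Prime := Fact.out
  have h2 := two_ne_zero_of_odd hodd
  have ho := Nat.odd_iff.1 hodd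
  have : Fintype SL(2, F) := Fintype.ofFinite _
  have hS := sy_top_of_sylow S
  have k0 := cnt_add (X := SL(2, F)) (ℓ := ℓ)
  rw [card_conjClasses_sl h2] at k0
  by_cases l2 : ℓ = 2
  · subst l2; exact two hodd S
  by_cases h0 : (S : Subgroup SL(2, F)) = ⊥
  · rw [h0, norm_bot]
    exact cnt_equiv topEquiv.symm
  obtain ⟨x, hx, h1, h3⟩ := exists_central_pow S.isPGroup' h0
  have h4 : ¬ Sc x.1 := fun h => by
    rcases sl_sc_iff.1 h with rfl | rfl
    · exact hp.one_lt.ne (by simpa using h1)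
    · exact l2 ((Nat.prime_dvd_prime_iff_eq hp Nat.prime_two).1
        (h1 ▸ orderOf_dvd_of_pow_eq_one (by simp)))
  have h5 : (S : Subgroup SL(2, F)) ≤ C1[x] := fun y hy => mem_cent1.2 (h3 y hy)
  have h6 : ℓ ∣ Nat.card C1[x] := h1 ▸ orderOf_dvd_card (cent1_self x)
  have h7 : x.1.trace * x.1.trace - 4 ≠ 0 →
      2 * cnt ℓ N[(S : Subgroup SL(2, F))] = Nat.card C1[x] + 6 := fun h => by
    rw [← sl_disc] at h
    rw [cnt_ab hS fun y hy => mem_cent.2 fun z hz => slCent_comm h4 (h5 hz) (h5 hy),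
      normalizer_eq_sN h (sT_sgl x ▸ h5) hx h4, card_conjClasses_sN h2 h, ← card_sT h, sT_sgl]
  have h8 : ∀ n, ℓ ∣ n → ℓ ∣ n + 1 → False := fun n k k' =>
    hp.not_dvd_one ((Nat.dvd_add_right k).1 k')
  have h9 : ∀ n, ℓ ∣ n → ℓ ∣ n + 2 → False := fun n k k' =>
    l2 ((Nat.prime_dvd_prime_iff_eq hp Nat.prime_two).1 ((Nat.dvd_add_right k).1 k'))
  have h10 : ∀ n, ℓ ∣ 2 * n → ℓ ∣ n := fun n k => (hp.dvd_mul.1 k).resolve_left
    fun k' => l2 ((Nat.prime_dvd_prime_iff_eq hp Nat.prime_two).1 k')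
  have h11 := one_lt_card' (F := F)
  rcases m2_cases x.1 with h | ⟨a, h⟩ | ⟨a, b, h⟩ | h
  · exact absurd h h4
  · obtain ⟨p, hc⟩ := CharP.exists F
    have : Fact p.Prime := ⟨CharP.char_is_prime F p⟩
    obtain rfl : p = ℓ := (Nat.prime_dvd_prime_iff_eq this.out hp).1 (h1 ▸ h.char_dvd_orderOf p)
    obtain ⟨n, -, hn⟩ := FiniteField.card F p
    have k1 : Sy[p] (H22.slU F) ⊤ := sy_mk le_top
      (H15.isPi_of_card_eq_pow hp (H22.card_slU.trans hn)) fun k => by
        have := (H22.slU F).card_mul_index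
        rw [H22.card_slU, card_sl2] at this
        rw [relIndex_top_right, Nat.eq_of_mul_eq_mul_left Fintype.card_pos this] at k
        exact (hp.dvd_mul.1 k).elim (not_dvd_card_sub_one p) (not_dvd_card_add_one p)
    rw [cnt_conj k1 hS, cnt_ab k1 fun y hy => mem_cent.2 fun z hz => ?_, H22.normalizer_slU,
      ← sB_eq, card_conjClasses_sB h2]
    · rw [card_iff (Q := fun χ : IrrCharacter SL(2, F) => χ.1 1 = (Fintype.card F : ℂ))
        fun χ => ⟨fun k => by_contra fun k' =>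
        not_dvd k' k, fun k => (deg_iff χ _).1 k ▸ char_dvd_card p⟩, sl_card_deg_card] at k0
      omega
    · obtain ⟨y1, y2, y3⟩ := H22.mem_slU.1 hy
      obtain ⟨z1, z2, z3⟩ := H22.mem_slU.1 hz
      ext i j
      fin_cases i <;> fin_cases j <;>
        simp [Matrix.mul_apply, Fin.sum_univ_two, y1, y2, y3, z1, z2, z3, add_comm]
  · have k1 := h7 h.sl_disc
    rw [card_slCent_sp h] at k1 h6
    have h4' : 4 ≤ Fintype.card F := by
      by_contra k
      exact h9 0 (dvd_zero _) (by rwa [show Fintype.card F = 3 by omega] at h6)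
    rw [card_iff (Q := fun χ : IrrCharacter SL(2, F) => χ.1 1 = (Fintype.card F : ℂ) - 1 ∨
      χ.1 1 = (((Fintype.card F - 1) / 2 : ℕ) : ℂ)) fun χ => ?_, card_or _ _ fun χ => ?_,
      sl_card_deg_sub h4', sl_card_deg_hsub h4' hodd,
      Nat.gcd_eq_right (show 2 ∣ Fintype.card F + 1 by omega)] at k0
    · omega
    all_goals rw [← Nat.cast_pred Fintype.card_pos]; simp only [deg_iff]
    · omega
    · refine ⟨fun k => ?_, ?_⟩
      · rcases sl_deg_cases ⟨χ, rfl⟩ with e | e | e | e | e | e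
        · exact absurd (e ▸ k) hp.not_dvd_one
        · exact (h8 _ h6 (k.trans ⟨1, by omega⟩)).elim
        · exact (h9 _ h6 (k.trans ⟨1, by omega⟩)).elim
        · omega
        · exact (h9 _ h6 (k.trans ⟨2, by omega⟩)).elim
        · omega
      · rintro (e | e) <;> rw [e]
        exacts [h6, h10 _ (h6.trans ⟨1, by omega⟩)]
  · have k1 := h7 h.sl_disc
    rw [card_slCent_ell h] at k1 h6
    have h4' : 4 ≤ Fintype.card F := by
      by_contra k
      rw [show Fintype.card F = 3 by omega] at h6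
      exact h9 0 (dvd_zero _) (h10 2 h6)
    rw [card_iff (Q := fun χ : IrrCharacter SL(2, F) => χ.1 1 = (Fintype.card F : ℂ) + 1 ∨
      χ.1 1 = (((Fintype.card F + 1) / 2 : ℕ) : ℂ)) fun χ => ?_, card_or _ _ fun χ => ?_,
      sl_card_deg_add, sl_card_deg_hadd h4' hodd,
      Nat.gcd_eq_right (show 2 ∣ Fintype.card F - 1 by omega)] at k0
    · omega
    all_goals rw [← Nat.cast_succ]; simp only [deg_iff]
    · omega
    · refine ⟨fun k => ?_, ?_⟩
      · rcases sl_deg_cases ⟨χ, rfl⟩ with e | e | e | e | e | e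
        · exact absurd (e ▸ k) hp.not_dvd_one
        · exact (h8 _ (e ▸ k) h6).elim
        · omega
        · exact (h9 _ k (h6.trans ⟨1, by omega⟩)).elim
        · omega
        · exact (h9 _ (k.mul_left 2) (h6.trans ⟨1, by omega⟩)).elim
      · rintro (e | e) <;> rw [e]
        exacts [h6, h10 _ (h6.trans ⟨1, by omega⟩)]

end Cfsg.Agent.S2436
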