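import Cfsg.Statements.S2439
import Cfsg.Agent.H4.SL2Deg
import Cfsg.Agent.H19.Ht3
import Cfsg.Agent.H19.BrChar

set_option autoImplicit false
open Cfsg

namespace Cfsg.Agent.S2439

open H17 H19 H4 Matrix
open scoped MatrixGroups

theorem exists_ne {G : Type*} [Group G] [Finite G] {g : G} (hg : g ≠ 1) :
    ∃ χ : IrrCharacter G, χ.1 g ≠ χ.1 1 := by
  by_contra! h
  have h1 := regChar_of_ne hg
  have h2 : regChar G g = regChar G 1 := by
    simp only [regChar_eq_sum, Finset.sum_apply, Pi.smul_apply, h]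
  rw [h2, regChar_one] at h1
  exact Nat.card_pos.ne' (by exact_mod_cast h1)

theorem sylow_def {G : Type*} [Group G] [Finite G] {O : ValuationSubring ℂ} {p : ℕ} [Fact p.Prime]
    [CharP (kk O) p] {χ : IrrCharacter G} (h : ¬ p ∣ charDegree χ.1) (P : Sylow p G) :
    IsDef p (lam O χ) P := by
  obtain ⟨D, hD⟩ := exists_isDef p (lam O χ)
  have h1 := hD.card_eq_pow
  have h0 : 0 ∈ (fun χ : IrrCharacter G => (charDegree χ.1).factorization p) '' irr (lam O χ) :=
    ⟨χ, mem_irr_lam χ, Nat.factorization_eq_zero_of_not_dvd h⟩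
  rw [blockDefect, Nat.sInf_eq_zero.2 (Or.inl h0), Nat.sub_zero] at h1
  obtain ⟨g, hg⟩ := MulAction.exists_smul_eq G (Sylow.ofCard D h1) P
  have := hD.conj g
  rwa [show H20.sc g D = P by rw [← hg]; rfl] at this

variable {F : Type*} [Field F] [Fintype F] {p : ℕ} [hp : Fact p.Prime] [CharP F p]
  {O : ValuationSubring ℂ} [CharP (kk O) p]

theorem neg_mul' (χ : IrrCharacter SL(2, F)) (g : SL(2, F)) :
    χ.1 1 * χ.1 (-g) = χ.1 (-1) * χ.1 g := by
  rw [← neg_one_mul g]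
  exact irr_apply_center_mul χ.2 (sl_mem_center_iff.2 (sl_sc_iff.2 (Or.inr rfl))) g

theorem sgn (χ : IrrCharacter SL(2, F)) : χ.1 (-1) = χ.1 1 ∨ χ.1 (-1) = -χ.1 1 := by
  have := neg_mul' χ (-1)
  rw [neg_neg] at this
  exact mul_self_eq_mul_self_iff.1 this.symm

theorem st {χ : IrrCharacter SL(2, F)} (h : χ.1 1 = Fintype.card F) : χ.1 = sSt F := by
  have : Fintype SL(2, F) := Fintype.ofFinite _
  exact sl_deg_card χ.2 h

theorem not_dvd {χ : IrrCharacter SL(2, F)} (h : χ.1 1 ≠ Fintype.card F) :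
    ¬ p ∣ charDegree χ.1 := fun k => by
  have k1 := not_dvd_card_add_one (F := F) p
  have k2 := not_dvd_card_sub_one (F := F) p
  rcases sl_deg_cases ⟨χ, rfl⟩ with e | e | e | e | e | e
  · exact hp.out.not_dvd_one (e ▸ k)
  · exact h (by rw [irr_one_eq χ.2, e])
  · exact k1 (e ▸ k)
  · exact k2 (k.trans ⟨1, by omega⟩)
  · exact k1 (k.trans ⟨2, by omega⟩)
  · exact k2 (k.trans ⟨2, by omega⟩)

include hp in
theorem inv_mem' {χ : IrrCharacter SL(2, F)} (h : χ.1 1 ≠ Fintype.card F) : (χ.1 1)⁻¹ ∈ O := by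
  rw [irr_one_eq χ.2]
  exact inv_natCast_mem p (not_dvd h)

theorem sub_one {χ : IrrCharacter SL(2, F)} (h : χ.1 1 ≠ Fintype.card F) {u : SL(2, F)}
    (hu : IsPElt p u) : χ.1 u / χ.1 1 - 1 ∈ O.nonunits := by
  rw [div_sub_one χ.2.one_ne_zero]
  exact nonunits_mul_right (char_sub_one_mem χ.2.isCharacter hu) (inv_mem' (p := p) h)

omit [CharP (kk O) p] in
theorem cases (g : SL(2, F)) : p ∣ (Subgroup.centralizer ({g} : Set SL(2, F))).index ∨
    IsPElt p g ∨ IsPElt p (-g) := by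
  have k : ∀ n, ¬ p ∣ n → Nat.card (Subgroup.centralizer ({g} : Set SL(2, F))) = n →
      p ∣ (Subgroup.centralizer ({g} : Set SL(2, F))).index := fun n h1 h2 => by
    have := (Subgroup.centralizer ({g} : Set SL(2, F))).card_mul_index
    rw [h2, H22.card_SL_two] at this
    exact (hp.out.dvd_mul.1 (this ▸ (char_dvd_card p).mul_right _)).resolve_left h1
  rcases m2_cases g.1 with h | ⟨a, h⟩ | ⟨a, b, h⟩ | h
  · rcases sl_sc_iff.1 h with rfl | rfl
    exacts [Or.inr (Or.inl ⟨0, by simp⟩), Or.inr (Or.inr ⟨0, by simp⟩)]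
  · rcases mul_self_eq_one_iff.1 h.sl_sq with rfl | rfl
    · exact Or.inr (Or.inl ⟨1, by rw [pow_one, (sl_orderOf_eq_iff p).2 h]⟩)
    · exact Or.inr (Or.inr ⟨1, by
        rw [pow_one, (sl_orderOf_eq_iff p).2 (by simpa [sl_neg_val] using h.neg)]⟩)
  · exact Or.inl (k _ (not_dvd_card_sub_one p) (card_slCent_sp h))
  · exact Or.inl (k _ (not_dvd_card_add_one p) (card_slCent_ell h))

theorem lam_iff (h2 : p ≠ 2) (χ ψ : IrrCharacter SL(2, F)) : lam O χ = lam O ψ ↔
    (χ.1 1 = Fintype.card F ↔ ψ.1 1 = Fintype.card F) ∧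
      χ.1 (-1) / χ.1 1 = ψ.1 (-1) / ψ.1 1 := by
  have : Fintype SL(2, F) := Fintype.ofFinite _
  have k0 : ∀ χ ψ : IrrCharacter SL(2, F), lam O χ = lam O ψ → χ.1 1 = Fintype.card F →
      ψ.1 1 = Fintype.card F := fun χ ψ h h1 => by
    by_contra h3
    have hu := un_upT (F := F) one_ne_zero
    have k1 := (lam_eq_iff χ ψ).1 h (upT 1)
    have k2 := nonunits_mul_left (natCast_mem O
      (Subgroup.centralizer ({upT 1} : Set SL(2, F))).index)
      (sub_one h3 (u := upT 1) ⟨1, by rw [pow_one, (sl_orderOf_eq_iff p).2 hu]⟩)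
    have k3 := O.nonunits.neg_mem (O.nonunits.add_mem k1 k2)
    rw [centralChar, centralChar, st h1, sSt_un hu] at k3
    have k4 := (natCast_mem_nonunits_iff p _).1 (by convert k3 using 1; ring :
      ((Subgroup.centralizer ({upT 1} : Set SL(2, F))).index : ℂ) ∈ O.nonunits)
    have k5 := (Subgroup.centralizer ({upT 1} : Set SL(2, F))).card_mul_index
    rw [card_slCent_un (two_ne_zero_of_odd (Nat.odd_iff.2 (FiniteField.odd_card_of_char_ne_two
      (by rwa [ringChar.eq F p])))) hu, H22.card_SL_two, mul_comm 2, mul_assoc,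
      Nat.sq_sub_sq _ 1] at k5
    rcases hp.out.dvd_mul.1 (Nat.eq_of_mul_eq_mul_left Fintype.card_pos k5 ▸ k4.mul_left 2)
      with k | k
    exacts [not_dvd_card_add_one p k, not_dvd_card_sub_one p k]
  refine ⟨fun h => ⟨⟨k0 _ _ h, k0 _ _ h.symm⟩, ?_⟩, fun ⟨h1, h3⟩ => ?_⟩
  · have k1 := (lam_eq_iff χ ψ).1 h (-1)
    rw [centralChar, centralChar, slCent_eq_top (sl_sc_iff.2 (Or.inr rfl)), Subgroup.index_top,
      Nat.cast_one, one_mul, one_mul] at k1
    have k2 : ((2 : ℕ) : ℂ) ∉ O.nonunits := fun k => h2 ((Nat.prime_dvd_prime_iff_eq hp.out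
      Nat.prime_two).1 ((natCast_mem_nonunits_iff p _).1 k))
    have k3 := χ.2.one_ne_zero
    have k4 := ψ.2.one_ne_zero
    rcases sgn χ with k | k <;> rcases sgn ψ with k' | k' <;>
      simp only [k, k', neg_div, div_self k3, div_self k4] at k1 ⊢
    · exact absurd (by convert k1 using 1; norm_num) k2
    · exact absurd (by convert O.nonunits.neg_mem k1 using 1; norm_num) k2
  by_cases h4 : χ.1 1 = Fintype.card F
  · rw [Subtype.ext ((st h4).trans (st (h1.1 h4)).symm)]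
  have h5 := mt h1.2 h4
  refine (lam_eq_iff χ ψ).2 fun g => ?_
  rw [centralChar, centralChar, mul_div_assoc, mul_div_assoc, ← mul_sub]
  rcases cases (p := p) g with h | h | h
  · exact nonunits_mul_right ((natCast_mem_nonunits_iff p _).2 h) (sub_mem
      (mul_mem (mem_of_isIntegral O (χ.2.isCharacter.isIntegral g)) (inv_mem' (p := p) h4))
      (mul_mem (mem_of_isIntegral O (ψ.2.isCharacter.isIntegral g)) (inv_mem' (p := p) h5)))
  · refine nonunits_mul_left (natCast_mem O _) ?_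
    convert O.nonunits.sub_mem (sub_one h4 h) (sub_one h5 h) using 1
    ring
  · refine nonunits_mul_left (natCast_mem O _) ?_
    have k : ∀ χ : IrrCharacter SL(2, F),
        χ.1 g / χ.1 1 = χ.1 (-1) / χ.1 1 * (χ.1 (-g) / χ.1 1) := fun χ => by
      have k1 := neg_mul' χ (-g)
      have k2 := χ.2.one_ne_zero
      rw [neg_neg] at k1
      field_simp
      linear_combination k1
    rw [k χ, k ψ, h3, ← mul_sub]
    refine nonunits_mul_left (mul_mem (mem_of_isIntegral O (ψ.2.isCharacter.isIntegral _))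
      (inv_mem' (p := p) h5)) ?_
    convert O.nonunits.sub_mem (sub_one h4 h) (sub_one h5 h) using 1
    ring


/-- Let F be a finite field with q elements of odd characteristic p, and M a maximal ideal of the algebraic integers containing p. Then SL₂ over F has exactly three p-blocks relative to M: the irreducible character of degree q (the Steinberg character) alone; the other irreducible characters taking the same value at −1 as at 1 (the principal block); and the irreducible characters χ with χ(−1) = −χ(1). Every Sylow p-subgroup is a defect group of each of the last two blocks. -/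
theorem result {F : Type*} [Field F] [Fintype F] (p : ℕ) [Fact p.Prime] [CharP F p] (hp : p ≠ 2)
    (M : Ideal Cfsg.AlgInt) (hM : Cfsg.IsPModular p M) :
    (∀ B : Set (Cfsg.IrrCharacter (Matrix.SpecialLinearGroup (Fin 2) F)), Cfsg.IsPBlock M B ↔
      (B = {χ : Cfsg.IrrCharacter (Matrix.SpecialLinearGroup (Fin 2) F) | (χ : Matrix.SpecialLinearGroup (Fin 2) F → ℂ) 1 = (Fintype.card F : ℂ)} ∨
       B = {χ : Cfsg.IrrCharacter (Matrix.SpecialLinearGroup (Fin 2) F) | (χ : Matrix.SpecialLinearGroup (Fin 2) F → ℂ) (-1) = (χ : Matrix.SpecialLinearGroup (Fin 2) F → ℂ) 1 ∧ (χ : Matrix.SpecialLinearGroup (Fin 2) F → ℂ) 1 ≠ (Fintype.card F : ℂ)} ∨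
       B = {χ : Cfsg.IrrCharacter (Matrix.SpecialLinearGroup (Fin 2) F) | (χ : Matrix.SpecialLinearGroup (Fin 2) F → ℂ) (-1) = -(χ : Matrix.SpecialLinearGroup (Fin 2) F → ℂ) 1})) ∧
    Nat.card {B : Set (Cfsg.IrrCharacter (Matrix.SpecialLinearGroup (Fin 2) F)) // Cfsg.IsPBlock M B} = 3 ∧
    ∀ P : Sylow p (Matrix.SpecialLinearGroup (Fin 2) F),
      Cfsg.IsDefectGroup p M {χ : Cfsg.IrrCharacter (Matrix.SpecialLinearGroup (Fin 2) F) | (χ : Matrix.SpecialLinearGroup (Fin 2) F → ℂ) (-1) = (χ : Matrix.SpecialLinearGroup (Fin 2) F → ℂ) 1 ∧ (χ : Matrix.SpecialLinearGroup (Fin 2) F → ℂ) 1 ≠ (Fintype.card F : ℂ)} (P : Subgroup (Matrix.SpecialLinearGroup (Fin 2) F)) ∧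
      Cfsg.IsDefectGroup p M {χ : Cfsg.IrrCharacter (Matrix.SpecialLinearGroup (Fin 2) F) | (χ : Matrix.SpecialLinearGroup (Fin 2) F → ℂ) (-1) = -(χ : Matrix.SpecialLinearGroup (Fin 2) F → ℂ) 1} (P : Subgroup (Matrix.SpecialLinearGroup (Fin 2) F)) := by
  obtain ⟨O, hO, _⟩ := exists_over hM
  have : Fintype SL(2, F) := Fintype.ofFinite _
  have h2 := two_ne_zero_of_odd (F := F) (Nat.odd_iff.2 (FiniteField.odd_card_of_char_ne_two
    (by rwa [ringChar.eq F p])))
  have k0 : ∀ χ : IrrCharacter SL(2, F), χ.1 1 = Fintype.card F → χ.1 (-1) = χ.1 1 :=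
    fun χ h => by rw [st h, sSt_one, sSt_sc (sl_sc_iff.2 (Or.inr rfl))]
  have k0' : ∀ χ : IrrCharacter SL(2, F), χ.1 (-1) = -χ.1 1 → χ.1 (-1) ≠ χ.1 1 :=
    fun χ h h' => χ.2.one_ne_zero (by linear_combination (h - h') / 2)
  have d1 : ∀ χ : IrrCharacter SL(2, F), χ.1 (-1) / χ.1 1 = 1 ↔ χ.1 (-1) = χ.1 1 :=
    fun χ => div_eq_one_iff_eq χ.2.one_ne_zero
  have d2 : ∀ χ : IrrCharacter SL(2, F), χ.1 (-1) / χ.1 1 = -1 ↔ χ.1 (-1) = -χ.1 1 :=
    fun χ => by rw [div_eq_iff χ.2.one_ne_zero, neg_one_mul]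
  have k1 : ∀ χ : IrrCharacter SL(2, F), χ.1 1 = Fintype.card F →
      irr (lam O χ) = {χ : IrrCharacter SL(2, F) | χ.1 1 = (Fintype.card F : ℂ)} := fun χ h => Set.ext fun ψ => by
    rw [mem_irr, lam_iff hp, (d1 χ).2 (k0 χ h), d1]
    exact ⟨fun k => k.1.2 h, fun k => ⟨iff_of_true k h, k0 ψ k⟩⟩
  have k2 : ∀ χ : IrrCharacter SL(2, F), χ.1 (-1) = χ.1 1 → χ.1 1 ≠ Fintype.card F →
      irr (lam O χ) = 
        {χ : IrrCharacter SL(2, F) | χ.1 (-1) = χ.1 1 ∧ χ.1 1 ≠ (Fintype.card F : ℂ)} :=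
    fun χ h h' => Set.ext fun ψ => by
      rw [mem_irr, lam_iff hp, (d1 χ).2 h, d1]
      exact ⟨fun k => ⟨k.2, mt k.1.1 h'⟩, fun k => ⟨iff_of_false k.2 h', k.1⟩⟩
  have k3 : ∀ χ : IrrCharacter SL(2, F), χ.1 (-1) = -χ.1 1 →
      irr (lam O χ) = {χ | χ.1 (-1) = -χ.1 1} := fun χ h => Set.ext fun ψ => by
    rw [mem_irr, lam_iff hp, (d2 χ).2 h, d2]
    exact ⟨fun k => k.2, fun k => ⟨iff_of_false (mt (k0 ψ) (k0' ψ k)) (mt (k0 χ) (k0' χ h)), k⟩⟩
  let χ₁ : IrrCharacter SL(2, F) := ⟨sSt F, sSt_irr⟩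
  have e1 : χ₁.1 1 = Fintype.card F := sSt_one
  have e2 : (triv SL(2, F)).1 1 ≠ Fintype.card F := fun h => by
    rw [triv_apply] at h
    exact (one_lt_card' (F := F)).ne (by exact_mod_cast h)
  obtain ⟨χ₃, e3⟩ := exists_ne (sl_neg_one_ne_one h2)
  replace e3 := (sgn χ₃).resolve_left e3
  have key : ∀ B : Set (IrrCharacter SL(2, F)), IsPBlock M B ↔ B = irr (lam O χ₁) ∨
      B = irr (lam O (triv SL(2, F))) ∨ B = irr (lam O χ₃) := fun B => by
    refine ⟨?_, by rintro (rfl | rfl | rfl) <;> exact hO.isPBlock_irr _⟩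
    rintro ⟨χ, rfl⟩
    rw [hO.blockOf_eq, k1 _ e1, k2 _ rfl e2, k3 _ e3]
    by_cases h : χ.1 1 = Fintype.card F
    · exact Or.inl (k1 χ h)
    · exact Or.inr ((sgn χ).imp (fun h' => k2 χ h' h) (k3 χ))
  refine ⟨fun B => by rw [key, k1 _ e1, k2 _ rfl e2, k3 _ e3], ?_, fun P => ⟨?_, ?_⟩⟩
  · simp only [key]
    refine Set.ncard_eq_three.2 ⟨_, _, _, fun h => ?_, fun h => ?_, fun h => ?_, rfl⟩
    · exact e2 (((lam_iff hp _ _).1 (irr_injective h)).1.1 e1)
    · exact k0' _ e3 (k0 _ (((lam_iff hp _ _).1 (irr_injective h)).1.1 e1))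
    · exact k0' _ e3 ((d1 _).1 (((lam_iff hp _ _).1 (irr_injective h)).2.symm.trans
        ((d1 _).2 rfl)))
  · rw [← k2 _ rfl e2, hO.isDefectGroup_iff hM]
    exact sylow_def (not_dvd e2) P
  · rw [← k3 _ e3, hO.isDefectGroup_iff hM]
    exact sylow_def (not_dvd (mt (k0 _) (k0' _ e3))) P

end Cfsg.Agent.S2439
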