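import Cfsg.Statements.S2440
import Cfsg.Agent.H20.Stn3
-- import your own Cfsg.Agent.* helpers here

set_option autoImplicit false
open Cfsg

namespace Cfsg.Agent.S2440

/-- For a prime p and n ≥ 2, the group SL_n over the field with p elements has exactly gcd(n, p − 1) + 1 p-blocks relative to any maximal ideal of the algebraic integers containing p, that is, one more than the order of its centre (only this total is asserted; it arises as the defect-zero block of the Steinberg character plus as many blocks of maximal defect as the order of the centre). -/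
theorem result (p : ℕ) [Fact p.Prime] (n : ℕ) (hn : 2 ≤ n) (M : Ideal Cfsg.AlgInt) (hM : Cfsg.IsPModular p M) :
    Nat.card {B : Set (Cfsg.IrrCharacter (Matrix.SpecialLinearGroup (Fin n) (ZMod p))) // Cfsg.IsPBlock M B} =
      Nat.gcd n (p - 1) + 1 := by
  -----
  obtain ⟨O, hO, _⟩ := H19.exists_over hM
  have hp : p.Prime := Fact.out
  have h1 := H22.card_center_SL (F := ZMod p) n (by omega)
  rw [ZMod.card] at h1
  have h2 : ¬ p ∣ p - 1 := Nat.not_dvd_of_pos_of_lt (by have := hp.two_le; omega)
    (by have := hp.two_le; omega)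
  rw [H20.card_isPBlock hO, (H20.cp_sl p).card_blk (fun h => h2 (h.trans (h1 ▸ Nat.gcd_dvd_right _ _)))
    ((hp.dvd_mul.1 ?_).resolve_left h2) (H20.sl_vd hn), h1]
  have h3 := H22.card_SL (F := ZMod p) n (by omega)
  rw [ZMod.card] at h3
  rw [h3]
  refine Dvd.dvd.trans ?_ (Finset.dvd_prod_of_mem _ (Finset.mem_univ (⟨1, hn⟩ : Fin n)))
  exact Nat.dvd_sub (dvd_pow_self p (by omega)) (dvd_pow_self p one_ne_zero)

end Cfsg.Agent.S2440
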