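import Cfsg.Statements.S2441
import Cfsg.Agent.H20.Stn3
-- import your own Cfsg.Agent.* helpers here

set_option autoImplicit false
open Cfsg

namespace Cfsg.Agent.S2441

/-- For a prime p, the Chevalley groups of types G₂, F₄ and E₈ over the field with p elements (types for which the simply connected and adjoint groups coincide, so the group has trivial centre) each have exactly two p-blocks relative to any maximal ideal of the algebraic integers containing p (only the count is asserted; it arises as the defect-zero block of the Steinberg character plus a single block of maximal defect). -/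
theorem result (p : ℕ) [Fact p.Prime] (M : Ideal Cfsg.AlgInt) (hM : Cfsg.IsPModular p M) :
    Nat.card {B : Set (Cfsg.IrrCharacter (Cfsg.Lie.chevG2.group (ZMod p))) // Cfsg.IsPBlock M B} = 2 ∧
    Nat.card {B : Set (Cfsg.IrrCharacter (Cfsg.Lie.chevF4.group (ZMod p))) // Cfsg.IsPBlock M B} = 2 ∧
    Nat.card {B : Set (Cfsg.IrrCharacter (Cfsg.Lie.chevE8.group (ZMod p))) // Cfsg.IsPBlock M B} = 2 := by
  -----
  obtain ⟨O, hO, _⟩ := H19.exists_over hM
  have key : ∀ {D : Cfsg.Lie.ChevalleyDatum} {T : H24.Tab} (h : T.Chk D), T.chkConn = true →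
      Nat.card {B : Set (IrrCharacter (D.group (ZMod p))) // IsPBlock M B} = 2 := by
    intro D T h hc
    have := h.finite_grp (ZMod p)
    have := Fintype.ofFinite (D.group (ZMod p))
    obtain ⟨S, hS⟩ : ∃ S, S = h.grp (ZMod p) := ⟨_, rfl⟩
    have hG : S.Gr = ⊤ := hS ▸ h.grp_Gr _
    have ha : S.Adj := hS ▸ h.grp_adj _
    have h3 : S.R3 := hS ▸ h.grp_r3 _
    have hZ : Subgroup.center (D.group (ZMod p)) = ⊥ := eq_bot_iff.2 fun g hg =>
      S.eq_one_of_adj ha g (hG ▸ Subgroup.mem_top _) fun y _ => (Subgroup.mem_center_iff.1 hg y).symm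
    have h1 := H20.vd_stCh (p := p) S hG h3
    rw [H20.card_isPBlock hO, (H20.cp_st S p hG ha (h.conn hc)).card_blk ?_ ?_
      ⟨_, h1, fun χ hχ => H20.st_unique S hG h3 h1 hχ⟩, hZ, Subgroup.card_bot]
    · rw [hZ, Subgroup.card_bot]; exact (Fact.out : p.Prime).not_dvd_one
    refine Dvd.dvd.trans ?_ S.U.card_subgroup_dvd_card
    rw [S.card_U, Nat.card_zmod]
    obtain ⟨r, -⟩ := h.conn hc
    refine dvd_pow_self p ((Set.ncard_pos (Set.toFinite _)).2 ?_).ne'
    by_cases hr : (h.cd).Pos r
    · exact ⟨r, hr⟩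
    · exact ⟨_, (H24.RS.pos_neg_iff _ r).2 hr⟩
  exact ⟨key H24.tabG2_chk H24.connG2, key H24.tabF4_chk H24.connF4, key H24.tabE8_chk H24.connE8⟩

end Cfsg.Agent.S2441
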