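import Cfsg.Statements.S2442
import Cfsg.Agent.H22.CuG
import Cfsg.Agent.H17.Cu1
import Cfsg.Agent.H17.Cu2

set_option autoImplicit false
open scoped MatrixGroups
open Cfsg

namespace Cfsg.Agent.S2442

open H22.Cu H17 Matrix in
theorem main {F : Type*} [Field F] [Fintype F] [DecidableEq F] (n : ℕ) (α : Cu F n) (b a : ℕ)
    (h : b + a = n + 1) (hb : 0 < b) (ha : 0 < a) (P : GL (Fin (n + 1)) F → Prop) [DecidablePred P]
    (hP : ∀ g, P g ↔ ∀ i j : Fin (n + 1), ¬ (i.val < b ∧ b ≤ j.val) → g.1 i j =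
      (1 : Matrix (Fin (n + 1)) (Fin (n + 1)) F) i j) :
    (∑ g, if P g then α.1.1 (GeneralLinearGroup.toLin g) else 0) = 0 := by
  have e : ∀ g : GL (Fin (n + 1)) F, α.1.1 (GeneralLinearGroup.toLin g) = (fam α.1).f _ (toLin' g.1) :=
    fun g => (congrFun (cl_fam α.1) (GeneralLinearGroup.toLin g)).symm
  have hc := α.2
  simp only [e]
  clear e
  generalize fam α.1 = φ at hc
  generalize n + 1 = m at *
  subst h
  have : Nontrivial (Fin b → F) := by obtain ⟨b, rfl⟩ := Nat.exists_eq_add_one_of_ne_zero hb.ne'; infer_instance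
  have : Nontrivial (Fin a → F) := by obtain ⟨a, rfl⟩ := Nat.exists_eq_add_one_of_ne_zero ha.ne'; infer_instance
  have h0 := (mul_eq_zero.1 (hc (Fin b → F) (Fin a → F) 1 1)).resolve_left (inv_ne_zero (card_ne _))
  refine Eq.trans (Fintype.sum_of_injective (fun z => (bet (1, 1, z)).1) (fun z w e =>
    congrArg (fun t => t.2.2) (bet.injective (Subtype.ext e))) _ _ (fun g hg => if_neg fun h => hg ?_)
    fun z => ?_).symm h0
  · rw [hP] at h
    refine ⟨toLin' (g.1.submatrix (Fin.castAdd a) (Fin.natAdd b)), Units.ext (Matrix.ext ?_)⟩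
    rw [bet_val, LinearMap.toMatrix'_toLin']
    refine fin_cases2 (fun i j => ?_) (fun i j => blk12 _ _ _ i j) (fun i j => ?_) fun i j => ?_
    · rw [blk11, h _ _ (by simp)]; simp [one_apply, Fin.ext_iff]
    · rw [blk21, h _ _ (by simp), one_apply_ne (by simp [Fin.ext_iff]; omega)]
    · rw [blk22, h _ _ (by simp)]; simp [one_apply, Fin.ext_iff]
  · rw [if_pos, φ.inv (sp F b a) (g := toLin' (bet (1, 1, z)).1.1) (bet_lin (1, 1, z)), lin_one, lin_one]
    rw [hP, bet_val]
    refine fin_cases2 (fun i j _ => ?_) (fun i j h => absurd ⟨i.2, by simp⟩ h) (fun i j _ => ?_) fun i j _ => ?_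
    · rw [blk11]; simp [one_apply, Fin.ext_iff]
    · rw [blk21, one_apply_ne (by simp [Fin.ext_iff]; omega)]
    · rw [blk22]; simp [one_apply, Fin.ext_iff]

open Classical in
/-- Let F be a finite field with q elements and n ≥ 2. Call a complex character χ of GL_n over F cuspidal when, for every 0 < m < n, the sum of χ over the subgroup of matrices that agree with the identity outside the upper right m × (n − m) block vanishes (the restriction of χ to the unipotent radical of each maximal standard parabolic subgroup contains no principal constituent). Then GL_n has at least φ(qⁿ − 1)/n distinct cuspidal irreducible characters of degree (q − 1)(q² − 1)⋯(q^(n−1) − 1), φ being Euler's function (in particular at least one). -/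
theorem result {F : Type*} [Field F] [Fintype F] [DecidableEq F] (n : ℕ) (hn : 2 ≤ n) :
    Nat.totient (Fintype.card F ^ n - 1) / n ≤
      Nat.card {χ : Cfsg.IrrCharacter (GL (Fin n) F) //
        (χ : GL (Fin n) F → ℂ) 1 = ∏ i ∈ Finset.Ico 1 n, ((Fintype.card F : ℂ) ^ i - 1) ∧
        ∀ m : ℕ, 0 < m → m < n →
          (∑ g : GL (Fin n) F,
            if (∀ i j : Fin n, ¬ (i.val < m ∧ m ≤ j.val) → (g : Matrix (Fin n) (Fin n) F) i j = (1 : Matrix (Fin n) (Fin n) F) i j)
            then (χ : GL (Fin n) F → ℂ) g else 0) = 0} := by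
  obtain ⟨n, rfl⟩ := Nat.exists_eq_add_one_of_ne_zero (by omega : n ≠ 0)
  obtain ⟨ψ, hψ⟩ := AddChar.exists_apply_ne_zero.2 (one_ne_zero (α := F))
  have hψ' : ψ ≠ 1 := fun e => hψ (by simp [e])
  have hg : ∀ n (α : H22.Cu.Ir F n), H22.Cu.del ψ n (H22.Cu.fam α) = 0 ∨ H22.Cu.del ψ n (H22.Cu.fam α) = 1 :=
    fun n α => by
      have := H17.Cu.gg ψ hψ' n _ (H17.Cfsg.IsIrrCharacter.comp_equiv α.2 Matrix.GeneralLinearGroup.toLin)
      rwa [← H22.Cu.cl_fam α] at this
  refine (H17.Cu.cnt (F := F) (H22.Cu.Cu F) (fun n hn => ?_) n (by omega)).trans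
    (Nat.card_le_card_of_injective (fun α => ⟨⟨_, H17.Cfsg.IsIrrCharacter.comp_equiv α.1.2
      Matrix.GeneralLinearGroup.toLin⟩, ?_, fun m h1 h2 => ?_⟩) fun α β e => ?_)
  · obtain ⟨n, rfl⟩ := Nat.exists_eq_add_one_of_ne_zero (by omega : n ≠ 0)
    have := H22.Cu.gam_eq hψ' n
    rw [← H22.Cu.card_multiset hψ' hg, Nat.card_eq_fintype_card (α := F)] at this
    exact_mod_cast this
  · have h1 := H22.Cu.cusp_deg (m := n) hψ' α.2
    have h2 := (hg _ α.1).resolve_left fun e => H17.Cfsg.IsIrrCharacter.one_ne_zero α.1.2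
      ((congrFun (H22.Cu.cl_fam α.1) 1).symm.trans (h1.trans (by rw [e, mul_zero])))
    rw [h2, mul_one, H22.Cu.PP, Nat.card_eq_fintype_card] at h1
    rw [Finset.prod_Ico_eq_prod_range]
    simp only [map_one, add_comm 1, Nat.add_sub_cancel]
    exact (congrFun (H22.Cu.cl_fam α.1) 1).symm.trans h1
  · exact main n α m (n + 1 - m) (by omega) h1 (by omega) _ fun _ => Iff.rfl
  · refine Subtype.ext (Subtype.ext (funext fun g => ?_))
    obtain ⟨g, rfl⟩ := (Matrix.GeneralLinearGroup.toLin (n := Fin (n + 1)) (R := F)).surjective g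
    exact congrFun (congrArg (fun t => t.1.1) e) g

end Cfsg.Agent.S2442
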