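import Cfsg.Statements.S2500
import Cfsg.Agent.H16.CV2
import Cfsg.Agent.H16.CV4
-- import your own Cfsg.Agent.* helpers here

set_option autoImplicit false
open Cfsg

namespace Cfsg.Agent.S2500

open H16.CV in
/-- The infinite families of simple groups with normal covering number 2. For a finite field F: each of PSL_2(F) (|F| ≥ 4), PSL_3(F), PSL_4(F), PSU_4 over F (|F| = q²), PSU_3 over F when |F| = q² with q a power of 3, PSp_{2m}(F) for |F| even, m ≥ 2 and (m, |F|) ≠ (2, 2), PSp_6(F) for |F| a power of 3, and G_2(F) (automorphisms of the split octonions) for |F| = 2^a ≥ 4 is the union of the conjugates of two proper subgroups: there are proper subgroups H, K such that every element is conjugate into H or into K. -/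
theorem result {F : Type} [Field F] [Fintype F] :
    (4 ≤ Fintype.card F → (∃ H K : Subgroup (Matrix.ProjectiveSpecialLinearGroup (Fin 2) F), H ≠ ⊤ ∧ K ≠ ⊤ ∧ ∀ g : (Matrix.ProjectiveSpecialLinearGroup (Fin 2) F), ∃ x : (Matrix.ProjectiveSpecialLinearGroup (Fin 2) F), x * g * x⁻¹ ∈ H ∨ x * g * x⁻¹ ∈ K)) ∧
    (∃ H K : Subgroup (Matrix.ProjectiveSpecialLinearGroup (Fin 3) F), H ≠ ⊤ ∧ K ≠ ⊤ ∧ ∀ g : (Matrix.ProjectiveSpecialLinearGroup (Fin 3) F), ∃ x : (Matrix.ProjectiveSpecialLinearGroup (Fin 3) F), x * g * x⁻¹ ∈ H ∨ x * g * x⁻¹ ∈ K) ∧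
    (∃ H K : Subgroup (Matrix.ProjectiveSpecialLinearGroup (Fin 4) F), H ≠ ⊤ ∧ K ≠ ⊤ ∧ ∀ g : (Matrix.ProjectiveSpecialLinearGroup (Fin 4) F), ∃ x : (Matrix.ProjectiveSpecialLinearGroup (Fin 4) F), x * g * x⁻¹ ∈ H ∨ x * g * x⁻¹ ∈ K) ∧
    (∀ q : ℕ, Fintype.card F = q ^ 2 → (∃ H K : Subgroup (Cfsg.PSU 4 F q), H ≠ ⊤ ∧ K ≠ ⊤ ∧ ∀ g : (Cfsg.PSU 4 F q), ∃ x : (Cfsg.PSU 4 F q), x * g * x⁻¹ ∈ H ∨ x * g * x⁻¹ ∈ K)) ∧
    (∀ q a : ℕ, Fintype.card F = q ^ 2 → 1 ≤ a → q = 3 ^ a → (∃ H K : Subgroup (Cfsg.PSU 3 F q), H ≠ ⊤ ∧ K ≠ ⊤ ∧ ∀ g : (Cfsg.PSU 3 F q), ∃ x : (Cfsg.PSU 3 F q), x * g * x⁻¹ ∈ H ∨ x * g * x⁻¹ ∈ K)) ∧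
    (∀ m : ℕ, 2 ≤ m → ¬ Odd (Fintype.card F) → ¬ (m = 2 ∧ Fintype.card F = 2) → (∃ H K : Subgroup (Cfsg.PSp m F), H ≠ ⊤ ∧ K ≠ ⊤ ∧ ∀ g : (Cfsg.PSp m F), ∃ x : (Cfsg.PSp m F), x * g * x⁻¹ ∈ H ∨ x * g * x⁻¹ ∈ K)) ∧
    (∀ a : ℕ, 1 ≤ a → Fintype.card F = 3 ^ a → (∃ H K : Subgroup (Cfsg.PSp 3 F), H ≠ ⊤ ∧ K ≠ ⊤ ∧ ∀ g : (Cfsg.PSp 3 F), ∃ x : (Cfsg.PSp 3 F), x * g * x⁻¹ ∈ H ∨ x * g * x⁻¹ ∈ K)) ∧
    (∀ a : ℕ, 2 ≤ a → Fintype.card F = 2 ^ a → (∃ H K : Subgroup (Cfsg.Lie.G2 F), H ≠ ⊤ ∧ K ≠ ⊤ ∧ ∀ g : (Cfsg.Lie.G2 F), ∃ x : (Cfsg.Lie.G2 F), x * g * x⁻¹ ∈ H ∨ x * g * x⁻¹ ∈ K)) := by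
  classical
  have ch : ∀ p a : ℕ, Fintype.card F = p ^ a → 1 ≤ a → (p : F) = 0 := fun p a h ha => by
    have := FiniteField.cast_card_eq_zero F
    rw [h, Nat.cast_pow] at this
    exact pow_eq_zero_iff (by omega) |>.1 this
  refine ⟨fun h => (cov_SL (k := 2) (by simp)).quot (H22.commutator_SL_fin_eq_top 2 fun _ => h),
    (cov_SL (k := 3) (by simp)).quot (H22.commutator_SL_fin_eq_top 3 (by simp)),
    (cov_SL (k := 2) (by simp)).quot (H22.commutator_SL_fin_eq_top 4 (by simp)),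
    fun q hF => (cov_SU4 hF).quot (H22.commutator_SU_eq_top hF 4 (by simp) (by simp)),
    fun q a hF ha hq => (cov_SU3 hF ?_ hq).quot (H22.commutator_SU_eq_top hF 3 le_rfl ?_),
    fun m hm ho h => (cov_sp_even ?_ hm).quot (H22.commutator_Sp_eq_top m ?_),
    fun a ha h => (cov_sp6 ?_).quot (H22.commutator_Sp_eq_top 3 (by simp)),
    fun a ha h => cov_G2 ?_ ?_⟩
  · exact_mod_cast ch 3 (a * 2) (by rw [hF, hq, pow_mul]) (by omega)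
  · rintro ⟨-, h⟩
    have := Nat.pow_le_pow_right (n := 3) (by omega) ha
    omega
  · obtain ⟨k, hk⟩ := Nat.not_odd_iff_even.1 ho
    have := FiniteField.even_card_iff_char_two.2 (show Fintype.card F % 2 = 0 by omega)
    have h2 := ringChar.Nat.cast_ringChar (R := F)
    rw [this] at h2
    exact_mod_cast h2
  · have := Fintype.one_lt_card (α := F)
    omega
  · exact_mod_cast ch 3 a h ha
  · exact_mod_cast ch 2 a h (by omega)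
  · have := Nat.pow_le_pow_right (n := 2) (by omega) ha
    omega

end Cfsg.Agent.S2500
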