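import Cfsg.Statements.S2531
import Mathlib.LinearAlgebra.Projectivization.Cardinality

set_option autoImplicit false
open Cfsg

namespace Cfsg.Agent.S2531


open Projectivization in
theorem key {F V : Type*} [Field F] [Finite F] [AddCommGroup V] [Module F V] [Finite V] (W : Submodule F V)
    (h : W ≠ ⊥) : ((Nat.card {x : Projectivization F V // x.rep ∈ W} : ℕ) : F) = 1 := by
  have m : ∀ (v : V) hv, (mk F v hv).rep ∈ W ↔ v ∈ W := fun v hv => by
    obtain ⟨a, e⟩ := exists_smul_eq_mk_rep F v hv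
    rw [← e, Units.smul_def, W.smul_mem_iff a.ne_zero]
  have e : Nat.card (Projectivization F W) = Nat.card {x : Projectivization F V // x.rep ∈ W} :=
    Nat.card_eq_of_bijective (fun y => ⟨map W.subtype W.injective_subtype y, by
      induction y using Projectivization.ind with | h v hv => rw [map_mk, m]; exact v.2⟩)
      ⟨fun a b e => map_injective W.subtype W.injective_subtype (congrArg Subtype.val e), fun x =>
        ⟨mk F ⟨x.1.rep, x.2⟩ (fun e => x.1.rep_nonzero (congrArg Subtype.val e)), Subtype.ext x.1.mk_rep⟩⟩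
  have z : ∀ W : Submodule F V, W ≠ ⊥ → ((Nat.card W : ℕ) : F) = 0 := fun W h => by
    obtain ⟨w, hw, w0⟩ := (Submodule.ne_bot_iff W).1 h
    have := congrArg Subtype.val (card_nsmul_eq_zero' (x := (⟨w, hw⟩ : W)))
    rw [AddSubgroupClass.coe_nsmul, ← Nat.cast_smul_eq_nsmul F] at this
    exact (smul_eq_zero.1 this).resolve_right w0
  have z' : ((Nat.card F : ℕ) : F) = 0 := by
    have := card_nsmul_eq_zero' (x := (1 : F)); rwa [nsmul_one] at this
  have := congrArg (Nat.cast : ℕ → F) (card' F W)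
  rw [z W h, e, Nat.cast_add, Nat.cast_mul, Nat.cast_sub Nat.card_pos, z'] at this
  linear_combination this

/-- Let `F` be a finite field and `n ≥ 3`. No set of permutations of the points of the projective space of `Fⁿ`, each induced by an invertible semilinear transformation of `Fⁿ` (so a subset of the full projective semilinear group), is sharply 2-transitive on the points: it is impossible that for all pairs of distinct points `(a, b)` and `(c, d)` exactly one member of the set sends `a` to `c` and `b` to `d`. -/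
theorem result {F : Type*} [Field F] [Finite F]
    (n : ℕ) (hn : 3 ≤ n) (S : Set (Equiv.Perm (Projectivization F (Fin n → F))))
    (hS : ∀ s ∈ S, ∃ (σ : F ≃+* F) (f : (Fin n → F) →ₛₗ[(σ : F →+* F)] (Fin n → F)) (hf : Function.Injective f),
      ∀ x, s x = Projectivization.map f hf x) :
    ¬ (∀ a b c d : Projectivization F (Fin n → F), a ≠ b → c ≠ d →
        ∃! s, s ∈ S ∧ s a = c ∧ s b = d) := by
  intro H
  classical
  have i0 : 0 < n := by omega
  let W : Submodule F (Fin n → F) := LinearMap.ker (LinearMap.proj ⟨0, i0⟩)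
  let α := Projectivization.mk F (Pi.single ⟨0, i0⟩ 1 : Fin n → F) (by simp)
  have hα : ∀ x : Projectivization F (Fin n → F), x.rep ∈ W → α ≠ x := by
    rintro _ h rfl
    obtain ⟨a, e⟩ := Projectivization.exists_smul_eq_mk_rep F (Pi.single ⟨0, i0⟩ 1 : Fin n → F) (by simp)
    rw [← e, Units.smul_def, W.smul_mem_iff a.ne_zero] at h
    simp [W] at h
  have nz : ∀ (σ : F ≃+* F) (f : (Fin n → F) →ₛₗ[(σ : F →+* F)] (Fin n → F)), W ⊓ W.comap f ≠ ⊥ := fun σ f e => by
    have := Nat.card_le_card_of_injective (fun v : Fin n → F => (v ⟨0, i0⟩, f v ⟨0, i0⟩)) fun u v h => by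
      simp only [Prod.mk.injEq] at h
      exact sub_eq_zero.1 ((Submodule.eq_bot_iff _).1 e _ ⟨by simp [W, h.1], by simp [W, h.2]⟩)
    rw [Nat.card_fun, Nat.card_prod, Nat.card_eq_fintype_card (α := Fin n), Fintype.card_fin, ← pow_two] at this
    exact absurd (Nat.pow_le_pow_iff_right Finite.one_lt_card |>.1 this) (by omega)
  have w0 : W ≠ ⊥ := ne_bot_of_le_ne_bot (nz (RingEquiv.refl F) LinearMap.id) inf_le_left
  let T := {s // s ∈ S ∧ s α = α}
  have : Fintype T := Fintype.ofFinite T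
  have h1 : Nat.card (Σ s : T, {x // x.rep ∈ W ∧ (s.1 x).rep ∈ W}) =
      Nat.card ({x : Projectivization F (Fin n → F) // x.rep ∈ W} × {x : Projectivization F (Fin n → F) // x.rep ∈ W}) :=
    Nat.card_eq_of_bijective (fun z => (⟨z.2.1, z.2.2.1⟩, ⟨z.1.1 z.2.1, z.2.2.2⟩)) ⟨by
      rintro ⟨s, x, hx⟩ ⟨t, y, hy⟩ e
      simp only [Prod.mk.injEq, Subtype.mk.injEq] at e
      obtain ⟨rfl, e⟩ := e
      obtain rfl : s = t := Subtype.ext ((H α x α _ (hα x hx.1) (hα _ hx.2)).unique ⟨s.2.1, s.2.2, rfl⟩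
        ⟨t.2.1, t.2.2, e.symm⟩)
      rfl, fun ⟨x, y⟩ => by
      obtain ⟨s, h1, h2, h3⟩ := (H α x α y (hα _ x.2) (hα _ y.2)).exists
      exact ⟨⟨⟨s, h1, h2⟩, x, x.2, h3 ▸ y.2⟩, Prod.ext rfl (Subtype.ext h3)⟩⟩
  have h2 : ∀ s : T, ((Nat.card {x // x.rep ∈ W ∧ (s.1 x).rep ∈ W} : ℕ) : F) = 1 := fun s => by
    obtain ⟨σ, f, hf, e⟩ := hS s s.2.1
    rw [← key _ (nz σ f)]
    congr 3
    ext x
    refine and_congr_right fun _ => ?_
    obtain ⟨a, e'⟩ := Projectivization.exists_smul_eq_mk_rep F (f x.rep) (by simpa [map_eq_zero_iff f hf] using x.rep_nonzero)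
    rw [e, ← x.mk_rep, Projectivization.map_mk, ← e', Units.smul_def, W.smul_mem_iff a.ne_zero, x.mk_rep]
    rfl
  obtain ⟨x, hx⟩ : Nonempty {x : Projectivization F (Fin n → F) // x.rep ∈ W} :=
    (Nat.card_ne_zero.1 fun e => by simpa [e] using key W w0).1
  have h3 : Nat.card T = Nat.card {y // y ≠ α} :=
    Nat.card_eq_of_bijective (fun s => ⟨s.1 x, fun e => hα x hx (s.1.injective (s.2.2.trans e.symm))⟩) ⟨fun s t e =>
      Subtype.ext ((H α x α _ (hα x hx) (fun e => hα x hx (s.1.injective (s.2.2.trans e)))).unique ⟨s.2.1, s.2.2, rfl⟩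
        ⟨t.2.1, t.2.2, (congrArg Subtype.val e).symm⟩), fun y => by
      obtain ⟨s, h1, h2, h3⟩ := (H α x α y (hα _ hx) y.2.symm).exists
      exact ⟨⟨s, h1, h2⟩, Subtype.ext h3⟩⟩
  have h4 := key (⊤ : Submodule F (Fin n → F)) (ne_bot_of_le_ne_bot w0 le_top)
  rw [Nat.card_congr (Equiv.subtypeUnivEquiv fun _ => Submodule.mem_top), ← Nat.card_congr (Equiv.optionSubtypeNe α),
    Finite.card_option, ← h3, Nat.cast_add, Nat.cast_one, add_eq_right] at h4
  have h5 := congrArg (Nat.cast : ℕ → F) h1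
  rw [Nat.card_sigma, Nat.card_prod, Nat.cast_sum, Nat.cast_mul, key W w0] at h5
  simp [h2, ← Nat.card_eq_fintype_card, h4] at h5

end Cfsg.Agent.S2531
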