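import Cfsg.Statements.S2532


set_option autoImplicit false
open Cfsg

namespace Cfsg.Agent.S2532

open Subgroup MulAction Equiv

theorem aux {H Ω : Type*} [Group H] [Finite H] [Finite Ω] [MulAction H Ω] {r : ℕ}
    (h : 2 ^ Nat.card H * r * Nat.card H ≤ Nat.card Ω) :
    ∃ (S : Subgroup H) (ι : Fin r × (H ⧸ S) ↪ Ω), ∀ (g : H) i c, ι (i, g • c) = g • ι (i, c) := by
  classical
  have := Fintype.ofFinite (orbitRel.Quotient H Ω)
  have := Fintype.ofFinite (Subgroup H)
  have := Fintype.ofFinite H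
  have h1 : Nat.card Ω ≤ Nat.card (orbitRel.Quotient H Ω × H) :=
    Nat.card_le_card_of_surjective (fun y => y.2 • y.1.out) fun a => by
      obtain ⟨g, hg⟩ : a ∈ orbit H (Quotient.mk (orbitRel H Ω) a).out :=
        (orbitRel H Ω).symm (Quotient.mk_out (s := orbitRel H Ω) a)
      exact ⟨(_, g), hg⟩
  rw [Nat.card_prod] at h1
  have h2 := Nat.le_of_mul_le_mul_right (h.trans h1) Nat.card_pos
  have h3 : Fintype.card (Subgroup H) ≤ 2 ^ Nat.card H := by
    rw [Nat.card_eq_fintype_card, ← Fintype.card_set]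
    exact Fintype.card_le_of_injective _ SetLike.coe_injective
  obtain ⟨S, hS⟩ := Fintype.exists_le_card_fiber_of_mul_le_card
    (fun q : orbitRel.Quotient H Ω => stabilizer H q.out) (n := r)
    ((Nat.mul_le_mul_right r h3).trans (h2.trans Nat.card_eq_fintype_card.le))
  obtain ⟨e, he⟩ := Function.Embedding.exists_of_card_le_finset (α := Fin r) (by simpa using hS)
  have hs : ∀ i, stabilizer H (e i).out = S := fun i => by simpa using he ⟨i, rfl⟩
  refine ⟨S, ⟨fun y => y.2.out • (e y.1).out, ?_⟩, fun g i c => ?_⟩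
  · rintro ⟨i, c⟩ ⟨j, d⟩ hh
    have h4 : (d.out⁻¹ * c.out) • (e i).out = (e j).out := by
      rw [mul_smul, inv_smul_eq_iff]; exact hh
    obtain rfl : j = i := e.injective (Quotient.out_equiv_out.1 ⟨_, h4⟩)
    rw [← mem_stabilizer_iff, hs, ← QuotientGroup.eq, QuotientGroup.out_eq', QuotientGroup.out_eq'] at h4
    rw [h4]
  · obtain ⟨s, hs'⟩ := QuotientGroup.mk_out_eq_mul S (g * c.out)
    have : g • c = QuotientGroup.mk (g * c.out) := by
      rw [← smul_eq_mul, ← MulAction.Quotient.smul_mk, QuotientGroup.out_eq']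
    show (g • c).out • (e i).out = g • c.out • (e i).out
    rw [this, hs', mul_smul, mul_smul, mem_stabilizer_iff.1 ((hs i).ge s.2)]

/-- There is a function `f` of two natural-number arguments such that, whenever `m ≥ f(n, r)`, every subgroup of order `n` of the alternating group of degree `m` centralizes some subgroup of that alternating group isomorphic to the alternating group of degree `r`. -/
theorem result :
    ∃ f : ℕ → ℕ → ℕ, ∀ (m r : ℕ) (H : Subgroup ↥(alternatingGroup (Fin m))), f (Nat.card H) r ≤ m →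
      ∃ K : Subgroup ↥(alternatingGroup (Fin m)), Nonempty (↥K ≃* ↥(alternatingGroup (Fin r))) ∧
        K ≤ Subgroup.centralizer (H : Set ↥(alternatingGroup (Fin m))) := by
  classical
  refine ⟨fun n r => 2 ^ n * r * n, fun m r H h => ?_⟩
  obtain ⟨S, ι, hι⟩ := aux (H := H) (Ω := Fin m) (r := r) (by simpa using h)
  have := Fintype.ofFinite (H ⧸ S)
  let ψ : Perm (Fin r) →* Perm (Fin r × (H ⧸ S)) :=
    MonoidHom.mk' (fun σ => prodCongrLeft fun _ => σ) fun _ _ => rfl
  let φ : alternatingGroup (Fin r) →* alternatingGroup (Fin m) :=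
    (((Perm.viaEmbeddingHom ι).comp ψ).comp (alternatingGroup (Fin r)).subtype).codRestrict _
      fun σ => by
        have h1 : Perm.sign σ.1 = 1 := σ.2
        refine (Perm.mem_alternatingGroup).2 ((@Perm.sign_extendDomain _ _ _ _ _ _ (ψ σ) _
          (fun _ => Classical.propDecidable _) (ofInjective ι.1 ι.2)).trans ?_)
        exact (Perm.sign_prodCongrLeft fun _ => σ.1).trans (by simp [h1])
  have hφ : Function.Injective φ := fun σ τ e => by
    have h1 : ψ σ = ψ τ := Perm.viaEmbeddingHom_injective ι (congrArg Subtype.val e)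
    exact Subtype.ext (Equiv.ext fun i =>
      congrArg Prod.fst (Equiv.congr_fun h1 (i, ((1 : H) : H ⧸ S))))
  refine ⟨φ.range, ⟨(MonoidHom.ofInjective hφ).symm⟩, ?_⟩
  rintro _ ⟨σ, rfl⟩ g hg
  refine Subtype.ext (Equiv.ext fun a => ?_)
  show g.1 ((ψ σ).viaEmbedding ι a) = (ψ σ).viaEmbedding ι (g.1 a)
  by_cases ha : a ∈ Set.range ι
  · obtain ⟨⟨i, c⟩, rfl⟩ := ha
    have h1 : g.1 (ι (i, c)) = ι (i, (⟨g, hg⟩ : H) • c) := (hι ⟨g, hg⟩ i c).symm
    rw [h1, Perm.viaEmbedding_apply, Perm.viaEmbedding_apply]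
    exact (hι ⟨g, hg⟩ _ c).symm
  · rw [Perm.viaEmbedding_apply_of_notMem _ _ _ ha, Perm.viaEmbedding_apply_of_notMem]
    rintro ⟨⟨i, c⟩, e⟩
    refine ha ⟨(i, (⟨g, hg⟩ : H)⁻¹ • c), ?_⟩
    rw [hι, e]
    exact inv_smul_smul (⟨g, hg⟩ : H) a

end Cfsg.Agent.S2532
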