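import Cfsg.Statements.S2533
import Cfsg.Agent.Lead.Kr

set_option autoImplicit false
open Cfsg

namespace Cfsg.Agent.S2533

/-- For every odd prime `p` there is a finite group `H` of order `2p³` which, for infinitely many `n`, embeds in the projective special linear group `PSL(n, p)` as a subgroup with trivial centralizer. -/
theorem result
    (p : ℕ) [Fact p.Prime] (hp : p ≠ 2) :
    ∃ (H : Type) (_ : Group H) (_ : Finite H), Nat.card H = 2 * p ^ 3 ∧
      ∀ N : ℕ, ∃ n, N ≤ n ∧ ∃ φ : H →* Matrix.ProjectiveSpecialLinearGroup (Fin n) (ZMod p),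
        Function.Injective φ ∧ Subgroup.centralizer (φ.range : Set (Matrix.ProjectiveSpecialLinearGroup (Fin n) (ZMod p))) = ⊥ := by
  have hp' : p.Prime := Fact.out
  have h2 : (2 : ZMod p) ≠ 0 := fun h => hp ((Nat.prime_dvd_prime_iff_eq hp' Nat.prime_two).1
    ((ZMod.natCast_eq_zero_iff 2 p).1 (by exact_mod_cast h)))
  refine ⟨Lead.Kr.H (ZMod p), inferInstance, Finite.of_equiv _ Lead.Kr.eqv.symm, ?_, fun N => ?_⟩
  · rw [Nat.card_congr Lead.Kr.eqv]; simp [mul_comm]
  · have := hp'.pos
    exact ⟨_, by nlinarith, Lead.Kr.main (m := 2 * (p * (N + 1))) h2 (by nlinarith) (even_two_mul _) (by simp)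
      finSumFinEquiv⟩

end Cfsg.Agent.S2533
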