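import Cfsg.Statements.S2534
import Cfsg.Agent.H11.HS4
import Cfsg.Agent.H3.Epi

set_option autoImplicit false
open Cfsg

namespace Cfsg.Agent.S2534

open Equiv Equiv.Perm H11.HS H16 in
def LL (m : ℕ) : List (Perm (Fin (m + 6))) :=
  let v : List (Perm (Fin (m + 6))) :=
    [1, swap 0 1 * swap 2 3, swap 2 3 * swap 4 5, swap 0 1 * swap 4 5]
  let b : Perm (Fin (m + 6)) := swap 0 2 * swap 2 4 * (swap 1 3 * swap 3 5)
  v ++ v.map (· * b) ++ v.map (· * b * b)

open Equiv Equiv.Perm in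
def OK (m : ℕ) : Prop := (∀ g ∈ LL m, ∀ h ∈ LL m, g * h ∈ LL m) ∧
  (∀ g ∈ LL m, g * g * g * g * g * g = 1 ∧ sign g = 1) ∧
  ∀ D : Finset (Fin (m + 6)), D.card = 4 →
    ∃ g ∈ LL m, ¬ ((∀ x, x ∈ D ↔ g x ∈ D) ∨ ∀ x, x ∈ D ↔ g x ∉ D)

theorem ok_of {m : ℕ}
    (h1 : ((LL m).all fun g => (LL m).all fun h => (LL m).any fun k =>
      decide (∀ x, g (h x) = k x)) = true)
    (h2 : ((LL m).all fun g => decide (∀ x, g (g (g (g (g (g x))))) = x)) = true)
    (h3 : ((LL m).all fun g => decide (Equiv.Perm.sign g = 1)) = true)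
    (h4 : ∀ D : Finset (Fin (m + 6)), D.card = 4 → ((LL m).any fun g =>
      decide (¬ ((∀ x, x ∈ D ↔ g x ∈ D) ∨ ∀ x, x ∈ D ↔ g x ∉ D))) = true) : OK m := by
  simp only [List.all_eq_true, List.any_eq_true, decide_eq_true_eq] at h1 h2 h3 h4
  refine ⟨fun g hg h hh => ?_, fun g hg => ⟨Equiv.ext (h2 g hg), h3 g hg⟩, h4⟩
  obtain ⟨k, hk, e⟩ := h1 g hg h hh
  rwa [show g * h = k from Equiv.ext e]

theorem ok1 : OK 1 :=
  ok_of (by decide +kernel) (by decide +kernel) (by decide +kernel) (by decide +kernel)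

theorem ok2 : OK 2 :=
  ok_of (by decide +kernel) (by decide +kernel) (by decide +kernel) (by decide +kernel)

open Equiv Equiv.Perm H11.HS H16 in
theorem bad {m : ℕ} (h : OK m) {π : Set ℕ} (h2 : 2 ∈ π) (h3 : 3 ∈ π) :
    ∃ K : Subgroup (Perm (Fin (m + 6))), K ≤ alternatingGroup _ ∧ IsPiSubgroup π K ∧
      ∀ D : Finset (Fin (m + 6)), D.card = 4 → ¬ K ≤ MC D := by
  let K : Subgroup (Perm (Fin (m + 6))) :=
    { carrier := {g | g ∈ LL m}
      one_mem' := by simp [LL]
      mul_mem' := fun {a b} ha hb => h.1 a ha b hb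
      inv_mem' := fun {a} ha => by
        rw [← eq_inv_of_mul_eq_one_left (h.2.1 a ha).1]
        exact h.1 _ (h.1 _ (h.1 _ (h.1 _ ha _ ha) _ ha) _ ha) _ ha }
  refine ⟨K, fun g hg => mem_alternatingGroup.2 (h.2.1 g hg).2, fun r hr hd => ?_,
    fun D hD hle => ?_⟩
  · have := Fact.mk hr
    obtain ⟨g, hg⟩ := exists_prime_orderOf_dvd_card' r hd
    have h6 : r ∣ 2 * 3 := by
      rw [← hg, orderOf_dvd_iff_pow_eq_one]
      exact Subtype.ext (by simpa [pow_succ] using (h.2.1 g g.2).1)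
    rcases (Nat.Prime.dvd_mul hr).1 h6 with e | e
    · rwa [(Nat.prime_dvd_prime_iff_eq hr Nat.prime_two).1 e]
    · rwa [(Nat.prime_dvd_prime_iff_eq hr Nat.prime_three).1 e]
  · obtain ⟨g, hg, e⟩ := h.2.2 D hD
    exact e (mem_MC'.1 (hle hg))

open Equiv Equiv.Perm H11.HS H16 Finset Pointwise in
theorem bad1 {α : Type*} [Fintype α] [DecidableEq α] (h5 : 5 ≤ Fintype.card α) {π : Set ℕ}
    (hπ : ∀ r, r.Prime → r < Fintype.card α → r ∈ π) :
    ∃ K : Subgroup (Perm α), K ≤ alternatingGroup _ ∧ IsPiSubgroup π K ∧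
      ∀ D : Finset α, D.card = 1 → ¬ K ≤ MC D := by
  obtain ⟨a, -, b, -, hab⟩ := one_lt_card.1 (show 1 < (univ : Finset α).card by
    rw [card_univ]; omega)
  refine ⟨MulAction.stabilizer (Perm α) ({a, b} : Finset α) ⊓ alternatingGroup α, inf_le_right,
    fun r hr hd => ?_, fun D hD hle => ?_⟩
  · have := hd.trans (Subgroup.card_dvd_of_le inf_le_left)
    rw [card_SC, card_pair hab] at this
    rcases (Nat.Prime.dvd_mul hr).1 this with e | e <;> rw [hr.dvd_factorial] at e <;>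
      exact hπ r hr (by omega)
  · obtain ⟨w, rfl⟩ := card_eq_one.1 hD
    rw [MC_eq (by rw [hD]; omega)] at hle
    obtain ⟨u, ua, ub, uw⟩ : ∃ u, u ≠ a ∧ u ≠ b ∧ (w = a ∨ w = b ∨ w = u) := by
      obtain ⟨u, -, hu⟩ := exists_mem_notMem_of_card_lt_card (t := univ) (s := {a, b})
        (card_le_two.trans_lt (by rw [card_univ]; omega))
      by_cases h : w = a ∨ w = b
      · exact ⟨u, by grind, by grind, by grind⟩
      · exact ⟨w, by grind, by grind, by grind⟩
    obtain ⟨v, -, hv⟩ := exists_mem_notMem_of_card_lt_card (t := univ) (s := {a, b, u})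
      (card_le_three.trans_lt (by rw [card_univ]; omega))
    simp only [mem_insert, mem_singleton, not_or] at hv
    have hm : swap a b * swap u v ∈
        MulAction.stabilizer (Perm α) ({a, b} : Finset α) ⊓ alternatingGroup α := by
      refine ⟨mem_SC.2 fun x => ?_, ?_⟩
      · simp only [mem_insert, mem_singleton, Perm.mul_apply, swap_apply_def]
        grind
      · show _ ∈ alternatingGroup α
        simp [mem_alternatingGroup, hab, Ne.symm hv.2.2]
    have := (mem_SC.1 (hle hm) w).1 (mem_singleton_self w)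
    simp only [mem_singleton, Perm.mul_apply, swap_apply_def] at this
    grind

theorem dpi_congr {G : Type*} [Group G] {π σ : Set ℕ} (h : IsDPiGroup σ G)
    (e : ∀ r, r.Prime → r ∣ Nat.card G → (r ∈ π ↔ r ∈ σ)) : IsDPiGroup π G := by
  have : (IsPiSubgroup π : Subgroup G → Prop) = IsPiSubgroup σ := by
    ext K
    exact forall_congr' fun r => forall_congr' fun hr => forall_congr' fun hd =>
      e r hr (hd.trans K.card_subgroup_dvd_card)
  unfold IsDPiGroup
  rw [this]
  exact h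

open H16 in
theorem le_of_dpi {G : Type*} [Group G] [Finite G] {π : Set ℕ} (h : IsDPiGroup π G)
    {H K : Subgroup G} (hH : IsPiHall π H) (hK : IsPiSubgroup π K) : ∃ g, K ≤ H :^ g := by
  obtain ⟨M, hle, hM⟩ := Finite.exists_le_maximal hK
  obtain ⟨g, rfl⟩ := h H M ⟨hH.1, fun U hU hle =>
    (hl_max (hl_top_iff.2 hH) le_top hU hle).le⟩ hM
  exact ⟨g, hle⟩

/-- For `n ≥ 5` and a set of primes `π`, the alternating group of degree `n` satisfies the full Sylow analogue for `π` (its maximal `π`-subgroups are pairwise conjugate; for a finite group this says Hall `π`-subgroups exist, are all conjugate, and contain every `π`-subgroup up to conjugacy) if and only if either at most one prime of `π` divides its order or every prime dividing its order lies in `π`. -/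
theorem result (n : ℕ) (hn : 5 ≤ n) (π : Set ℕ) :
    Cfsg.IsDPiGroup π ↥(alternatingGroup (Fin n)) ↔
      ((∀ r s : ℕ, r.Prime → s.Prime → r ∈ π → s ∈ π → r ∣ Nat.card ↥(alternatingGroup (Fin n)) → s ∣ Nat.card ↥(alternatingGroup (Fin n)) → r = s) ∨
        ∀ r : ℕ, r.Prime → r ∣ Nat.card ↥(alternatingGroup (Fin n)) → r ∈ π) := by
  have e : Fintype.card (Fin n) = n := Fintype.card_fin n
  constructor
  · intro h
    by_contra hc
    push Not at hc
    obtain ⟨⟨r, s, hr, hs, a1, a2, a3, a4, a5⟩, r0, hr0, b1, b2⟩ := hc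
    obtain ⟨H, hH⟩ := H3.epi_of_dpi h
    obtain ⟨C, hC, hsh⟩ := (H11.HS.ah_alt (H11.HS.hall_map.1 hH)).shape
      ⟨r, s, hr, hs, a5, a1, a2, H11.HS.le_of_dvd hr a3, H11.HS.le_of_dvd hs a4⟩
      ⟨r0, hr0, H11.HS.le_of_dvd hr0 b1, b2⟩
    have key : ∀ K : Subgroup (Equiv.Perm (Fin n)), K ≤ alternatingGroup _ → IsPiSubgroup π K →
        ∃ D : Finset (Fin n), D.card = C.card ∧ K ≤ H11.HS.MC D := by
      intro K hK hπ
      obtain ⟨g, hg⟩ := le_of_dpi h hH (K := K.subgroupOf _) fun r hr hd => hπ r hr (by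
        rwa [Nat.card_congr (Subgroup.subgroupOfEquivOfLe hK).toEquiv] at hd)
      refine ⟨C.map (g : Equiv.Perm (Fin n)).toEmbedding, Finset.card_map _, ?_⟩
      have := Subgroup.map_mono (f := (alternatingGroup (Fin n)).subtype) hg
      rw [Subgroup.map_subgroupOf_eq_of_le hK, H11.HS.map_cj] at this
      rw [← H11.HS.MC_cj]
      exact this.trans (H16.cj_mono _ hC)
    rw [e] at hsh
    rcases hsh with ⟨c1, -, -, c2⟩ | ⟨c1, c2, c3⟩
    · obtain ⟨K, k1, k2, k3⟩ := bad1 (α := Fin n) (π := π) (by omega) fun r hr hlt =>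
        (c2 r hr (by omega)).2 (by omega)
      obtain ⟨D, d1, d2⟩ := key K k1 k2
      exact k3 D (by omega) d2
    · have π2 := (c3 2 Nat.prime_two (by omega)).2 (.inl rfl)
      have π3 := (c3 3 Nat.prime_three (by omega)).2 (.inr rfl)
      rcases c2 with rfl | rfl
      · obtain ⟨K, k1, k2, k3⟩ := bad ok1 π2 π3
        obtain ⟨D, d1, d2⟩ := key K k1 k2
        exact k3 D (by omega) d2
      · obtain ⟨K, k1, k2, k3⟩ := bad ok2 π2 π3
        obtain ⟨D, d1, d2⟩ := key K k1 k2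
        exact k3 D (by omega) d2
  · rintro (h | h)
    · exact dpi_congr (σ := {r | r ∈ π ∧ r ∣ Nat.card (alternatingGroup (Fin n))})
        (H3.dpi_of_small (.inl fun p q hp hq a b => h p q hp hq a.1 b.1 a.2 b.2) _)
        fun r _ hd => (and_iff_left hd).symm
    · exact dpi_congr (σ := Set.univ) (H3.dpi_of_small (.inr fun _ _ => trivial) _)
        fun r hr hd => iff_of_true (h r hr hd) trivial

end Cfsg.Agent.S2534
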