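import Cfsg.Statements.S2536
import Cfsg.Agent.H11.HS4

set_option autoImplicit false
open Cfsg

namespace Cfsg.Agent.S2536

/-- Let `π` be a set of primes and `n` a natural number such that at least two primes of `π` divide `n!` but not every prime dividing `n!` lies in `π`. Then the symmetric group of degree `n` has a Hall `π`-subgroup if and only if either `n` is prime and the primes of `π` dividing `n!` are exactly the primes smaller than `n` (a point stabilizer is then such a subgroup), or `n ∈ {7, 8}` and the primes of `π` dividing `n!` are exactly 2 and 3. -/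
theorem result (n : ℕ) (π : Set ℕ)
    (h2 : ∃ r s : ℕ, r.Prime ∧ s.Prime ∧ r ≠ s ∧ r ∈ π ∧ s ∈ π ∧ r ≤ n ∧ s ≤ n)
    (hns : ∃ r : ℕ, r.Prime ∧ r ≤ n ∧ r ∉ π) :
    Cfsg.IsEPiGroup π (Equiv.Perm (Fin n)) ↔
      ((n.Prime ∧ ∀ r : ℕ, r.Prime → r ≤ n → (r ∈ π ↔ r < n)) ∨
       ((n = 7 ∨ n = 8) ∧ ∀ r : ℕ, r.Prime → r ≤ n → (r ∈ π ↔ (r = 2 ∨ r = 3)))) := by
  have e : Fintype.card (Fin n) = n := Fintype.card_fin n
  constructor
  · rintro ⟨H, hH⟩
    obtain ⟨C, -, hs⟩ := (H11.HS.ah_top (H16.hl_top_iff.2 hH)).shape (by rwa [e]) (by rwa [e])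
    rw [e] at hs
    exact hs.imp (fun h => ⟨h.2.1, h.2.2.2⟩) fun h => h.2
  · intro h
    have key : ∀ k, k ≤ n → H11.HS.Shape π n k → IsEPiGroup π (Equiv.Perm (Fin n)) := by
      intro k hk hs
      obtain ⟨C, -, hC⟩ := Finset.exists_subset_card_eq (s := (Finset.univ : Finset (Fin n)))
        (n := k) (by simpa using hk)
      exact ⟨_, H16.hl_top_iff.1 (H11.HS.Shape.hall (C := C) (by rwa [e, hC]))⟩
    rcases h with h | h
    · refine key 1 h.1.one_le (.inl ⟨rfl, h.1, ?_, h.2⟩)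
      obtain ⟨r, s, hr, hs, hrs, a, b, c, d⟩ := h2
      have := (h.2 r hr c).1 a
      have := (h.2 s hs d).1 b
      have := hr.two_le
      have := hs.two_le
      omega
    · exact key 4 (by omega) (.inr ⟨rfl, h⟩)

end Cfsg.Agent.S2536
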