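import Cfsg.Statements.S2537
import Cfsg.Agent.H4.Tor3

set_option autoImplicit false
open Cfsg

namespace Cfsg.Agent.S2537

theorem split23 {n : ℕ} (hn : n ≠ 0) :
    ∃ m, n = 2 ^ n.factorization 2 * 3 ^ n.factorization 3 * m ∧ ¬ 2 ∣ m ∧ ¬ 3 ∣ m := by
  obtain ⟨m, hm⟩ := Nat.Coprime.mul_dvd_of_dvd_of_dvd (Nat.Coprime.pow _ _ (by norm_num))
    (Nat.ordProj_dvd n 2) (Nat.ordProj_dvd n 3)
  refine ⟨m, hm, fun ⟨k, hk⟩ => Nat.pow_succ_factorization_not_dvd hn Nat.prime_two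
    ⟨3 ^ n.factorization 3 * k, hm.trans (by rw [hk]; ring)⟩,
    fun ⟨k, hk⟩ => Nat.pow_succ_factorization_not_dvd hn Nat.prime_three
    ⟨2 ^ n.factorization 2 * k, hm.trans (by rw [hk]; ring)⟩⟩

theorem cop {a b c : ℕ} (h2 : ¬ 2 ∣ c) (h3 : ¬ 3 ∣ c) : (2 ^ a * 3 ^ b).Coprime c :=
  Nat.Coprime.mul_left (Nat.Coprime.pow_left _ (Nat.prime_two.coprime_iff_not_dvd.2 h2))
    (Nat.Coprime.pow_left _ (Nat.prime_three.coprime_iff_not_dvd.2 h3))

theorem eq23 {a b c d x y : ℕ} (h : 2 ^ a * 3 ^ b * x = 2 ^ c * 3 ^ d * y) (x2 : ¬ 2 ∣ x) (x3 : ¬ 3 ∣ x)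
    (y2 : ¬ 2 ∣ y) (y3 : ¬ 3 ∣ y) : 2 ^ a * 3 ^ b = 2 ^ c * 3 ^ d :=
  Nat.dvd_antisymm ((cop y2 y3).dvd_of_dvd_mul_right ⟨x, h.symm⟩)
    ((cop x2 x3).dvd_of_dvd_mul_right ⟨y, h⟩)

theorem hall_of {G : Type*} [Group G] [Finite G] {D : Subgroup G} (hD : Group.IsSolvable D)
    (h2 : ¬ 2 ∣ D.index) (h3 : ¬ 3 ∣ D.index) : ∃ H : Subgroup G, IsPiHall ({2, 3} : Set ℕ) H := by
  obtain ⟨H, h4, h5⟩ := (H1.hallOK_of_isSolvable ({2, 3} : Set ℕ) hD).exists_isPiHall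
  refine ⟨H.map D.subtype, fun p hp h => h4 p hp (by rwa [Subgroup.card_map_of_injective D.subtype_injective] at h),
    fun p hp h h6 => ?_⟩
  rw [Subgroup.index_map_subtype] at h6
  rcases (Nat.Prime.dvd_mul hp).1 h6 with h6 | h6
  · exact h5 p hp h h6
  · rcases h with rfl | rfl
    exacts [h2 h6, h3 h6]


/-- Let `F` be a finite field with `q` elements of characteristic `p ≥ 5`, and `ε = 1` if `q ≡ 1 (mod 4)`, `ε = -1` otherwise. Then `PSL(2, F)` has a Hall `{2, 3}`-subgroup if and only if `3` divides `q − ε`, or the `{2,3}`-part of `q² − 1` is 24, or the `{2,3}`-part of `q² − 1` is 48 (the `{2,3}`-part of `m` being the largest divisor of `m` with no prime factor other than 2 and 3). -/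
theorem result {F : Type*} [Field F] [Fintype F] {p : ℕ} [Fact p.Prime] [CharP F p]
    (hp : 5 ≤ p) (q : ℕ) (hq : Fintype.card F = q) :
    (∃ H : Subgroup (Matrix.ProjectiveSpecialLinearGroup (Fin 2) F), Cfsg.IsPiHall ({2, 3} : Set ℕ) H) ↔
      (3 ∣ q - 1 ∧ q % 4 = 1) ∨ (3 ∣ q + 1 ∧ q % 4 = 3) ∨
        2 ^ (q ^ 2 - 1).factorization 2 * 3 ^ (q ^ 2 - 1).factorization 3 = 24 ∨
        2 ^ (q ^ 2 - 1).factorization 2 * 3 ^ (q ^ 2 - 1).factorization 3 = 48 := by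
  subst hq
  have hp' : p.Prime := Fact.out
  have h2 := H4.two_ne_zero_of_char (F := F) p (by omega)
  have hq := H4.odd_card_of_two_ne_zero h2
  have hq1 := H4.one_lt_card' (F := F)
  have hq3 : ¬ 3 ∣ Fintype.card F := fun h => by
    obtain ⟨k, -, hk⟩ := H22.exists_card_eq_pow (F := F) p
    have := (Nat.prime_dvd_prime_iff_eq Nat.prime_three hp').1 (Nat.prime_three.dvd_of_dvd_pow (hk ▸ h))
    omega
  have hq2 : ¬ 2 ∣ Fintype.card F := by omega
  obtain ⟨m, hm, m2, m3⟩ := split23 (n := Fintype.card F ^ 2 - 1) (by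
    rw [H4.sq_sub_one_eq]; exact mul_ne_zero (by omega) (by omega))
  have k0 : ∀ H : Subgroup (Matrix.ProjectiveSpecialLinearGroup (Fin 2) F),
      2 * Nat.card H * H.index = Fintype.card F * (Fintype.card F ^ 2 - 1) := fun H => by
    rw [mul_assoc, H.card_mul_index, ← H4.card_psl, H4.gcd_eq_two hq]
  have k1 : ∀ g : GL (Fin 2) F, H4.disc g.1 ≠ 0 →
      Nat.card ((H4.pN g ⊓ H4.pL F).comap H4.psl2pgl) = Nat.card (H4.pT g) := fun g hg => by
    rw [← H4.card_map_psl, H4.map_comap_psl inf_le_right, H4.card_pN_pL hg, ← H4.card_pT_pL hg,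
      H4.gcd_eq_two hq]
  have k2 : ∀ g : GL (Fin 2) F, H4.disc g.1 ≠ 0 →
      (Nat.card (H4.pT g) = Fintype.card F - 1 → 2 * ((H4.pN g ⊓ H4.pL F).comap H4.psl2pgl).index =
        Fintype.card F * (Fintype.card F + 1)) ∧
      (Nat.card (H4.pT g) = Fintype.card F + 1 → 2 * ((H4.pN g ⊓ H4.pL F).comap H4.psl2pgl).index =
        Fintype.card F * (Fintype.card F - 1)) := fun g hg => by
    have := k0 ((H4.pN g ⊓ H4.pL F).comap H4.psl2pgl)
    rw [k1 g hg, H4.sq_sub_one_eq] at this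
    refine ⟨fun h => ?_, fun h => ?_⟩ <;> rw [h] at this
    · exact Nat.eq_of_mul_eq_mul_left (show 0 < Fintype.card F - 1 by omega) (by linarith)
    · exact Nat.eq_of_mul_eq_mul_left (show 0 < Fintype.card F + 1 by omega) (by linarith)
  have k3 : ∀ g : GL (Fin 2) F, H4.disc g.1 ≠ 0 →
      Group.IsSolvable ((H4.pN g ⊓ H4.pL F).comap H4.psl2pgl) := fun g hg =>
    ((H4.dih_pN_pL hg).comap H4.psl2pgl_injective).isSolvable
  have k4 : ∀ a b : ℕ, ¬ 2 ∣ a → ¬ 2 ∣ b → ¬ 2 ∣ a * b := fun a b ha hb h =>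
    (Nat.prime_two.dvd_mul.1 h).elim ha hb
  have k5 : ∀ a b : ℕ, ¬ 3 ∣ a → ¬ 3 ∣ b → ¬ 3 ∣ a * b := fun a b ha hb h =>
    (Nat.prime_three.dvd_mul.1 h).elim ha hb
  have k6 : ∀ a b : ℕ, 2 * a = Fintype.card F * b → (2 ∣ a ↔ 4 ∣ b) ∧ (3 ∣ a ↔ 3 ∣ b) := fun a b h => by
    have c4 : Nat.Coprime 4 (Fintype.card F) :=
      Nat.Coprime.pow_left 2 (Nat.prime_two.coprime_iff_not_dvd.2 hq2)
    have c3 := Nat.prime_three.coprime_iff_not_dvd.2 hq3
    refine ⟨⟨fun h1 => c4.dvd_of_dvd_mul_left (by omega), fun h1 => ?_⟩,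
      ⟨fun h1 => c3.dvd_of_dvd_mul_left (by omega), fun h1 => ?_⟩⟩
    · have := h1.mul_left (Fintype.card F); omega
    · have := h1.mul_left (Fintype.card F); omega
  have k7 : ∀ (H : Subgroup (Matrix.ProjectiveSpecialLinearGroup (Fin 2) F)) (a b : ℕ),
      2 * Nat.card H = 2 ^ a * 3 ^ b → (IsPiHall ({2, 3} : Set ℕ) H ↔
        2 ^ (Fintype.card F ^ 2 - 1).factorization 2 * 3 ^ (Fintype.card F ^ 2 - 1).factorization 3 =
          2 ^ a * 3 ^ b) := fun H a b h => by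
    have h1 := k0 H
    rw [h, hm, mul_left_comm] at h1
    refine ⟨fun h3 => (eq23 h1 (h3.2 2 Nat.prime_two (Or.inl rfl)) (h3.2 3 Nat.prime_three (Or.inr rfl))
      (k4 _ _ hq2 m2) (k5 _ _ hq3 m3)).symm, fun h3 => ⟨fun r hr h4 => ?_, ?_⟩⟩
    · rcases hr.dvd_mul.1 (h ▸ h4.mul_left 2) with h5 | h5
      · exact Or.inl ((Nat.prime_dvd_prime_iff_eq hr Nat.prime_two).1 (hr.dvd_of_dvd_pow h5))
      · exact Or.inr ((Nat.prime_dvd_prime_iff_eq hr Nat.prime_three).1 (hr.dvd_of_dvd_pow h5))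
    · rw [h3] at h1
      rw [Nat.eq_of_mul_eq_mul_left (by positivity) h1]
      rintro _ - (rfl | rfl)
      exacts [k4 _ _ hq2 m2, k5 _ _ hq3 m3]
  constructor
  · rintro ⟨H, hH⟩
    have i2 := hH.2 2 Nat.prime_two (Or.inl rfl)
    have i3 := hH.2 3 Nat.prime_three (Or.inr rfl)
    have hpH : ∀ r, r.Prime → 5 ≤ r → ¬ r ∣ Nat.card (H.map H4.psl2pgl) := fun r hr h1 h => by
      rw [H4.card_map_psl] at h
      rcases hH.1 r hr h with rfl | rfl <;> omega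
    rcases H4.dickson_pgl p (H.map H4.psl2pgl) with ⟨x, h⟩ | ⟨g, hg, h⟩ | ⟨-, h | h | h⟩ | ⟨h, -⟩ | ⟨E, P, -, h⟩
    · have h1 := Subgroup.index_dvd_of_le (Subgroup.map_le_iff_le_comap.1 h)
      rw [H4.comap_stabilizer, H4.index_stab_psl] at h1
      exact (i2 ((show 2 ∣ Fintype.card F + 1 by omega).trans h1)).elim
    · have h1 := Subgroup.index_dvd_of_le (Subgroup.map_le_iff_le_comap.1 (le_inf h (H4.map_psl_le H)))
      have j2 := mt (fun h => dvd_trans h h1) i2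
      have j3 := mt (fun h => dvd_trans h h1) i3
      rcases H4.card_pT hg with h3 | h3
      · have := k6 _ _ ((k2 g hg).2 h3)
        rw [this.1] at j2; rw [this.2] at j3
        exact Or.inr (Or.inl ⟨by clear * - hq3 j3 hq1; omega, by clear * - hq j2 hq1; omega⟩)
      · have := k6 _ _ ((k2 g hg).1 h3)
        rw [this.1] at j2; rw [this.2] at j3
        exact Or.inl ⟨by clear * - hq3 j3 hq1; omega, by clear * - hq j2 hq1; omega⟩
    · exact Or.inr (Or.inr (Or.inl ((k7 H 3 1 (by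
        rw [← H4.card_map_psl, H4.card_of_equiv h, H4.card_a4]; rfl)).1 hH)))
    · exact Or.inr (Or.inr (Or.inr ((k7 H 4 1 (by
        rw [← H4.card_map_psl, H4.card_of_equiv h, H4.card_s4]; rfl)).1 hH)))
    · exact (hpH 5 Nat.prime_five le_rfl (by rw [H4.card_of_equiv h, H4.card_a5]; norm_num)).elim
    · omega
    · refine (hpH p hp' hp ((H4.char_dvd_card_pslS p E).trans ?_)).elim
      rw [← H4.card_cj _ P]
      refine Subgroup.card_dvd_of_le ?_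
      rcases h with h | h <;> rw [h]
      exact H4.cj_mono (H4.pslS_le_pglS E) P
  · rintro (h | h | h | h)
    · obtain ⟨g, hg, h1⟩ := H4.exists_pT_sp (F := F) (by omega)
      have := k6 _ _ ((k2 g hg).1 h1)
      exact hall_of (k3 g hg) (by rw [this.1]; omega) (by rw [this.2]; omega)
    · obtain ⟨g, hg, h1⟩ := H4.exists_pT_ell (F := F)
      have := k6 _ _ ((k2 g hg).2 h1)
      exact hall_of (k3 g hg) (by rw [this.1]; omega) (by rw [this.2]; omega)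
    · obtain ⟨A, h1, h3⟩ := H4.exists_a4 h2 (⊤ : Subfield F)
      obtain ⟨H, h4⟩ := H4.exists_psl_iff.2 ⟨A, h1.trans (H4.pslS_le_pL _), h3⟩
      exact ⟨H, (k7 H 3 1 (by rw [H4.card_of_equiv h4, H4.card_a4]; rfl)).2 h⟩
    · obtain ⟨A, -, h3⟩ := H4.exists_s4 h2 (⊤ : Subfield F)
      obtain ⟨H, h4⟩ := H4.exists_psl_iff.2 ⟨A, (H4.s4_le_pL_iff h2 h3).2 (by
        rw [h, H4.sq_sub_one_eq] at hm
        by_contra h5
        obtain ⟨k, hk | hk⟩ : ∃ k, Fintype.card F = 8 * k + 2 + 1 ∨ Fintype.card F = 8 * k + 4 + 1 :=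
          ⟨Fintype.card F / 8, by omega⟩
        · rw [hk, Nat.add_sub_cancel, show (8 * k + 2) * (8 * k + 2 + 1 + 1) = 16 * (4 * k * k + 3 * k) + 8 by ring] at hm
          omega
        · rw [hk, Nat.add_sub_cancel, show (8 * k + 4) * (8 * k + 4 + 1 + 1) = 16 * (4 * k * k + 5 * k + 1) + 8 by ring] at hm
          omega), h3⟩
      exact ⟨H, (k7 H 4 1 (by rw [H4.card_of_equiv h4, H4.card_s4]; rfl)).2 h⟩

end Cfsg.Agent.S2537
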