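import Cfsg.Statements.S2540
import Cfsg.Agent.H16.LA5
-- import your own Cfsg.Agent.* helpers here

set_option autoImplicit false
open Cfsg

namespace Cfsg.Agent.S2540

open H16 Polynomial in
/-- Let F be a finite field and n ≥ 1, excluding the case n = 2 with #F ≤ 3. A subgroup of GL_n(F) that is normalized by every element of SL_n(F) either consists of scalar matrices or contains SL_n(F). -/
theorem result {F : Type*} [Field F] [Fintype F] (n : ℕ) (hn : 1 ≤ n) (hex : ¬ (n = 2 ∧ Fintype.card F ≤ 3)) (G : Subgroup (Matrix.GeneralLinearGroup (Fin n) F)) (hG : ∀ s : Matrix.SpecialLinearGroup (Fin n) F, ∀ g ∈ G, (Matrix.SpecialLinearGroup.toGL s) * g * (Matrix.SpecialLinearGroup.toGL s)⁻¹ ∈ G) : (∀ g ∈ G, ∃ c : F, (g : Matrix (Fin n) (Fin n) F) = c • (1 : Matrix (Fin n) (Fin n) F)) ∨ (Matrix.SpecialLinearGroup.toGL : Matrix.SpecialLinearGroup (Fin n) F →* _).range ≤ G := by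
  let N := G.comap (Matrix.SpecialLinearGroup.toGL : Matrix.SpecialLinearGroup (Fin n) F →* _)
  have : N.Normal := ⟨fun a ha s => by simpa [N] using hG s _ ha⟩
  have hperf := H22.commutator_SL_fin_eq_top (F := F) n (by omega)
  rcases H22.SL_normal_le_center_or_eq_top hperf N with h | h
  · left
    intro g hg
    have h1 : ∀ s : Matrix.SpecialLinearGroup (Fin n) F, ∃ z : Subgroup.center (Matrix.SpecialLinearGroup (Fin n) F),
        Matrix.SpecialLinearGroup.toGL z.1 = Matrix.SpecialLinearGroup.toGL s * g * (Matrix.SpecialLinearGroup.toGL s)⁻¹ * g⁻¹ := by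
      intro s
      obtain ⟨z, hz⟩ : Matrix.SpecialLinearGroup.toGL s * g * (Matrix.SpecialLinearGroup.toGL s)⁻¹ * g⁻¹ ∈
          (Matrix.SpecialLinearGroup.toGL : Matrix.SpecialLinearGroup (Fin n) F →* _).range := by
        rw [H22.range_toGL]; simp [MonoidHom.mem_ker]
      exact ⟨⟨z, h (by rw [Subgroup.mem_comap, hz]; exact G.mul_mem (hG s g hg) (G.inv_mem hg))⟩, hz⟩
    choose φ hφ using h1
    have h2 : ∀ s t, φ (s * t) = φ s * φ t := fun s t => by
      apply Subtype.ext
      apply Matrix.SpecialLinearGroup.toGL_injective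
      have h3 := Subgroup.mem_center_iff.1 ((Matrix.SpecialLinearGroup.toGL_mem_center_iff _).2 (φ t).2)
      rw [Subgroup.coe_mul, map_mul, hφ, h3, hφ s, map_mul]
      have h4 := h3 (Matrix.SpecialLinearGroup.toGL s)
      calc _ = Matrix.SpecialLinearGroup.toGL s * Matrix.SpecialLinearGroup.toGL (φ t).1 * g *
          (Matrix.SpecialLinearGroup.toGL s)⁻¹ * g⁻¹ := by rw [hφ]; group
        _ = _ := by rw [h4]; group
    have h5 : ∀ s, φ s = 1 := fun s => by
      have : commutator _ ≤ (MonoidHom.mk' φ h2).ker := Subgroup.commutator_le.2 fun a _ b _ => by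
        rw [MonoidHom.mem_ker, map_commutatorElement, commutatorElement_eq_one_iff_mul_comm]
        exact Subtype.ext (Subgroup.mem_center_iff.1 (φ b).2 _)
      exact this (hperf ▸ Subgroup.mem_top s)
    obtain ⟨c, hc⟩ := Matrix.mem_range_scalar_of_commute_transvectionStruct (M := g.1) fun t => by
      have h6 := hφ t.toSpecialLinearGroup
      rw [h5, OneMemClass.coe_one, map_one, eq_comm, mul_inv_eq_one, mul_inv_eq_iff_eq_mul] at h6
      exact congrArg Units.val h6
    exact ⟨c, by rw [← hc, scalar_eq_smul]⟩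
  · right
    rintro _ ⟨s, rfl⟩
    exact (h ▸ Subgroup.mem_top s : s ∈ N)

end Cfsg.Agent.S2540
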