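import Mathlib
import Cfsg.Statements.S2541

set_option autoImplicit false
open Cfsg

namespace Cfsg.Agent.S2541

open Matrix

theorem pow60 (σ : Equiv.Perm (Fin 6)) : σ ^ 60 = 1 := by
  rw [← orderOf_dvd_iff_pow_eq_one, ← Equiv.Perm.lcm_cycleType]
  refine Multiset.lcm_dvd.2 fun a ha => ?_
  have h1 := Equiv.Perm.two_le_of_mem_cycleType ha
  have h2 := (Multiset.single_le_sum (fun _ _ => Nat.zero_le _) a ha).trans σ.sum_cycleType_le
  rw [Fintype.card_fin] at h2
  interval_cases a <;> decide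

theorem result {F : Type*} [Field F] [Fintype F] (hF : Fintype.card F = 9) : ¬ Nonempty (Equiv.Perm (Fin 6) ≃* Matrix.ProjGenLinGroup (Fin 2) F) := by
  classical
  rintro ⟨e⟩
  obtain ⟨g, hg⟩ := IsCyclic.exists_ofOrder_eq_natCard (α := Fˣ)
  rw [Nat.card_units, Nat.card_eq_fintype_card, hF] at hg
  let D : GL (Fin 2) F := GeneralLinearGroup.mkOfDetNeZero (diagonal ![(g : F), 1]) (by simp)
  obtain ⟨σ, hσ⟩ := e.surjective (ProjGenLinGroup.mk D)
  have h1 : ProjGenLinGroup.mk (D ^ 60) = 1 := by rw [map_pow, ← hσ, ← map_pow, pow60, map_one]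
  rw [ProjGenLinGroup.mk_eq_one, Subgroup.mem_center_iff] at h1
  let U : GL (Fin 2) F := GeneralLinearGroup.mkOfDetNeZero !![1, 1; 0, 1] (by simp)
  have h2 : (U * D ^ 60).val 0 1 = (D ^ 60 * U).val 0 1 := congrArg (fun A : GL (Fin 2) F => A.val 0 1) (h1 U)
  have h3 : (D ^ 60).val = (diagonal ![(g : F) ^ 60, 1] : Matrix (Fin 2) (Fin 2) F) := by
    rw [Units.val_pow_eq_pow_val]
    change (diagonal ![(g : F), 1] : Matrix (Fin 2) (Fin 2) F) ^ 60 = _
    rw [diagonal_pow]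
    congr 1
    ext i; fin_cases i <;> simp
  rw [Units.val_mul, Units.val_mul, h3] at h2
  change (!![1, 1; 0, 1] * _ : Matrix (Fin 2) (Fin 2) F) 0 1 = (_ * !![1, 1; 0, 1] : Matrix (Fin 2) (Fin 2) F) 0 1 at h2
  simp only [mul_diagonal, diagonal_mul] at h2
  have h4 : g ^ 60 = 1 := by
    apply Units.ext
    simpa using h2.symm
  have := orderOf_dvd_of_pow_eq_one h4
  rw [hg] at this
  norm_num at this

end Cfsg.Agent.S2541
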