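import Cfsg.Statements.S2543
import Cfsg.Agent.H4.Tor4

set_option autoImplicit false
open scoped Pointwise
open Cfsg

namespace Cfsg.Agent.S2543

/-- Let F be a field with 11 elements. PSL_2(F) has exactly 22 subgroups isomorphic to the alternating group A_5, and they form two conjugacy classes: there are two such subgroups that are not conjugate, and every such subgroup is conjugate to one of these two. -/
theorem result {F : Type*} [Field F] [Fintype F] (hF : Fintype.card F = 11) : Nat.card {H : Subgroup (Matrix.ProjectiveSpecialLinearGroup (Fin 2) F) // Nonempty (H ≃* alternatingGroup (Fin 5))} = 22 ∧ ∃ H K : Subgroup (Matrix.ProjectiveSpecialLinearGroup (Fin 2) F), Nonempty (H ≃* alternatingGroup (Fin 5)) ∧ Nonempty (K ≃* alternatingGroup (Fin 5)) ∧ (∀ g : Matrix.ProjectiveSpecialLinearGroup (Fin 2) F, MulAut.conj g • H ≠ K) ∧ ∀ L : Subgroup (Matrix.ProjectiveSpecialLinearGroup (Fin 2) F), Nonempty (L ≃* alternatingGroup (Fin 5)) → ∃ g : Matrix.ProjectiveSpecialLinearGroup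 (Fin 2) F, MulAut.conj g • L = H ∨ MulAut.conj g • L = K := by
  have h2 : (2 : F) ≠ 0 := H4.two_ne_zero_of_odd (by rw [hF]; decide)
  obtain ⟨M, h1, h⟩ := H4.exists_a5_le (F := F) (E := ⊤) (by
    rw [H4.card_subfield_top, Nat.card_eq_fintype_card, hF]; norm_num)
  have hM := H4.a5_le_pL h
  have hN := H4.normalizer_a5 (by rw [hF]; norm_num) (by omega) h
  have k : ∀ g, ((H4.cj M g).comap H4.psl2pgl).map H4.psl2pgl = H4.cj M g := fun g =>
    H4.map_comap_psl (H4.cj_le_pL_iff.2 hM)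
  have k' : ∀ g, Nonempty ((H4.cj M g).comap H4.psl2pgl ≃* alternatingGroup (Fin 5)) := fun g =>
    H4.equiv_of_map_psl (by rw [k]; exact H4.equiv_cj h g)
  constructor
  · have h1 := H4.card_eq_of_fibers (H4.cj M) _ fun g g' => H4.cj_eq_cj_iff
    have h3 : Set.range (H4.cj M) = Subgroup.map H4.psl2pgl '' {W | Nonempty (W ≃* alternatingGroup (Fin 5))} := by
      ext W
      constructor
      · rintro ⟨g, rfl⟩
        exact ⟨_, k' g, k g⟩
      · rintro ⟨W, hW, rfl⟩
        obtain ⟨g, hg⟩ := H4.a5_conj h (H4.equiv_map_psl hW)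
        exact ⟨g, hg.symm⟩
    rw [h3, Set.ncard_image_of_injective _ (Subgroup.map_injective H4.psl2pgl_injective), hN,
      H4.card_of_equiv h, H4.card_a5, H4.card_pgl, hF] at h1
    change ({W : Subgroup (Matrix.ProjectiveSpecialLinearGroup (Fin 2) F) | Nonempty (W ≃* alternatingGroup (Fin 5))}).ncard = _
    omega
  · obtain ⟨g₀, -, hg⟩ := SetLike.not_le_iff_exists.1 fun h => H4.pL_ne_top (F := F) (by rw [hF]) (top_le_iff.1 h)
    have k1 : ∀ (L : Subgroup (Matrix.ProjectiveSpecialLinearGroup (Fin 2) F)) g a,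
        MulAut.conj g • L = (H4.cj M a).comap H4.psl2pgl ↔ H4.cj (L.map H4.psl2pgl) (H4.psl2pgl g) = H4.cj M a :=
      fun L g a => by
        rw [← H4.map_cj, ← (Subgroup.map_injective H4.psl2pgl_injective).eq_iff, k]; rfl
    refine ⟨_, _, k' 1, k' g₀, fun g h3 => hg ?_, fun L hL => ?_⟩
    · rw [k1, k, H4.cj_one, H4.cj_eq_cj_iff, hN] at h3
      exact (mul_mem_cancel_left (inv_mem (show H4.psl2pgl g ∈ H4.pL F from ⟨g, rfl⟩))).1 (hM h3)
    · obtain ⟨a, ha⟩ := H4.a5_conj h (H4.equiv_map_psl hL)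
      by_cases h3 : a ∈ H4.pL F
      · obtain ⟨g, hg⟩ := inv_mem h3
        exact ⟨g, Or.inl ((k1 _ _ _).2 (by rw [ha, H4.cj_cj]; congr 1; exact mul_eq_one_iff_eq_inv.2 hg))⟩
      · obtain ⟨g, hg⟩ := H4.mul_mem_pL h2 hg (y := a⁻¹) (by rwa [inv_mem_iff])
        exact ⟨g, Or.inr ((k1 _ _ _).2 (by rw [ha, H4.cj_cj]; congr 1; exact eq_mul_inv_iff_mul_eq.1 hg))⟩

end Cfsg.Agent.S2543
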