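import Cfsg.Statements.S2548
import Cfsg.Agent.H22.StA
import Cfsg.Agent.S0305

set_option autoImplicit false
open Cfsg

namespace Cfsg.Agent.S2548

open H22 H23.Form Matrix MatrixGroups H17 in
theorem four_two {F : Type*} [Field F] [Fintype F] [CharP F 2] (hF : Fintype.card F = 2) :
    DZ 2 (commutator (ofQuad (qPlus 2 F)).O ⧸ Subgroup.center (commutator (ofQuad (qPlus 2 F)).O)) := by
  have hc : Nat.card (ofQuad (qPlus 2 F)).O = 72 := by
    rw [card_O_qPlus 2 (by omega), hF]; simp
  have : Finite (ofQuad (qPlus 2 F)).O := Nat.finite_of_card_ne_zero (by omega)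
  obtain ⟨φ, h1, h2⟩ := exists_hom_plus_four (F := F)
  have hφ : Function.Injective φ := (injective_iff_map_eq_one _).2 fun g hg => by
    have : (g.1.1, g.2.1) = 1 := (h2 g hg).elim id fun h => h.trans (by
      ext i j <;> simp [CharTwo.neg_eq])
    exact Prod.ext (Subtype.ext (congrArg Prod.fst this)) (Subtype.ext (congrArg Prod.snd this))
  obtain ⟨s⟩ := sl_two_two hF
  let L := LinearEquiv.ofBijective (plusL F) ⟨plusL_injective, plusL_surjective⟩
  let t : (ofQuad (qPlus 2 F)).O := ⟨L ≪≫ₗ transposeLinearEquiv _ _ _ _ ≪≫ₗ L.symm,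
    mem_O_ofQuad.mpr fun v => by
      rw [det_plusL, det_plusL, ← det_transpose (plusL _ v)]
      exact congrArg _ (L.apply_symm_apply _)⟩
  have ht : ∀ v, plusL _ (t.1 v) = (plusL _ v)ᵀ := fun v => L.apply_symm_apply _
  have h3 : ∀ a b, t * φ (a, b) = φ (b, a) * t := fun a b => O_ext _ fun v => plusL_injective (by
    simp [ht, h1, mul_assoc])
  have hS : Nat.card SL(2, F) = 6 := by rw [card_SL_two, hF]; rfl
  have hr : φ.range.index = 2 := by
    have h6 := φ.range.index_mul_card
    rw [← Nat.card_congr (MonoidHom.ofInjective hφ).toEquiv, Nat.card_prod, hS, hc] at h6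
    omega
  have htr : t ∉ φ.range := by
    rintro ⟨⟨a, b⟩, h⟩
    have : ∀ x : SL(2, F), x = 1 := fun x => by
      have := h3 x 1
      rw [← h, ← map_mul, ← map_mul] at this
      simpa using congrArg Prod.fst (hφ this)
    have : Subsingleton SL(2, F) := ⟨fun x y => by rw [this x, this y]⟩
    rw [Nat.card_of_subsingleton (1 : SL(2, F))] at hS
    omega
  have hall : ∀ g, (∃ x, g = φ x) ∨ ∃ x, g = φ x * t := fun g => by
    by_cases hg : g ∈ φ.range
    · obtain ⟨x, rfl⟩ := hg; exact .inl ⟨x, rfl⟩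
    · obtain ⟨x, hx⟩ := (Subgroup.mul_mem_iff_of_index_two hr (a := g) (b := t⁻¹)).2 (by simp [hg, htr])
      exact .inr ⟨x, by rw [hx]; simp⟩
  let σ : SL(2, F) →* ℤˣ := Equiv.Perm.sign.comp s.toMonoidHom
  let ε : SL(2, F) × SL(2, F) →* ℤˣ := σ.comp (MonoidHom.fst _ _) * σ.comp (MonoidHom.snd _ _)
  have hε : ∀ a b, ε (a, b) = σ a * σ b := fun _ _ => rfl
  have hεs : Function.Surjective ε := fun u => by
    obtain ⟨x, hx⟩ := Equiv.Perm.sign_surjective (Fin 3) u
    exact ⟨(s.symm x, 1), by simp [hε, σ, hx]⟩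
  have hK : Nat.card (ε.ker.map φ) = 18 := by
    have := ε.ker.index_mul_card
    rw [Subgroup.index_ker, MonoidHom.range_eq_top.2 hεs, Subgroup.card_top, Nat.card_prod, hS] at this
    rw [Subgroup.card_map_of_injective hφ]
    simp at this
    simp
    omega
  have hn : (ε.ker.map φ).Normal := ⟨by
    rintro _ ⟨⟨a, b⟩, hx, rfl⟩ g
    have k1 : ∀ x y, y ∈ ε.ker → φ x * φ y * (φ x)⁻¹ ∈ ε.ker.map φ := fun x y hy =>
      ⟨x * y * x⁻¹, ε.normal_ker.conj_mem _ hy _, by simp⟩
    obtain ⟨x, rfl⟩ | ⟨x, rfl⟩ := hall g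
    · exact k1 _ _ hx
    · have := k1 x (b, a) (by simpa [MonoidHom.mem_ker, hε, mul_comm] using hx)
      convert this using 1
      rw [mul_assoc (φ x), h3]; group⟩
  have hi : (ε.ker.map φ).index = 2 ^ 2 := by
    have := (ε.ker.map φ).index_mul_card
    rw [hK, hc] at this
    omega
  have hle : commutator _ ≤ ε.ker.map φ := by
    have := IsPGroup.isMulCommutative_of_card_eq_prime_sq (p := 2) (G := _ ⧸ ε.ker.map φ) hi
    exact Subgroup.Normal.quotient_commutative_iff_commutator_le.1 this
  let π : commutator (ofQuad (qPlus 2 F)).O →* SL(2, F) := (MonoidHom.fst _ _).comp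
    ((MonoidHom.ofInjective hφ).symm.toMonoidHom.comp
      (Subgroup.inclusion (hle.trans (Subgroup.map_le_range _ _))))
  have hπ : Function.Surjective π := fun a => by
    have e : φ (a, 1) * t * (φ (a, 1))⁻¹ * t⁻¹ = φ (a, a⁻¹) := by
      have := h3 a⁻¹ 1
      rw [← map_inv, mul_assoc (φ _), Prod.inv_mk, inv_one, this, ← mul_assoc, ← map_mul]
      simp
    refine ⟨⟨φ (a, a⁻¹), by
      rw [← e]; exact Subgroup.commutator_mem_commutator (Subgroup.mem_top _) (Subgroup.mem_top _)⟩, ?_⟩
    exact congrArg Prod.fst ((MonoidHom.ofInjective hφ).symm_apply_apply (a, a⁻¹))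
  obtain ⟨χ, k1, k2⟩ := dz_PSL (p := 2) (F := F) 2 le_rfl
  have hZ : Subgroup.center SL(2, F) = ⊥ := center_SL_eq_bot (by omega) (by rw [hF]; rfl)
  have k3 : Nat.card PSL(2, F) = 6 := by
    have := (Subgroup.center SL(2, F)).index_mul_card
    rw [hS] at this
    nth_rewrite 2 [hZ] at this
    rw [Subgroup.card_bot, mul_one] at this
    exact this
  have k4 : (6 : ℕ).factorization 2 = 1 := by
    rw [Nat.factorization_def _ Nat.prime_two]; decide +kernel
  rw [k3, k4] at k2
  refine dz_quot (k1.comp_of_surjective ((QuotientGroup.mk' _).comp π)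
    ((QuotientGroup.mk'_surjective _).comp hπ)) (k := 1) (by simpa using k2) ?_ _ fun z hz => ?_
  · have := (Nat.factorization_le_iff_dvd Nat.card_pos.ne' Nat.card_pos.ne').2
      (Subgroup.card_dvd_of_le hle) 2
    rw [hK] at this
    refine this.trans ?_
    rw [Nat.factorization_def _ Nat.prime_two]; decide +kernel
  · have : π z ∈ Subgroup.center SL(2, F) := Subgroup.mem_center_iff.2 fun g => by
      obtain ⟨g, rfl⟩ := hπ g
      rw [← map_mul, ← map_mul, Subgroup.mem_center_iff.1 hz]
    rw [hZ, Subgroup.mem_bot] at this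
    simp [this]

/-- Let F be a finite field of characteristic p and consider the group PΩ⁺_{2m}(F) of the hyperbolic quadratic form Σ x_i y_i with m ≥ 1, where Ω denotes the commutator subgroup of the full isometry group. This group has an irreducible complex character χ whose degree equals the order of a Sylow p-subgroup (equal to q^(m(m−1)) when #F = q, except in the degenerate case m = 2, q = 2, where this commutator subgroup has order 18 and its Sylow 2-subgroups have order 2) and whose restriction to any Sylow p-subgroup P is the regular character of P: χ vanishes on the non-identity elements of P. (This is the Steinberg character.) -/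
theorem result {F : Type*} [Field F] [Fintype F] (p : ℕ) [Fact p.Prime] [CharP F p] (m : ℕ) (hm : 1 ≤ m) : ∃ χ : Cfsg.POmega F (Cfsg.quadFormPlus m F) → ℂ, Cfsg.IsIrrCharacter (Cfsg.POmega F (Cfsg.quadFormPlus m F)) χ ∧ ∀ P : Sylow p (Cfsg.POmega F (Cfsg.quadFormPlus m F)), χ 1 = Nat.card P ∧ ∀ x : Cfsg.POmega F (Cfsg.quadFormPlus m F), x ∈ P → x ≠ 1 → χ x = 0 := by
  refine H22.DZ.out ?_
  obtain _ | _ | _ | m := m
  · omega
  · obtain ⟨e⟩ := Cfsg.Agent.S0305.result (F := F) rfl
    exact H22.dz_quot_comm (H22.comm_of_dihedral e)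
  · by_cases h : 3 ≤ Fintype.card F
    · obtain ⟨e⟩ := H22.pomega_plus_four h
      exact ((H22.dz_PSL 2 le_rfl).prod (H22.dz_PSL 2 le_rfl)).congr e
    · have h2 : Fintype.card F = 2 := by have := Fintype.one_lt_card (α := F); omega
      obtain rfl : p = 2 := by
        obtain ⟨n, hp, hn⟩ := FiniteField.card F p
        exact (Nat.prime_dvd_prime_iff_eq hp Nat.prime_two).1 (h2 ▸ hn ▸ dvd_pow_self p n.ne_zero)
      exact (four_two h2).congr (H22.pOmegaEquiv (H22.qPlus 2 F))
  · obtain ⟨S, hS, -⟩ := H7.exists_stPlus (m := m + 1) (F := F) (by omega)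
    exact H22.dz_st S hS

end Cfsg.Agent.S2548
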