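import Cfsg.Statements.S2551
import Cfsg.Agent.S0256
import Cfsg.Agent.H23.Lin

set_option autoImplicit false
open Cfsg

namespace Cfsg.Agent.S2551

open MulAction in
theorem two_trans {F : Type*} [Field F] [Fintype F] (hF : Fintype.card F = 2) (H : Subgroup (GL (Fin 4) F))
    (hH : Nat.card H = 2520) {x y : (Fin 4 → F) × (Fin 4 → F)} (hx : x.1 ≠ 0 ∧ x.2 ≠ 0 ∧ x.1 ≠ x.2)
    (hy : y.1 ≠ 0 ∧ y.2 ≠ 0 ∧ y.1 ≠ y.2) : ∃ g ∈ H, g • x = y := by
  classical
  let P : Set ((Fin 4 → F) × (Fin 4 → F)) := {x | x.1 ≠ 0 ∧ x.2 ≠ 0 ∧ x.1 ≠ x.2}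
  have hP : P.ncard = 210 := by
    have : P = ((Finset.univ.erase (0 : Fin 4 → F)).offDiag : Finset _) := by ext x; simp [P]
    rw [this, Set.ncard_coe_finset, Finset.offDiag_card, Finset.card_erase_of_mem (Finset.mem_univ _)]
    simp [hF]
  have h01 : ∀ a : F, a = 0 ∨ a = 1 := fun a => by
    by_contra h
    rw [not_or] at h
    have := Finset.card_le_univ ({0, 1, a} : Finset F)
    rw [Finset.card_eq_three.2 ⟨0, 1, a, zero_ne_one, Ne.symm h.1, Ne.symm h.2, rfl⟩] at this
    omega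
  have hli : ∀ x ∈ P, LinearIndependent F ![x.1, x.2] := fun x hx => by
    rw [LinearIndependent.pair_iff' hx.1]
    intro a ha
    rcases h01 a with rfl | rfl
    · exact hx.2.1 (by simpa using ha.symm)
    · exact hx.2.2 (by simpa using ha)
  have hsub : ∀ x ∈ P, ∀ g : GL (Fin 4) F, g • x ∈ P := fun x hx g =>
    ⟨(smul_ne_zero_iff_ne g).2 hx.1, (smul_ne_zero_iff_ne g).2 hx.2.1, fun h => hx.2.2 (MulAction.injective g h)⟩
  have horb : ∀ x ∈ P, orbit (GL (Fin 4) F) x = P := fun x hx => by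
    refine Set.Subset.antisymm (by rintro _ ⟨g, rfl⟩; exact hsub x hx g) fun y hy => ?_
    obtain ⟨g, hg⟩ := H23.exists_equiv_map_family (hli x hx) (hli y hy)
    refine ⟨⟨LinearMap.toMatrix' g, LinearMap.toMatrix' g.symm, by rw [← LinearMap.toMatrix'_comp]; simp,
      by rw [← LinearMap.toMatrix'_comp]; simp⟩, Prod.ext ?_ ?_⟩
    · simpa [Units.smul_def] using hg 0
    · simpa [Units.smul_def] using hg 1
  have hG : Nat.card (GL (Fin 4) F) = 20160 := by
    rw [Matrix.card_GL_field, hF]; decide +kernel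
  have : Fact (Nat.Prime 2) := ⟨Nat.prime_two⟩
  obtain ⟨t, ht⟩ := exists_prime_orderOf_dvd_card' (G := H) 2 (by rw [hH]; norm_num)
  obtain ⟨a, ha⟩ : ∃ a : Fin 4 → F, t • a ≠ a := by
    by_contra h
    push Not at h
    have : t = 1 := Subtype.ext (Units.ext (Matrix.toLin'.injective (LinearMap.ext fun a => by
      rw [Matrix.toLin'_apply, Matrix.toLin'_apply]; exact (h a).trans (Matrix.one_mulVec a).symm)))
    rw [this, orderOf_one] at ht
    omega
  have ha0 : a ≠ 0 := by rintro rfl; exact ha (smul_zero _)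
  have hz : (a, t • a) ∈ P := ⟨ha0, (smul_ne_zero_iff_ne t).2 ha0, ha.symm⟩
  have hO : orbit H (a, t • a) ⊆ P := by rintro _ ⟨g, rfl⟩; exact hsub _ hz g
  have h1 := (stabilizer (GL (Fin 4) F) (a, t • a)).index_mul_card
  rw [index_stabilizer, horb _ hz, hP, hG] at h1
  have h2 := (stabilizer H (a, t • a)).index_mul_card
  rw [index_stabilizer, hH] at h2
  have h3 : Nat.card (stabilizer H (a, t • a)) ∣ Nat.card (stabilizer (GL (Fin 4) F) (a, t • a)) :=
    Subgroup.card_dvd_of_injective ((H.subtype.comp (Subgroup.subtype _)).codRestrict _ fun g => g.2)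
      fun g g' h => Subtype.ext (Subtype.ext (congrArg Subtype.val h : (_ : GL (Fin 4) F) = _))
  have h4 := Set.ncard_le_ncard hO
  have h5 : Even (orbit H (a, t • a)).ncard := by
    rw [Set.ncard_eq_toFinset_card', ← ZMod.natCast_eq_zero_iff_even, Finset.card_eq_sum_ones, Nat.cast_sum]
    refine Finset.sum_involution (fun x _ => x.swap) (fun _ _ => CharTwo.add_self_eq_zero _) (fun x hx _ h => ?_) (fun x hx => ?_)
      fun _ _ => rfl
    · exact (hO (Set.mem_toFinset.1 hx)).2.2 (congrArg Prod.snd h)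
    · obtain ⟨g, rfl⟩ := Set.mem_toFinset.1 hx
      refine Set.mem_toFinset.2 ⟨g * t, Prod.ext (mul_smul _ _ _) ?_⟩
      show (g * t) • t • a = g • a
      rw [← mul_smul, mul_assoc, ← sq, ← ht, pow_orderOf_eq_one, mul_one]
  have h6 : orbit H (a, t • a) = P := by
    refine Set.eq_of_subset_of_ncard_le hO ?_
    rw [hP] at h4 ⊢
    rw [show Nat.card (stabilizer (GL (Fin 4) F) (a, t • a)) = 96 by omega] at h3
    have h7 := Nat.le_of_dvd (by norm_num) h3
    generalize Nat.card (stabilizer H (a, t • a)) = d at h2 h3 h7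
    obtain ⟨k, hk⟩ := h5
    interval_cases d <;> omega
  obtain ⟨g, hg⟩ : x ∈ orbit H (a, t • a) := h6 ▸ hx
  obtain ⟨g', hg'⟩ : y ∈ orbit H (a, t • a) := h6 ▸ hy
  refine ⟨(g' * g⁻¹ : H), (g' * g⁻¹).2, ?_⟩
  show (g' * g⁻¹) • x = y
  rw [← hg, ← hg', mul_smul, inv_smul_smul]

/-- Let F be the field with 2 elements. GL_4(F) (≅ A_8) has a subgroup isomorphic to the alternating group A_7, and every such subgroup acts 2-transitively on the 15 non-zero vectors of F⁴: any ordered pair of distinct non-zero vectors is carried to any other by some element of the subgroup. -/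
theorem result {F : Type*} [Field F] [Fintype F] (hF : Fintype.card F = 2) : (∃ H : Subgroup (Matrix.GeneralLinearGroup (Fin 4) F), Nonempty (H ≃* alternatingGroup (Fin 7))) ∧ ∀ H : Subgroup (Matrix.GeneralLinearGroup (Fin 4) F), Nonempty (H ≃* alternatingGroup (Fin 7)) → ∀ v w v' w' : Fin 4 → F, v ≠ 0 → w ≠ 0 → v ≠ w → v' ≠ 0 → w' ≠ 0 → v' ≠ w' → ∃ g ∈ H, (g : Matrix (Fin 4) (Fin 4) F).mulVec v = v' ∧ (g : Matrix (Fin 4) (Fin 4) F).mulVec w = w' := by
  constructor
  · obtain ⟨e⟩ := Cfsg.Agent.S0256.result hF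
    have hc : Subgroup.center (Matrix.SpecialLinearGroup (Fin 4) F) = ⊥ :=
      Subgroup.card_eq_one.1 (by rw [H22.card_center_SL 4 (by omega), hF]; rfl)
    let e' := e.symm.trans ((QuotientGroup.quotientMulEquivOfEq hc).trans QuotientGroup.quotientBot)
    let f := (Fin.castSuccEmb (n := 7)).toEquivRange
    let ι : alternatingGroup (Fin 7) →* alternatingGroup (Fin 8) :=
      ((Equiv.Perm.extendDomainHom f).comp (Subgroup.subtype _)).codRestrict _ fun g =>
        (Equiv.Perm.sign_extendDomain g.1 f).trans g.2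
    have hι : Function.Injective ι := fun a b h =>
      Subtype.ext (Equiv.Perm.extendDomainHom_injective f (congrArg Subtype.val h))
    exact ⟨_, ⟨(MonoidHom.ofInjective (f := Matrix.SpecialLinearGroup.toGL.comp (e'.toMonoidHom.comp ι))
      (Matrix.SpecialLinearGroup.toGL_injective.comp (e'.injective.comp hι))).symm⟩⟩
  · rintro H ⟨e⟩ v w v' w' h1 h2 h3 h4 h5 h6
    have hH : Nat.card H = 2520 := by
      have := two_mul_card_alternatingGroup (α := Fin 7)
      rw [Fintype.card_perm, Fintype.card_fin, ← Nat.card_eq_fintype_card, ← Nat.card_congr e.toEquiv] at this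
      simp only [Nat.factorial] at this
      omega
    obtain ⟨g, hg, h⟩ := two_trans hF H hH (x := (v, w)) (y := (v', w')) ⟨h1, h2, h3⟩ ⟨h4, h5, h6⟩
    exact ⟨g, hg, congrArg Prod.fst h, congrArg Prod.snd h⟩

end Cfsg.Agent.S2551
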