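import Cfsg.Statements.S2552
import Cfsg.Agent.H16.LA5
import Cfsg.Agent.H23.Lin
-- import your own Cfsg.Agent.* helpers here

set_option autoImplicit false
open Cfsg

namespace Cfsg.Agent.S2552

open H16 Polynomial in
/-- Let F be a finite field and n ≥ 1. For every k, the special linear group SL_n(F) acts transitively on the set of k-dimensional subspaces of F^n: any two subspaces of the same dimension are carried onto each other by some matrix of determinant 1. -/
theorem result {F : Type*} [Field F] [Fintype F] (n : ℕ) (hn : 1 ≤ n) (U₁ U₂ : Submodule F (Fin n → F)) (h : Module.finrank F U₁ = Module.finrank F U₂) : ∃ g : Matrix.SpecialLinearGroup (Fin n) F, U₁.map ((Matrix.SpecialLinearGroup.toLin' g : (Fin n → F) ≃ₗ[F] (Fin n → F)) : (Fin n → F) →ₗ[F] (Fin n → F)) = U₂ := by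
  by_cases h1 : U₁ = ⊤
  · have h2 : U₂ = ⊤ := Submodule.eq_top_of_finrank_eq (by rw [← h, h1, finrank_top])
    exact ⟨1, by simp [h1, h2]⟩
  obtain ⟨g, hg, h2⟩ := H23.exists_SLv_map (LinearEquiv.ofFinrankEq _ _ h) h1
  refine ⟨⟨((H23.glE _ F).symm g).1, by rw [H23.det_glE_symm]; exact H23.mem_SLv.1 hg⟩, ?_⟩
  refine Submodule.eq_of_le_of_finrank_eq ?_ (by rw [LinearEquiv.finrank_map_eq, h])
  rintro _ ⟨x, hx, rfl⟩
  have := (h2 ⟨x, hx⟩).symm ▸ (LinearEquiv.ofFinrankEq _ _ h ⟨x, hx⟩).2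
  show Matrix.mulVec ((H23.glE _ F).symm g).1 x ∈ U₂
  rw [H23.glE_symm_mulVec]; exact this

end Cfsg.Agent.S2552
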