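import Cfsg.Statements.S2561
import Cfsg.Agent.H22.IsoH

set_option autoImplicit false
open Cfsg

namespace Cfsg.Agent.S2561

/-- Fix the non-singular alternating form on the 2m-dimensional space over the field of two elements obtained by polarizing the plus-type form Σ xᵢyᵢ (m ≥ 1). The functions q on the space with q(u + v) = q(u) + q(v) + f(u, v) (the quadratic forms polarizing to f) number 2^(2m); each is equivalent under an invertible linear map either to the plus-type form or to the minus-type form Σ xᵢyᵢ + (z₁² + z₁z₂ + z₂²); and those of plus type number 2^(2m−1) + 2^(m−1), those of minus type 2^(2m−1) − 2^(m−1). -/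
theorem result (m : ℕ) (hm : 1 ≤ m) :
    Nat.card {q : (Fin m ⊕ Fin m → ZMod 2) → ZMod 2 // (∀ u v : (Fin m ⊕ Fin m → ZMod 2), q (u + v) = q u + q v + (Cfsg.quadFormPlus m (ZMod 2) (u + v) - Cfsg.quadFormPlus m (ZMod 2) u - Cfsg.quadFormPlus m (ZMod 2) v))} = 2 ^ (2 * m) ∧
    (∀ q : (Fin m ⊕ Fin m → ZMod 2) → ZMod 2, (∀ u v : (Fin m ⊕ Fin m → ZMod 2), q (u + v) = q u + q v + (Cfsg.quadFormPlus m (ZMod 2) (u + v) - Cfsg.quadFormPlus m (ZMod 2) u - Cfsg.quadFormPlus m (ZMod 2) v)) →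
      (∃ g : (Fin m ⊕ Fin m → ZMod 2) ≃ₗ[ZMod 2] (Fin m ⊕ Fin m → ZMod 2), ∀ v, q v = Cfsg.quadFormPlus m (ZMod 2) (g v)) ∨
      (∃ g : (Fin m ⊕ Fin m → ZMod 2) ≃ₗ[ZMod 2] ((Fin (m - 1) ⊕ Fin (m - 1)) ⊕ Fin 2 → ZMod 2), ∀ v, q v = Cfsg.quadFormMinus (m - 1) (ZMod 2) 1 1 (g v))) ∧
    Nat.card {q : (Fin m ⊕ Fin m → ZMod 2) → ZMod 2 // (∀ u v : (Fin m ⊕ Fin m → ZMod 2), q (u + v) = q u + q v + (Cfsg.quadFormPlus m (ZMod 2) (u + v) - Cfsg.quadFormPlus m (ZMod 2) u - Cfsg.quadFormPlus m (ZMod 2) v)) ∧ ∃ g : (Fin m ⊕ Fin m → ZMod 2) ≃ₗ[ZMod 2] (Fin m ⊕ Fin m → ZMod 2), ∀ v, q v = Cfsg.quadFormPlus m (ZMod 2) (g v)} = 2 ^ (2 * m - 1) + 2 ^ (m - 1) ∧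
    Nat.card {q : (Fin m ⊕ Fin m → ZMod 2) → ZMod 2 // (∀ u v : (Fin m ⊕ Fin m → ZMod 2), q (u + v) = q u + q v + (Cfsg.quadFormPlus m (ZMod 2) (u + v) - Cfsg.quadFormPlus m (ZMod 2) u - Cfsg.quadFormPlus m (ZMod 2) v)) ∧ ∃ g : (Fin m ⊕ Fin m → ZMod 2) ≃ₗ[ZMod 2] ((Fin (m - 1) ⊕ Fin (m - 1)) ⊕ Fin 2 → ZMod 2), ∀ v, q v = Cfsg.quadFormMinus (m - 1) (ZMod 2) 1 1 (g v)} = 2 ^ (2 * m - 1) - 2 ^ (m - 1) := by
  obtain ⟨m, rfl⟩ := Nat.exists_eq_add_of_le' hm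
  have h1 : Nat.card {q : (Fin (m + 1) ⊕ Fin (m + 1) → ZMod 2) → ZMod 2 // H22.Pol2 q} =
      2 ^ (2 * (m + 1)) := by
    have := H22.card_pol2 (m := m + 1) fun _ => True
    simpa [two_mul] using this
  have h2 := fun (q : (Fin (m + 1) ⊕ Fin (m + 1) → ZMod 2) → ZMod 2) (hq : H22.Pol2 q) =>
    (H22.exists_equiv_plus_or_minus hq.nondeg (H22.finrank_plus _) H22.aniso_two).imp
      (fun ⟨e, he⟩ => (⟨e.symm, fun v => by rw [← H22.coe_qPlus, ← he, e.apply_symm_apply]; rfl⟩ :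
        ∃ g : _ ≃ₗ[ZMod 2] _, ∀ v, q v = quadFormPlus (m + 1) (ZMod 2) (g v)))
      (fun ⟨e, he⟩ => (⟨e.symm, fun v => by rw [← H22.coe_qMinus, ← he, e.apply_symm_apply]; rfl⟩ :
        ∃ g : _ ≃ₗ[ZMod 2] _, ∀ v, q v = quadFormMinus m (ZMod 2) 1 1 (g v)))
  have hp : 1 ≤ 2 ^ m := Nat.one_le_two_pow
  have e1 : 2 ^ (m + 1) + (2 ^ (m + 1) - 1) * 2 ^ m = 2 ^ (2 * m + 1) + 2 ^ m := by
    zify [show 1 ≤ 2 ^ (m + 1) from Nat.one_le_two_pow]; ring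
  have h3 : Nat.card {q : (Fin (m + 1) ⊕ Fin (m + 1) → ZMod 2) → ZMod 2 // H22.Pol2 q ∧
      ∃ g : _ ≃ₗ[ZMod 2] _, ∀ v, q v = quadFormPlus (m + 1) (ZMod 2) (g v)} =
      2 ^ (2 * m + 1) + 2 ^ m := by
    refine (H22.card_pol2 _).trans ((Nat.card_congr (Equiv.subtypeEquivRight
      (H22.pol2_qPlus.equiv_iff (by omega)))).trans ?_)
    rw [← H22.nsing_ofQuad, H22.nsing_qPlus, ZMod.card, ← e1]
    rfl
  refine ⟨h1, h2, h3, ?_⟩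
  have h4 : ∀ q : (Fin (m + 1) ⊕ Fin (m + 1) → ZMod 2) → ZMod 2, (H22.Pol2 q ∧
      ∃ g : _ ≃ₗ[ZMod 2] _, ∀ v, q v = quadFormMinus m (ZMod 2) 1 1 (g v)) ↔ H22.Pol2 q ∧
      ¬ ∃ g : _ ≃ₗ[ZMod 2] _, ∀ v, q v = quadFormPlus (m + 1) (ZMod 2) (g v) := fun q =>
    and_congr_right fun hq => ⟨fun ⟨g, hg⟩ ⟨k, hk⟩ => by
      have a := H22.nsing_congr (Q := H22.qMinus m _ 1 1) (Q' := hq.form) g fun v => (hg v).symm
      have b := H22.nsing_congr (Q := H22.qPlus _ _) (Q' := hq.form) k fun v => (hk v).symm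
      rw [← b, H22.nsing_qPlus, H22.nsing_qMinus m H22.aniso_two, ZMod.card, Nat.add_sub_cancel,
        e1] at a
      rcases m with _ | m
      · simp at a
      · rw [Nat.add_sub_cancel] at a
        zify [hp] at a
        have : (0 : ℤ) < 2 ^ m := by positivity
        simp only [mul_add, pow_add, two_mul m] at a
        norm_num at a
        nlinarith, (h2 q hq).resolve_left⟩
  classical
  have h5 := Nat.card_congr (Equiv.sumCompl fun q : {q // H22.Pol2 (m := m + 1) q} =>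
    ∃ g : _ ≃ₗ[ZMod 2] _, ∀ v, q.1 v = quadFormPlus (m + 1) (ZMod 2) (g v))
  rw [Nat.card_sum, h1, Nat.card_congr (Equiv.subtypeSubtypeEquivSubtypeInter H22.Pol2 fun q : (Fin (m + 1) ⊕ Fin (m + 1) → ZMod 2) → ZMod 2 =>
      ∃ g : _ ≃ₗ[ZMod 2] _, ∀ v, q v = quadFormPlus (m + 1) (ZMod 2) (g v)), h3,
    Nat.card_congr (Equiv.subtypeSubtypeEquivSubtypeInter H22.Pol2 fun q : (Fin (m + 1) ⊕ Fin (m + 1) → ZMod 2) → ZMod 2 =>
      ¬ ∃ g : _ ≃ₗ[ZMod 2] _, ∀ v, q v = quadFormPlus (m + 1) (ZMod 2) (g v))] at h5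
  refine (Nat.card_congr (Equiv.subtypeEquivRight h4)).trans ?_
  rw [show 2 * (m + 1) - 1 = 2 * m + 1 from rfl, Nat.add_sub_cancel]
  rw [show 2 * (m + 1) = 2 * m + 1 + 1 from rfl, pow_succ _ (2 * m + 1)] at h5
  omega

end Cfsg.Agent.S2561
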