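import Cfsg.Statements.S2562
import Cfsg.Agent.H22.IsoG

set_option autoImplicit false
open Cfsg

namespace Cfsg.Agent.S2562

/-- Witt indices over the field of two elements, m ≥ 1: for the plus-type form Σ xᵢyᵢ in dimension 2m some m-dimensional subspace is totally singular and no totally singular subspace has larger dimension; for the minus-type form Σ xᵢyᵢ + (z₁² + z₁z₂ + z₂²) in dimension 2m the maximal dimension of a totally singular subspace is m − 1. -/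
theorem result (m : ℕ) (hm : 1 ≤ m) :
    (∃ U : Submodule (ZMod 2) (Fin m ⊕ Fin m → ZMod 2), (∀ u ∈ U, Cfsg.quadFormPlus m (ZMod 2) u = 0) ∧ Module.finrank (ZMod 2) ↥U = m) ∧
    (∀ U : Submodule (ZMod 2) (Fin m ⊕ Fin m → ZMod 2), (∀ u ∈ U, Cfsg.quadFormPlus m (ZMod 2) u = 0) → Module.finrank (ZMod 2) ↥U ≤ m) ∧
    (∃ U : Submodule (ZMod 2) ((Fin (m - 1) ⊕ Fin (m - 1)) ⊕ Fin 2 → ZMod 2), (∀ u ∈ U, Cfsg.quadFormMinus (m - 1) (ZMod 2) 1 1 u = 0) ∧ Module.finrank (ZMod 2) ↥U = m - 1) ∧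
    (∀ U : Submodule (ZMod 2) ((Fin (m - 1) ⊕ Fin (m - 1)) ⊕ Fin 2 → ZMod 2), (∀ u ∈ U, Cfsg.quadFormMinus (m - 1) (ZMod 2) 1 1 u = 0) → Module.finrank (ZMod 2) ↥U ≤ m - 1) := by
  refine ⟨⟨H22.kerR _ m, (H22.totSing_kerR m).2, H22.finrank_kerR m⟩, fun U hU => ?_,
    ?_, H22.finrank_le_of_sing_qMinus _ H22.aniso_two⟩
  · have h1 := Submodule.finrank_mono
      ((H23.Form.totSing_ofQuad (Q := H22.qPlus m (ZMod 2)) (W := U)).mpr hU).le_perp
    have h2 := (H22.qPlus_nondeg m).finrank_perp_add U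
    rw [H22.finrank_plus] at h2
    omega
  · let i : (Fin (m - 1) → ZMod 2) →ₗ[ZMod 2] ((Fin (m - 1) ⊕ Fin (m - 1)) ⊕ Fin 2 → ZMod 2) :=
      LinearMap.pi (Sum.elim (Sum.elim (fun j => LinearMap.proj j) fun _ => 0) fun _ => 0)
    have hi : Function.Injective i := fun x y h => funext fun j => congrFun h (.inl (.inl j))
    exact ⟨LinearMap.range i, by rintro _ ⟨x, rfl⟩; simp [quadFormMinus, i],
      by rw [LinearMap.finrank_range_of_inj hi]; simp⟩

end Cfsg.Agent.S2562
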