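import Cfsg.Statements.S2566
import Cfsg.Agent.H22.IsoH

set_option autoImplicit false
open Cfsg

namespace Cfsg.Agent.S2566

theorem sup_range {A B G : Type*} [Group A] [Group B] [Group G] (ψ : A × B →* G) :
    (ψ.comp (MonoidHom.inl _ _)).range ⊔ (ψ.comp (MonoidHom.inr _ _)).range = ψ.range := by
  rw [MonoidHom.range_comp, MonoidHom.range_comp, ← Subgroup.map_sup, ψ.range_eq_map]
  congr 1
  rw [eq_top_iff]
  rintro ⟨a, b⟩ -
  simpa using Subgroup.mul_mem_sup (S := (MonoidHom.inl A B).range)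
    (T := (MonoidHom.inr A B).range) ⟨a, rfl⟩ ⟨b, rfl⟩

/-- The full orthogonal group of the plus-type form x₁y₁ + x₂y₂ in dimension 4 over the field of two elements has order 72 and is isomorphic to the wreath product of the symmetric group of degree 3 by a group of order 2: it has a normal subgroup isomorphic to the direct product of two symmetric groups of degree 3, of index 2, whose two direct factors are interchanged by conjugation by some element. -/
theorem result :
    Nat.card ↥(Cfsg.isometryGroup (ZMod 2) (Cfsg.quadFormPlus 2 (ZMod 2))) = 72 ∧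
    ∃ (A B : Subgroup ↥(Cfsg.isometryGroup (ZMod 2) (Cfsg.quadFormPlus 2 (ZMod 2)))),
      Nonempty (↥A ≃* Equiv.Perm (Fin 3)) ∧ Nonempty (↥B ≃* Equiv.Perm (Fin 3)) ∧ A ⊓ B = ⊥ ∧ (∀ a ∈ A, ∀ b ∈ B, a * b = b * a) ∧
      (A ⊔ B).index = 2 ∧ ∃ g : ↥(Cfsg.isometryGroup (ZMod 2) (Cfsg.quadFormPlus 2 (ZMod 2))), A.map (MulAut.conj g).toMonoidHom = B := by
  open H22 H23.Form Matrix MatrixGroups in
  let e := (isomEquiv (qPlus 2 (ZMod 2))).symm
  have hc : Nat.card (isometryGroup (ZMod 2) (qPlus 2 (ZMod 2))) = 72 := by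
    rw [← Nat.card_congr e.toEquiv, card_O_qPlus 2 (by omega)]; simp
  obtain ⟨φ, h1, h2⟩ := exists_hom_plus_four (F := ZMod 2)
  let ψ := e.toMonoidHom.comp φ
  have hψ : Function.Injective ψ := e.injective.comp ((injective_iff_map_eq_one _).2 fun g hg => by
    have : (g.1.1, g.2.1) = 1 := (h2 g hg).elim id fun h => h.trans (by decide)
    exact Prod.ext (Subtype.ext (congrArg Prod.fst this)) (Subtype.ext (congrArg Prod.snd this)))
  obtain ⟨s⟩ := sl_two_two (ZMod.card 2)
  have hl : Function.Injective (ψ.comp (MonoidHom.inl _ _)) := hψ.comp fun _ _ h => congrArg Prod.fst h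
  have hr : Function.Injective (ψ.comp (MonoidHom.inr _ _)) := hψ.comp fun _ _ h => congrArg Prod.snd h
  let L := LinearEquiv.ofBijective (plusL (ZMod 2)) ⟨plusL_injective, plusL_surjective⟩
  let t : (ofQuad (qPlus 2 (ZMod 2))).O := ⟨L ≪≫ₗ transposeLinearEquiv _ _ _ _ ≪≫ₗ L.symm,
    mem_O_ofQuad.mpr fun v => by
      rw [det_plusL, det_plusL, ← det_transpose (plusL _ v)]
      exact congrArg _ (L.apply_symm_apply _)⟩
  have ht : ∀ v, plusL _ (t.1 v) = (plusL _ v)ᵀ := fun v => L.apply_symm_apply _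
  have h3 : ∀ a, t * φ (a, 1) = φ (1, a) * t := fun a => O_ext _ fun v => plusL_injective (by
    simp [ht, h1])
  have h4 : ∀ a, MulAut.conj (e t) (ψ (a, 1)) = ψ (1, a) := fun a => by
    simp [ψ, mul_inv_eq_iff_eq_mul, ← map_mul, h3]
  refine ⟨hc, (ψ.comp (MonoidHom.inl _ _)).range, (ψ.comp (MonoidHom.inr _ _)).range,
    ⟨(MonoidHom.ofInjective hl).symm.trans s⟩, ⟨(MonoidHom.ofInjective hr).symm.trans s⟩, ?_, ?_, ?_,
    e t, ?_⟩
  · rw [eq_bot_iff]
    rintro _ ⟨⟨a, rfl⟩, b, hb⟩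
    obtain rfl : 1 = a := congrArg Prod.fst (hψ hb)
    exact map_one _
  · rintro _ ⟨a, rfl⟩ _ ⟨b, rfl⟩
    exact (map_mul ψ _ _).symm.trans ((congrArg ψ (by simp)).trans (map_mul ψ _ _))
  · have h5 := sup_range ψ
    have h6 := ψ.range.index_mul_card
    rw [← Nat.card_congr (MonoidHom.ofInjective hψ).toEquiv, Nat.card_prod, card_SL_two, hc] at h6
    rw [ZMod.card] at h6
    exact (congrArg Subgroup.index h5).trans (by omega)
  · ext x
    constructor
    · rintro ⟨_, ⟨a, rfl⟩, rfl⟩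
      exact ⟨a, (h4 a).symm⟩
    · rintro ⟨a, rfl⟩
      exact ⟨_, ⟨a, rfl⟩, h4 a⟩

end Cfsg.Agent.S2566
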