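import Cfsg.Statements.S2567
import Cfsg.Agent.H16.LA5
-- import your own Cfsg.Agent.* helpers here

set_option autoImplicit false
open Cfsg

namespace Cfsg.Agent.S2567

open H16 Polynomial in
/-- Lifting elements of prime order from PGL to GL: let F be a finite field with q elements, r a prime not dividing q − 1, and x an element of order r in GL_n(F) modulo its centre (the scalar matrices). Then x has exactly one preimage in GL_n(F) of order r. -/
theorem result {F : Type*} [Field F] [Fintype F] {q n r : ℕ} (hF : Fintype.card F = q) (hr : r.Prime) (hdiv : ¬ r ∣ q - 1) (x : GL (Fin n) F ⧸ Subgroup.center (GL (Fin n) F)) (hx : orderOf x = r) : ∃! g : GL (Fin n) F, (QuotientGroup.mk g : GL (Fin n) F ⧸ Subgroup.center (GL (Fin n) F)) = x ∧ orderOf g = r := by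
  refine existsUnique_lift _ le_rfl ?_ x hx
  cases isEmpty_or_nonempty (Fin n)
  · rw [Nat.card_unique]; simp
  · rw [H22.card_center_GL, H22.card_units_field, hF]
    exact ((Nat.Prime.coprime_iff_not_dvd hr).2 hdiv).symm

end Cfsg.Agent.S2567
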