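import Cfsg.Statements.S2568
import Cfsg.Agent.H16.LA9
-- import your own Cfsg.Agent.* helpers here

set_option autoImplicit false
open Cfsg

namespace Cfsg.Agent.S2568

open H16 Polynomial Module in
/-- Number of conjugacy classes of elements of a given prime order r, coprime to the characteristic, in GL_n(q): if i is the multiplicative order of q modulo r and t = (r − 1)/i, the classes correspond to the non-zero t-tuples of natural numbers (a_1, …, a_t) with i(a_1 + ⋯ + a_t) ≤ n (a_j is the multiplicity of the j-th Frobenius orbit of nontrivial r-th roots of unity among the eigenvalues), so there are exactly C(⌊n/i⌋ + t, t) − 1 of them. -/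
theorem result {F : Type*} [Field F] [Fintype F] {p q : ℕ} [Fact p.Prime] [CharP F p] (hF : Fintype.card F = q) (n r i t : ℕ) (hr : r.Prime) (hrp : r ≠ p) (hi : i = orderOf (q : ZMod r)) (ht : t * i = r - 1) : Nat.card {C : ConjClasses (GL (Fin n) F) // ∃ g : GL (Fin n) F, ConjClasses.mk g = C ∧ orderOf g = r} = Nat.choose (n / i + t) t - 1 := by
  classical
  subst hF
  have hr0 : (r : F) ≠ 0 := cast_ne_zero_of_ne p hr hrp
  have : Fact r.Prime := ⟨hr⟩
  have hpos := orderOf_card_pos hr hr0
  obtain ⟨T, hT1, hT2, hT3, hT4, hT5⟩ := ppf_X_pow_sub_one hr hr0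
  rw [← hi] at hpos hT4 hT5
  obtain rfl : T.card = t := Nat.eq_of_mul_eq_mul_right hpos (hT5.trans ht.symm)
  have hmem : ∀ q, IsPP q → q ∣ X ^ r - 1 → q ≠ X - C 1 → q ∈ T := fun q h1 h2 h3 => by
    have h4 := irred_of_dvd_X_pow_sub_one hr hr0 h1 h2
    exact (hT3 q).2 ⟨h1.monic, h4.1, (h4.2.resolve_left h3).1⟩
  have hne : ∀ π ∈ T, π ≠ X - C 1 := fun π h h' => by
    have := ((hT3 π).1 h).2.2
    rw [h', ro_X_sub_C, orderOf_one] at this
    exact hr.ne_one this.symm
  have hdec : ∀ g : GL (Fin n) F, edM g.1 = (edM g.1).filter (· ≠ X - C 1) +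
      Multiset.replicate (n - (((edM g.1).filter (· ≠ X - C 1)).map natDegree).sum) (X - C 1) := by
    intro g
    have h1 := (Multiset.filter_add_not (· ≠ X - C 1) (edM g.1)).symm
    have h2 : (edM g.1).filter (fun a => ¬ a ≠ X - C 1) = Multiset.replicate _ (X - C 1) :=
      Multiset.eq_replicate_card.2 fun e he => not_not.1 (Multiset.mem_filter.1 he).2
    have h3 := sum_natDegree_edM g.1
    rw [h1, h2, Multiset.map_add, Multiset.sum_add, Multiset.map_replicate, natDegree_X_sub_C,
      Multiset.sum_replicate, smul_eq_mul, mul_one, Fintype.card_fin] at h3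
    refine h1.trans ?_
    rw [h2]; congr 2; omega
  rw [card_classes_eq (fun g => orderOf g = r) (fun g => (edM g.1).filter (· ≠ X - C 1))
    (fun g h _ _ => GL_isConj_iff.trans ⟨fun h => by rw [h], fun h' => by
      rw [hdec g, hdec h, h']⟩)]
  have h0 := card_multisets_le (T.toFinset : Set F[X]) (n / i)
  have := finite_multisets_le (T.toFinset : Set F[X]) (n / i)
  rw [Nat.card_coe_set_eq, Set.ncard_coe_finset, Multiset.toFinset_card_of_nodup hT2] at h0
  rw [← h0, ← card_subtype_and_ne (a₀ := 0) (by simp)]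
  refine Nat.card_congr (Equiv.subtypeEquivRight fun s => ?_)
  simp only [Finset.mem_coe, Multiset.mem_toFinset]
  have hsum : ∀ s : Multiset F[X], (∀ a ∈ s, a ∈ T) → (s.map natDegree).sum = s.card * i :=
    fun s hs => by rw [Multiset.map_congr rfl fun a ha => hT4 a (hs a ha)]; simp
  constructor
  · rintro ⟨g, hg, rfl⟩
    have h1 := (pow_eq_one_iff_edM _ _).1 ((GL_pow_eq_one_iff g r).1 (hg ▸ pow_orderOf_eq_one g))
    have h2 : ∀ a ∈ (edM g.1).filter (· ≠ X - C 1), a ∈ T := fun a ha =>
      hmem a (edM_isPP (Multiset.mem_filter.1 ha).1) (h1 a (Multiset.mem_filter.1 ha).1)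
        (Multiset.mem_filter.1 ha).2
    refine ⟨⟨h2, (Nat.le_div_iff_mul_le hpos).2 ?_⟩, fun h3 => ?_⟩
    · rw [← hsum _ h2]
      have h3 := sum_natDegree_edM g.1
      rw [← Multiset.filter_add_not (· ≠ X - C 1) (edM g.1), Multiset.map_add, Multiset.sum_add,
        Fintype.card_fin] at h3
      omega
    · have h4 : g.1 = (1 : F) • (1 : Matrix (Fin n) (Fin n) F) :=
        (eq_smul_iff_edM _ _).2 fun q hq => not_not.1 (Multiset.filter_eq_nil.1 h3 q hq)
      rw [one_smul] at h4
      rw [Units.ext (v := 1) h4, orderOf_one] at hg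
      exact hr.ne_one hg.symm
  · rintro ⟨⟨h1, h2⟩, h3⟩
    have h4 := (Nat.le_div_iff_mul_le hpos).1 h2
    have h5 : ∀ q ∈ s + Multiset.replicate (n - s.card * i) (X - C 1), IsPP q ∧ q ∣ X ^ r - 1 := by
      intro q hq
      rcases Multiset.mem_add.1 hq with hq | hq
      · obtain ⟨h6, h7, h8⟩ := (hT3 q).1 (h1 q hq)
        exact ⟨isPP_of_irred h6 h7, (dvd_X_pow_sub_one_iff _ _).2 h8.dvd⟩
      · rw [Multiset.eq_of_mem_replicate hq]
        exact ⟨isPP_of_irred (monic_X_sub_C _) (irreducible_X_sub_C _),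
          by simpa using sub_dvd_pow_sub_pow (X : F[X]) 1 r⟩
    obtain ⟨g, hg⟩ := exists_GL_edM (n := Fin n) (fun q hq => (h5 q hq).1)
      (fun q hq => coeff_ne_zero_of_dvd hr.ne_zero one_ne_zero (by simpa using (h5 q hq).2))
      (by simp [hsum s h1, -map_one]; omega)
    refine ⟨g, orderOf_eq_prime ((GL_pow_eq_one_iff g r).2 ((pow_eq_one_iff_edM _ _).2
      fun q hq => (h5 q (hg ▸ hq)).2)) ?_, ?_⟩
    · rintro rfl
      obtain ⟨a, ha⟩ := Multiset.exists_mem_of_ne_zero h3
      exact hne a (h1 a ha) ((eq_smul_iff_edM _ 1).1 (by simp) a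
        (hg ▸ Multiset.mem_add.2 (Or.inl ha)))
    · rw [hg, Multiset.filter_add, Multiset.filter_eq_self.2 fun a ha => hne a (h1 a ha),
        Multiset.filter_eq_nil.2 fun a ha => not_not.2 (Multiset.eq_of_mem_replicate ha), add_zero]

end Cfsg.Agent.S2568
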