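import Cfsg.Statements.S2569
import Cfsg.Agent.H16.LA4
-- import your own Cfsg.Agent.* helpers here

set_option autoImplicit false
open Cfsg

namespace Cfsg.Agent.S2569

open H16 Polynomial in
/-- In GL_n over a finite field of characteristic p, the conjugacy class of a semisimple element (an element of order prime to p) under the special linear group is its whole GL-conjugacy class: for every such x and every invertible g there is h of determinant one with h x h⁻¹ = g x g⁻¹. -/
theorem result {F : Type*} [Field F] [Fintype F] {p : ℕ} [Fact p.Prime] [CharP F p] {n : ℕ} (x g : GL (Fin n) F) (hx : (orderOf x).Coprime p) : ∃ h : GL (Fin n) F, (h : Matrix (Fin n) (Fin n) F).det = 1 ∧ h * x * h⁻¹ = g * x * g⁻¹ := by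
  have h1 := (ssM_iff_coprime p x).2 hx
  cases isEmpty_or_nonempty (Fin n)
  · exact ⟨1, by simp, Subsingleton.elim _ _⟩
  obtain ⟨q, hq⟩ := exists_mem_edM x.1
  obtain ⟨P, h2, h3⟩ := exists_conj_det (edM_conj g x.1).symm
    (fun c _ => exists_comm_det_of_irredM hq (h1 q hq) c) one_ne_zero
  refine ⟨Matrix.GeneralLinearGroup.mkOfDetNeZero P (by simp [h2]), h2, ?_⟩
  rw [mul_inv_eq_iff_eq_mul]
  exact Units.ext h3

end Cfsg.Agent.S2569
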