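import Cfsg.Statements.S2570
import Cfsg.Agent.H16.LA4
-- import your own Cfsg.Agent.* helpers here

set_option autoImplicit false
open Cfsg

namespace Cfsg.Agent.S2570

open H16 Polynomial in
/-- Number of conjugacy classes of elements of order p in GL_n over a finite field of characteristic p: they correspond to the Jordan types, that is, to the partitions of n with all parts at most p other than the partition into ones, so there are (number of partitions of n with parts ≤ p) − 1 of them. -/
theorem result {F : Type*} [Field F] [Fintype F] {p : ℕ} [Fact p.Prime] [CharP F p] (n : ℕ) : Nat.card {C : ConjClasses (GL (Fin n) F) // ∃ g : GL (Fin n) F, ConjClasses.mk g = C ∧ orderOf g = p} = (Finset.univ.filter (fun μ : Nat.Partition n => ∀ a ∈ μ.parts, a ≤ p)).card - 1 := by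
  have hp : p.Prime := Fact.out
  have key : ∀ g : GL (Fin n) F, g ^ p = 1 ↔ (g.1 - 1) ^ p = 0 := fun g => by
    have := pow_char_pow_eq_one_iff p g.1 1
    rw [pow_one] at this
    rw [GL_pow_eq_one_iff, this]
  rw [card_classes_eq (fun g : GL (Fin n) F => orderOf g = p) (fun g => jt g.1)]
  · let μ₁ : Nat.Partition n := ⟨Multiset.replicate n 1, by simp +contextual [Multiset.mem_replicate], by simp⟩
    have h1 : μ₁ ∈ Finset.univ.filter (fun μ : Nat.Partition n => ∀ a ∈ μ.parts, a ≤ p) := by
      simp +contextual [μ₁, Multiset.mem_replicate, hp.one_lt.le]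
    rw [← Finset.card_erase_of_mem h1, ← Nat.card_eq_finsetCard]
    symm
    refine Nat.card_congr (Equiv.ofBijective (fun μ => ⟨μ.1.parts, ?_⟩) ⟨?_, ?_⟩)
    · obtain ⟨μ, hμ⟩ := μ
      simp only [Finset.mem_erase, Finset.mem_filter, Finset.mem_univ, true_and] at hμ
      obtain ⟨g, hg⟩ := exists_uni (F := F) (n := Fin n) (μ := μ.parts) (fun e he => μ.parts_pos he)
        (by simp [μ.parts_sum])
      refine ⟨Matrix.SpecialLinearGroup.toGL g, orderOf_eq_prime
        ((key _).2 ((uni_pow_eq_zero_iff hg p).2 hμ.2)) fun h => hμ.1 ?_, jt_of_edM hg⟩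
      have h2 : g.1 = 1 := congrArg Units.val h
      have h3 := (uni_pow_eq_zero_iff hg 1).1 (by simp [h2])
      have h4 : μ.parts = Multiset.replicate μ.parts.card 1 := Multiset.eq_replicate_card.2
        fun b hb => le_antisymm (h3 b hb) (μ.parts_pos hb)
      have h5 := μ.parts_sum
      rw [h4] at h5
      simp only [Multiset.sum_replicate, smul_eq_mul, mul_one] at h5
      exact Nat.Partition.ext (by rw [h4, h5])
    · intro a b h
      exact Subtype.ext (Nat.Partition.ext (congrArg Subtype.val h))
    · rintro ⟨_, g, hg, rfl⟩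
      have h0 := (key g).1 (hg ▸ pow_orderOf_eq_one g)
      refine ⟨⟨⟨jt g.1, jt_pos, by simp [jt_sum]⟩, ?_⟩, rfl⟩
      simp only [Finset.mem_erase, Finset.mem_filter, Finset.mem_univ, true_and]
      refine ⟨fun h => ?_, (uni_pow_eq_zero_iff (edM_eq_uni h0) p).1 h0⟩
      have h2 : jt g.1 = Multiset.replicate n 1 := congrArg Nat.Partition.parts h
      have h3 := (uni_pow_eq_zero_iff (edM_eq_uni h0) 1).2 (by
        simp +contextual [h2, Multiset.mem_replicate])
      have h4 : g = 1 := Units.ext (by simpa [sub_eq_zero] using h3)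
      rw [h4, orderOf_one] at hg
      exact hp.ne_one hg.symm
  · intro g h hg hh
    have ha := (key g).1 (hg ▸ pow_orderOf_eq_one g)
    have hb := (key h).1 (hh ▸ pow_orderOf_eq_one h)
    rw [GL_isConj_iff]
    exact ⟨fun h => by rw [jt, jt, h], fun h => by rw [edM_eq_uni ha, edM_eq_uni hb, h]⟩

end Cfsg.Agent.S2570
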