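import Cfsg.Statements.S2571
import Cfsg.Agent.H16.LA4
-- import your own Cfsg.Agent.* helpers here

set_option autoImplicit false
open Cfsg

namespace Cfsg.Agent.S2571

open H16 Polynomial in
/-- Centraliser of a regular unipotent element in GL_n(q): if u is an invertible n × n matrix over the field with q elements, n ≥ 1, with (u − 1)^n = 0 and rank(u − 1) = n − 1 (a single unipotent Jordan block), then its centraliser in GL_n(q) has order (q − 1) q^(n−1). -/
theorem result {F : Type*} [Field F] [Fintype F] {q n : ℕ} (hF : Fintype.card F = q) (hn : 1 ≤ n) (u : GL (Fin n) F) (hnil : ((u : Matrix (Fin n) (Fin n) F) - 1) ^ n = 0) (hreg : ((u : Matrix (Fin n) (Fin n) F) - 1).rank = n - 1) : Nat.card ↥(Subgroup.centralizer ({u} : Set (GL (Fin n) F))) = (q - 1) * q ^ (n - 1) := by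
  obtain ⟨k, rfl⟩ : ∃ k, n = k + 1 := ⟨n - 1, by omega⟩
  have h1 := edM_of_regular hnil (by simpa using hreg)
  obtain ⟨e⟩ := centralizer_GL_cyc h1
  rw [Nat.card_congr e.toEquiv, Fintype.card_fin, card_units_adj_pow (irreducible_X_sub_C 1),
    natDegree_X_sub_C, Nat.card_eq_fintype_card, hF]
  simp [mul_comm]

end Cfsg.Agent.S2571
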