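import Cfsg.Statements.S2572
import Cfsg.Agent.H16.LA4
import Cfsg.Agent.H17.Ortho

set_option autoImplicit false
open Cfsg

namespace Cfsg.Agent.S2572
open H17
open Matrix

theorem card_ker {F : Type*} [Field F] [Fintype F] {n : ℕ} {v : Fin n → F} (hv : v ≠ 0) :
    Nat.card {f : Fin n → F // f ⬝ᵥ v = 0} * Fintype.card F = Fintype.card F ^ n := by
  let L : (Fin n → F) →+ F := ⟨⟨fun f => f ⬝ᵥ v, by simp⟩, fun a b => add_dotProduct a b v⟩
  have hL : Function.Surjective L := fun c => by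
    obtain ⟨i, hi⟩ := Function.ne_iff.1 hv
    exact ⟨Pi.single i (c / v i), by simp [L, div_mul_cancel₀ c hi]⟩
  have := L.ker.card_mul_index
  rw [AddSubgroup.index_ker, AddMonoidHom.range_eq_top.2 hL, AddSubgroup.card_top] at this
  rw [Nat.card_pi, Finset.prod_const, Nat.card_eq_fintype_card (α := F), Finset.card_univ,
    Fintype.card_fin] at this
  exact this

theorem exists_vec {F : Type*} [Field F] {n : ℕ} {M : Matrix (Fin n) (Fin n) F} (h : M.rank = 1) :
    ∃ v f : Fin n → F, v ≠ 0 ∧ f ≠ 0 ∧ M = vecMulVec v f := by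
  have h0 : M ≠ 0 := by rintro rfl; simp at h
  rw [rank_eq_finrank_span_cols, finrank_eq_one_iff'] at h
  obtain ⟨v, -, hv⟩ := h
  choose f hf using fun j => hv ⟨M.col j, Submodule.subset_span ⟨j, rfl⟩⟩
  have : M = vecMulVec v.1 f := by
    ext i j
    have := congrFun (congrArg Subtype.val (hf j)) i
    simp only [SetLike.val_smul, Pi.smul_apply, smul_eq_mul, col_apply] at this
    rw [vecMulVec_apply, ← this, mul_comm]
  rw [this, Ne, vecMulVec_eq_zero, not_or] at h0
  exact ⟨v, f, h0.1, h0.2, this⟩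

theorem rank_vec {F : Type*} [Field F] {n : ℕ} {v f : Fin n → F} (hv : v ≠ 0) (hf : f ≠ 0) :
    (vecMulVec v f).rank = 1 := by
  refine le_antisymm (rank_vecMulVec_le _ _) (Nat.one_le_iff_ne_zero.2 fun h => ?_)
  rw [rank_eq_finrank_span_cols, Submodule.finrank_eq_zero, Submodule.span_eq_bot] at h
  refine vecMulVec_ne_zero hv hf ?_
  ext i j
  exact congrFun (h _ ⟨j, rfl⟩) i

theorem card_trans {F : Type*} [Field F] [Fintype F] {n : ℕ} :
    Nat.card {M : Matrix (Fin n) (Fin n) F // M.rank = 1 ∧ M * M = 0} * (Fintype.card F - 1) =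
      Nat.card (Σ v : {v : Fin n → F // v ≠ 0}, {f : {f : Fin n → F // f ⬝ᵥ v.1 = 0} // f ≠ ⟨0, by simp⟩}) := by
  classical
  choose v f hv hf he using fun M : {M : Matrix (Fin n) (Fin n) F // M.rank = 1 ∧ M * M = 0} =>
    exists_vec M.2.1
  have h0 : ∀ M, f M ⬝ᵥ v M = 0 := fun M => by
    have := M.2.2
    rw [he, vecMulVec_mul_vecMulVec, vecMulVec_eq_zero] at this
    simpa [hv, hf] using this
  rw [← Fintype.card_units, ← Nat.card_eq_fintype_card, ← Nat.card_prod]
  refine Nat.card_congr (Equiv.ofBijective (fun x => ⟨⟨(x.2 : F) • v x.1, by simp [hv]⟩,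
    ⟨⟨((x.2⁻¹ : Fˣ) : F) • f x.1, by simp [h0]⟩, by simp [hf, Subtype.ext_iff]⟩⟩) ⟨?_, ?_⟩)
  · rintro ⟨M, c⟩ ⟨N, d⟩ h
    have h1 : (c : F) • v M = (d : F) • v N := congrArg (fun x => x.1.1) h
    have h2 : ((c⁻¹ : Fˣ) : F) • f M = ((d⁻¹ : Fˣ) : F) • f N := congrArg (fun x => x.2.1.1) h
    have h3 : M = N := Subtype.ext (by
      have := congrArg₂ vecMulVec h1 h2
      simpa [smul_vecMulVec, vecMulVec_smul, smul_smul, ← he] using this)
    subst h3
    rw [Units.ext (smul_left_injective F (hv M) h1)]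
  · rintro ⟨⟨w, hw⟩, ⟨g, hg⟩, hg0⟩
    have hg1 : g ≠ 0 := fun e => hg0 (Subtype.ext e)
    let M : {M : Matrix (Fin n) (Fin n) F // M.rank = 1 ∧ M * M = 0} :=
      ⟨vecMulVec w g, rank_vec hw hg1, by rw [vecMulVec_mul_vecMulVec, hg]; simp⟩
    have h1 : vecMulVec w g = vecMulVec (v M) (f M) := he M
    obtain ⟨j, hj⟩ := Function.ne_iff.1 hg1
    have h2 : w = (f M j / g j) • v M := funext fun i => by
      have := congrFun (congrFun h1 i) j
      simp only [vecMulVec_apply, Pi.zero_apply] at this hj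
      simp only [Pi.smul_apply, smul_eq_mul]
      field_simp
      linear_combination this
    have h3 : f M j / g j ≠ 0 := fun e => hw (by rw [h2, e, zero_smul])
    have h4 : (f M j / g j)⁻¹ • f M = g := by
      obtain ⟨i, hi⟩ := Function.ne_iff.1 (hv M)
      funext k
      have := congrFun (congrFun h1 i) k
      rw [h2] at this
      simp only [vecMulVec_apply, Pi.zero_apply, Pi.smul_apply, smul_eq_mul] at this hi ⊢
      rw [inv_mul_eq_iff_eq_mul₀ h3]
      exact mul_left_cancel₀ hi (by linear_combination -this)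
    refine ⟨⟨M, Units.mk0 _ h3⟩, ?_⟩
    have key : ∀ (w' g' : Fin n → F) (e1 : w' = w) (e2 : g' = g) a b c,
        (⟨⟨w', a⟩, ⟨g', b⟩, c⟩ : Σ v : {v : Fin n → F // v ≠ 0},
          {f : {f : Fin n → F // f ⬝ᵥ v.1 = 0} // f ≠ ⟨0, by simp⟩}) = ⟨⟨w, hw⟩, ⟨g, hg⟩, hg0⟩ := by
      rintro _ _ rfl rfl _ _ _; rfl
    exact key _ _ h2.symm (by simpa using h4) _ _ _

/-- Centraliser of a transvection in GL_n(q), n ≥ 2: if t − 1 has rank one and square zero, the centraliser of t in GL_n(q) has order q^(2n−3) (q − 1) |GL_(n−2)(q)| (a group of order q^(2n−3) extended by GL_1(q) × GL_(n−2)(q)). -/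
theorem result {F : Type*} [Field F] [Fintype F] {q n : ℕ} (hF : Fintype.card F = q) (hn : 2 ≤ n) (t : GL (Fin n) F) (ht : Cfsg.IsTransvection (t : Matrix (Fin n) (Fin n) F)) : Nat.card ↥(Subgroup.centralizer ({t} : Set (GL (Fin n) F))) = q ^ (2 * n - 3) * (q - 1) * ∏ i : Fin (n - 2), (q ^ (n - 2) - q ^ (i : ℕ)) := by
  classical
  subst hF
  obtain ⟨m, rfl⟩ := Nat.exists_eq_add_of_le' hn
  have hq : 1 < Fintype.card F := Fintype.one_lt_card
  have h1 := card_centralizer_mul_card_isConj t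
  have h2 : Nat.card {h : GL (Fin (m + 2)) F // IsConj t h} =
      Nat.card {M : Matrix (Fin (m + 2)) (Fin (m + 2)) F // M.rank = 1 ∧ M * M = 0} := by
    have key : ∀ h : GL (Fin (m + 2)) F, IsConj t h ↔ IsTransvection h.1 := fun h => by
      constructor
      · rintro ⟨c, hc⟩
        have e : h = c * t * c⁻¹ := by rw [hc.eq]; simp
        have e2 : h.1 - 1 = c.1.1 * (t.1 - 1) * c⁻¹.1.1 := by
          rw [e, Matrix.mul_sub, Matrix.sub_mul, Matrix.mul_one, ← Units.val_mul, ← Units.val_mul,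
            ← Units.val_mul, Units.mul_inv]; rfl
        refine ⟨?_, ?_⟩
        · rw [e2, rank_mul_eq_left_of_isUnit_det _ _ (isUnits_det_units _),
            rank_mul_eq_right_of_isUnit_det _ _ (isUnits_det_units _), ht.1]
        · rw [e2, show ∀ a b d : Matrix (Fin (m + 2)) (Fin (m + 2)) F,
            a * b * d * (a * b * d) = a * (b * (d * a) * b) * d from fun a b d => by
              simp only [Matrix.mul_assoc], ← Units.val_mul, Units.inv_mul, Units.val_one,
            Matrix.mul_one, ht.2, Matrix.mul_zero, Matrix.zero_mul]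
      · intro hs
        rw [H16.GL_isConj_iff, (H16.edM_of_sq_zero (A := t.1) (by rw [pow_two]; exact ht.2)).1,
          (H16.edM_of_sq_zero (A := h.1) (by rw [pow_two]; exact hs.2)).1, hs.1, ht.1]
    refine Nat.card_congr (Equiv.ofBijective (fun h => ⟨h.1.1 - 1, (key _).1 h.2⟩) ⟨?_, ?_⟩)
    · intro a b e
      exact Subtype.ext (Units.ext (sub_left_injective (congrArg Subtype.val e)))
    · rintro ⟨M, hM⟩
      refine ⟨⟨⟨1 + M, 1 - M, ?_, ?_⟩, (key _).2 (by simpa [IsTransvection] using hM)⟩, by simp⟩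
      · simp [Matrix.mul_sub, Matrix.add_mul, hM.2]
      · simp [Matrix.sub_mul, Matrix.mul_add, hM.2]
  have h3 := card_trans (F := F) (n := m + 2)
  have h4 : ∀ v : {v : Fin (m + 2) → F // v ≠ 0},
      Nat.card {f : {f : Fin (m + 2) → F // f ⬝ᵥ v.1 = 0} // f ≠ ⟨0, by simp⟩} =
        Fintype.card F ^ (m + 1) - 1 := fun v => by
    have := card_ker v.2
    rw [pow_succ] at this
    rw [← Nat.eq_of_mul_eq_mul_right (by omega) this]
    simp
  rw [Nat.card_sigma, Finset.sum_congr rfl fun v _ => h4 v, Finset.sum_const, Finset.card_univ,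
    Fintype.card_subtype_compl, Fintype.card_subtype_eq, Fintype.card_fun, Fintype.card_fin,
    smul_eq_mul, ← h2] at h3
  rw [card_GL_field, Fin.prod_univ_succ, Fin.prod_univ_succ] at h1
  have h5 : ∏ i : Fin m, (Fintype.card F ^ (m + 2) - Fintype.card F ^ (i.succ.succ : ℕ)) =
      Fintype.card F ^ (2 * m) * ∏ i : Fin m, (Fintype.card F ^ m - Fintype.card F ^ (i : ℕ)) := by
    rw [pow_mul, ← Fin.prod_const m (Fintype.card F ^ 2), ← Finset.prod_mul_distrib]
    refine Finset.prod_congr rfl fun i _ => ?_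
    rw [Nat.mul_sub, ← pow_add, ← pow_add, Fin.val_succ, Fin.val_succ, add_comm 2, add_comm 2]
  have h6 : Fintype.card F ^ (m + 2) - Fintype.card F ^ ((0 : Fin (m + 1)).succ : ℕ) =
      Fintype.card F * (Fintype.card F ^ (m + 1) - 1) := by
    rw [Nat.mul_sub, ← pow_succ']; simp
  rw [h5, h6, Fin.val_zero, pow_zero] at h1
  have h7 : 0 < (Fintype.card F ^ (m + 2) - 1) * (Fintype.card F ^ (m + 1) - 1) :=
    Nat.mul_pos (Nat.sub_pos_of_lt (Nat.one_lt_pow (by omega) hq))
      (Nat.sub_pos_of_lt (Nat.one_lt_pow (by omega) hq))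
  show _ = _ * _ * ∏ i : Fin m, (Fintype.card F ^ m - Fintype.card F ^ (i : ℕ))
  refine Nat.eq_of_mul_eq_mul_right h7 ?_
  rw [show 2 * (m + 2) - 3 = 2 * m + 1 by omega, ← h3, ← mul_assoc, h1, h3]
  ring

end Cfsg.Agent.S2572
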