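import Cfsg.Statements.S2573
import Cfsg.Agent.H16.LA4
-- import your own Cfsg.Agent.* helpers here

set_option autoImplicit false
open Cfsg

namespace Cfsg.Agent.S2573

open H16 Polynomial in
/-- The invariant subspaces of a regular unipotent matrix form a chain: over a finite field, if u is an n × n matrix with (u − 1)^n = 0 and rank(u − 1) = n − 1, then every subspace W of F^n with u W ⊆ W is the kernel of (u − 1)^(dim W); so u has at most one invariant subspace of each dimension. -/
theorem result {F : Type*} [Field F] [Finite F] {n : ℕ} (u : Matrix (Fin n) (Fin n) F) (hnil : (u - 1) ^ n = 0) (hreg : (u - 1).rank = n - 1) (W : Submodule F (Fin n → F)) (hW : ∀ v ∈ W, u.mulVec v ∈ W) : W = LinearMap.ker (Matrix.mulVecLin ((u - 1) ^ Module.finrank F W)) := by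
  cases isEmpty_or_nonempty (Fin n)
  · exact Subsingleton.elim _ _
  have h1 := edM_of_regular hnil (by simpa using hreg)
  have h2 := uni_rank_pow (μ := {Fintype.card (Fin n)}) h1 (Module.finrank F W)
  have h3 : Module.finrank F W ≤ n := by simpa using W.finrank_le
  have h4 := LinearMap.finrank_range_add_finrank_ker (Matrix.mulVecLin ((u - 1) ^ Module.finrank F W))
  refine Submodule.eq_of_le_of_finrank_le (fun v hv => ?_) ?_
  · have hW' : ∀ x ∈ W, Matrix.toLin' (u - 1) x ∈ W := fun x hx => by
      rw [Matrix.toLin'_apply, Matrix.sub_mulVec, Matrix.one_mulVec]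
      exact W.sub_mem (hW x hx) hx
    have h5 : IsNilpotent ((Matrix.toLin' (u - 1)).restrict hW') := ⟨n, by
      rw [Module.End.pow_restrict]
      ext1 x
      apply Subtype.ext
      rw [LinearMap.restrict_coe_apply, ← Matrix.toLin'_pow, hnil]; simp⟩
    have h6 := LinearMap.aeval_self_charpoly ((Matrix.toLin' (u - 1)).restrict hW')
    rw [h5.charpoly_eq_X_pow_finrank, map_pow, aeval_X, Module.End.pow_restrict] at h6
    have h7 := congrArg Subtype.val (congrArg (fun φ : W →ₗ[F] W => φ ⟨v, hv⟩) h6)
    rw [LinearMap.mem_ker, ← Matrix.toLin'_apply', Matrix.toLin'_pow]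
    exact h7
  · simp only [Multiset.map_singleton, Multiset.sum_singleton, Fintype.card_fin, Matrix.rank,
      Module.finrank_fintype_fun_eq_card] at h2 h4
    omega

end Cfsg.Agent.S2573
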