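import Cfsg.Statements.S2574
import Cfsg.Agent.H14.Wall9

set_option autoImplicit false
set_option linter.unusedVariables false
set_option linter.style.haveILetI false
open Cfsg H14.Wall H16 H23 Polynomial
open scoped Matrix

namespace Cfsg.Agent.S2574

/-- A regular unipotent element of the symplectic group has totally isotropic small invariant subspaces: over a finite field, if u ∈ Sp_2m(F) satisfies (u − 1)^(2m) = 0 and rank(u − 1) = 2m − 1, and W is a u-invariant subspace with 2 dim W ≤ 2m, then the alternating form vanishes identically on W. -/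
theorem result {F : Type*} [Field F] [Finite F] {m : ℕ} (u : Matrix.symplecticGroup (Fin m) F) (hnil : ((u : Matrix (Fin m ⊕ Fin m) (Fin m ⊕ Fin m) F) - 1) ^ (2 * m) = 0) (hreg : ((u : Matrix (Fin m ⊕ Fin m) (Fin m ⊕ Fin m) F) - 1).rank = 2 * m - 1) (W : Submodule F (Fin m ⊕ Fin m → F)) (hW : ∀ v ∈ W, (u : Matrix (Fin m ⊕ Fin m) (Fin m ⊕ Fin m) F).mulVec v ∈ W) (hdim : 2 * Module.finrank F W ≤ 2 * m) : ∀ v ∈ W, ∀ w ∈ W, Cfsg.sympForm m F v w = 0 := by
  rcases m with _ | m
  · intro v _ w _; simp [sympForm_eq]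
  have h1 : ed (Matrix.toLin' u.1) = _ := edM_of_regular hnil (by simpa [two_mul] using hreg)
  have h2 := reg_inv_eq_ker h1 (W := W) hW
  have h3 := reg_inv_eq_ker h1 ((sp_pres u).perp_inv (spForm_nondeg _) (A := W) hW)
  have h4 := (spForm_nondeg (F := F) (m + 1)).finrank_perp_add W
  rw [finrank_sp] at h4
  intro v hv w hw
  have h5 : w ∈ (spForm (m + 1) F).perp W := by
    rw [h3]
    rw [h2] at hw
    exact (LinearMap.iterateKer _).monotone (by omega) hw
  simpa using (Form.mem_perp _).1 h5 v hv

end Cfsg.Agent.S2574
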