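import Cfsg.Statements.S2576
import Cfsg.Agent.H16.LA5
-- import your own Cfsg.Agent.* helpers here

set_option autoImplicit false
open Cfsg

namespace Cfsg.Agent.S2576

open H16 Polynomial in
/-- Which involutions of PGL_2m(q) coming from a scalar of the quadratic extension field lie in PSL_2m(q), q odd: let μ generate the Sylow 2-subgroup of the multiplicative group of the field with q elements (μ has order the 2-part of q − 1) and let t be the block-diagonal matrix with m diagonal blocks [[0, 1], [μ, 0]] (so t² is the scalar μ and t is an involution modulo scalars). Then some non-zero scalar multiple of t has determinant one if and only if q ≡ 3 (mod 4) or the 2-part of q − 1 is less than the 2-part of 2m. -/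
theorem result {F : Type*} [Field F] [Fintype F] {q : ℕ} (hF : Fintype.card F = q) (hq : Odd q) {m : ℕ} (hm : 1 ≤ m) (μ : F) (hμ : orderOf μ = 2 ^ padicValNat 2 (q - 1)) : (∃ c : F, c ≠ 0 ∧ (c • Matrix.blockDiagonal (fun _ : Fin m => !![(0 : F), 1; μ, 0])).det = 1) ↔ (q % 4 = 3 ∨ padicValNat 2 (q - 1) < padicValNat 2 (2 * m)) := by
  have hq1 : 1 < q := hF ▸ Fintype.one_lt_card
  have h2 : ringChar F ≠ 2 := fun h2 => by
    have := (FiniteField.even_card_iff_char_two (F := F)).1 h2
    rw [hF] at this
    rw [Nat.odd_iff] at hq; omega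
  have h3 : orderOf (-1 : F) = 2 := by rw [orderOf_neg_one, if_neg h2]
  have hd : (Matrix.blockDiagonal (fun _ : Fin m => !![(0 : F), 1; μ, 0])).det = (-μ) ^ m := by
    simp [Matrix.det_blockDiagonal, Matrix.det_fin_two]
  have hs : 1 ≤ padicValNat 2 (q - 1) := one_le_padicValNat_of_dvd (by omega)
    (by rw [Nat.odd_iff] at hq; omega)
  have h4 : 2 ≤ padicValNat 2 (q - 1) ↔ q % 4 = 1 := by
    rw [← padicValNat_dvd_iff_le (by omega)]; omega
  have hμ0 : μ ≠ 0 := by
    rintro rfl
    have := pow_orderOf_eq_one (0 : F)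
    rw [hμ] at this
    simp at this
  have h5 : padicValNat 2 (2 * m) = padicValNat 2 m + 1 := by
    rw [padicValNat.mul (by omega) (by omega)]; simp [add_comm]
  simp only [Matrix.det_smul, hd, Fintype.card_prod, Fintype.card_fin]
  rcases Nat.lt_or_ge 1 (padicValNat 2 (q - 1)) with h | h
  · obtain ⟨s, hs'⟩ : ∃ s, padicValNat 2 (q - 1) = s + 2 := ⟨padicValNat 2 (q - 1) - 2, by omega⟩
    have h6 : orderOf (-μ) = 2 ^ (s + 1 + 1) := by
      refine orderOf_eq_prime_pow ?_ ?_
      · rw [Even.neg_pow (by simp [Nat.even_pow]), ← orderOf_dvd_iff_pow_eq_one, hμ, hs',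
          Nat.pow_dvd_pow_iff_le_right (by omega)]
        omega
      · rw [Even.neg_pow (by simp [Nat.even_pow]), ← orderOf_dvd_iff_pow_eq_one, hμ, hs']
    have h7 := orderOf_pow_prime_pow h6 (show m ≠ 0 by omega)
    have := exists_pow_eq_iff_prime (k := 2 * m) (by simp [hμ0]) h7 (by omega)
    rw [exists_pow_mul_eq_one_iff, this, hF]
    omega
  · have h6 : μ = -1 := by
      have := pow_orderOf_eq_one μ
      rw [show padicValNat 2 (q - 1) = 1 by omega] at hμ
      rw [hμ] at this
      rcases sq_eq_one_iff.1 this with h | h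
      · simp [h] at hμ
      · exact h
    rw [Nat.odd_iff] at hq
    exact iff_of_true ⟨1, one_ne_zero, by simp [h6]⟩ (by omega)

end Cfsg.Agent.S2576
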