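import Cfsg.Statements.S2670
import Cfsg.Agent.H16.LA9
-- import your own Cfsg.Agent.* helpers here

set_option autoImplicit false
open Cfsg

namespace Cfsg.Agent.S2670

open H16 Polynomial Module in
/-- Number of conjugacy classes of elements of prime order r in PGL_n(q) = GL_n(q)/scalars when r divides q − 1 (n ≥ 2): the classes of elements with a diagonalisable lift correspond to the orbits of the cyclic rotation on the r-tuples of eigenvalue multiplicities (a_0, …, a_(r−1)) summing to n with every a_j < n, and when r divides n there are r − 1 further classes (lifts acting irreducibly on blocks of size r); in all (C(n+r−1, r−1) − r − [r ∣ n])/r + r·[r ∣ n] classes. -/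
theorem result {F : Type*} [Field F] [Fintype F] {q : ℕ} (hF : Fintype.card F = q) {n r : ℕ} (hn : 2 ≤ n) (hr : r.Prime) (hrq : r ∣ q - 1) : Nat.card {C : ConjClasses (GL (Fin n) F ⧸ Subgroup.center (GL (Fin n) F)) // ∃ g : GL (Fin n) F ⧸ Subgroup.center (GL (Fin n) F), ConjClasses.mk g = C ∧ orderOf g = r} = (Nat.choose (n + r - 1) (r - 1) - r - (if r ∣ n then 1 else 0)) / r + r * (if r ∣ n then 1 else 0) := by
  classical
  subst hF
  have : Fact r.Prime := ⟨hr⟩
  have : Nonempty (Fin n) := ⟨⟨0, by omega⟩⟩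
  have hr0 : (r : F) ≠ 0 := cast_ne_zero_of_dvd hrq
  let G := rootsOfUnity r F
  have hG : Nat.card G = r := by rw [H22.card_rootsOfUnity_field, Nat.gcd_eq_left hrq]
  have hGr : ∀ a : G, ((a : Fˣ) : F) ^ r = 1 := fun a => by
    rw [← Units.val_pow_eq_pow_val, (mem_rootsOfUnity _ _).1 a.2, Units.val_one]
  let Y := {s : Multiset G // s.card = n ∧ ∀ a, s ≠ Multiset.replicate n a}
  let : MulAction G Y :=
    { smul := fun g s => ⟨s.1.map (g * ·), by simp [s.2.1], fun a h => s.2.2 (g⁻¹ * a) (by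
        simpa using congrArg (Multiset.map (g⁻¹ * ·)) h)⟩
      one_smul := fun s => Subtype.ext (by change s.1.map _ = _; simp)
      mul_smul := fun g h s => Subtype.ext (by
        change s.1.map _ = (s.1.map _).map _; simp [mul_assoc]) }
  have hsm : ∀ (g : G) (s : Y), (g • s).1 = s.1.map (g * ·) := fun _ _ => rfl
  have hY : Nat.card Y = (n + r - 1).choose (r - 1) - r := by
    have h1 := card_multisets_eq (Set.univ : Set G) n
    rw [Nat.card_univ, hG, Nat.multichoose_eq, add_comm r,
      Nat.choose_symm_of_eq_add (b := r - 1) (by have := hr.pos; omega)] at h1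
    have h2 : {s : Multiset G | s.card = n ∧ ∀ a, s ≠ Multiset.replicate n a} =
        {s | (∀ a ∈ s, a ∈ Set.univ) ∧ s.card = n} \ Set.range (Multiset.replicate n) := by
      ext s; simp [eq_comm]
    change Nat.card {s : Multiset G | s.card = n ∧ ∀ a, s ≠ Multiset.replicate n a} = _
    rw [h2, Nat.card_coe_set_eq, Set.ncard_sdiff (by rintro _ ⟨a, rfl⟩; simp), ← h1,
      Set.ncard_range_of_injective (Multiset.replicate_right_injective (by omega)), hG]
    rfl
  have : Finite Y := (finite_multisets_le (Set.univ : Set G) n).of_injective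
    (fun s : Y => ⟨s.1, by simp, s.2.1.le⟩) fun s t h => Subtype.ext (congrArg (·.1) h)
  have := Fintype.ofFinite G
  have hfix : Nat.card (MulAction.fixedPoints G Y) = if r ∣ n then 1 else 0 := by
    have h1 : ∀ s ∈ MulAction.fixedPoints G Y, s.1 = s.1.count 1 • Finset.univ.val := fun s hs => by
      ext a
      have := congrArg (fun t : Y => t.1.count a) (hs a)
      simp only [hsm] at this
      rw [← this, ← Multiset.count_map_eq_count' (a * ·) s.1 (mul_right_injective a) 1]
      simp [Multiset.count_univ]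
    have h2 : ∀ s ∈ MulAction.fixedPoints G Y, n = s.1.count 1 * r := fun s hs => by
      refine s.2.1.symm.trans ((congrArg Multiset.card (h1 s hs)).trans ?_)
      simp [← Nat.card_eq_fintype_card, hG]
    split_ifs with h
    · obtain ⟨k, hk⟩ := h
      rw [Nat.card_eq_one_iff_exists]
      refine ⟨⟨⟨k • Finset.univ.val, by simp [← Nat.card_eq_fintype_card, hG, hk, mul_comm],
        fun a h => ?_⟩, fun g => Subtype.ext ?_⟩, fun s => Subtype.ext (Subtype.ext ?_)⟩
      · have h3 := congrArg (Multiset.count a) h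
        simp at h3
        have := hr.two_le
        nlinarith
      · rw [hsm, Multiset.map_nsmul]
        exact congrArg _ (Multiset.map_univ_val_equiv (Equiv.mulLeft g))
      · rw [h1 _ s.2, ← Nat.eq_of_mul_eq_mul_right hr.pos ((mul_comm _ _).trans
          (hk.symm.trans (h2 _ s.2)))]
    · rw [Nat.card_eq_zero]
      exact Or.inl ⟨fun s => h ⟨_, (h2 _ s.2).trans (mul_comm _ _)⟩⟩
  have horb := card_orbits_prime (X := Y) hr hG
  -- split classes
  let P : G → F[X] := fun a => X - C ((a : Fˣ) : F)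
  have hP : Function.Injective P := fun a b h => by
    ext; simpa [P] using h
  have hex : ∀ s : Y, ∃ g : GL (Fin n) F, edM g.1 = s.1.map P := fun s =>
    exists_GL_edM (by
      intro q hq; obtain ⟨a, -, rfl⟩ := Multiset.mem_map.1 hq
      exact isPP_of_irred (monic_X_sub_C _) (irreducible_X_sub_C _)) (by
      intro q hq; obtain ⟨a, -, rfl⟩ := Multiset.mem_map.1 hq; simp [P]) (by simp [P, s.2.1])
  choose gs hgs using hex
  have hgr : ∀ s, (gs s).1 ^ r = 1 := fun s => (pow_eq_one_iff_edM _ _).2 fun q hq => by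
    obtain ⟨a, -, rfl⟩ := Multiset.mem_map.1 (hgs s ▸ hq)
    simpa [← map_pow, hGr] using sub_dvd_pow_sub_pow (X : F[X]) (C ((a : Fˣ) : F)) r
  let cl : GL (Fin n) F → ConjClasses (GL (Fin n) F ⧸ Subgroup.center (GL (Fin n) F)) :=
    fun g => ConjClasses.mk (QuotientGroup.mk g)
  have hcl : ∀ g h, cl g = cl h ↔ ∃ c : F, c ≠ 0 ∧ edM h.1 = edM (c • g.1) := fun g h => by
    rw [ConjClasses.mk_eq_mk_iff_isConj, PGL_isConj_iff]
    exact exists_congr fun c => and_congr_right fun hc => by rw [edM_smul _ hc]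
  have hpow : ∀ {g h : GL (Fin n) F} {c y z : F}, edM h.1 = edM (c • g.1) → g.1 ^ r = y • 1 →
      h.1 ^ r = z • 1 → c ^ r * y = z := fun {g h c y z} h1 h2 h3 => by
    have h4 := (pow_eq_smul_iff_edM _ _ _).2 (h1 ▸ (pow_eq_smul_iff_edM _ _ _).1 h3)
    rw [_root_.smul_pow, h2, smul_smul] at h4
    exact smul_left_injective F one_ne_zero h4
  have h1 : Nat.card (Set.range (cl ∘ gs)) = Nat.card (Quotient (MulAction.orbitRel G Y)) := by
    rw [card_range_eq_of_ker (g := Quotient.mk (MulAction.orbitRel G Y)),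
      Quotient.mk_surjective.range_eq, Nat.card_univ]
    intro s t
    have key : ∀ a : G, edM (((a : Fˣ) : F) • (gs t).1) = (a • t).1.map P := fun a => by
      rw [edM_smul _ (Units.ne_zero _), hgs, hsm]
      simp [P, X_sub_C_scaleRoots, mul_comm, -map_mul]
    rw [Function.comp_apply, Function.comp_apply, eq_comm, hcl, Quotient.eq, MulAction.orbitRel_apply]
    constructor
    · rintro ⟨c, hc, h⟩
      have h2 := hpow h (y := 1) (z := 1) (by simp [hgr]) (by simp [hgr])
      refine ⟨⟨Units.mk0 c hc, (mem_rootsOfUnity _ _).2 (Units.ext (by simpa using h2))⟩,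
        Subtype.ext (Multiset.map_injective hP ?_)⟩
      rw [← key, ← hgs, h]; rfl
    · rintro ⟨a, rfl⟩
      exact ⟨_, Units.ne_zero (a : Fˣ), by rw [key, hgs]⟩
  -- non-split classes
  let R := (powMonoidHom r : Fˣ →* Fˣ).range
  let Z := {z : Fˣ // z ∉ R ∧ r ∣ n}
  have hZ : ∀ z : Z, ∀ b : F, b ^ r ≠ z.1 := fun z b hb => z.2.1
    ⟨Units.mk0 b (by rintro rfl; exact z.1.ne_zero (by rw [← hb, zero_pow hr.ne_zero])),
      Units.ext hb⟩
  have hex : ∀ z : Z, ∃ g : GL (Fin n) F, edM g.1 = Multiset.replicate (n / r) (X ^ r - C (z.1 : F)) ∧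
      g.1 ^ r = (z.1 : F) • 1 := fun z => by
    obtain ⟨A, h2, h3⟩ := exists_nonsplit_matrix (n := Fin n) hr (hZ z) (k := n / r)
      (by simp [Nat.div_mul_cancel z.2.2])
    exact ⟨Matrix.GeneralLinearGroup.mkOfDetNeZero A (by
      simp [det_of_edM_replicate hr.ne_zero h2]), h2, h3⟩
  choose gz hgz hgz' using hex
  have hgz'' : ∀ (z : Z) (A : Matrix (Fin n) (Fin n) F), A ^ r = (z.1 : F) • 1 →
      edM (gz z).1 = edM A := fun z A hA => by
    obtain ⟨k, h2, h3⟩ := edM_of_nonsplit hr (hZ z) hA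
    rw [Fintype.card_fin] at h3
    rw [h2, hgz, Nat.div_eq_of_eq_mul_left hr.pos h3]
  have h2 : Nat.card (Set.range (cl ∘ gz)) = (r - 1) * if r ∣ n then 1 else 0 := by
    rw [card_range_eq_of_ker (g := fun z => (QuotientGroup.mk z.1 : Fˣ ⧸ R))]
    · split_ifs with h
      · have h3 : Nat.card (Fˣ ⧸ R) = r := by
          rw [← Subgroup.index, IsCyclic.index_powMonoidHom_range, H22.card_units_field,
            Nat.gcd_eq_right hrq]
        have h4 : Set.range (fun z : Z => (QuotientGroup.mk z.1 : Fˣ ⧸ R)) = Set.univ \ {1} := by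
          ext x
          obtain ⟨x, rfl⟩ := QuotientGroup.mk_surjective x
          simp only [Set.mem_range, Set.mem_sdiff, Set.mem_univ, true_and, Set.mem_singleton_iff]
          exact ⟨fun ⟨z, hz⟩ h5 => z.2.1 ((QuotientGroup.eq_one_iff _).1 (hz.trans h5)),
            fun h5 => ⟨⟨x, fun h6 => h5 ((QuotientGroup.eq_one_iff _).2 h6), h⟩, rfl⟩⟩
        rw [h4, Nat.card_coe_set_eq, Set.ncard_sdiff_singleton_of_mem (Set.mem_univ _),
          Set.ncard_univ, h3, mul_one]
      · have : IsEmpty Z := ⟨fun z => h z.2.2⟩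
        simp
    · intro y z
      rw [Function.comp_apply, Function.comp_apply, hcl, QuotientGroup.eq]
      constructor
      · rintro ⟨c, hc, h⟩
        exact ⟨Units.mk0 c hc, Units.ext (by simp [← hpow h (hgz' y) (hgz' z)]; field_simp)⟩
      · rintro ⟨c, hc⟩
        refine ⟨c, c.ne_zero, hgz'' _ _ ?_⟩
        rw [_root_.smul_pow, hgz', smul_smul, ← Units.val_pow_eq_pow_val, ← Units.val_mul,
          show c ^ r = _ from hc, inv_mul_cancel_comm]
  have h3 : {C | ∃ g, ConjClasses.mk g = C ∧ orderOf g = r} =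
      Set.range (cl ∘ gs) ∪ Set.range (cl ∘ gz) := by
    have hord : ∀ g : GL (Fin n) F, (∃ z : F, g.1 ^ r = z • 1) → (∀ c : F, g.1 ≠ c • 1) →
        orderOf (QuotientGroup.mk g : GL (Fin n) F ⧸ Subgroup.center (GL (Fin n) F)) = r :=
      fun g h h' => orderOf_eq_prime ((PGL_pow_eq_one_iff g r).2 h) fun h4 => by
        obtain ⟨c, hc⟩ := (mem_center_GL_iff g).1 ((QuotientGroup.eq_one_iff _).1 h4)
        exact h' c hc
    ext C
    constructor
    · rintro ⟨x, rfl, hx⟩
      obtain ⟨g, rfl⟩ := QuotientGroup.mk_surjective x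
      obtain ⟨z, hz⟩ := (PGL_pow_eq_one_iff g r).1 (hx ▸ pow_orderOf_eq_one _)
      have hz0 := ne_zero_of_pow_eq_smul g.det_ne_zero hz
      by_cases h4 : ∃ c, c ^ r = z
      · obtain ⟨c, rfl⟩ := h4
        have hc : c ≠ 0 := fun h => hz0 (by simp [h, hr.ne_zero])
        have h5 := inv_smul_pow_eq_one hc hz
        obtain ⟨s, hs⟩ : ∃ s : Multiset G, s.map P = edM (c⁻¹ • g.1) := by
          refine (@Multiset.canLift _ _ P (· ∈ Set.range P) ⟨fun _ h => h⟩).prf _ fun q hq => ?_
          have h6 := (pow_eq_one_iff_edM _ _).1 h5 q hq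
          have h7 := jt_of_split hr hr0 one_ne_zero (by rw [h5]; simp) _
            (Multiset.mem_map_of_mem _ hq)
          rw [(orderOf_eq_one_iff_dvd Fintype.card_pos).2 hrq, or_self] at h7
          have h8 := (edM_isPP hq).monic.eq_X_add_C h7
          rw [← sub_neg_eq_add, ← C_neg] at h8
          rw [h8, dvd_iff_isRoot] at h6
          have h9 : (-q.coeff 0) ^ r = 1 := by simpa [sub_eq_zero] using h6
          exact ⟨rootsOfUnity.mkOfPowEq _ h9, h8.symm⟩
        refine Or.inl ⟨⟨s, ?_, fun a h6 => ?_⟩, ((hcl _ _).2 ⟨_, inv_ne_zero hc, by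
          rw [hgs, hs]⟩).symm⟩
        · simpa [← hs, P] using sum_natDegree_edM (c⁻¹ • g.1)
        · have h7 := (eq_smul_iff_edM _ ((a : Fˣ) : F)).2 fun q hq => by
            rw [← hs, h6, Multiset.map_replicate] at hq
            exact Multiset.eq_of_mem_replicate hq
          rw [(QuotientGroup.eq_one_iff _).2 ((mem_center_GL_iff g).2 ⟨c * (a : Fˣ), by
            rw [← smul_smul, ← h7, smul_smul, mul_inv_cancel₀ hc, one_smul]⟩), orderOf_one] at hx
          exact hr.ne_one hx.symm
      · push Not at h4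
        obtain ⟨k, -, h5⟩ := edM_of_nonsplit hr h4 hz
        exact Or.inr ⟨⟨Units.mk0 z hz0, fun ⟨b, hb⟩ => h4 b (congrArg Units.val hb),
          Dvd.intro_left k (by simpa using h5.symm)⟩, ((hcl _ _).2 ⟨1, one_ne_zero,
          hgz'' _ _ (by rw [one_smul]; exact hz)⟩).symm⟩
    · rintro (⟨s, rfl⟩ | ⟨z, rfl⟩)
      · refine ⟨_, rfl, hord _ ⟨1, by simp [hgr]⟩ fun c hc => ?_⟩
        obtain ⟨a, ha⟩ := Multiset.card_pos_iff_exists_mem.1 (show 0 < s.1.card by rw [s.2.1]; omega)
        have h4 := fun b hb => (eq_smul_iff_edM _ _).1 hc (P b)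
          (hgs s ▸ Multiset.mem_map_of_mem P hb)
        exact s.2.2 a (Multiset.eq_replicate.2 ⟨s.2.1, fun b hb => hP ((h4 b hb).trans (h4 a ha).symm)⟩)
      · refine ⟨_, rfl, hord _ ⟨_, hgz' z⟩ fun c hc => hZ z c ?_⟩
        have h4 := hgz' z
        rw [hc, _root_.smul_pow, one_pow] at h4
        exact smul_left_injective F one_ne_zero h4
  have h4 : Disjoint (Set.range (cl ∘ gs)) (Set.range (cl ∘ gz)) := by
    rw [Set.disjoint_left]
    rintro _ ⟨s, rfl⟩ ⟨z, hz⟩
    obtain ⟨c, -, h⟩ := (hcl _ _).1 hz.symm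
    exact hZ z c (by simpa using hpow h (y := 1) (by simp [hgr]) (hgz' z))
  change Nat.card {C | ∃ g, ConjClasses.mk g = C ∧ orderOf g = r} = _
  rw [h3, Nat.card_coe_set_eq, Set.ncard_union_eq h4, ← Nat.card_coe_set_eq, ← Nat.card_coe_set_eq,
    h1, h2, ← hY]
  have h5 : Nat.card (MulAction.fixedPoints G Y) ≤ Nat.card Y := Nat.card_le_card_of_injective _
    Subtype.val_injective
  rw [hfix] at horb h5
  generalize (if r ∣ n then 1 else 0) = e at *
  generalize Nat.card (Quotient (MulAction.orbitRel G Y)) = o at *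
  obtain ⟨r, rfl⟩ : ∃ r', r = r' + 1 := ⟨r - 1, by have := hr.pos; omega⟩
  obtain ⟨y, hy⟩ := Nat.exists_eq_add_of_le h5
  simp only [hy, Nat.add_sub_cancel, Nat.add_sub_cancel_left] at horb ⊢
  have h6 : e ≤ o := Nat.le_of_mul_le_mul_right (by rw [horb]; nlinarith) r.succ_pos
  obtain ⟨o, rfl⟩ := Nat.exists_eq_add_of_le h6
  rw [show y = o * (r + 1) by nlinarith, Nat.mul_div_cancel _ r.succ_pos]
  ring

end Cfsg.Agent.S2670
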