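import Cfsg.Statements.S2578
import Cfsg.Agent.H16.LA5
-- import your own Cfsg.Agent.* helpers here

set_option autoImplicit false
open Cfsg

namespace Cfsg.Agent.S2578

open H16 Polynomial in
/-- Regular unipotent classes of SL_n(q): for n ≥ 2 over the field with q elements, the matrices u of determinant one with (u − 1)^n = 0 and rank(u − 1) = n − 1 form a single GL_n(q)-class which splits into exactly gcd(n, q − 1) conjugacy classes of SL_n(q). -/
theorem result {F : Type*} [Field F] [Fintype F] {q : ℕ} (hF : Fintype.card F = q) {n : ℕ} (hn : 2 ≤ n) : Nat.card {C : ConjClasses (Matrix.SpecialLinearGroup (Fin n) F) // ∃ u : Matrix.SpecialLinearGroup (Fin n) F, ConjClasses.mk u = C ∧ ((u : Matrix (Fin n) (Fin n) F) - 1) ^ n = 0 ∧ ((u : Matrix (Fin n) (Fin n) F) - 1).rank = n - 1} = Nat.gcd n (q - 1) := by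
  have : Nonempty (Fin n) := ⟨⟨0, by omega⟩⟩
  obtain ⟨u, hu⟩ := exists_uni (F := F) (n := Fin n) (μ := {n}) (by simp; omega) (by simp)
  have hu0 := (uni_pow_eq_zero_iff hu n).2 (by simp)
  have h1 := card_split_classes Matrix.GeneralLinearGroup.det Matrix.GeneralLinearGroup.det_surjective
    (Matrix.SpecialLinearGroup.toGL u) _ Matrix.SpecialLinearGroup.toGL_injective H22.range_toGL (by simp)
  have h2 : (Subgroup.centralizer {Matrix.SpecialLinearGroup.toGL u}).map
      Matrix.GeneralLinearGroup.det = (powMonoidHom n : Fˣ →* Fˣ).range := by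
    ext c
    constructor
    · rintro ⟨P, hP, rfl⟩
      obtain ⟨p, hp⟩ := exists_aeval_of_comm_edM (P := P.1) hu
        (congrArg Units.val (Subgroup.mem_centralizer_singleton_iff.1 hP)).symm
      have h3 := det_aeval_of_unipotent (A := u.1) (a := 1) (k := n) (by simpa using hu0) p
      rw [hp, Fintype.card_fin] at h3
      have h4 : p.eval 1 ≠ 0 := fun h => P.det_ne_zero (by rw [h3, h, zero_pow (by omega)])
      exact ⟨Units.mk0 _ h4, Units.ext (by simp [h3])⟩
    · rintro ⟨c, rfl⟩
      exact ⟨Matrix.GeneralLinearGroup.scalar _ c, Subgroup.mem_centralizer_singleton_iff.2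
        (Matrix.GeneralLinearGroup.scalar_commute _ _), by simp⟩
  rw [h2, IsCyclic.index_powMonoidHom_range, H22.card_units_field, hF, Nat.gcd_comm] at h1
  rw [← h1]
  refine Nat.card_congr (Equiv.subtypeEquivRight fun C => exists_congr fun a => and_congr_right fun _ => ?_)
  rw [GL_isConj_iff]
  constructor
  · rintro ⟨h3, h4⟩
    exact hu.trans (by simpa [uni] using (edM_of_regular h3 (by simpa using h4)).symm)
  · intro h
    have h3 : edM a.1 = uni F {n} := h.symm.trans hu
    have h4 := uni_rank h3
    simp only [Multiset.card_singleton, Fintype.card_fin] at h4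
    exact ⟨(uni_pow_eq_zero_iff h3 n).2 (by simp), by omega⟩

end Cfsg.Agent.S2578
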