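import Cfsg.Statements.S2582
import Cfsg.Agent.H14.Wall9

set_option autoImplicit false
set_option linter.unusedVariables false
set_option linter.style.haveILetI false
open Cfsg H14.Wall H16 H23 Polynomial
open scoped Matrix

namespace Cfsg.Agent.S2582

/-- Which unipotent Jordan types occur in the finite symplectic group: over a finite field, a unipotent matrix with Jordan block sizes d_1, …, d_t (sum 2m, all at least 1) is similar to an element of Sp_2m(F) if and only if every odd block size occurs an even number of times. -/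
theorem result {F : Type*} [Field F] [Fintype F] {m t : ℕ} (d : Fin t → ℕ) (hd : ∀ k, 1 ≤ d k) (hsum : ∑ k, d k = 2 * m) : (∃ e : ((k : Fin t) × Fin (d k)) ≃ (Fin m ⊕ Fin m), ∃ A : Matrix.symplecticGroup (Fin m) F, IsConj (Matrix.reindex e e (Cfsg.jordanTypeMatrix d F)) (A : Matrix (Fin m ⊕ Fin m) (Fin m ⊕ Fin m) F)) ↔ ∀ j : ℕ, Odd j → Even (Finset.univ.filter (fun k : Fin t => d k = j)).card := by
  simp only [← count_univ_map]
  constructor
  · rintro ⟨e, A, h⟩ j ⟨k, rfl⟩
    have h1 := (isConj_iff_edM.1 h).symm.trans (edM_jordan d hd e)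
    refine even_count_of_rank h1 ?_ ?_
    · rw [rank_pow_eq]; exact even_rank_sp (spForm_nondeg m) rfl (sp_pres A).B k
    · rw [rank_pow_eq]; exact even_rank_sp (spForm_nondeg m) rfl (sp_pres A).B (k + 1)
  · intro h
    obtain ⟨Ψ, g, h1, h2, h3, h4, h5⟩ := (real_alt (F := F) (μ := Finset.univ.val.map d)
      (by simpa [Nat.succ_le_iff] using hd) h).exists (W := Fin m ⊕ Fin m → F)
      (by rw [uni_natDegree, finrank_sp, ← hsum]; rfl)
    obtain ⟨A, hA⟩ := exists_sp_of_alt h1 h2 h3 (finrank_sp m) h4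
    refine ⟨Fintype.equivOfCardEq (by simp [hsum, two_mul]), A, isConj_iff_edM.2 ?_⟩
    rw [edM_jordan d hd, ← h5, hA.sim.ed_eq]; rfl

end Cfsg.Agent.S2582
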