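import Cfsg.Statements.S2583
import Cfsg.Agent.H14.Wall9

set_option autoImplicit false
set_option linter.unusedVariables false
set_option linter.style.haveILetI false
open Cfsg H14.Wall H16 H23 Polynomial
open scoped Matrix

namespace Cfsg.Agent.S2583

/-- Which unipotent Jordan types occur in a finite orthogonal group in odd characteristic: over a finite field of odd order, a unipotent matrix with Jordan block sizes d_1, …, d_t (sum n, all at least 1) is similar to an isometry of some quadratic form on F^n with non-degenerate polar form if and only if every even block size occurs an even number of times. -/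
theorem result {F : Type*} [Field F] [Fintype F] (h2 : (2 : F) ≠ 0) {n t : ℕ} (d : Fin t → ℕ) (hd : ∀ k, 1 ≤ d k) (hsum : ∑ k, d k = n) : (∃ Q : QuadraticForm F (Fin n → F), (QuadraticMap.polarBilin Q).Nondegenerate ∧ ∃ e : ((k : Fin t) × Fin (d k)) ≃ Fin n, ∃ A : ↥(Cfsg.isometryGroup F ⇑Q), IsConj (Matrix.reindex e e (Cfsg.jordanTypeMatrix d F)) ((A : Matrix.GeneralLinearGroup (Fin n) F) : Matrix (Fin n) (Fin n) F)) ↔ ∀ j : ℕ, Even j → 0 < j → Even (Finset.univ.filter (fun k : Fin t => d k = j)).card := by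
  simp only [← count_univ_map]
  constructor
  · rintro ⟨Q, hQ, e, A, h⟩ j ⟨k, rfl⟩ hk
    have h1 := (isConj_iff_edM.1 h).symm.trans (edM_jordan d hd e)
    obtain ⟨k, rfl⟩ : ∃ l, k = l + 1 := ⟨k - 1, by omega⟩
    have hu : IsUnit (Matrix.toLin' A.1.1 + 1) := by
      have := (isUnit_aeval_iff_ed (Matrix.toLin' A.1.1) (X - C (-1))).2 fun q hq => by
        change q ∈ edM _ at hq
        rw [h1] at hq
        obtain ⟨i, -, rfl⟩ := Multiset.mem_map.1 hq
        refine (isCoprime_X_sub_C_of_isUnit_sub (Ne.isUnit fun h => h2 ?_)).pow_right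
        linear_combination -h
      simpa using this
    rw [show k + 1 + (k + 1) = 2 * k + 1 + 1 by ring]
    refine even_count_of_rank h1 ?_ ?_
    · rw [rank_pow_eq]; exact even_rank_o (Form.ofQuad_nondeg hQ) rfl (o_pres A).B hu k
    · rw [rank_pow_eq]; exact even_rank_o (Form.ofQuad_nondeg hQ) rfl (o_pres A).B hu (k + 1)
  · intro h
    obtain ⟨Ψ, g, h1, h2, h3, h4, h5⟩ := (real_quad h2 (μ := Finset.univ.val.map d)
      (by simpa [Nat.succ_le_iff] using hd) h).exists (W := Fin n → F)
      (by rw [uni_natDegree, Module.finrank_fin_fun, ← hsum]; rfl)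
    obtain ⟨Q, rfl⟩ := H22.exists_eq_ofQuad Ψ h3
    obtain ⟨A, rfl⟩ := exists_o h1 h4
    refine ⟨Q, Form.ofQuad_nondeg_iff.1 h1, Fintype.equivOfCardEq (by simp [hsum]), A,
      isConj_iff_edM.2 ?_⟩
    rw [edM_jordan d hd, ← h5]; rfl

end Cfsg.Agent.S2583
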