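import Cfsg.Statements.S2584
import Cfsg.Agent.H14.Wall13

set_option autoImplicit false
set_option linter.unusedVariables false
set_option linter.style.haveILetI false
open Cfsg H14.Wall H16 H23 Polynomial
open scoped Matrix

namespace Cfsg.Agent.S2584

/-- Which unipotent Jordan types occur in a finite orthogonal group in characteristic two: over a finite field of characteristic 2 and in even dimension 2m, a unipotent matrix with Jordan block sizes d_1, …, d_t (sum 2m, all at least 1) is similar to an isometry of some quadratic form on F^(2m) with non-degenerate polar form if and only if every odd block size occurs an even number of times (the same condition as for the symplectic group, which contains these orthogonal groups). -/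
theorem result {F : Type*} [Field F] [Fintype F] [CharP F 2] {m t : ℕ} (d : Fin t → ℕ) (hd : ∀ k, 1 ≤ d k) (hsum : ∑ k, d k = 2 * m) : (∃ Q : QuadraticForm F (Fin (2 * m) → F), (QuadraticMap.polarBilin Q).Nondegenerate ∧ ∃ e : ((k : Fin t) × Fin (d k)) ≃ Fin (2 * m), ∃ A : ↥(Cfsg.isometryGroup F ⇑Q), IsConj (Matrix.reindex e e (Cfsg.jordanTypeMatrix d F)) ((A : Matrix.GeneralLinearGroup (Fin (2 * m)) F) : Matrix (Fin (2 * m)) (Fin (2 * m)) F)) ↔ ∀ j : ℕ, Odd j → Even (Finset.univ.filter (fun k : Fin t => d k = j)).card := by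
  simp only [← count_univ_map]
  constructor
  · rintro ⟨Q, hQ, e, A, h⟩ j ⟨k, rfl⟩
    have h1 := (isConj_iff_edM.1 h).symm.trans (edM_jordan d hd e)
    refine even_count_of_rank h1 ?_ ?_
    · rw [rank_pow_eq]; exact even_rank_sp (Form.ofQuad_nondeg hQ) (c2_eps _) (o_pres A).B k
    · rw [rank_pow_eq]; exact even_rank_sp (Form.ofQuad_nondeg hQ) (c2_eps _) (o_pres A).B (k + 1)
  · intro h
    obtain ⟨Ψ, g, h1, h2, h3, h4, h5⟩ := (real_alt (F := F) (μ := Finset.univ.val.map d)
      (by simpa [Nat.succ_le_iff] using hd) h).exists (W := Fin m ⊕ Fin m → F)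
      (by rw [uni_natDegree, finrank_sp, ← hsum]; rfl)
    obtain ⟨A, hA⟩ := exists_sp_of_alt h1 h2 h3 (finrank_sp m) h4
    obtain ⟨Q, h6, h7⟩ := dye_sp A
    have h8 : (Form.ofQuad Q).Nondeg := fun x hx => spForm_nondeg m x fun y => by
      simpa [h6] using hx y
    obtain ⟨Ψ', g', h1', h2', h3', h4', h5'⟩ := exists_transport (W := Fin (2 * m) → F) h8
      (g := Matrix.toLin' A.1) ⟨fun x y => by simpa [h6] using (sp_pres A).B x y, h7⟩
      (by rw [finrank_sp]; simp)
    obtain ⟨Q', rfl⟩ := H22.exists_eq_ofQuad Ψ' h3'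
    obtain ⟨A', rfl⟩ := exists_o h1' h4'
    refine ⟨Q', Form.ofQuad_nondeg_iff.1 h1', Fintype.equivOfCardEq (by simp [hsum]), A',
      isConj_iff_edM.2 ?_⟩
    rw [edM_jordan d hd, ← h5, hA.sim.ed_eq, ← h5']; rfl

end Cfsg.Agent.S2584
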