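import Cfsg.Statements.S2588
import Cfsg.Agent.H14.Wall2

set_option autoImplicit false
set_option linter.unusedVariables false
set_option linter.style.haveILetI false
open Cfsg H14.Wall H16 H23 Polynomial
open scoped Matrix

namespace Cfsg.Agent.S2588

/-- An invertible matrix A over the field with q² elements is conjugate in GL_n(q²) to an element of the general unitary group GU_n(q) (isometries of the Hermitian form Σ u_i v_i^q) if and only if A is similar to the inverse transpose of its entrywise q-th power (A ~ A^(−qT), the image of A under the map sending a matrix to the inverse transpose of its entrywise q-th power — inverse transpose composed with the field automorphism — whose fixed points form GU_n(q)). -/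
theorem result {K : Type*} [Field K] [Fintype K] {q n : ℕ} (hK : Fintype.card K = q ^ 2) (A : GL (Fin n) K) : (∃ B : ↥(Cfsg.GU n K q), IsConj A (B : GL (Fin n) K)) ↔ IsConj (A : Matrix (Fin n) (Fin n) K) (((A : Matrix (Fin n) (Fin n) K).map (fun x : K => x ^ q)).transpose)⁻¹ := by
  have hu' : IsUnit (ct (conj hK) A.1).det := by rw [det_ct]; exact ((_root_.map_ne_zero _).2 A.det_ne_zero).isUnit
  have h1 : edM (ct (conj hK) A.1)⁻¹ = (edM A.1).map (dual (conj hK)) := by
    rw [edM_inv (Matrix.mul_nonsing_inv _ hu'), edM_ct (conj_conj hK), Multiset.map_map]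
    rfl
  change _ ↔ IsConj A.1 (ct (conj hK) A.1)⁻¹
  rw [isConj_iff_edM, h1]
  constructor
  · rintro ⟨B, hB⟩
    rw [GL_isConj_iff.1 hB, GU_edM_dual hK]
  · intro h
    obtain ⟨B, hB, hB'⟩ := U_exists' (conj_conj hK) (conj_ne_id hK) A.det_ne_zero h.symm
    exact ⟨mkGU hK B hB, GL_isConj_iff.2 hB'.symm⟩

end Cfsg.Agent.S2588
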