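import Cfsg.Statements.S2591
import Cfsg.Agent.H14.Mil8

set_option autoImplicit false
set_option linter.unusedVariables false
set_option linter.style.haveILetI false
open Cfsg H14.Wall H16 H23 Polynomial
open scoped Matrix

namespace Cfsg.Agent.S2591

/-- Over a finite field of odd order and for m ≥ 1, the regular unipotent elements of Sp_2m(F) (u − 1 nilpotent of rank 2m − 1, a single Jordan block) form exactly two conjugacy classes of Sp_2m(F) (one class under the similarity group, which splits in two). -/
theorem result {F : Type*} [Field F] [Fintype F] {q : ℕ} (hF : Fintype.card F = q) (hq : Odd q) {m : ℕ} (hm : 1 ≤ m) : Nat.card {C : ConjClasses ↥(Matrix.symplecticGroup (Fin m) F) // ∃ u : Matrix.symplecticGroup (Fin m) F, ConjClasses.mk u = C ∧ ((u : Matrix (Fin m ⊕ Fin m) (Fin m ⊕ Fin m) F) - 1) ^ (2 * m) = 0 ∧ ((u : Matrix (Fin m ⊕ Fin m) (Fin m ⊕ Fin m) F) - 1).rank = 2 * m - 1} = 2 := by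
  classical
  rw [card_unip_sp (two_ne_zero_of_odd_card (hF ▸ hq)) m (· = {2 * m})]
  · rw [Finset.sum_eq_single (Nat.Partition.indiscrete (2 * m))]
    · rw [Nat.Partition.indiscrete_parts (by omega)]
      simp [Finset.filter_singleton]
    · intro μ h1 h2
      simp only [Finset.mem_filter] at h1
      exact (h2 (Nat.Partition.ext (h1.2.1.trans
        (Nat.Partition.indiscrete_parts (by omega)).symm))).elim
    · refine fun h => (h ?_).elim
      simp only [Finset.mem_filter]
      rw [Nat.Partition.indiscrete_parts (by omega)]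
      refine ⟨Finset.mem_univ _, rfl, fun j hj => ?_⟩
      rw [Multiset.count_singleton, if_neg (by rintro rfl; exact Nat.not_odd_iff_even.2 (by simp) hj)]
      simp
  · intro u
    constructor
    · rintro ⟨hnil, hreg⟩
      have h1 := edM_eq_uni hnil
      have h2 := uni_rank h1
      have h3 := jt_sum u.1
      rw [hreg, Fintype.card_sum, Fintype.card_fin] at h2
      obtain ⟨a, ha⟩ := Multiset.card_eq_one.1 (show (jt u.1).card = 1 by omega)
      rw [ha, Multiset.sum_singleton, Fintype.card_sum, Fintype.card_fin, ← two_mul] at h3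
      exact ⟨h1, h3 ▸ ha⟩
    · rintro ⟨h1, h2⟩
      have h3 := uni_rank h1
      rw [h2, Fintype.card_sum, Fintype.card_fin, Multiset.card_singleton] at h3
      exact ⟨(uni_pow_eq_zero_iff h1 _).2 (by simp [h2]), by omega⟩

end Cfsg.Agent.S2591
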