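import Cfsg.Statements.S2592
import Cfsg.Agent.H14.Mil8

set_option autoImplicit false
set_option linter.unusedVariables false
set_option linter.style.haveILetI false
open Cfsg H14.Wall H16 H23 Polynomial
open scoped Matrix

namespace Cfsg.Agent.S2592

/-- Over a finite field with q elements, q odd, the centraliser in Sp_2m(F) (m ≥ 1) of a regular unipotent element (u − 1 nilpotent of rank 2m − 1) has order 2 q^m. -/
theorem result {F : Type*} [Field F] [Fintype F] {q : ℕ} (hF : Fintype.card F = q) (hq : Odd q) {m : ℕ} (hm : 1 ≤ m) (u : Matrix.symplecticGroup (Fin m) F) (hnil : ((u : Matrix (Fin m ⊕ Fin m) (Fin m ⊕ Fin m) F) - 1) ^ (2 * m) = 0) (hreg : ((u : Matrix (Fin m ⊕ Fin m) (Fin m ⊕ Fin m) F) - 1).rank = 2 * m - 1) : Nat.card ↥(Subgroup.centralizer ({u} : Set ↥(Matrix.symplecticGroup (Fin m) F))) = 2 * q ^ m := by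
  have h1 := edM_eq_uni hnil
  have h2 := uni_rank h1
  have h3 := jt_sum u.1
  rw [hreg, Fintype.card_sum, Fintype.card_fin] at h2
  obtain ⟨a, ha⟩ := Multiset.card_eq_one.1 (show (jt u.1).card = 1 by omega)
  rw [ha, Multiset.sum_singleton, Fintype.card_sum, Fintype.card_fin, ← two_mul] at h3
  rw [ha, h3] at h1
  rw [card_cent_equiv (spE m F), card_cent_reg (two_ne_zero_of_odd_card (hF ▸ hq)) (spForm_nondeg m)
    rfl hm (g := spE m F u) h1, Nat.card_eq_fintype_card, hF]

end Cfsg.Agent.S2592
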