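import Cfsg.Statements.S2593
import Cfsg.Agent.H14.Wall13

set_option autoImplicit false
set_option linter.unusedVariables false
set_option linter.style.haveILetI false
open Cfsg H14.Wall H16 H23 Polynomial
open scoped Matrix

namespace Cfsg.Agent.S2593

/-- Number of conjugacy classes of involutions in the symplectic group Sp_2m(F) over a finite field of characteristic two (m ≥ 1): for each s with 1 ≤ s ≤ m there is one class with rank(t − 1) = s if s is odd and two if s is even (according as v ↦ f(v, tv), f the symplectic form, vanishes identically or not), so m + ⌊m/2⌋ classes in all. -/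
theorem result {F : Type*} [Field F] [Fintype F] [CharP F 2] {m : ℕ} (hm : 1 ≤ m) : Nat.card {C : ConjClasses ↥(Matrix.symplecticGroup (Fin m) F) // ∃ g : Matrix.symplecticGroup (Fin m) F, ConjClasses.mk g = C ∧ orderOf g = 2} = m + m / 2 := by
  rw [card_classes_equiv (spE m F)]
  refine card_invol_classes (spForm_nondeg m) (.inl rfl) (finrank_sp m) (W := H22.kerR F m)
    ⟨fun u hu v hv => ?_, fun _ _ => rfl⟩ (H22.finrank_kerR m) (fun U hU => ?_) (by omega)
  · rw [spForm_B, ← polar_qPlus_eq]
    exact (H22.totSing_kerR m).1 u hu v hv
  · have := (spForm_nondeg m).two_mul_finrank_le hU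
    rw [finrank_sp] at this; omega

end Cfsg.Agent.S2593
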