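import Cfsg.Statements.S2594
import Cfsg.Agent.H14.Wall13
import Cfsg.Agent.S2680

set_option autoImplicit false
set_option linter.unusedVariables false
set_option linter.style.haveILetI false
open Cfsg H14.Wall H16 H23 Polynomial
open scoped Matrix

namespace Cfsg.Agent.S2594

/-- Over a finite field with q elements, q even, an element t of Sp_2m(F) with rank(t − 1) = 1 (a symplectic transvection) has centraliser in Sp_2m(F) of order q^(2m−1) · |Sp_(2m−2)(q)| = q^(2m−1) · q^((m−1)²) · Π_(i=1)^(m−1) (q^(2i) − 1). -/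
theorem result {F : Type*} [Field F] [Fintype F] [CharP F 2] {q : ℕ} (hF : Fintype.card F = q) {m : ℕ} (hm : 1 ≤ m) (t : Matrix.symplecticGroup (Fin m) F) (ht : ((t : Matrix (Fin m ⊕ Fin m) (Fin m ⊕ Fin m) F) - 1).rank = 1) : Nat.card ↥(Subgroup.centralizer ({t} : Set ↥(Matrix.symplecticGroup (Fin m) F))) = q ^ (2 * m - 1) * (q ^ ((m - 1) ^ 2) * ∏ i : Fin (m - 1), (q ^ (2 * ((i : ℕ) + 1)) - 1)) := by
  have h1 : spE m F t * spE m F t = 1 := by
    set g := spE m F t
    have hΦ := spForm_nondeg (F := F) m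
    have h2 : ∀ x, nl g (nl g x) = 0 := fun x => by
      have h3 : nl g x ∈ (spForm m F).perp (LinearMap.range (nl g)) := by
        rw [← rk_spE, rk, finrank_eq_one_iff'] at ht
        obtain ⟨u, -, hu⟩ := ht
        refine (Form.mem_perp _).2 fun y hy => ?_
        obtain ⟨a, ha⟩ := hu ⟨y, hy⟩
        obtain ⟨b, hb⟩ := hu ⟨_, x, rfl⟩
        rw [← show a • u.1 = y from congrArg Subtype.val ha,
          ← show b • u.1 = nl g x from congrArg Subtype.val hb]
        simp only [map_smul, LinearMap.smul_apply, c2_self, smul_zero]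
      rw [perp_range hΦ, nl, adj_sub_one hΦ (pres_O g).B] at h3
      exact ((Module.End.isUnit_iff _).1 (isUnit_adj hΦ (pres_O g).B).neg).1
        (h3.trans (map_zero _).symm)
    refine H22.O_ext _ fun x => ?_
    have := h2 x
    rw [nl_apply, nl_apply, map_sub, sub_sub, sub_eq_zero] at this
    change g.1 (g.1 x) = x
    rw [this, ← add_sub_assoc, c2_add_self F, zero_sub, neg_eq_iff_add_eq_zero, c2_add_self F]
  rw [S2680.result hF t ((spE m F).injective (by rw [map_pow, sq, h1, map_one])) ht odd_one]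
  simp

end Cfsg.Agent.S2594
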