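import Cfsg.Statements.S2595
import Cfsg.Agent.H14.Wall13

set_option autoImplicit false
set_option linter.unusedVariables false
set_option linter.style.haveILetI false
open Cfsg H14.Wall H16 H23 Polynomial
open scoped Matrix

namespace Cfsg.Agent.S2595

/-- Number of conjugacy classes of involutions in the full orthogonal group O⁺_2m(F) of the hyperbolic quadratic form Σ x_i y_i over a finite field of characteristic two (m ≥ 1): one class for each odd s ≤ m and two for each even s with 2 ≤ s ≤ m, where s = rank(t − 1); in all m + ⌊m/2⌋. -/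
theorem result {F : Type*} [Field F] [Fintype F] [CharP F 2] {m : ℕ} (hm : 1 ≤ m) : Nat.card {C : ConjClasses ↥(Cfsg.isometryGroup F (Cfsg.quadFormPlus m F)) // ∃ g : ↥(Cfsg.isometryGroup F (Cfsg.quadFormPlus m F)), ConjClasses.mk g = C ∧ orderOf g = 2} = m + m / 2 := by
  refine (card_classes_equiv (H22.isomEquiv (H22.qPlus m F)) 2).trans ?_
  refine card_invol_classes (H22.qPlus_nondeg m) (.inr rfl) (finrank_sp m) (H22.totSing_kerR m)
    (H22.finrank_kerR m) (fun U hU => ?_) (by omega)
  have := (H22.qPlus_nondeg m).two_mul_finrank_le hU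
  rw [finrank_sp] at this; omega

end Cfsg.Agent.S2595
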