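import Cfsg.Statements.S2597
import Cfsg.Agent.H14.Wall13

set_option autoImplicit false
set_option linter.unusedVariables false
set_option linter.style.haveILetI false
open Cfsg H14.Wall H16 H23 Polynomial
open scoped Matrix

namespace Cfsg.Agent.S2597

/-- Number of conjugacy classes of involutions in Ω⁺_2m(F) (the commutator subgroup of the orthogonal group of Σ x_i y_i) over a finite field F of characteristic two, m ≥ 1, excluding the case m = 2 over the field of two elements: the involutions of Ω are those with s = rank(t − 1) even, giving two O-classes for each even s with 2 ≤ s ≤ m, each of which is a single Ω-class except that for m even the class with s = m and v ↦ f(v, tv) identically zero splits in two; in all 2⌊m/2⌋ + 1 classes if m is even and 2⌊m/2⌋ if m is odd. -/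
theorem result {F : Type*} [Field F] [Fintype F] [CharP F 2] {m : ℕ} (hm : 1 ≤ m) (h : Fintype.card F ≠ 2 ∨ m ≠ 2) : Nat.card {C : ConjClasses ↥(Cfsg.Omega F (Cfsg.quadFormPlus m F)) // ∃ g : ↥(Cfsg.Omega F (Cfsg.quadFormPlus m F)), ConjClasses.mk g = C ∧ orderOf g = 2} = 2 * (m / 2) + (if Even m then 1 else 0) := by
  refine (card_classes_equiv (H22.commutatorCongr (H22.isomEquiv (H22.qPlus m F))) 2).trans ?_
  split_ifs with h1
  · rw [card_omega_classes' (H22.qPlus_nondeg m) rfl (H22.genHyp_plus h) (finrank_sp m)
      (H22.totSing_kerR m) (H22.finrank_kerR m) hm h1]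
    omega
  · rw [card_omega_classes (H22.qPlus_nondeg m) rfl (H22.genHyp_plus h) (finrank_sp m)
      (H22.totSing_kerR m) (H22.finrank_kerR m) (fun U hU => ?_) (by omega)
      (.inr (Nat.not_even_iff_odd.1 h1))]
    · omega
    · have := (H22.qPlus_nondeg m).two_mul_finrank_le hU
      rw [finrank_sp] at this; omega

end Cfsg.Agent.S2597
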