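import Cfsg.Statements.S2599
import Cfsg.Agent.H14.Wall13

set_option autoImplicit false
set_option linter.unusedVariables false
set_option linter.style.haveILetI false
open Cfsg H14.Wall H16 H23 Polynomial
open scoped Matrix

namespace Cfsg.Agent.S2599

/-- An irreducible invariant subspace of a semisimple isometry is non-degenerate or totally singular: let Q be a quadratic form on F^n (F finite of characteristic p) with non-degenerate polar form f, x an isometry of Q of order prime to p, and U a non-zero x-invariant subspace containing no x-invariant subspace other than 0 and U. Then U meets its f-orthogonal trivially, or Q vanishes on U, or p = 2, U is a line spanned by a non-singular vector and x fixes U pointwise. -/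
theorem result {F : Type*} [Field F] [Fintype F] {p : ℕ} [Fact p.Prime] [CharP F p] {n : ℕ} (Q : QuadraticForm F (Fin n → F)) (hQ : (QuadraticMap.polarBilin Q).Nondegenerate) (x : ↥(Cfsg.isometryGroup F ⇑Q)) (hx : (orderOf x).Coprime p) (U : Submodule F (Fin n → F)) (hU0 : U ≠ ⊥) (hUx : ∀ u ∈ U, ((x : Matrix.GeneralLinearGroup (Fin n) F) : Matrix (Fin n) (Fin n) F).mulVec u ∈ U) (hirr : ∀ W : Submodule F (Fin n → F), W ≤ U → (∀ w ∈ W, ((x : Matrix.GeneralLinearGroup (Fin n) F) : Matrix (Fin n) (Fin n) F).mulVec w ∈ W) → W = ⊥ ∨ W = U) : U ⊓ LinearMap.BilinForm.orthogonal (QuadraticMap.polarBilin Q) U = ⊥ ∨ (∀ u ∈ U, Q u = 0) ∨ (p = 2 ∧ Module.finrank F U = 1 ∧ (∃ u ∈ U, Q u ≠ 0) ∧ ∀ u ∈ U, ((x : Matrix.GeneralLinearGroup (Fin n) F) : Matrix (Fin n) (Fin n) F).mulVec u = u) := by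
  have hΦ := Form.ofQuad_nondeg hQ
  have hP := o_pres x
  have h0 : U ⊓ LinearMap.BilinForm.orthogonal (QuadraticMap.polarBilin Q) U =
      U ⊓ (Form.ofQuad Q).perp U := rfl
  rcases hirr _ inf_le_left (fun w hw => ⟨hUx w hw.1, hP.perp_inv hΦ (A := U) hUx w hw.2⟩) with h | h
  · exact .inl h
  refine .inr (or_iff_not_imp_left.2 fun h1 => ?_)
  have h2 : ∀ u ∈ U, ∀ v ∈ U, QuadraticMap.polar Q u v = 0 := fun u hu v hv =>
    (Form.mem_perp _).1 (h.ge hv).2 u hu
  push Not at h1
  obtain ⟨u, hu, hu'⟩ := h1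
  have h3 : (2 : F) = 0 := by
    have := h2 u hu u hu
    rw [QuadraticMap.polar_self, two_nsmul, ← two_mul] at this
    exact (mul_eq_zero.1 this).resolve_right hu'
  haveI : CharP F 2 := CharTwo.of_one_ne_zero_of_two_eq_zero one_ne_zero h3
  obtain ⟨l, hl⟩ := exists_sq_dual (X := U) (D := fun v => Q v) (fun a b => by
    have := h2 _ a.2 _ b.2
    rw [QuadraticMap.polar] at this
    rw [Submodule.coe_add]; linear_combination this) fun c a => by
      rw [Submodule.coe_smul, QuadraticMap.map_smul, smul_eq_mul, sq]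
  have h4 : l ≠ 0 := fun h => hu' (by simpa [h] using hl ⟨u, hu⟩)
  have h5 : (LinearMap.ker l).map U.subtype = ⊥ := by
    refine (hirr _ (Submodule.map_subtype_le _ _) ?_).resolve_right fun h => ?_
    · rintro _ ⟨w, hw, rfl⟩
      refine ⟨⟨_, hUx _ w.2⟩, ?_, rfl⟩
      have := (hl ⟨_, hUx _ w.2⟩).symm.trans ((hP.Q w).trans (hl w))
      rw [LinearMap.mem_ker.1 hw] at this
      simpa using this
    · obtain ⟨w, hw, hw'⟩ := h.ge hu
      have := hl w
      rw [LinearMap.mem_ker.1 hw, show (w : Fin n → F) = u from hw'] at this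
      exact hu' (by simpa using this)
  replace h5 : LinearMap.ker l = ⊥ :=
    Submodule.map_injective_of_injective U.injective_subtype (h5.trans (Submodule.map_bot _).symm)
  have h6 := Module.Dual.finrank_ker_add_one_of_ne_zero h4
  rw [h5, finrank_bot] at h6
  refine ⟨CharP.eq F ‹_› ‹_›, by simpa using h6.symm, ⟨u, hu, hu'⟩, fun v hv => ?_⟩
  have h7 : l ⟨_, hUx v hv⟩ = l ⟨v, hv⟩ :=
    eq_of_sq_eq ((hl ⟨_, hUx v hv⟩).symm.trans ((hP.Q v).trans (hl ⟨v, hv⟩)))
  exact congrArg Subtype.val (LinearMap.ker_eq_bot.1 h5 h7)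

end Cfsg.Agent.S2599
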