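import Cfsg.Statements.S2600
import Cfsg.Agent.H22.SpG

set_option autoImplicit false
open Cfsg

namespace Cfsg.Agent.S2600

/-- Outer automorphism group of PSp_4(q) for q = 2^f even: it is cyclic of order 2f, generated by the class of the exceptional (graph-field) automorphism whose square is the Frobenius field automorphism. -/
theorem result {F : Type*} [Field F] [Fintype F] {f : ℕ} (hf : 1 ≤ f) (hF : Fintype.card F = 2 ^ f) : IsCyclic (Cfsg.Out (Cfsg.PSp 2 F)) ∧ Nat.card (Cfsg.Out (Cfsg.PSp 2 F)) = 2 * f := by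
  have := Fact.mk Nat.prime_two
  have := H22.charP_of_card hF
  refine ⟨H22.isCyclic_out_sp_two hF, H22.card_out_of_card_aut
    (H22.spModel 2 le_rfl).center_eq_bot ((H22.card_aut_sp hF le_rfl).trans ?_)⟩
  rw [Nat.Coprime.gcd_eq_one ((Nat.coprime_two_left).2 (Nat.Even.sub_odd Nat.one_le_two_pow
    (even_two.pow_of_ne_zero (by omega)) odd_one))]
  simp

end Cfsg.Agent.S2600
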