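import Cfsg.Statements.S2601
import Cfsg.Agent.H22.AutN
import Cfsg.Agent.S0813

set_option autoImplicit false
open Cfsg

namespace Cfsg.Agent.S2601

/-- Structure of the outer automorphism group of PSL_n(q), n ≥ 3, q = p^f: it has a normal cyclic subgroup of order gcd(n, q − 1) (the diagonal automorphisms) whose quotient is the direct product of a cyclic group of order f (field automorphisms) and a group of order 2 (the inverse-transpose graph automorphism). -/
theorem result {F : Type*} [Field F] [Fintype F] {p f n : ℕ} [Fact p.Prime] (hf : 1 ≤ f) (hF : Fintype.card F = p ^ f) (hn : 3 ≤ n) : ∃ φ : Cfsg.Out (Matrix.ProjectiveSpecialLinearGroup (Fin n) F) →* Multiplicative (ZMod f × ZMod 2), Function.Surjective φ ∧ IsCyclic φ.ker ∧ Nat.card φ.ker = Nat.gcd n (p ^ f - 1) := by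
  have h := (H22.slNorms F (Fin n)).outData (fun _ => trivial) (H22.ker_ind_sl (by simp; omega))
  obtain ⟨t, ht⟩ := h.exists_theta
  obtain ⟨e⟩ := H22.nonempty_ringAut_equiv hF
  have := H22.finite_out (Matrix.ProjectiveSpecialLinearGroup (Fin n) F)
  have hle := (H22.slNorms F (Fin n)).inn_le fun _ => trivial
  have hH : (H22.slNorms F (Fin n)).out.range.index = 2 := by
    rw [H22.Norms.out, MonoidHom.range_comp, Subgroup.index_map_eq _
      (QuotientGroup.mk'_surjective _) (by rwa [QuotientGroup.ker_mk']),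
      H22.index_ind_sl (by simpa using hn)]
  have hτ : QuotientGroup.mk' _ (H22.itBar F (Fin n)) ∉ (H22.slNorms F (Fin n)).out.range := by
    rintro ⟨a, ha⟩
    exact H22.itBar_not_mem (by simpa using hn)
      ((Subgroup.mul_mem_cancel_left _ (inv_mem (MonoidHom.mem_range.mpr ⟨a, rfl⟩))).mp (hle (QuotientGroup.eq.mp ha)))
  obtain ⟨φ, h1, h2⟩ := H22.exists_extend_index_two hH (e.toMonoidHom.comp t) hτ
    (by rw [← map_mul, H22.itBar_mul_self, map_one]) (by
      rintro ⟨_, ⟨a, ha⟩, rfl⟩
      obtain ⟨g, hg⟩ := H22.exists_semi a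
      generalize a.θ = θ at hg
      subst hg
      refine ⟨⟨_, ⟨H22.semi (H22.itGL g) θ, trivial⟩, rfl⟩, ?_, congrArg e
        ((ht ⟨H22.semi (H22.itGL g) θ, trivial⟩).trans (ht ⟨H22.semi g θ, trivial⟩).symm)⟩
      exact (congrArg (QuotientGroup.mk' _) (H22.itBar_conj g θ)).symm)
  have h3 : Function.Surjective φ := by
    rintro ⟨x, y⟩
    obtain ⟨θ, rfl⟩ := e.surjective x
    have h4 := h1 ((H22.slNorms F (Fin n)).out.rangeRestrict ⟨H22.stdSL _ θ, trivial⟩)
    rw [MonoidHom.comp_apply, ht] at h4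
    have : ∀ y : Multiplicative (ZMod 2), y = 1 ∨ y = Multiplicative.ofAdd 1 := by decide
    rcases this y with rfl | rfl
    · exact ⟨_, h4⟩
    · exact ⟨_, (map_mul φ _ _).trans ((congrArg₂ (· * ·) h4 h2).trans (by simp))⟩
  have h4 : φ.ker = t.ker.map (Subgroup.subtype _) := by
    ext x
    refine ⟨fun hx => ?_, ?_⟩
    · by_cases hx' : x ∈ (H22.slNorms F (Fin n)).out.range
      · exact ⟨⟨x, hx'⟩, by simpa using congrArg Prod.fst ((h1 ⟨x, hx'⟩).symm.trans hx), rfl⟩
      · have h5 := h1 ⟨_, (Subgroup.mul_mem_iff_of_index_two hH).mpr (iff_of_false hx' hτ)⟩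
        rw [map_mul, MonoidHom.mem_ker.mp hx, h2, one_mul] at h5
        exact absurd (congrArg Prod.snd h5) (by
          change Multiplicative.ofAdd (1 : ZMod 2) ≠ 1
          decide)
    · rintro ⟨x, hx, rfl⟩
      exact (h1 x).trans (by simp [show t x = 1 from hx])
  refine H22.exists_hom_of_equiv φ h3 (MulEquiv.prodMultiplicative _ _).symm
    (h4 ▸ have := H22.isCyclic_ker_theta_sl h ht; isCyclic_of_surjective _
      (t.ker.equivMapOfInjective _ Subtype.val_injective).surjective)
    (H22.card_out_of_card_aut (H22.center_PSL (by simp; omega)) ?_)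
  have : NeZero f := ⟨by omega⟩
  rw [S0813.result p f hf hF n (by omega) (by omega), H22.card_PGL_eq (by omega), hF,
    if_neg (by omega)]
  simp
  ring

end Cfsg.Agent.S2601
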