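import Cfsg.Statements.S2605
import Cfsg.Agent.H22.OutC
import Cfsg.Agent.S0818

set_option autoImplicit false
open Cfsg

namespace Cfsg.Agent.S2605

/-- Outer automorphism group of PΩ⁻_2m(q), m ≥ 4, q = 2^f: cyclic of order 2f, generated by a semilinear map inducing the Frobenius automorphism of the field (its f-th power is a graph automorphism, an orthogonal transvection). -/
theorem result {F : Type*} [Field F] [Fintype F] {f m : ℕ} (hf : 1 ≤ f) (hF : Fintype.card F = 2 ^ f) (hm : 4 ≤ m) (a b : F) (hab : ∀ z₁ z₂ : F, z₁ ^ 2 + a * z₁ * z₂ + b * z₂ ^ 2 = 0 → z₁ = 0 ∧ z₂ = 0) : IsCyclic (Cfsg.Out (Cfsg.POmega F (Cfsg.quadFormMinus (m - 1) F a b))) ∧ Nat.card (Cfsg.Out (Cfsg.POmega F (Cfsg.quadFormMinus (m - 1) F a b))) = 2 * f := by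
  have := Fact.mk Nat.prime_two
  have h2 : (2 : F) = 0 := (H22.two_eq_zero_iff hF).mpr rfl
  have := H22.charP_of_card hF
  have h0 := S0818.result 2 f hf hF m hm a b hab
  generalize hk : m - 1 = k at h0 ⊢
  have h5 : 5 ≤ Fintype.card ((Fin k ⊕ Fin k) ⊕ Fin 2) := by simp; omega
  have hQ := H22.qMinus_nondeg k hab
  have := H22.finite_POmega (Cfsg.quadFormMinus k F a b)
  have := H22.finite_out (Cfsg.POmega F (Cfsg.quadFormMinus k F a b))
  have h1 := H22.card_out_of_card_aut (H22.center_POmega hQ h5) h0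
  simp only [if_true] at h1
  refine ⟨?_, h1⟩
  obtain ⟨t, ht⟩ := H22.exists_oData_top hQ h5 (H22.range_ind_minus (by omega) hab)
  obtain ⟨φ, u, -, p2, p3, p4⟩ := H22.exists_frob_qMinus hF k hab
  exact isCyclic_of_orderOf_eq_card _ ((ht.orderOf_two_mul hQ rfl (p2 ▸ (H22.ringAut_facts hF).2)
    (ht.refl_ne_one_of_two rfl hQ (H22.genHyp_of hQ rfl (.inr (by simp; omega))) h2 p3) p4).trans
    h1.symm)

end Cfsg.Agent.S2605
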