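import Cfsg.Statements.S2606
import Cfsg.Agent.H22.OutC
import Cfsg.Agent.S0818

set_option autoImplicit false
open Cfsg

namespace Cfsg.Agent.S2606

/-- Outer automorphism group of PΩ⁻_2m(q), m ≥ 4, q = p^f odd: it is dihedral of order 8 times cyclic of order f when q ≡ 3 (mod 4) and m is odd, and otherwise the direct product of a group of order 2 with a cyclic group of order 2f. -/
theorem result {F : Type*} [Field F] [Fintype F] {p f m : ℕ} [Fact p.Prime] (hf : 1 ≤ f) (hF : Fintype.card F = p ^ f) (hp : p ≠ 2) (hm : 4 ≤ m) (a b : F) (hab : ∀ z₁ z₂ : F, z₁ ^ 2 + a * z₁ * z₂ + b * z₂ ^ 2 = 0 → z₁ = 0 ∧ z₂ = 0) : if p ^ f % 4 = 3 ∧ Odd m then Nonempty (Cfsg.Out (Cfsg.POmega F (Cfsg.quadFormMinus (m - 1) F a b)) ≃* DihedralGroup 4 × Multiplicative (ZMod f)) else Nonempty (Cfsg.Out (Cfsg.POmega F (Cfsg.quadFormMinus (m - 1) F a b)) ≃* Multiplicative (ZMod 2 × ZMod (2 * f))) := by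
  have h2 : (2 : F) ≠ 0 := mt (H22.two_eq_zero_iff hF).mp hp
  have := H22.charP_of_card hF
  have h0 := S0818.result p f hf hF m hm a b hab
  obtain ⟨k, rfl⟩ : ∃ k, m = k + 1 := ⟨m - 1, by omega⟩
  change Nat.card (MulAut (POmega F (quadFormMinus k F a b))) =
    _ * Nat.card (POmega F (quadFormMinus k F a b)) at h0
  change if _ then Nonempty (Out (POmega F (quadFormMinus k F a b)) ≃* _) else
    Nonempty (Out (POmega F (quadFormMinus k F a b)) ≃* _)
  have h5 : 5 ≤ Fintype.card ((Fin k ⊕ Fin k) ⊕ Fin 2) := by simp; omega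
  have hQ := H22.qMinus_nondeg k hab
  have := H22.finite_POmega (Cfsg.quadFormMinus k F a b)
  have := H22.finite_out (Cfsg.POmega F (Cfsg.quadFormMinus k F a b))
  have h1 := H22.card_out_of_card_aut (H22.center_POmega hQ h5) h0
  have ho := H22.odd_card_of_two_ne_zero h2
  rw [if_neg hp, ← hF] at h1
  simp only [H22.even_half_iff ho] at h1
  obtain ⟨t, ht⟩ := H22.exists_oData_top hQ h5 (H22.range_ind_minus (by omega) hab)
  obtain ⟨φ, u, p1, p2, p3, p4⟩ := H22.exists_frob_qMinus hF k hab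
  have hδ := fun (ν : F) (hν : ν ≠ 0) => H22.exists_ss_qMinus k hab 1 hν
  have h6 := H22.neg_mem_omega_minus_iff h2 k hab
  have h7 : Fintype.card F ^ (k + 1) % 4 = 3 ↔ p ^ f % 4 = 3 ∧ Odd (k + 1) := by
    rw [← hF]
    have h8 := Nat.odd_iff.mp ho
    have h9 : Fintype.card F % 4 = 1 ∨ Fintype.card F % 4 = 3 := by omega
    rw [Nat.pow_mod]
    rcases h9 with h9 | h9 <;> rw [h9]
    · simp
    · obtain ⟨j, hj | hj⟩ := Nat.even_or_odd' (k + 1) <;> rw [hj]
      · simp [pow_mul, Nat.pow_mod]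
      · simp [pow_succ, pow_mul, Nat.pow_mod, Nat.mul_mod]
  have h8 := Nat.odd_iff.mp (ho.pow (n := k + 1))
  split_ifs with h
  · refine ht.d8_prod hQ rfl (H22.card_ringAut hF) p1 (p2 ▸ (H22.ringAut_facts hF).2) h2
      (h6.mpr (h7.mpr h)) hδ (by rw [h1, if_neg (by have := h7.mpr h; omega)]) p3
      (by simp) (.inr ⟨?_, p4⟩)
    by_contra hf'
    obtain ⟨j, rfl⟩ := Nat.not_odd_iff_even.mp hf'
    have h9 := h.1
    rw [← two_mul, pow_mul', Nat.pow_mod] at h9
    have : p ^ j % 4 < 4 := Nat.mod_lt _ (by norm_num)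
    interval_cases p ^ j % 4 <;> simp at h9
  · exact ht.two_two_mul hQ rfl (H22.card_ringAut hF) (p2 ▸ (H22.ringAut_facts hF).2) h2
      (mt h6.mp (mt h7.mp h)) hδ (by rw [h1, if_pos (by have := mt h7.mp h; omega)])
      (by simp [parity_simps]) p3 p4

end Cfsg.Agent.S2606
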