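import Cfsg.Statements.S2607
import Cfsg.Agent.H22.TriC

set_option autoImplicit false
open Cfsg

namespace Cfsg.Agent.S2607

/-- Outer automorphism group of PΩ⁺_2m(q), q = 2^f: for m ≥ 5 it is the direct product of a group of order 2 (graph automorphism, an orthogonal transvection) and a cyclic group of order f (field automorphisms); for m = 4 triality enlarges it to S_3 × C_f. -/
theorem result {F : Type*} [Field F] [Fintype F] {f m : ℕ} (hf : 1 ≤ f) (hF : Fintype.card F = 2 ^ f) (hm : 4 ≤ m) : if m = 4 then Nonempty (Cfsg.Out (Cfsg.POmega F (Cfsg.quadFormPlus m F)) ≃* Equiv.Perm (Fin 3) × Multiplicative (ZMod f)) else Nonempty (Cfsg.Out (Cfsg.POmega F (Cfsg.quadFormPlus m F)) ≃* Multiplicative (ZMod 2 × ZMod f)) := by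
  have := Fact.mk Nat.prime_two
  have := H22.charP_of_card hF
  have h5 : 5 ≤ Fintype.card (Fin m ⊕ Fin m) := by simp; omega
  have := H22.finite_POmega (Cfsg.quadFormPlus m F)
  have := H22.finite_out (Cfsg.POmega F (Cfsg.quadFormPlus m F))
  have h1 := H22.card_out_of_card_aut (H22.center_POmega (H22.qPlus_nondeg m) h5)
    (H22.card_aut_plus hF hm)
  split_ifs with h
  · subst h
    exact (H22.out_plus_four hF (H22.plusModel F (by omega)) (H22.range_plusRep F 4)).1 h1
      ((H22.two_eq_zero_iff hF).2 rfl)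
  obtain ⟨t, ht⟩ := H22.exists_oData_top (H22.qPlus_nondeg m) h5
    (H22.range_ind_plus (F := F) (by omega) (by omega))
  exact ht.two_prod (H22.card_ringAut hF)
    (φ := ⟨H22.stdSL _ (frobeniusEquiv F 2), 1, H22.stdSL_qPlus m (frobeniusEquiv F 2)⟩)
    (H22.ringAut_facts hF).2 (h1.trans (by simp [h])) (Subtype.ext (H22.stdSL_frob_pow hF _))

end Cfsg.Agent.S2607
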