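import Cfsg.Statements.S2608
import Cfsg.Agent.H22.TriC

set_option autoImplicit false
open Cfsg

namespace Cfsg.Agent.S2608

/-- Outer automorphism group of PΩ⁺_2m(q), q = p^f odd: for m = 4 it is S_4 × C_f (triality); for m ≥ 5 it is C_2 × C_2 × C_f when q ≡ 3 (mod 4) and m is odd, and D_8 × C_f otherwise. -/
theorem result {F : Type*} [Field F] [Fintype F] {p f m : ℕ} [Fact p.Prime] (hf : 1 ≤ f) (hF : Fintype.card F = p ^ f) (hp : p ≠ 2) (hm : 4 ≤ m) : if m = 4 then Nonempty (Cfsg.Out (Cfsg.POmega F (Cfsg.quadFormPlus m F)) ≃* Equiv.Perm (Fin 4) × Multiplicative (ZMod f)) else if p ^ f % 4 = 3 ∧ Odd m then Nonempty (Cfsg.Out (Cfsg.POmega F (Cfsg.quadFormPlus m F)) ≃* Multiplicative (ZMod 2 × ZMod 2 × ZMod f)) else Nonempty (Cfsg.Out (Cfsg.POmega F (Cfsg.quadFormPlus m F)) ≃* DihedralGroup 4 × Multiplicative (ZMod f)) := by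
  have h2 : (2 : F) ≠ 0 := mt (H22.two_eq_zero_iff hF).mp hp
  have := H22.charP_of_card hF
  have h5 : 5 ≤ Fintype.card (Fin m ⊕ Fin m) := by simp; omega
  have := H22.finite_POmega (Cfsg.quadFormPlus m F)
  have := H22.finite_out (Cfsg.POmega F (Cfsg.quadFormPlus m F))
  have hQ := H22.qPlus_nondeg (F := F) m
  have h1 := H22.card_out_of_card_aut (H22.center_POmega hQ h5) (H22.card_aut_plus hF hm)
  have ho := H22.odd_card_of_two_ne_zero h2
  rw [if_neg hp, ← hF] at h1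
  simp only [H22.even_half_iff ho, H22.pow_mod_four_eq_one ho] at h1
  by_cases h : m = 4
  · subst h
    exact (H22.out_plus_four hF (H22.plusModel F (by omega)) (H22.range_plusRep F 4)).2
      (h1.trans (by simp [Nat.odd_iff])) h2
  obtain ⟨t, ht⟩ := H22.exists_oData_top hQ h5 (H22.range_ind_plus (F := F) (by omega) (by omega))
  have hδ := fun (ν : F) (hν : ν ≠ 0) => H22.exists_ss_qPlus m 1 hν
  have h6 := H22.neg_mem_omega_plus_iff h2 m
  rw [H22.pow_mod_four_eq_one ho] at h6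
  rw [if_neg h, one_mul] at h1
  rw [if_neg h, ← hF]
  split_ifs with h7 <;> rw [and_comm] at h7
  · exact ht.klein_prod hQ (H23.Form.ofQuad_κ _) (H22.card_ringAut hF)
      (φ := ⟨H22.stdSL _ (frobeniusEquiv F p), 1, H22.stdSL_qPlus m (frobeniusEquiv F p)⟩)
      (H22.stdSL_qPlus m _) (H22.ringAut_facts hF).2 h2 (fun h8 => h6.1 h8 h7) hδ
      (h1.trans (by simp [h7])) (by simp) (Subtype.ext (H22.stdSL_frob_pow hF _))
  · have : Nonempty (Fin m) := ⟨⟨0, by omega⟩⟩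
    obtain ⟨u, hu⟩ := H22.exists_Q_ne_zero (H23.Form.ofQuad_κ _) hQ
    exact ht.d8_prod hQ (H23.Form.ofQuad_κ _) (H22.card_ringAut hF)
      (φ := ⟨H22.stdSL _ (frobeniusEquiv F p), 1, H22.stdSL_qPlus m (frobeniusEquiv F p)⟩)
      (H22.stdSL_qPlus m _) (H22.ringAut_facts hF).2 h2 (h6.2 h7) hδ
      (h1.trans (by rw [if_pos h7])) hu (by simp; omega) (.inl (Subtype.ext (H22.stdSL_frob_pow hF _)))

end Cfsg.Agent.S2608
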