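import Cfsg.Statements.S2609
import Cfsg.Agent.H22.OrthB

set_option autoImplicit false
open Cfsg

namespace Cfsg.Agent.S2609

/-- Spinor norm criterion for Ω over a finite field of odd order: let Q be a quadratic form on F^n, n ≥ 2, with non-degenerate polar form, and let g be an isometry written as a product of reflections in non-singular vectors v_1, …, v_k. Then g lies in Ω (the commutator subgroup of the orthogonal group) if and only if k is even and Q(v_1)⋯Q(v_k) is a square; in particular, for g of determinant one, whether that product is a square does not depend on the chosen factorisation (it is the spinor norm of g). -/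
theorem result {F : Type*} [Field F] [Fintype F] (h2 : (2 : F) ≠ 0) {n : ℕ} (hn : 2 ≤ n) (Q : QuadraticForm F (Fin n → F)) (hQ : (QuadraticMap.polarBilin Q).Nondegenerate) (g : ↥(Cfsg.isometryGroup F ⇑Q)) (vs : List (Fin n → F)) (hvs : ∀ v ∈ vs, Q v ≠ 0) (hg : ((g : Matrix.GeneralLinearGroup (Fin n) F) : Matrix (Fin n) (Fin n) F) = (vs.map (fun v => Cfsg.reflectionMatrix ⇑Q v)).prod) : g ∈ Cfsg.Omega F ⇑Q ↔ (Even vs.length ∧ IsSquare (vs.map (fun v => Q v)).prod) := by
  have hΦ := H23.Form.ofQuad_nondeg hQ
  have hG := H22.genHyp_of_two_ne_zero hΦ rfl h2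
  have key : ∀ vs : List (Fin n → F), (∀ v ∈ vs, Q v ≠ 0) → ∃ k : (H23.Form.ofQuad Q).O,
      (∀ x, (vs.map (fun v => Cfsg.reflectionMatrix ⇑Q v)).prod.mulVec x = k.1 x) ∧
      H22.dickson hΦ rfl hG k = (-1) ^ vs.length ∧
      H22.spin hΦ rfl k = H22.sqc (vs.map (fun v => Q v)).prod := by
    intro vs
    induction vs with
    | nil => exact fun _ => ⟨1, by simp, by simp, by simp⟩
    | cons v vs ih =>
      intro h
      obtain ⟨k, h1, h3, h4⟩ := ih fun w hw => h w (by simp [hw])
      have hv := h v (by simp)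
      refine ⟨H22.refl rfl v * k, fun x => ?_, ?_, ?_⟩
      · rw [List.map_cons, List.prod_cons, ← Matrix.mulVec_mulVec, h1, H22.reflectionMatrix_mulVec]
        rfl
      · rw [map_mul, h3, H22.dickson_refl hΦ rfl hG hv, List.length_cons, pow_succ']
      · rw [map_mul, h4, H22.spin_refl hΦ rfl hv, List.map_cons, List.prod_cons, H22.sqc_mul hv]
        · rfl
        · refine List.prod_ne_zero fun h0 => ?_
          obtain ⟨w, hw, h0⟩ := List.mem_map.1 h0
          exact h w (by simp [hw]) h0
  obtain ⟨k, h1, h3, h4⟩ := key vs hvs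
  rw [H22.mem_Omega_iff, (H22.coe_eq_iff_isomEquiv h1).1 hg, H22.mem_omega_iff hΦ rfl hG, h3, h4,
    H22.sqc_eq_one_iff, neg_one_pow_eq_one_iff_even (by decide)]

end Cfsg.Agent.S2609
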