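import Cfsg.Statements.S2610
import Cfsg.Agent.H22.OrthB

set_option autoImplicit false
open Cfsg

namespace Cfsg.Agent.S2610

/-- For a quadratic form Q on F^n with non-degenerate polar form, F finite of odd order and n ≥ 2 even, the isometry −1 lies in Ω (the commutator subgroup of the orthogonal group) if and only if the discriminant of Q (the determinant of the Gram matrix of its polar form) is a square. -/
theorem result {F : Type*} [Field F] [Fintype F] (h2 : (2 : F) ≠ 0) {n : ℕ} (hn : 2 ≤ n) (he : Even n) (Q : QuadraticForm F (Fin n → F)) (hQ : (QuadraticMap.polarBilin Q).Nondegenerate) : (∃ g : ↥(Cfsg.isometryGroup F ⇑Q), g ∈ Cfsg.Omega F ⇑Q ∧ ((g : Matrix.GeneralLinearGroup (Fin n) F) : Matrix (Fin n) (Fin n) F) = -1) ↔ IsSquare (Matrix.of (fun i j : Fin n => QuadraticMap.polar ⇑Q (Pi.single i 1) (Pi.single j 1))).det := by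
  classical
  have hΦ := H23.Form.ofQuad_nondeg hQ
  have : Invertible (2 : F) := invertibleOfNonzero h2
  obtain ⟨b, hb⟩ := LinearMap.BilinForm.exists_orthogonal_basis (B := QuadraticMap.polarBilin Q)
    ⟨fun x y => QuadraticMap.polar_comm Q x y⟩
  have h1 : LinearMap.BilinForm.toMatrix b (QuadraticMap.polarBilin Q) =
      Matrix.diagonal fun i => 2 * Q (b i) := by
    ext i j
    rw [LinearMap.BilinForm.toMatrix_apply]
    by_cases h : i = j
    · subst h; simp [two_mul]
    · rw [Matrix.diagonal_apply_ne _ h]; exact hb h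
  have h3 := H23.gram_det_ne_zero hQ b
  have h4 := H23.isSquare_gram_det_iff (QuadraticMap.polarBilin Q) b (Pi.basisFun F (Fin n)) 1
  rw [h1, Matrix.det_diagonal] at h3 h4
  rw [H22.exists_neg_one_mem_omega_iff, H22.neg_mem_commutator_iff hΦ h2 b (fun i j h => hb h)
    (fun i h => Finset.prod_ne_zero_iff.1 h3 i (Finset.mem_univ _) (by simp [show Q (b i) = 0 from h]))
    (by simp) rfl]
  obtain ⟨k, rfl⟩ := he
  rw [one_mul, one_mul, Finset.prod_mul_distrib, Finset.prod_const, Finset.card_univ,
    Fintype.card_fin, show (2 : F) ^ Module.finrank F (Fin (k + k) → F) = (2 ^ k) ^ 2 by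
      rw [Module.finrank_fin_fun, ← two_mul, pow_mul'],
    H23.isSquare_sq_mul_iff (pow_ne_zero _ h2)] at h4
  simp only [Module.finrank_fin_fun, Even.add_self, true_and]
  refine h4.symm.trans (iff_of_eq (congrArg _ (congrArg _ ?_)))
  ext i j
  simp [LinearMap.BilinForm.toMatrix_apply]

end Cfsg.Agent.S2610
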