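import Cfsg.Statements.S2612
import Cfsg.Agent.H22.OrthB

set_option autoImplicit false
open Cfsg

namespace Cfsg.Agent.S2612

/-- For the hyperbolic quadratic form Σ x_i y_i on F^(2m) (F finite, m ≥ 1, excluding m = 2 over the field of two elements), Ω⁺_2m(F) (the commutator subgroup of the orthogonal group) contains an element interchanging the two complementary maximal totally singular subspaces {y = 0} and {x = 0} if and only if m is even (dimension divisible by 4). -/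
theorem result {F : Type*} [Field F] [Fintype F] {m : ℕ} (hm : 1 ≤ m) (h : Fintype.card F ≠ 2 ∨ m ≠ 2) : (∃ g : ↥(Cfsg.isometryGroup F (Cfsg.quadFormPlus m F)), g ∈ Cfsg.Omega F (Cfsg.quadFormPlus m F) ∧ (∀ v : Fin m ⊕ Fin m → F, (∀ i, v (Sum.inr i) = 0) → ∀ i, (((g : Matrix.GeneralLinearGroup (Fin m ⊕ Fin m) F) : Matrix (Fin m ⊕ Fin m) (Fin m ⊕ Fin m) F).mulVec v) (Sum.inl i) = 0) ∧ (∀ v : Fin m ⊕ Fin m → F, (∀ i, v (Sum.inl i) = 0) → ∀ i, (((g : Matrix.GeneralLinearGroup (Fin m ⊕ Fin m) F) : Matrix (Fin m ⊕ Fin m) (Fin m ⊕ Fin m) F).mulVec v) (Sum.inr i) = 0)) ↔ Even m := by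
  have hΦ := H22.qPlus_nondeg (F := F) m
  have hG := H22.genHyp_plus h
  have key : ∀ g : (H23.Form.ofQuad (H22.qPlus m F)).O,
      (H22.kerR F m).map g.1.toLinearMap ≤ H22.kerL F m → (H22.dickson hΦ rfl hG g = 1 ↔ Even m) := by
    intro g hg
    rw [H22.dickson_eq_one_iff_even hΦ rfl hG (H22.totSing_kerR m) (H22.finrank_plus m)
      (H22.finrank_kerR m), eq_bot_iff.2 ((inf_le_inf_left _ hg).trans (H22.kerR_inf_kerL m).le),
      finrank_bot, Nat.sub_zero]
  constructor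
  · rintro ⟨g, h1, h2, -⟩
    refine (key (H22.isomEquiv (H22.qPlus m F) g) ?_).1
      ((H22.mem_omega_iff hΦ rfl hG).1 ((H22.mem_Omega_iff (Q := H22.qPlus m F)).1 h1)).1
    rintro _ ⟨v, hv, rfl⟩
    exact H22.mem_kerL.2 (h2 v (H22.mem_kerR.1 hv))
  · intro he
    let s : (H23.Form.ofQuad (H22.qPlus m F)).O :=
      ⟨LinearEquiv.funCongrLeft F F (Equiv.sumComm _ _), H23.Form.mem_O_ofQuad.2 fun v => by
        simp [H22.qPlus_apply, mul_comm]⟩
    obtain ⟨k, hk, h1⟩ := H22.exists_mul_mem_omega hΦ rfl hG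
      ((H23.Form.ofQuad _).Stab (H22.kerR F m) ⊓ (H23.Form.ofQuad _).Stab (H22.kerL F m)) s
      (.inl ((key s (by rintro _ ⟨v, hv, rfl⟩; exact H22.mem_kerL.2 (H22.mem_kerR.1 hv))).2 he))
      (or_iff_not_imp_left.2 fun h2 => by
        obtain ⟨ν, hν⟩ := FiniteField.exists_nonsquare (H22.ringChar_ne_two h2)
        have hν0 : ν ≠ 0 := fun h => hν (h ▸ IsSquare.zero)
        have hef : H22.Hyp (H23.Form.ofQuad (H22.qPlus m F)) (Pi.single (.inl ⟨0, hm⟩) 1)
            (Pi.single (.inr ⟨0, hm⟩) 1) := ⟨H22.sing_ofQuad.2 (by simp [H22.qPlus_apply]),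
          H22.sing_ofQuad.2 (by simp [H22.qPlus_apply]), by simp [H22.polar_qPlus, Pi.single_apply]⟩
        refine ⟨H22.hsc rfl _ _ ν, ⟨H23.Form.mem_Stab_of_le.2 fun u hu => H22.mem_kerR.2 fun i => ?_,
          H23.Form.mem_Stab_of_le.2 fun u hu => H22.mem_kerL.2 fun i => ?_⟩,
          H22.dickson_hsc hΦ rfl hG hef hν0, by rw [H22.spin_hsc hΦ rfl hef hν0, H22.sqc_of_not hν]⟩
        · rw [H22.hsc_apply rfl hef hν0]; simp [H22.polar_qPlus, H22.mem_kerR.1 hu]
        · rw [H22.hsc_apply rfl hef hν0]; simp [H22.polar_qPlus, H22.mem_kerL.1 hu])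
    refine ⟨(H22.isomEquiv (H22.qPlus m F)).symm (s * k), (H22.mem_commutator_equiv _).mpr h1,
      fun v hv i => ?_, fun v hv i => ?_⟩
    · refine (congrFun (H22.isomEquiv_symm_mulVec _ _ v) _).trans ?_
      exact H22.mem_kerR.1 (H23.Form.apply_mem_of_mem_Stab hk.1 (H22.mem_kerR.2 hv)) i
    · refine (congrFun (H22.isomEquiv_symm_mulVec _ _ v) _).trans ?_
      exact H22.mem_kerL.1 (H23.Form.apply_mem_of_mem_Stab hk.2 (H22.mem_kerL.2 hv)) i

end Cfsg.Agent.S2612
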