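import Cfsg.Statements.S2613
import Cfsg.Agent.H22.OrthB

set_option autoImplicit false
open Cfsg

namespace Cfsg.Agent.S2613

/-- For the hyperbolic form Σ x_j y_j on F^(2m), F finite with q elements, q odd, and 1 ≤ i ≤ m: the involution negating the first i hyperbolic pairs (x_j, y_j ↦ −x_j, −y_j for j < i) and fixing the rest lies in Ω⁺_2m(q) (commutator subgroup of the orthogonal group) if and only if q^i ≡ 1 (mod 4); its (−1)-eigenspace is a hyperbolic 2i-space. -/
theorem result {F : Type*} [Field F] [Fintype F] {q : ℕ} (hF : Fintype.card F = q) (hq : Odd q) {m : ℕ} (i : ℕ) (hi : 1 ≤ i) (him : i ≤ m) : (∃ g : ↥(Cfsg.isometryGroup F (Cfsg.quadFormPlus m F)), g ∈ Cfsg.Omega F (Cfsg.quadFormPlus m F) ∧ ((g : Matrix.GeneralLinearGroup (Fin m ⊕ Fin m) F) : Matrix (Fin m ⊕ Fin m) (Fin m ⊕ Fin m) F) = Matrix.diagonal (fun k : Fin m ⊕ Fin m => if (Sum.elim (fun j : Fin m => (j : ℕ)) (fun j : Fin m => (j : ℕ)) k) < i then (-1 : F) else 1)) ↔ q ^ i % 4 = 1 := by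
  subst hF
  have h2 := H22.two_ne_zero_of_odd_card hq
  have hΦ := H22.qPlus_nondeg (F := F) m
  have hG := H22.genHyp_of_two_ne_zero hΦ rfl h2
  obtain ⟨k, h1, h3, h4⟩ := H22.exists_omega_diagonal_iff hΦ hG (l := Sum.inl) (r := Sum.inr)
    Sum.inl_injective Sum.inr_injective (by simp) (by simp [H22.polar_qPlus, Pi.single_apply])
    (by simp [H22.polar_qPlus, Pi.single_apply]) (by simp [H22.qPlus_apply])
    (by simp [H22.qPlus_apply]) (a := fun j => if (j : ℕ) < i then -1 else 1)
    (fun j => by split_ifs <;> simp)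
    (d := fun k : Fin m ⊕ Fin m => if (Sum.elim (fun j : Fin m => (j : ℕ)) (fun j : Fin m => (j : ℕ)) k) < i then (-1 : F) else 1)
    (fun _ => rfl) (fun j => by by_cases h : (j : ℕ) < i <;> simp [h])
    (by rintro (k | k) h h'; exacts [absurd rfl (h k), absurd rfl (h' k)])
  refine (H22.exists_omega_coe_iff h1).trans ?_
  rw [H22.mem_omega_iff hΦ rfl hG, h3, h4, H22.sqc_eq_one_iff, Finset.prod_ite, Finset.prod_const,
    Finset.prod_const_one, mul_one, Fin.card_filter_val_lt, min_eq_right him,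
    H22.isSquare_neg_one_pow_iff h2]
  simp

end Cfsg.Agent.S2613
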