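import Cfsg.Statements.S2615
import Cfsg.Agent.H22.OrthB

set_option autoImplicit false
open Cfsg

namespace Cfsg.Agent.S2615

/-- For an elliptic form Σ_(j<m−1) x_j y_j + (z₁² + a z₁z₂ + b z₂²) (anisotropic binary part) on F^(2m), F finite with q elements, q odd, and 1 ≤ i ≤ m − 1: the involution negating the first i hyperbolic pairs and fixing the rest lies in Ω⁻_2m(q) (commutator subgroup of the orthogonal group) if and only if q^i ≡ 1 (mod 4). -/
theorem result {F : Type*} [Field F] [Fintype F] {q : ℕ} (hF : Fintype.card F = q) (hq : Odd q) {m : ℕ} (a b : F) (hab : ∀ z₁ z₂ : F, z₁ ^ 2 + a * z₁ * z₂ + b * z₂ ^ 2 = 0 → z₁ = 0 ∧ z₂ = 0) (i : ℕ) (hi : 1 ≤ i) (him : i + 1 ≤ m) : (∃ g : ↥(Cfsg.isometryGroup F (Cfsg.quadFormMinus (m - 1) F a b)), g ∈ Cfsg.Omega F (Cfsg.quadFormMinus (m - 1) F a b) ∧ ((g : Matrix.GeneralLinearGroup ((Fin (m - 1) ⊕ Fin (m - 1)) ⊕ Fin 2) F) : Matrix ((Fin (m - 1) ⊕ Fin (m - 1)) ⊕ Fin 2) ((Fin (m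 - 1) ⊕ Fin (m - 1)) ⊕ Fin 2) F) = Matrix.diagonal (fun k : (Fin (m - 1) ⊕ Fin (m - 1)) ⊕ Fin 2 => if (Sum.elim (Sum.elim (fun j : Fin (m - 1) => (j : ℕ)) (fun j : Fin (m - 1) => (j : ℕ))) (fun _ : Fin 2 => i) k) < i then (-1 : F) else 1)) ↔ q ^ i % 4 = 1 := by
  subst hF
  have h2 := H22.two_ne_zero_of_odd_card hq
  have hΦ := H22.qMinus_nondeg (m - 1) hab
  have hG := H22.genHyp_of_two_ne_zero hΦ rfl h2
  obtain ⟨k, h1, h3, h4⟩ := H22.exists_omega_diagonal_iff hΦ hG (l := fun j => .inl (.inl j))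
    (r := fun j => .inl (.inr j)) (Sum.inl_injective.comp Sum.inl_injective)
    (Sum.inl_injective.comp Sum.inr_injective) (by simp)
    (by simp [H22.polar_qMinus, Pi.single_apply])
    (by simp [H22.polar_qMinus, Pi.single_apply]) (by simp [H22.qMinus_apply])
    (by simp [H22.qMinus_apply]) (a := fun j => if (j : ℕ) < i then -1 else 1)
    (fun j => by split_ifs <;> simp)
    (d := fun k : (Fin (m - 1) ⊕ Fin (m - 1)) ⊕ Fin 2 => if (Sum.elim (Sum.elim (fun j : Fin (m - 1) => (j : ℕ)) (fun j : Fin (m - 1) => (j : ℕ))) (fun _ : Fin 2 => i) k) < i then (-1 : F) else 1)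
    (fun _ => rfl) (fun j => by by_cases h : (j : ℕ) < i <;> simp [h])
    (by
      rintro ((k | k) | k) h h'
      exacts [absurd rfl (h k), absurd rfl (h' k), by simp])
  refine (H22.exists_omega_coe_iff h1).trans ?_
  rw [H22.mem_omega_iff hΦ rfl hG, h3, h4, H22.sqc_eq_one_iff, Finset.prod_ite, Finset.prod_const,
    Finset.prod_const_one, mul_one, Fin.card_filter_val_lt, min_eq_right (by omega),
    H22.isSquare_neg_one_pow_iff h2]
  simp

end Cfsg.Agent.S2615
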