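import Cfsg.Statements.S2619
import Cfsg.Agent.H23.Iso

set_option autoImplicit false
open Cfsg

namespace Cfsg.Agent.S2619

/-- Over a finite field of characteristic two, given an alternating bilinear form B on a finite-dimensional space, a basis (v_i) and scalars (λ_i), there is exactly one quadratic form whose polar form is B and whose value at each v_i is λ_i. -/
theorem result {F V ι : Type*} [Field F] [Finite F] [CharP F 2] [AddCommGroup V] [Module F V] [Fintype ι] (b : Module.Basis ι F V) (B : LinearMap.BilinForm F V) (hB : B.IsAlt) (c : ι → F) : ∃! Q : QuadraticForm F V, QuadraticMap.polarBilin Q = B ∧ ∀ i, Q (b i) = c i := by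
  classical
  let e := Fintype.equivFin ι
  let C : LinearMap.BilinForm F V := b.constr F fun i => b.constr F fun j =>
    if e i < e j then B (b i) (b j) else if i = j then c i else 0
  have hC : ∀ i j, C (b i) (b j) = if e i < e j then B (b i) (b j) else if i = j then c i else 0 := by
    intro i j
    simp only [C, Module.Basis.constr_basis]
  refine existsUnique_of_exists_of_unique ⟨C.toQuadraticMap, ?_, fun i => by simp [hC]⟩
    fun Q Q' h h' => ?_
  · rw [LinearMap.BilinMap.polarBilin_toQuadraticMap]
    refine LinearMap.ext_basis b b fun i j => ?_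
    simp only [LinearMap.add_apply, LinearMap.flip_apply, hC]
    rcases lt_trichotomy (e i) (e j) with h | h | h
    · have : j ≠ i := by rintro rfl; exact h.false
      simp [h, h.not_gt, this]
    · obtain rfl := e.injective h
      simp [hB (b i), CharTwo.add_self_eq_zero]
    · have : i ≠ j := by rintro rfl; exact h.false
      simp [h, h.not_gt, this, ← hB.neg_eq (b j), CharTwo.neg_eq]
  · ext x
    exact H23.Form.Q_eq_of_span (Φ := H23.Form.ofQuad Q) (Ψ := H23.Form.ofQuad Q') rfl LinearMap.id
      (fun x y => congrArg (fun B : LinearMap.BilinForm F V => B x y) (h.1.trans h'.1.symm))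
      (s := Set.range b) (by rintro _ ⟨i, rfl⟩; exact (h.2 i).trans (h'.2 i).symm) (by simp)

end Cfsg.Agent.S2619
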