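import Cfsg.Statements.S2620
import Cfsg.Agent.H22.OrthB

set_option autoImplicit false
open Cfsg

namespace Cfsg.Agent.S2620

/-- Discriminant of the hyperbolic quadratic form Σ_(i<m) x_i y_i over a field with q elements, q odd, m ≥ 1: the determinant of the Gram matrix of its polar form in any basis is a square if and only if m(q − 1)/2 is even (equivalently q^m ≡ 1 (mod 4)). -/
theorem result {F : Type*} [Field F] [Fintype F] {q : ℕ} (hF : Fintype.card F = q) (hq : Odd q) {m : ℕ} (hm : 1 ≤ m) {ι : Type*} [Fintype ι] [DecidableEq ι] (b : Module.Basis ι F (Fin m ⊕ Fin m → F)) : IsSquare (Matrix.of (fun i j : ι => QuadraticMap.polar (Cfsg.quadFormPlus m F) (b i) (b j))).det ↔ Even (m * (q - 1) / 2) := by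
  subst hF
  have h2 := H22.two_ne_zero_of_odd_card hq
  have hB := H23.Form.ofQuad_nondeg_iff.1 (H22.qPlus_nondeg (F := F) m)
  have h1 := H23.isSquare_disc_of_plus h2 (H23.isSymm_polarBilin _) hB b (H22.finrank_plus m)
    (H22.finrank_kerR m) (H22.totSing_kerR m).1
  rw [H22.isSquare_iff_of_mul (by simp) (H23.gram_det_ne_zero hB b),
    H22.isSquare_neg_one_pow_iff h2] at h1
  rw [H22.even_half_iff hq, h1]
  refine iff_of_eq (congrArg _ (congrArg _ ?_))
  ext i j
  simp [LinearMap.BilinForm.toMatrix_apply, H22.coe_qPlus]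

end Cfsg.Agent.S2620
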