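import Cfsg.Statements.S2621
import Cfsg.Agent.H22.OrthB

set_option autoImplicit false
open Cfsg

namespace Cfsg.Agent.S2621

/-- Discriminant of an elliptic quadratic form Σ_(i<m−1) x_i y_i + z₁² + a z₁z₂ + c z₂² (binary part anisotropic) in dimension 2m over a field with q elements, q odd, m ≥ 1: the determinant of the Gram matrix of its polar form in any basis is a square if and only if m(q − 1)/2 is odd (equivalently q^m ≡ 3 (mod 4)). -/
theorem result {F : Type*} [Field F] [Fintype F] {q : ℕ} (hF : Fintype.card F = q) (hq : Odd q) {m : ℕ} (hm : 1 ≤ m) (a c : F) (hac : ∀ z₁ z₂ : F, z₁ ^ 2 + a * z₁ * z₂ + c * z₂ ^ 2 = 0 → z₁ = 0 ∧ z₂ = 0) {ι : Type*} [Fintype ι] [DecidableEq ι] (b : Module.Basis ι F ((Fin (m - 1) ⊕ Fin (m - 1)) ⊕ Fin 2 → F)) : IsSquare (Matrix.of (fun i j : ι => QuadraticMap.polar (Cfsg.quadFormMinus (m - 1) F a c) (b i) (b j))).det ↔ ¬ Even (m * (q - 1) / 2) := by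
  subst hF
  have h2 := H22.two_ne_zero_of_odd_card hq
  have hB := H23.Form.ofQuad_nondeg_iff.1 (H22.qMinus_nondeg (m - 1) hac)
  have h1 := (H23.plus_iff_isSquare_disc h2 (H23.isSymm_polarBilin _) hB b (m := m)
    (by simp; omega)).not.1 (by
      rintro ⟨X, h3, h4⟩
      have := H22.finrank_le_of_sing_qMinus (m - 1) hac X fun x hx =>
        mul_left_cancel₀ h2 (by simpa [two_mul] using h4 x hx x hx)
      omega)
  rw [H22.isSquare_iff_of_mul (by simp) (H23.gram_det_ne_zero hB b),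
    H22.isSquare_neg_one_pow_iff h2] at h1
  rw [H22.even_half_iff hq, not_iff.1 h1]
  refine iff_of_eq (congrArg _ (congrArg _ ?_))
  ext i j
  simp [LinearMap.BilinForm.toMatrix_apply, H22.coe_qMinus]

end Cfsg.Agent.S2621
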