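import Cfsg.Statements.S2622
import Cfsg.Agent.H22.OrthMat

set_option autoImplicit false
open Cfsg

namespace Cfsg.Agent.S2622

/-- Over a finite field of characteristic two, a non-degenerate symmetric bilinear form that is not alternating (some vector v has B(v, v) ≠ 0) admits an orthonormal basis. -/
theorem result {F V : Type*} [Field F] [Finite F] [CharP F 2] [AddCommGroup V] [Module F V] [FiniteDimensional F V] {n : ℕ} (hV : Module.finrank F V = n) (B : LinearMap.BilinForm F V) (hS : B.IsSymm) (hB : B.Nondegenerate) (hna : ∃ v : V, B v v ≠ 0) : ∃ b : Module.Basis (Fin n) F V, ∀ i j, B (b i) (b j) = if i = j then 1 else 0 := by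
  induction n generalizing V with
  | zero => exact ⟨basisOfFinrankZero hV, fun i => i.elim0⟩
  | succ d ih =>
  have h2 : (2 : F) = 0 := CharTwo.two_eq_zero
  obtain ⟨x, hx, hx'⟩ : ∃ x, B x x = 1 ∧ ((∀ y, B x y = 0 → y = 0) ∨ ∃ y, B x y = 0 ∧ B y y ≠ 0) := by
    obtain ⟨v, hv⟩ := hna
    obtain ⟨t, ht⟩ := H22.isSquare_of_two_eq_zero h2 (B v v)⁻¹
    have h1 : B (t • v) (t • v) = 1 := by
      simp only [map_smul, LinearMap.smul_apply, smul_eq_mul]
      rw [← mul_assoc, ← ht, inv_mul_cancel₀ hv]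
    generalize t • v = x at h1
    by_cases h : (∀ y, B x y = 0 → y = 0) ∨ ∃ y, B x y = 0 ∧ B y y ≠ 0
    · exact ⟨x, h1, h⟩
    push Not at h
    obtain ⟨⟨z, hz, hz0⟩, h⟩ := h
    obtain ⟨w, hw⟩ : ∃ w, B z w ≠ 0 := by
      by_contra! h
      exact hz0 (hB.1 z h)
    have e1 : B z x = 0 := (hS.eq _ _).trans hz
    set y := (B z w)⁻¹ • (w - B x w • x) with hy
    have e2 : B x y = 0 := by simp [hy, h1]
    have e3 : B z y = 1 := by simp [hy, e1, hw]
    have e4 : B y x = 0 := (hS.eq _ _).trans e2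
    refine ⟨x + z, by simp [h1, hz, e1, h z hz], .inr ⟨x + y, ?_, ?_⟩⟩
    · simp only [map_add, LinearMap.add_apply, h1, e1, e2, e3]
      linear_combination h2
    · simp [h1, e2, e4, h y e2]
  have hx0 : B x x ≠ 0 := by simp [hx]
  have hc := LinearMap.BilinForm.isCompl_span_singleton_orthogonal hx0
  have hx1 : x ≠ 0 := by rintro rfl; simp at hx
  rw [← Submodule.finrank_add_eq_of_isCompl hc.symm, finrank_span_singleton hx1] at hV
  have hm : ∀ y, y ∈ B.orthogonal (F ∙ x) ↔ B x y = 0 := fun y => by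
    simp [LinearMap.BilinForm.mem_orthogonal_iff, Submodule.mem_span_singleton]
    exact ⟨fun h => (h 1).resolve_left one_ne_zero, fun h _ => .inr h⟩
  obtain ⟨v, hv⟩ : ∃ b : Module.Basis (Fin d) F (B.orthogonal (F ∙ x)),
      ∀ i j, B (b i) (b j) = if i = j then 1 else 0 := by
    rcases hx' with h | ⟨y, h1, h3⟩
    · obtain rfl : d = 0 := by
        rw [show B.orthogonal (F ∙ x) = ⊥ from eq_bot_iff.2 fun y hy => h y ((hm y).1 hy)] at hV
        simpa using hV.symm
      exact ⟨basisOfFinrankZero (Nat.succ.inj hV), fun i => i.elim0⟩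
    · exact ih (Nat.succ.inj hV) (B.restrict _) (hS.restrict _)
        (B.restrict_nondegenerate_orthogonal_spanSingleton hB hS.isRefl hx0) ⟨⟨y, (hm y).2 h1⟩, h3⟩
  refine ⟨Module.Basis.mkFinCons x v (fun c y hy hc => ?_) fun y => ⟨-B x y, by simp [hm, hx]⟩, ?_⟩
  · simpa [hx, (hm y).1 hy] using congrArg (B x) hc
  · rw [Module.Basis.coe_mkFinCons]
    intro i j
    refine Fin.cases ?_ (fun i => ?_) i <;> refine Fin.cases ?_ (fun j => ?_) j
    · simpa
    · simpa [(Fin.succ_ne_zero _).symm] using (hm _).1 (v j).2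
    · simpa using (hS.eq _ _).trans ((hm _).1 (v i).2)
    · simpa using hv i j

end Cfsg.Agent.S2622
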