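import Cfsg.Statements.S2623
import Cfsg.Agent.H22.OrthB

set_option autoImplicit false
open Cfsg

namespace Cfsg.Agent.S2623

/-- Over a finite field of odd order, two quadratic forms on F^n with non-degenerate polar forms are isometric (related by an invertible linear change of variables) if and only if their discriminants (determinants of the Gram matrices of their polar forms) lie in the same square class. -/
theorem result {F : Type*} [Field F] [Fintype F] (h2 : (2 : F) ≠ 0) {n : ℕ} (Q₁ Q₂ : QuadraticForm F (Fin n → F)) (h₁ : (QuadraticMap.polarBilin Q₁).Nondegenerate) (h₂ : (QuadraticMap.polarBilin Q₂).Nondegenerate) : (∃ g : (Fin n → F) ≃ₗ[F] (Fin n → F), ∀ v, Q₂ (g v) = Q₁ v) ↔ IsSquare ((Matrix.of (fun i j : Fin n => QuadraticMap.polar ⇑Q₁ (Pi.single i 1) (Pi.single j 1))).det * (Matrix.of (fun i j : Fin n => QuadraticMap.polar ⇑Q₂ (Pi.single i 1) (Pi.single j 1))).det) := by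
  have e : ∀ Q : QuadraticForm F (Fin n → F), Matrix.of (fun i j : Fin n => QuadraticMap.polar ⇑Q (Pi.single i 1) (Pi.single j 1)) =
      LinearMap.BilinForm.toMatrix (Pi.basisFun F (Fin n)) (QuadraticMap.polarBilin Q) := fun Q => by
    ext i j
    simp [LinearMap.BilinForm.toMatrix_apply]
  rw [e, e]
  constructor
  · rintro ⟨g, hg⟩
    obtain ⟨r, -, h⟩ := H23.gram_det_change (QuadraticMap.polarBilin Q₂) (Pi.basisFun F (Fin n))
      ((Pi.basisFun F (Fin n)).map g)
    have : LinearMap.BilinForm.toMatrix ((Pi.basisFun F (Fin n)).map g) (QuadraticMap.polarBilin Q₂) =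
        LinearMap.BilinForm.toMatrix (Pi.basisFun F (Fin n)) (QuadraticMap.polarBilin Q₁) := by
      ext i j
      simp [LinearMap.BilinForm.toMatrix_apply, QuadraticMap.polar, ← map_add, hg]
    rw [← this, h]
    exact ⟨r * _, by rw [sq, mul_assoc, mul_mul_mul_comm]⟩
  · intro h
    obtain ⟨g, hg⟩ := H23.exists_isometry_of_disc h2 (H23.isSymm_polarBilin Q₁)
      (H23.isSymm_polarBilin Q₂) h₁ h₂ _ _ rfl h
    exact ⟨g, fun v => mul_left_cancel₀ h2 (by simpa [two_mul] using hg v v)⟩

end Cfsg.Agent.S2623
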