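import Cfsg.Statements.S2624
import Cfsg.Agent.H22.OrthB

set_option autoImplicit false
open Cfsg

namespace Cfsg.Agent.S2624

/-- For a quadratic form Q on F^n with non-degenerate polar form, F finite and n ≥ 2 even, every non-zero scalar c is the multiplier of some similarity: there is an invertible linear map g with Q(g v) = c·Q(v) for all v. -/
theorem result {F : Type*} [Field F] [Fintype F] {n : ℕ} (hn : 2 ≤ n) (he : Even n) (Q : QuadraticForm F (Fin n → F)) (hQ : (QuadraticMap.polarBilin Q).Nondegenerate) (c : F) (hc : c ≠ 0) : ∃ g : (Fin n → F) ≃ₗ[F] (Fin n → F), ∀ v, Q (g v) = c * Q v := by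
  have hΦ := H23.Form.ofQuad_nondeg hQ
  obtain ⟨m, rfl⟩ : ∃ m, n = 2 * (m + 1) := ⟨n / 2 - 1, by obtain ⟨k, rfl⟩ := he; omega⟩
  have key : ∀ {W : Type _} [AddCommGroup W] [Module F W] (Q' : QuadraticForm F W)
      (e : W ≃ₗ[F] (Fin (2 * (m + 1)) → F)), (∀ x, Q (e x) = Q' x) → (∃ a : H22.GamL F W,
        a.θ = RingEquiv.refl F ∧ H22.IsSS (H23.Form.ofQuad Q') (H23.Form.ofQuad Q')
          (RingEquiv.refl F) c a.ψ) → ∃ g : _ ≃ₗ[F] _, ∀ v, Q (g v) = c * Q v := by
    rintro W _ _ Q' e he ⟨a, -, h⟩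
    obtain ⟨-, h1, h2⟩ := H22.isSS_quad_iff.1 h
    refine ⟨e.symm.trans (({ a.ψ with map_smul' := h1 } : W ≃ₗ[F] W).trans e), fun v => ?_⟩
    rw [LinearEquiv.trans_apply, LinearEquiv.trans_apply, he]
    refine (h2 _).trans ?_
    simp [← he]
  rcases H22.exists_equiv_even hΦ (m := m) (by simp) with ⟨e, he⟩ | ⟨ζ, hζ, e, he⟩
  · exact key _ e he (H22.exists_ss_qPlus _ _ hc)
  · exact key _ e he (H22.exists_ss_qMinus _ (H22.aniso_of_no_root hζ) _ hc)

end Cfsg.Agent.S2624
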