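import Cfsg.Statements.S2625
import Cfsg.Agent.H22.OrthB

set_option autoImplicit false
open Cfsg

namespace Cfsg.Agent.S2625

/-- For a quadratic form Q on F^n with non-degenerate polar form, F finite and n odd (so |F| is odd), the multiplier of any similarity is a square: if g is an invertible linear map with Q(g v) = c·Q(v) for all v then c is a square. -/
theorem result {F : Type*} [Field F] [Fintype F] {n : ℕ} (hn : Odd n) (Q : QuadraticForm F (Fin n → F)) (hQ : (QuadraticMap.polarBilin Q).Nondegenerate) (g : (Fin n → F) ≃ₗ[F] (Fin n → F)) (c : F) (hg : ∀ v, Q (g v) = c * Q v) : IsSquare c := by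
  by_cases hc : c = 0
  · exact hc ▸ IsSquare.zero
  exact H22.IsSS.isSquare_of_odd (H23.Form.ofQuad_nondeg hQ) (by simpa using hn)
    (ψ := g.toAddEquiv) (H22.isSS_quad_iff.2 ⟨hc, fun a v => g.map_smul a v, hg⟩)

end Cfsg.Agent.S2625
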