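import Cfsg.Statements.S2634
import Cfsg.Agent.H22.OrthB

set_option autoImplicit false
open Cfsg

namespace Cfsg.Agent.S2634

/-- Over a finite field of characteristic two, Ω (the commutator subgroup of the orthogonal group of a quadratic form Q on F^n with non-degenerate polar form; excluding dimension 4 over the field of two elements) acts transitively on the non-singular 1-spaces: for u, v with Q(u) ≠ 0 and Q(v) ≠ 0 some element of Ω carries the line through u to the line through v. -/
theorem result {F : Type*} [Field F] [Fintype F] [CharP F 2] {n : ℕ} (h : Fintype.card F ≠ 2 ∨ n ≠ 4) (Q : QuadraticForm F (Fin n → F)) (hQ : (QuadraticMap.polarBilin Q).Nondegenerate) (u v : Fin n → F) (hu : Q u ≠ 0) (hv : Q v ≠ 0) : ∃ g : ↥(Cfsg.isometryGroup F ⇑Q), g ∈ Cfsg.Omega F ⇑Q ∧ (F ∙ ((g : Matrix.GeneralLinearGroup (Fin n) F) : Matrix (Fin n) (Fin n) F).mulVec u) = F ∙ v := by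
  have hΦ := H23.Form.ofQuad_nondeg hQ
  have hG := H22.genHyp_of_card hΦ rfl (by simpa using h)
  have h2 : (2 : F) = 0 := CharTwo.two_eq_zero
  obtain ⟨t, ht⟩ := H22.isSquare_of_two_eq_zero h2 (Q u / Q v)
  have ht0 : t ≠ 0 := by rintro rfl; simp [hu, hv] at ht
  have h1 : Q u = Q (t • v) := by rw [QuadraticMap.map_smul, ← ht, smul_eq_mul, div_mul_cancel₀ _ hv]
  obtain ⟨g, hg, h3⟩ := hΦ.witt_one (x := u) (y := t • v) (by rintro rfl; simp at hu)
    (fun h => hu (by simp [h1, h])) (by
      rw [H22.B_self_quad rfl, H22.B_self_quad rfl, h2, zero_mul, zero_mul]) h1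
  obtain ⟨k, hk, h4⟩ := H22.exists_omega_of_map (H22.exists_omega_map hΦ rfl hG (U := F ∙ u)
    (W := F ∙ v) ⟨g, hg⟩ (by
      rw [Submodule.map_span, Set.image_singleton, ← Submodule.span_singleton_smul_eq ht0.isUnit v]
      exact congrArg (fun x => F ∙ x) h3)
    (.inr ⟨_, H22.refl_mem_Stab rfl (.inl (Submodule.mem_span_singleton_self u)),
      H22.dickson_refl hΦ rfl hG hu⟩) (.inl h2))
  exact ⟨k, hk, by rwa [Submodule.map_span, Set.image_singleton] at h4⟩

end Cfsg.Agent.S2634
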