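import Cfsg.Statements.S2635
import Cfsg.Agent.H22.OrthB

set_option autoImplicit false
open Cfsg

namespace Cfsg.Agent.S2635

/-- Over a finite field of characteristic two, for a quadratic form Q on F^n with non-degenerate polar form, n ≥ 2, other than dimension 4 over the field of two elements, Ω (the commutator subgroup of the orthogonal group) is exactly the subgroup generated by the products of two reflections (orthogonal transvections) x ↦ x − Q(v)⁻¹ f(x, v) v, Q(v) ≠ 0: the products of an even number of reflections. -/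
theorem result {F : Type*} [Field F] [Fintype F] [CharP F 2] {n : ℕ} (hn : 2 ≤ n) (h : Fintype.card F ≠ 2 ∨ n ≠ 4) (Q : QuadraticForm F (Fin n → F)) (hQ : (QuadraticMap.polarBilin Q).Nondegenerate) : Cfsg.Omega F ⇑Q = Subgroup.closure {g : ↥(Cfsg.isometryGroup F ⇑Q) | ∃ u v : Fin n → F, Q u ≠ 0 ∧ Q v ≠ 0 ∧ ((g : Matrix.GeneralLinearGroup (Fin n) F) : Matrix (Fin n) (Fin n) F) = Cfsg.reflectionMatrix ⇑Q u * Cfsg.reflectionMatrix ⇑Q v} := by
  have hΦ := H23.Form.ofQuad_nondeg hQ
  have hG := H22.genHyp_of_card hΦ rfl (by simpa using h)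
  refine (H22.commutator_eq_comap (H22.isomEquiv Q)).trans ?_
  rw [H22.commutator_eq_ker_dickson hΦ rfl hG (H22.isSquare_of_two_eq_zero CharTwo.two_eq_zero),
    H22.ker_dickson_eq_closure hΦ rfl hG]
  refine (H22.closure_eq_comap _ fun g => ?_).symm
  refine exists_congr fun u => exists_congr fun v => and_congr_right fun _ =>
    and_congr_right fun _ => H22.coe_eq_iff_isomEquiv fun x => ?_
  rw [← Matrix.mulVec_mulVec, H22.reflectionMatrix_mulVec, H22.reflectionMatrix_mulVec]
  rfl

end Cfsg.Agent.S2635
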