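import Cfsg.Statements.S2636
import Cfsg.Agent.H16.LA7
-- import your own Cfsg.Agent.* helpers here

set_option autoImplicit false
open Cfsg

namespace Cfsg.Agent.S2636

open H16 Polynomial Module in
/-- Centraliser of a field automorphism in PGL_n: let F be the field with q = q₀^r elements, σ a field automorphism of F of prime order r (so its fixed field has q₀ elements) and n ≥ 1. The invertible matrices g whose entrywise image under σ is a scalar multiple of g — those whose coset modulo scalars is fixed by σ — number (q − 1)/(q₀ − 1) · |GL_n(q₀)|; equivalently the centraliser in PGL_n(q) of the induced automorphism has the order of PGL_n(q₀). -/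
theorem result {F : Type*} [Field F] [Fintype F] {q₀ r n : ℕ} (hr : r.Prime) (hn : 1 ≤ n) (hF : Fintype.card F = q₀ ^ r) (σ : F ≃+* F) (hσ : orderOf σ = r) : Nat.card {g : GL (Fin n) F // ∃ c : F, c ≠ 0 ∧ (g : Matrix (Fin n) (Fin n) F).map σ = c • (g : Matrix (Fin n) (Fin n) F)} = (q₀ ^ r - 1) / (q₀ - 1) * ∏ i : Fin n, (q₀ ^ n - q₀ ^ (i : ℕ)) := by
  classical
  have : Nonempty (Fin n) := ⟨⟨0, by omega⟩⟩
  let F₀ := FixedPoints.subfield (Subgroup.zpowers σ) F
  have hm : ∀ x, x ∈ F₀ ↔ σ x = x := fun x => by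
    change (∀ g : Subgroup.zpowers σ, g • x = x) ↔ _
    exact ⟨fun h => h ⟨σ, Subgroup.mem_zpowers σ⟩, fun h g =>
      (Subgroup.zpowers_le.2 (show σ ∈ MulAction.stabilizer (F ≃+* F) x from h)) g.2⟩
  have hfin : Finite (F ≃+* F) := Finite.of_injective _ DFunLike.coe_injective
  have := Fintype.ofFinite (Subgroup.zpowers σ)
  have h1 : finrank F₀ F = r := by
    rw [FixedPoints.finrank_eq_card, ← Nat.card_eq_fintype_card, Nat.card_zpowers, hσ]
  have := Fintype.ofFinite F₀
  have h2 : Fintype.card F₀ = q₀ := by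
    have := Module.card_eq_pow_finrank (K := F₀) (V := F)
    rw [h1, hF] at this
    exact (Nat.pow_left_injective hr.ne_zero this).symm
  have h3 := card_subfieldSubgroup (ι := Fin n) F₀
  rw [Matrix.card_GL_field, Nat.card_eq_fintype_card (α := F₀), Nat.card_eq_fintype_card (α := F),
    h2, hF] at h3
  have h4 : 0 < q₀ - 1 := by have := Fintype.one_lt_card (α := F₀); omega
  have h5 : q₀ - 1 ∣ q₀ ^ r - 1 := by simpa using Nat.sub_dvd_pow_sub_pow q₀ 1 r
  refine Nat.eq_of_mul_eq_mul_right h4 ?_
  rw [mul_right_comm, Nat.div_mul_cancel h5, ← h3]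
  congr 1
  refine Nat.card_congr (Equiv.subtypeEquivRight fun g => ?_)
  rw [mem_subfield_one]
  constructor
  · rintro ⟨c, hc, h⟩
    obtain ⟨i, j, hij⟩ : ∃ i j, g.1 i j ≠ 0 := by
      by_contra! h0
      exact g.det_ne_zero (by rw [show g.1 = 0 from Matrix.ext h0, Matrix.det_zero])
    have h' : ∀ k l, σ (g.1 k l) = c * g.1 k l := fun k l => congrFun (congrFun h k) l
    refine ⟨(g.1 i j)⁻¹, inv_ne_zero hij, fun k l => (hm _).2 ?_⟩
    rw [map_mul, map_inv₀, h', h']
    field_simp
  · rintro ⟨c, hc, h⟩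
    have hc' : σ c ≠ 0 := by simpa using hc
    refine ⟨c / σ c, div_ne_zero hc hc', Matrix.ext fun k l => ?_⟩
    have := (hm _).1 (h k l)
    rw [map_mul] at this
    simp only [Matrix.map_apply, Matrix.smul_apply, smul_eq_mul]
    field_simp
    rw [← this, mul_comm]

end Cfsg.Agent.S2636
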