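import Cfsg.Statements.S2637
import Cfsg.Agent.H14.Wall8

set_option autoImplicit false
set_option linter.unusedVariables false
set_option linter.style.haveILetI false
open Cfsg H14.Wall H16 H23 Polynomial
open scoped Matrix

namespace Cfsg.Agent.S2637

theorem ed_eq {F V : Type*} [Field F] [AddCommGroup V] [Module F V] [FiniteDimensional F V]
    {p : F[X]} (hm : p.Monic) (hi : Irreducible p) (hd : p.natDegree = 2) {g : Module.End F V}
    (hg : aeval g p = 0) {m : ℕ} (hV : Module.finrank F V = 2 * m) :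
    ed g = Multiset.replicate m p := by
  have h1 : ∀ q ∈ ed g, q = p := fun q hq => by
    obtain ⟨e, h1, h2, rfl⟩ := (ed_isPP hq).eq_pow_of_dvd hm hi (k := 1)
      (by rw [pow_one]; exact (aeval_eq_zero_iff_ed g p).1 hg q hq)
    rw [le_antisymm h2 h1, pow_one]
  have h2 := sum_natDegree_ed g
  rw [Multiset.eq_replicate_card.2 h1] at h2 ⊢
  simp [hd, hV] at h2
  congr 1; omega

/-- Centraliser of a fixed-point-free element of order three in Sp_2m(q) when q ≡ 2 (mod 3): if x ∈ Sp_2m(F) (|F| = q, m ≥ 1) satisfies x³ = 1 and x − 1 is invertible, then its centraliser in Sp_2m(F) has the order of the unitary group GU_m(q), namely q^(m(m−1)/2) Π_(i=1)^m (q^i − (−1)^i) (x lies in the centre of a subgroup GU_m(q) of Sp_2m(q)). -/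
theorem result {F : Type*} [Field F] [Fintype F] {q : ℕ} (hF : Fintype.card F = q) (hq : q % 3 = 2) {m : ℕ} (hm : 1 ≤ m) (x : Matrix.symplecticGroup (Fin m) F) (hx3 : x ^ 3 = 1) (hfpf : IsUnit ((x : Matrix (Fin m ⊕ Fin m) (Fin m ⊕ Fin m) F) - 1)) : (Nat.card ↥(Subgroup.centralizer ({x} : Set ↥(Matrix.symplecticGroup (Fin m) F))) : ℤ) = (q : ℤ) ^ (m * (m - 1) / 2) * ∏ i : Fin m, ((q : ℤ) ^ ((i : ℕ) + 1) - (-1) ^ ((i : ℕ) + 1)) := by
  subst hF
  obtain ⟨K, _, _, _, hK⟩ := H22.exists_ext F two_ne_zero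
  have hq2 : 2 ≤ Fintype.card F := Fintype.one_lt_card
  obtain ⟨ω, hω⟩ : ∃ ω : Kˣ, orderOf ω = 3 := by
    haveI : Fact (Nat.Prime 3) := ⟨Nat.prime_three⟩
    refine exists_prime_orderOf_dvd_card' 3 ?_
    rw [card_units_eq hK]
    exact Dvd.dvd.mul_right (by omega) _
  have h3 : (ω : K) ^ 3 = 1 := by rw [← Units.val_pow_eq_pow_val, ← hω, pow_orderOf_eq_one]; rfl
  have h1 : (ω : K) ≠ 1 := fun h => by
    rw [Units.val_eq_one.1 h, orderOf_one] at hω; omega
  have h2 : (ω : K) ^ 2 + ω + 1 = 0 :=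
    mul_left_cancel₀ (sub_ne_zero.2 h1) (by linear_combination h3)
  have hc : conj hK ω = ω ^ 2 := by
    rw [conj_apply, ← Nat.div_add_mod (Fintype.card F) 3, hq, pow_add, pow_mul, h3, one_pow, one_mul]
  have hc' : conj hK ω ≠ ω := fun h => h1 (mul_left_cancel₀ ω.ne_zero (by
    rw [hc] at h; linear_combination h))
  have hroot : ∀ a : F, a ^ 2 + a + 1 ≠ 0 := fun a ha => by
    have h4 : (algebraMap F K a - ω) * (algebraMap F K a - ω ^ 2) = 0 := by
      have := congrArg (algebraMap F K) ha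
      simp only [map_add, map_pow, map_one, map_zero] at this
      linear_combination this - algebraMap F K a * h2 + h3
    rcases mul_eq_zero.1 h4 with h | h
    · exact hc' (by rw [← sub_eq_zero.1 h, H22.conj_algebraMap])
    · have h5 := H22.conj_algebraMap hK a
      rw [sub_eq_zero.1 h, ← hc, conj_conj] at h5
      exact hc' h5.symm
  have hd : (X ^ 2 + X + 1 : F[X]).natDegree = 2 := by compute_degree!
  have hmo : (X ^ 2 + X + 1 : F[X]).Monic := by monicity!
  have hi : Irreducible (X ^ 2 + X + 1 : F[X]) :=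
    irreducible_of_degree_le_three_of_not_isRoot (by simp [hd]) fun a => by simpa using hroot a
  obtain ⟨l, θ, hθ⟩ := exists_herm_alt hK
  set Φ := H22.hForm hK m
  have hΦ : Φ.Nondeg := H22.hForm_nondeg hK m
  set Ψ := resAlt Φ (H22.conj_algebraMap hK) l
  have hΨ : Ψ.Nondeg := resAlt_nondeg hΦ _ hθ
  let w : Φ.O := ⟨LinearEquiv.smulOfUnit ω, (Form.mem_O _).2 ⟨fun u v => by
    change Φ.B ((ω : K) • u) ((ω : K) • v) = _
    rw [Φ.B_smul_left, Φ.B_smul_right, hc]
    linear_combination Φ.B u v * h3, fun _ => rfl⟩⟩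
  have hw : ∀ v, w.1 v = (ω : K) • v := fun _ => rfl
  set ρ := resO Φ Ψ (resAlt_mem _ _ l)
  have hx : x.1 ^ 2 + x.1 + 1 = 0 := by
    have h4 : x.1 ^ 3 = 1 := congrArg Subtype.val hx3
    refine hfpf.mul_left_cancel ?_
    rw [mul_zero, ← sub_eq_zero.2 h4]; noncomm_ring
  have hfree : ∀ q ∈ Multiset.replicate m (X ^ 2 + X + 1 : F[X]), IsCoprime (X ^ 2 - 1) q := by
    intro q hq
    rw [Multiset.eq_of_mem_replicate hq]
    refine isCoprime_of_ne hmo hi (fun h => ?_) fun h => ?_ <;>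
    · have := congrArg natDegree h
      rw [hd, natDegree_X_sub_C] at this; omega
  have e1 : ed (spE m F x).1.toLinearMap = Multiset.replicate m (X ^ 2 + X + 1) :=
    ed_eq hmo hi hd (by
      change aeval (Matrix.toLin' x.1) _ = 0
      rw [aeval_toLin']; simp [hx]) (finrank_sp m)
  have e2 : ed (ρ w).1.toLinearMap = Multiset.replicate m (X ^ 2 + X + 1) :=
    ed_eq hmo hi hd (by
      refine LinearMap.ext fun v => ?_
      simp only [map_add, map_mul, aeval_X, map_one, sq, LinearMap.add_apply, Module.End.mul_apply,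
        Module.End.one_apply]
      change (ω : K) • (ω : K) • v + (ω : K) • v + v = 0
      rw [← zero_smul K v, ← h2]; module) ((finrank_pi_ext hK _).trans (by simp))
  have hf := free_of_coprime (e1 ▸ hfree)
  have H := (iso_free (spForm_nondeg m) hΨ rfl rfl (pres_O (spE m F x)) (pres_O (ρ w))
    (sim_of_ed_eq (e1.trans e2.symm)) hf.1 hf.2).card_centralizer
  have e3 : Nat.card (Subgroup.centralizer {x}) = Nat.card (Subgroup.centralizer {spE m F x}) := by
    refine Nat.card_congr ((spE m F).toEquiv.subtypeEquiv fun k => ?_)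
    simp only [Subgroup.mem_centralizer_singleton_iff, MulEquiv.toEquiv_eq_coe, EquivLike.coe_coe,
      ← map_mul, EmbeddingLike.apply_eq_iff_eq]
  have e4 : Subgroup.centralizer {ρ w} = ρ.range := by
    ext g
    rw [Subgroup.mem_centralizer_singleton_iff]
    constructor
    · intro hg
      have h5 : ∀ v, g.1 ((ω : K) • v) = (ω : K) • g.1 v := fun v =>
        congrArg (fun k : Ψ.O => k.1 v) hg
      have h6 : ∀ (c : K) v, g.1 (c • v) = c • g.1 v := fun c v => by
        obtain ⟨z, rfl⟩ := (H22.thetaBasis hK hc').equivFun.symm.surjective c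
        rw [H22.thetaBasis_equivFun_symm, add_smul, add_smul, smul_assoc, smul_assoc,
          algebraMap_smul, algebraMap_smul, map_add, map_smul, map_smul, h5]
      let g' : (Fin m → K) ≃ₗ[K] (Fin m → K) := { g.1.toAddEquiv with map_smul' := h6 }
      refine ⟨⟨g', (Form.mem_O _).2 ⟨fun u v => ?_, fun _ => rfl⟩⟩, rfl⟩
      change Φ.B (g.1 u) (g.1 v) = _
      by_contra h7
      have h8 := H22.O_B _ g u ((θ / (Φ.B (g.1 u) (g.1 v) - Φ.B u v)) • v)
      rw [resAlt_B, resAlt_B, h6, Φ.B_smul_right, Φ.B_smul_right, ← sub_eq_zero, ← map_sub] at h8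
      refine hθ (Eq.trans ?_ h8)
      congr 1
      have h9 : θ = θ / (Φ.B (g.1 u) (g.1 v) - Φ.B u v) * Φ.B (g.1 u) (g.1 v) -
          θ / (Φ.B (g.1 u) (g.1 v) - Φ.B u v) * Φ.B u v := by
        rw [← mul_sub, div_mul_cancel₀ _ (sub_ne_zero.2 h7)]
      conv_lhs => rw [h9, map_sub]
      change _ = _ - 1 * _ - (_ - 1 * _)
      ring
    · rintro ⟨k, rfl⟩
      rw [← map_mul, ← map_mul]
      exact congrArg ρ (H22.O_ext _ fun v => map_smul k.1 (ω : K) v)
  rw [e3, H, e4, ← Nat.card_congr (MonoidHom.ofInjective (resO_injective _ _ _)).toEquiv]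
  exact card_O_herm_int hK Φ hΦ rfl rfl (by simp)

end Cfsg.Agent.S2637
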