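import Cfsg.Statements.S2639
import Cfsg.Agent.H14.Wall8

set_option autoImplicit false
set_option linter.unusedVariables false
set_option linter.style.haveILetI false
open Cfsg H14.Wall H16 H23 Polynomial
open scoped Matrix

namespace Cfsg.Agent.S2639

/-- The unitary group embeds in the symplectic group of twice the dimension over the subfield: for a field K with q² elements and a field F with q elements (isomorphic to the subfield of K of order q), there is an injective homomorphism GU_m(q) → Sp_2m(F). -/
theorem result {K F : Type*} [Field K] [Fintype K] [Field F] [Fintype F] {q : ℕ} (hK : Fintype.card K = q ^ 2) (hF : Fintype.card F = q) (m : ℕ) : ∃ φ : ↥(Cfsg.GU m K q) →* ↥(Matrix.symplecticGroup (Fin m) F), Function.Injective φ := by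
  subst hF
  obtain ⟨f⟩ := H22.nonempty_ringHom_of_card_eq_pow two_ne_zero hK
  letI := f.toAlgebra
  obtain ⟨l, θ, hθ⟩ := exists_herm_alt hK
  have h1 := resAlt_nondeg (H22.hForm_nondeg hK m) (H22.conj_algebraMap hK) hθ
  obtain ⟨e, φ, -, -⟩ := (iso_alt h1 (spForm_nondeg m) rfl rfl rfl rfl
    (by rw [finrank_pi_ext hK, finrank_sp, Fintype.card_fin])).exists_mulEquiv
  exact ⟨(spE m F).symm.toMonoidHom.comp (φ.toMonoidHom.comp
    ((resO _ _ (resAlt_mem _ _ l)).comp (H22.guEquiv hK m).toMonoidHom)),
    (spE m F).symm.injective.comp (φ.injective.comp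
      ((resO_injective _ _ _).comp (H22.guEquiv hK m).injective))⟩

end Cfsg.Agent.S2639
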