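import Cfsg.Statements.S2641
import Cfsg.Agent.H14.Wall8

set_option autoImplicit false
set_option linter.unusedVariables false
set_option linter.style.haveILetI false
open Cfsg H14.Wall H16 H23 Polynomial
open scoped Matrix

namespace Cfsg.Agent.S2641

/-- For m odd, the unitary group GU_m(q) (over the field with q² elements) embeds in the orthogonal group O⁻_2m(q) of an elliptic form (Σ_(i<m−1) x_i y_i plus an anisotropic binary form) over the field with q elements (there is an injective homomorphism). -/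
theorem result {K F : Type*} [Field K] [Fintype K] [Field F] [Fintype F] {q : ℕ} (hK : Fintype.card K = q ^ 2) (hF : Fintype.card F = q) (m : ℕ) (hm : Odd m) (a b : F) (hab : ∀ z₁ z₂ : F, z₁ ^ 2 + a * z₁ * z₂ + b * z₂ ^ 2 = 0 → z₁ = 0 ∧ z₂ = 0) : ∃ φ : ↥(Cfsg.GU m K q) →* ↥(Cfsg.isometryGroup F (Cfsg.quadFormMinus (m - 1) F a b)), Function.Injective φ := by
  subst hF
  obtain ⟨f⟩ := H22.nonempty_ringHom_of_card_eq_pow two_ne_zero hK
  letI := f.toAlgebra
  obtain ⟨m, rfl⟩ : ∃ k, m = k + 1 := ⟨m - 1, by have := hm.pos; omega⟩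
  obtain ⟨Q, h1, h2, h3⟩ := exists_herm_quad hK (m + 1)
  obtain ⟨e, φ, -, -⟩ := Iso.exists_mulEquiv (iso_minus_of_not_isPlus h1 rfl
    ((finrank_pi_ext hK _).trans (by simp)) (fun h => Nat.not_even_iff_odd.2 hm (h2.1 h)) hab)
  exact ⟨(H22.isomEquiv (H22.qMinus m F a b)).symm.toMonoidHom.comp (φ.toMonoidHom.comp
    ((resO _ _ h3).comp (H22.guEquiv hK _).toMonoidHom)),
    (H22.isomEquiv (H22.qMinus m F a b)).symm.injective.comp (φ.injective.comp
      ((resO_injective _ _ _).comp (H22.guEquiv hK _).injective))⟩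

end Cfsg.Agent.S2641
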