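import Cfsg.Statements.S2642
import Cfsg.Agent.H14.Wall3

set_option autoImplicit false
set_option linter.unusedVariables false
set_option linter.style.haveILetI false
open Cfsg H14.Wall H16 H23 Polynomial
open scoped Matrix

namespace Cfsg.Agent.S2642

/-- Number of conjugacy classes of elements of order p in the general unitary group GU_n(q), q a power of p: every unipotent Jordan type occurs and the classes correspond to the partitions of n with all parts at most p other than the all-ones partition, exactly as in GL_n; so there are (number of partitions of n with parts ≤ p) − 1 classes. -/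
theorem result {K : Type*} [Field K] [Fintype K] {p q n : ℕ} [Fact p.Prime] [CharP K p] (hK : Fintype.card K = q ^ 2) : Nat.card {C : ConjClasses ↥(Cfsg.GU n K q) // ∃ g : ↥(Cfsg.GU n K q), ConjClasses.mk g = C ∧ orderOf g = p} = (Finset.univ.filter (fun μ : Nat.Partition n => ∀ a ∈ μ.parts, a ≤ p)).card - 1 := by
  have hp : p.Prime := Fact.out
  have key : ∀ g : GU n K q, g ^ p = 1 ↔ (g.1.1 - 1) ^ p = 0 := fun g => by
    have := pow_char_pow_eq_one_iff p g.1.1 1
    rw [pow_one] at this
    rw [← this, ← GL_pow_eq_one_iff, Subtype.ext_iff]; rfl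
  rw [card_classes_eq (fun g : GU n K q => orderOf g = p) (fun g => jt g.1.1)]
  · let μ₁ : Nat.Partition n := ⟨Multiset.replicate n 1, by simp +contextual [Multiset.mem_replicate], by simp⟩
    have h1 : μ₁ ∈ Finset.univ.filter (fun μ : Nat.Partition n => ∀ a ∈ μ.parts, a ≤ p) := by
      simp +contextual [μ₁, Multiset.mem_replicate, hp.one_lt.le]
    rw [← Finset.card_erase_of_mem h1, ← Nat.card_eq_finsetCard]
    symm
    refine Nat.card_congr (Equiv.ofBijective (fun μ => ⟨μ.1.parts, ?_⟩) ⟨?_, ?_⟩)
    · obtain ⟨μ, hμ⟩ := μ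
      simp only [Finset.mem_erase, Finset.mem_filter, Finset.mem_univ, true_and] at hμ
      obtain ⟨g, hg⟩ := exists_GU_edM hK (n := n) (s := uni K μ.parts)
        (uni_isPP fun e he => μ.parts_pos he) (by
          intro f hf
          obtain ⟨e, -, rfl⟩ := Multiset.mem_map.1 hf
          rw [coeff_zero_X_sub_C_pow]; simp) (by rw [uni_natDegree, μ.parts_sum]) (dual_uni _ _)
      refine ⟨g, orderOf_eq_prime
        ((key _).2 ((uni_pow_eq_zero_iff hg p).2 hμ.2)) fun h => hμ.1 ?_, jt_of_edM hg⟩
      have h2 : g.1.1 = 1 := by rw [h]; rfl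
      have h3 := (uni_pow_eq_zero_iff hg 1).1 (by simp [h2])
      have h4 : μ.parts = Multiset.replicate μ.parts.card 1 := Multiset.eq_replicate_card.2
        fun b hb => le_antisymm (h3 b hb) (μ.parts_pos hb)
      have h5 := μ.parts_sum
      rw [h4] at h5
      simp only [Multiset.sum_replicate, smul_eq_mul, mul_one] at h5
      exact Nat.Partition.ext (by rw [h4, h5])
    · intro a b h
      exact Subtype.ext (Nat.Partition.ext (congrArg Subtype.val h))
    · rintro ⟨_, g, hg, rfl⟩
      have h0 := (key g).1 (hg ▸ pow_orderOf_eq_one g)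
      refine ⟨⟨⟨jt g.1.1, jt_pos, by simp [jt_sum]⟩, ?_⟩, rfl⟩
      simp only [Finset.mem_erase, Finset.mem_filter, Finset.mem_univ, true_and]
      refine ⟨fun h => ?_, (uni_pow_eq_zero_iff (edM_eq_uni h0) p).1 h0⟩
      have h2 : jt g.1.1 = Multiset.replicate n 1 := congrArg Nat.Partition.parts h
      have h3 := (uni_pow_eq_zero_iff (edM_eq_uni h0) 1).2 (by
        simp +contextual [h2, Multiset.mem_replicate])
      have h4 : g = 1 := Subtype.ext (Units.ext (by simpa [sub_eq_zero] using h3))
      rw [h4, orderOf_one] at hg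
      exact hp.ne_one hg.symm
  · intro g h hg hh
    have ha := (key g).1 (hg ▸ pow_orderOf_eq_one g)
    have hb := (key h).1 (hh ▸ pow_orderOf_eq_one h)
    rw [GU_isConj_iff hK]
    exact ⟨fun h => by rw [jt, jt, h], fun h => by rw [edM_eq_uni ha, edM_eq_uni hb, h]⟩

end Cfsg.Agent.S2642
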