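import Cfsg.Statements.S2643
import Cfsg.Agent.H14.Wall3

set_option autoImplicit false
set_option linter.unusedVariables false
set_option linter.style.haveILetI false
open Cfsg H14.Wall H16 H23 Polynomial
open scoped Matrix

namespace Cfsg.Agent.S2643

/-- Regular unipotent classes of SU_n(q), n ≥ 2: the elements u of the special unitary group (isometries of Σ u_i v_i^q of determinant one over the field with q² elements) with (u − 1)^n = 0 and rank(u − 1) = n − 1 form exactly gcd(n, q + 1) conjugacy classes of SU_n(q). -/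
theorem result {K : Type*} [Field K] [Fintype K] {q n : ℕ} (hK : Fintype.card K = q ^ 2) (hn : 2 ≤ n) : Nat.card {C : ConjClasses ↥(Cfsg.SU n K q) // ∃ u : ↥(Cfsg.SU n K q), ConjClasses.mk u = C ∧ (((u : GL (Fin n) K) : Matrix (Fin n) (Fin n) K) - 1) ^ n = 0 ∧ (((u : GL (Fin n) K) : Matrix (Fin n) (Fin n) K) - 1).rank = n - 1} = Nat.gcd n (q + 1) := by
  haveI : Nonempty (Fin n) := ⟨⟨0, by omega⟩⟩
  obtain ⟨u, hu⟩ := exists_GU_edM hK (n := n) (s := uni K {n}) (uni_isPP (by simp; omega)) (by
    intro f hf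
    obtain ⟨e, -, rfl⟩ := Multiset.mem_map.1 hf
    rw [coeff_zero_X_sub_C_pow]; simp) (by rw [uni_natDegree]; simp) (dual_uni _ _)
  have hu0 := (uni_pow_eq_zero_iff hu n).2 (by simp)
  let A := (powMonoidHom (q + 1) : Kˣ →* Kˣ).ker
  have hA : ∀ c : Kˣ, c ∈ A ↔ conj hK c * c = 1 := fun c => by
    rw [conj_mul_self, MonoidHom.mem_ker, Units.ext_iff]; simp
  let d : GU n K q →* A := (Matrix.GeneralLinearGroup.det.comp (GU n K q).subtype).codRestrict A
    fun g => (hA _).2 (det_U ((mem_GU_ct hK).1 g.2))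
  have hd : ∀ g, ((d g).1 : K) = g.1.1.det := fun g => rfl
  have hsc : ∀ c : A, ct (conj hK) ((c.1 : K) • (1 : Matrix (Fin n) (Fin n) K)) * ((c.1 : K) • 1) = 1 := by
    intro c
    rw [ct_smul, ct_one, smul_mul_smul_comm, (hA _).1 c.2, one_mul, one_smul]
  have hds : Function.Surjective d := by
    intro c
    obtain ⟨i⟩ : Nonempty (Fin n) := inferInstance
    refine ⟨mkGU hK (Matrix.diagonal fun k => if k = i then (c.1 : K) else 1) (U_diagonal fun k => ?_),
      Subtype.ext (Units.ext ?_)⟩
    · split_ifs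
      exacts [(hA _).1 c.2, by rw [map_one, one_mul]]
    · rw [hd, mkGU_val, Matrix.det_diagonal]; simp
  let ι : SU n K q →* GU n K q :=
    (Matrix.SpecialLinearGroup.toGL.comp (SU n K q).subtype).codRestrict _ fun g => g.2
  have hι : Function.Injective ι := fun a b h =>
    Subtype.ext (Matrix.SpecialLinearGroup.toGL_injective (congrArg Subtype.val h))
  have hr : ι.range = d.ker := by
    ext g
    rw [MonoidHom.mem_ker, Subtype.ext_iff, Units.ext_iff, hd]
    constructor
    · rintro ⟨a, rfl⟩; exact a.1.2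
    · intro h
      exact ⟨mkSU hK g.1.1 ((mem_GU_ct hK).1 g.2) h, Subtype.ext (Units.ext rfl)⟩
  have h1 := card_split_classes d hds u ι hι hr (Subtype.ext (Units.ext (by
    rw [hd, det_of_sub_pow_eq_zero (c := 1) (k := n) (by simpa using hu0)]; simp)))
  have h2 : (Subgroup.centralizer {u}).map d = (powMonoidHom n : A →* A).range := by
    ext c
    constructor
    · rintro ⟨P, hP, rfl⟩
      obtain ⟨p, hp⟩ := exists_aeval_of_comm_edM (P := P.1.1) hu
        (congrArg (fun x : GU n K q => x.1.1) (Subgroup.mem_centralizer_singleton_iff.1 hP)).symm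
      have h3 := det_aeval_of_unipotent (A := u.1.1) (a := 1) (k := n) (by simpa using hu0) p
      rw [hp, Fintype.card_fin] at h3
      have h4 : p.eval 1 ≠ 0 := fun h => P.1.det_ne_zero (by rw [h3, h, zero_pow (by omega)])
      have h5 : (P.1.1 - p.eval 1 • 1) ^ n = 0 := by
        have h6 : (X - C 1 : K[X]) ^ n ∣ (p - C (p.eval 1)) ^ n :=
          pow_dvd_pow_of_dvd (X_sub_C_dvd_sub_C_eval) n
        have h7 := (aeval_eq_zero_iff_edM u.1.1 ((p - C (p.eval 1)) ^ n)).2 (by
          intro f hf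
          rw [hu] at hf
          obtain ⟨e, he, rfl⟩ := Multiset.mem_map.1 hf
          rw [Multiset.mem_singleton.1 he]; exact h6)
        rwa [map_pow, map_sub, hp, aeval_C, Algebra.algebraMap_eq_smul_one] at h7
      have h6 := U_eigen (conj_conj hK) ((mem_GU_ct hK).1 P.2) h5
      exact ⟨⟨Units.mk0 _ h4, (hA _).2 h6⟩, Subtype.ext (Units.ext (by rw [hd, h3]; simp))⟩
    · rintro ⟨c, rfl⟩
      refine ⟨mkGU hK _ (hsc c), Subgroup.mem_centralizer_singleton_iff.2
        (Subtype.ext (Units.ext ?_)), Subtype.ext (Units.ext ?_)⟩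
      · change ((c.1 : K) • (1 : Matrix (Fin n) (Fin n) K)) * u.1.1 = u.1.1 * ((c.1 : K) • 1)
        simp
      · rw [hd, mkGU_val]; simp
  rw [h2, IsCyclic.index_powMonoidHom_range, card_ker_pow_succ hK, Nat.gcd_comm] at h1
  rw [← h1]
  refine Nat.card_congr (Equiv.subtypeEquivRight fun C => exists_congr fun a => and_congr_right fun _ => ?_)
  rw [GU_isConj_iff hK]
  constructor
  · rintro ⟨h3, h4⟩
    refine hu.trans ?_
    change _ = edM a.1.1
    simpa [uni] using (edM_of_regular h3 (by simpa using h4)).symm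
  · intro h
    have h3 : edM a.1.1 = uni K {n} := h.symm.trans hu
    have h4 := uni_rank h3
    simp only [Multiset.card_singleton, Fintype.card_fin] at h4
    exact ⟨(uni_pow_eq_zero_iff h3 n).2 (by simp), by change (a.1.1 - 1).rank = _; omega⟩

end Cfsg.Agent.S2643
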