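import Cfsg.Statements.S2645
import Cfsg.Agent.H14.Wall7

set_option autoImplicit false
set_option linter.unusedVariables false
set_option linter.style.haveILetI false
open Cfsg H14.Wall H16 H23 Polynomial
open scoped Matrix

namespace Cfsg.Agent.S2645

/-- Number of conjugacy classes of elements of odd prime order r, r different from the characteristic, in the symplectic group Sp_2m(q): let i be the multiplicative order of q modulo r and t = (r − 1)/i. If i is odd the eigenvalue orbits pair off (Λ ≠ Λ⁻¹) and the classes correspond to the non-zero (t/2)-tuples (a_j) with 2i Σ a_j ≤ 2m, giving C(⌊m/i⌋ + t/2, t/2) − 1 classes; if i is even (Λ = Λ⁻¹) they correspond to the non-zero t-tuples with i Σ a_j ≤ 2m, giving C(⌊2m/i⌋ + t, t) − 1 classes. -/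
theorem result {F : Type*} [Field F] [Fintype F] {p q : ℕ} [Fact p.Prime] [CharP F p] (hF : Fintype.card F = q) (m r i t : ℕ) (hr : r.Prime) (hr2 : r ≠ 2) (hrp : r ≠ p) (hi : i = orderOf (q : ZMod r)) (ht : t * i = r - 1) : Nat.card {C : ConjClasses ↥(Matrix.symplecticGroup (Fin m) F) // ∃ g : Matrix.symplecticGroup (Fin m) F, ConjClasses.mk g = C ∧ orderOf g = r} = if Odd i then Nat.choose (m / i + t / 2) (t / 2) - 1 else Nat.choose (2 * m / i + t) t - 1 := by
  subst hF
  have hr0 : (r : F) ≠ 0 := cast_ne_zero_of_ne p hr hrp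
  have hpos := orderOf_card_pos hr hr0
  rw [← hi] at hpos
  obtain ⟨T₀, hfin, hne, hT, hP⟩ := count_rev hr hr2 hr0 hi ht
  rw [card_classes_prime (spGLHom m F) spGLHom_injective hr hr0
    (fun g h hg h' => sp_isConj_of_ss ((sp_ss_iff p g).2 (by
      rw [hg]; exact (Nat.coprime_primes hr Fact.out).2 hrp)) h')]
  have hE : ∀ s : Multiset F[X], (∀ a ∈ s, a ∈ Tr F r) →
      ((∃ (g : Matrix.symplecticGroup (Fin m) F) (k : ℕ),
        edM (spGLHom m F g).1 = s + Multiset.replicate k (X - C 1)) ↔
        s.map rev = s ∧ s.card * i ≤ 2 * m) := by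
    intro s hs
    constructor
    · rintro ⟨g, k, hg⟩
      change edM g.1 = _ at hg
      have h1 := sum_natDegree_edM g.1
      rw [hg, sum_deg_add hr hr0 hs, ← hi] at h1
      refine ⟨map_rev_of_add (hg ▸ sp_edM_rev g), ?_⟩
      simp at h1
      omega
    · rintro ⟨h1, h2⟩
      have hp := fun a ha => Tr_isPP (hs a ha)
      have h0 := fun a ha => Tr_coeff hr (hs a ha)
      have hc := fun a ha => Tr_coprime hr hr2 (hs a ha)
      obtain ⟨k, hk⟩ := even_of_free hp h0 h1 hc
      have hk' := hk
      rw [sum_natDegree_Tr hr hr0 hs, ← hi] at hk'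
      obtain ⟨A, hA⟩ := exists_sp_edM (m := m) hp h0 h1 hc (m - k) 0 (by omega)
      exact ⟨A, 2 * (m - k), by rw [spGLHom_val]; simpa using hA⟩
  refine Eq.trans ?_ ((hP fun c => c * i ≤ 2 * m ∧ c ≠ 0).trans ?_)
  · refine Nat.card_congr (Equiv.subtypeEquivRight fun s => ?_)
    rw [and_assoc, and_assoc]
    refine and_congr_right fun hs => ?_
    rw [hE s hs]
    simp [and_assoc]
  · split_ifs at hT ⊢ with h
    · rw [← hT, ← card_ms_le_ne]
      refine Nat.card_congr (Equiv.subtypeEquivRight fun s => and_congr_right fun hs => ?_)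
      rw [Nat.le_div_iff_mul_le hpos, mul_assoc]
      simp
    · rw [← hT, ← card_ms_le_ne]
      refine Nat.card_congr (Equiv.subtypeEquivRight fun s => and_congr_right fun hs => ?_)
      rw [Nat.le_div_iff_mul_le hpos]
      simp

end Cfsg.Agent.S2645
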