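import Cfsg.Statements.S2646
import Cfsg.Agent.H3.JCentU

set_option autoImplicit false
open Cfsg

namespace Cfsg.Agent.S2646

/-- Order of the centraliser in the general unitary group GU_n(q) of a unipotent element of given Jordan type: if u ∈ GU_n(q) (isometries of Σ u_i v_i^q over the field with q² elements) is similar to the unipotent matrix with a_i Jordan blocks of size i (all sizes at least 1), then its centraliser in GU_n(q) has order q^γ · Π_i |GU_(a_i)(q)| with γ = 2 Σ_(i<j) i a_i a_j + Σ_i (i − 1) a_i², the same exponent as in GL_n(q), where |GU_a(q)| = q^(a(a−1)/2) Π_(k=1)^a (q^k − (−1)^k). -/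
theorem result {K : Type*} [Field K] [Fintype K] {q n t : ℕ} (hK : Fintype.card K = q ^ 2) (d : Fin t → ℕ) (hd : ∀ k, 1 ≤ d k) (e : ((k : Fin t) × Fin (d k)) ≃ Fin n) (u : ↥(Cfsg.GU n K q)) (hu : IsConj (Matrix.reindex e e (Cfsg.jordanTypeMatrix d K)) ((u : GL (Fin n) K) : Matrix (Fin n) (Fin n) K)) : (Nat.card ↥(Subgroup.centralizer ({u} : Set ↥(Cfsg.GU n K q))) : ℤ) = (q : ℤ) ^ (2 * (∑ i ∈ Finset.range (Finset.univ.sup d + 1), ∑ j ∈ Finset.range (Finset.univ.sup d + 1), if i < j then i * (Finset.univ.filter (fun k : Fin t => d k = i)).card * (Finset.univ.filter (fun k : Fin t => d k = j)).card else 0) + ∑ i ∈ Finset.range (Finset.univ.sup d + 1), (i - 1) * (Finset.univ.filter (fun k : Fin t => d k = i)).card ^ 2) * ∏ i ∈ Finset.range (Finset.univ.sup d + 1), ((q : ℤ) ^ ((Finset.univ.filter (fun k : Fin t => d k = i)).card * ((Finset.univ.filter (fun k : Fin t => d k = i)).card - 1) / 2) * ∏ j : Fin (Finset.univ.filter (fun k : Fin t => d k = i)).card, ((q : ℤ)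 ^ ((j : ℕ) + 1) - (-1) ^ ((j : ℕ) + 1))) := by
  obtain ⟨c, hc⟩ := hu
  have hq := H23.two_le_of_card_eq_sq hK
  have h := Cfsg.Agent.H3.JCentU.main hd hK (P := c.1.submatrix id e) (Q := (c⁻¹).1.submatrix e id)
    (by rw [Matrix.submatrix_mul_equiv, c.mul_inv, Matrix.submatrix_id_id])
    (by rw [← Equiv.coe_refl, Matrix.submatrix_mul_equiv, c.inv_mul, Matrix.submatrix_one_equiv])
    ((H14.Wall.mem_GU_ct hK).1 u.2) (by
      have h1 : Cfsg.jordanTypeMatrix d K =
          (Matrix.reindex e e (Cfsg.jordanTypeMatrix d K)).submatrix e e := by simp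
      rw [h1, Matrix.submatrix_mul_equiv, hc.eq]
      rfl)
  have h2 : Nat.card ↥(Subgroup.centralizer ({u} : Set ↥(Cfsg.GU n K q))) =
      Nat.card {X : GL (Fin n) K // X.1 * u.1.1 = u.1.1 * X.1 ∧
        H14.Wall.ct (H23.conj hK) X.1 * X.1 = 1} := Nat.card_congr
    { toFun := fun x => ⟨x.1.1, congrArg (fun y : Cfsg.GU n K q => y.1.1)
        (Subgroup.mem_centralizer_singleton_iff.1 x.2), (H14.Wall.mem_GU_ct hK).1 x.1.2⟩
      invFun := fun X => ⟨⟨X.1, (H14.Wall.mem_GU_ct hK).2 X.2.2⟩,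
        Subgroup.mem_centralizer_singleton_iff.2 (Subtype.ext (Units.ext X.2.1))⟩
      left_inv := fun _ => rfl
      right_inv := fun _ => rfl }
  rw [h2, h]
  push_cast
  congr 1
  refine Finset.prod_congr rfl fun i _ => ?_
  rw [S0277.result hK, Fin.prod_univ_eq_prod_range
    (fun j => (q : ℤ) ^ (j + 1) - (-1) ^ (j + 1))]
  push_cast
  congr 1
  refine Finset.prod_congr rfl fun j _ => ?_
  split_ifs with hj
  · rw [hj.add_one.neg_one_pow]; ring
  · rw [(Nat.not_even_iff_odd.1 hj).add_one.neg_one_pow, Nat.cast_sub (Nat.one_le_pow _ _ (by omega))]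
    simp

end Cfsg.Agent.S2646
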