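import Cfsg.Statements.S2653
import Cfsg.Agent.H25.AW8

set_option autoImplicit false
open scoped MatrixGroups
open Cfsg

namespace Cfsg.Agent.S2653

/-- Alternating sections of finite linear groups. Let `F` be a finite field of characteristic `p` and `n` a natural number, and suppose some subgroup `H` of GL_n(F) has a normal subgroup `K` with `H ⧸ K` isomorphic to the alternating group of degree `r ≥ 9`. Then `n ≥ r - 2` when `p` divides `r`, and `n ≥ r - 1` otherwise (the smallest degree of a nontrivial projective representation of that alternating group in characteristic `p`). The same bound follows for every classical group with natural module of dimension `n` over `F`, since each is a section of a subgroup of GL_n(F). -/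
theorem result {F : Type*} [Field F] [Fintype F] (p : ℕ) [Fact p.Prime] [CharP F p]
    (n : ℕ) (r : ℕ) (H : Subgroup (GL (Fin n) F)) (K : Subgroup ↥H) [K.Normal]
    (h : Nonempty (↥H ⧸ K ≃* ↥(alternatingGroup (Fin r)))) (hr : 9 ≤ r) :
    r - 1 - (if p ∣ r then 1 else 0) ≤ n := by
  obtain ⟨e⟩ := h
  letI := ZMod.algebra F p
  let ι : F →+* AlgebraicClosure (ZMod p) :=
    (IsAlgClosed.lift (R := ZMod p) (S := F) (M := AlgebraicClosure (ZMod p))).toRingHom
  obtain ⟨ρ, hρ⟩ := H25.AW.mat_rep ι ((Units.coeHom (Matrix (Fin n) (Fin n) F)).comp H.subtype)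
  have := H25.AW.bd n (AlgebraicClosure (ZMod p)) _ (Fin r) H ρ
    ((alternatingGroup (Fin r)).subtype.comp (e.toMonoidHom.comp (QuotientGroup.mk' K)))
    ⟨fun x => (e (x : H ⧸ K)).2, fun g hg => by
      obtain ⟨x, hx⟩ := QuotientGroup.mk_surjective (e.symm ⟨g, hg⟩)
      exact ⟨x, by
        show ((e (x : H ⧸ K) : alternatingGroup (Fin r)) : Equiv.Perm (Fin r)) = g
        rw [hx, e.apply_symm_apply]⟩⟩
    (fun x hx => by
      rw [show x = 1 from Subtype.ext (Units.ext (hρ x hx)), map_one])
    (by simpa using hr) (by simp)
  rw [Fintype.card_fin, Ne, CharP.cast_eq_zero_iff _ p] at this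
  split_ifs with h1
  · omega
  · have := this.2 h1
    omega

end Cfsg.Agent.S2653
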