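import Cfsg.Statements.S2655
import Cfsg.Agent.H25.ES4

set_option autoImplicit false
open scoped MatrixGroups
open Cfsg

namespace Cfsg.Agent.S2655

/-- Alternating sections of the groups of type E₇. Let `F` be a finite field of characteristic `p` and let `G` be the Chevalley group of type E₇ over `F`. If some subgroup of `G` has a quotient isomorphic to the alternating group of degree `r`, then `r` is at most 13, or 14 in characteristic 7. (Only an upper bound is asserted.) -/
theorem result {F : Type*} [Field F] [Fintype F] (p : ℕ) [Fact p.Prime] [CharP F p]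
    (r : ℕ) (H : Subgroup ↥(Cfsg.Lie.chevE7.group F)) (K : Subgroup ↥H) [K.Normal]
    (h : Nonempty (↥H ⧸ K ≃* ↥(alternatingGroup (Fin r)))) :
    r ≤ 13 + (if p = 7 then 1 else 0) := by
  have hs := Lead.AS.Sec.of h
  obtain ⟨a, hp', ha⟩ := FiniteField.card F p
  by_contra hr
  split_ifs at hr with hp
  · subst hp
    haveI := Fintype.ofFinite (FiniteField.Extension F 7 20)
    refine H25.ES.E7_15 (F := FiniteField.Extension F 7 20) ?_ ((hs.alt (by omega)).group (algebraMap F _))
    rw [Fintype.card_eq_nat_card, FiniteField.natCard_extension, Nat.card_eq_fintype_card, ha]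
    exact H25.ES.euler (n := 5 * 5) (by norm_num) a
  · haveI := Fintype.ofFinite (FiniteField.Extension F p 42)
    refine H25.ES.E7_14 (F := FiniteField.Extension F p 42) ?_ ((hs.alt (by omega)).group (algebraMap F _))
    rw [Fintype.card_eq_nat_card, FiniteField.natCard_extension, Nat.card_eq_fintype_card, ha]
    have := (Nat.coprime_primes hp' (by norm_num : Nat.Prime 7)).2 hp
    exact H25.ES.euler (n := 7 * 7) (this.mul_right this) a

end Cfsg.Agent.S2655
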