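import Cfsg.Statements.S2658
import Cfsg.Agent.Lead.AS4

set_option autoImplicit false
open scoped MatrixGroups
open Cfsg

namespace Cfsg.Agent.S2658

/-- Alternating sections of the groups of type G₂. Let `F` be a finite field of characteristic `p` and let `G` be the Chevalley group of type G₂ over `F`. If some subgroup of `G` has a quotient isomorphic to the alternating group of degree `r`, then `r` is at most 6, or 7 in characteristic 5. (Only an upper bound is asserted.) -/
theorem result {F : Type*} [Field F] [Fintype F] (p : ℕ) [Fact p.Prime] [CharP F p]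
    (r : ℕ) (H : Subgroup ↥(Cfsg.Lie.chevG2.group F)) (K : Subgroup ↥H) [K.Normal]
    (h : Nonempty (↥H ⧸ K ≃* ↥(alternatingGroup (Fin r)))) :
    r ≤ 6 + (if p = 5 then 1 else 0) := by
  have hs := Lead.AS.Sec.of h
  by_contra hr
  split_ifs at hr with hp
  · subst hp
    exact Lead.AS.G2_8 F (hs.alt (by omega))
  · haveI : Fact (Nat.Prime 5) := ⟨by norm_num⟩
    haveI := Fintype.ofFinite (FiniteField.Extension F p 4)
    obtain ⟨a, -, ha⟩ := FiniteField.card F p
    refine Lead.AS.G2_7 (FiniteField.Extension F p 4) ?_ ((hs.alt (by omega)).group (algebraMap F _))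
    rw [Fintype.card_eq_nat_card, FiniteField.natCard_extension, Nat.card_eq_fintype_card, ha]
    exact Lead.AS.fermat hp a

end Cfsg.Agent.S2658
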