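import Cfsg.Statements.S2660
import Cfsg.Agent.Lead.AS4

set_option autoImplicit false
open scoped MatrixGroups
open Cfsg

namespace Cfsg.Agent.S2660

/-- Alternating sections of the triality-twisted groups ³D₄. Let `q = p^a` be a prime power and `K` a field with `q³` elements, and let `G` be the twisted group ³D₄(q) realised over `K`. If some subgroup of `G` has a quotient isomorphic to the alternating group of degree `r`, then `r` is at most 6, or 7 in characteristic 5. (Only an upper bound is asserted.) -/
theorem result {K : Type*} [Field K] [Fintype K] (p a : ℕ) [Fact p.Prime] [CharP K p]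
    (ha : 1 ≤ a) (hK : Fintype.card K = (p ^ a) ^ 3) (r : ℕ) (H : Subgroup ↥(Cfsg.Lie.twistedD4 K (p ^ a))) (N : Subgroup ↥H) [N.Normal]
    (h : Nonempty (↥H ⧸ N ≃* ↥(alternatingGroup (Fin r)))) :
    r ≤ 6 + (if p = 5 then 1 else 0) := by
  have hs := Lead.AS.Sec.of h
  by_contra hr
  split_ifs at hr with hp
  · subst hp
    exact Lead.AS.D4_8 ha hK (hs.alt (by omega))
  · haveI : Fact (Nat.Prime 5) := ⟨by norm_num⟩
    haveI := Fintype.ofFinite (FiniteField.Extension K p 4)
    refine Lead.AS.D4_7 (K := FiniteField.Extension K p 4) (q := (p ^ a) ^ 4)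
      ⟨p, a * 4, (Fact.out : p.Prime).prime, by omega, pow_mul _ _ _⟩ ?_ (Lead.AS.fermat hp a)
      (Lead.AS.D4_ext (algebraMap K _) hK (hs.alt (by omega)))
    rw [Fintype.card_eq_nat_card, FiniteField.natCard_extension, Nat.card_eq_fintype_card, hK]; ring

end Cfsg.Agent.S2660
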