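import Cfsg.Statements.S2666
import Cfsg.Agent.H16.LA5
-- import your own Cfsg.Agent.* helpers here

set_option autoImplicit false
open Cfsg

namespace Cfsg.Agent.S2666

/-- Shintani descent, in an abstract form. Let `σ` be an automorphism of a group `X` such that the maps `a ↦ a·σ(a)⁻¹` and `a ↦ a·σᵉ(a)⁻¹` are surjective on `X` (the Lang–Steinberg property, which holds when `X` is a connected algebraic group and `σ` a Steinberg endomorphism), where `e ≥ 1`. Write `G` for the subgroup of fixed points of `σᵉ` and `H` for the subgroup of fixed points of `σ`. The `G`-conjugacy classes in the coset `G σ` of the semidirect product of `G` by `σ` correspond to the orbits of `G` on itself under twisted conjugation `g ↦ k g σ(k)⁻¹`, and the `e`-th power of `g σ` has `G`-part the norm `g σ(g) ⋯ σ^(e-1)(g)`. For `g` in `G` and any `a` with `g = a σ(a)⁻¹`, put `x = σᵉ(a)⁻¹ a`. Then: (1) `x` lies in `H`, and `a⁻¹ · (g σ(g) ⋯ σ^(e-1)(g)) · a = x`; (2) for `g,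 g'` in `G` with such elements `a, b` and `x, x'`, the elements `g, g'` are twisted-conjugate under `G` if and only if `x, x'` are conjugate in `H`; (3) every element of `H` arises as such an `x`. So `g ↦ x` induces a well-defined bijection from the twisted `G`-classes of `G` onto the conjugacy classes of `H` (the Shintani map). -/
theorem result {X : Type*} [Group X] (σ : MulAut X) (e : ℕ) (he : 1 ≤ e)
    (hL : ∀ g : X, ∃ a : X, g = a * (σ a)⁻¹) (hLe : ∀ g : X, ∃ a : X, g = a * ((σ ^ e) a)⁻¹) :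
    (∀ g ∈ (MulEquiv.toMonoidHom (σ ^ e)).eqLocus (MonoidHom.id X), ∀ a : X, g = a * (σ a)⁻¹ →
        ((σ ^ e) a)⁻¹ * a ∈ (MulEquiv.toMonoidHom σ).eqLocus (MonoidHom.id X) ∧
          a⁻¹ * ((List.range e).map (fun i => (σ ^ i) g)).prod * a = ((σ ^ e) a)⁻¹ * a) ∧
    (∀ g ∈ (MulEquiv.toMonoidHom (σ ^ e)).eqLocus (MonoidHom.id X), ∀ g' ∈ (MulEquiv.toMonoidHom (σ ^ e)).eqLocus (MonoidHom.id X), ∀ a b : X,
        g = a * (σ a)⁻¹ → g' = b * (σ b)⁻¹ →
          ((∃ k ∈ (MulEquiv.toMonoidHom (σ ^ e)).eqLocus (MonoidHom.id X), g' = k * g * (σ k)⁻¹) ↔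
            (∃ h ∈ (MulEquiv.toMonoidHom σ).eqLocus (MonoidHom.id X), ((σ ^ e) b)⁻¹ * b = h * (((σ ^ e) a)⁻¹ * a) * h⁻¹))) ∧
    (∀ x ∈ (MulEquiv.toMonoidHom σ).eqLocus (MonoidHom.id X), ∃ g ∈ (MulEquiv.toMonoidHom (σ ^ e)).eqLocus (MonoidHom.id X), ∃ a : X,
        g = a * (σ a)⁻¹ ∧ ((σ ^ e) a)⁻¹ * a = x) := by
  have hm : ∀ (τ : MulAut X) (x : X), x ∈ (MulEquiv.toMonoidHom τ).eqLocus (MonoidHom.id X) ↔ τ x = x :=
    fun _ _ => Iff.rfl
  simp only [hm]
  have hc : ∀ x, σ ((σ ^ e) x) = (σ ^ e) (σ x) := fun x => by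
    rw [← MulAut.mul_apply, ← MulAut.mul_apply, ← pow_succ, ← pow_succ']
  have hprod : ∀ (a : X) (d : ℕ), ((List.range d).map (fun i => (σ ^ i) (a * (σ a)⁻¹))).prod =
      a * ((σ ^ d) a)⁻¹ := fun a d => by
    induction d with
    | zero => simp
    | succ d ih => rw [List.range_succ, List.map_append, List.prod_append, ih]; simp [pow_succ]
  have key : ∀ a : X, (σ ^ e) (a * (σ a)⁻¹) = a * (σ a)⁻¹ ↔
      σ (((σ ^ e) a)⁻¹ * a) = ((σ ^ e) a)⁻¹ * a := fun a => by
    simp only [map_mul, map_inv, hc]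
    constructor
    · intro h
      calc _ = ((σ ^ e) a)⁻¹ * ((σ ^ e) a * ((σ ^ e) (σ a))⁻¹) * σ a := by group
        _ = _ := by rw [h]; group
    · intro h
      calc _ = (σ ^ e) a * (((σ ^ e) (σ a))⁻¹ * σ a) * (σ a)⁻¹ := by group
        _ = _ := by rw [h]; group
  refine ⟨?_, ?_, ?_⟩
  · rintro g hg a rfl
    refine ⟨(key a).1 hg, ?_⟩
    rw [hprod]
    have h1 := (key a).1 hg
    have h2 : ∀ j, (σ ^ j) (((σ ^ e) a)⁻¹ * a) = ((σ ^ e) a)⁻¹ * a := fun j => by
      induction j with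
      | zero => simp
      | succ j ih => rw [pow_succ, MulAut.mul_apply, h1, ih]
    group
  · rintro g hg g' hg' a b rfl rfl
    constructor
    · rintro ⟨k, hk, h⟩
      refine ⟨b⁻¹ * k * a, ?_, ?_⟩
      · simp only [map_mul, map_inv]
        calc _ = b⁻¹ * (b * (σ b)⁻¹) * σ k * σ a := by group
          _ = _ := by rw [h]; group
      · have h1 : σ (b⁻¹ * k * a) = b⁻¹ * k * a := by
          simp only [map_mul, map_inv]
          calc _ = b⁻¹ * (b * (σ b)⁻¹) * σ k * σ a := by group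
            _ = _ := by rw [h]; group
        have h2 : ∀ j, (σ ^ j) (b⁻¹ * k * a) = b⁻¹ * k * a := fun j => by
          induction j with
          | zero => simp
          | succ j ih => rw [pow_succ, MulAut.mul_apply, h1, ih]
        have h3 := h2 e
        simp only [map_mul, map_inv, hk] at h3
        calc _ = (((σ ^ e) b)⁻¹ * k * (σ ^ e) a) * (((σ ^ e) a)⁻¹ * a) * (b⁻¹ * k * a)⁻¹ := by group
          _ = _ := by rw [h3]
    · rintro ⟨h, hh, h1⟩
      have h2 : ∀ j, (σ ^ j) h = h := fun j => by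
        induction j with
        | zero => simp
        | succ j ih => rw [pow_succ, MulAut.mul_apply, hh, ih]
      refine ⟨b * h * a⁻¹, ?_, ?_⟩
      · simp only [map_mul, map_inv, h2]
        calc _ = (σ ^ e) b * (h * (((σ ^ e) a)⁻¹ * a) * h⁻¹) * h * a⁻¹ := by group
          _ = _ := by rw [← h1]; group
      · simp only [map_mul, map_inv, hh]; group
  · intro x hx
    obtain ⟨a, ha⟩ := hLe x⁻¹
    have h1 : ((σ ^ e) a⁻¹)⁻¹ * a⁻¹ = x := by rw [← inv_inv x, ha]; simp
    exact ⟨_, (key a⁻¹).2 (by rw [h1, hx]), a⁻¹, rfl, h1⟩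

end Cfsg.Agent.S2666
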