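import Cfsg.Statements.S2668
import Cfsg.Agent.H16.LA5
-- import your own Cfsg.Agent.* helpers here

set_option autoImplicit false
open Cfsg

namespace Cfsg.Agent.S2668

/-- Shintani descent and powers (abstract form). Let `σ` be an automorphism of a group `X`, `e ≥ 1` and `d ≥ 1`, let `g` be fixed by `σᵉ` and let `a` satisfy `g = a σ(a)⁻¹`, so that the Shintani map of `(X, σ, e)` sends the class of `g σ` to the class of `x = σᵉ(a)⁻¹ a`. Put `h = g σ(g) ⋯ σ^(d-1)(g)`, the part in `X` of the `d`-th power `(g σ)^d = h σ^d`. Then `h = a σ^d(a)⁻¹` (so `a` also serves for `h` with respect to `σ^d`), `h` is fixed by `(σ^d)ᵉ`, and `(σ^d)ᵉ(a)⁻¹ a = x^d`: the Shintani map of `(X, σ^d, e)` sends the class of `(g σ)^d` to the class of `x^d`. (When `d` divides `e`, the Shintani map of `(X, σ^d, e/d)` sends it to the class of `x` itself, since `(σ^d)^(e/d) = σᵉ`.) -/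
theorem result {X : Type*} [Group X] (σ : MulAut X) (e d : ℕ) (he : 1 ≤ e) (hd : 1 ≤ d)
    (g : X) (hg : g ∈ (MulEquiv.toMonoidHom (σ ^ e)).eqLocus (MonoidHom.id X)) (a : X) (ha : g = a * (σ a)⁻¹) :
    ((List.range d).map (fun i => (σ ^ i) g)).prod = a * ((σ ^ d) a)⁻¹ ∧
      ((List.range d).map (fun i => (σ ^ i) g)).prod ∈ (MulEquiv.toMonoidHom ((σ ^ d) ^ e)).eqLocus (MonoidHom.id X) ∧
      (((σ ^ d) ^ e) a)⁻¹ * a = (((σ ^ e) a)⁻¹ * a) ^ d := by
  have hm : ∀ (τ : MulAut X) (x : X), x ∈ (MulEquiv.toMonoidHom τ).eqLocus (MonoidHom.id X) ↔ τ x = x :=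
    fun _ _ => Iff.rfl
  simp only [hm] at *
  subst ha
  have hc : ∀ i j x, (σ ^ i) ((σ ^ j) x) = (σ ^ (i + j)) x := fun i j x => by
    rw [← MulAut.mul_apply, ← pow_add]
  have hprod : ∀ (d : ℕ), ((List.range d).map (fun i => (σ ^ i) (a * (σ a)⁻¹))).prod =
      a * ((σ ^ d) a)⁻¹ := fun d => by
    induction d with
    | zero => simp
    | succ d ih => rw [List.range_succ, List.map_append, List.prod_append, ih]; simp [pow_succ]
  have h1 : σ (((σ ^ e) a)⁻¹ * a) = ((σ ^ e) a)⁻¹ * a := by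
    have : σ ((σ ^ e) a) = (σ ^ e) (σ a) := by
      rw [← MulAut.mul_apply, ← MulAut.mul_apply, ← pow_succ, ← pow_succ']
    simp only [map_mul, map_inv, this] at hg ⊢
    calc _ = ((σ ^ e) a)⁻¹ * ((σ ^ e) a * ((σ ^ e) (σ a))⁻¹) * σ a := by group
      _ = _ := by rw [hg]; group
  have h2 : ∀ j, (σ ^ j) (((σ ^ e) a)⁻¹ * a) = ((σ ^ e) a)⁻¹ * a := fun j => by
    induction j with
    | zero => simp
    | succ j ih => rw [pow_succ, MulAut.mul_apply, h1, ih]
  have h3 : ∀ j, ((σ ^ (j * e)) a)⁻¹ * a = (((σ ^ e) a)⁻¹ * a) ^ j := fun j => by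
    induction j with
    | zero => simp
    | succ j ih =>
      rw [pow_succ', ← ih]
      nth_rw 1 [← h2 (j * e)]
      rw [map_mul, map_inv, hc, add_mul, one_mul]; group
  refine ⟨hprod d, ?_, by rw [← pow_mul, h3]⟩
  rw [hprod, ← pow_mul]
  have h4 := congrArg (σ ^ d) (h3 d)
  rw [map_pow, h2, ← h3, map_mul, map_inv, hc] at h4
  rw [map_mul, map_inv, hc, add_comm]
  calc _ = (σ ^ (d * e)) a * (((σ ^ (d + d * e)) a)⁻¹ * (σ ^ d) a) * ((σ ^ d) a)⁻¹ := by group
    _ = _ := by rw [h4]; group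

end Cfsg.Agent.S2668
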