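import Cfsg.Statements.S2669
import Cfsg.Agent.H16.LA5
-- import your own Cfsg.Agent.* helpers here

set_option autoImplicit false
open Cfsg

namespace Cfsg.Agent.S2669

/-- Shintani descent preserves numbers of fixed points on coset spaces (abstract form). Let `σ` be an automorphism of a group `X` and `e ≥ 1`; write `G` for the fixed points of `σᵉ` and `H` for the fixed points of `σ`, and assume `G` is finite. Let `Y` be a `σ`-stable subgroup of `X` on which the maps `a ↦ a σ(a)⁻¹` and `a ↦ a σᵉ(a)⁻¹` are surjective (as for a closed connected `σ`-stable subgroup of an algebraic group). Let `g ∈ G`, let `a ∈ X` satisfy `g = a σ(a)⁻¹` and put `x = σᵉ(a)⁻¹ a` (the Shintani image, an element of `H`). The element `g σ` of the semidirect product acts on the cosets of `Y ∩ G` in `G` by `k (Y ∩ G) ↦ g σ(k) (Y ∩ G)`, fixing that coset exactly when `k⁻¹ g σ(k) ∈ Y`;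 and `x` fixes the coset `h (Y ∩ H)` of `H` exactly when `h⁻¹ x h ∈ Y`. Then the two numbers of fixed cosets agree; in cross-multiplied form, `#{k ∈ G : k⁻¹ g σ(k) ∈ Y} · |Y ∩ H| = #{h ∈ H : h⁻¹ x h ∈ Y} · |Y ∩ G|`. -/
theorem result {X : Type*} [Group X] (σ : MulAut X) (e : ℕ) (he : 1 ≤ e)
    [Finite ↥((MulEquiv.toMonoidHom (σ ^ e)).eqLocus (MonoidHom.id X))]
    (Y : Subgroup X) (hY : ∀ y : X, y ∈ Y ↔ σ y ∈ Y)
    (hYL : ∀ y ∈ Y, ∃ a ∈ Y, y = a * (σ a)⁻¹) (hYLe : ∀ y ∈ Y, ∃ a ∈ Y, y = a * ((σ ^ e) a)⁻¹)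
    (g : X) (hg : g ∈ (MulEquiv.toMonoidHom (σ ^ e)).eqLocus (MonoidHom.id X)) (a : X) (ha : g = a * (σ a)⁻¹) :
    Nat.card {k : ↥((MulEquiv.toMonoidHom (σ ^ e)).eqLocus (MonoidHom.id X)) // (k : X)⁻¹ * g * σ k ∈ Y} *
        Nat.card ↥(Y ⊓ (MulEquiv.toMonoidHom σ).eqLocus (MonoidHom.id X)) =
      Nat.card {h : ↥((MulEquiv.toMonoidHom σ).eqLocus (MonoidHom.id X)) // (h : X)⁻¹ * (((σ ^ e) a)⁻¹ * a) * h ∈ Y} *
        Nat.card ↥(Y ⊓ (MulEquiv.toMonoidHom (σ ^ e)).eqLocus (MonoidHom.id X)) := by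
  subst ha
  have hH : ∀ h, σ h = h → ∀ j, (σ ^ j) h = h := fun h hh j => by
    induction j with
    | zero => simp
    | succ j ih => rw [pow_succ, MulAut.mul_apply, hh, ih]
  have hYe : ∀ j y, y ∈ Y → (σ ^ j) y ∈ Y := fun j => by
    induction j with
    | zero => simp
    | succ j ih => intro y hy; rw [pow_succ, MulAut.mul_apply]; exact ih _ ((hY y).1 hy)
  let T := {p : X × X // (σ ^ e) p.1 = p.1 ∧ p.2 ∈ Y ∧ σ (a⁻¹ * p.1 * p.2) = a⁻¹ * p.1 * p.2}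
  rw [← Nat.card_prod, ← Nat.card_prod]
  trans Nat.card T
  · have h1 : ∀ k : {k : ↥((MulEquiv.toMonoidHom (σ ^ e)).eqLocus (MonoidHom.id X)) //
        (k : X)⁻¹ * (a * (σ a)⁻¹) * σ k ∈ Y}, ∃ y ∈ Y, σ (a⁻¹ * k.1.1 * y) = a⁻¹ * k.1.1 * y := by
      intro k
      obtain ⟨y, hy, h⟩ := hYL _ k.2
      refine ⟨y, hy, ?_⟩
      simp only [map_mul, map_inv]
      calc _ = a⁻¹ * k.1.1 * ((k.1.1)⁻¹ * (a * (σ a)⁻¹) * σ k.1.1) * σ y := by group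
        _ = _ := by rw [h]; group
    choose y hy hy' using h1
    refine Nat.card_congr (Equiv.ofBijective (fun p => ⟨(p.1.1.1, y p.1 * p.2.1), p.1.1.2,
      Y.mul_mem (hy _) p.2.2.1, ?_⟩) ⟨?_, ?_⟩)
    · have h2 : σ p.2.1 = p.2.1 := p.2.2.2
      rw [← mul_assoc, map_mul, hy', h2]
    · rintro ⟨k, z⟩ ⟨k', z'⟩ h
      simp only [T, Subtype.mk.injEq, Prod.mk.injEq] at h
      obtain rfl : k = k' := Subtype.ext (Subtype.ext h.1)
      obtain rfl : z = z' := Subtype.ext (mul_left_cancel h.2)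
      rfl
    · rintro ⟨⟨k, w⟩, h1, h2, h3⟩
      have h4 : k⁻¹ * (a * (σ a)⁻¹) * σ k ∈ Y := by
        have : k⁻¹ * (a * (σ a)⁻¹) * σ k = w * (σ w)⁻¹ := by
          simp only [map_mul, map_inv] at h3
          calc _ = k⁻¹ * a * ((σ a)⁻¹ * σ k * σ w) * (σ w)⁻¹ := by group
            _ = _ := by rw [h3]; group
        rw [this]; exact Y.mul_mem h2 (Y.inv_mem ((hY w).1 h2))
      refine ⟨⟨⟨⟨k, h1⟩, h4⟩, (y ⟨⟨k, h1⟩, h4⟩)⁻¹ * w, Y.mul_mem (Y.inv_mem (hy _)) h2, ?_⟩,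
        Subtype.ext (by simp)⟩
      have h5 := hy' ⟨⟨k, h1⟩, h4⟩
      show σ _ = _
      have h6 : (y ⟨⟨k, h1⟩, h4⟩)⁻¹ * w = (a⁻¹ * k * y ⟨⟨k, h1⟩, h4⟩)⁻¹ * (a⁻¹ * k * w) := by group
      rw [h6, map_mul, map_inv, h5, h3]; rfl
  · symm
    have h1 : ∀ h : {h : ↥((MulEquiv.toMonoidHom σ).eqLocus (MonoidHom.id X)) //
        (h : X)⁻¹ * (((σ ^ e) a)⁻¹ * a) * h ∈ Y}, ∃ y ∈ Y, (σ ^ e) (a * h.1.1 * y) = a * h.1.1 * y := by
      intro h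
      obtain ⟨y, hy, h'⟩ := hYLe _ (Y.inv_mem h.2)
      refine ⟨y, hy, ?_⟩
      simp only [map_mul, hH _ h.1.2]
      calc _ = a * h.1.1 * ((h.1.1)⁻¹ * (((σ ^ e) a)⁻¹ * a) * h.1.1)⁻¹ * (σ ^ e) y := by group
        _ = _ := by rw [h']; group
    choose y hy hy' using h1
    refine Nat.card_congr (Equiv.ofBijective (fun p => ⟨(a * p.1.1.1 * y p.1 * p.2.1, (y p.1 * p.2.1)⁻¹), ?_,
      Y.inv_mem (Y.mul_mem (hy _) p.2.2.1), ?_⟩) ⟨?_, ?_⟩)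
    · have h2 : (σ ^ e) p.2.1 = p.2.1 := p.2.2.2
      rw [map_mul, hy', h2]
    · have h2 : σ p.1.1.1 = p.1.1.1 := p.1.1.2
      simpa [mul_assoc] using h2
    · rintro ⟨k, z⟩ ⟨k', z'⟩ h
      simp only [T, Subtype.mk.injEq, Prod.mk.injEq, inv_inj] at h
      obtain rfl : k = k' := Subtype.ext (Subtype.ext (by simpa [mul_assoc, h.2] using h.1))
      obtain rfl : z = z' := Subtype.ext (mul_left_cancel h.2)
      rfl
    · rintro ⟨⟨k, w⟩, h1, h2, h3⟩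
      have h4 : (a⁻¹ * k * w)⁻¹ * (((σ ^ e) a)⁻¹ * a) * (a⁻¹ * k * w) ∈ Y := by
        have : (a⁻¹ * k * w)⁻¹ * (((σ ^ e) a)⁻¹ * a) * (a⁻¹ * k * w) = ((σ ^ e) w)⁻¹ * w := by
          have h5 := hH _ h3 e
          simp only [map_mul, map_inv] at h5 h1
          nth_rw 1 [← h5]
          rw [h1]
          group
        rw [this]; exact Y.mul_mem (Y.inv_mem (hYe _ _ h2)) h2
      refine ⟨⟨⟨⟨_, h3⟩, h4⟩, (y ⟨⟨_, h3⟩, h4⟩)⁻¹ * w⁻¹, Y.mul_mem (Y.inv_mem (hy _)) (Y.inv_mem h2), ?_⟩,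
        Subtype.ext (by simp [mul_assoc])⟩
      have h5 := hy' ⟨⟨_, h3⟩, h4⟩
      show (σ ^ e) _ = _
      have h6 : (y ⟨⟨_, h3⟩, h4⟩)⁻¹ * w⁻¹ = (a * (a⁻¹ * k * w) * y ⟨⟨_, h3⟩, h4⟩)⁻¹ * k := by group
      rw [h6, map_mul, map_inv, h5, h1]; rfl

end Cfsg.Agent.S2669
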