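import Cfsg.Statements.S2671
import Cfsg.Agent.H14.Wall4

set_option autoImplicit false
set_option linter.unusedVariables false
set_option linter.style.haveILetI false
open Cfsg H14.Wall H16 H23 Polynomial
open scoped Matrix

namespace Cfsg.Agent.S2671

/-- Number of conjugacy classes of elements of odd prime order r in the general unitary group GU_n(q), for r not dividing q(q + 1): let i be the multiplicative order of q modulo r, b = i if i is odd and b = i/2 if i is even, and s = (r − 1)/b. If i ≢ 2 (mod 4) the eigenvalue orbits pair off into dual pairs of totally isotropic blocks and there are C(⌊n/(2b)⌋ + s/2, s/2) − 1 classes; if i ≡ 2 (mod 4) each orbit gives a non-degenerate block of dimension i/2 and there are C(⌊2n/i⌋ + s, s) − 1 classes. -/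
theorem result {K : Type*} [Field K] [Fintype K] {p q n r i b s : ℕ} [Fact p.Prime] [CharP K p] (hK : Fintype.card K = q ^ 2) (hr : r.Prime) (hr2 : r ≠ 2) (hrp : r ≠ p) (hi : i = orderOf (q : ZMod r)) (hi2 : i ≠ 2) (hb : b = if Odd i then i else i / 2) (hs : s * b = r - 1) : Nat.card {C : ConjClasses ↥(Cfsg.GU n K q) // ∃ g : ↥(Cfsg.GU n K q), ConjClasses.mk g = C ∧ orderOf g = r} = if i % 4 = 2 then Nat.choose (2 * n / i + s) s - 1 else Nat.choose (n / (2 * b) + s / 2) (s / 2) - 1 := by
  haveI := Fact.mk hr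
  have hr0 : (r : K) ≠ 0 := cast_ne_zero_of_ne p hr hrp
  obtain ⟨p', k, hp', hc, hk, hq⟩ := exists_pow_of_card_eq_sq hK
  obtain rfl : p = p' := CharP.eq K ‹CharP K p› hc
  have hpos := orderOf_card_pos hr hr0
  have hi0 : 0 < i := by
    rw [hK, Nat.cast_pow] at hpos
    rw [hi, orderOf_pos_iff]
    exact (orderOf_pos_iff.1 hpos).of_pow two_ne_zero
  have hb' : orderOf (Fintype.card K : ZMod r) = b := by
    rw [hK, Nat.cast_pow, orderOf_pow' _ two_ne_zero, ← hi, hb]
    split_ifs with h
    · rw [(Nat.coprime_two_right.2 h).gcd_eq_one, Nat.div_one]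
    · rw [Nat.gcd_eq_right (even_iff_two_dvd.1 (Nat.not_odd_iff_even.1 h))]
  obtain ⟨hfin, hT, hdeg⟩ := Tr_spec hr hr0
  rw [hb'] at hT hpos
  obtain rfl : Nat.card (Tr K r) = s := Nat.eq_of_mul_eq_mul_right hpos (hT.trans hs.symm)
  rw [card_classes_prime (GU n K q).subtype Subtype.val_injective hr hr0
    (fun g h _ h' => (GU_isConj_iff hK).2 h')]
  have hE : ∀ t : Multiset K[X], (∀ a ∈ t, a ∈ Tr K r) →
      ((∃ (g : GU n K q) (k : ℕ), edM ((GU n K q).subtype g).1 = t + Multiset.replicate k (X - C 1)) ↔
        t.map (dual (conj hK)) = t ∧ t.card * b ≤ n) := by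
    intro t ht
    have h1 := sum_natDegree_Tr hr hr0 ht
    rw [hb'] at h1
    have h2 : ∀ k, (Multiset.replicate k (X - C 1 : K[X])).map (dual (conj hK)) =
        Multiset.replicate k (X - C 1) := fun k => by
      rw [Multiset.map_replicate, dual_X_sub_C _ one_ne_zero, map_one, inv_one]
    constructor
    · rintro ⟨g, k, hg⟩
      have h3 := GU_edM_dual hK g
      have h4 := sum_natDegree_edM g.1.1
      change edM g.1.1 = _ at hg
      rw [hg, Multiset.map_add] at h3 h4
      rw [h2] at h3
      rw [Multiset.sum_add, h1, Fintype.card_fin] at h4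
      exact ⟨add_right_cancel h3, by omega⟩
    · rintro ⟨h3, h4⟩
      obtain ⟨g, hg⟩ := exists_GU_edM hK (n := n)
        (s := t + Multiset.replicate (n - t.card * b) (X - C 1)) (by
          intro f hf
          rcases Multiset.mem_add.1 hf with hf | hf
          · exact Tr_isPP (ht f hf)
          · rw [Multiset.eq_of_mem_replicate hf]; exact isPP_lin 1) (by
          intro f hf
          rcases Multiset.mem_add.1 hf with hf | hf
          · exact Tr_coeff hr (ht f hf)
          · rw [Multiset.eq_of_mem_replicate hf]; simp) (by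
          rw [Multiset.map_add, Multiset.sum_add, h1, Multiset.map_replicate, natDegree_X_sub_C]
          simp; omega) (by rw [Multiset.map_add, h2, h3])
      exact ⟨g, _, hg⟩
  have hself : ∀ a ∈ Tr K r, dual (conj hK) a = a ↔ i % 4 = 2 := by
    intro a ha
    rw [dual_eq_self_iff (p := p) (k := k) (conj_conj hK) (fun x => by rw [← hq]; rfl) ha.1 ha.2.1
      (Tr_coeff hr ha), ha.2.2, hK, ← hq, exists_dvd_pow_add_iff hr hr2 (hi ▸ hi0), hi]
  split_ifs with h
  · have h1 : 2 * n / i = n / b := by
      rw [hb, if_neg (by rw [Nat.odd_iff]; omega)]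
      obtain ⟨c, rfl⟩ : ∃ c, i = 2 * c := ⟨i / 2, by omega⟩
      rw [Nat.mul_div_mul_left _ _ two_pos, Nat.mul_div_cancel_left _ two_pos]
    rw [h1, ← card_ms_le_ne]
    refine Nat.card_congr (Equiv.subtypeEquivRight fun t => ?_)
    rw [and_assoc]
    refine and_congr_right fun ht => ?_
    rw [hE t ht, Nat.le_div_iff_mul_le hpos, Multiset.map_congr rfl (g := id)
      fun a ha => (hself a (ht a ha)).2 h]
    simp
  · obtain ⟨T₀, hfin₀, hT₀, hP⟩ := card_inv_multisets (Tr K r) (dual (conj hK))
      (fun a ha => dual_mem_Tr (conj_conj hK) hr ha)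
      (fun a ha => dual_dual (conj_conj hK) ha.1 (Tr_coeff hr ha))
      (fun a ha h' => h ((hself a ha).1 h'))
    rw [← hT₀, Nat.mul_div_cancel_left _ two_pos, ← card_ms_le_ne]
    refine Eq.trans ?_ ((hP fun c => c * b ≤ n ∧ c ≠ 0).trans ?_)
    · refine Nat.card_congr (Equiv.subtypeEquivRight fun t => ?_)
      rw [and_assoc, and_assoc]
      refine and_congr_right fun ht => ?_
      rw [hE t ht]
      simp [and_assoc]
    · refine Nat.card_congr (Equiv.subtypeEquivRight fun t => and_congr_right fun ht => ?_)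
      rw [Nat.le_div_iff_mul_le (by omega), ← mul_assoc, mul_comm _ 2]
      simp

end Cfsg.Agent.S2671
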