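import Cfsg.Statements.S2672
import Cfsg.Agent.H14.Wall4

set_option autoImplicit false
set_option linter.unusedVariables false
set_option linter.style.haveILetI false
open Cfsg H14.Wall H16 H23 Polynomial
open scoped Matrix

namespace Cfsg.Agent.S2672

section Aux

variable {K : Type*} [Field K] [Fintype K] {q n : ℕ} (hK : Fintype.card K = q ^ 2)
include hK

theorem PGU_pow_eq_one_iff (g : GU n K q) (k : ℕ) :
    (QuotientGroup.mk g : GU n K q ⧸ Subgroup.center (GU n K q)) ^ k = 1 ↔
      ∃ c : K, g.1.1 ^ k = c • (1 : Matrix (Fin n) (Fin n) K) := by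
  rw [← QuotientGroup.mk_pow, QuotientGroup.eq_one_iff, mem_center_GU_iff hK]
  rfl

theorem norm_of_scalar [Nonempty (Fin n)] (g : GU n K q) {c : K}
    (h : g.1.1 = c • (1 : Matrix (Fin n) (Fin n) K)) : conj hK c * c = 1 :=
  U_eigen (conj_conj hK) ((mem_GU_ct hK).1 g.2) (k := 1) (by rw [h, sub_self, pow_one])

theorem U_smul {c : K} (hc : conj hK c * c = 1) (g : GU n K q) :
    ct (conj hK) (c • g.1.1) * (c • g.1.1) = 1 := by
  rw [ct_smul, smul_mul_smul_comm, hc, (mem_GU_ct hK).1 g.2, one_smul]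

theorem PGU_isConj_iff [Nonempty (Fin n)] (g h : GU n K q) :
    IsConj (QuotientGroup.mk g : GU n K q ⧸ Subgroup.center (GU n K q)) (QuotientGroup.mk h) ↔
      ∃ c : K, conj hK c * c = 1 ∧ edM h.1.1 = edM (c • g.1.1) := by
  rw [isConj_mk_iff]
  constructor
  · rintro ⟨k, h1, h2⟩
    rw [QuotientGroup.eq] at h2
    obtain ⟨c, hc⟩ := (mem_center_GU_iff hK _).1 h2
    have h3 := norm_of_scalar hK _ hc
    have h4 : c ≠ 0 := by rintro rfl; simp at h3
    have h5 : h.1.1 = c • k.1.1 := by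
      have : h = k * (k⁻¹ * h) := by group
      rw [this]
      change k.1.1 * (k⁻¹ * h).1.1 = _
      rw [hc]; simp
    refine ⟨c, h3, ?_⟩
    rw [h5, edM_smul _ h4, edM_smul _ h4, (GU_isConj_iff hK).1 h1]
  · rintro ⟨c, h1, h2⟩
    have h4 : c ≠ 0 := by rintro rfl; simp at h1
    have h5 : conj hK c⁻¹ * c⁻¹ = 1 := by rw [map_inv₀, ← mul_inv, h1, inv_one]
    refine ⟨mkGU hK _ (U_smul hK h5 h), (GU_isConj_iff hK).2 ?_, ?_⟩
    · rw [mkGU_val, edM_smul _ (inv_ne_zero h4), h2, ← edM_smul _ (inv_ne_zero h4), smul_smul,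
        inv_mul_cancel₀ h4, one_smul]
    · symm
      rw [QuotientGroup.eq, mem_center_GU_iff hK]
      refine ⟨c⁻¹, ?_⟩
      change (h.1⁻¹).1 * (c⁻¹ • h.1.1) = _
      rw [Matrix.mul_smul, Units.inv_mul]

end Aux


/-- Number of conjugacy classes of elements of odd prime order r in PGU_n(q) = GU_n(q)/scalars (n ≥ 3) when r divides q + 1: as in the linear case with q − 1 replaced by q + 1, the classes correspond to the rotation orbits on r-tuples of eigenvalue multiplicities summing to n with every entry < n, plus r − 1 further classes when r divides n; in all (C(n+r−1, r−1) − r − [r ∣ n])/r + r·[r ∣ n]. -/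
theorem result {K : Type*} [Field K] [Fintype K] {q n r : ℕ} (hK : Fintype.card K = q ^ 2) (hn : 3 ≤ n) (hr : r.Prime) (hr2 : r ≠ 2) (hrq : r ∣ q + 1) : Nat.card {C : ConjClasses (↥(Cfsg.GU n K q) ⧸ Subgroup.center ↥(Cfsg.GU n K q)) // ∃ g : ↥(Cfsg.GU n K q) ⧸ Subgroup.center ↥(Cfsg.GU n K q), ConjClasses.mk g = C ∧ orderOf g = r} = (Nat.choose (n + r - 1) (r - 1) - r - (if r ∣ n then 1 else 0)) / r + r * (if r ∣ n then 1 else 0) := by
  classical
  have hq2 := two_le_of_card_eq_sq hK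
  have hcard : Fintype.card K - 1 = (q + 1) * (q - 1) := by
    rw [hK]; simpa using Nat.sq_sub_sq q 1
  have hrq' : r ∣ Fintype.card K - 1 := hcard ▸ hrq.mul_right _
  have hnorm : ∀ b : K, b ≠ 0 → (b ^ r) ^ (q + 1) = 1 → conj hK b * b = 1 := by
    intro b hb h
    rw [conj_mul_self]
    have h1 : (b ^ (q + 1)) ^ (q - 1) = 1 := by
      rw [← pow_mul, ← hcard, FiniteField.pow_card_sub_one_eq_one b hb]
    rw [← pow_mul, mul_comm, pow_mul] at h
    have h2 : Nat.gcd r (q - 1) = 1 := by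
      refine (Nat.Prime.coprime_iff_not_dvd hr).2 fun h3 => hr2 ?_
      have := Nat.dvd_sub hrq h3
      rw [show q + 1 - (q - 1) = 2 by omega] at this
      exact (Nat.prime_dvd_prime_iff_eq hr Nat.prime_two).1 this
    have := pow_gcd_eq_one.2 ⟨h, h1⟩
    rwa [h2, pow_one] at this
  have hne0 : ∀ {c : K}, conj hK c * c = 1 → c ≠ 0 := by
    rintro c h rfl; simp at h
  have : Fact r.Prime := ⟨hr⟩
  have : Nonempty (Fin n) := ⟨⟨0, by omega⟩⟩
  have hr0 : (r : K) ≠ 0 := cast_ne_zero_of_dvd hrq'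
  let G := rootsOfUnity r K
  have hG : Nat.card G = r := by rw [H22.card_rootsOfUnity_field, Nat.gcd_eq_left hrq']
  have hGr : ∀ a : G, ((a : Kˣ) : K) ^ r = 1 := fun a => by
    rw [← Units.val_pow_eq_pow_val, (mem_rootsOfUnity _ _).1 a.2, Units.val_one]
  have hGn : ∀ a : G, conj hK ((a : Kˣ) : K) * ((a : Kˣ) : K) = 1 := fun a =>
    hnorm _ (Units.ne_zero _) (by rw [hGr, one_pow])
  let Y := {s : Multiset G // s.card = n ∧ ∀ a, s ≠ Multiset.replicate n a}
  let : MulAction G Y :=
    { smul := fun g s => ⟨s.1.map (g * ·), by simp [s.2.1], fun a h => s.2.2 (g⁻¹ * a) (by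
        simpa using congrArg (Multiset.map (g⁻¹ * ·)) h)⟩
      one_smul := fun s => Subtype.ext (by change s.1.map _ = _; simp)
      mul_smul := fun g h s => Subtype.ext (by
        change s.1.map _ = (s.1.map _).map _; simp [mul_assoc]) }
  have hsm : ∀ (g : G) (s : Y), (g • s).1 = s.1.map (g * ·) := fun _ _ => rfl
  have hY : Nat.card Y = (n + r - 1).choose (r - 1) - r := by
    have h1 := card_multisets_eq (Set.univ : Set G) n
    rw [Nat.card_univ, hG, Nat.multichoose_eq, add_comm r,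
      Nat.choose_symm_of_eq_add (b := r - 1) (by have := hr.pos; omega)] at h1
    have h2 : {s : Multiset G | s.card = n ∧ ∀ a, s ≠ Multiset.replicate n a} =
        {s | (∀ a ∈ s, a ∈ Set.univ) ∧ s.card = n} \ Set.range (Multiset.replicate n) := by
      ext s; simp [eq_comm]
    change Nat.card {s : Multiset G | s.card = n ∧ ∀ a, s ≠ Multiset.replicate n a} = _
    rw [h2, Nat.card_coe_set_eq, Set.ncard_sdiff (by rintro _ ⟨a, rfl⟩; simp), ← h1,
      Set.ncard_range_of_injective (Multiset.replicate_right_injective (by omega)), hG]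
    rfl
  have : Finite Y := (finite_multisets_le (Set.univ : Set G) n).of_injective
    (fun s : Y => ⟨s.1, by simp, s.2.1.le⟩) fun s t h => Subtype.ext (congrArg (·.1) h)
  have := Fintype.ofFinite G
  have hfix : Nat.card (MulAction.fixedPoints G Y) = if r ∣ n then 1 else 0 := by
    have h1 : ∀ s ∈ MulAction.fixedPoints G Y, s.1 = s.1.count 1 • Finset.univ.val := fun s hs => by
      ext a
      have := congrArg (fun t : Y => t.1.count a) (hs a)
      simp only [hsm] at this
      rw [← this, ← Multiset.count_map_eq_count' (a * ·) s.1 (mul_right_injective a) 1]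
      simp [Multiset.count_univ]
    have h2 : ∀ s ∈ MulAction.fixedPoints G Y, n = s.1.count 1 * r := fun s hs => by
      refine s.2.1.symm.trans ((congrArg Multiset.card (h1 s hs)).trans ?_)
      simp [← Nat.card_eq_fintype_card, hG]
    split_ifs with h
    · obtain ⟨k, hk⟩ := h
      rw [Nat.card_eq_one_iff_exists]
      refine ⟨⟨⟨k • Finset.univ.val, by simp [← Nat.card_eq_fintype_card, hG, hk, mul_comm],
        fun a h => ?_⟩, fun g => Subtype.ext ?_⟩, fun s => Subtype.ext (Subtype.ext ?_)⟩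
      · have h3 := congrArg (Multiset.count a) h
        simp at h3
        have := hr.two_le
        nlinarith
      · rw [hsm, Multiset.map_nsmul]
        exact congrArg _ (Multiset.map_univ_val_equiv (Equiv.mulLeft g))
      · rw [h1 _ s.2, ← Nat.eq_of_mul_eq_mul_right hr.pos ((mul_comm _ _).trans
          (hk.symm.trans (h2 _ s.2)))]
    · rw [Nat.card_eq_zero]
      exact Or.inl ⟨fun s => h ⟨_, (h2 _ s.2).trans (mul_comm _ _)⟩⟩
  have horb := card_orbits_prime (X := Y) hr hG
  -- split classes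
  let P : G → K[X] := fun a => X - C ((a : Kˣ) : K)
  have hP : Function.Injective P := fun a b h => by
    ext; simpa [P] using h
  have hex : ∀ s : Y, ∃ g : GU n K q, edM g.1.1 = s.1.map P := fun s =>
    exists_GU_edM hK (by
      intro q hq; obtain ⟨a, -, rfl⟩ := Multiset.mem_map.1 hq
      exact isPP_of_irred (monic_X_sub_C _) (irreducible_X_sub_C _)) (by
      intro q hq; obtain ⟨a, -, rfl⟩ := Multiset.mem_map.1 hq; simp [P]) (by simp [P, s.2.1]) (by
      rw [Multiset.map_map]
      refine Multiset.map_congr rfl fun a _ => ?_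
      rw [Function.comp, dual_X_sub_C _ (Units.ne_zero _), inv_eq_of_mul_eq_one_right (hGn a)])
  choose gs hgs using hex
  have hgr : ∀ s, (gs s).1.1 ^ r = 1 := fun s => (pow_eq_one_iff_edM _ _).2 fun q hq => by
    obtain ⟨a, -, rfl⟩ := Multiset.mem_map.1 (hgs s ▸ hq)
    simpa [← map_pow, hGr] using sub_dvd_pow_sub_pow (X : K[X]) (C ((a : Kˣ) : K)) r
  let cl : GU n K q → ConjClasses (GU n K q ⧸ Subgroup.center (GU n K q)) :=
    fun g => ConjClasses.mk (QuotientGroup.mk g)
  have hcl : ∀ g h, cl g = cl h ↔ ∃ c : K, conj hK c * c = 1 ∧ edM h.1.1 = edM (c • g.1.1) := fun g h => by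
    rw [ConjClasses.mk_eq_mk_iff_isConj, PGU_isConj_iff hK]
  have hpow : ∀ {g h : GU n K q} {c y z : K}, edM h.1.1 = edM (c • g.1.1) → g.1.1 ^ r = y • 1 →
      h.1.1 ^ r = z • 1 → c ^ r * y = z := fun {g h c y z} h1 h2 h3 => by
    have h4 := (pow_eq_smul_iff_edM _ _ _).2 (h1 ▸ (pow_eq_smul_iff_edM _ _ _).1 h3)
    rw [_root_.smul_pow, h2, smul_smul] at h4
    exact smul_left_injective K one_ne_zero h4
  have h1 : Nat.card (Set.range (cl ∘ gs)) = Nat.card (Quotient (MulAction.orbitRel G Y)) := by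
    rw [card_range_eq_of_ker (g := Quotient.mk (MulAction.orbitRel G Y)),
      Quotient.mk_surjective.range_eq, Nat.card_univ]
    intro s t
    have key : ∀ a : G, edM (((a : Kˣ) : K) • (gs t).1.1) = (a • t).1.map P := fun a => by
      rw [edM_smul _ (Units.ne_zero _), hgs, hsm]
      simp [P, X_sub_C_scaleRoots, mul_comm, -map_mul]
    rw [Function.comp_apply, Function.comp_apply, eq_comm, hcl, Quotient.eq, MulAction.orbitRel_apply]
    constructor
    · rintro ⟨c, hc, h⟩
      have h2 := hpow h (y := 1) (z := 1) (by simp [hgr]) (by simp [hgr])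
      refine ⟨⟨Units.mk0 c (hne0 hc), (mem_rootsOfUnity _ _).2 (Units.ext (by simpa using h2))⟩,
        Subtype.ext (Multiset.map_injective hP ?_)⟩
      rw [← key, ← hgs, h]; rfl
    · rintro ⟨a, rfl⟩
      exact ⟨_, hGn a, by rw [key, hgs]⟩
  let A := (powMonoidHom (q + 1) : Kˣ →* Kˣ).ker
  have hA : ∀ c : Kˣ, c ∈ A ↔ conj hK c * c = 1 := fun c => by
    rw [conj_mul_self, MonoidHom.mem_ker, Units.ext_iff]; simp
  let R := (powMonoidHom r : A →* A).range
  let Z := {z : A // z ∉ R ∧ r ∣ n}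
  have hZ : ∀ z : Z, ∀ b : K, b ^ r ≠ z.1.1 := fun z b hb => by
    have hb0 : b ≠ 0 := by rintro rfl; exact z.1.1.ne_zero (by rw [← hb, zero_pow hr.ne_zero])
    refine z.2.1 ⟨⟨Units.mk0 b hb0, (hA _).2 (hnorm b hb0 ?_)⟩, Subtype.ext (Units.ext hb)⟩
    rw [hb, ← conj_mul_self hK, (hA _).1 z.1.2]
  have hex : ∀ z : Z, ∃ g : GU n K q, edM g.1.1 = Multiset.replicate (n / r) (X ^ r - C (z.1.1 : K)) ∧
      g.1.1 ^ r = (z.1.1 : K) • 1 := fun z => by
    have hi := X_pow_sub_C_irreducible_of_prime hr (hZ z)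
    have hm : (X ^ r - C (z.1.1 : K)).Monic := monic_X_pow_sub_C _ hr.ne_zero
    have hd : (X ^ r - C (z.1.1 : K)).natDegree = r := natDegree_X_pow_sub_C
    obtain ⟨g, hg⟩ := exists_GU_edM hK (n := n)
      (s := Multiset.replicate (n / r) (X ^ r - C (z.1.1 : K)))
      (fun f hf => by rw [Multiset.eq_of_mem_replicate hf]; exact isPP_of_irred hm hi)
      (fun f hf => by rw [Multiset.eq_of_mem_replicate hf]; simp [hr.ne_zero.symm])
      (by rw [Multiset.map_replicate, hd]; simp [Nat.div_mul_cancel z.2.2]) (by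
        rw [Multiset.map_replicate]
        congr 1
        have h1 := inv_eq_of_mul_eq_one_right ((hA _).1 z.1.2)
        have h2 : conj hK (z.1.1 : K) ≠ 0 := (_root_.map_ne_zero _).2 z.1.1.ne_zero
        have := hr.pos
        ext i
        rw [coeff_dual, hd]
        simp only [coeff_sub, coeff_X_pow, coeff_C]
        split_ifs <;> first | omega | simp only [map_neg, map_zero, map_one, zero_sub, sub_zero,
          sub_self, inv_neg, h1, one_mul, zero_mul, mul_neg, neg_mul, neg_neg, neg_zero] <;>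
          rw [(hA _).1 z.1.2])
    exact ⟨g, hg, (pow_eq_smul_iff_edM _ _ _).2 fun f hf => by
      rw [hg] at hf; rw [Multiset.eq_of_mem_replicate hf]⟩
  choose gz hgz hgz' using hex
  have hgz'' : ∀ (z : Z) (A : Matrix (Fin n) (Fin n) K), A ^ r = (z.1.1 : K) • 1 →
      edM (gz z).1.1 = edM A := fun z A hA => by
    obtain ⟨k, h2, h3⟩ := edM_of_nonsplit hr (hZ z) hA
    rw [Fintype.card_fin] at h3
    rw [h2, hgz, Nat.div_eq_of_eq_mul_left hr.pos h3]
  have h2 : Nat.card (Set.range (cl ∘ gz)) = (r - 1) * if r ∣ n then 1 else 0 := by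
    rw [card_range_eq_of_ker (g := fun z => (QuotientGroup.mk z.1 : A ⧸ R))]
    · split_ifs with h
      · have h3 : Nat.card (A ⧸ R) = r := by
          rw [← Subgroup.index, IsCyclic.index_powMonoidHom_range, card_ker_pow_succ hK,
            Nat.gcd_eq_right hrq]
        have h4 : Set.range (fun z : Z => (QuotientGroup.mk z.1 : A ⧸ R)) = Set.univ \ {1} := by
          ext x
          obtain ⟨x, rfl⟩ := QuotientGroup.mk_surjective x
          simp only [Set.mem_range, Set.mem_sdiff, Set.mem_univ, true_and, Set.mem_singleton_iff]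
          exact ⟨fun ⟨z, hz⟩ h5 => z.2.1 ((QuotientGroup.eq_one_iff _).1 (hz.trans h5)),
            fun h5 => ⟨⟨x, fun h6 => h5 ((QuotientGroup.eq_one_iff _).2 h6), h⟩, rfl⟩⟩
        rw [h4, Nat.card_coe_set_eq, Set.ncard_sdiff_singleton_of_mem (Set.mem_univ _),
          Set.ncard_univ, h3, mul_one]
      · have : IsEmpty Z := ⟨fun z => h z.2.2⟩
        simp
    · intro y z
      rw [Function.comp_apply, Function.comp_apply, hcl, QuotientGroup.eq]
      constructor
      · rintro ⟨c, hc, h⟩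
        exact ⟨⟨Units.mk0 c (hne0 hc), (hA _).2 hc⟩, Subtype.ext (Units.ext (by
          simp [← hpow h (hgz' y) (hgz' z)]; field_simp))⟩
      · rintro ⟨c, hc⟩
        refine ⟨c.1, (hA _).1 c.2, hgz'' _ _ ?_⟩
        have hc' : c.1 ^ r = y.1.1⁻¹ * z.1.1 := congrArg Subtype.val hc
        rw [_root_.smul_pow, hgz', smul_smul, ← Units.val_pow_eq_pow_val, ← Units.val_mul,
          hc', inv_mul_cancel_comm]
  have h3 : {C | ∃ g, ConjClasses.mk g = C ∧ orderOf g = r} =
      Set.range (cl ∘ gs) ∪ Set.range (cl ∘ gz) := by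
    have hord : ∀ g : GU n K q, (∃ z : K, g.1.1 ^ r = z • 1) → (∀ c : K, g.1.1 ≠ c • 1) →
        orderOf (QuotientGroup.mk g : GU n K q ⧸ Subgroup.center (GU n K q)) = r :=
      fun g h h' => orderOf_eq_prime ((PGU_pow_eq_one_iff hK g r).2 h) fun h4 => by
        obtain ⟨c, hc⟩ := (mem_center_GU_iff hK g).1 ((QuotientGroup.eq_one_iff _).1 h4)
        exact h' c hc
    ext C
    constructor
    · rintro ⟨x, rfl, hx⟩
      obtain ⟨g, rfl⟩ := QuotientGroup.mk_surjective x
      obtain ⟨z, hz⟩ := (PGU_pow_eq_one_iff hK g r).1 (hx ▸ pow_orderOf_eq_one _)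
      have hz0 := ne_zero_of_pow_eq_smul g.1.det_ne_zero hz
      have hzn := norm_of_scalar hK (g ^ r) hz
      by_cases h4 : ∃ c, c ^ r = z
      · obtain ⟨c, rfl⟩ := h4
        have hc : c ≠ 0 := fun h => hz0 (by simp [h, hr.ne_zero])
        have h5 := inv_smul_pow_eq_one hc hz
        obtain ⟨s, hs⟩ : ∃ s : Multiset G, s.map P = edM (c⁻¹ • g.1.1) := by
          refine (@Multiset.canLift _ _ P (· ∈ Set.range P) ⟨fun _ h => h⟩).prf _ fun q hq => ?_
          have h6 := (pow_eq_one_iff_edM _ _).1 h5 q hq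
          have h7 := jt_of_split hr hr0 one_ne_zero (by rw [h5]; simp) _
            (Multiset.mem_map_of_mem _ hq)
          rw [(orderOf_eq_one_iff_dvd Fintype.card_pos).2 hrq', or_self] at h7
          have h8 := (edM_isPP hq).monic.eq_X_add_C h7
          rw [← sub_neg_eq_add, ← C_neg] at h8
          rw [h8, dvd_iff_isRoot] at h6
          have h9 : (-q.coeff 0) ^ r = 1 := by simpa [sub_eq_zero] using h6
          exact ⟨rootsOfUnity.mkOfPowEq _ h9, h8.symm⟩
        refine Or.inl ⟨⟨s, ?_, fun a h6 => ?_⟩, ((hcl _ _).2 ⟨c⁻¹, by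
          rw [map_inv₀, ← mul_inv, hnorm c hc (by rw [← conj_mul_self hK, hzn]), inv_one], by
          rw [hgs, hs]⟩).symm⟩
        · simpa [← hs, P] using sum_natDegree_edM (c⁻¹ • g.1.1)
        · have h7 := (eq_smul_iff_edM _ ((a : Kˣ) : K)).2 fun q hq => by
            rw [← hs, h6, Multiset.map_replicate] at hq
            exact Multiset.eq_of_mem_replicate hq
          rw [(QuotientGroup.eq_one_iff _).2 ((mem_center_GU_iff hK g).2 ⟨c * (a : Kˣ), by
            rw [← smul_smul, ← h7, smul_smul, mul_inv_cancel₀ hc, one_smul]⟩), orderOf_one] at hx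
          exact hr.ne_one hx.symm
      · push Not at h4
        obtain ⟨k, -, h5⟩ := edM_of_nonsplit hr h4 hz
        exact Or.inr ⟨⟨⟨Units.mk0 z hz0, (hA _).2 hzn⟩,
          fun ⟨b, hb⟩ => h4 b.1 (congrArg (fun x : A => (x.1 : K)) hb),
          Dvd.intro_left k (by simpa using h5.symm)⟩, ((hcl _ _).2 ⟨1, by rw [map_one, one_mul],
          hgz'' _ _ (by rw [one_smul]; exact hz)⟩).symm⟩
    · rintro (⟨s, rfl⟩ | ⟨z, rfl⟩)
      · refine ⟨_, rfl, hord _ ⟨1, by simp [hgr]⟩ fun c hc => ?_⟩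
        obtain ⟨a, ha⟩ := Multiset.card_pos_iff_exists_mem.1 (show 0 < s.1.card by rw [s.2.1]; omega)
        have h4 := fun b hb => (eq_smul_iff_edM _ _).1 hc (P b)
          (hgs s ▸ Multiset.mem_map_of_mem P hb)
        exact s.2.2 a (Multiset.eq_replicate.2 ⟨s.2.1, fun b hb => hP ((h4 b hb).trans (h4 a ha).symm)⟩)
      · refine ⟨_, rfl, hord _ ⟨_, hgz' z⟩ fun c hc => hZ z c ?_⟩
        have h4 := hgz' z
        rw [hc, _root_.smul_pow, one_pow] at h4
        exact smul_left_injective K one_ne_zero h4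
  have h4 : Disjoint (Set.range (cl ∘ gs)) (Set.range (cl ∘ gz)) := by
    rw [Set.disjoint_left]
    rintro _ ⟨s, rfl⟩ ⟨z, hz⟩
    obtain ⟨c, -, h⟩ := (hcl _ _).1 hz.symm
    exact hZ z c (by simpa using hpow h (y := 1) (by simp [hgr]) (hgz' z))
  change Nat.card {C | ∃ g, ConjClasses.mk g = C ∧ orderOf g = r} = _
  rw [h3, Nat.card_coe_set_eq, Set.ncard_union_eq h4, ← Nat.card_coe_set_eq, ← Nat.card_coe_set_eq,
    h1, h2, ← hY]
  have h5 : Nat.card (MulAction.fixedPoints G Y) ≤ Nat.card Y := Nat.card_le_card_of_injective _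
    Subtype.val_injective
  rw [hfix] at horb h5
  generalize (if r ∣ n then 1 else 0) = e at *
  generalize Nat.card (Quotient (MulAction.orbitRel G Y)) = o at *
  obtain ⟨r, rfl⟩ : ∃ r', r = r' + 1 := ⟨r - 1, by have := hr.pos; omega⟩
  obtain ⟨y, hy⟩ := Nat.exists_eq_add_of_le h5
  simp only [hy, Nat.add_sub_cancel, Nat.add_sub_cancel_left] at horb ⊢
  have h6 : e ≤ o := Nat.le_of_mul_le_mul_right (by rw [horb]; nlinarith) r.succ_pos
  obtain ⟨o, rfl⟩ := Nat.exists_eq_add_of_le h6
  rw [show y = o * (r + 1) by nlinarith, Nat.mul_div_cancel _ r.succ_pos]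
  ring

end Cfsg.Agent.S2672
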