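import Cfsg.Statements.S2673
import Cfsg.Agent.H14.Wall7

set_option autoImplicit false
set_option linter.unusedVariables false
set_option linter.style.haveILetI false
open Cfsg H14.Wall H16 H23 Polynomial
open scoped Matrix

namespace Cfsg.Agent.S2673

/-- Number of conjugacy classes of elements of odd prime order r ≠ p in the orthogonal group O_(2m+1)(q) of x_0² + Σ x_j y_j, q odd: with i the multiplicative order of q mod r and t = (r − 1)/i, there are C(⌊m/i⌋ + t/2, t/2) − 1 classes if i is odd (dual pairs of totally singular i-blocks) and C(⌊(2m+1)/i⌋ + t, t) − 1 if i is even (elliptic i-blocks). -/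
theorem result {F : Type*} [Field F] [Fintype F] {p q : ℕ} [Fact p.Prime] [CharP F p] (hF : Fintype.card F = q) (hq : Odd q) (m r i t : ℕ) (hr : r.Prime) (hr2 : r ≠ 2) (hrp : r ≠ p) (hi : i = orderOf (q : ZMod r)) (ht : t * i = r - 1) : Nat.card {C : ConjClasses ↥(Cfsg.isometryGroup F (Cfsg.quadFormOdd m F)) // ∃ g : ↥(Cfsg.isometryGroup F (Cfsg.quadFormOdd m F)), ConjClasses.mk g = C ∧ orderOf g = r} = if Odd i then Nat.choose (m / i + t / 2) (t / 2) - 1 else Nat.choose ((2 * m + 1) / i + t) t - 1 := by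
  subst hF
  have h2 := H22.two_ne_zero_of_odd_card hq
  have hQ := H22.qOdd_nondeg h2 m
  have hr0 : (r : F) ≠ 0 := cast_ne_zero_of_ne p hr hrp
  have hpos := orderOf_card_pos hr hr0
  rw [← hi] at hpos
  obtain ⟨T₀, hfin, hne, hT, hP⟩ := count_rev hr hr2 hr0 hi ht
  refine (card_classes_o hQ hr hr2 p hrp).trans ?_
  have hE : ∀ s : Multiset F[X], (∀ a ∈ s, a ∈ Tr F r) →
      ((∃ (g : isometryGroup F (H22.qOdd m F)) (k : ℕ),
        edM g.1.1 = s + Multiset.replicate k (X - C 1)) ↔
        s.map rev = s ∧ s.card * i ≤ 2 * m + 1) := by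
    intro s hs
    constructor
    · rintro ⟨g, k, hg⟩
      have h1 := sum_natDegree_edM g.1.1
      rw [hg, sum_deg_add hr hr0 hs, ← hi] at h1
      refine ⟨map_rev_of_add (hg ▸ o_edM_rev hQ g), ?_⟩
      simp at h1
      omega
    · rintro ⟨h1, h3⟩
      have hp := fun a ha => Tr_isPP (hs a ha)
      have h0 := fun a ha => Tr_coeff hr (hs a ha)
      have hc := fun a ha => Tr_coprime hr hr2 (hs a ha)
      obtain ⟨k, hk⟩ := even_of_free hp h0 h1 hc
      obtain ⟨Q₀, g, h4, h5, h6⟩ := exists_quad_free hp h0 h1 hc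
      have h7 : Module.finrank F (Fin (s.map natDegree).sum → F) = 2 * k := by simp [hk, two_mul]
      rw [sum_natDegree_Tr hr hr0 hs, ← hi] at hk
      obtain ⟨h, h8, h9⟩ := exists_ext_odd (m := m) h2 h4 rfl h7 (by omega) h5
      obtain ⟨A, rfl⟩ := exists_o hQ h8
      exact ⟨A, _, h6 ▸ h9⟩
  refine Eq.trans ?_ ((hP fun c => c * i ≤ 2 * m + 1 ∧ c ≠ 0).trans ?_)
  · refine Nat.card_congr (Equiv.subtypeEquivRight fun s => ?_)
    rw [and_assoc, and_assoc]
    refine and_congr_right fun hs => ?_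
    rw [hE s hs]
    simp [and_assoc]
  · split_ifs at hT ⊢ with h
    · rw [← hT, ← card_ms_le_ne]
      refine Nat.card_congr (Equiv.subtypeEquivRight fun s => and_congr_right fun hs => ?_)
      rw [Nat.le_div_iff_mul_le hpos, mul_assoc]
      omega
    · rw [← hT, ← card_ms_le_ne]
      refine Nat.card_congr (Equiv.subtypeEquivRight fun s => and_congr_right fun hs => ?_)
      rw [Nat.le_div_iff_mul_le hpos]
      simp

end Cfsg.Agent.S2673
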