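import Cfsg.Statements.S2674
import Cfsg.Agent.H14.Wall7

set_option autoImplicit false
set_option linter.unusedVariables false
set_option linter.style.haveILetI false
open Cfsg H14.Wall H16 H23 Polynomial
open scoped Matrix

namespace Cfsg.Agent.S2674

/-- Number of conjugacy classes of elements of odd prime order r ≠ p in the orthogonal group O⁺_2m(q) of Σ x_j y_j (m ≥ 1): with i the multiplicative order of q mod r and t = (r − 1)/i — if i is odd, C(⌊m/i⌋ + t/2, t/2) − 1; if i is even, C(⌊2m/i⌋ + t, t) − 1 minus, when i divides 2m with odd quotient, the C(2m/i + t − 1, t − 1) tuples using the whole space (an odd number of elliptic i-blocks fills an elliptic, not a hyperbolic, space). -/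
theorem result {F : Type*} [Field F] [Fintype F] {p q : ℕ} [Fact p.Prime] [CharP F p] (hF : Fintype.card F = q) (m r i t : ℕ) (hm : 1 ≤ m) (hr : r.Prime) (hr2 : r ≠ 2) (hrp : r ≠ p) (hi : i = orderOf (q : ZMod r)) (ht : t * i = r - 1) : Nat.card {C : ConjClasses ↥(Cfsg.isometryGroup F (Cfsg.quadFormPlus m F)) // ∃ g : ↥(Cfsg.isometryGroup F (Cfsg.quadFormPlus m F)), ConjClasses.mk g = C ∧ orderOf g = r} = if Odd i then Nat.choose (m / i + t / 2) (t / 2) - 1 else Nat.choose (2 * m / i + t) t - 1 - (if i ∣ 2 * m ∧ Odd (2 * m / i) then Nat.choose (2 * m / i + t - 1) (t - 1) else 0) := by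
  subst hF
  have hQ := H22.qPlus_nondeg (F := F) m
  have hr0 : (r : F) ≠ 0 := cast_ne_zero_of_ne p hr hrp
  have hpos := orderOf_card_pos hr hr0
  rw [← hi] at hpos
  obtain ⟨T₀, hfin, hne, hT, hP⟩ := count_rev hr hr2 hr0 hi ht
  refine (card_classes_o hQ hr hr2 p hrp).trans ?_
  refine Eq.trans ?_ ((hP fun c => (c * i ≤ 2 * m ∧ (c * i = 2 * m → Even c)) ∧ c ≠ 0).trans ?_)
  · refine Nat.card_congr (Equiv.subtypeEquivRight fun s => ?_)
    rw [and_assoc, and_assoc]
    refine and_congr_right fun hs => ?_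
    rw [exists_o_even_iff hQ (finrank_sp m) hr hr2 hr0 hs, ← hi]
    simp [and_assoc, isPlus_qPlus]
  · by_cases h : Odd i
    · simp only [if_pos h] at hT ⊢
      rw [← hT, ← card_ms_le_ne]
      refine Nat.card_congr (Equiv.subtypeEquivRight fun s => and_congr_right fun hs => ?_)
      rw [Nat.le_div_iff_mul_le hpos, mul_assoc]
      simp
    · simp only [if_neg h, one_mul] at hT ⊢
      split_ifs with h'
      · obtain ⟨⟨N, hN⟩, h1⟩ := h'
        rw [hN, Nat.mul_div_cancel_left _ hpos] at h1 ⊢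
        rw [← hT, ← card_ms_le_ne_ne _ hne (by rintro rfl; omega)]
        refine Nat.card_congr (Equiv.subtypeEquivRight fun s => and_congr_right fun hs => ?_)
        rw [mul_comm i, Nat.mul_le_mul_right_iff hpos, Nat.mul_left_inj hpos.ne']
        constructor
        · rintro ⟨⟨h2, h3⟩, h4⟩
          exact ⟨⟨h2, h4⟩, fun h5 => Nat.not_even_iff_odd.2 h1 (h5 ▸ h3 h5)⟩
        · rintro ⟨⟨h2, h3⟩, h4⟩
          exact ⟨⟨h2, fun h5 => (h4 h5).elim⟩, h3⟩
      · rw [← hT, Nat.sub_zero, ← card_ms_le_ne]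
        refine Nat.card_congr (Equiv.subtypeEquivRight fun s => and_congr_right fun hs => ?_)
        rw [Nat.le_div_iff_mul_le hpos]
        refine and_congr_left fun _ => and_iff_left fun h1 => ?_
        by_contra h2
        refine h' ⟨⟨_, by rw [← h1, mul_comm]⟩, ?_⟩
        rw [← h1, Nat.mul_div_cancel _ hpos]
        exact Nat.not_even_iff_odd.1 h2

end Cfsg.Agent.S2674
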