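import Cfsg.Statements.S2675
import Cfsg.Agent.H14.Wall7

set_option autoImplicit false
set_option linter.unusedVariables false
set_option linter.style.haveILetI false
open Cfsg H14.Wall H16 H23 Polynomial
open scoped Matrix

namespace Cfsg.Agent.S2675

/-- Number of conjugacy classes of elements of odd prime order r ≠ p in the orthogonal group O⁻_2m(q) of an elliptic form Σ_(j<m−1) x_j y_j + z₁² + a z₁z₂ + c z₂² (binary part anisotropic, m ≥ 1): with i the multiplicative order of q mod r and t = (r − 1)/i — if i is odd, C(⌊m/i⌋ + t/2, t/2) − 1 minus, when i divides m, the C(m/i + t/2 − 1, t/2 − 1) tuples filling the whole space (dual pairs of totally singular blocks fill a hyperbolic space); if i is even, C(⌊2m/i⌋ + t, t) − 1 minus, when i divides 2m with even quotient, the C(2m/i + t − 1, t − 1) tuples filling the whole space with an even number of elliptic blocks. -/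
theorem result {F : Type*} [Field F] [Fintype F] {p q : ℕ} [Fact p.Prime] [CharP F p] (hF : Fintype.card F = q) (m r i t : ℕ) (hm : 1 ≤ m) (a c : F) (hac : ∀ z₁ z₂ : F, z₁ ^ 2 + a * z₁ * z₂ + c * z₂ ^ 2 = 0 → z₁ = 0 ∧ z₂ = 0) (hr : r.Prime) (hr2 : r ≠ 2) (hrp : r ≠ p) (hi : i = orderOf (q : ZMod r)) (ht : t * i = r - 1) : Nat.card {C : ConjClasses ↥(Cfsg.isometryGroup F (Cfsg.quadFormMinus (m - 1) F a c)) // ∃ g : ↥(Cfsg.isometryGroup F (Cfsg.quadFormMinus (m - 1) F a c)), ConjClasses.mk g = C ∧ orderOf g = r} = if Odd i then Nat.choose (m / i + t / 2) (t / 2) - 1 - (if i ∣ m then Nat.choose (m / i + t / 2 - 1) (t / 2 - 1) else 0) else Nat.choose (2 * m / i + t) t - 1 - (if i ∣ 2 * m ∧ Even (2 * m / i) then Nat.choose (2 * m / i + t - 1) (t - 1) else 0) := by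
  subst hF
  obtain ⟨m, rfl⟩ : ∃ k, m = k + 1 := ⟨m - 1, by omega⟩
  have hQ := H22.qMinus_nondeg m hac
  have hr0 : (r : F) ≠ 0 := cast_ne_zero_of_ne p hr hrp
  have hpos := orderOf_card_pos hr hr0
  rw [← hi] at hpos
  obtain ⟨T₀, hfin, hne, hT, hP⟩ := count_rev hr hr2 hr0 hi ht
  refine (card_classes_o hQ hr hr2 p hrp).trans ?_
  generalize hM : m + 1 = M at *
  refine Eq.trans ?_ ((hP fun c => (c * i ≤ 2 * M ∧ (c * i = 2 * M → ¬ Even c)) ∧ c ≠ 0).trans ?_)
  · refine Nat.card_congr (Equiv.subtypeEquivRight fun s => ?_)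
    rw [and_assoc, and_assoc]
    refine and_congr_right fun hs => ?_
    have := not_isPlus_qMinus m hac
    rw [exists_o_even_iff hQ (finrank_minus m) hr hr2 hr0 hs, ← hi, hM]
    rw [hM] at this
    simp [and_assoc, this]
  · by_cases h : Odd i
    · simp only [if_pos h] at hT ⊢
      split_ifs with h'
      · obtain ⟨N, hN⟩ := h'
        rw [hN, Nat.mul_div_cancel_left _ hpos]
        rw [← hT, ← card_ms_le_ne_ne _ hne (by rintro rfl; omega)]
        refine Nat.card_congr (Equiv.subtypeEquivRight fun s => and_congr_right fun hs => ?_)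
        rw [mul_comm i, mul_assoc, Nat.mul_le_mul_left_iff two_pos, Nat.mul_le_mul_right_iff hpos,
          Nat.mul_right_inj two_ne_zero, Nat.mul_left_inj hpos.ne']
        simp only [even_two, Even.mul_right, not_true_eq_false, imp_false]
        omega
      · rw [← hT, Nat.sub_zero, ← card_ms_le_ne]
        refine Nat.card_congr (Equiv.subtypeEquivRight fun s => and_congr_right fun hs => ?_)
        rw [Nat.le_div_iff_mul_le hpos, mul_assoc]
        have : ¬ 2 * (s.card * i) = 2 * M := fun h1 => h' ⟨s.card, by rw [mul_comm]; omega⟩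
        simp [this]
    · simp only [if_neg h, one_mul] at hT ⊢
      split_ifs with h'
      · obtain ⟨⟨N, hN⟩, h1⟩ := h'
        rw [hN, Nat.mul_div_cancel_left _ hpos] at h1 ⊢
        rw [← hT, ← card_ms_le_ne_ne _ hne (by rintro rfl; omega)]
        refine Nat.card_congr (Equiv.subtypeEquivRight fun s => and_congr_right fun hs => ?_)
        rw [mul_comm i, Nat.mul_le_mul_right_iff hpos, Nat.mul_left_inj hpos.ne']
        constructor
        · rintro ⟨⟨h2, h3⟩, h4⟩
          exact ⟨⟨h2, h4⟩, fun h5 => h3 h5 (h5 ▸ h1)⟩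
        · rintro ⟨⟨h2, h3⟩, h4⟩
          exact ⟨⟨h2, fun h5 => (h4 h5).elim⟩, h3⟩
      · rw [← hT, Nat.sub_zero, ← card_ms_le_ne]
        refine Nat.card_congr (Equiv.subtypeEquivRight fun s => and_congr_right fun hs => ?_)
        rw [Nat.le_div_iff_mul_le hpos]
        refine and_congr_left fun _ => and_iff_left fun h1 h2 => ?_
        refine h' ⟨⟨_, by rw [← h1, mul_comm]⟩, ?_⟩
        rw [← h1, Nat.mul_div_cancel _ hpos]
        exact h2

end Cfsg.Agent.S2675
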