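import Cfsg.Statements.S2676
import Cfsg.Agent.H14.Mil8

set_option autoImplicit false
open Classical
set_option linter.unusedVariables false
set_option linter.style.haveILetI false
open Cfsg H14.Wall H16 H23 Polynomial
open scoped Matrix

namespace Cfsg.Agent.S2676

/-- Number of conjugacy classes of elements of order p in Sp_2m(q), q a power of the odd prime p: the classes correspond to the signed partitions of 2m — partitions with all parts at most p in which every odd part has even multiplicity, each even part size that occurs carrying a sign — other than the all-ones partition; so the count is the sum over such partitions of 2^(number of distinct even parts), minus one. -/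
theorem result {F : Type*} [Field F] [Fintype F] {p : ℕ} [Fact p.Prime] [CharP F p] (hp : p ≠ 2) (m : ℕ) : Nat.card {C : ConjClasses ↥(Matrix.symplecticGroup (Fin m) F) // ∃ g : Matrix.symplecticGroup (Fin m) F, ConjClasses.mk g = C ∧ orderOf g = p} = (∑ μ ∈ Finset.univ.filter (fun μ : Nat.Partition (2 * m) => (∀ a ∈ μ.parts, a ≤ p) ∧ ∀ j : ℕ, Odd j → Even (μ.parts.count j)), 2 ^ ((μ.parts.toFinset.filter (fun j : ℕ => Even j)).card)) - 1 := by
  have hp' : p.Prime := Fact.out
  have h2 : (2 : F) ≠ 0 := fun h => hp ((Nat.prime_dvd_prime_iff_eq hp' Nat.prime_two).1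
    ((CharP.cast_eq_zero_iff F p 2).1 (by simpa using h)))
  have key : ∀ g : Matrix.symplecticGroup (Fin m) F, g ^ p = 1 ↔ (g.1 - 1) ^ p = 0 := fun g => by
    have := pow_char_pow_eq_one_iff p g.1 1
    rw [pow_one] at this
    rw [← this, Subtype.ext_iff]; rfl
  let μ₁ : Nat.Partition (2 * m) :=
    ⟨Multiset.replicate (2 * m) 1, by simp +contextual [Multiset.mem_replicate], by simp⟩
  have h1 : μ₁ ∈ Finset.univ.filter (fun μ : Nat.Partition (2 * m) => (∀ a ∈ μ.parts, a ≤ p) ∧
      ∀ j : ℕ, Odd j → Even (μ.parts.count j)) := by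
    refine Finset.mem_filter.2 ⟨Finset.mem_univ _, by
      simp +contextual [μ₁, Multiset.mem_replicate, hp'.one_lt.le], fun j hj => ?_⟩
    simp only [μ₁, Multiset.count_replicate]
    split_ifs <;> simp
  rw [card_unip_sp h2 m (fun μ => (∀ a ∈ μ, a ≤ p) ∧ μ ≠ μ₁.parts), ← Finset.add_sum_erase _ _ h1,
    show μ₁.parts.toFinset.filter (fun j : ℕ => Even j) = ∅ from Finset.filter_eq_empty_iff.2
      fun j hj => by simp [Multiset.eq_of_mem_replicate (Multiset.mem_toFinset.1 hj)],
    Finset.card_empty, pow_zero, Nat.add_sub_cancel_left]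
  · refine Finset.sum_congr (Finset.ext fun μ => ?_) fun _ _ => rfl
    simp only [Finset.mem_filter, Finset.mem_erase, Finset.mem_univ, true_and, Ne,
      Nat.Partition.ext_iff]
    tauto
  · intro g
    have h3 : ∀ μ : Multiset ℕ, edM g.1 = uni F μ → (g = 1 ↔ ∀ a ∈ μ, a ≤ 1) := fun μ h => by
      rw [← uni_pow_eq_zero_iff h, pow_one, sub_eq_zero, Subtype.ext_iff]; rfl
    constructor
    · intro hg
      have h0 := (key g).1 (hg ▸ pow_orderOf_eq_one g)
      refine ⟨edM_eq_uni h0, (uni_pow_eq_zero_iff (edM_eq_uni h0) p).1 h0, fun h => ?_⟩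
      rw [(h3 _ (edM_eq_uni h0)).2 (by simp +contextual [h, μ₁, Multiset.mem_replicate]),
        orderOf_one] at hg
      exact hp'.ne_one hg.symm
    · rintro ⟨h4, h5, h6⟩
      refine orderOf_eq_prime ((key _).2 ((uni_pow_eq_zero_iff h4 p).2 h5)) fun h => h6 ?_
      have h7 : jt g.1 = Multiset.replicate (jt g.1).card 1 := Multiset.eq_replicate_card.2
        fun b hb => le_antisymm ((h3 _ h4).1 h b hb) (jt_pos hb)
      have h8 := jt_sum g.1
      rw [h7] at h8
      simp only [Multiset.sum_replicate, smul_eq_mul, mul_one, Fintype.card_sum, Fintype.card_fin,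
        ← two_mul] at h8
      rw [h7, h8]

end Cfsg.Agent.S2676
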