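import Cfsg.Statements.S2677
import Cfsg.Agent.H22.BalC
import Cfsg.Agent.H13.GL2Syl

set_option autoImplicit false
open Cfsg

namespace Cfsg.Agent.S2677

/-- Centraliser of a field automorphism of odd prime order in PGU_n(q): let q = q₀^r with r an odd prime, K the field with q² elements and σ a field automorphism of K of order r (fixed field of order q₀²). The elements g of GU_n(q) whose entrywise image under σ is a scalar multiple of g — those whose coset modulo the q + 1 unitary scalars is fixed by σ — number (q + 1)/(q₀ + 1) · |GU_n(q₀)|; equivalently the centraliser in PGU_n(q) of the induced automorphism has the order of PGU_n(q₀). -/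
theorem result {K : Type*} [Field K] [Fintype K] {q₀ q r n : ℕ} (hr : r.Prime) (hr2 : r ≠ 2) (hn : 1 ≤ n) (hq : q = q₀ ^ r) (hK : Fintype.card K = q ^ 2) (σ : K ≃+* K) (hσ : orderOf σ = r) : (Nat.card {g : ↥(Cfsg.GU n K q) // ∃ c : K, c ≠ 0 ∧ ((g : GL (Fin n) K) : Matrix (Fin n) (Fin n) K).map σ = c • ((g : GL (Fin n) K) : Matrix (Fin n) (Fin n) K)} : ℤ) = ((q + 1) / (q₀ + 1) : ℕ) * ((q₀ : ℤ) ^ (n * (n - 1) / 2) * ∏ i : Fin n, ((q₀ : ℤ) ^ ((i : ℕ) + 1) - (-1) ^ ((i : ℕ) + 1))) := by
  classical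
  obtain ⟨F₀, _, _, j, hj, hF⟩ := H22.exists_fixed σ
  have : Nonempty (Fin n) := ⟨⟨0, hn⟩⟩
  have ho := hr.odd_of_ne_two hr2
  have hF₀ : Fintype.card F₀ = q₀ ^ 2 := Nat.pow_left_injective hr.ne_zero (by
    simp only; rw [← hσ, ← hF, hσ, hK, hq, ← pow_mul, ← pow_mul, mul_comm])
  have hτ := H22.map_conj_of_odd hK hF₀ (j := j) ho hq
  have hq₀ := H23.two_le_of_card_eq_sq hF₀
  have h0 : ∀ g : GL (Fin n) F₀, (g.1.map j).map (H23.conj hK) = (g.1.map (H23.conj hF₀)).map j :=
    fun g => by ext; simp [-H23.conj_apply, hτ]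
  let f : (powMonoidHom (q + 1) : Kˣ →* Kˣ).ker × GU n F₀ q₀ →* GL (Fin n) K :=
    MonoidHom.noncommCoprod ((Matrix.GeneralLinearGroup.scalar _).comp (Subgroup.subtype _))
      ((Matrix.GeneralLinearGroup.map j).comp (Subgroup.subtype _)) fun d g =>
        Units.ext (Matrix.scalar_commute _ (fun _ => Commute.all _ _) _).eq
  have hf : ∀ x, (f x).1 = x.1.1.1 • x.2.1.1.map j := fun x => by
    change Matrix.scalar _ _ * _ = _
    rw [Matrix.scalar_apply, ← Matrix.smul_eq_diagonal_mul]; rfl
  have h1 : ∀ g, g ∈ f.range ↔ g ∈ GU n K q ∧ ∃ c : K, c ≠ 0 ∧ g.1.map σ = c • g.1 := fun g => by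
    rw [H13.mem_GU_iff_mat hK]
    constructor
    · rintro ⟨⟨⟨d, hd⟩, h, hh⟩, rfl⟩
      replace hd : H23.conj hK d * d = 1 := by
        simpa [pow_succ] using congrArg Units.val (MonoidHom.mem_ker.mp hd)
      refine ⟨?_, σ d / d, by simp, ?_⟩
      · rw [hf, Matrix.map_smul' _ _ _ (map_mul _), h0, Matrix.transpose_smul, Matrix.smul_mul,
          Matrix.mul_smul, smul_smul, mul_comm, hd, one_smul, ← Matrix.transpose_map,
          ← Matrix.map_mul, (H13.mem_GU_iff_mat hF₀).mp hh, Matrix.map_one _ (map_zero _) (map_one _)]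
      · ext a b
        simp [hf, (hj _).mp ⟨_, rfl⟩]
        field_simp
    · rintro ⟨h1, c, hc, h2⟩
      obtain ⟨a, b, hab⟩ : ∃ a b, g.1 a b ≠ 0 := by
        by_contra! h
        exact g.ne_zero (Matrix.ext h)
      have h3 : ∀ x y, σ (g.1 x y) = c * g.1 x y := fun x y => congrFun (congrFun h2 x) y
      choose A hA using fun x y => (hj (g.1 x y / g.1 a b)).mpr (by
        rw [map_div₀, h3, h3, mul_div_mul_left _ _ hc])
      have h4 : g.1 = g.1 a b • (Matrix.of A).map j := by
        ext; simp [hA, mul_div_cancel₀ _ hab]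
      have h5 : (g.1 a b * H23.conj hK (g.1 a b)) •
          ((Matrix.of A).transpose * (Matrix.of A).map (H23.conj hF₀)).map j = 1 := by
        rw [← h1]
        conv_rhs => rw [h4]
        rw [Matrix.map_smul' _ _ _ (map_mul _), Matrix.transpose_smul, Matrix.smul_mul,
          Matrix.mul_smul, smul_smul, Matrix.map_mul, Matrix.transpose_map]
        congr 2; ext; simp [-H23.conj_apply, hτ]
      set B := (Matrix.of A).transpose * (Matrix.of A).map (H23.conj hF₀) with hB
      have h6 : ∀ x y, g.1 a b * H23.conj hK (g.1 a b) * j (B x y) = (1 : Matrix _ _ K) x y :=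
        fun x y => congrFun (congrFun h5 x) y
      have h7 : B a a ≠ 0 := fun h => by simpa [h] using h6 a a
      obtain ⟨e, he⟩ := H23.exists_norm_eq hF₀ (μ := B a a) (j.injective (mul_left_cancel₀
        (mul_ne_zero hab ((map_ne_zero (H23.conj hK)).mpr hab)) (by
          have := congrArg (H23.conj hK) (h6 a a)
          rw [map_mul, map_mul, H23.conj_conj, ← hτ, mul_comm _ (g.1 a b), H23.conj_apply hF₀] at this
          rw [this, h6]; simp)))
      have he0 : e ≠ 0 := by rintro rfl; exact h7 (by simpa using he.symm)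
      replace he : e * H23.conj hF₀ e = B a a := by rw [← he, pow_succ', H23.conj_apply]
      have h8 : (e⁻¹ • Matrix.of A).transpose * (e⁻¹ • Matrix.of A).map (H23.conj hF₀) = 1 := by
        rw [Matrix.map_smul' _ _ _ (map_mul _), Matrix.transpose_smul, Matrix.smul_mul,
          Matrix.mul_smul, smul_smul, ← hB, map_inv₀, ← mul_inv, he]
        ext x y
        refine j.injective (mul_left_cancel₀ (mul_ne_zero hab ((map_ne_zero (H23.conj hK)).mpr hab))
          (mul_left_cancel₀ ((map_ne_zero j).mpr h7) ?_))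
        rw [Matrix.smul_apply, smul_eq_mul, map_mul, map_inv₀, mul_left_comm _ (j _)⁻¹, h6,
          ← mul_assoc, ← mul_assoc, mul_comm (j _) (_ * _), h6, mul_inv_cancel₀ ((map_ne_zero j).mpr h7)]
        simp [Matrix.one_apply, apply_ite j]
      refine ⟨(⟨Units.mk0 (g.1 a b * j e) (mul_ne_zero hab (by simpa)), Units.ext ?_⟩,
        ⟨Matrix.GeneralLinearGroup.mkOfDetNeZero (e⁻¹ • Matrix.of A) fun h => by
          have := congrArg Matrix.det h8
          rw [Matrix.det_mul, Matrix.det_transpose, h] at this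
          simp at this, (H13.mem_GU_iff_mat hF₀).mpr h8⟩), Units.ext ?_⟩
      · have := h6 a a
        rw [← he, map_mul, hτ] at this
        simp only [H23.conj_apply, Matrix.one_apply_eq] at this
        simp only [powMonoidHom_apply, Units.val_pow_eq_pow_val, Units.val_mk0, Units.val_one]
        rw [← this]; ring
      · rw [hf]
        conv_rhs => rw [h4]
        ext; simp [he0, mul_assoc]
  have h2 : Nat.card f.ker = q₀ + 1 := by
    rw [← H23.card_ker_pow_succ hF₀]
    obtain ⟨a⟩ := this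
    have h3 : ∀ d : (powMonoidHom (q₀ + 1) : F₀ˣ →* F₀ˣ).ker, d.1.1 * H23.conj hF₀ d.1.1 = 1 :=
      fun d => by simpa [pow_succ'] using congrArg Units.val (MonoidHom.mem_ker.mp d.2)
    refine (Nat.card_eq_of_bijective (fun d : (powMonoidHom (q₀ + 1) : F₀ˣ →* F₀ˣ).ker =>
      (⟨(⟨Units.map (j : F₀ →* K) d.1⁻¹, Units.ext ?_⟩,
      ⟨Matrix.GeneralLinearGroup.scalar _ d.1, (H13.mem_GU_iff_mat hF₀).mpr ?_⟩), Units.ext ?_⟩ : f.ker))
      ⟨fun d e h => Subtype.ext (inv_injective (Units.map_injective j.injective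
        (congrArg (fun x : f.ker => x.1.1.1) h))), fun ⟨⟨⟨d, hd⟩, h, hh⟩, h4⟩ => ?_⟩).symm
    · have := congrArg j (h3 d)
      rw [map_mul, hτ, H23.conj_apply] at this
      simp [pow_succ', ← mul_inv_rev, mul_comm, this]
    · ext x y
      simp [Matrix.diagonal_map, Matrix.diagonal_apply, Matrix.one_apply, -H23.conj_apply, h3]
    · rw [hf]; ext x y
      simp [Matrix.diagonal_apply, Matrix.one_apply, apply_ite j]
    · have h5 : ∀ x y, d.1 * j (h.1 x y) = (1 : Matrix _ _ K) x y := fun x y =>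
        congrFun (congrFun ((hf _).symm.trans (congrArg Units.val h4)) x) y
      have h6 : h.1 a a ≠ 0 := fun h => by simpa [h] using h5 a a
      have h7 : h = Matrix.GeneralLinearGroup.scalar _ (Units.mk0 _ h6) := Units.ext (Matrix.ext
        fun x y => j.injective (mul_left_cancel₀ d.ne_zero (by
          by_cases h : x = y <;> simp [h5, h])))
      refine ⟨⟨Units.mk0 _ h6, Units.ext ?_⟩, Subtype.ext (Prod.ext (Subtype.ext (Units.ext ?_))
        (Subtype.ext h7.symm))⟩
      · have := congrFun (congrFun ((H13.mem_GU_iff_mat hF₀).mp (h7 ▸ hh)) a) a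
        simpa [Matrix.diagonal_map, pow_succ'] using this
      · simpa using (eq_inv_of_mul_eq_one_left (by simpa using h5 a a)).symm
  have h3 := f.ker.card_mul_index
  rw [h2, Subgroup.index_ker, Nat.card_prod, H23.card_ker_pow_succ hK, Cfsg.Agent.S0277.result hF₀] at h3
  obtain ⟨k, hk⟩ : q₀ + 1 ∣ q + 1 := hq ▸ by simpa using ho.nat_add_dvd_pow_add_pow q₀ 1
  replace h3 := h3.trans (congrArg (· * _) hk)
  rw [mul_assoc, mul_right_inj' (by omega)] at h3
  rw [Nat.card_congr ((Equiv.subtypeSubtypeEquivSubtypeInter _ fun g : GL (Fin n) K =>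
    ∃ c : K, c ≠ 0 ∧ g.1.map σ = c • g.1).trans (Equiv.subtypeEquivRight fun g => (h1 g).symm)), h3, hk,
    Nat.mul_div_cancel_left _ (by omega), Finset.prod_range]
  push_cast
  congr 2
  refine Finset.prod_congr rfl fun i _ => ?_
  split_ifs with h
  · simp [h.add_one.neg_one_pow]
  · simp [H22.cast_pow_sub_one (show 0 < q₀ by omega), (Nat.not_even_iff_odd.mp h).add_one.neg_one_pow]

end Cfsg.Agent.S2677
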