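import Cfsg.Statements.S2678
import Cfsg.Agent.H14.Wall8

set_option autoImplicit false
set_option linter.unusedVariables false
set_option linter.style.haveILetI false
open Cfsg H14.Wall H16 H23 Polynomial
open scoped Matrix

namespace Cfsg.Agent.S2678

/-- Field-extension embedding of symplectic groups: for a field K with q² elements and a field F with q elements there is an injective homomorphism Sp_2a(K) → Sp_4a(F). -/
theorem result {K F : Type*} [Field K] [Fintype K] [Field F] [Fintype F] {q : ℕ} (hK : Fintype.card K = q ^ 2) (hF : Fintype.card F = q) (a : ℕ) : ∃ φ : ↥(Matrix.symplecticGroup (Fin a) K) →* ↥(Matrix.symplecticGroup (Fin (2 * a)) F), Function.Injective φ := by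
  subst hF
  obtain ⟨f⟩ := H22.nonempty_ringHom_of_card_eq_pow two_ne_zero hK
  letI := f.toAlgebra
  obtain ⟨l, hl⟩ := exists_dual_one (F := F) (x := (1 : K)) one_ne_zero
  have hA : (resB (F := F) (spForm a K) (fun _ => rfl) l).IsAlt := fun x => by
    rw [resB_apply, B_self_alt rfl, map_zero]
  have h1 : (Form.ofAlt _ hA).Nondeg := by
    intro x hx
    by_contra h
    obtain ⟨y, hy⟩ := (spForm_nondeg a).exists_ne h
    have := hx y
    rw [Form.ofAlt_B, resB_apply, hy, hl] at this
    exact one_ne_zero this
  have h2 : ∀ g : (spForm a K).O, g.1.restrictScalars F ∈ (Form.ofAlt _ hA).O := fun g =>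
    (Form.mem_O _).2 ⟨fun x y => congrArg l (H22.O_B _ g x y), fun _ => rfl⟩
  obtain ⟨e, φ, -, -⟩ := (iso_alt h1 (spForm_nondeg (2 * a)) rfl rfl rfl rfl
    (by rw [finrank_pi_ext hK, finrank_sp]; simp [two_mul])).exists_mulEquiv
  exact ⟨(spE _ F).symm.toMonoidHom.comp (φ.toMonoidHom.comp
    ((resO _ _ h2).comp (spE a K).toMonoidHom)),
    (spE _ F).symm.injective.comp (φ.injective.comp
      ((resO_injective _ _ _).comp (spE a K).injective))⟩

end Cfsg.Agent.S2678
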