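import Cfsg.Statements.S2679
import Cfsg.Agent.H14.Wall8

set_option autoImplicit false
set_option linter.unusedVariables false
set_option linter.style.haveILetI false
open Cfsg H14.Wall H16 H23 Polynomial
open scoped Matrix

namespace Cfsg.Agent.S2679

/-- An elliptic orthogonal group embeds in the hyperbolic orthogonal group of the same dimension over the quadratic extension: for a field F with q elements and a field K with q² elements there is an injective homomorphism from O⁻_2m(F) (isometries of Σ_(j<m−1) x_j y_j + z₁² + a z₁z₂ + c z₂², binary part anisotropic) to O⁺_2m(K) (isometries of Σ_(j<m) x_j y_j over K). -/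
theorem result {F K : Type*} [Field F] [Fintype F] [Field K] [Fintype K] {q : ℕ} (hF : Fintype.card F = q) (hK : Fintype.card K = q ^ 2) {m : ℕ} (hm : 1 ≤ m) (a c : F) (hac : ∀ z₁ z₂ : F, z₁ ^ 2 + a * z₁ * z₂ + c * z₂ ^ 2 = 0 → z₁ = 0 ∧ z₂ = 0) : ∃ φ : ↥(Cfsg.isometryGroup F (Cfsg.quadFormMinus (m - 1) F a c)) →* ↥(Cfsg.isometryGroup K (Cfsg.quadFormPlus m K)), Function.Injective φ := by
  subst hF
  obtain ⟨f⟩ := H22.nonempty_ringHom_of_card_eq_pow two_ne_zero hK
  letI := f.toAlgebra
  obtain ⟨m, rfl⟩ : ∃ k, m = k + 1 := ⟨m - 1, by omega⟩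
  obtain ⟨θ, h1, h2, h3⟩ := H22.exists_theta hK hac
  set a' := algebraMap F K a
  set c' := algebraMap F K c
  set θ' := conj hK θ
  have hQ : ∀ v, H22.qMinus m K a' c' (algebraMap F K ∘ v) = algebraMap F K (H22.qMinus m F a c v) :=
    fun v => by simp [H22.qMinus_apply, a', c']
  have hN : (Form.ofQuad (H22.qMinus m K a' c')).Nondeg := by
    intro x hx
    have e1 := hx (Pi.single (.inr 0) 1)
    have e2 := hx (Pi.single (.inr 1) 1)
    simp [H22.polar_qMinus] at e1 e2
    have e3 : (θ - θ') ^ 2 ≠ 0 := pow_ne_zero _ (sub_ne_zero.2 h3.symm)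
    ext i
    rcases i with (i | i) | i
    · simpa [H22.polar_qMinus, Pi.single_apply] using hx (Pi.single (.inl (.inr i)) 1)
    · simpa [H22.polar_qMinus, Pi.single_apply] using hx (Pi.single (.inl (.inl i)) 1)
    · fin_cases i
      · refine mul_left_cancel₀ e3 ?_
        simp only [Fin.zero_eta, Pi.zero_apply]
        rw [← h1, ← h2] at e2
        rw [← h1] at e1
        linear_combination (θ + θ') * e2 - 2 * θ * θ' * e1
      · refine mul_left_cancel₀ e3 ?_
        simp only [Fin.mk_one, Pi.zero_apply]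
        rw [← h1, ← h2] at e2
        rw [← h1] at e1
        linear_combination (θ + θ') * e1 - 2 * e2
  let L : (Fin m → K) × K →ₗ[K] ((Fin m ⊕ Fin m) ⊕ Fin 2 → K) :=
    { toFun := fun x => Sum.elim (Sum.elim x.1 0) ![-θ * x.2, x.2]
      map_add' := fun x y => by
        ext i; rcases i with (i | i) | i
        · simp
        · simp
        · fin_cases i <;> simp [mul_add]
      map_smul' := fun t x => by
        ext i; rcases i with (i | i) | i
        · simp
        · simp
        · fin_cases i <;> simp [mul_left_comm] }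
  have hL : Function.Injective L := fun x y h =>
    Prod.ext (_root_.funext fun i => congrFun h (.inl (.inl i))) (congrFun h (.inr 1))
  have hP := isPlus_of_totSing hN rfl (finrank_minus m) (X := LinearMap.range L) (by
    rintro _ ⟨x, rfl⟩
    simp [H22.qMinus_apply, L, ← h1, ← h2]
    ring) (by rw [LinearMap.finrank_range_of_inj hL]; simp)
  obtain ⟨e, φ, -, -⟩ := Iso.exists_mulEquiv hP
  have hmap : ∀ (g : GL ((Fin m ⊕ Fin m) ⊕ Fin 2) F) v, (g.map (algebraMap F K)).1 *ᵥ
      (algebraMap F K ∘ v) = algebraMap F K ∘ (g.1 *ᵥ v) := fun g v =>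
    _root_.funext fun i => (RingHom.map_mulVec _ g.1 v i).symm
  have hs : ∀ i : (Fin m ⊕ Fin m) ⊕ Fin 2, Pi.basisFun K _ i = algebraMap F K ∘ Pi.single i 1 :=
    fun i => by ext j; simp [Pi.single_apply]
  have hadd : ∀ u v : (Fin m ⊕ Fin m) ⊕ Fin 2 → F,
      algebraMap F K ∘ u + algebraMap F K ∘ v = algebraMap F K ∘ (u + v) :=
    fun u v => by ext j; simp
  have hmem : ∀ g : isometryGroup F (H22.qMinus m F a c),
      glE _ K (g.1.map (algebraMap F K)) ∈ (Form.ofQuad (H22.qMinus m K a' c')).O := by
    intro g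
    have hg := H22.mem_isometryGroup.1 g.2
    refine Form.mem_O_of_basis (Pi.basisFun K _) (fun i j => ?_) fun i => ?_
    · simp only [Form.ofQuad_B, QuadraticMap.polar, ← Matrix.mulVec_add, hs, hadd, glE_apply, hmap, hQ, hg]
    · simp only [Form.ofQuad_Q, hs, glE_apply, hmap, hQ, hg]
  let ψ : isometryGroup F (H22.qMinus m F a c) →* (Form.ofQuad (H22.qMinus m K a' c')).O :=
    (((glE _ K).toMonoidHom.comp (Matrix.GeneralLinearGroup.map (algebraMap F K))).comp
      (Subgroup.subtype _)).codRestrict _ hmem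
  have hψ : Function.Injective ψ := fun x y h => by
    have := (glE _ K).injective (congrArg Subtype.val h)
    refine Subtype.ext (Units.ext (Matrix.ext fun i j => (algebraMap F K).injective ?_))
    have h' : (x.1.map (algebraMap F K)).1 = (y.1.map (algebraMap F K)).1 := congrArg Units.val this
    exact congrFun (congrFun h' i) j
  exact ⟨(H22.isomEquiv (H22.qPlus (m + 1) K)).symm.toMonoidHom.comp (φ.toMonoidHom.comp ψ),
    (H22.isomEquiv (H22.qPlus (m + 1) K)).symm.injective.comp (φ.injective.comp hψ)⟩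

end Cfsg.Agent.S2679
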