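import Cfsg.Statements.S2682
import Cfsg.Agent.H14.Wall13

set_option autoImplicit false
set_option linter.unusedVariables false
set_option linter.style.haveILetI false
open Cfsg H14.Wall H16 H23 Polynomial
open scoped Matrix

namespace Cfsg.Agent.S2682

/-- Centraliser order of an involution t of Sp_2m(q), q even, with s = rank(t − 1) even and f(v, tv) ≠ 0 for some v, f the symplectic form (type c_s): |C(t)| = q^(2ms − (3s² − 3s)/2 − 1) · |Sp_(s−2)(q)| · |Sp_(2m−2s)(q)|. -/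
theorem result {F : Type*} [Field F] [Fintype F] [CharP F 2] {q : ℕ} (hF : Fintype.card F = q) {m s : ℕ} (t : Matrix.symplecticGroup (Fin m) F) (ht : t ^ 2 = 1) (hs : ((t : Matrix (Fin m ⊕ Fin m) (Fin m ⊕ Fin m) F) - 1).rank = s) (heven : Even s) (hna : ∃ v : Fin m ⊕ Fin m → F, Cfsg.sympForm m F v ((t : Matrix (Fin m ⊕ Fin m) (Fin m ⊕ Fin m) F).mulVec v) ≠ 0) : Nat.card ↥(Subgroup.centralizer ({t} : Set ↥(Matrix.symplecticGroup (Fin m) F))) = q ^ (2 * m * s - (3 * s ^ 2 - 3 * s) / 2 - 1) * ((q : ℕ) ^ (((s - 2) / 2) ^ 2) * ∏ i : Fin ((s - 2) / 2), (q ^ (2 * ((i : ℕ) + 1)) - 1)) * ((q : ℕ) ^ ((m - s) ^ 2) * ∏ i : Fin (m - s), (q ^ (2 * ((i : ℕ) + 1)) - 1)) := by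
  subst hF
  have h1 := map_sq_eq_one (spE m F) ht
  rw [← rk_spE] at hs
  obtain ⟨n, h2, -, -, h3⟩ := card_oB_cases (spForm_nondeg m) h1
  obtain ⟨h5, h3⟩ := h3 (hs ▸ heven) (by rw [isA_spE]; push Not; exact hna)
  have h4 := two_rk_le h1 (spForm_nondeg m)
  rw [finrank_sp] at h4
  obtain ⟨k, rfl⟩ : ∃ k, m = s + k := ⟨m - s, by omega⟩
  rw [card_cent_equiv (spE _ F), h2, h3, card_Fix_sp (spForm_nondeg _) rfl h1 (k := k)
    (by rw [finrank_sp, hs]), hs, ← spc_eq, ← spc_eq, Nat.add_sub_cancel_left, mul_mul_mul_comm,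
    ← pow_add, mul_comm (spc _ k), ← mul_assoc]
  congr 3
  have := tri_eq s
  have : 2 * (s + k) * s = 2 * (s * s) + s * (2 * k) := by ring
  have : s ^ 2 = s * s := sq s
  omega

end Cfsg.Agent.S2682
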