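import Cfsg.Statements.S2685
import Cfsg.Agent.H14.Wall13

set_option autoImplicit false
set_option linter.unusedVariables false
set_option linter.style.haveILetI false
open Cfsg H14.Wall H16 H23 Polynomial
open scoped Matrix

namespace Cfsg.Agent.S2685

/-- For the hyperbolic form Q = Σ x_j y_j on F^(2m) over a finite field with q elements, q even (excluding m = 2 over the field of two elements), and an involution x of the orthogonal group with s = rank(x − 1) even and Q not vanishing on the image of x − 1 (f(v, xv) ≠ 0 for some v, where f(u, w) = Q(u + w) − Q(u) − Q(w) is the bilinear form of Q; type c_s, which lies in Ω): its centraliser in Ω (the commutator subgroup of the orthogonal group) has order q^(2m(s−1) − (3s² − 5s)/2 − 1) · |Sp_(s−2)(q)| · |Sp_(2m−2s)(q)|. -/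
theorem result {F : Type*} [Field F] [Fintype F] [CharP F 2] {q : ℕ} (hF : Fintype.card F = q) {m s : ℕ} (h : Fintype.card F ≠ 2 ∨ m ≠ 2) (x : ↥(Cfsg.isometryGroup F (Cfsg.quadFormPlus m F))) (hx : x ^ 2 = 1) (hs : (((x : Matrix.GeneralLinearGroup (Fin m ⊕ Fin m) F) : Matrix (Fin m ⊕ Fin m) (Fin m ⊕ Fin m) F) - 1).rank = s) (heven : Even s) (hna : ∃ v : Fin m ⊕ Fin m → F, Cfsg.quadFormPlus m F ((((x : Matrix.GeneralLinearGroup (Fin m ⊕ Fin m) F) : Matrix (Fin m ⊕ Fin m) (Fin m ⊕ Fin m) F) - 1).mulVec v) ≠ 0) : Nat.card {g : ↥(Cfsg.Omega F (Cfsg.quadFormPlus m F)) // (g : ↥(Cfsg.isometryGroup F (Cfsg.quadFormPlus m F))) * x = x * (g : ↥(Cfsg.isometryGroup F (Cfsg.quadFormPlus m F)))} = q ^ (2 * m * (s - 1) - (3 * s ^ 2 - 5 * s) / 2 - 1) * ((q : ℕ) ^ (((s - 2) / 2) ^ 2) * ∏ i : Fin ((s - 2) / 2), (q ^ (2 * ((i : ℕ) + 1)) - 1)) * ((q : ℕ) ^ ((m - s) ^ 2) * ∏ i : Fin (m - s), (q ^ (2 * ((i : ℕ) + 1)) - 1)) := by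
  subst hF
  have hΦ := H22.qPlus_nondeg (F := F) m
  have h1 := map_sq_eq_one (H22.isomEquiv (H22.qPlus m F)) hx
  have hs' := (rk_isom (Q := H22.qPlus m F) x).trans hs
  obtain ⟨n, h2, -, -, h3⟩ := card_oB_cases hΦ h1
  have h4 := two_rk_le h1 hΦ
  have ha : ¬ IsA (H22.isomEquiv (H22.qPlus m F) x) := fun h =>
    hna.elim fun v hv => hv ((isA_isom (Q := H22.qPlus m F) x).1 h v)
  obtain ⟨h6, h3⟩ := h3 (hs' ▸ heven) ha
  rw [finrank_sp] at h4
  obtain ⟨j, rfl⟩ : ∃ j, s = j + 1 := ⟨s - 1, by omega⟩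
  obtain ⟨k, rfl⟩ : ∃ k, m = j + (k + 1) := ⟨m - (j + 1), by omega⟩
  have h5 := card_cent_omega hΦ rfl (H22.genHyp_plus h) h1 (.inl ha)
  refine (card_cent_comm_equiv (H22.isomEquiv (H22.qPlus _ F)) x).trans
    (Nat.eq_of_mul_eq_mul_right two_pos (h5.trans ?_))
  rw [h2, h3, card_Fix_o_b hΦ rfl h1 ha hs' (finrank_sp _) (isPlus_qPlus _), hs',
    ← spc_eq, ← spc_eq, show j + (k + 1) - (j + 1) = k by omega,
    show 2 * (j + (k + 1)) * (j + 1 - 1) - (3 * (j + 1) ^ 2 - 5 * (j + 1)) / 2 - 1 =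
      j * (2 * k + 1) + j * (j - 1) / 2 + (j + 1 - 1) by
      have := tri_eq j
      have : 2 * (j + (k + 1)) * (j + 1 - 1) = 2 * (j * j) + j * (2 * k + 1) + j := by
        rw [Nat.add_sub_cancel]; ring
      have : (j + 1) ^ 2 = j * j + 2 * j + 1 := by ring
      have : j ≤ j * j := Nat.le_mul_self j
      omega]
  ring

end Cfsg.Agent.S2685
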