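import Cfsg.Statements.S2690
import Cfsg.Agent.H22.AutN

set_option autoImplicit false
open Cfsg

namespace Cfsg.Agent.S2690

/-- Every automorphism of a simple projective special linear group PSL_n(F) over a finite field (n ≥ 2; |F| ≥ 4 when n = 2) is a product δ φ γ of an inner-diagonal automorphism δ (induced by an invertible matrix), a standard field automorphism φ (one automorphism of F applied to every entry, possibly the identity) and γ either the identity or the inverse-transpose automorphism. -/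
theorem result {F : Type*} [Field F] [Fintype F] {p f : ℕ} [Fact p.Prime] (hF : Fintype.card F = p ^ f) (hf : 1 ≤ f) {n : ℕ} (hn : 2 ≤ n) (hs : n = 2 → 4 ≤ Fintype.card F) (β : MulAut (Matrix.ProjectiveSpecialLinearGroup (Fin n) F)) :
    ∃ (δ φ γ : MulAut (Matrix.ProjectiveSpecialLinearGroup (Fin n) F)) (σ : F ≃+* F), Cfsg.IsInnerDiagonalAutPSL δ ∧ Cfsg.IsStdFieldAutPSL σ φ ∧ (γ = 1 ∨ Cfsg.IsInverseTransposeAutPSL γ) ∧ β = δ * φ * γ := by
  have key : ∀ β ∈ (H22.slNorms F (Fin n)).ind.range, ∃ δ φ σ, IsInnerDiagonalAutPSL δ ∧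
      IsStdFieldAutPSL σ φ ∧ β = δ * φ := by
    rintro _ ⟨⟨a, -⟩, rfl⟩
    obtain ⟨g, hg⟩ := H22.exists_semi a
    refine ⟨_, _, a.θ, H22.innerDiag_sl_iff.mpr ⟨g, rfl⟩, H22.stdField_sl_iff.mpr rfl, ?_⟩
    rw [← map_mul]
    exact congrArg _ (Subtype.ext hg)
  rcases H22.sl_geom_or (by simpa using hn) β⁻¹ with h | ⟨-, h⟩
  · obtain ⟨δ, φ, σ, h1, h2, h3⟩ := key β (inv_mem_iff.mp h)
    exact ⟨δ, φ, 1, σ, h1, h2, .inl rfl, by rw [h3, mul_one]⟩
  · obtain ⟨δ, φ, σ, h1, h2, h3⟩ := key _ (inv_mem h)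
    exact ⟨δ, φ, _, σ, h1, h2, .inr (H22.it_iff.mpr rfl), by rw [← h3]; simp⟩

end Cfsg.Agent.S2690
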