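import Cfsg.Statements.S2697
import Cfsg.Agent.H22.FldC

set_option autoImplicit false
open Cfsg

namespace Cfsg.Agent.S2697

/-- Let T = PSL_n(F) be simple over a finite field (n ≥ 2; |F| ≥ 4 when n = 2) and let x be a field automorphism or a graph-field automorphism of T of prime order r. Then an element y of the coset Inndiag(T)·x (that is, y = δ x with δ in the inner-diagonal group, the image of PGL_n(F)) has order r if and only if y is conjugate to x by an element of Inndiag(T). -/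
theorem result {F : Type*} [Field F] [Fintype F] {p f : ℕ} [Fact p.Prime] (hF : Fintype.card F = p ^ f) (hf : 1 ≤ f) {n : ℕ} (hn : 2 ≤ n) (hs : n = 2 → 4 ≤ Fintype.card F) (x δ : MulAut (Matrix.ProjectiveSpecialLinearGroup (Fin n) F)) (hx : Cfsg.IsFieldAutClassPSL x ∨ Cfsg.IsGraphFieldAutClassPSL x) {r : ℕ} (hr : r.Prime) (hxr : orderOf x = r) (hδ : δ ∈ Cfsg.inndiagPSL n F) :
    orderOf (δ * x) = r ↔ Cfsg.IsConjUnder (Cfsg.inndiagPSL n F) x (δ * x) := by
  have hn' : 2 ≤ Fintype.card (Fin n) := by simpa using hn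
  have := H22.normal_slInd (F := F) hn'
  rw [H22.inndiagPSL_eq] at hδ ⊢
  have h2 : ∀ α, (α * x * α⁻¹) ^ r = 1 := fun α => by
    rw [conj_pow, ← hxr, pow_orderOf_eq_one]; simp
  rcases hx with ⟨α, θ, h0, h⟩ | ⟨h3, α, φ, γ, θ, h0, hφ, hγ, h1⟩
  · have h1 : α * x * α⁻¹ = H22.slFld θ := H22.stdField_sl_iff.1 h
    refine H22.coset_conj_of (α := α) hxr ?_ hδ
    rw [h1]
    exact H22.coset_slFld hn' hr.pos (H22.orderOf_of_slFld hn' hr h0 (h1 ▸ h2 α))
  · rw [H22.it_iff.1 hγ, H22.stdField_sl_iff.1 hφ, ← H22.slFld_apply] at h1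
    obtain ⟨rfl, hθ⟩ := H22.gf_order (ι := Fin n) (by simpa using h3) h0 hr (h1 ▸ h2 α)
    obtain ⟨-, h4, h5⟩ := H22.exists_sq_of_order_two hF hθ
    refine H22.coset_conj_of (α := α) hxr ?_ hδ
    rw [h1]
    exact H22.coset_gf h4 h5 hn hθ

end Cfsg.Agent.S2697
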