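import Cfsg.Statements.S2703
import Cfsg.Agent.H22.GrD

set_option autoImplicit false
open Cfsg

namespace Cfsg.Agent.S2703

/-- Let T = PSL_n(F) over the field with q elements, q odd, n = 2m ≥ 4 even, and ι the inverse-transpose automorphism. Its centralizer in G = Inndiag(T) (the image of PGL_n(F)) is isomorphic to the projective conformal orthogonal group of the plus-type form Σ xᵢ yᵢ in dimension n when n(q − 1)/4 is even, and to that of a minus-type form (Σ xᵢ yᵢ + z₁² + a z₁ z₂ + b z₂² with anisotropic binary part) when n(q − 1)/4 is odd. -/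
theorem result {F : Type*} [Field F] [Fintype F] (hodd : Odd (Fintype.card F)) {n m : ℕ} (hm : 2 ≤ m) (hnm : n = 2 * m) (ι : MulAut (Matrix.ProjectiveSpecialLinearGroup (Fin n) F)) (hι : Cfsg.IsInverseTransposeAutPSL ι) :
    (Even (n * (Fintype.card F - 1) / 4) → Nonempty (↥(Cfsg.inndiagPSL n F ⊓ Subgroup.centralizer {ι}) ≃* Cfsg.PGO F (Cfsg.quadFormPlus m F))) ∧ (¬ Even (n * (Fintype.card F - 1) / 4) → ∃ a b : F, (∀ z₁ z₂ : F, z₁ ^ 2 + a * z₁ * z₂ + b * z₂ ^ 2 = 0 → z₁ = 0 ∧ z₂ = 0) ∧ Nonempty (↥(Cfsg.inndiagPSL n F ⊓ Subgroup.centralizer {ι}) ≃* Cfsg.PGO F (Cfsg.quadFormMinus (m - 1) F a b))) := by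
  have key : ∀ q : ℕ, Odd q → (q ^ m % 4 = 1 ↔ Even (n * (q - 1) / 4)) := by
    rintro _ ⟨k, rfl⟩
    rw [hnm, show 2 * m * (2 * k + 1 - 1) / 4 = m * k by
      rw [Nat.add_sub_cancel, show 2 * m * (2 * k) = 4 * (m * k) by ring]; omega, Nat.even_mul]
    have h1 : (2 * k + 1) ^ 2 % 4 = 1 := by
      rw [show (2 * k + 1) ^ 2 = 4 * (k * k + k) + 1 by ring]; omega
    have h2 : ∀ j, (2 * k + 1) ^ (2 * j) % 4 = 1 := fun j => by simp [pow_mul, Nat.pow_mod, h1]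
    obtain ⟨j, rfl | rfl⟩ := Nat.even_or_odd' m
    · simp [h2]
    · rw [pow_succ, Nat.mul_mod, h2, Nat.even_iff, Nat.even_iff]; omega
  rw [H22.it_iff.1 hι, ← key _ hodd]
  rcases (H22.grIf_sl (by omega)).dot (H22.two_ne_zero_of_odd_card hodd) (by omega) hnm
    H22.repL_it with ⟨h1, h2⟩ | ⟨h1, h2⟩
  · exact ⟨fun _ => h2, fun h => (h h1).elim⟩
  · exact ⟨fun h => by omega, fun _ => h2⟩

end Cfsg.Agent.S2703
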