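import Cfsg.Statements.S2704
import Cfsg.Agent.H22.FldC

set_option autoImplicit false
open Cfsg

namespace Cfsg.Agent.S2704

/-- Let T = PSL_n(F) over the field F with p^f elements, n ≥ 3, and G = Inndiag(T) the image of PGL_n(F). If x is an involutory graph-field automorphism of T then f is even; x is G-conjugate to every other involutory graph-field automorphism; C_G(x) is isomorphic to the projective general unitary group PGU_n(q₀) with q₀² = p^f, realised over F itself through the Hermitian form Σ uᵢ vᵢ^{q₀}; and the G-class of x is the union of exactly gcd(n, q₀ − 1) T-classes. -/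
theorem result {F : Type*} [Field F] [Fintype F] {p f : ℕ} [Fact p.Prime] (hF : Fintype.card F = p ^ f) (hf : 1 ≤ f) {n : ℕ} (hn : 3 ≤ n) (x : MulAut (Matrix.ProjectiveSpecialLinearGroup (Fin n) F)) (hx : Cfsg.IsGraphFieldAutClassPSL x) (hx2 : orderOf x = 2) :
    Even f ∧ (∀ y : MulAut (Matrix.ProjectiveSpecialLinearGroup (Fin n) F), Cfsg.IsGraphFieldAutClassPSL y → orderOf y = 2 → Cfsg.IsConjUnder (Cfsg.inndiagPSL n F) x y) ∧ Nonempty (↥(Cfsg.inndiagPSL n F ⊓ Subgroup.centralizer {x}) ≃* Cfsg.PGU n F (p ^ (f / 2))) ∧ Cfsg.splitClassCount (Cfsg.inndiagPSL n F) (Cfsg.Inn (Matrix.ProjectiveSpecialLinearGroup (Fin n) F)) x = Nat.gcd n (p ^ (f / 2) - 1) := by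
  have hn' : 2 ≤ Fintype.card (Fin n) := by simp; omega
  have := H22.normal_slInd (F := F) hn'
  have key : ∀ y : MulAut (Matrix.ProjectiveSpecialLinearGroup (Fin n) F),
      Cfsg.IsGraphFieldAutClassPSL y → orderOf y = 2 → ∃ θ α, orderOf θ = 2 ∧
        α * y * α⁻¹ = H22.slFld θ * H22.itBar F (Fin n) := by
    rintro y ⟨h3, α, φ, γ, θ, h0, hφ, hγ, h1⟩ hy
    rw [H22.it_iff.1 hγ, H22.stdField_sl_iff.1 hφ, ← H22.slFld_apply] at h1
    refine ⟨θ, α, (H22.gf_order (ι := Fin n) (by simpa using h3) h0 Nat.prime_two ?_).2, h1⟩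
    rw [← h1, conj_pow, ← hy, pow_orderOf_eq_one]; simp
  obtain ⟨θ, α, hθ, h1⟩ := key x hx hx2
  obtain ⟨h3, h4, h5⟩ := H22.exists_sq_of_order_two hF hθ
  obtain ⟨h6, h7⟩ := H22.cent_gf h4 h5 (n := n) (by omega)
  rw [← h1, H22.splitClassCount_conj H22.inn_le_slInd] at h7
  rw [H22.inndiagPSL_eq]
  refine ⟨h3, fun y hy hy2 => ?_, H22.nonempty_centralizer_conj _ α x (h1 ▸ h6), h7⟩
  obtain ⟨θ', β, hθ', h2⟩ := key y hy hy2
  obtain rfl : θ = θ' :=
    RingEquiv.ext fun a => (h5 a).trans ((H22.exists_sq_of_order_two hF hθ').2.2 a).symm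
  have h8 := H22.gf_isConj hn' θ α⁻¹
  have h9 := H22.gf_isConj hn' θ β⁻¹
  rw [show α⁻¹ * _ * α⁻¹⁻¹ = x by rw [← h1]; group] at h8
  rw [show β⁻¹ * _ * β⁻¹⁻¹ = y by rw [← h2]; group] at h9
  exact H22.isConjUnder_trans (H22.isConjUnder_symm h8) h9

end Cfsg.Agent.S2704
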