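import Cfsg.Statements.S2705
import Cfsg.Agent.H22.FldD

set_option autoImplicit false
open Cfsg

namespace Cfsg.Agent.S2705

/-- Let T = PSU_n(q) be simple (n ≥ 3, (n, q) ≠ (3, 2), q = p^f), realised over the field F with q² elements, G = Inndiag(T) the image of PGU_n(q) in Aut(T), and x a field automorphism of T (conjugate to a standard field automorphism of odd order) of odd prime order r. Then r divides f; C_G(x) is isomorphic to PGU_n(q₀) with q₀ = p^(f/r), realised over a field F₀ with q₀² elements; and the G-class of x is the union of exactly gcd(n, (q + 1)/(q₀ + 1)) T-classes. -/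
theorem result {F : Type*} [Field F] [Fintype F] {p f q : ℕ} [Fact p.Prime] (hq : q = p ^ f) (hf : 1 ≤ f) (hF : Fintype.card F = q ^ 2) {n : ℕ} (hn : 3 ≤ n) (hs : ¬ (n = 3 ∧ q = 2)) (x : MulAut (Cfsg.PSU n F q)) (hx : Cfsg.IsFieldAutClassPSU x) {r : ℕ} (hr : r.Prime) (hro : Odd r) (hxr : orderOf x = r) (F₀ : Type*) [Field F₀] [Fintype F₀] (hF₀ : Fintype.card F₀ = p ^ (2 * (f / r))) :
    r ∣ f ∧ Nonempty (↥(Cfsg.inndiagPSU n F q ⊓ Subgroup.centralizer {x}) ≃* Cfsg.PGU n F₀ (p ^ (f / r))) ∧ Cfsg.splitClassCount (Cfsg.inndiagPSU n F q) (Cfsg.Inn (Cfsg.PSU n F q)) x = Nat.gcd n ((q + 1) / (p ^ (f / r) + 1)) := by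
  obtain ⟨α, φ, θ, h0, -, h, h1⟩ := hx
  rw [(H22.field_su_iff hF hn).1 h] at h1
  have hθ : orderOf θ = r := (H22.suModel hF n hn).norms.orderOf_theta (H22.suModel hF n hn).ker_ind
    (a := ⟨_, 1, H22.stdSL_herm hF n θ⟩) hr
    (by rw [← h1, conj_pow, ← hxr, pow_orderOf_eq_one]; simp) h0
  have hF' : Fintype.card F = p ^ (2 * f) := by rw [hF, hq, ← pow_mul, mul_comm]
  have h4 : r ∣ f := (Nat.coprime_two_right.2 hro).dvd_of_dvd_mul_left
    (hθ ▸ H22.orderOf_dvd_of_card hF' θ)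
  obtain ⟨j, hj⟩ := H22.exists_fixed_embedding hF' θ F₀ (by rw [hθ, Nat.mul_div_assoc _ h4, hF₀])
  have hF₁ : Fintype.card F₀ = (p ^ (f / r)) ^ 2 := by rw [hF₀, ← pow_mul, mul_comm]
  have := H22.normal_gind_su hF hn hs
  obtain ⟨h2, h3⟩ := H22.cent_su hF hn hF₁ (H22.map_conj_of_odd hF hF₁ hro
    (by rw [hq, ← pow_mul, Nat.div_mul_cancel h4])) hr.pos hθ hj
  rw [← h1, H22.splitClassCount_conj (H22.inn_le_su hF hn)] at h3
  rw [H22.inndiagPSU_eq hF hn]
  exact ⟨h4, H22.nonempty_centralizer_conj _ α x (h1 ▸ h2), h3⟩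

end Cfsg.Agent.S2705
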