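import Cfsg.Statements.S2710
import Cfsg.Agent.H22.GrE

set_option autoImplicit false
open Cfsg

namespace Cfsg.Agent.S2710

/-- Let T = PSU_n(q) with n ≥ 4 divisible by 4 (n = 2m) and q odd, realised over the field F with q² elements, G = Inndiag(T) the image of PGU_n(q), and φ the standard field automorphism of T attached to the q-th power map of F (it induces inverse-transpose on the unitary matrices and is a graph automorphism). Its centralizer in G is isomorphic to the projective conformal orthogonal group of the plus-type form Σ xᵢ yᵢ in dimension n over a field F₀ with q elements. (Dimensions n ≡ 2 (mod 4) are not covered.) -/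
theorem result {F : Type*} [Field F] [Fintype F] {q : ℕ} (hodd : Odd q) (hF : Fintype.card F = q ^ 2) {n m : ℕ} (hm : 2 ≤ m) (hnm : n = 2 * m) (h4 : 4 ∣ n) (F₀ : Type*) [Field F₀] [Fintype F₀] (hF₀ : Fintype.card F₀ = q) (σ : F ≃+* F) (hσ : ∀ a : F, σ a = a ^ q) (φ : MulAut (Cfsg.PSU n F q)) (hφ : Cfsg.IsFieldAutPSUOf σ φ) :
    Nonempty (↥(Cfsg.inndiagPSU n F q ⊓ Subgroup.centralizer {φ}) ≃* Cfsg.PGO F₀ (Cfsg.quadFormPlus m F₀)) := by
  obtain ⟨j, hj⟩ := H22.exists_conj_embedding hF hF₀
  obtain rfl : σ = H22.cjE hF := RingEquiv.ext hσ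
  have hn : 3 ≤ n := by omega
  rw [(H22.field_su_iff hF hn).1 hφ]
  have h2 := H22.two_ne_zero_of_odd_card (F := F₀) (hF₀ ▸ hodd)
  refine (((H22.grIf_su hF hn hj).dot h2 (by omega) hnm (H22.repU_std hF hn hj)).resolve_right
    fun h => ?_).2
  have := (H22.isSquare_neg_one_pow_iff h2 m).1 (by
    rw [Even.neg_one_pow (by rw [Nat.even_iff]; omega)]; exact IsSquare.one)
  omega

end Cfsg.Agent.S2710
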