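import Cfsg.Statements.S2711
import Cfsg.Agent.H22.FldD

set_option autoImplicit false
open Cfsg

namespace Cfsg.Agent.S2711

/-- Let T = PSU_n(q) be simple (n ≥ 3, (n,q) ≠ (3,2)), realised over the field F with q² elements, and let x be a field automorphism of T (conjugate to a standard field automorphism of odd order) of prime order r. Then an element y of the coset Inndiag(T)·x (y = δ x with δ in the image of PGU_n(q)) has order r if and only if y is conjugate to x by an element of Inndiag(T). (T has no graph-field automorphisms.) -/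
theorem result {F : Type*} [Field F] [Fintype F] {p f q : ℕ} [Fact p.Prime] (hq : q = p ^ f) (hf : 1 ≤ f) (hF : Fintype.card F = q ^ 2) {n : ℕ} (hn : 3 ≤ n) (hs : ¬ (n = 3 ∧ q = 2)) (x δ : MulAut (Cfsg.PSU n F q)) (hx : Cfsg.IsFieldAutClassPSU x) {r : ℕ} (hr : r.Prime) (hxr : orderOf x = r) (hδ : δ ∈ Cfsg.inndiagPSU n F q) :
    orderOf (δ * x) = r ↔ Cfsg.IsConjUnder (Cfsg.inndiagPSU n F q) x (δ * x) := by
  obtain ⟨α, φ, θ, h0, hro, h, h1⟩ := hx
  have : Nonempty (Fin n) := ⟨⟨0, by omega⟩⟩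
  rw [(H22.field_su_iff hF hn).1 h] at h1
  have hθ : orderOf θ = r := (H22.suModel hF n hn).norms.orderOf_theta (H22.suModel hF n hn).ker_ind
    (a := ⟨_, 1, H22.stdSL_herm hF n θ⟩) hr
    (by rw [← h1, conj_pow, ← hxr, pow_orderOf_eq_one]; simp) h0
  rw [hθ] at hro
  have hF' : Fintype.card F = p ^ (2 * f) := by rw [hF, hq, ← pow_mul, mul_comm]
  have h4 : r ∣ f := (Nat.coprime_two_right.2 hro).dvd_of_dvd_mul_left
    (hθ ▸ H22.orderOf_dvd_of_card hF' θ)
  have h5 : 2 * (f / r) ≠ 0 := mul_ne_zero two_ne_zero (Nat.div_pos (Nat.le_of_dvd hf h4) hr.pos).ne'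
  let _ := Fintype.ofFinite (GaloisField p (2 * (f / r)))
  have hF₀ : Fintype.card (GaloisField p (2 * (f / r))) = p ^ (2 * (f / r)) := by
    rw [← Nat.card_eq_fintype_card, GaloisField.card p _ h5]
  obtain ⟨j, hj⟩ := H22.exists_fixed_embedding hF' θ _ (by rw [hθ, Nat.mul_div_assoc _ h4, hF₀])
  have hF₁ := hF₀.trans (show _ = (p ^ (f / r)) ^ 2 by rw [← pow_mul, mul_comm])
  have := H22.normal_gind_su hF hn hs
  rw [H22.inndiagPSU_eq hF hn] at hδ ⊢
  refine H22.coset_conj_of (α := α) hxr ?_ hδ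
  rw [h1]
  exact (H22.suModel hF n hn).coset_std _ H22.scal_mem_GO _ hr.pos hθ fun g hg h =>
    H22.exists_std_herm hF hF₁ (H22.map_conj_of_odd hF hF₁ hro
      (by rw [hq, ← pow_mul, Nat.div_mul_cancel h4])) (mul_mem hg ⟨1, H22.stdSL_herm hF n θ⟩)
      hr.pos h (by simpa using hθ) (by simpa using hj)

end Cfsg.Agent.S2711
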