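import Cfsg.Statements.S2712
import Cfsg.Agent.H22.FldD

set_option autoImplicit false
open Cfsg

namespace Cfsg.Agent.S2712

/-- Let T = PSp_{2m}(F) be simple over the field F with p^f elements (m ≥ 2, (2m, |F|) ≠ (4, 2)), G = Inndiag(T) the image of the projective conformal symplectic group PGSp_{2m}(F), and x a field automorphism of T of prime order r. Then r divides f; C_G(x) is isomorphic to PGSp_{2m}(F₀) for a field F₀ with p^(f/r) elements; and the G-class of x is the union of exactly gcd(gcd(2, p^f − 1), r) T-classes. -/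
theorem result {F : Type*} [Field F] [Fintype F] {p f : ℕ} [Fact p.Prime] (hF : Fintype.card F = p ^ f) (hf : 1 ≤ f) {m : ℕ} (hm : 2 ≤ m) (hs : m = 2 → 3 ≤ Fintype.card F) (x : MulAut (Cfsg.PSp m F)) (hx : Cfsg.IsFieldAutClassPSp x) {r : ℕ} (hr : r.Prime) (hxr : orderOf x = r) (F₀ : Type*) [Field F₀] [Fintype F₀] (hF₀ : Fintype.card F₀ = p ^ (f / r)) :
    r ∣ f ∧ Nonempty (↥(Cfsg.inndiagPSp m F ⊓ Subgroup.centralizer {x}) ≃* Cfsg.PGSp m F₀) ∧ Cfsg.splitClassCount (Cfsg.inndiagPSp m F) (Cfsg.Inn (Cfsg.PSp m F)) x = Nat.gcd (Nat.gcd 2 (p ^ f - 1)) r := by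
  obtain ⟨α, θ, h0, h⟩ := hx
  have : Nonempty (Fin m) := ⟨⟨0, by omega⟩⟩
  have h1 := (H22.stdField_sp_iff hm).1 h
  have hθ : orderOf θ = r := (H22.spModel (F := F) m hm).norms.orderOf_theta (H22.spModel m hm).ker_ind
    (a := ⟨H22.stdSL _ θ, 1, H22.stdSL_sp m θ⟩) hr (by rw [← h1, conj_pow, ← hxr, pow_orderOf_eq_one]; simp) h0
  obtain ⟨j, hj⟩ := H22.exists_fixed_embedding hF θ F₀ (hθ ▸ hF₀)
  have := H22.normal_gind_sp (F := F) hm
  obtain ⟨h2, h3⟩ := H22.cent_sp hm hr.pos hθ hj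
  have h4 := hθ ▸ H22.orderOf_dvd_of_card hF θ
  have h5 : p ^ f = (p ^ (f / r)) ^ r := by rw [← pow_mul, Nat.div_mul_cancel h4]
  rw [← h1, H22.splitClassCount_conj (H22.inn_le_sp hm), hF, hF₀, h5,
    H22.gcd_two_geom (hF₀ ▸ Fintype.one_lt_card) hr.pos, ← h5] at h3
  rw [H22.inndiagPSp_eq hm]
  exact ⟨h4, H22.nonempty_centralizer_conj _ α x (h1 ▸ h2), h3⟩

end Cfsg.Agent.S2712
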