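import Cfsg.Statements.S2713
import Cfsg.Agent.H22.FldD

set_option autoImplicit false
open Cfsg

namespace Cfsg.Agent.S2713

/-- Let T = PSp_{2m}(F) be simple over a finite field (m ≥ 2, (2m, |F|) ≠ (4, 2)) and let x be a field automorphism of T of prime order r. Then an element y of the coset Inndiag(T)·x (y = δ x with δ in the image of the projective conformal symplectic group) has order r if and only if y is conjugate to x by an element of Inndiag(T). -/
theorem result {F : Type*} [Field F] [Fintype F] {m : ℕ} (hm : 2 ≤ m) (hs : m = 2 → 3 ≤ Fintype.card F) (x δ : MulAut (Cfsg.PSp m F)) (hx : Cfsg.IsFieldAutClassPSp x) {r : ℕ} (hr : r.Prime) (hxr : orderOf x = r) (hδ : δ ∈ Cfsg.inndiagPSp m F) :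
    orderOf (δ * x) = r ↔ Cfsg.IsConjUnder (Cfsg.inndiagPSp m F) x (δ * x) := by
  obtain ⟨α, θ, h0, h⟩ := hx
  have : Nonempty (Fin m) := ⟨⟨0, by omega⟩⟩
  have h1 := (H22.stdField_sp_iff hm).1 h
  have hθ : orderOf θ = r := (H22.spModel (F := F) m hm).norms.orderOf_theta (H22.spModel m hm).ker_ind
    (a := ⟨H22.stdSL _ θ, 1, H22.stdSL_sp m θ⟩) hr (by rw [← h1, conj_pow, ← hxr, pow_orderOf_eq_one]; simp) h0
  have := H22.normal_gind_sp (F := F) hm
  rw [H22.inndiagPSp_eq hm] at hδ ⊢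
  refine H22.coset_conj_of (α := α) hxr ?_ hδ
  rw [h1]
  exact (H22.spModel m hm).coset_std _ H22.scal_mem_GO _ hr.pos hθ fun g hg h =>
    H22.exists_std_sp (mul_mem hg ⟨1, H22.stdSL_sp m θ⟩) hr.pos h (by simpa using hθ)

end Cfsg.Agent.S2713
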