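import Cfsg.Statements.S2714
import Cfsg.Agent.H22.FldK

set_option autoImplicit false
open Cfsg

namespace Cfsg.Agent.S2714

/-- Let T = Ω_{2m+1}(F) (m ≥ 3, |F| = p^f odd; realised as PΩ of the form x₀² + Σ xᵢ yᵢ), G = Inndiag(T) the image of the conformal orthogonal group in Aut(T), and x a field automorphism of T of prime order r. Then r divides f; C_G(x) is isomorphic to Inndiag(Ω_{2m+1}(F₀)) for a field F₀ with p^(f/r) elements; and the G-class of x is a single T-class when r is odd and the union of exactly two T-classes when r = 2. -/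
theorem result {F : Type*} [Field F] [Fintype F] {p f : ℕ} [Fact p.Prime] (hF : Fintype.card F = p ^ f) (hf : 1 ≤ f) (hodd : Odd (Fintype.card F)) {m : ℕ} (hm : 3 ≤ m) (x : MulAut (Cfsg.POmega F (Cfsg.quadFormOdd m F))) (hx : Cfsg.IsFieldAutClassPOmega (Cfsg.quadFormOdd m F) x) {r : ℕ} (hr : r.Prime) (hxr : orderOf x = r) (F₀ : Type*) [Field F₀] [Fintype F₀] (hF₀ : Fintype.card F₀ = p ^ (f / r)) :
    r ∣ f ∧ Nonempty (↥(Cfsg.inndiagPOmegaOdd m F ⊓ Subgroup.centralizer {x}) ≃* ↥(Cfsg.inndiagPOmegaOdd m F₀)) ∧ (Odd r → Cfsg.splitClassCount (Cfsg.inndiagPOmegaOdd m F) (Cfsg.Inn (Cfsg.POmega F (Cfsg.quadFormOdd m F))) x = 1) ∧ (r = 2 → Cfsg.splitClassCount (Cfsg.inndiagPOmegaOdd m F) (Cfsg.Inn (Cfsg.POmega F (Cfsg.quadFormOdd m F))) x = 2) := by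
  obtain ⟨α, φ, θ, h0, h, h1⟩ := hx
  have h2 := H22.two_ne_zero_of_odd_card hodd
  have hm2 : 2 ≤ m := by omega
  rw [(H22.field_odd_iff h2 hm2).1 h] at h1
  have hθ : orderOf θ = r := (H22.oddModel h2 hm2).norms.orderOf_theta (H22.oddModel h2 hm2).ker_ind
    (a := ⟨H22.stdSL _ θ, 1, H22.stdSL_qOdd m θ⟩) hr
    (by rw [← h1, conj_pow, ← hxr, pow_orderOf_eq_one]; simp) h0
  obtain ⟨j, hj⟩ := H22.exists_fixed_embedding hF θ F₀ (hθ ▸ hF₀)
  have h3 : (2 : F₀) ≠ 0 := fun h => h2 (by simpa [map_ofNat] using congrArg j h)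
  have h4 := hθ ▸ H22.orderOf_dvd_of_card hF θ
  obtain ⟨h5, h6, h7⟩ := H22.field_odd h2 h3 hm2 (H22.oddModel h2 hm2) (H22.range_oddRep F m)
    (H22.oddModel h3 hm2) hj hr.pos hθ h1
  have := (H22.oddModel h2 hm2).norms.normal_range_lind (fun _ h => h) H22.slAut_mem_GO
    (H22.range_ind_odd' h2 hm2)
  rw [H22.splitClassCount_conj ((H22.oddModel h2 hm2).norms.inn_le_range_lind _
    fun s => H22.O_le_GO (H22.oddRep F m s).2)] at h6 h7
  rw [H22.inndiagOdd_eq h2 hm2, H22.inndiagOdd_eq h3 hm2]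
  exact ⟨h4, H22.nonempty_centralizer_conj _ α x h5, h6,
    fun h => h7 (by rw [hF, hF₀, ← pow_mul, ← h, Nat.div_mul_cancel h4])⟩

end Cfsg.Agent.S2714
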