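import Cfsg.Statements.S2715
import Cfsg.Agent.H22.TriC

set_option autoImplicit false
open Cfsg

namespace Cfsg.Agent.S2715

/-- Let T = PΩ⁺_{2m}(F) (m ≥ 4, |F| = p^f; the form Σ xᵢ yᵢ), G = Inndiag(T) the image of the class-preserving similarities in Aut(T), and x a field automorphism of T of prime order r. Then r divides f; C_G(x) is isomorphic to Inndiag(PΩ⁺_{2m}(F₀)) for a field F₀ with p^(f/r) elements; and the G-class of x is the union of exactly c T-classes, where c = 1 if r is odd or p = 2, and otherwise (r = 2, p odd) c = 2 when m is odd and p^(f/2) ≡ 1 (mod 4), and c = 4 in the remaining cases. -/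
theorem result {F : Type*} [Field F] [Fintype F] {p f : ℕ} [Fact p.Prime] (hF : Fintype.card F = p ^ f) (hf : 1 ≤ f) {m : ℕ} (hm : 4 ≤ m) (x : MulAut (Cfsg.POmega F (Cfsg.quadFormPlus m F))) (hx : Cfsg.IsFieldAutClassPOmega (Cfsg.quadFormPlus m F) x) {r : ℕ} (hr : r.Prime) (hxr : orderOf x = r) (F₀ : Type*) [Field F₀] [Fintype F₀] (hF₀ : Fintype.card F₀ = p ^ (f / r)) :
    r ∣ f ∧ Nonempty (↥(Cfsg.inndiagPOmegaPlus m F ⊓ Subgroup.centralizer {x}) ≃* ↥(Cfsg.inndiagPOmegaPlus m F₀)) ∧ ((Odd r ∨ p = 2) → Cfsg.splitClassCount (Cfsg.inndiagPOmegaPlus m F) (Cfsg.Inn (Cfsg.POmega F (Cfsg.quadFormPlus m F))) x = 1) ∧ ((r = 2 ∧ p ≠ 2 ∧ Odd m ∧ p ^ (f / 2) % 4 = 1) → Cfsg.splitClassCount (Cfsg.inndiagPOmegaPlus m F) (Cfsg.Inn (Cfsg.POmega F (Cfsg.quadFormPlus m F))) x = 2) ∧ ((r = 2 ∧ p ≠ 2 ∧ ¬ (Odd m ∧ p ^ (f / 2) % 4 = 1)) → Cfsg.splitClassCount (Cfsg.inndiagPOmegaPlus m F) (Cfsg.Inn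 (Cfsg.POmega F (Cfsg.quadFormPlus m F))) x = 4) := by
  obtain ⟨α, φ, θ, h0, h, h1⟩ := hx
  have hm3 : 3 ≤ m := by omega
  have : Nonempty (Fin m) := ⟨⟨0, by omega⟩⟩
  rw [(H22.field_plus_iff hm3).1 h] at h1
  have hθ : orderOf θ = r := (H22.plusModel F hm3).norms.orderOf_theta (H22.plusModel F hm3).ker_ind
    (a := ⟨H22.stdSL _ θ, 1, H22.stdSL_qPlus m θ⟩) hr
    (by rw [← h1, conj_pow, ← hxr, pow_orderOf_eq_one]; simp) h0
  obtain ⟨j, hj⟩ := H22.exists_fixed_embedding hF θ F₀ (hθ ▸ hF₀)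
  have h4 := hθ ▸ H22.orderOf_dvd_of_card hF θ
  obtain ⟨h5, h6, h7⟩ := H22.field_plus hm3 hj (H22.plusModel F hm3) (H22.range_plusRep F m)
    (H22.plusModel F₀ hm3) hr.pos hθ (H22.inndiagPlus_eq hm3) h1
  have := H22.normal_idg_plus (F := F) hm3 hm
  have hi : Inn _ ≤ inndiagPOmegaPlus m F := H22.inndiagPlus_eq (F := F) hm3 ▸
    (H22.plusModel F hm3).inn_le_idg (H23.Form.ofQuad_κ _) (H22.range_plusRep F _) _ _
  rw [H22.splitClassCount_conj hi] at h6 h7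
  rw [← H22.inndiagPlus_eq hm3] at h5
  rw [Ne, H22.two_eq_zero_iff hF, hF₀] at h7
  rw [H22.two_eq_zero_iff hF] at h6
  have h8 : r = 2 → Fintype.card F = (p ^ (f / r)) ^ 2 := fun h => by
    rw [hF, ← pow_mul, ← h, Nat.div_mul_cancel h4]
  exact ⟨h4, H22.nonempty_centralizer_conj _ α x h5, h6,
    fun h => (h7 h.2.1 (h8 h.1)).1 (h.1 ▸ h.2.2), fun h => (h7 h.2.1 (h8 h.1)).2 (h.1 ▸ h.2.2)⟩

end Cfsg.Agent.S2715
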