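import Cfsg.Statements.S2717
import Cfsg.Agent.H22.FldK

set_option autoImplicit false
open Cfsg

namespace Cfsg.Agent.S2717

theorem conj_aux {A : Type*} [Group A] {α y k x : A} (h : α * y * α⁻¹ = k * x * k⁻¹) :
    α⁻¹ * k * x * (α⁻¹ * k)⁻¹ = y := by
  rw [show α⁻¹ * k * x * (α⁻¹ * k)⁻¹ = α⁻¹ * (k * x * k⁻¹) * α by group, ← h]; group

/-- Let T = PΩ⁺_{2m}(F) with m ≥ 5 (dimension 2m ≠ 8) and |F| = p^f, G = Inndiag(T), and x an involutory graph-field automorphism of T. Then f is even; any two involutory graph-field automorphisms of T are G-conjugate; C_G(x) is isomorphic to Inndiag(PΩ⁻_{2m}(F₀)) for a field F₀ with p^(f/2) elements (some anisotropic binary part over F₀); and the G-class of x is the union of exactly c T-classes with c = 1 if p = 2, c = 4 if p is odd, m is odd and p^(f/2) ≡ 1 (mod 4), and c = 2 otherwise. -/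
theorem result {F : Type*} [Field F] [Fintype F] {p f : ℕ} [Fact p.Prime] (hF : Fintype.card F = p ^ f) (hf : 1 ≤ f) {m : ℕ} (hm : 5 ≤ m) (x : MulAut (Cfsg.POmega F (Cfsg.quadFormPlus m F))) (hx : Cfsg.IsGraphFieldAutClassPOmegaPlus m x) (hx2 : orderOf x = 2) (F₀ : Type*) [Field F₀] [Fintype F₀] (hF₀ : Fintype.card F₀ = p ^ (f / 2)) :
    Even f ∧ (∀ y : MulAut (Cfsg.POmega F (Cfsg.quadFormPlus m F)), Cfsg.IsGraphFieldAutClassPOmegaPlus m y → orderOf y = 2 → Cfsg.IsConjUnder (Cfsg.inndiagPOmegaPlus m F) x y) ∧ (∃ a₀ b₀ : F₀, (∀ z₁ z₂ : F₀, z₁ ^ 2 + a₀ * z₁ * z₂ + b₀ * z₂ ^ 2 = 0 → z₁ = 0 ∧ z₂ = 0) ∧ Nonempty (↥(Cfsg.inndiagPOmegaPlus m F ⊓ Subgroup.centralizer {x}) ≃* ↥(Cfsg.inndiagPOmegaMinus (m - 1) F₀ a₀ b₀))) ∧ (p = 2 → Cfsg.splitClassCount (Cfsg.inndiagPOmegaPlus m F) (Cfsg.Inn (Cfsg.POmega F (Cfsg.quadFormPlus m F))) x = 1) ∧ ((p ≠ 2 ∧ Odd m ∧ p ^ (f /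 2) % 4 = 1) → Cfsg.splitClassCount (Cfsg.inndiagPOmegaPlus m F) (Cfsg.Inn (Cfsg.POmega F (Cfsg.quadFormPlus m F))) x = 4) ∧ ((p ≠ 2 ∧ ¬ (Odd m ∧ p ^ (f / 2) % 4 = 1)) → Cfsg.splitClassCount (Cfsg.inndiagPOmegaPlus m F) (Cfsg.Inn (Cfsg.POmega F (Cfsg.quadFormPlus m F))) x = 2) := by
  obtain ⟨M, rfl⟩ : ∃ M, m = M + 1 := ⟨m - 1, by omega⟩
  have hm3 : 3 ≤ M + 1 := by omega
  have hM : 2 ≤ M := by omega
  have ht := H22.range_ind_plus' (F := F) hm3 hm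
  have hG := H22.inndiagPlus_eq (F := F) hm3
  have hn := (H22.plusModel F hm3).normal_idg (H23.Form.ofQuad_κ _) (H22.genHyp_plus' F hm3)
    (H22.finrank_plus _) ht
  have key : ∀ y, Cfsg.IsGraphFieldAutClassPOmegaPlus (M + 1) y → orderOf y = 2 → ∃ θ : F ≃+* F,
      orderOf θ = 2 ∧ Cfsg.IsConjUnder (Cfsg.inndiagPOmegaPlus (M + 1) F)
        ((H22.plusModel F hm3).norms.ind (H22.gfPlus 0 θ)) y := fun y hy h2 => by
    obtain ⟨α, θ, h0, g, h1, h3⟩ := H22.gf_class hm3 0 hy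
    have h4 : (α * y * α⁻¹) ^ 2 = 1 := by rw [conj_pow, ← h2, pow_orderOf_eq_one]; simp
    have hθ : orderOf θ = 2 := (H22.plusModel F hm3).norms.orderOf_theta
      (H22.plusModel F hm3).ker_ind Nat.prime_two (h3 ▸ h4) h0
    rw [map_mul] at h3
    obtain ⟨k, hk, h5⟩ := (H22.plusModel F hm3).coset_even (H23.Form.ofQuad_κ _)
      (H22.genHyp_plus' F hm3) (H22.finrank_plus _) (H22.gfPlus 0 θ) Nat.prime_two h0
      (by rw [← map_pow, show H22.gfPlus 0 θ ^ 2 = 1 from Subtype.ext (H22.gfPlus_sq 0 hθ), map_one])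
      _ ⟨g, h1, rfl⟩ (h3 ▸ h4)
    have := H22.gf_isConj_plus hm3 (H22.plusModel F hm3) ht 0 hθ (α⁻¹ * k)
    rw [conj_aux (h3.trans h5)] at this
    exact ⟨θ, hθ, hG ▸ this⟩
  obtain ⟨θ, hθ, h1⟩ := key x hx hx2
  obtain ⟨h2, h3, h4⟩ := H22.exists_sq_of_order_two hF hθ
  obtain ⟨j, hj⟩ := H22.exists_fixed_embedding hF θ F₀ (hθ ▸ hF₀)
  obtain ⟨a₀, b₀, hab⟩ := H22.exists_aniso F₀
  obtain ⟨h5, h6, h7⟩ := H22.gf_plus hm3 hM 0 hθ hj (hF₀ ▸ h3) hab (H22.plusModel F hm3)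
    (H22.range_plusRep F _) (H22.minusModel hM hab) hG rfl
  have hi := hG ▸ (H22.plusModel F hm3).inn_le_idg (H23.Form.ofQuad_κ _) (H22.range_plusRep F _)
    (H22.genHyp_plus' F hm3) (H22.finrank_plus _)
  refine ⟨h2, fun y hy hy2 => ?_, ?_⟩
  · obtain ⟨θ', hθ', h8⟩ := key y hy hy2
    obtain rfl : θ' = θ := RingEquiv.ext fun z => ((H22.exists_sq_of_order_two hF hθ').2.2 z).trans
      (h4 z).symm
    exact H22.isConjUnder_trans (H22.isConjUnder_symm h1) h8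
  rw [← hG] at hn
  obtain ⟨k, -, h8⟩ := H22.isConjUnder_symm h1
  rw [h8, H22.splitClassCount_conj hi] at h6 h7
  rw [h8, ← H22.inndiagMinus_eq hM hab] at h5
  rw [hF₀, Ne, H22.two_eq_zero_iff hF] at h7
  exact ⟨⟨a₀, b₀, hab, H22.nonempty_centralizer_conj _ k x h5⟩,
    fun h => h6 ((H22.two_eq_zero_iff hF).2 h), fun h => (h7 h.1).1 h.2, fun h => (h7 h.1).2 h.2⟩

end Cfsg.Agent.S2717
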