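import Cfsg.Statements.S2718
import Cfsg.Agent.H22.FldH

set_option autoImplicit false
open Cfsg

namespace Cfsg.Agent.S2718

/-- Let T = PΩ⁺_{2m}(F) with m ≥ 4 and |F| = q odd, G = Inndiag(T), and γ an involutory graph automorphism of T induced by a similarity (one interchanging the two classes of maximal totally singular subspaces). Then the G-class of γ is either a single T-class or the union of exactly two T-classes, and it is the union of two unless m is odd and q ≡ 3 (mod 4). -/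
theorem result {F : Type*} [Field F] [Fintype F] (hodd : Odd (Fintype.card F)) {m : ℕ} (hm : 4 ≤ m) (γ : MulAut (Cfsg.POmega F (Cfsg.quadFormPlus m F))) (hγ : Cfsg.IsSimilarityGraphAutPOmegaPlus m γ) (hγ2 : orderOf γ = 2) :
    (Cfsg.splitClassCount (Cfsg.inndiagPOmegaPlus m F) (Cfsg.Inn (Cfsg.POmega F (Cfsg.quadFormPlus m F))) γ = 1 ∨ Cfsg.splitClassCount (Cfsg.inndiagPOmegaPlus m F) (Cfsg.Inn (Cfsg.POmega F (Cfsg.quadFormPlus m F))) γ = 2) ∧ (¬ (Odd m ∧ Fintype.card F % 4 = 3) → Cfsg.splitClassCount (Cfsg.inndiagPOmegaPlus m F) (Cfsg.Inn (Cfsg.POmega F (Cfsg.quadFormPlus m F))) γ = 2) := by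
  have : Nonempty (Fin m) := ⟨⟨0, by omega⟩⟩
  have h2 := H22.two_ne_zero_of_odd_card hodd
  have hm3 : 3 ≤ m := by omega
  have hn := (H22.neg_mem_omega_plus_iff h2 m).trans (H22.pow_mod_four_eq_one hodd)
  have hr := H22.range_plusRep F m
  obtain ⟨g, h3, h4, h5⟩ := hγ
  replace h3 := (H22.mem_quadSim_iff (Q := H22.qPlus m F)).1 h3
  obtain rfl : γ = (H22.plusModel F hm3).sim ⟨_, h3⟩ :=
    (H22.induced_plus_iff hm3 (θ := RingEquiv.refl F) (g := g) h3).1 h5
  rw [H22.inndiagPlus_eq hm3]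
  obtain ⟨h6, h7⟩ := (H22.plusModel F hm3).count_graph _ hr (H22.genHyp_plus' F hm3)
    (H22.finrank_plus m) h2 (H22.mult_surj_plus m) (by omega) (g := ⟨_, h3⟩)
    ((Int.units_eq_one_or _).resolve_left fun h => h4 ((H22.preserves_iff (Q := H22.qPlus m F) _ _
      (H22.totSing_kerR m) (H22.finrank_kerR m) _ _ fun _ => rfl).2 h))
    (by rw [← sq, ← hγ2, pow_orderOf_eq_one])
  exact ⟨h6, fun h => h7 (hn.2 h)⟩

end Cfsg.Agent.S2718
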