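import Cfsg.Statements.S2719
import Cfsg.Agent.H22.FldK

set_option autoImplicit false
open Cfsg

namespace Cfsg.Agent.S2719

open Module H23 H23.Form H22 Subgroup Polynomial

theorem det_of_sq {F V : Type*} [Field F] [AddCommGroup V] [Module F V] [FiniteDimensional F V]
    {g : V →ₗ[F] V} {l : F} (hl : ¬ IsSquare l) (h : g * g = l • 1) {M : ℕ}
    (hV : finrank F V = 2 * M) : LinearMap.det g = (-l) ^ M := by
  let b := Module.finBasis F V
  have hp : Irreducible (X ^ 2 - C l : F[X]) :=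
    (X_pow_sub_C_irreducible_iff_of_prime Nat.prime_two).2 fun c hc => hl ⟨c, by rw [← hc, sq]⟩
  set A := LinearMap.toMatrix b b g with hA
  have h1 : A * A = l • 1 := by rw [hA, ← LinearMap.toMatrix_mul, h]; simp
  have h2 : A.charpoly ∣ (X ^ 2 - C l) ^ finrank F V := by
    refine ⟨(Matrix.scalar _ X + A.map C).det, ?_⟩
    rw [Matrix.charpoly, ← Matrix.det_mul, Matrix.charmatrix, RingHom.mapMatrix_apply, sub_mul,
      mul_add, mul_add, ← Matrix.map_mul, h1, ← (Matrix.scalar_commute X (fun _ => .all _ _) (A.map C)).eq,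
      add_comm (_ * A.map C), add_sub_add_right_eq_sub, ← map_mul,
      show (l • 1 : Matrix _ _ F).map C = Matrix.scalar _ (C l) by
        ext i j; by_cases h : i = j <;> simp [h], ← map_sub]
    simp [sq]
  obtain ⟨i, -, h3⟩ := (dvd_prime_pow hp.prime _).1 h2
  have h4 := eq_of_monic_of_associated A.charpoly_monic
    ((monic_X_pow_sub_C l two_ne_zero).pow i) h3
  have h5 := congrArg natDegree h4
  rw [Matrix.charpoly_natDegree_eq_dim, natDegree_pow, natDegree_X_pow_sub_C, Fintype.card_fin] at h5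
  rw [← LinearMap.det_toMatrix b, ← hA, Matrix.det_eq_sign_charpoly_coeff, h4, coeff_zero_eq_eval_zero,
    Fintype.card_fin, hV, show i = M by omega]
  simp

theorem sqm_eq_one {F V : Type*} [Field F] [AddCommGroup V] [Module F V] [FiniteDimensional F V]
    [Finite F] [Nontrivial V] {Φ : Form (RingHom.id F) V} (hΦ : Φ.Nondeg) (hκ : Φ.κ = 1)
    (hg : GenHyp Φ) {M : ℕ} (hV : finrank F V = 2 * M) (h2 : (2 : F) ≠ 0) (hM : Even M)
    {g k : GO Φ} {l c : Fˣ} (h1 : gpar hΦ hκ hg hV g = -1) (h : g * g = sGO Φ l)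
    (hk : k * g = sGO Φ c * (g * k)) : sqm hΦ k = 1 := by
  have h3 : ∀ x, g.1 (g.1 x) = (l : F) • x := fun x => congrArg (fun a : GO Φ => a.1 x) h
  have h4 : (l : F) = mult hΦ g ∨ (l : F) = -mult hΦ g := by
    have := congrArg (fun a => (mult hΦ a : F)) h
    simp only [map_mul, mult_sGO, Units.val_mul] at this
    exact mul_self_eq_mul_self_iff.1 this.symm
  have h5 := det_eq_gpar hΦ hκ hg hV g
  have h6 : IsSquare (l : F) := by_contra fun h6 => by
    rw [det_of_sq h6 (LinearMap.ext h3) hV, h1] at h5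
    refine h2 (mul_right_cancel₀ (pow_ne_zero M (mult hΦ g).ne_zero) ?_)
    rcases h4 with h4 | h4 <;> simp [h4, hM.neg_pow] at h5 <;> linear_combination h5
  have h7 : (c : F) * c = 1 := by
    have := congrArg (fun a => mult hΦ a) hk
    simp only [map_mul, mult_sGO] at this
    rw [mul_comm (mult hΦ k), eq_comm, mul_eq_right] at this
    exact congrArg Units.val this
  obtain ⟨d, hd⟩ := h6
  have hd0 : d ≠ 0 := by rintro rfl; simp at hd
  have hB := (mult_spec hΦ g).B
  simp only [RingEquiv.refl_apply, LinearEquiv.coe_toAddEquiv, LinearEquiv.coe_addEquiv_apply] at hB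
  rcases h4 with h4 | h4
  · obtain ⟨s, rfl⟩ := (mult_eq_mul_iff hΦ (c := Units.mk0 d hd0)).1 (h4.symm.trans hd)
    rw [gpar_mul] at h1
    replace h3 : ∀ x, s.1 (s.1 x) = x := fun x => smul_right_injective V l.ne_zero (Eq.trans (by
      change (l : F) • _ = d • s.1 (d • _)
      rw [hd, mul_smul, map_smul]; rfl) (h3 x))
    replace hk : ∀ x, k.1 (s.1 x) = (c : F) • s.1 (k.1 x) := fun x => smul_right_injective V hd0 (by
      have : k.1 (d • s.1 x) = (c : F) • d • s.1 (k.1 x) := congrArg (fun a : GO Φ => a.1 x) hk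
      simpa [smul_comm d] using this)
    rcases mul_self_eq_one_iff.1 h7 with h8 | h8
    · obtain ⟨s', h9, -, h10⟩ := exists_oGO_conj (hΦ := hΦ) hκ hg k s
      obtain rfl : s = s' := O_ext _ fun x => by
        have := congrArg (fun a : GO Φ => a.1 x) h9
        change k.1 (s.1 (k.1.symm x)) = s'.1 x at this
        rw [← this, hk, h8]; simp
      simpa [h1] using h10
    · have h6 : ∀ x ∈ Φ.perp (fixSp s), s.1 x = -x := fun x hx => by
        rw [perp_fixSp hΦ] at hx
        obtain ⟨y, rfl⟩ := hx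
        simp [h3]
      have h9 := hΦ.finrank_perp_add (fixSp s)
      have h10 : (Φ.perp (fixSp s)).map k.1.toLinearMap ≤ fixSp s := by
        rintro _ ⟨x, hx, rfl⟩
        have := hk x
        rw [h6 x hx, h8, map_neg, neg_smul, one_smul, neg_inj] at this
        exact mem_fixSp.2 this.symm
      have h11 : (fixSp s).map k.1.toLinearMap ≤ Φ.perp (fixSp s) := by
        rintro _ ⟨x, hx, rfl⟩ y hy
        have h11 := hk x
        have h12 := s.2.1 y (k.1 x)
        rw [mem_fixSp.1 hx, h8, neg_smul, one_smul, ← neg_eq_iff_eq_neg] at h11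
        rw [mem_fixSp.1 hy, ← h11, map_neg] at h12
        exact mul_left_cancel₀ h2 (by simp only [LinearEquiv.coe_coe]; linear_combination -h12)
      have := Submodule.finrank_mono h10
      have := Submodule.finrank_mono h11
      rw [LinearEquiv.finrank_map_eq] at *
      rw [dickson_apply, show finrank F (fixSp s) = M by omega, hV, (hM.add (even_two_mul M)).neg_one_pow]
        at h1
      exact absurd h1 (by decide)
  · have h8 : ∀ e : F, e * e = l → Φ.TotSing (Module.End.eigenspace g.1.toLinearMap e) := fun e he => by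
      have h8 : ∀ x ∈ Module.End.eigenspace g.1.toLinearMap e,
          ∀ y ∈ Module.End.eigenspace g.1.toLinearMap e, Φ.B x y = 0 := fun x hx y hy => by
        have := hB x y
        rw [Module.End.mem_eigenspace_iff, LinearEquiv.coe_coe] at hx hy
        rw [hx, hy, B_smul_left, B_smul_right, RingHom.id_apply, ← mul_assoc, he, h4] at this
        exact mul_left_cancel₀ (mul_ne_zero h2 (mult hΦ g).ne_zero) (by linear_combination -this)
      exact ⟨h8, fun x hx => mul_left_cancel₀ h2 (by rw [← B_self_quad hκ, h8 x hx x hx, mul_zero])⟩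
    have h9 : Module.End.eigenspace g.1.toLinearMap d ⊔ Module.End.eigenspace g.1.toLinearMap (-d) = ⊤ :=
      eq_top_iff.2 fun x _ => Submodule.mem_sup.2 ⟨(2 * d)⁻¹ • (d • x + g.1 x), Submodule.smul_mem _ _ (by
        simp [h3, hd, mul_smul, add_comm]), (2 * d)⁻¹ • (d • x - g.1 x), Submodule.smul_mem _ _ (by
        simp [h3, hd, mul_smul, smul_sub, neg_add_eq_sub]), by
        rw [← smul_add, add_add_sub_cancel, ← two_smul F, smul_smul 2, inv_smul_smul₀ (mul_ne_zero h2 hd0)]⟩
    have h10 := Submodule.finrank_sup_add_finrank_inf_eq (Module.End.eigenspace g.1.toLinearMap d)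
      (Module.End.eigenspace g.1.toLinearMap (-d))
    have h11 := hΦ.two_mul_finrank_le (h8 d hd.symm)
    have h12 := hΦ.two_mul_finrank_le (h8 (-d) (by simp [hd]))
    rw [h9, finrank_top] at h10
    have h13 : finrank F (Module.End.eigenspace g.1.toLinearMap d) = M := by omega
    rw [(gpar_eq_one_iff hΦ hκ hg hV (h8 d hd.symm) h13 g).2 (by
      rw [inf_eq_right.2 (by rintro _ ⟨x, hx, rfl⟩; simp_all), LinearEquiv.finrank_map_eq, h13]
      simp)] at h1
    exact absurd h1 (by decide)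

/-- Let T = PΩ⁻_{2m+2}(F) with m ≥ 3 and |F| = q odd (form with anisotropic binary part z₁² + a z₁ z₂ + b z₂²), G = Inndiag(T), and γ an involutory graph automorphism of T (an automorphism in the image of the semisimilarity group, not inner-diagonal, of order 2). Then the G-class of γ is either a single T-class or the union of exactly two T-classes, and it is the union of two unless m is even and q ≡ 1 (mod 4). -/
theorem result {F : Type*} [Field F] [Fintype F] (hodd : Odd (Fintype.card F)) {m : ℕ} (hm : 3 ≤ m) (a b : F) (hab : (∀ z₁ z₂ : F, z₁ ^ 2 + a * z₁ * z₂ + b * z₂ ^ 2 = 0 → z₁ = 0 ∧ z₂ = 0)) (γ : MulAut (Cfsg.POmega F (Cfsg.quadFormMinus m F a b))) (hγ : Cfsg.IsGraphAutClassPOmegaMinus m a b γ) (hγ2 : orderOf γ = 2) :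
    (Cfsg.splitClassCount (Cfsg.inndiagPOmegaMinus m F a b) (Cfsg.Inn (Cfsg.POmega F (Cfsg.quadFormMinus m F a b))) γ = 1 ∨ Cfsg.splitClassCount (Cfsg.inndiagPOmegaMinus m F a b) (Cfsg.Inn (Cfsg.POmega F (Cfsg.quadFormMinus m F a b))) γ = 2) ∧ (¬ (Even m ∧ Fintype.card F % 4 = 1) → Cfsg.splitClassCount (Cfsg.inndiagPOmegaMinus m F a b) (Cfsg.Inn (Cfsg.POmega F (Cfsg.quadFormMinus m F a b))) γ = 2) := by
  have h2 := H22.two_ne_zero_of_odd_card hodd
  have hm2 : 2 ≤ m := by omega
  have hn := (neg_mem_omega_minus_iff h2 m hab).trans (pow_mod_four_eq_three hodd)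
  have hr := range_minusRep m a b
  have mo := minusModel hm2 hab
  have h3 := hγ.2.1
  have h4 : γ ^ 2 = 1 := orderOf_dvd_iff_pow_eq_one.1 hγ2.dvd
  clear hγ hγ2
  obtain ⟨c, rfl⟩ : γ ∈ mo.norms.ind.range := (range_ind_minus' hm2 hab).ge trivial
  rw [inndiagMinus_eq hm2 hab] at h3 ⊢
  have h0 : c.1.θ = 1 := by_contra fun h0 => by
    obtain ⟨p, hp⟩ := CharP.exists F
    obtain ⟨f, hp', hF⟩ := FiniteField.card F p
    have := Fact.mk hp'
    have h1 := mo.norms.orderOf_theta mo.ker_ind Nat.prime_two h4 h0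
    have h5 : (f : ℕ) / 2 ≠ 0 := (Nat.div_pos (Nat.le_of_dvd f.2 (h1 ▸ orderOf_dvd_of_card hF _))
      Nat.two_pos).ne'
    let _ := Fintype.ofFinite (GaloisField p (f / 2))
    obtain ⟨a₀, b₀, hab₀⟩ := exists_aniso (GaloisField p (f / 2))
    exact absurd (field_minus hF hm2 hab hab₀ mo hr (minusModel hm2 hab₀) Nat.prime_two
      (by rw [← Nat.card_eq_fintype_card, GaloisField.card p _ h5]) c h0 h4 rfl).1 (by decide)
  obtain ⟨g, hg⟩ := mem_range_linHom.2 h0
  obtain ⟨g, rfl⟩ : ∃ g : GO _, c = ⟨linHom g.1, g.2⟩ := ⟨⟨g, (hg ▸ c.2 : linHom g ∈ GamO _)⟩, Subtype.ext hg.symm⟩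
  have h5 := (Int.units_eq_one_or _).resolve_left
    (mt (mo.sim_mem_idg (ofQuad_κ _) (genHyp_minus hm2 hab) (finrank_minus m) (g := g)).2 h3)
  obtain ⟨h6, h7⟩ := mo.count_graph _ hr (genHyp_minus hm2 hab) (finrank_minus m) h2
    (mult_surj_minus hab m) (by omega) h5 (sq (mo.sim g) ▸ h4)
  refine ⟨h6, fun h => ?_⟩
  by_cases h8 : Even m
  · exact h7 (hn.2 ⟨h8, by have := Nat.odd_iff.1 hodd; simp [h8] at h; omega⟩)
  have h9 := mo.relIndex_pso_idg (ofQuad_κ _) (genHyp_minus hm2 hab) (finrank_minus m) h2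
    (mult_surj_minus hab m)
  have h10 := mo.pso_eq_inn (ofQuad_κ _) hr (genHyp_minus hm2 hab) (finrank_minus m) h2 fun h => h8 (hn.1 h).1
  refine (splitClassCount_eq (mo.inn_le_idg _ hr _ _) _).trans ?_
  rw [sup_eq_left.2, ← h10, h9]
  rintro _ ⟨⟨k, hk, rfl⟩, h11⟩
  obtain ⟨l, hl⟩ := mo.sim_eq_iff.1 (((map_mul _ g g).trans (sq (mo.sim g) ▸ h4)).trans
    (map_one mo.sim).symm)
  obtain ⟨d, hd⟩ := mo.sim_eq_iff.1 (((map_mul _ k g).trans
    (mem_centralizer_singleton_iff.1 h11)).trans (map_mul _ g k).symm)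
  exact h10 ▸ (mo.sim_mem_pso _ _ (finrank_minus m)).2 ⟨hk, sqm_eq_one _ _ _ (finrank_minus m) h2
    (Nat.even_add_one.2 h8) h5 (hl.trans (mul_one _)) hd⟩

end Cfsg.Agent.S2719
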