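import Cfsg.Statements.S2722
import Cfsg.Agent.H22.FldH

set_option autoImplicit false
open Cfsg

namespace Cfsg.Agent.S2722

/-- Let T = PΩ⁺_{2m}(F) with m ≥ 4 and |F| = q odd. Inside Aut(T), the image G̃ of the conformal orthogonal group of the form modulo the image of the special orthogonal group is elementary abelian of order 4. -/
theorem result {F : Type*} [Field F] [Fintype F] (hodd : Odd (Fintype.card F)) {m : ℕ} (hm : 4 ≤ m) :
    (∃ φ : ↥(Cfsg.pgoAut F (Cfsg.quadFormPlus m F)) →* Multiplicative (ZMod 2 × ZMod 2), Function.Surjective φ ∧ φ.ker = (Cfsg.psoAut F (Cfsg.quadFormPlus m F)).subgroupOf (Cfsg.pgoAut F (Cfsg.quadFormPlus m F))) := by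
  have : Nonempty (Fin m) := ⟨⟨0, by omega⟩⟩
  have h2 := H22.two_ne_zero_of_odd_card hodd
  have hm3 : 3 ≤ m := by omega
  have hn := (H22.neg_mem_omega_plus_iff h2 m).trans (H22.pow_mod_four_eq_one hodd)
  have hp := H22.psoPlus_eq hm3 h2
  have hg := H22.pgoPlus_eq (F := F) hm3
  have hr := H22.range_plusRep F m
  rw [hp, hg]
  exact (H22.plusModel F hm3).exists_klein_pso _ _ (H22.finrank_plus m) h2 (H22.mult_surj_plus m)

end Cfsg.Agent.S2722
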