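import Cfsg.Statements.S2723
import Cfsg.Agent.H22.FldH

set_option autoImplicit false
open Cfsg

namespace Cfsg.Agent.S2723

/-- Let T = PΩ⁺_{2m}(F) with m ≥ 4 and |F| = q odd. The image of the special orthogonal group in Aut(T) contains the inner automorphism group T with index 1 (they coincide) when m is odd and q ≡ 3 (mod 4), and with index 2 otherwise (the index is 2 exactly when the discriminant of the form is a square). -/
theorem result {F : Type*} [Field F] [Fintype F] (hodd : Odd (Fintype.card F)) {m : ℕ} (hm : 4 ≤ m) :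
    ((Odd m ∧ Fintype.card F % 4 = 3) → (Cfsg.Inn (Cfsg.POmega F (Cfsg.quadFormPlus m F))).relIndex (Cfsg.psoAut F (Cfsg.quadFormPlus m F)) = 1) ∧ (¬ (Odd m ∧ Fintype.card F % 4 = 3) → (Cfsg.Inn (Cfsg.POmega F (Cfsg.quadFormPlus m F))).relIndex (Cfsg.psoAut F (Cfsg.quadFormPlus m F)) = 2) := by
  have : Nonempty (Fin m) := ⟨⟨0, by omega⟩⟩
  have h2 := H22.two_ne_zero_of_odd_card hodd
  have hm3 : 3 ≤ m := by omega
  have hn := (H22.neg_mem_omega_plus_iff h2 m).trans (H22.pow_mod_four_eq_one hodd)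
  have hp := H22.psoPlus_eq hm3 h2
  have hr := H22.range_plusRep F m
  rw [hp]
  refine ⟨fun h => ?_, fun h => (H22.plusModel F hm3).relIndex_pso_of_mem _ hr _ h2
    (by simp; omega) fun s _ h' => (Subgroup.mul_mem_cancel_left _ (hn.2 h)).1 h'⟩
  rw [(H22.plusModel F hm3).pso_eq_inn _ hr _ (H22.finrank_plus m) h2 fun h' => hn.1 h' h]
  exact Subgroup.relIndex_self _

end Cfsg.Agent.S2723
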