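import Cfsg.Statements.S2724
import Cfsg.Agent.H22.FldH

set_option autoImplicit false
open Cfsg

namespace Cfsg.Agent.S2724

/-- Let T = PΩ⁺_{2m}(F) with m ≥ 4 and |F| = q odd. The image G̃ of the conformal orthogonal group in Aut(T), taken modulo the inner automorphism group T, is elementary abelian of order 4 when m is odd and q ≡ 3 (mod 4), and dihedral of order 8 otherwise. -/
theorem result {F : Type*} [Field F] [Fintype F] (hodd : Odd (Fintype.card F)) {m : ℕ} (hm : 4 ≤ m) :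
    ((Odd m ∧ Fintype.card F % 4 = 3) → (∃ φ : ↥(Cfsg.pgoAut F (Cfsg.quadFormPlus m F)) →* Multiplicative (ZMod 2 × ZMod 2), Function.Surjective φ ∧ φ.ker = (Cfsg.Inn (Cfsg.POmega F (Cfsg.quadFormPlus m F))).subgroupOf (Cfsg.pgoAut F (Cfsg.quadFormPlus m F)))) ∧ (¬ (Odd m ∧ Fintype.card F % 4 = 3) → (∃ φ : ↥(Cfsg.pgoAut F (Cfsg.quadFormPlus m F)) →* DihedralGroup 4, Function.Surjective φ ∧ φ.ker = (Cfsg.Inn (Cfsg.POmega F (Cfsg.quadFormPlus m F))).subgroupOf (Cfsg.pgoAut F (Cfsg.quadFormPlus m F)))) := by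
  have : Nonempty (Fin m) := ⟨⟨0, by omega⟩⟩
  have h2 := H22.two_ne_zero_of_odd_card hodd
  have hm3 : 3 ≤ m := by omega
  have hn := (H22.neg_mem_omega_plus_iff h2 m).trans (H22.pow_mod_four_eq_one hodd)
  have hg := H22.pgoPlus_eq (F := F) hm3
  have hr := H22.range_plusRep F m
  rw [hg]
  refine ⟨fun h => ?_, fun h => (H22.plusModel F hm3).exists_d8 (H23.Form.ofQuad_κ _) hr
    (H22.genHyp_plus' F hm3) (H22.finrank_plus m) h2 (H22.mult_surj_plus m) (hn.2 h) (by omega)⟩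
  have := (H22.plusModel F hm3).exists_klein_pso (H23.Form.ofQuad_κ _) (H22.genHyp_plus' F hm3)
    (H22.finrank_plus m) h2 (H22.mult_surj_plus m)
  rwa [(H22.plusModel F hm3).pso_eq_inn _ hr _ (H22.finrank_plus m) h2 fun h' => hn.1 h' h] at this

end Cfsg.Agent.S2724
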