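import Cfsg.Statements.S2725
import Cfsg.Agent.H22.FldH

set_option autoImplicit false
open Cfsg

namespace Cfsg.Agent.S2725

/-- Let T = PΩ⁺_{2m}(F) with m ≥ 4 and |F| = q odd. The inner-diagonal group G = Inndiag(T) (image of the class-preserving similarities) taken modulo the inner automorphism group T is cyclic of order 2 when m is odd and q ≡ 3 (mod 4), cyclic of order 4 when m is odd and q ≡ 1 (mod 4), and elementary abelian of order 4 when m is even. -/
theorem result {F : Type*} [Field F] [Fintype F] (hodd : Odd (Fintype.card F)) {m : ℕ} (hm : 4 ≤ m) :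
    ((Odd m ∧ Fintype.card F % 4 = 3) → (∃ φ : ↥(Cfsg.inndiagPOmegaPlus m F) →* Multiplicative (ZMod 2), Function.Surjective φ ∧ φ.ker = (Cfsg.Inn (Cfsg.POmega F (Cfsg.quadFormPlus m F))).subgroupOf (Cfsg.inndiagPOmegaPlus m F))) ∧ ((Odd m ∧ Fintype.card F % 4 = 1) → (∃ φ : ↥(Cfsg.inndiagPOmegaPlus m F) →* Multiplicative (ZMod 4), Function.Surjective φ ∧ φ.ker = (Cfsg.Inn (Cfsg.POmega F (Cfsg.quadFormPlus m F))).subgroupOf (Cfsg.inndiagPOmegaPlus m F))) ∧ (Even m → (∃ φ : ↥(Cfsg.inndiagPOmegaPlus m F) →* Multiplicative (ZMod 2 × ZMod 2), Function.Surjective φ ∧ φ.ker = (Cfsg.Inn (Cfsg.POmega F (Cfsg.quadFormPlus m F))).subgroupOf (Cfsg.inndiagPOmegaPlus m F))) := by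
  have : Nonempty (Fin m) := ⟨⟨0, by omega⟩⟩
  have h2 := H22.two_ne_zero_of_odd_card hodd
  have hm3 : 3 ≤ m := by omega
  have hn := (H22.neg_mem_omega_plus_iff h2 m).trans (H22.pow_mod_four_eq_one hodd)
  have hr := H22.range_plusRep F m
  rw [H22.inndiagPlus_eq hm3]
  obtain ⟨ν, hν⟩ := FiniteField.exists_nonsquare (H22.ringChar_ne_two h2)
  obtain ⟨δ, h3, h4, h5⟩ := H22.exists_invol_plus hm3 (Units.mk0 ν (by rintro rfl; simp at hν))
  have h6 : H22.sqm (H22.qPlus_nondeg m) δ = -1 := by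
    rw [H22.sqm_apply, h4]; exact H22.sqc_of_not hν
  refine ⟨fun h => ?_, fun h => (H22.plusModel F hm3).exists_four_idg _ hr _ _ h2
    (H22.mult_surj_plus m) (hn.2 (by omega)) (by omega) h3 h6 ((Int.units_eq_one_or _).resolve_left
      fun h' => Nat.not_even_iff_odd.2 h.1 (h5.1 h')), fun h =>
    (H22.plusModel F hm3).exists_klein_idg _ hr _ _ h2 (H22.mult_surj_plus m)
      (hn.2 fun h' => Nat.not_even_iff_odd.2 h'.1 h) (by omega) h3 h6 (h5.2 h)⟩
  have := (H22.plusModel F hm3).relIndex_pso_idg (H23.Form.ofQuad_κ _) (H22.genHyp_plus' F hm3)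
    (H22.finrank_plus m) h2 (H22.mult_surj_plus m)
  rw [(H22.plusModel F hm3).pso_eq_inn _ hr _ (H22.finrank_plus m) h2 fun h' => hn.1 h' h] at this
  exact H22.exists_hom_two this

end Cfsg.Agent.S2725
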