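import Cfsg.Statements.S2726
import Cfsg.Agent.H22.FldH

set_option autoImplicit false
open Cfsg

namespace Cfsg.Agent.S2726

/-- Let T = PΩ⁻_{2m+2}(F) with m ≥ 3 and |F| = q odd (form with anisotropic binary part). Inside Aut(T), the image G̃ of the conformal orthogonal group of the form modulo the image of the special orthogonal group is elementary abelian of order 4. -/
theorem result {F : Type*} [Field F] [Fintype F] (hodd : Odd (Fintype.card F)) {m : ℕ} (hm : 3 ≤ m) (a b : F) (hab : (∀ z₁ z₂ : F, z₁ ^ 2 + a * z₁ * z₂ + b * z₂ ^ 2 = 0 → z₁ = 0 ∧ z₂ = 0)) :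
    (∃ φ : ↥(Cfsg.pgoAut F (Cfsg.quadFormMinus m F a b)) →* Multiplicative (ZMod 2 × ZMod 2), Function.Surjective φ ∧ φ.ker = (Cfsg.psoAut F (Cfsg.quadFormMinus m F a b)).subgroupOf (Cfsg.pgoAut F (Cfsg.quadFormMinus m F a b))) := by
  have h2 := H22.two_ne_zero_of_odd_card hodd
  have hm2 : 2 ≤ m := by omega
  have hn := (H22.neg_mem_omega_minus_iff h2 m hab).trans (H22.pow_mod_four_eq_three hodd)
  have hp := H22.psoMinus_eq hm2 hab h2
  have hg := H22.pgoMinus_eq hm2 hab
  have hr := H22.range_minusRep m a b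
  rw [hp, hg]
  exact (H22.minusModel hm2 hab).exists_klein_pso _ _ (H22.finrank_minus m) h2
    (H22.mult_surj_minus hab m)

end Cfsg.Agent.S2726
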