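import Cfsg.Statements.S2727
import Cfsg.Agent.H22.FldH

set_option autoImplicit false
open Cfsg

namespace Cfsg.Agent.S2727

/-- Let T = PΩ⁻_{2m+2}(F) with m ≥ 3 and |F| = q odd (form with anisotropic binary part). The image of the special orthogonal group in Aut(T) contains the inner automorphism group T with index 2 when m is even and q ≡ 3 (mod 4), and coincides with it otherwise (the index is 2 exactly when the discriminant of the form is a square). -/
theorem result {F : Type*} [Field F] [Fintype F] (hodd : Odd (Fintype.card F)) {m : ℕ} (hm : 3 ≤ m) (a b : F) (hab : (∀ z₁ z₂ : F, z₁ ^ 2 + a * z₁ * z₂ + b * z₂ ^ 2 = 0 → z₁ = 0 ∧ z₂ = 0)) :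
    ((Even m ∧ Fintype.card F % 4 = 3) → (Cfsg.Inn (Cfsg.POmega F (Cfsg.quadFormMinus m F a b))).relIndex (Cfsg.psoAut F (Cfsg.quadFormMinus m F a b)) = 2) ∧ (¬ (Even m ∧ Fintype.card F % 4 = 3) → (Cfsg.Inn (Cfsg.POmega F (Cfsg.quadFormMinus m F a b))).relIndex (Cfsg.psoAut F (Cfsg.quadFormMinus m F a b)) = 1) := by
  have h2 := H22.two_ne_zero_of_odd_card hodd
  have hm2 : 2 ≤ m := by omega
  have hn := (H22.neg_mem_omega_minus_iff h2 m hab).trans (H22.pow_mod_four_eq_three hodd)
  have hp := H22.psoMinus_eq hm2 hab h2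
  have hr := H22.range_minusRep m a b
  rw [hp]
  refine ⟨fun h => (H22.minusModel hm2 hab).relIndex_pso_of_mem _ hr _ h2
    (by simp) fun s _ h' => (Subgroup.mul_mem_cancel_left _ (hn.2 h)).1 h', fun h => ?_⟩
  rw [(H22.minusModel hm2 hab).pso_eq_inn _ hr _ (H22.finrank_minus m) h2 fun h' => h (hn.1 h')]
  exact Subgroup.relIndex_self _

end Cfsg.Agent.S2727
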