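import Cfsg.Statements.S2728
import Cfsg.Agent.H22.FldH

set_option autoImplicit false
open Cfsg

namespace Cfsg.Agent.S2728

/-- Let T = PΩ⁻_{2m+2}(F) with m ≥ 3 and |F| = q odd (form with anisotropic binary part). The image G̃ of the conformal orthogonal group in Aut(T), taken modulo the inner automorphism group T, is dihedral of order 8 when m is even and q ≡ 3 (mod 4), and elementary abelian of order 4 otherwise. -/
theorem result {F : Type*} [Field F] [Fintype F] (hodd : Odd (Fintype.card F)) {m : ℕ} (hm : 3 ≤ m) (a b : F) (hab : (∀ z₁ z₂ : F, z₁ ^ 2 + a * z₁ * z₂ + b * z₂ ^ 2 = 0 → z₁ = 0 ∧ z₂ = 0)) :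
    ((Even m ∧ Fintype.card F % 4 = 3) → (∃ φ : ↥(Cfsg.pgoAut F (Cfsg.quadFormMinus m F a b)) →* DihedralGroup 4, Function.Surjective φ ∧ φ.ker = (Cfsg.Inn (Cfsg.POmega F (Cfsg.quadFormMinus m F a b))).subgroupOf (Cfsg.pgoAut F (Cfsg.quadFormMinus m F a b)))) ∧ (¬ (Even m ∧ Fintype.card F % 4 = 3) → (∃ φ : ↥(Cfsg.pgoAut F (Cfsg.quadFormMinus m F a b)) →* Multiplicative (ZMod 2 × ZMod 2), Function.Surjective φ ∧ φ.ker = (Cfsg.Inn (Cfsg.POmega F (Cfsg.quadFormMinus m F a b))).subgroupOf (Cfsg.pgoAut F (Cfsg.quadFormMinus m F a b)))) := by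
  have h2 := H22.two_ne_zero_of_odd_card hodd
  have hm2 : 2 ≤ m := by omega
  have hn := (H22.neg_mem_omega_minus_iff h2 m hab).trans (H22.pow_mod_four_eq_three hodd)
  have hg := H22.pgoMinus_eq hm2 hab
  have hr := H22.range_minusRep m a b
  rw [hg]
  refine ⟨fun h => ?_, fun h => ?_⟩
  · have := (H22.minusModel hm2 hab).exists_d8 (H23.Form.ofQuad_κ _) hr
      (H22.genHyp_minus hm2 hab) (H22.finrank_minus m) h2 (H22.mult_surj_minus hab m) (hn.2 h)
      (by omega)
    exact this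
  have := (H22.minusModel hm2 hab).exists_klein_pso (H23.Form.ofQuad_κ _) (H22.genHyp_minus hm2 hab)
    (H22.finrank_minus m) h2 (H22.mult_surj_minus hab m)
  rw [(H22.minusModel hm2 hab).pso_eq_inn _ hr _ (H22.finrank_minus m) h2
    fun h' => h (hn.1 h')] at this
  exact this

end Cfsg.Agent.S2728
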