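import Cfsg.Statements.S2734
import Cfsg.Agent.H24.Fold
import Cfsg.Agent.H24.Sym

set_option autoImplicit false
set_option maxHeartbeats 400000
open Cfsg

namespace Cfsg.Agent.S2734

/-- In the Chevalley group of type D₄ over a finite field F (the matrix group generated by the root elements), a graph automorphism attached to a symmetry π of the Dynkin diagram (sending each fundamental root element x_p(t) to x_{π(p)}(t) and each x_{−p}(t) to x_{−π(p)}(t)) that has order 3 — a standard triality graph automorphism, π being a 3-cycle of the three outer nodes — has fixed-point subgroup isomorphic to the Chevalley group of type G₂ over F. -/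
theorem result {F : Type*} [Field F] [Fintype F] (τ : MulAut ↥(Cfsg.Lie.chevD4.group F)) (hτ : Cfsg.Lie.chevD4.IsGraphAut τ) (hτ3 : orderOf τ = 3) :
    Nonempty (↥(MonoidHom.eqLocus τ.toMonoidHom (MonoidHom.id ↥(Cfsg.Lie.chevD4.group F))) ≃* ↥(Cfsg.Lie.chevG2.group F)) := by
  obtain ⟨π, h2, h3⟩ := H24.tabD4_chk.permS_of_graph H24.slD4 hτ
  have hz : H24.tabD4_chk.PermS (H24.D4.z (RingHom.id F) fun _ => rfl).σ H24.D4.π :=
    H24.tabD4_chk.permS_tw _ _ _ _ _ (by decide +kernel)
  have h4 : π * π ≠ 1 := fun e => by
    have : τ ^ 2 = 1 := MulEquiv.toMonoidHom_injective ((e ▸ h3.comp h3).ext H24.Tab.Chk.permS_one)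
    have := orderOf_dvd_of_pow_eq_one this
    rw [hτ3] at this
    omega
  have h5 : π = H24.D4.π ∨ π * π = H24.D4.π := by
    have := H24.symD4 h2
    clear h2 h3
    revert π
    decide +kernel
  have : MonoidHom.eqLocus τ.toMonoidHom (MonoidHom.id _) = (H24.D4.z (RingHom.id F) fun _ => rfl).Fx := by
    ext g
    rw [H24.Tw.mem_Fx]
    rcases h5 with e | e
    · rw [← e] at hz
      rw [← h3.ext hz]; rfl
    · rw [← e] at hz
      rw [← (h3.comp h3).ext hz]
      refine ⟨fun h : τ g = g => show τ (τ g) = g by rw [h, h], fun h : τ (τ g) = g => show τ g = g from ?_⟩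
      have : (τ ^ 3) g = g := by rw [← hτ3, pow_orderOf_eq_one]; rfl
      exact (congrArg τ h.symm).trans this
  rw [this]
  exact H24.foldD4 F

end Cfsg.Agent.S2734
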