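import Cfsg.Statements.S2735
import Cfsg.Agent.H22.FldK

set_option autoImplicit false
open Cfsg

namespace Cfsg.Agent.S2735

/-- Let T = Ω_{2m+1}(F) (m ≥ 3, |F| odd) and x a field automorphism of T of prime order r. Then an element y of the coset Inndiag(T)·x (y = δ x with δ induced by a similarity of the form) has order r if and only if y is conjugate to x by an element of Inndiag(T). (T has no graph or graph-field automorphisms.) -/
theorem result {F : Type*} [Field F] [Fintype F] (hodd : Odd (Fintype.card F)) {m : ℕ} (hm : 3 ≤ m) (x δ : MulAut (Cfsg.POmega F (Cfsg.quadFormOdd m F))) (hx : Cfsg.IsFieldAutClassPOmega (Cfsg.quadFormOdd m F) x) {r : ℕ} (hr : r.Prime) (hxr : orderOf x = r) (hδ : δ ∈ Cfsg.inndiagPOmegaOdd m F) :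
    orderOf (δ * x) = r ↔ Cfsg.IsConjUnder (Cfsg.inndiagPOmegaOdd m F) x (δ * x) := by
  obtain ⟨α, φ, θ, h0, h, h1⟩ := hx
  have h2 := H22.two_ne_zero_of_odd_card hodd
  have hm2 : 2 ≤ m := by omega
  rw [(H22.field_odd_iff h2 hm2).1 h] at h1
  have := (H22.oddModel h2 hm2).norms.normal_range_lind (fun _ h => h) H22.slAut_mem_GO
    (H22.range_ind_odd' h2 hm2)
  rw [H22.inndiagOdd_eq h2 hm2] at hδ ⊢
  refine H22.coset_conj_of (α := α) hxr ?_ hδ
  rw [h1]
  exact (H22.oddModel h2 hm2).coset_odd rfl (M := m) (by simp; omega) _ hr h0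
    (by rw [← h1, conj_pow, ← hxr, pow_orderOf_eq_one]; simp)

end Cfsg.Agent.S2735
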