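import Cfsg.Statements.S2736
import Cfsg.Agent.H22.FldK

set_option autoImplicit false
open Cfsg

namespace Cfsg.Agent.S2736

/-- Let T = PΩ⁺_{2m}(F) with m ≥ 5 (dimension ≠ 8) and x a field automorphism or a graph-field automorphism of T of prime order r. Then an element y of the coset Inndiag(T)·x (y = δ x with δ induced by a class-preserving similarity) has order r if and only if y is conjugate to x by an element of Inndiag(T). -/
theorem result {F : Type*} [Field F] [Fintype F] {m : ℕ} (hm : 5 ≤ m) (x δ : MulAut (Cfsg.POmega F (Cfsg.quadFormPlus m F))) (hx : Cfsg.IsFieldAutClassPOmega (Cfsg.quadFormPlus m F) x ∨ Cfsg.IsGraphFieldAutClassPOmegaPlus m x) {r : ℕ} (hr : r.Prime) (hxr : orderOf x = r) (hδ : δ ∈ Cfsg.inndiagPOmegaPlus m F) :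
    orderOf (δ * x) = r ↔ Cfsg.IsConjUnder (Cfsg.inndiagPOmegaPlus m F) x (δ * x) := by
  have hm3 : 3 ≤ m := by omega
  have : Nonempty (Fin m) := ⟨⟨0, by omega⟩⟩
  obtain ⟨α, c, h0, h1⟩ : ∃ (α : _) (c : H22.GamO _), c.1.θ ≠ 1 ∧
      α * x * α⁻¹ = (H22.plusModel F hm3).norms.ind c := by
    rcases hx with ⟨α, φ, θ, h0, h, h1⟩ | hx
    · exact ⟨α, ⟨H22.stdSL _ θ, 1, H22.stdSL_qPlus m θ⟩, h0, h1.trans ((H22.field_plus_iff hm3).1 h)⟩
    · obtain ⟨α, θ, h0, g, -, h1⟩ := H22.gf_class hm3 ⟨0, by omega⟩ hx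
      exact ⟨α, _, h0, h1⟩
  rw [H22.inndiagPlus_eq hm3] at hδ ⊢
  have := (H22.plusModel F hm3).normal_idg (H23.Form.ofQuad_κ _) (H22.genHyp_plus' F hm3)
    (H22.finrank_plus m) (H22.range_ind_plus' hm3 hm)
  refine H22.coset_conj_of (α := α) hxr ?_ hδ
  rw [h1]
  exact (H22.plusModel F hm3).coset_even _ _ _ c hr h0
    (by rw [← h1, conj_pow, ← hxr, pow_orderOf_eq_one]; simp)

end Cfsg.Agent.S2736
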