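import Cfsg.Statements.S2738
import Cfsg.Agent.H7.SchA

set_option autoImplicit false
open Cfsg

namespace Cfsg.Agent.S2738



/-- The special linear group SL(3, 4) has centre of order 3 and does not split over it: no subgroup is a complement to the centre (so SL(3, 4) is a non-split central extension of PSL(3, 4) by a group of order 3). -/
theorem result (F : Type*) [Field F] [Fintype F] (hF : Fintype.card F = 4) : Nat.card ↥(Subgroup.center (Matrix.SpecialLinearGroup (Fin 3) F)) = 3 ∧ ¬ ∃ K : Subgroup (Matrix.SpecialLinearGroup (Fin 3) F), Subgroup.IsComplement' (Subgroup.center (Matrix.SpecialLinearGroup (Fin 3) F)) K := by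
  have h := H22.card_center_SL (F := F) 3 (by decide)
  rw [hF] at h
  refine ⟨h, fun ⟨K, hK⟩ => ?_⟩
  have h1 : commutator (Matrix.SpecialLinearGroup (Fin 3) F) ≤ K := Subgroup.commutator_le.2 fun x _ y _ => by
    obtain ⟨⟨a, b⟩, rfl⟩ := hK.2 x
    obtain ⟨⟨c, d⟩, rfl⟩ := hK.2 y
    have := H8.comm_mul_center (g := (b : Matrix.SpecialLinearGroup (Fin 3) F)) (h := d) a.2 c.2
    simp only
    rw [← Subgroup.mem_center_iff.1 a.2, ← Subgroup.mem_center_iff.1 c.2, this]
    exact mul_mem (mul_mem (mul_mem b.2 d.2) (inv_mem b.2)) (inv_mem d.2)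
  rw [H22.commutator_SL_fin_eq_top 3 (by simp), top_le_iff] at h1
  have h2 := hK.disjoint
  rw [h1, disjoint_top] at h2
  rw [h2, Subgroup.card_bot] at h
  exact absurd h (by decide)

end Cfsg.Agent.S2738
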