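import Cfsg.Statements.S2739
import Cfsg.Agent.S2388
import Cfsg.Agent.H22.IsoE

set_option autoImplicit false
open scoped Pointwise
open Cfsg

namespace Cfsg.Agent.S2739


open Matrix Polynomial in
theorem aux {F : Type*} [Field F] [Fintype F] (hF : Fintype.card F = 4)
    (g : Matrix (Fin 3) (Fin 3) F) (hd : g.det = 1) {c : F} (e1 : g ^ 3 = c • 1)
    (ns : ∀ a b : F, a • g = b • 1 → a = 0 ∧ b = 0) : c = 1 ∧ g.charpoly = X ^ 3 - 1 := by
  have ch := aeval_self_charpoly g
  have d : g.charpoly.natDegree = 3 := by simp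
  have m : g.charpoly.coeff 3 = 1 := by have := g.charpoly_monic.coeff_natDegree; rwa [d] at this
  have c0 : g.charpoly.coeff 0 = -1 := by
    have := det_eq_sign_charpoly_coeff g
    rw [hd, Fintype.card_fin] at this
    linear_combination this
  rw [aeval_eq_sum_range, d] at ch
  simp only [Finset.sum_range_succ, Finset.range_zero, Finset.sum_empty, m, c0, e1] at ch
  have t : g.charpoly.coeff 2 = 0 := by
    by_contra t
    generalize g.charpoly.coeff 2 = s at ch t
    generalize g.charpoly.coeff 1 = r at ch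
    obtain ⟨h3, h4⟩ := ns (r ^ 2 + s * (1 - c)) (c * s ^ 2 + r * (1 - c)) (by
      have c2 := congrArg (g * ·) ch
      simp only [mul_add, mul_smul_comm, mul_one, ← pow_succ', e1, mul_zero, pow_zero, pow_one, ← pow_two] at c2 ch
      linear_combination (norm := module) r • ch - s • c2)
    have c1 : c ≠ 0 := by rintro rfl; simpa [hd] using congrArg det e1
    have r0 : r ≠ 0 := by rintro rfl; simp [c1, t] at h4
    have h5 := FiniteField.pow_card_sub_one_eq_one r r0
    have h6 := FiniteField.pow_card_sub_one_eq_one s t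
    rw [hF] at h5 h6
    have h7 : c * s ^ 3 = r ^ 3 := by linear_combination s * h4 - r * h3
    rw [h5, h6, mul_one] at h7
    simp [h7, r0] at h3
  rw [t] at ch
  obtain ⟨h3, h4⟩ := ns (g.charpoly.coeff 1) (1 - c) (by
    simp only [pow_one, pow_zero] at ch
    linear_combination (norm := module) ch)
  refine ⟨(sub_eq_zero.1 h4).symm, ?_⟩
  rw [g.charpoly.as_sum_range_C_mul_X_pow, d]
  simp [Finset.sum_range_succ, m, c0, t, h3, sub_eq_neg_add]

open Matrix MatrixGroups Polynomial in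
theorem lift {F : Type*} [Field F] [Fintype F] (hF : Fintype.card F = 4) (g : SL(3, F))
    (hx : orderOf (g : PSL(3, F)) = 3) : g ^ 3 = 1 ∧ g.1.charpoly = X ^ 3 - 1 := by
  have h1 : g ^ 3 ∈ Subgroup.center _ := by
    rw [← QuotientGroup.eq_one_iff, QuotientGroup.mk_pow, ← orderOf_dvd_iff_pow_eq_one, hx]
  obtain ⟨c, -, e⟩ := Matrix.SpecialLinearGroup.mem_center_iff.1 h1
  have e1 : g.1 ^ 3 = c • 1 := by rw [← Matrix.SpecialLinearGroup.coe_pow, ← e, scalar_apply, smul_one_eq_diagonal]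
  obtain ⟨rfl, h3⟩ := aux hF g.1 g.2 e1 fun a b h => by
    by_cases h0 : a = 0
    · exact ⟨h0, by simpa [h0] using congrFun (congrFun h 0) 0 |>.symm⟩
    have : g.1 = (a⁻¹ * b) • 1 := by rw [← smul_smul, ← h, smul_smul, inv_mul_cancel₀ h0, one_smul]
    have h3 : g ∈ Subgroup.center _ := Subgroup.mem_center_iff.2 fun h => Subtype.ext (by simp [this])
    rw [(QuotientGroup.eq_one_iff _).2 h3] at hx
    simp at hx
  exact ⟨Subtype.ext (by rw [Matrix.SpecialLinearGroup.coe_pow, e1, one_smul]; rfl), h3⟩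

/-- In the projective special linear group PSL(3, 4) all subgroups of order 3 are conjugate. -/
theorem result (F : Type*) [Field F] [Fintype F] (hF : Fintype.card F = 4) (X Y : Subgroup (Matrix.ProjectiveSpecialLinearGroup (Fin 3) F)) (hX : Nat.card ↥X = 3) (hY : Nat.card ↥Y = 3) : ∃ g : Matrix.ProjectiveSpecialLinearGroup (Fin 3) F, MulAut.conj g • X = Y := by
  have h2 : (2 : F) = 0 := by
    by_contra h
    exact absurd (hF ▸ H22.odd_card_of_two_ne_zero h) (by decide)
  have : CharP F 2 := CharTwo.of_one_ne_zero_of_two_eq_zero one_ne_zero h2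
  have : Fact (Nat.Prime 3) := ⟨by norm_num⟩
  have gen : ∀ X : Subgroup (Matrix.ProjectiveSpecialLinearGroup (Fin 3) F), Nat.card X = 3 →
      ∃ g : Matrix.SpecialLinearGroup (Fin 3) F, Subgroup.zpowers (g : Matrix.ProjectiveSpecialLinearGroup (Fin 3) F) = X ∧
        (orderOf g).Coprime 2 ∧ g.1.charpoly = Polynomial.X ^ 3 - 1 := fun X hX => by
    obtain ⟨x, rfl⟩ := (Subgroup.isCyclic_iff_exists_zpowers_eq_top X).1 (isCyclic_of_prime_card hX)
    obtain ⟨g, rfl⟩ := QuotientGroup.mk_surjective x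
    obtain ⟨h3, h4⟩ := lift hF g ((Nat.card_zpowers _).symm.trans hX)
    exact ⟨g, rfl, Nat.Coprime.coprime_dvd_left (orderOf_dvd_of_pow_eq_one h3) (by norm_num), h4⟩
  obtain ⟨g, rfl, h3, h4⟩ := gen X hX
  obtain ⟨h, rfl, h5, h6⟩ := gen Y hY
  obtain ⟨c, rfl⟩ := isConj_iff.1 (S2388.result 2 3 g h h3 h5 (h4.trans h6.symm))
  exact ⟨c, MonoidHom.map_zpowers _ _⟩

end Cfsg.Agent.S2739
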