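import Cfsg.Statements.S2762
import Cfsg.Agent.H12.QdX

set_option autoImplicit false
open Cfsg

namespace Cfsg.Agent.S2762

open H12 Subgroup H4

/-- Structure of Qd over a finite field F of characteristic p (the affine subgroup of SL₃(F)): its largest normal p-subgroup is the group of translations (matrices with upper-left block the identity), the block-diagonal matrices form a complement isomorphic to SL₂(F), and the translation subgroup is a natural SL₂(F)-module for that complement. -/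
theorem result {F : Type*} [Field F] [Fintype F] {p : ℕ} [Fact p.Prime] [CharP F p] : (∀ M : ↥(Cfsg.qdOver F), M ∈ Cfsg.pCore p ↥(Cfsg.qdOver F) ↔ ((M : Matrix.SpecialLinearGroup (Fin 3) F) : Matrix (Fin 3) (Fin 3) F) 0 0 = 1 ∧ ((M : Matrix.SpecialLinearGroup (Fin 3) F) : Matrix (Fin 3) (Fin 3) F) 0 1 = 0 ∧ ((M : Matrix.SpecialLinearGroup (Fin 3) F) : Matrix (Fin 3) (Fin 3) F) 1 0 = 0 ∧ ((M : Matrix.SpecialLinearGroup (Fin 3) F) : Matrix (Fin 3) (Fin 3) F) 1 1 = 1) ∧ ∃ K : Subgroup ↥(Cfsg.qdOver F), (∀ M : ↥(Cfsg.qdOver F), M ∈ K ↔ ((M : Matrix.SpecialLinearGroup (Fin 3) F) : Matrix (Fin 3) (Fin 3) F) 0 2 = 0 ∧ ((M : Matrix.SpecialLinearGroup (Fin 3) F) : Matrix (Fin 3) (Fin 3) F) 1 2 = 0) ∧ K ⊓ Cfsg.pCore p ↥(Cfsg.qdOver F) = ⊥ ∧ K ⊔ Cfsg.pCore p ↥(Cfsg.qdOver F) = ⊤ ∧ Nonempty (↥K ≃* Matrix.SpecialLinearGroup (Fin 2) F) ∧ Cfsg.IsNaturalSL2Module F (Cfsg.pCore p ↥(Cfsg.qdOver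 F)) K := by
  rw [pCore_qd]
  let ι : Matrix.SpecialLinearGroup (Fin 2) F →* qdOver F := MonoidHom.mk' (fun M => af M 0)
    fun M N => by rw [af_mul, smul_zero, add_zero]
  have hι : Function.Injective ι := fun M N h => (af_inj.1 h).1
  let τ : Multiplicative (Fin 2 → F) →* qV F := MonoidHom.mk'
    (fun v => ⟨af 1 v.toAdd, mem_qV.2 ⟨_, rfl⟩⟩) fun v w => Subtype.ext (af_one_add _ _)
  have hτ : Function.Bijective τ := ⟨fun v w h => (af_inj.1 (congrArg Subtype.val h)).2,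
    fun ⟨x, hx⟩ => let ⟨v, h⟩ := mem_qV.1 hx; ⟨v, Subtype.ext h⟩⟩
  have hinf : ι.range ⊓ qV F = ⊥ := by
    refine eq_bot_iff.2 ?_
    rintro _ ⟨⟨M, rfl⟩, h⟩
    rw [af_mem_qV.1 h, map_one]; exact one_mem _
  refine ⟨fun X => ?_, ι.range, fun X => ?_, hinf, eq_top_iff.2 fun X _ => ?_,
    ⟨(MonoidHom.ofInjective hι).symm⟩, le_normalizer_of_normal, qlin.comp ι.range.subtype,
    (MulEquiv.toAdditiveLeft (MulEquiv.ofBijective τ hτ).symm), fun M => ⟨⟨_, M, rfl⟩, qlin_af _ _⟩,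
    ?_, ?_⟩
  · obtain ⟨M, v, rfl⟩ := af_surj X
    rw [af_mem_qV]
    exact ⟨by rintro rfl; exact ⟨rfl, rfl, rfl, rfl⟩, fun ⟨a, b, c, d⟩ => sl2_ext a b c d⟩
  · obtain ⟨M, v, rfl⟩ := af_surj X
    exact ⟨fun ⟨N, h⟩ => by rw [← (af_inj.1 h).2]; exact ⟨rfl, rfl⟩,
      fun ⟨a, b⟩ => ⟨M, af_inj.2 ⟨rfl, (vec2_ext a b).symm⟩⟩⟩
  · obtain ⟨M, v, rfl⟩ := af_surj X
    have := mul_mem (mem_sup_right (S := ι.range) (mem_qV.2 ⟨v, rfl⟩)) (mem_sup_left ⟨M, rfl⟩)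
    change af _ _ * af _ _ ∈ _ at this
    rwa [af_mul, one_mul, smul_zero, add_zero] at this
  · rw [centralizer_qV]; rfl
  · rintro ⟨_, M, rfl⟩ v
    obtain ⟨v, rfl⟩ := hτ.2 v
    refine ⟨τ (Multiplicative.ofAdd (M • v.toAdd)), (af_conj _ _ _).symm, ?_⟩
    have h1 : ∀ w, MulEquiv.toAdditiveLeft (MulEquiv.ofBijective τ hτ).symm (Additive.ofMul (τ w)) =
        w.toAdd := fun w => (MulEquiv.ofBijective τ hτ).symm_apply_apply w
    rw [h1, h1]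
    change _ = (qlin (af M 0)).1.mulVec _
    rw [qlin_af]; rfl

end Cfsg.Agent.S2762
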