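import Cfsg.Statements.S2772
import Cfsg.Agent.H10.Compl
import Cfsg.Agent.H10.JC
import Cfsg.Agent.S0618
import Cfsg.Agent.S0144
import Cfsg.Agent.H1.PSolv
import Cfsg.Agent.H5.Fstar
import Cfsg.Agent.H5.SigFG

set_option autoImplicit false
open Cfsg H10

namespace Cfsg.Agent.S2772

theorem card_sl2 : Nat.card (Matrix.SpecialLinearGroup (Fin 2) (ZMod 2)) = 6 := by
  rw [Nat.card_eq_fintype_card]; decide

/-- Sims' Theorem in local form: let H be a finite non-abelian simple group and G a maximal subgroup of H with C_G(O₂(G)) ≤ O₂(G), such that N_H(S) is not contained in G for a Sylow 2-subgroup S of G and G/O₂(G) is dihedral of order 2q for a prime q. Then G is isomorphic to the symmetric group of degree 4 or to its direct product with a group of order 2. -/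
theorem result {H : Type*} [Group H] [Finite H] [IsSimpleGroup H] (hna : ¬ IsMulCommutative H) (G : Subgroup H) (hG : IsCoatom G) (hchar : Subgroup.centralizer (Cfsg.pCore 2 ↥G : Set ↥G) ≤ Cfsg.pCore 2 ↥G) (S : Sylow 2 ↥G) (hN : ¬ Subgroup.normalizer (((S : Subgroup ↥G).map G.subtype : Subgroup H) : Set H) ≤ G) (q : ℕ) (hq : q.Prime) (hD : Nonempty (↥G ⧸ Cfsg.pCore 2 ↥G ≃* DihedralGroup q)) : Nonempty (↥G ≃* Equiv.Perm (Fin 4)) ∨ Nonempty (↥G ≃* Equiv.Perm (Fin 4) × Multiplicative (ZMod 2)) := by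
  have hT : IsSylowIn 2 ((S : Subgroup G).map G.subtype) G := isSylowIn_map_subtype S
  obtain ⟨x, hx, hxG⟩ := SetLike.not_le_iff_exists.1 hN
  have hc : CharPIn 2 G := charPIn_iff.2 hchar
  have hi : (pCoreOf 2 G).relIndex G = 2 * q := by
    obtain ⟨e⟩ := hD
    rw [Subgroup.relIndex, pCoreOf_subgroupOf, Subgroup.index, Nat.card_congr e.toEquiv,
      DihedralGroup.nat_card]
  have hZ : ∀ g : G, g ∈ CC(ZO 2 (S : Subgroup G)) → (g : H) ∈ CC(ZO 2 ((S : Subgroup G).map G.subtype)) :=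
    fun g hg => map_ZO_of_injective G.subtype_injective _ ▸ map_CC_le G.subtype _ ⟨g, hg, rfl⟩
  have hJ : ∀ g : G, g ∈ NN(thompsonSubgroupOf 2 (S : Subgroup G)) →
      (g : H) ∈ NN(JT ((S : Subgroup G).map G.subtype)) := fun g hg => by
    rw [JT, ← H4.map_thompsonOf_of_injective _ G.subtype_injective]
    exact map_NN_le G.subtype _ ⟨g, hg, rfl⟩
  generalize (S : Subgroup G).map G.subtype = T at hT hx hZ hJ
  have hK : ∀ N ≤ T, ⊤ ≤ NN(N) → N = ⊥ := fun N h1 h2 =>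
    ((normal_of_top_le_NN h2).eq_bot_or_eq_top).resolve_right fun e =>
      hG.1 (top_le_iff.1 (e.ge.trans (h1.trans hT.le)))
  have hK' : ∀ N ≤ T, G ≤ NN(N) → x ∈ NN(N) → N = ⊥ := fun N h1 h2 h3 =>
    hK N h1 (hG.2 _ (lt_of_le_of_ne h2 fun e => hxG (e ▸ h3))).ge
  have hm := Subgroup.relIndex_mul_relIndex _ _ _ hT.pCoreOf_le hT.le
  have hr : T.relIndex G = q := by
    have h1 : T.relIndex G ∣ 2 * q := by rw [← hi, ← hm]; exact Dvd.intro_left _ rfl
    have h2 := ((Nat.prime_two.coprime_iff_not_dvd.2 hT.not_dvd_relIndex).symm).dvd_of_dvd_mul_left h1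
    refine ((Nat.dvd_prime hq).1 h2).resolve_left fun e => ?_
    have h3 := pCoreOf_eq_self (hT.isPGroup.to_le (Subgroup.relIndex_eq_one.1 e))
    rw [h3, Subgroup.relIndex_self] at hi
    omega
  have hcard := card_mul_relIndex (pCoreOf_le (p := 2) G)
  rw [hi] at hcard
  have hT1 : T ≠ ⊥ := hT.ne_bot (hcard ▸ Dvd.dvd.mul_left (dvd_mul_right _ _) _)
  have n1 : ¬ G ≤ CC(ZO 2 T) := fun h => ZO_ne_bot hT.isPGroup hT1
    (hK' _ (ZO_le T) (h.trans (CC_le_NN _)) (NN_le_NN_ZO T hx))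
  have nJ : ¬ G ≤ NN(JT T) := fun h => H5.thompsonOf_ne_bot hT.isPGroup hT1
    (hK' _ (JT_le T) h (le_NN_JT le_rfl hx))
  have hmax : ∀ X, T ≤ X → ¬ G ≤ X → G ⊓ X ≤ T := fun X h1 h2 => by
    by_contra h3
    exact h2 ((eq_of_relIndex_prime hq hr (le_inf hT.le h1) inf_le_left h3).ge.trans inf_le_right)
  have hO : pPrimeCore 2 G = ⊥ :=
    (H5.fstar_eq_pCore_iff.1 (H5.fstar_eq_pCore_iff_centralizer.2 hchar)).2
  obtain ⟨k, hk⟩ := IsPGroup.iff_card.1 (isPGroup_pCoreOf (p := 2) G)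
  have h3 : q = 3 := by
    obtain ⟨-, E, -, -, -, hn, ⟨e⟩⟩ := Cfsg.Agent.S0618.result (p := 2)
      (H1.isPSolvable_of_isSolvable 2 (Cfsg.Agent.S0144.result 2 q (k + 1) 1 Nat.prime_two hq
        (by rw [← hcard, hk]; ring))) hO fun hTF => by
      have : G ≤ T := fun g hg => by
        obtain ⟨y, hy, c, hc, n, hn, e⟩ := hTF S ⟨g, hg⟩
        rw [hO, Subgroup.mem_bot] at hy
        have e' : g = c * n := by simpa [hy] using congrArg Subtype.val e
        rw [e']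
        exact mul_mem (hmax _ (le_CC_ZO T) n1 ⟨c.2, hZ c hc⟩)
          (hmax _ (le_NN_JT (le_NN_self T)) nJ ⟨n.2, hJ n hn⟩)
      exact n1 (this.trans (le_CC_ZO T))
    have h4 := (Nat.card_congr e.toEquiv).symm.dvd.trans (Subgroup.card_quotient_dvd_card _)
    rw [card_sl2] at h4
    have h5 : 3 ∣ 2 ^ (k + 1) * q := by
      rw [pow_succ, mul_assoc, ← hk, hcard]
      exact (Dvd.dvd.trans (by norm_num) h4).trans (Subgroup.card_subgroup_dvd_card E)
    rcases (Nat.Prime.dvd_mul Nat.prime_three).1 h5 with h | h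
    · exact absurd (Nat.prime_three.dvd_of_dvd_pow h) (by norm_num)
    · exact ((Nat.prime_dvd_prime_iff_eq Nat.prime_three hq).1 h).symm
  subst h3
  have s1 : S3 G T := s3_of_relIndex hT hi
  have hxT := cj_eq_of_mem_NN hx
  have hne : ¬ cj x G ≤ G := fun h => by
    have h1 := (hG.2 _ (lt_of_le_of_ne (le_NN_self G) fun e => hxG (e ▸ mem_NN_of_cj_le h))).ge
    exact hT1 (le_bot_iff.1 (hT.le.trans (((normal_of_top_le_NN h1).eq_bot_or_eq_top).resolve_right
      hG.1).le))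
  have hA : AM G (cj x G) T := ⟨⟨s1, hxT ▸ s1.cj x, fun N h1 h2 h3 => hK N h1
    ((hG.2 _ (left_lt_sup.2 hne)).ge.trans (sup_le h2 h3))⟩, hc, hc.cj x⟩
  have n2 : ¬ cj x G ≤ CC(ZO 2 T) := by
    rw [← hxT, ← cj_ZO, ← cj_centralizer, cj_le_cj]; exact n1
  rcases hA.equiv n1 n2 with ⟨h, -⟩ | ⟨⟨e⟩, -⟩
  · exact Or.inl h
  · exact Or.inr ⟨e.trans MulEquiv.prodComm⟩

end Cfsg.Agent.S2772
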