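import Cfsg.Statements.S2781
import Cfsg.Agent.H10.Trace

set_option autoImplicit false
open Cfsg

namespace Cfsg.Agent.S2781

/-- Let H act faithfully by conjugation on the elementary abelian p-subgroup V of a finite group, let O^p(H) be the subgroup of H generated by its elements of order prime to p, and T a Sylow p-subgroup of O^p(H). If V is generated by the H-conjugates of C_V(T) (V is the smallest H-invariant subgroup containing C_V(T)), then V = [V, O^p(H)]·C_V(O^p(H)). -/
theorem result {G : Type*} [Group G] [Finite G] {p : ℕ} [Fact p.Prime] (V H : Subgroup G) (hV : Cfsg.IsElementaryAbelian p V) (hHV : H ≤ Subgroup.normalizer (V : Set G)) (hf : H ⊓ Subgroup.centralizer (V : Set G) = ⊥) (R : Subgroup G) (hR : R = (Cfsg.pResidual p ↥H).map H.subtype) (S : Sylow p ↥R) (T : Subgroup G) (hT : T = ((S : Subgroup ↥R).map R.subtype)) (hgen : ∀ W : Subgroup G, H ≤ Subgroup.normalizer (W : Set G) → (V ⊓ Subgroup.centralizer ((T : Subgroup G) : Set G)) ≤ W → V ≤ W) : ⁅V, R⁆ ⊔ (V ⊓ Subgroup.centralizer ((R : Subgroup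 G) : Set G)) = V := by
  have hRH : R ≤ H := hR ▸ Subgroup.map_subtype_le _
  have hHR : H ≤ Subgroup.normalizer (R : Set G) := hR ▸ H10.le_NN_resOf H
  have hRV := hRH.trans hHV
  refine le_antisymm (sup_le (H10.comm_le_left hRV) inf_le_left) (hgen _ ?_ ?_)
  · exact H10.le_NN_sup (H10.le_NN_commutator hHV hHR) (H10.le_NN_inf hHV (H10.le_NN_CC hHR))
  · have hVp : IsPGroup p V := H10.isPGroup_iff_mem.mpr fun x hx => ⟨1, by simpa using hV.2 x hx⟩
    have := H10.IsSylowIn.le_CC_sup_comm (hT ▸ H10.isSylowIn_map_subtype S) hVp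
      (H10.isMulCommutative_iff_le_CC.mp hV.1) hRV (U := V ⊓ Subgroup.centralizer (T : Set G))
      inf_le_left inf_le_right
    refine this.trans (sup_le le_sup_right (le_sup_of_le_left ?_))
    exact Subgroup.commutator_mono inf_le_left (H10.resOf_le R)

end Cfsg.Agent.S2781
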