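import Cfsg.Statements.S2788
import Cfsg.Agent.H4.FM1

set_option autoImplicit false
open Cfsg

namespace Cfsg.Agent.S2788

open Subgroup H16 H16.FM H4

/-- Let H act faithfully by conjugation on the elementary abelian p-subgroup V of a finite group with H ≅ SL₂(F), F a field with p^n elements, S a Sylow p-subgroup of H, and A ≤ S a subgroup of order at least 3 acting quadratically on V ([V, A, A] = 1). Then |V/C_V(a)| ≥ p^n for every nonidentity a ∈ A. -/
theorem result {G : Type*} [Group G] [Finite G] {p : ℕ} [Fact p.Prime] (V H : Subgroup G) (hV : Cfsg.IsElementaryAbelian p V) (hHV : H ≤ Subgroup.normalizer (V : Set G)) (hf : H ⊓ Subgroup.centralizer (V : Set G) = ⊥) {F : Type*} [Field F] [Fintype F] (n : ℕ) (hF : Fintype.card F = p ^ n) (hiso : Nonempty (↥H ≃* Matrix.SpecialLinearGroup (Fin 2) F)) (S : Sylow p ↥H) (T : Subgroup G) (hT : T = ((S : Subgroup ↥H).map H.subtype)) (A : Subgroup G) (hA : A ≤ T) (hA3 : 3 ≤ Nat.card A) (hquad : ⁅⁅V, A⁆,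 A⁆ = ⊥) : ∀ a ∈ A, a ≠ 1 → p ^ n ≤ ((V ⊓ Subgroup.centralizer ({a} : Set G))).relIndex V := by
  intro a ha h1
  obtain ⟨e⟩ := hiso
  obtain ⟨s, k1, k2⟩ := exists_ord S (hT ▸ hA ha) h1
  refine le_trans ?_ (ix_zpowers k2)
  obtain hn | hn := le_or_gt n 1
  · exact (Nat.pow_le_pow_right (Fact.out : p.Prime).pos hn).trans ((pow_one p).trans_le (le_ix_prime hV fun k =>
      H10.ne_one_of_orderOf_eq k1 (Subtype.ext (eq_one_of_mem_bot hf ⟨s.2, k⟩))))
  have : CharP F p := charP_of_card_eq_prime_pow hF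
  obtain ⟨d, hd, -⟩ := exists_prim (Fact.out : p.Prime).two_le (N := 2 * n) (by omega)
  obtain ⟨g, hg⟩ := sl_prod' hd.odd hd.one_lt (hF ▸ hd.dvd_add (by omega))
    ((sl_orderOf_eq_iff p).1 ((e.orderOf_eq s).trans k1)) (MonoidHom.id _) (by simp)
  exact le_of_pow_le (k := 1) (two_conj (φ := e.toMonoidHom) hV hHV hf hd (by omega) e.surjective hg).1

end Cfsg.Agent.S2788
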