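import Cfsg.Statements.S2794
import Cfsg.Agent.H3.FS4
import Cfsg.Agent.H12.QdX

set_option autoImplicit false
open Cfsg

namespace Cfsg.Agent.S2794

/-- For an odd prime p and a finite group G, the group Qd(p) is not involved in G if and only if in every section K/R of G, for every Sylow p-subgroup S* of K/R, the centre of J(S*) (J generated by the abelian subgroups of largest order) controls strong fusion in K/R. -/
theorem result {G : Type*} [Group G] [Finite G] {p : ℕ} [Fact p.Prime] (hp : p ≠ 2) : ¬ Cfsg.Involves ↥(Cfsg.qd p) G ↔ ∀ (K R : Subgroup G) [hR : (R.subgroupOf K).Normal], ∀ T : Sylow p (K ⧸ R.subgroupOf K), Cfsg.ControlsStrongFusion p (Cfsg.centerThompsonAOf (T : Subgroup (K ⧸ R.subgroupOf K))) := by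
  have hW := H3.isCharPFunctor_centerThompsonOf (p := p) (n := 0) (Or.inl rfl)
  rw [H3.involves_iff_isSec]
  refine ⟨fun h K R _ T => ?_, fun h h1 => ?_⟩
  · have h1 := H3.normal_zj_of_not_qdInv hp (Or.inl rfl) T.2 (H13.saturated_group T) fun h2 => by
      rw [H13.group_eq_ofSubgroup] at h2
      exact h ((H12.isSec_section K R).trans (H3.isSec_qd_of_qdInv h2))
    rw [H4.centerThompsonAOf_eq]
    refine ⟨T, h1.1, H12.sf_iff_set.1 fun A hA g hg => ?_⟩
    obtain ⟨τ, h2, h3, h4⟩ := H13.normal_extend h1 (P := A) (σ := H13.cj g)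
      (H13.mor_group_iff.2 ⟨hA, fun x hx => hg ⟨x, hx, rfl⟩, g, fun _ _ => rfl⟩)
    obtain ⟨-, -, x, e⟩ := H13.mor_group_iff.1 h2
    exact ⟨x, H13.maps_cj_iff.1 (h4.congr fun z hz => e z (Subgroup.mem_sup_right hz)),
      fun a ha => (e a (Subgroup.mem_sup_left ha)).symm.trans (h3 a ha)⟩
  · obtain ⟨K, R, _, ⟨e⟩⟩ := H12.exists_section_equiv h1
    refine (H12.qdLike_of_equiv (F := ZMod p) e).not_fc (H12.single_char hW)
      ((H12.fc_single_iff hW).2 fun T => ?_)
    rw [H3.inducedFunctor_centerThompsonOf, ← H4.centerThompsonAOf_eq]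
    exact h K R T

end Cfsg.Agent.S2794
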