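import Cfsg.Statements.S2800
import Cfsg.Agent.H3.FS4

set_option autoImplicit false
open Cfsg

namespace Cfsg.Agent.S2800

/-- Let S be a Sylow p-subgroup of the finite group G and J(S) the subgroup generated by the abelian subgroups of S of largest order. Suppose p is odd, or the symmetric group of degree 4 is not involved in G. If both C_G(Z(S)) and N_G(J(S)) have normal p-complements, then G has a normal p-complement. -/
theorem result {G : Type*} [Group G] [Finite G] {p : ℕ} [Fact p.Prime] (S : Sylow p G) (h : p ≠ 2 ∨ ¬ Cfsg.Involves (Equiv.Perm (Fin 4)) G) (hC : Cfsg.HasNormalPComplement p ↥(Subgroup.centralizer (((S : Subgroup G) ⊓ Subgroup.centralizer ((S : Subgroup G) : Set G) : Subgroup G) : Set G))) (hN : Cfsg.HasNormalPComplement p ↥(Subgroup.normalizer ((Cfsg.thompsonSubgroupAOf (S : Subgroup G)) : Set G))) : Cfsg.HasNormalPComplement p G := by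
  have key : ∀ K : Subgroup G, (S : Subgroup G) ≤ K → HasNormalPComplement p K → ∀ g ∈ K,
      ∀ (P : Subgroup G) (σ : Equiv.Perm G), H13.Mor (groupFusionSystem (S : Subgroup G)) P σ →
      (∀ x ∈ P, σ x = g * x * g⁻¹) → H13.Mor (innerFusionSystem (S : Subgroup G)) P σ := by
    intro K h1 h2 g hg P σ h3 e
    obtain ⟨u, hu, e'⟩ := H3.fusion_of_hasNormalPComplement h2 (S.subtype h1) ⟨g, hg⟩
    exact H13.mor_inner_iff.2 ⟨h3.le, u, hu, fun x hx => (e x hx).trans (congrArg Subtype.val
      (e' ⟨x, h1 (h3.le hx)⟩ (h3.le hx) (show g * x * g⁻¹ ∈ (S : Subgroup G) from e x hx ▸ h3.mem hx)))⟩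
  refine (H3.isInner_group_iff S).1 (H3.thompson_crit S.2 (H13.saturated_group S)
    (H3.odd_or_group S h) (fun P σ h1 _ h2 h3 => ?_) fun P σ h1 _ h2 h3 => ?_)
  · obtain ⟨-, -, g, e⟩ := H13.mor_group_iff.1 h2
    exact key _ (Subgroup.le_centralizer_iff.1 inf_le_right) hC g (fun z hz =>
      (mul_inv_eq_iff_eq_mul.1 ((e z (h1 hz)).symm.trans (h3 z hz))).symm) P σ h2 e
  · obtain ⟨-, -, g, e⟩ := H13.mor_group_iff.1 h2
    exact key _ (H3.thompsonA_le_normalizer S.2) hN g
      (H13.maps_cj_iff.1 (h3.congr fun z hz => e z (h1 hz))) P σ h2 e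

end Cfsg.Agent.S2800
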