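import Cfsg.Statements.S2807
import Cfsg.Agent.H14.Yoshida
import Cfsg.Agent.H14.Grp

set_option autoImplicit false
set_option linter.unusedVariables false
set_option linter.style.haveILetI false
open Cfsg Cfsg.FusionSystem Equiv H13 H14.Fus
open scoped commutatorElement

namespace Cfsg.Agent.S2807

/-- Let S be a Sylow p-subgroup of the finite group G. If S ∩ G' ≠ S ∩ (N_G(S))' (derived subgroups), then the wreath product Z_p ≀ Z_p — realised as a Sylow p-subgroup of the symmetric group of degree p² — is a homomorphic image of S. -/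
theorem result {G : Type*} [Group G] [Finite G] {p : ℕ} [Fact p.Prime] (S : Sylow p G) (h : (S : Subgroup G) ⊓ commutator G ≠ (S : Subgroup G) ⊓ ⁅Subgroup.normalizer ((S : Subgroup G) : Set G), Subgroup.normalizer ((S : Subgroup G) : Set G)⁆) : ∃ (P : Sylow p (Equiv.Perm (Fin (p ^ 2)))) (f : ↥(S : Subgroup G) →* ↥(P : Subgroup (Equiv.Perm (Fin (p ^ 2))))), Function.Surjective f := by
  have hT := sylIn_top S
  refine yoshida hT.isPGroup (saturated_ofSubgroup hT) (W := (S : Subgroup G) ⊓
    ⁅Subgroup.normalizer ((S : Subgroup G) : Set G), Subgroup.normalizer ((S : Subgroup G) : Set G)⁆) ?_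
    fun f hf x hx => ?_
  · rw [focal_ofSubgroup hT]
    exact lt_of_le_of_ne (inf_le_inf_left _ (Subgroup.commutator_mono le_top le_top)) h.symm
  · obtain ⟨-, h1, g, -, e⟩ := mor_ofSubgroup_iff.1 hf
    refine ⟨S.1.mul_mem (S.1.inv_mem hx) (h1 x hx), ?_⟩
    have := Subgroup.commutator_mem_commutator (Subgroup.le_normalizer (S.1.inv_mem hx))
      (normalizer_of_finite (g := g) fun y hy => e y hy ▸ h1 y hy)
    rw [e x hx]; simpa [commutatorElement_def, mul_assoc] using this

end Cfsg.Agent.S2807
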