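import Cfsg.Statements.S3084
import Cfsg.Agent.H12.ES4
import Cfsg.Agent.H7.Heisen

set_option autoImplicit false
open Cfsg

namespace Cfsg.Agent.S3084

open H12 Subgroup Module

section
variable {K : Type*} [Group K] {U : Type*} [AddCommGroup U] [Module (ZMod 2) U]
  {B : U →ₗ[ZMod 2] U →ₗ[ZMod 2] ZMod 2} {N : Type} [Group N]

/-- pairs `(T, k)` inducing the same action on the extraspecial group modulo its centre -/
def pairs (h : QG.ND B) (π : QG B →* N) (ρ : K →* End (ZMod 2) U) : Subgroup (N × K) where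
  carrier := {y | ∃ φ : MulAut (QG B), QG.autEnd h φ = ρ y.2 ∧ ∀ x, y.1 * π x * y.1⁻¹ = π (φ x)}
  one_mem' := ⟨1, by simp, by simp⟩
  mul_mem' := by
    rintro a b ⟨φ, h1, h2⟩ ⟨ψ, h3, h4⟩
    refine ⟨φ * ψ, by simp [h1, h3], fun x => ?_⟩
    rw [MulAut.mul_apply, ← h2, ← h4]; simp [mul_assoc]
  inv_mem' := by
    rintro a ⟨φ, h1, h2⟩
    refine ⟨φ⁻¹, ?_, fun x => ?_⟩
    · have e1 : QG.autEnd h φ⁻¹ * ρ a.2 = 1 := by rw [← h1, ← map_mul, inv_mul_cancel, map_one]
      rw [← mul_one (QG.autEnd h φ⁻¹), ← map_one ρ, ← mul_inv_cancel a.2, map_mul, ← mul_assoc, e1,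
        one_mul]
      rfl
    · have := h2 (φ⁻¹ x)
      rw [MulAut.apply_inv_self] at this
      rw [← this]; simp [mul_assoc]

theorem aux [Finite U] [Nontrivial U] [Finite N] (h : QG.ND B) (π : QG B →* N)
    (hπ : Function.Injective π) (ρ : K →* End (ZMod 2) U) (hρ : Function.Injective ρ)
    (hq : ∀ k u, B (ρ k u) (ρ k u) = B u u)
    (h1 : ∀ φ : MulAut (QG B), ∃ T : N, ∀ x, T * π x * T⁻¹ = π (φ x))
    (h2 : ∀ T : N, (∀ x, π x * T = T * π x) → T ∈ π.range) :
    ∃ (R : Type) (_ : Group R) (_ : Finite R) (Q : Subgroup R) (hN : Q.Normal) (e : R ⧸ Q ≃* K)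
      (χ : ↥Q →* Multiplicative U), Cfsg.IsExtraspecial 2 ↥Q ∧ Nat.card ↥Q = Nat.card (QG B) ∧
      Function.Surjective χ ∧ χ.ker = Subgroup.center ↥Q ∧
      (∀ (r : R) (a : ↥Q), χ ⟨r * a * r⁻¹, hN.conj_mem (a : R) a.2 r⟩ =
        Multiplicative.ofAdd (ρ (e (r : R ⧸ Q)) (Multiplicative.toAdd (χ a)))) ∧
      ∀ a : ↥Q, a * a = 1 ↔ B (Multiplicative.toAdd (χ a)) (Multiplicative.toAdd (χ a)) = 0 := by
  let f : pairs h π ρ →* N := (MonoidHom.fst N K).comp (pairs h π ρ).subtype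
  have hf : Function.Injective f := (injective_iff_map_eq_one _).2 fun y hy => by
    obtain ⟨φ, h3, h4⟩ := y.2
    have h5 : y.1.1 = 1 := hy
    have : φ = 1 := MulEquiv.ext fun x => hπ (by rw [← h4, h5]; simp)
    rw [this, map_one, ← map_one ρ] at h3
    exact Subtype.ext (Prod.ext h5 (hρ h3).symm)
  let κ : f.range →* K := ((MonoidHom.snd N K).comp (pairs h π ρ).subtype).comp
    (MonoidHom.ofInjective hf).symm.toMonoidHom
  have hκ : ∀ y : pairs h π ρ, κ ⟨f y, y, rfl⟩ = y.1.2 := fun y =>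
    congrArg (fun y : pairs h π ρ => y.1.2) ((MonoidHom.ofInjective hf).symm_apply_apply y)
  have hκs : Function.Surjective κ := fun k => by
    obtain ⟨φ, hφ⟩ := QG.exists_aut h
      (LinearMap.GeneralLinearGroup.toLinearEquiv (ρ.toHomUnits k)) (hq k)
    obtain ⟨T, hT⟩ := h1 φ
    exact ⟨_, hκ ⟨(T, k), φ, hφ, hT⟩⟩
  have hmem : ∀ x, (π x, (1 : K)) ∈ pairs h π ρ := fun x =>
    ⟨MulAut.conj x, by rw [map_one]; exact (QG.autEnd_eq_one_iff h _).2 ⟨x, rfl⟩, by simp⟩
  let j₀ : QG B →* f.range := π.codRestrict _ fun x => ⟨⟨_, hmem x⟩, rfl⟩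
  let j₁ : QG B →* κ.ker := j₀.codRestrict _ fun x => hκ ⟨_, hmem x⟩
  have hj : Function.Bijective j₁ := ⟨fun x y e => hπ (congrArg (fun a : κ.ker => a.1.1) e), by
    rintro ⟨⟨_, y, rfl⟩, hy⟩
    obtain ⟨φ, h3, h4⟩ := y.2
    have h5 : y.1.2 = 1 := (hκ y).symm.trans hy
    rw [h5, map_one, QG.autEnd_eq_one_iff] at h3
    obtain ⟨g, rfl⟩ := h3
    obtain ⟨c, hc⟩ := h2 ((π g)⁻¹ * y.1.1) fun x => by
      have := h4 x
      simp only [MulAut.conj_apply, map_mul, map_inv] at this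
      rw [mul_assoc, mul_inv_eq_iff_eq_mul.1 this]; group
    exact ⟨g * c, Subtype.ext (Subtype.ext (by
      show π (g * c) = y.1.1
      rw [map_mul, hc]; group))⟩⟩
  let j := MulEquiv.ofBijective j₁ hj
  have hχ : ∀ x, ((QG.chi B).comp j.symm.toMonoidHom) (j x) = Multiplicative.ofAdd x.v := fun x =>
    congrArg (QG.chi B) (j.symm_apply_apply x)
  refine ⟨f.range, inferInstance, inferInstance, κ.ker, inferInstance,
    QuotientGroup.quotientKerEquivOfSurjective κ hκs, (QG.chi B).comp j.symm.toMonoidHom,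
    H7.isExtraspecial_of_equiv (QG.isExtraspecial h) j, (Nat.card_congr j.toEquiv).symm,
    fun u => ⟨j ⟨u.toAdd, 0⟩, hχ _⟩, ?_, ?_, fun a => ?_⟩
  · ext a
    obtain ⟨x, rfl⟩ := j.surjective a
    rw [MonoidHom.mem_ker, hχ, ofAdd_eq_one, ← QG.mem_center h, mem_center_iff, mem_center_iff,
      j.surjective.forall]
    simp only [← map_mul, j.injective.eq_iff]
  · rintro ⟨_, y, rfl⟩ a
    obtain ⟨x, rfl⟩ := j.surjective a
    obtain ⟨φ, h3, h4⟩ := y.2
    refine (congrArg _ (show _ = j (φ x) from Subtype.ext (Subtype.ext (h4 x)))).trans ?_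
    rw [hχ, hχ, ← QG.autEnd_apply h, h3, ← hκ]
    rfl
  · obtain ⟨x, rfl⟩ := j.surjective a
    rw [hχ, ← map_mul, map_eq_one_iff j j.injective, ← sq, QG.sq_eq, QG.ext_iff]
    simp
end

/-- Let K be a group acting faithfully and linearly on a finite-dimensional vector space U of dimension 2n ≥ 2 over the field with two elements, preserving a quadratic form q whose polar bilinear form is non-degenerate and which vanishes on some n-dimensional subspace (a non-singular form of plus type). Then there is a finite group R with a normal extraspecial 2-subgroup Q of order 2^(2n+1), an isomorphism of R/Q with K, and a surjective homomorphism χ from Q onto (the additive group of) U with kernel the centre of Q, such that χ carries conjugation by any r in R to the action of the image of r in K, and an element a of Q squares to the identity exactly when q vanishes at χ(a). -/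
theorem result {K : Type*} [Group K] {U : Type*} [AddCommGroup U] [Module (ZMod 2) U] [Module.Finite (ZMod 2) U] (n : ℕ) (hn1 : 1 ≤ n) (hn : Module.finrank (ZMod 2) U = 2 * n) (ρ : Representation (ZMod 2) K U) (hρ : Function.Injective ρ) (q : QuadraticForm (ZMod 2) U) (hq : ∀ (k : K) (u : U), q (ρ k u) = q u) (hnd : (QuadraticMap.polarBilin q).Nondegenerate) (hplus : ∃ W : Submodule (ZMod 2) U, Module.finrank (ZMod 2) ↥W = n ∧ ∀ w ∈ W, q w = 0) : ∃ (R : Type) (_ : Group R) (_ : Finite R) (Q : Subgroup R) (hN : Q.Normal) (e : R ⧸ Q ≃* K) (χ : ↥Q →* Multiplicative U), Cfsg.IsExtraspecial 2 ↥Q ∧ Nat.card ↥Q = 2 ^ (2 * n + 1) ∧ Function.Surjective χ ∧ χ.ker = Subgroup.center ↥Q ∧ (∀ (r : R) (a : ↥Q), χ ⟨r * a * r⁻¹, hN.conj_mem (a : R) a.2 r⟩ = Multiplicative.ofAdd (ρ (e (r : R ⧸ Q)) (Multiplicative.toAdd (χ a)))) ∧ ∀ a : ↥Q, a * a = 1 ↔ q (Multiplicative.toAdd (χ a)) = 0 := by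
  have : Finite U := Module.finite_of_finite (ZMod 2)
  have : Nontrivial U := Module.nontrivial_of_finrank_pos (R := ZMod 2) (by omega)
  obtain ⟨B, hB⟩ : ∃ B : U →ₗ[ZMod 2] U →ₗ[ZMod 2] ZMod 2,
      LinearMap.BilinMap.toQuadraticMap B = q :=
    ⟨_, q.toQuadraticMap_toBilin (Module.finBasis (ZMod 2) U)⟩
  subst hB
  have h : QG.ND B := fun u hu => hnd.1 u fun v => by
    rw [LinearMap.BilinMap.polarBilin_toQuadraticMap]; exact hu v
  have hU : Nat.card U = 2 ^ (2 * n) := by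
    rw [Module.natCard_eq_pow_finrank (K := ZMod 2), hn, Nat.card_zmod]
  have hc : Nat.card (QG B) = 2 ^ (2 * n + 1) := by rw [QG.card_eq, hU, pow_succ]
  obtain ⟨W, hW, hW0⟩ := hplus
  obtain ⟨e⟩ := es_equiv_plus (QG.isExtraspecial h) hn1 hc (by
    let A : Subgroup (QG B) := W.toAddSubgroup.toSubgroup.comap (QG.chi B)
    refine ⟨A, ⟨⟨⟨fun a b => Subtype.ext ((QG.commute_iff _ _).2 ?_)⟩⟩, fun a ha => ?_⟩, ?_⟩
    · have h1 : B a.1.v a.1.v = 0 := hW0 _ a.2
      have h2 : B b.1.v b.1.v = 0 := hW0 _ b.2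
      have h3 : B (a.1.v + b.1.v) (a.1.v + b.1.v) = 0 := hW0 _ (W.add_mem a.2 b.2)
      simp only [map_add, LinearMap.add_apply, h1, h2] at h3
      linear_combination h3
    · rw [QG.sq_eq]; exact QG.ext rfl (hW0 _ ha)
    · have e : A ≃ W × ZMod 2 := ⟨fun a => (⟨a.1.v, a.2⟩, a.1.a), fun a => ⟨⟨a.1.1, a.2⟩, a.1.2⟩,
        fun _ => rfl, fun _ => rfl⟩
      rw [Nat.card_congr e, Nat.card_prod, Module.natCard_eq_pow_finrank (K := ZMod 2), hW,
        Nat.card_zmod, pow_succ])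
  let π := (repPlus (ZMod 3) n).comp e.toMonoidHom
  have hz : π (QG.zc B) = -1 := by
    show repPlus (ZMod 3) n (e _) = _
    rw [QG.equiv_zc h (bPlus_nd n), repPlus_zc]
  have h2 : (2 : ZMod 3) ≠ 0 := by decide
  obtain ⟨h3, h4⟩ := QG.exists_intertwiner h h2 π hz (by
    rw [hU, Module.finrank_fintype_fun_eq_card]; simp [two_mul, pow_add])
  have : Finite (End (ZMod 3) ((Fin n → ZMod 2) → ZMod 3)) := Module.finite_of_finite (ZMod 3)
  have := aux h π.toHomUnits (fun x y e => QG.rep_injective h h2 π hz (congrArg Units.val e)) ρ hρ hq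
    (fun φ => (h3 φ).imp fun T hT x => Units.ext (hT x)) fun T hT => by
      obtain ⟨c, hc⟩ := h4 T fun x => congrArg Units.val (hT x)
      have h5 : ∀ c : ZMod 3, c = 0 ∨ c = 1 ∨ c = -1 := by decide
      rcases h5 c with rfl | rfl | rfl
      · exact absurd (hc.trans (zero_smul _ _)) T.ne_zero
      · exact ⟨1, Units.ext ((map_one π).trans (by rw [hc, one_smul]))⟩
      · exact ⟨QG.zc B, Units.ext (hz.trans (hc.trans (by ext; simp)).symm)⟩
  rw [hc] at this
  exact this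

end Cfsg.Agent.S3084
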