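import Cfsg.Statements.S3085
import Cfsg.Agent.H7.Extra1

set_option autoImplicit false
open Cfsg

open scoped commutatorElement

namespace Cfsg.Agent.S3085

section
open Classical
variable {Q : Type*} [Group Q] {z : Q}

structure Ex (z : Q) : Prop where
  cen : ∀ x, Commute z x
  sq : z * z = 1
  hc : ∀ x y : Q, Commute x y ∨ x * y = y * x * z

theorem Ex.anti (h : Ex z) {x y : Q} (hxy : ¬ Commute x y) : x * y = y * x * z :=
  (h.hc x y).resolve_left hxy

theorem Ex.conj (h : Ex z) {x y : Q} (hxy : ¬ Commute x y) : x * y * x⁻¹ = y * z := by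
  rw [h.anti hxy, mul_assoc, mul_assoc, ← mul_assoc x, ← (h.cen x).eq, mul_assoc, mul_inv_cancel,
    mul_one]

theorem Ex.mul_anti (h : Ex z) {x y v : Q} (hx : ¬ Commute x v) (hy : ¬ Commute y v) :
    Commute (x * y) v := by
  show x * y * v = v * (x * y)
  rw [mul_assoc, h.anti hy, ← mul_assoc, ← mul_assoc, h.anti hx, mul_assoc _ z y, (h.cen y).eq,
    ← mul_assoc, mul_assoc _ z z, h.sq, mul_one, mul_assoc]

theorem not_comm_mul {x y v : Q} (hx : Commute x v) (hy : ¬ Commute y v) : ¬ Commute (x * y) v :=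
  fun h => hy (by simpa using hx.inv_left.mul_left h)

theorem not_comm_mul' {x y v : Q} (hx : ¬ Commute x v) (hy : Commute y v) : ¬ Commute (x * y) v :=
  fun h => hx (by simpa using h.mul_left hy.inv_left)

noncomputable def tau (h : Ex z) (v : Q) (hv : v * v = z) : MulAut Q where
  toFun y := if Commute y v then y else y * v⁻¹
  invFun y := if Commute y v then y else y * v
  left_inv y := by
    by_cases hy : Commute y v
    · simp [hy]
    · simp [hy, not_comm_mul' hy (Commute.refl v).inv_left]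
  right_inv y := by
    by_cases hy : Commute y v
    · simp [hy]
    · simp [hy, not_comm_mul' hy (Commute.refl v)]
  map_mul' x y := by
    by_cases hx : Commute x v <;> by_cases hy : Commute y v
    · simp [hx, hy, hx.mul_left hy]
    · simp [hx, hy, not_comm_mul hx hy, mul_assoc]
    · simp only [hx, hy, not_comm_mul' hx hy, if_true, if_false]
      rw [mul_assoc, hy.inv_right.eq, mul_assoc]
    · simp only [hx, hy, h.mul_anti hx hy, if_true, if_false]
      have h1 : y * v = v * y * z := h.anti hy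
      have h2 : v⁻¹ * y = y * v := by
        rw [inv_mul_eq_iff_eq_mul, h1, ← mul_assoc, ← mul_assoc, hv, (h.cen y).eq, mul_assoc, h.sq,
          mul_one]
      rw [mul_assoc x, ← mul_assoc v⁻¹, h2, mul_inv_cancel_right]

theorem tau_apply (h : Ex z) (v : Q) (hv : v * v = z) (y : Q) :
    tau h v hv y = if Commute y v then y else y * v⁻¹ := rfl

theorem tau_sq (h : Ex z) (v : Q) (hv : v * v = z) : tau h v hv * tau h v hv = MulAut.conj v := by
  ext y
  rw [MulAut.mul_apply, tau_apply, tau_apply, MulAut.conj_apply]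
  by_cases hy : Commute y v
  · simp only [hy, if_true]; rw [← hy.eq, mul_inv_cancel_right]
  · simp only [hy, not_comm_mul' hy (Commute.refl v).inv_left, if_false]
    rw [h.conj fun h => hy h.symm, mul_assoc, ← mul_inv_rev, hv, inv_eq_of_mul_eq_one_right h.sq]

theorem tau_comm (h : Ex z) {v w : Q} (hv : v * v = z) (hw : w * w = z) (hvw : Commute v w) :
    tau h v hv * tau h w hw = tau h w hw * tau h v hv := by
  ext y
  simp only [MulAut.mul_apply, tau_apply]
  by_cases h1 : Commute y v <;> by_cases h2 : Commute y w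
  · simp [h1, h2]
  · simp [h1, h2, h1.mul_left hvw.symm.inv_left]
  · simp [h1, h2, h2.mul_left hvw.inv_left]
  · simp only [h1, h2, not_comm_mul' h1 hvw.symm.inv_left, not_comm_mul' h2 hvw.inv_left, if_false]
    rw [mul_assoc, mul_assoc, hvw.inv_inv.eq]

theorem key (h : Ex z) (hz : z ≠ 1) {L : Subgroup (MulAut Q)} (hL : (Cfsg.Inn Q).IsComplement' L)
    {v : Q} (hv : v * v = z) (hvc : ∃ y, ¬ Commute y v) :
    ∃ x : Q, ¬ Commute x v ∧ ∀ w : Q, w * w = z → Commute v w →
      (∃ y, Commute y v ∧ ¬ Commute y w) → Commute x w := by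
  have hs : ∀ (v : Q) (hv : v * v = z), ∃ x : Q, MulAut.conj x * tau h v hv ∈ L := fun v hv => by
    obtain ⟨⟨⟨_, x, rfl⟩, l⟩, e, -⟩ := hL.existsUnique (tau h v hv)
    refine ⟨x⁻¹, ?_⟩
    rw [← e, map_inv, inv_mul_cancel_left]; exact l.2
  have hin : ∀ x : Q, MulAut.conj x ∈ Cfsg.Inn Q := fun x => ⟨x, rfl⟩
  have hπ : ∀ (x : Q) (t : MulAut Q), ((MulAut.conj x * t : MulAut Q) : MulAut Q ⧸ Cfsg.Inn Q) = t :=
    fun x t => by
      rw [QuotientGroup.mk_mul, (QuotientGroup.eq_one_iff _).2 (hin x), one_mul]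
  have hone : ∀ l ∈ L, (l : MulAut Q ⧸ Cfsg.Inn Q) = 1 → l = 1 := fun l hl h1 =>
    Subgroup.disjoint_def.1 hL.disjoint ((QuotientGroup.eq_one_iff _).1 h1) hl
  obtain ⟨x, hx⟩ := hs v hv
  have hcc : ∀ a b t : Q, a * (b * t * b⁻¹) * a⁻¹ = b * (a * t * a⁻¹) * b⁻¹ := by
    intro a b t
    rcases h.hc a b with h1 | h1
    · calc _ = (a * b) * t * (a * b)⁻¹ := by group
        _ = (b * a) * t * (b * a)⁻¹ := by rw [h1.eq]
        _ = _ := by group
    · calc _ = (a * b) * t * (a * b)⁻¹ := by group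
        _ = (b * a) * (z * t * z⁻¹) * (b * a)⁻¹ := by rw [h1]; group
        _ = _ := by rw [(h.cen t).eq]; group
  have hzc : ∀ a t : Q, a * (t * z) * a⁻¹ = a * t * a⁻¹ * z := fun a t => by
    rw [mul_assoc (a * t) a⁻¹ z, ← (h.cen a⁻¹).eq]; simp only [mul_assoc]
  refine ⟨x, fun hxv => ?_, fun w hw hvw hy => ?_⟩
  · have h1 := hone _ (mul_mem hx hx) (by
      rw [QuotientGroup.mk_mul, hπ, ← QuotientGroup.mk_mul, tau_sq]
      exact (QuotientGroup.eq_one_iff _).2 (hin v))
    obtain ⟨y, hy⟩ := hvc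
    have h2 : x * tau h v hv (x * tau h v hv y * x⁻¹) * x⁻¹ = y := DFunLike.congr_fun h1 y
    have e1 : tau h v hv x = x := by rw [tau_apply, if_pos hxv]
    have e2 : tau h v hv (tau h v hv y) = y * z := by
      rw [← MulAut.mul_apply, tau_sq, MulAut.conj_apply, h.conj fun h => hy h.symm]
    rw [map_mul, map_mul, map_inv, e1, e2] at h2
    have h3 : x * (x * (y * z) * x⁻¹) * x⁻¹ = y * z := by
      by_cases hxy : Commute x (y * z)
      · rw [hxy.eq, mul_inv_cancel_right, hxy.eq, mul_inv_cancel_right]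
      · rw [h.conj hxy, hzc, h.conj hxy, mul_assoc _ z z, h.sq, mul_one]
    rw [h3] at h2
    exact hz (by simpa using h2)
  · obtain ⟨x', hx'⟩ := hs w hw
    have h1 := hone _ (mul_mem (mul_mem hx hx') (inv_mem (mul_mem hx' hx))) (by
      rw [QuotientGroup.mk_mul, QuotientGroup.mk_inv, QuotientGroup.mk_mul _ (MulAut.conj x * _),
        QuotientGroup.mk_mul _ (MulAut.conj x' * _),
        hπ, hπ, ← QuotientGroup.mk_mul, ← QuotientGroup.mk_mul, tau_comm h hv hw hvw, mul_inv_cancel])
    rw [mul_inv_eq_one] at h1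
    obtain ⟨y, hy1, hy2⟩ := hy
    have h2 : x * tau h v hv (x' * tau h w hw y * x'⁻¹) * x⁻¹ =
        x' * tau h w hw (x * tau h v hv y * x⁻¹) * x'⁻¹ := DFunLike.congr_fun h1 y
    have hcj : ∀ (a t u : Q), Commute t u → Commute (a * t * a⁻¹) u := fun a t u ht => by
      by_cases hat : Commute a t
      · rwa [hat.eq, mul_inv_cancel_right]
      · rw [h.conj hat]; exact ht.mul_left (h.cen u)
    have hcj' : ∀ (a t u : Q), ¬ Commute t u → ¬ Commute (a * t * a⁻¹) u := fun a t u ht h3 =>
      ht (by simpa [mul_assoc] using hcj a⁻¹ _ _ h3)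
    rw [tau_apply h w hw y, if_neg hy2, tau_apply h v hv y, if_pos hy1, tau_apply,
      if_pos (hcj _ _ _ (hy1.mul_left hvw.symm.inv_left)), tau_apply, if_neg (hcj' _ _ _ hy2),
      hcc] at h2
    have h3 : x * (y * w⁻¹) * x⁻¹ = x * y * x⁻¹ * w⁻¹ := mul_left_cancel (mul_right_cancel h2)
    have h4 : w⁻¹ * x⁻¹ = x⁻¹ * w⁻¹ := by
      simpa only [mul_assoc, mul_right_inj] using h3
    exact (Commute.inv_inv_iff.1 h4).symm

end

/-- Let Q be an extraspecial 2-group of order 2^(2n+1) with n ≥ 3 that is of plus type (it contains an elementary abelian subgroup of order 2^(n+1)). Then the group of inner automorphisms of Q has no complement in the full automorphism group of Q: the extension of the inner automorphism group (elementary abelian of order 2^(2n)) by the outer automorphism group (the orthogonal group of plus type) does not split. -/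
theorem result {Q : Type*} [Group Q] [Finite Q] (n : ℕ) (hn : 3 ≤ n) (hQ : Cfsg.IsExtraspecial 2 Q) (hcard : Nat.card Q = 2 ^ (2 * n + 1)) (hplus : ∃ E : Subgroup Q, Cfsg.IsElementaryAbelian 2 E ∧ Nat.card ↥E = 2 ^ (n + 1)) (L : Subgroup (MulAut Q)) : ¬ (Cfsg.Inn Q).IsComplement' L := by
  classical
  obtain ⟨E, hE, hEc⟩ := hplus
  obtain ⟨z, hz1, hzu⟩ := (Nat.card_eq_two_iff' (1 : Subgroup.center Q)).1 hQ.2
  have hmem : ∀ x ∈ Subgroup.center Q, x = 1 ∨ x = z := fun x hx => by
    by_cases h1 : x = 1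
    · exact Or.inl h1
    · exact Or.inr (congrArg Subtype.val (hzu ⟨x, hx⟩ fun h => h1 (congrArg Subtype.val h)))
  have hz : (z : Q) ≠ 1 := fun h => hz1 (Subtype.ext h)
  have hcen : ∀ x, Commute (z : Q) x := fun x => (Subgroup.mem_center_iff.1 z.2 x).symm
  have hsq : (z : Q) * z = 1 := (hmem _ (mul_mem z.2 z.2)).resolve_right fun h => hz (by simpa using h)
  have h : Ex (z : Q) := ⟨hcen, hsq, fun x y => by
    have h1 : ⁅x⁻¹, y⁻¹⁆ ∈ Subgroup.center Q := by
      rw [← hQ.1.2.2]; exact Subgroup.commutator_mem_commutator trivial trivial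
    rcases hmem _ h1 with h2 | h2
    · exact Or.inl (Commute.inv_inv_iff.1 (commutatorElement_eq_one_iff_commute.1 h2))
    · refine Or.inr ?_
      rw [← h2, commutatorElement_def]; group⟩
  have hs : ∀ x : Q, x * x = 1 ∨ x * x = z := fun x => hmem _ (by
    rw [← hQ.1.2.1, ← sq]; exact H7.pow_mem_frattini hQ.1.1 x)
  obtain ⟨v, hv⟩ : ∃ v : Q, v * v = z := by
    by_contra hcon
    push Not at hcon
    have h1 : ∀ x : Q, x⁻¹ = x := fun x =>
      inv_eq_of_mul_eq_one_right ((hs x).resolve_right (hcon x))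
    have h2 : commutator Q = ⊥ := by
      rw [commutator_def, Subgroup.commutator_eq_bot_iff_le_centralizer]
      intro x _ y _
      rw [← h1 (y * x), mul_inv_rev, h1, h1]
    exact hz ((hQ.1.2.2.symm.trans h2).le z.2)
  have hnc : ∀ x : Q, x * x = z → ∃ y, ¬ Commute y x := fun x hx => by
    by_contra hcon
    push Not at hcon
    rcases hmem x (Subgroup.mem_center_iff.2 hcon) with h1 | h1
    · exact hz (by rw [← hx, h1, mul_one])
    · exact hz (by rw [← hx, h1, hsq])
  intro hL
  obtain ⟨x, hxv, hx⟩ := key h hz hL hv (hnc v hv)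
  have hEE : ∀ a ∈ E, ∀ b ∈ E, Commute a b := fun a ha b hb =>
    congrArg Subtype.val (hE.1.is_comm.comm ⟨a, ha⟩ ⟨b, hb⟩)
  have hw : ∀ u ∈ E, Commute u v → u ∉ Subgroup.center Q → Commute x (u * v) := by
    intro u hu huv huc
    have h1 : u * v * (u * v) = z := by
      rw [mul_assoc, ← mul_assoc v, ← huv.eq, mul_assoc, hv, ← mul_assoc, ← sq, hE.2 u hu, one_mul]
    refine hx _ h1 (huv.symm.mul_right (Commute.refl v)) ?_
    by_contra hcon
    push Not at hcon
    obtain ⟨y, hy⟩ := hnc _ h1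
    have h2 : ¬ Commute y v := fun h => hy (hcon y h)
    refine huc (Subgroup.mem_center_iff.2 fun t => ?_)
    have h3 : ∀ t, Commute t v → Commute t u := fun t ht => by
      simpa using (hcon t ht).mul_right ht.inv_right
    by_cases ht : Commute t v
    · exact h3 t ht
    · have h4 : Commute y u := by
        by_contra h5
        exact hy (h.mul_anti (fun h => h5 h.symm) fun h => h2 h.symm).symm
      have h5 : Commute t u := by simpa using (h3 _ (h.mul_anti ht h2)).mul_left h4.inv_left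
      exact h5
  let D := E ⊓ Subgroup.centralizer {v}
  have hD : 8 ≤ Nat.card D := by
    have h1 : (Subgroup.centralizer {v}).index ≤ 2 := by
      obtain ⟨y, hy⟩ := hnc v hv
      refine le_of_eq (Subgroup.index_eq_two_iff.2 ⟨y, fun b => ?_⟩)
      simp only [Subgroup.mem_centralizer_singleton_iff]
      by_cases hb : Commute b v
      · exact Or.inr ⟨hb, not_comm_mul hb hy⟩
      · exact Or.inl ⟨h.mul_anti hb hy, hb⟩
    have h2 : D.relIndex E ≤ 2 := by
      rw [Subgroup.inf_relIndex_left]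
      exact (Subgroup.relIndex_le_of_le_right le_top (by simp [Subgroup.index_ne_zero_of_finite])).trans
        (by simpa using h1)
    have h3 := Subgroup.relIndex_mul_relIndex ⊥ D E bot_le inf_le_left
    rw [Subgroup.relIndex_bot_left, Subgroup.relIndex_bot_left, hEc] at h3
    have h4 : 2 ^ 4 ≤ 2 ^ (n + 1) := Nat.pow_le_pow_right (by norm_num) (by omega)
    nlinarith
  have hex : ∀ s : Finset Q, s.card < 8 → ∃ u ∈ D, u ∉ s := fun s hs => by
    by_contra hcon
    push Not at hcon
    have := Set.ncard_le_ncard (s := (D : Set Q)) (t := s) hcon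
    rw [Set.ncard_coe_finset, ← Nat.card_coe_set_eq] at this
    exact absurd (hD.trans this) (by omega)
  obtain ⟨u₁, hu₁, h₁⟩ := hex {1, (z : Q)} (Finset.card_le_two.trans_lt (by norm_num))
  obtain ⟨u₂, hu₂, h₂⟩ := hex {1, (z : Q), u₁⁻¹, u₁⁻¹ * z} (Finset.card_le_four.trans_lt (by norm_num))
  simp only [Finset.mem_insert, Finset.mem_singleton, not_or] at h₁ h₂
  have c₁ : Commute u₁ v := Subgroup.mem_centralizer_singleton_iff.1 hu₁.2
  have c₂ : Commute u₂ v := Subgroup.mem_centralizer_singleton_iff.1 hu₂.2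
  have a₁ := hw u₁ hu₁.1 c₁ fun h => (hmem _ h).elim h₁.1 h₁.2
  have a₂ := hw u₂ hu₂.1 c₂ fun h => (hmem _ h).elim h₂.1 h₂.2.1
  have a₃ := hw _ (mul_mem hu₁.1 hu₂.1) (c₁.mul_left c₂) fun h => (hmem _ h).elim
    (fun h => h₂.2.2.1 (eq_inv_of_mul_eq_one_right h)) fun h => h₂.2.2.2 (by rw [← h]; group)
  have a₄ := (a₁.mul_right a₂).mul_right a₃.inv_right
  have e : u₁ * v * (u₂ * v) * (u₁ * u₂ * v)⁻¹ = v := by
    rw [mul_inv_eq_iff_eq_mul, ← mul_assoc v, ← mul_assoc v, ← c₁.eq]; group
  exact hxv (e ▸ a₄)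

end Cfsg.Agent.S3085
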