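import Cfsg.Statements.S3103
import Cfsg.Agent.H12.GL4
import Cfsg.Agent.H4.PConstr

set_option autoImplicit false
open Cfsg

namespace Cfsg.Agent.S3103

open Subgroup H10 H12
open scoped IsMulCommutative

/-- Let X be a finite 2-constrained group with no nontrivial normal subgroup of odd order such that O₂(X) has sectional 2-rank at most 4. Then X/O₂(X) is isomorphic to a subgroup of the alternating group of degree 8. -/
theorem result {X : Type*} [Group X] [Finite X] (hc : Cfsg.IsPConstrained 2 X) (hO : Cfsg.oddCore X = ⊥)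
    (h4 : Cfsg.SectionalPRankLE 2 4 ↥(Cfsg.pCore 2 X)) :
    ∃ f : X ⧸ Cfsg.pCore 2 X →* ↥(alternatingGroup (Fin 8)), Function.Injective f := by
  haveI : Fact (Nat.Prime 2) := ⟨Nat.prime_two⟩
  have hcc := (H4.isPConstrained_iff_of_eq_bot hO).1 hc
  set P := pCore 2 X
  have hPp : IsPGroup 2 P := H1.isPGroup_pCore 2
  haveI := H1.normal_map_char P (frattini P)
  have key := comap_cent_frattini hcc
  set F := (frattini P).map P.subtype
  set N := P.map (QuotientGroup.mk' F)
  haveI : N.Normal := (inferInstance : P.Normal).map _ (QuotientGroup.mk'_surjective F)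
  haveI : IsMulCommutative N := isMulCommutative_iff_le_CC.2 (map_le_iff_le_comap.2 key.ge)
  have hF := (H1.frattini_eq_bot_iff (hPp.to_quotient (frattini P))).1 H1.frattini_quotient_frattini
  have h2 : ∀ n ∈ N, n ^ 2 = 1 := by
    rintro _ ⟨x, hx, rfl⟩
    rw [← map_pow, QuotientGroup.mk'_apply, QuotientGroup.eq_one_iff]
    exact ⟨⟨x, hx⟩ ^ 2, (QuotientGroup.eq_one_iff _).1
      (by rw [QuotientGroup.mk_pow]; exact hF.2 _), rfl⟩
  have hcard : Nat.card N ≤ 16 := by
    let ψ : (⊤ : Subgroup P) →* X ⧸ F := (QuotientGroup.mk' F).comp (P.subtype.comp (⊤ : Subgroup P).subtype)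
    have e : ψ.range = N := by
      rw [MonoidHom.range_comp, MonoidHom.range_comp, range_subtype, map_top_subtype]
    let ε := (QuotientGroup.quotientKerEquivRange ψ).trans (MulEquiv.subgroupCongr e)
    have := h4 ⊤ ψ.ker ⊤ ⟨⟨fun a b => Subtype.ext (ε.injective (by
      simp only [coe_mul, map_mul]; exact mul_comm' _ _))⟩⟩ fun a _ => ε.injective (by
        rw [map_pow, map_one]; exact Subtype.ext (h2 _ (ε a).2))
    rwa [card_top, Nat.card_congr ε.toEquiv] at this
  letI := H25.elemModule N h2
  obtain ⟨f, hf⟩ := exists_A8_of_rep (V := Additive N) hcard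
    ((H25.conjRep N 2).comp (QuotientGroup.mk' F))
  have hk : f.ker = P := by
    rw [hf]
    refine Eq.trans ?_ key
    ext g
    rw [MonoidHom.mem_ker, MonoidHom.comp_apply, ← map_one (H25.conjRep N 2), H25.conjRep_eq_iff]
    simp only [inv_one, mul_one, one_mul, mem_comap]
    rfl
  refine ⟨QuotientGroup.lift P f fun x hx => hk.ge hx, ?_⟩
  rw [injective_iff_map_eq_one]
  intro y hy
  obtain ⟨x, rfl⟩ := QuotientGroup.mk_surjective y
  exact (QuotientGroup.eq_one_iff x).2 (hk.le hy)

end Cfsg.Agent.S3103
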