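import Cfsg.Statements.S3104
import Cfsg.Agent.H3.R4c
import Cfsg.Agent.H18.A8a
import Cfsg.Agent.S3103

set_option autoImplicit false
open Cfsg

namespace Cfsg.Agent.S3104

open Subgroup Equiv Cfsg.Agent.H3

theorem core_a5 : pCore 3 (alternatingGroup (Fin 5)) = ⊥ := by
  refine (IsSimpleGroup.eq_bot_or_eq_top_of_normal _ inferInstance).resolve_right fun h => ?_
  have h1 := H1.isPGroup_pCore (G := alternatingGroup (Fin 5)) 3
  have : Fact (Nat.Prime 3) := ⟨by norm_num⟩
  obtain ⟨k, hk⟩ := h1.exists_card_eq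
  have h2 := SyA.two_mul_card_alt (n := 5) (by norm_num)
  rw [h, card_top] at hk
  rw [hk] at h2
  have h3 : 2 ∣ 3 ^ k := by simp [Nat.factorial] at h2; omega
  have := Nat.prime_two.dvd_of_dvd_pow h3
  omega

theorem core_s5 : pCore 3 (Perm (Fin 5)) = ⊥ := by
  have h1 := H1.isPGroup_pCore (G := Perm (Fin 5)) 3
  have h2 : pCore 3 (Perm (Fin 5)) ≤ alternatingGroup _ := by
    intro x hx
    obtain ⟨k, hk⟩ := h1 ⟨x, hx⟩
    have h3 : x ^ 3 ^ k = 1 := congrArg Subtype.val hk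
    have h4 := congrArg Perm.sign h3
    rw [map_pow, map_one] at h4
    rcases Int.units_eq_one_or (Perm.sign x) with h | h
    · exact h
    · rw [h, Odd.neg_one_pow (Odd.pow (by decide))] at h4
      exact absurd h4 (by decide)
  have h3 : (pCore 3 (Perm (Fin 5))).subgroupOf (alternatingGroup _) ≤ pCore 3 _ :=
    H1.le_pCore (h1.comap_subtype)
  rw [core_a5, le_bot_iff, subgroupOf_eq_bot, disjoint_iff, inf_eq_left.2 h2] at h3
  exact h3

theorem pq {G : Type*} [Group G] {p : Nat} {K : Subgroup G} [K.Normal] (hK : IsPGroup p K) {X : Type*}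
    [Group X] (e : G ⧸ K ≃* X) (hX : pCore p X = ⊥) : pCore p G = K := by
  rw [← H1.comap_pCore_mk' p K hK, (map_eq_bot_iff_of_injective _ (f := (e : G ⧸ K →* X)) e.injective).1
    ((H1.map_pCore_equiv p e).trans hX), MonoidHom.comap_bot, QuotientGroup.ker_mk']

/-- Let X be a finite nonsolvable 2-constrained group with no nontrivial normal subgroup of odd order such that O₂(X) has sectional 2-rank at most 4, and write Q for X/O₂(X). Then Q is isomorphic to the projective special linear group of dimension 3 over the field with 2 elements, to an alternating group of degree n with 5 ≤ n ≤ 8, to a symmetric group of degree n with 5 ≤ n ≤ 7, or else O₃(Q) has order 3 and Q/O₃(Q) is isomorphic to the alternating or the symmetric group of degree 5 (so Q is the direct product of a group of order 3 with the alternating group of degree 5, or an extension of that direct product by a group of order 2). If moreover X itself has sectional 2-rank at most 4,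 then Q is not isomorphic to the symmetric group of degree 6 or 7 nor to the alternating group of degree 8. -/
theorem result {X : Type*} [Group X] [Finite X] (hns : ¬ Group.IsSolvable X) (hc : Cfsg.IsPConstrained 2 X) (hO : Cfsg.oddCore X = ⊥)
    (h4 : Cfsg.SectionalPRankLE 2 4 ↥(Cfsg.pCore 2 X)) :
    ((∃ (F : Type) (_ : Field F) (_ : Fintype F), Fintype.card F = 2 ∧
          Nonempty (X ⧸ Cfsg.pCore 2 X ≃* Matrix.ProjectiveSpecialLinearGroup (Fin 3) F)) ∨
        (∃ n : ℕ, 5 ≤ n ∧ n ≤ 8 ∧ Nonempty (X ⧸ Cfsg.pCore 2 X ≃* ↥(alternatingGroup (Fin n)))) ∨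
        (∃ n : ℕ, 5 ≤ n ∧ n ≤ 7 ∧ Nonempty (X ⧸ Cfsg.pCore 2 X ≃* Equiv.Perm (Fin n))) ∨
        (Nat.card ↥(Cfsg.pCore 3 (X ⧸ Cfsg.pCore 2 X)) = 3 ∧
          (Nonempty ((X ⧸ Cfsg.pCore 2 X) ⧸ Cfsg.pCore 3 (X ⧸ Cfsg.pCore 2 X) ≃* ↥(alternatingGroup (Fin 5))) ∨
            Nonempty ((X ⧸ Cfsg.pCore 2 X) ⧸ Cfsg.pCore 3 (X ⧸ Cfsg.pCore 2 X) ≃* Equiv.Perm (Fin 5))))) ∧
      (Cfsg.SectionalPRankLE 2 4 X →
        ¬ (Nonempty (X ⧸ Cfsg.pCore 2 X ≃* Equiv.Perm (Fin 6)) ∨ Nonempty (X ⧸ Cfsg.pCore 2 X ≃* Equiv.Perm (Fin 7)) ∨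
            Nonempty (X ⧸ Cfsg.pCore 2 X ≃* ↥(alternatingGroup (Fin 8))))) := by
  have hs : ¬ Group.IsSolvable (X ⧸ pCore 2 X) := fun h => by
    have : Fact (Nat.Prime 2) := ⟨Nat.prime_two⟩
    have := (H1.isPGroup_pCore (G := X) 2).isNilpotent
    exact hns (Group.isSolvable_of_ker_le_range (pCore 2 X).subtype (QuotientGroup.mk' (pCore 2 X)) (by
      rw [QuotientGroup.ker_mk', range_subtype]))
  refine ⟨?_, fun h => ?_⟩
  · obtain ⟨f, hf⟩ := S3103.result hc hO h4
    rcases H18.A8.emb_a8 f hf hs (H1.pCore_quotient_pCore 2) with ⟨_, h⟩ | h | h | h | ⟨N, _, h, h'⟩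
    · exact Or.inl ⟨ZMod 2, inferInstance, inferInstance, by simp,
        (H18.A8.sl3_of_simple h).map fun e => e.trans H18.sl3_psl3.some⟩
    · exact Or.inr (Or.inl h)
    · exact Or.inr (Or.inr (Or.inl ⟨5, by omega, by omega, h⟩))
    · exact Or.inr (Or.inr (Or.inl ⟨6, by omega, by omega, h⟩))
    · have hN : IsPGroup 3 N := IsPGroup.of_card (n := 1) (by rw [h]; rfl)
      have e : pCore 3 (X ⧸ pCore 2 X) = N := by
        rcases h' with ⟨⟨e⟩⟩ | ⟨⟨e⟩⟩
        · exact pq hN e core_a5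
        · exact pq hN e core_s5
      subst e
      exact Or.inr (Or.inr (Or.inr ⟨h, h'⟩))
  · have hcc := (H4.isPConstrained_iff_of_eq_bot hO).1 hc
    rintro (⟨⟨e⟩⟩ | ⟨⟨e⟩⟩ | ⟨⟨e⟩⟩)
    · exact R4.no_s6' hcc (R4.sc_of h) e.symm.toMonoidHom e.symm.injective
    · exact R4.no_s6' hcc (R4.sc_of h) (e.symm.toMonoidHom.comp
        (Perm.viaEmbeddingHom (Fin.castLEEmb (by norm_num))))
        (e.symm.injective.comp (Perm.viaEmbeddingHom_injective _))
    · obtain ⟨f, hf⟩ := SyA.exists_sym_alt (k := 6) (n := 8) le_rfl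
      exact R4.no_s6' hcc (R4.sc_of h) (e.symm.toMonoidHom.comp f) (e.symm.injective.comp hf)

end Cfsg.Agent.S3104
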