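import Cfsg.Statements.S3356
import Cfsg.Agent.H25.HalfTr
import Cfsg.Agent.H25.PrimeSyl

set_option autoImplicit false
open Cfsg

namespace Cfsg.Agent.S3356

/-- Let G be a finite 3/2-transitive permutation group: G acts faithfully and transitively on a finite set, the point stabilizers are non-trivial, and for each point a all orbits of G_a on the remaining points have the same size. Suppose G has a regular normal subgroup N and G is not a Frobenius group (some two-point stabilizer is non-trivial). Then N is an elementary abelian p-group for some prime p, and every non-trivial normal subgroup of G contains N (so N is the unique minimal normal subgroup). -/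
theorem result {G Ω : Type*} [Group G] [Finite G]
    [MulAction G Ω] [FaithfulSMul G Ω] [Finite Ω] (htrans : MulAction.IsPretransitive G Ω)
    (hne : ∀ a : Ω, MulAction.stabilizer G a ≠ ⊥)
    (hhalf : ∀ a b c : Ω, b ≠ a → c ≠ a →
      Nat.card (MulAction.orbit (MulAction.stabilizer G a) b) = Nat.card (MulAction.orbit (MulAction.stabilizer G a) c))
    (N : Subgroup G) [hN : N.Normal] (hNt : MulAction.IsPretransitive N Ω) (hNr : ∀ a : Ω, MulAction.stabilizer N a = ⊥)
    (hnotF : ∃ a b : Ω, a ≠ b ∧ MulAction.stabilizer G a ⊓ MulAction.stabilizer G b ≠ ⊥) :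
    (∃ p : ℕ, p.Prime ∧ IsMulCommutative N ∧ ∀ x ∈ N, x ^ p = 1) ∧
    (∀ M : Subgroup G, M.Normal → M ≠ ⊥ → N ≤ M) := by
  open MulAction Subgroup in
  obtain ⟨α, β, hαβ, h0⟩ := hnotF
  let φ : stabilizer G α →* MulAut N := MulAut.conjNormal.comp (stabilizer G α).subtype
  letI : MulDistribMulAction (stabilizer G α) N := MulDistribMulAction.compHom N φ
  have hinj : ∀ n n' : N, (n : G) • α = (n' : G) • α → n = n' := fun n n' e => by
    have : n'⁻¹ * n ∈ stabilizer N α := by
      show ((n' : G)⁻¹ * n) • α = α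
      rw [mul_smul, e, inv_smul_smul]
    rw [hNr, mem_bot] at this
    exact (inv_mul_eq_one.1 this).symm
  have hsm : ∀ (h : stabilizer G α) (n : N), ((h • n : N) : G) • α = (h : G) • (n : G) • α := by
    intro h n
    show ((h : G) * n * (h : G)⁻¹) • α = _
    rw [mul_smul, mul_smul, show (h : G)⁻¹ • α = α from h⁻¹.2]
  have hst : ∀ n : N, stabilizer (stabilizer G α) n = stabilizer (stabilizer G α) ((n : G) • α) := by
    intro n
    ext h
    rw [mem_stabilizer_iff, mem_stabilizer_iff]
    exact ⟨fun e => (hsm h n).symm.trans (by rw [e]), fun e => hinj _ _ ((hsm h n).trans e)⟩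
  have : FaithfulSMul (stabilizer G α) N := ⟨fun {a b} h => Subtype.ext
    (eq_of_smul_eq_smul (α := Ω) fun x => by
      obtain ⟨n, rfl⟩ := exists_smul_eq N α x
      exact (hsm a n).symm.trans (by rw [h n, hsm]; rfl))⟩
  have hne1 : ∀ n : N, n ≠ 1 → (n : G) • α ≠ α := fun n hn e => hn (hinj n 1 (by simpa using e))
  obtain ⟨x, hx⟩ := exists_smul_eq N α β
  obtain ⟨⟨p, hp, h1, h2⟩, h3⟩ := H25.half_trans (H := stabilizer G α) (N := N) (fun x y hx hy => by
    rw [hst, hst, index_stabilizer, index_stabilizer]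
    exact hhalf α _ _ (hne1 x hx) (hne1 y hy)) (x₀ := x) (fun e => hαβ (by simpa [e] using hx)) (by
      obtain ⟨⟨g, hg⟩, hg1⟩ := ne_bot_iff_exists_ne_one.1 h0
      rw [hst, show (x : G) • α = β from hx]
      exact ne_bot_iff_exists_ne_one.2 ⟨⟨⟨g, hg.1⟩, hg.2⟩, fun e =>
        hg1 (Subtype.ext (congrArg (fun x => x.1.1) e))⟩)
  refine ⟨⟨p, hp, h1, fun x hx => congrArg Subtype.val (h2 ⟨x, hx⟩)⟩, fun M hM hM0 => ?_⟩
  refine subgroupOf_eq_top.1 (h3 _ (fun h b hb => hM.conj_mem _ hb h) fun e => hM0 ?_)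
  rw [subgroupOf_eq_bot] at e
  refine eq_bot_iff.2 fun m hm => e.le_bot ⟨hm, H25.centralizer_le_of_trans_comm (α := Ω) N ?_⟩
  exact fun n hn => (commute_of_normal_of_disjoint M N hM hN e m n hm hn).symm

end Cfsg.Agent.S3356
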