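import Cfsg.Statements.S3357
import Cfsg.Agent.H25.Zas4

set_option autoImplicit false
open Cfsg

namespace Cfsg.Agent.S3357

/-- Let G be a finite group that occurs as a Frobenius complement. Then G has a faithful irreducible representation over an algebraic closure of the rationals in which no non-identity element of G has 1 as an eigenvalue: there are n ≥ 1 and an injective homomorphism ρ from G to GL(n) over that field, with no invariant subspace other than 0 and the whole space, such that for g ≠ 1 the only vector fixed by ρ(g) is 0. -/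
theorem result {G : Type*} [Group G] [Finite G]
    (hFC : ∃ (L : Type) (_ : Group L) (_ : Finite L) (H : Subgroup L), Cfsg.IsFrobeniusComplement H ∧ Nonempty (G ≃* H)) :
    ∃ (n : ℕ) (ρ : G →* GL (Fin n) (AlgebraicClosure ℚ)), 0 < n ∧ Function.Injective ρ ∧
      (∀ W : Submodule (AlgebraicClosure ℚ) (Fin n → AlgebraicClosure ℚ),
        (∀ g : G, ∀ w ∈ W, ((ρ g : GL (Fin n) (AlgebraicClosure ℚ)) : Matrix (Fin n) (Fin n) (AlgebraicClosure ℚ)).mulVec w ∈ W) → W = ⊥ ∨ W = ⊤) ∧
      ∀ g : G, g ≠ 1 → ∀ v : Fin n → AlgebraicClosure ℚ,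
        ((ρ g : GL (Fin n) (AlgebraicClosure ℚ)) : Matrix (Fin n) (Fin n) (AlgebraicClosure ℚ)).mulVec v = v → v = 0 := by
  have hnt : Nontrivial G := by
    obtain ⟨L, _, _, H, hH, ⟨e⟩⟩ := hFC
    have := (Subgroup.nontrivial_iff_ne_bot H).2 hH.1
    exact e.toEquiv.nontrivial
  obtain ⟨m, hm, h⟩ := H25.fc_of_frob hFC
  obtain ⟨V, _, _, _, _, σ, hσ⟩ := H25.exists_char_zero_rep (AlgebraicClosure ℚ) h hm
  have hfix : ∀ g : G, g ≠ 1 → ∀ v : V, σ g v = v → v = 0 := fun g hg v hv => by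
    have h1 := congrArg (fun φ : Module.End (AlgebraicClosure ℚ) V => φ v) (hσ g hg)
    have h2 : ∀ k, (σ g ^ k) v = v := fun k => by
      induction k with
      | zero => rfl
      | succ k ih => rw [pow_succ, Module.End.mul_apply, hv, ih]
    simp only [LinearMap.sum_apply, h2, Finset.sum_const, Finset.card_range, LinearMap.zero_apply] at h1
    rw [← Nat.cast_smul_eq_nsmul (AlgebraicClosure ℚ), smul_eq_zero] at h1
    exact h1.resolve_left (by exact_mod_cast (orderOf_pos g).ne')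
  obtain ⟨W, ⟨hW0, hW⟩, hmin⟩ := wellFounded_lt.has_min
    {W : Submodule (AlgebraicClosure ℚ) V | W ≠ ⊥ ∧ ∀ g, W ≤ W.comap (σ g)}
    ⟨⊤, top_ne_bot, fun _ => le_top⟩
  let τ := σ.subrepresentation W hW
  let b := Module.finBasis (AlgebraicClosure ℚ) W
  let ρ : G →* GL (Fin (Module.finrank (AlgebraicClosure ℚ) W)) (AlgebraicClosure ℚ) :=
    ((LinearMap.toMatrixAlgEquiv b).toMulEquiv.toMonoidHom.comp τ).toHomUnits
  have hρ : ∀ g w, (ρ g).val.mulVec (b.equivFun w) = b.equivFun (τ g w) := fun g w =>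
    LinearMap.toMatrix_mulVec_repr b b (τ g) w
  have hfp : ∀ g : G, g ≠ 1 → ∀ v, (ρ g).val.mulVec v = v → v = 0 := fun g hg v hv => by
    obtain ⟨w, rfl⟩ := b.equivFun.surjective v
    rw [hρ] at hv
    rw [show w = 0 from Subtype.ext (hfix g hg _ (congrArg Subtype.val (b.equivFun.injective hv))),
      map_zero]
  have : Nontrivial W := Submodule.nontrivial_iff_ne_bot.2 hW0
  refine ⟨_, ρ, Module.finrank_pos, (injective_iff_map_eq_one ρ).2 fun g hg => ?_, fun U hU => ?_, hfp⟩
  · by_contra h1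
    obtain ⟨w, hw⟩ := exists_ne (0 : W)
    exact hw (b.equivFun.map_eq_zero_iff.1 (hfp g h1 _ (by rw [hg]; simp)))
  · refine or_iff_not_imp_left.2 fun hU0 => ?_
    let U' := (U.comap b.equivFun.toLinearMap).map W.subtype
    have h1 : U' ≠ ⊥ := by
      obtain ⟨u, hu, hu0⟩ := (Submodule.ne_bot_iff U).1 hU0
      obtain ⟨w, rfl⟩ := b.equivFun.surjective u
      refine (Submodule.ne_bot_iff _).2 ⟨w, ⟨w, hu, rfl⟩, fun e => hu0 ?_⟩
      rw [show w = 0 from Subtype.ext e, map_zero]
    have h2 : U' = W := by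
      refine (Submodule.map_subtype_le _ _).eq_of_not_lt (hmin U' ⟨h1, fun g => ?_⟩)
      rintro _ ⟨w, hw, rfl⟩
      exact ⟨τ g w, by simpa [← hρ] using hU g _ hw, rfl⟩
    rw [eq_top_iff]
    intro u _
    obtain ⟨w, rfl⟩ := b.equivFun.surjective u
    obtain ⟨w', hw', e⟩ := h2.ge w.2
    rwa [← show w' = w from Subtype.ext e]

end Cfsg.Agent.S3357
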