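import Cfsg.Statements.S3379
import Cfsg.Agent.H1.Basic

set_option autoImplicit false
open Cfsg

namespace Cfsg.Agent.S3379

open Subgroup

/-- Let G be a finite group all of whose Sylow subgroups are cyclic. Then G is generated by two elements x and y of coprime orders n and m with x⁻¹yx = y^r, where gcd(r − 1, m) = 1 and r^n ≡ 1 (mod m). -/
theorem result {G : Type*} [Group G] [Finite G]
    (hZ : ∀ (p : ℕ) [Fact p.Prime] (P : Sylow p G), IsCyclic (P : Subgroup G)) :
    ∃ (x y : G) (n m r : ℕ), Subgroup.closure {x, y} = ⊤ ∧ orderOf x = n ∧ orderOf y = m ∧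
      x⁻¹ * y * x = y ^ r ∧ Nat.Coprime (r - 1) m ∧ Nat.Coprime n m ∧ 1 ≤ r ∧ r ^ n % m = 1 % m := by
  have hG : IsZGroup G := ⟨fun p hp P => by have := Fact.mk hp; exact hZ p P⟩
  obtain ⟨H, hH⟩ := Subgroup.exists_right_complement'_of_coprime hG.coprime_commutator_index
  have h1 : Abelianization G ≃* H := hH.symm.QuotientMulEquiv
  have hHc : IsCyclic H := isCyclic_of_surjective _ h1.surjective
  obtain ⟨x, hx⟩ := (Subgroup.isCyclic_iff_exists_zpowers_eq_top H).1 hHc
  obtain ⟨y, hy⟩ := (Subgroup.isCyclic_iff_exists_zpowers_eq_top (commutator G)).1 hG.isCyclic_commutator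
  have hn : (zpowers y).Normal := hy ▸ inferInstance
  obtain ⟨r0, hr0⟩ : x⁻¹ * y * x ∈ Submonoid.powers y := by
    rw [mem_powers_iff_mem_zpowers]
    simpa using hn.conj_mem y (mem_zpowers y) x⁻¹
  simp only at hr0
  have hpos := orderOf_pos y
  have hr : x⁻¹ * y * x = y ^ (r0 + orderOf y) := by rw [pow_add, pow_orderOf_eq_one, mul_one, hr0]
  set r := r0 + orderOf y
  have htop : closure {x, y} = ⊤ := by
    rw [eq_top_iff, ← hH.sup_eq_top, ← hx, ← hy]
    exact sup_le (zpowers_le.2 (subset_closure (by simp))) (zpowers_le.2 (subset_closure (by simp)))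
  refine ⟨x, y, _, _, r, htop, rfl, rfl, hr, ?_, ?_, by omega, ?_⟩
  · have hN : (zpowers (y ^ (r - 1))).Normal := by
      constructor
      rintro _ ⟨k, rfl⟩ g
      obtain ⟨j, hj⟩ := hn.conj_mem y (mem_zpowers y) g
      simp only at hj ⊢
      rw [← conj_zpow, ← conj_pow, ← hj, ← zpow_natCast (y ^ j), ← zpow_mul y, mul_comm, zpow_mul, zpow_natCast]
      exact zpow_mem (zpow_mem (mem_zpowers _) _) _
    have hc : commutator G ≤ zpowers (y ^ (r - 1)) := by
      rw [← Subgroup.Normal.quotient_commutative_iff_commutator_le]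
      have e : ((x : G ⧸ zpowers (y ^ (r - 1))) * y = y * x) := by
        rw [← QuotientGroup.mk_mul, ← QuotientGroup.mk_mul, QuotientGroup.eq]
        have : (x * y)⁻¹ * (y * x) = y ^ (r - 1) := by
          rw [mul_inv_rev, mul_assoc, ← mul_assoc x⁻¹, hr, inv_mul_eq_iff_eq_mul,
            ← pow_succ', Nat.sub_add_cancel (by omega)]
        rw [this]; exact mem_zpowers _
      have h2 : closure ({(x : G ⧸ zpowers (y ^ (r - 1))), (y : G ⧸ zpowers (y ^ (r - 1)))} : Set _) = ⊤ := by
        have := MonoidHom.map_closure (QuotientGroup.mk' (zpowers (y ^ (r - 1)))) {x, y}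
        rw [htop, Set.image_pair, map_top_of_surjective _ (QuotientGroup.mk'_surjective _)] at this
        exact this.symm
      have h3 := isMulCommutative_closure (k := ({(x : G ⧸ zpowers (y ^ (r - 1))), (y : G ⧸ zpowers (y ^ (r - 1)))} : Set _)) (by
        rintro a (rfl | rfl) b (rfl | rfl)
        · rfl
        · exact e
        · exact e.symm
        · rfl)
      rw [h2] at h3
      exact ⟨⟨fun a b => congrArg Subtype.val (h3.is_comm.comm ⟨a, trivial⟩ ⟨b, trivial⟩)⟩⟩
    exact mem_zpowers_pow_iff.1 (hc (hy ▸ mem_zpowers y))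
  · rw [← Nat.card_zpowers, ← Nat.card_zpowers, hx, hy, ← hH.symm.index_eq_card]
    exact hG.coprime_commutator_index.symm
  · have key : ∀ k : ℕ, (x ^ k)⁻¹ * y * x ^ k = y ^ (r ^ k) := by
      intro k
      induction k with
      | zero => simp
      | succ k ih =>
        have : (x ^ (k + 1))⁻¹ * y * x ^ (k + 1) = x⁻¹ * ((x ^ k)⁻¹ * y * x ^ k) * x⁻¹⁻¹ := by group
        rw [this, ih, ← conj_pow, inv_inv, hr, ← pow_mul, pow_succ']
    have := key (orderOf x)
    rw [pow_orderOf_eq_one, inv_one, one_mul, mul_one] at this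
    exact (pow_eq_pow_iff_modEq.1 ((pow_one y).trans this)).symm

end Cfsg.Agent.S3379
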