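import Cfsg.Statements.S3358
import Cfsg.Agent.H25.FCS3
import Cfsg.Agent.H8.Meta1
import Cfsg.Agent.S3379

set_option autoImplicit false
open Cfsg

namespace Cfsg.Agent.S3358

open Subgroup

theorem pres {G : Type*} [Group G] [Finite G] {x y : G} {n m r : ℕ} (ht : closure {x, y} = ⊤)
    (hx : orderOf x = n) (hy : orderOf y = m) (hr : x⁻¹ * y * x = y ^ r) (hc : n.Coprime m)
    (rels : Set (FreeGroup (Fin 2))) (he : rels = {FreeGroup.of (0 : Fin 2) ^ n,
      FreeGroup.of (1 : Fin 2) ^ m, (FreeGroup.of (0 : Fin 2))⁻¹ * FreeGroup.of 1 * FreeGroup.of 0 *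
        (FreeGroup.of (1 : Fin 2) ^ r)⁻¹}) : Nonempty (G ≃* PresentedGroup rels) := by
  have h1 : ∀ s ∈ rels, FreeGroup.lift ![x, y] s = 1 := by
    rw [he]
    rintro s (rfl | rfl | rfl) <;> simp [← hx, ← hy, hr]
  have h2 : ∀ s ∈ rels, PresentedGroup.mk rels s = 1 := fun s h => PresentedGroup.one_of_mem h
  generalize hm : PresentedGroup.mk rels = μ at h2
  simp only [he, Set.forall_mem_insert, Set.mem_singleton_iff, forall_eq, map_mul, map_pow,
    map_inv, mul_inv_eq_one] at h2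
  subst hm
  obtain ⟨r1, r2, r3⟩ := h2
  let f := PresentedGroup.toGroup h1
  have f0 : f (.of 0) = x := PresentedGroup.toGroup.of h1
  have f1 : f (.of 1) = y := PresentedGroup.toGroup.of h1
  refine ⟨(MulEquiv.ofBijective f ⟨(injective_iff_map_eq_one f).2 fun g hg => ?_, ?_⟩).symm⟩
  · obtain ⟨i, j, rfl⟩ := H8.meta_elem (a := PresentedGroup.of (rels := rels) 1)
      (b := (PresentedGroup.of 0)⁻¹) (n := n) (t := 0) (r := r) (hx ▸ orderOf_pos x) (by
        rw [eq_top_iff, ← PresentedGroup.closure_range_of, closure_le]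
        rintro _ ⟨i, rfl⟩
        fin_cases i
        · exact inv_mem_iff.1 (subset_closure (by simp))
        · exact subset_closure (by simp))
      (by rw [inv_pow, pow_zero, inv_eq_one]; exact r1) (by rw [inv_inv]; exact r3) g
    rw [map_mul, map_zpow, map_zpow, map_inv, f0, f1, inv_zpow, mul_inv_eq_one] at hg
    have h3 : y ^ i = 1 := by
      have : y ^ i ∈ zpowers y ⊓ zpowers x := ⟨⟨i, rfl⟩, ⟨j, hg.symm⟩⟩
      rwa [inf_eq_bot_of_coprime (by rw [Nat.card_zpowers, Nat.card_zpowers, hx, hy]; exact hc.symm),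
        mem_bot] at this
    rw [h3, eq_comm, ← orderOf_dvd_iff_zpow_eq_one, hx] at hg
    rw [← orderOf_dvd_iff_zpow_eq_one, hy] at h3
    obtain ⟨i, rfl⟩ := h3
    obtain ⟨j, rfl⟩ := hg
    rw [inv_zpow, zpow_mul, zpow_mul, zpow_natCast, zpow_natCast,
      show PresentedGroup.of (rels := rels) 0 ^ n = 1 from r1,
      show PresentedGroup.of (rels := rels) 1 ^ m = 1 from r2]
    simp
  · rw [← MonoidHom.range_eq_top, eq_top_iff, ← ht, closure_le]
    rintro _ (rfl | rfl)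
    exacts [⟨_, f0⟩, ⟨_, f1⟩]

/-- Structure of solvable Frobenius complements. Let G be a finite solvable group that occurs as a Frobenius complement. Then G has a normal subgroup G₀ such that G/G₀ is isomorphic to a subgroup of Sym(4) (G₀ is the kernel of a homomorphism to Sym(4)), all Sylow subgroups of G₀ are cyclic, and G₀ has a presentation ⟨x, y | x^n = 1, y^m = 1, x⁻¹ y x = y^r⟩ with n, m ≥ 1, gcd(r − 1, m) = gcd(n, m) = 1 and r^(n/n′) ≡ 1 (mod m), where n′ is the product of the distinct primes dividing n. -/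
theorem result {G : Type*} [Group G] [Finite G] (hsol : Group.IsSolvable G)
    (hFC : ∃ (L : Type) (_ : Group L) (_ : Finite L) (H : Subgroup L), Cfsg.IsFrobeniusComplement H ∧ Nonempty (G ≃* H)) :
    ∃ G₀ : Subgroup G, G₀.Normal ∧
      (∃ f : G →* Equiv.Perm (Fin 4), f.ker = G₀) ∧
      (∀ (p : ℕ) [Fact p.Prime] (P : Sylow p G₀), IsCyclic P) ∧
      ∃ n m r : ℕ, 0 < n ∧ 0 < m ∧ Nat.Coprime (r - 1) m ∧ Nat.Coprime n m ∧ 1 ≤ r ∧
        r ^ (n / ∏ p ∈ n.primeFactors, p) % m = 1 % m ∧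
        Nonempty (G₀ ≃* PresentedGroup
          ({FreeGroup.of (0 : Fin 2) ^ n, FreeGroup.of (1 : Fin 2) ^ m,
            (FreeGroup.of (0 : Fin 2))⁻¹ * FreeGroup.of 1 * FreeGroup.of 0 * (FreeGroup.of (1 : Fin 2) ^ r)⁻¹} :
            Set (FreeGroup (Fin 2)))) := by
  have h := H25.fc_of_frob hFC
  obtain ⟨N, h1, h2, -, h3⟩ := h.exists_fcQuot
  refine ⟨N, h1, h3 hsol, fun p _ P => inferInstance, ?_⟩
  obtain ⟨x, y, n, m, r, ht, hx, hy, hr, c1, c2, r1, r2⟩ :=
    Cfsg.Agent.S3379.result (G := N) fun p _ P => inferInstance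
  have hn := hx ▸ orderOf_pos x
  refine ⟨n, m, r, hn, hy ▸ orderOf_pos y, c1, c2, r1, ?_, pres ht hx hy hr c2 _ rfl⟩
  have key : ∀ k : ℕ, (x ^ k)⁻¹ * y * x ^ k = y ^ (r ^ k) := by
    intro k
    induction k with
    | zero => simp
    | succ k ih =>
      have : (x ^ (k + 1))⁻¹ * y * x ^ (k + 1) = x⁻¹ * ((x ^ k)⁻¹ * y * x ^ k) * x⁻¹⁻¹ := by group
      rw [this, ih, ← conj_pow, inv_inv, hr, ← pow_mul, pow_succ']
  have key2 : ∀ k, orderOf (r : ZMod m) ∣ k ↔ r ^ k % m = 1 % m := fun k => by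
    rw [orderOf_dvd_iff_pow_eq_one, ← Nat.cast_pow, ← Nat.cast_one (R := ZMod m),
      ZMod.natCast_eq_natCast_iff']
  obtain ⟨e, he⟩ := (key2 n).2 r2
  have h4 : ∀ p ∈ n.primeFactors, p ∣ e := fun p hp => by
    obtain ⟨hp, ⟨c, hc⟩, -⟩ := Nat.mem_primeFactors.1 hp
    have ho : orderOf (x ^ c)⁻¹ = p := by
      rw [orderOf_inv, orderOf_pow' _ (by rintro rfl; omega), hx, hc, Nat.gcd_eq_right (by simp),
        Nat.mul_div_cancel _ (Nat.pos_of_ne_zero (by rintro rfl; omega))]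
    have h5 := (h.sub N).mem_centralizer_of_prime (K := zpowers y) inferInstance (ho ▸ hp)
      (mem_normalizer_fintype (by
        rintro _ ⟨k, rfl⟩
        simp only [← conj_zpow]
        rw [inv_inv, key]
        exact zpow_mem (npow_mem_zpowers _ _) _))
      (by rw [ho, Nat.card_zpowers, hy]; exact c2.coprime_dvd_left ⟨c, hc⟩) y (mem_zpowers y)
    have h6 : y ^ r ^ c = y ^ 1 := by rw [← key, ← h5]; simp
    rw [pow_eq_pow_iff_modEq, hy] at h6
    obtain ⟨d, hd⟩ := (key2 c).2 h6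
    refine ⟨d, Nat.eq_of_mul_eq_mul_left (Nat.pos_of_ne_zero fun h0 => ?_) (he.symm.trans ?_)⟩
    · rw [h0] at he; omega
    · rw [hc, hd]; ring
  obtain ⟨d, hd⟩ := Finset.prod_primes_dvd e
    (fun p hp => (Nat.prime_of_mem_primeFactors hp).prime) h4
  refine (key2 _).1 ⟨d, Nat.div_eq_of_eq_mul_right
    (Finset.prod_pos fun p hp => Nat.pos_of_mem_primeFactors hp) ?_⟩
  rw [mul_left_comm, ← hd, ← he]

end Cfsg.Agent.S3358
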