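import Cfsg.Statements.S3359
import Cfsg.Agent.H25.Zas4

set_option autoImplicit false
open Cfsg

namespace Cfsg.Agent.S3359

/-- Structure of non-solvable Frobenius complements. Let G be a finite non-solvable group that occurs as a Frobenius complement. Then G has a normal subgroup G₀ of index 1 or 2 which is the direct product of a subgroup isomorphic to SL(2,5) and a subgroup M of order prime to 30 all of whose Sylow subgroups are cyclic. -/
theorem result {G : Type*} [Group G] [Finite G] (hns : ¬ Group.IsSolvable G)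
    (hFC : ∃ (L : Type) (_ : Group L) (_ : Finite L) (H : Subgroup L), Cfsg.IsFrobeniusComplement H ∧ Nonempty (G ≃* H)) :
    ∃ G₀ : Subgroup G, G₀.Normal ∧ (G₀.index = 1 ∨ G₀.index = 2) ∧
      ∃ S M : Subgroup G, S ⊔ M = G₀ ∧ S ⊓ M = ⊥ ∧ (∀ s ∈ S, ∀ x ∈ M, s * x = x * s) ∧
        Nonempty (S ≃* Matrix.SpecialLinearGroup (Fin 2) (ZMod 5)) ∧
        (∀ (p : ℕ) [Fact p.Prime] (P : Sylow p M), IsCyclic P) ∧ (Nat.card M).Coprime 30 := by
  have h := H25.fc_of_frob hFC
  obtain ⟨f, M, hf, hn, -, h1, h2, h3, h4⟩ := h.nonsolvable_structure hns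
  have h5 : (f.range ⊔ M).index = 1 ∨ (f.range ⊔ M).index = 2 := by
    have := (f.range ⊔ M).index_ne_zero_of_finite
    omega
  have h6 : IsZGroup M := (h.sub M).isZGroup fun e =>
    absurd (Nat.Coprime.eq_one_of_dvd (Nat.Coprime.coprime_dvd_right (by norm_num) h4).symm e)
      (by norm_num)
  refine ⟨f.range ⊔ M, ?_, h5, f.range, M, rfl, h3, fun s hs x hx => (le_sup_right.trans h1.le) hx s hs,
    ⟨(MonoidHom.ofInjective hf).symm⟩, fun p _ P => inferInstance, h4⟩
  rcases h5 with e | e
  · rw [Subgroup.index_eq_one.1 e]; infer_instance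
  · exact Subgroup.normal_of_index_eq_two e

end Cfsg.Agent.S3359
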