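import Cfsg.Statements.S3361
import Cfsg.Agent.H25.Hup4
import Cfsg.Agent.S0106

set_option autoImplicit false
open Cfsg

namespace Cfsg.Agent.S3361

open Subgroup H25 Module

theorem sl23 {X : Type*} [Group X] [Finite X] (h : Nat.card X = 24) (R : Subgroup X) [R.Normal]
    (e : R ≃* QuaternionGroup 2) (h3 : ¬ 3 ∣ Nat.card (centralizer (R : Set X))) :
    Nonempty (X ≃* Matrix.SpecialLinearGroup (Fin 2) (ZMod 3)) := by
  have h8 : Nat.card R = 8 := by
    rw [Nat.card_congr e.toEquiv, Nat.card_eq_fintype_card, QuaternionGroup.card]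
  have hf : (Nat.card X).factorization 2 = 3 := by
    rw [h, show 24 = 2 ^ 3 * 3 from rfl, Nat.factorization_mul (by norm_num) (by norm_num),
      Nat.prime_two.factorization_pow]
    simp [Nat.factorization_eq_zero_of_not_dvd]
  rcases Cfsg.Agent.S0106.result (Sylow.ofCard (p := 2) R (by rw [h8, hf]; rfl)) 1 le_rfl ⟨e⟩ with
    ⟨P, N, hN, hc⟩ | ⟨H, K, hK, ⟨a⟩⟩
  · have h1 := hc.card_mul_card
    rw [P.card_eq_multiplicity, hf, h] at h1
    have h2 : Nat.card N = 3 := by omega
    refine (h3 (h2 ▸ card_dvd_of_le (commutator_eq_bot_iff_le_centralizer.1 (eq_bot_iff.2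
      ((commutator_le_inf N R).trans (inf_eq_bot_of_coprime (by rw [h2, h8]; norm_num)).le))))).elim
  · have h1 := (K.subgroupOf H).card_mul_index
    have h2 : Nat.card (Matrix.SpecialLinearGroup (Fin 2) (ZMod 3)) = 24 := by
      rw [Nat.card_eq_fintype_card]; decide
    rw [index_eq_card, Nat.card_congr a.toEquiv, h2] at h1
    have h4 := H.card_le_card_group
    have h5 : 0 < Nat.card (K.subgroupOf H) := Nat.card_pos
    have h6 : H = ⊤ := eq_top_of_le_card _ (by omega)
    have h7 : K.subgroupOf H = ⊥ := card_eq_one.1 (by omega)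
    subst h6
    exact ⟨topEquiv.symm.trans (QuotientGroup.quotientBot.symm.trans
      ((QuotientGroup.quotientMulEquivOfEq h7.symm).trans a))⟩

/-- Let q be a prime and V a non-trivial finite vector space over the field with q elements, and let G be a finite solvable group acting faithfully and linearly on V and regularly on the non-zero vectors (transitively, with only the identity fixing a non-zero vector). Then either V can be identified with the additive group of a finite field F so that every element of G acts as x ↦ a·σ(x) (a ∈ F, σ a field automorphism), or V has 5^2, 7^2, 11^2 or 23^2 elements. Moreover, if q ≠ 2 then G has a normal subgroup of index 2, except that when V has 25 elements G may be isomorphic to SL(2,3) and when V has 121 elements G may be isomorphic to SL(2,3) × C₅. -/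
theorem result
    (q : ℕ) [Fact q.Prime] {V : Type*} [AddCommGroup V] [Module (ZMod q) V] [Finite V] [Nontrivial V]
    {G : Type*} [Group G] [Finite G] (hsol : Group.IsSolvable G)
    (ρ : G →* (V ≃ₗ[ZMod q] V)) (hρ : Function.Injective ρ)
    (htrans : ∀ v w : V, v ≠ 0 → w ≠ 0 → ∃ g : G, ρ g v = w)
    (hreg : ∀ v : V, v ≠ 0 → ∀ g : G, ρ g v = v → g = 1) :
    ((∃ (F : Type) (_ : Field F) (_ : Fintype F) (e : V ≃+ F),
        ∀ g : G, ∃ (a : F) (σ : F ≃+* F), ∀ v : V, e (ρ g v) = a * σ (e v)) ∨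
      Nat.card V ∈ ({25, 49, 121, 529} : Set ℕ)) ∧
    (q ≠ 2 → (∃ N : Subgroup G, N.Normal ∧ N.index = 2) ∨
      (Nat.card V = 25 ∧ Nonempty (G ≃* Matrix.SpecialLinearGroup (Fin 2) (ZMod 3))) ∨
      (Nat.card V = 121 ∧ Nonempty (G ≃* Matrix.SpecialLinearGroup (Fin 2) (ZMod 3) × Multiplicative (ZMod 5)))) := by
  let σ := LinearEquiv.automorphismGroup.toLinearMapMonoidHom.comp ρ
  have hσ : Function.Injective σ := LinearEquiv.toLinearMap_injective.comp hρ
  have ht : LTrans σ := htrans
  have hF : FC G := fc_of_lin ρ hreg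
  have hG := card_of_reg ht hreg
  refine ⟨?_, fun hq => ?_⟩
  · rcases huppert hσ ht with ⟨n, -, -, e, he⟩ | ⟨K, _, _, _, _, A, N, r, h, h1⟩
    · exact Or.inl ⟨_, _, Fintype.ofFinite _, e, he⟩
    · exact Or.inr (h.card_reg h1 ht hreg hF)
  by_cases h2 : HasNormalPComplement 2 G
  · obtain ⟨P, N, hN, hc⟩ := h2
    obtain ⟨k, hk⟩ := P.isPGroup'.exists_card_eq
    have h3 : 2 ∣ Nat.card G := by
      rw [hG, natCard_eq_pow_finrank (K := ZMod q), Nat.card_zmod]
      exact even_iff_two_dvd.1 (Nat.Odd.sub_odd (((Fact.out : q.Prime).odd_of_ne_two hq).pow) odd_one)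
    rcases k with _ | k
    · rw [← P.1.card_mul_index, hk, pow_zero, one_mul] at h3
      exact (P.not_dvd_index h3).elim
    have h4 : Nat.card (G ⧸ N) = 2 ^ (k + 1) := by rw [← hk, ← hc.symm.index_eq_card, index_eq_card]
    obtain ⟨M, hM⟩ := Sylow.exists_subgroup_card_pow_prime 2 (n := k) (G := G ⧸ N)
      (h4 ▸ pow_dvd_pow 2 k.le_succ)
    have h5 := M.card_mul_index
    rw [hM, h4, pow_succ] at h5
    have h6 : (M.comap (QuotientGroup.mk' N)).index = 2 := by
      rw [index_comap_of_surjective _ (QuotientGroup.mk'_surjective N)]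
      exact Nat.eq_of_mul_eq_mul_left (by positivity) h5
    exact Or.inl ⟨_, normal_of_index_eq_two h6, h6⟩
  obtain ⟨⟨e⟩, -, h3, φ, hφ⟩ := hF.exists_q8 h2
  rcases surj_or_alt φ (by
    have := Nat.le_of_dvd (Nat.pos_of_ne_zero index_ne_zero_of_finite) h3
    simp only [Nat.card_perm, Nat.card_fin, Nat.factorial, hφ]; omega) with ⟨f, h5, h6⟩ | h5
  swap
  · refine Or.inl ⟨(alternatingGroup (Fin 4)).comap φ, inferInstance, ?_⟩
    rw [index_comap_of_surjective _ h5, alternatingGroup.index_eq_two]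
  right
  set R := pCore 2 G
  set C := centralizer (R : Set G)
  have h7 : C.index = 12 := by
    have := two_mul_nat_card_alternatingGroup (α := Fin 4)
    rw [Nat.card_perm, Nat.card_fin] at this
    rw [← hφ, ← h6, index_ker, MonoidHom.range_eq_top.2 h5, card_top]
    simp only [Nat.factorial] at this; omega
  have r1 : ¬ IsMulCommutative R := fun h => absurd (e.symm.injective ((map_mul _ _ _).trans
    ((h.1.1 (e.symm (.a 1)) (e.symm (.xa 0))).trans (map_mul _ _ _).symm))) (by decide)
  have r2 := ht.irr_of_not_comm hσ r1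
  have r3 : IsMulCommutative C := r2.centralizer_comm hσ
  obtain ⟨K, _, _, _, _, hK⟩ := exists_scalar_field _ (ht.inj_of_comm r3)
  have r4 : R ⊔ C ≤ centralizer (C : Set G) := sup_le (le_centralizer_iff.1 le_rfl) (le_centralizer C)
  have r5 : ∀ x : R, (∀ y, y * e x = e x * y) → (x : G) ∈ C := fun x hx y hy =>
    congrArg Subtype.val (e.injective ((map_mul e ⟨y, hy⟩ x).trans
      ((hx _).trans (map_mul e x ⟨y, hy⟩).symm)))
  have h : Hup K σ C (R ⊔ C) 2 := ⟨hσ, hK, inferInstance, inferInstance, le_sup_right,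
    fun h => r1 ⟨⟨fun a b => Subtype.ext (setLike_mul_comm (mem_sup_left a.2 : _ ∈ R ⊔ C)
      (mem_sup_left b.2))⟩⟩, r2.mono le_sup_left, r4, fun x hx y hy => by
      obtain ⟨a, ha, c, hc, rfl⟩ := mem_sup_of_normal_right.1 hx
      obtain ⟨b, hb, d, hd, rfl⟩ := mem_sup_of_normal_right.1 hy
      rw [← QuotientGroup.eq_one_iff]
      have := (QuotientGroup.eq_one_iff _).2 (r5 (⟨b, hb⟩ * ⟨a, ha⟩ * (⟨b, hb⟩ : R)⁻¹ * (⟨a, ha⟩ : R)⁻¹)
        (by simp only [map_mul, map_inv]; generalize e _ = u; generalize e _ = v; revert u v; decide))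
      simpa [(QuotientGroup.eq_one_iff c).2 hc, (QuotientGroup.eq_one_iff d).2 hd] using this,
    centralizer_le (SetLike.coe_subset_coe.2 le_sup_left), Nat.prime_two, fun x hx => by
      obtain ⟨a, ha, c, hc, rfl⟩ := mem_sup_of_normal_right.1 hx
      rw [← QuotientGroup.eq_one_iff]
      have := (QuotientGroup.eq_one_iff _).2 (r5 (⟨a, ha⟩ ^ 2)
        (by simp only [map_pow]; generalize e _ = u; revert u; decide))
      simpa [(QuotientGroup.eq_one_iff c).2 hc] using this⟩
  have h8 := C.card_mul_index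
  rw [h7, hG] at h8
  obtain ⟨-, h9, h10, ⟨-, h11⟩ | ⟨-, h11, rfl | rfl | rfl | rfl | rfl⟩⟩ := h.card_cases ht
  · omega
  · omega
  · exact Or.inl ⟨h11, sl23 (by omega) R e (by change ¬ 3 ∣ Nat.card C; omega)⟩
  · rw [show Nat.card C = 4 by omega] at h10; omega
  · refine Or.inr ⟨h11, ?_⟩
    have : Fact (Nat.Prime 5) := ⟨Nat.prime_five⟩
    obtain ⟨Z', hZ⟩ := Sylow.exists_subgroup_card_pow_prime 5 (n := 1) (G := C) (by omega)
    let Z := Z'.map C.subtype
    have z1 : Nat.card Z = 5 := (card_subtype _ _).trans hZ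
    have z2 : ∀ z ∈ Z, ∀ g, z * g = g * z := fun z hz g => h9.ge (mem_top g) z (map_subtype_le _ hz)
    have z3 : Z.Normal := ⟨fun z hz g => by rwa [← z2 z hz, mul_inv_cancel_right]⟩
    have z4 := Z.card_mul_index
    rw [z1] at z4
    obtain ⟨H, hH⟩ := exists_right_complement'_of_coprime (N := Z)
      (by rw [z1, show Z.index = 24 by omega]; norm_num)
    have z5 := hH.card_mul_card
    have z6 : R ≤ H := H1.normal_le_of_isPiNat_index (π := {2})
      (H1.isPiNat_card_singleton_iff.2 (H1.isPGroup_pCore 2))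
      ((H1.isPiNat_compl_singleton_iff Nat.prime_two).2 (by rw [hH.index_eq_card, z1]; norm_num))
    obtain ⟨a⟩ := sl23 (X := H) (by rw [z1] at z5; omega) (R.subgroupOf H) ((subgroupOfEquivOfLe z6).trans e)
      fun h => by
        have := h.trans (card_dvd_of_injective ((H.subtype.comp (Subgroup.subtype _)).codRestrict C
          fun x y hy => congrArg Subtype.val (x.2 ⟨y, z6 hy⟩ hy))
          fun x y e => Subtype.ext (Subtype.ext (congrArg (Subtype.val : C → G) e)))
        omega
    let ψ : H × Z →* G := H.subtype.noncommCoprod Z.subtype fun s m => (z2 m m.2 s).symm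
    have hψ : Function.Injective ψ := (MonoidHom.noncommCoprod_injective _ _ _).2
      ⟨H.subtype_injective, Z.subtype_injective, by
        rw [range_subtype, range_subtype]; exact hH.symm.disjoint⟩
    exact ⟨(MulEquiv.ofBijective ψ ((Nat.bijective_iff_injective_and_card ψ).2 ⟨hψ, by
      rw [Nat.card_prod, mul_comm, z5]⟩)).symm.trans
      (a.prodCongr (mulEquivOfPrimeCardEq z1 (by simp)))⟩
  · rw [show Nat.card C = 44 by omega] at h10; omega

end Cfsg.Agent.S3361
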