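import Cfsg.Statements.S3362
import Cfsg.Agent.H25.M12x

set_option autoImplicit false
open Cfsg

namespace Cfsg.Agent.S3362

theorem set8 {G : Type*} (s t u v w a b c : G) :
    ({s, t, u, v, w, a, b, c} : Set G) = {g | g ∈ [u, v, w, s, t, a, b, c]} := by
  ext g; simp only [Set.mem_insert_iff, Set.mem_singleton_iff, Set.mem_setOf_eq,
    List.mem_cons, List.not_mem_nil, or_false]; tauto

theorem set7 {G : Type*} (s t u v w a b c : G) :
    ({s, t, u, v, w, a, b} : Set G) = {g | g ∈ [u, v, w, s, t, a, b, c].take 7} := by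
  ext g; simp only [Set.mem_insert_iff, Set.mem_singleton_iff, Set.mem_setOf_eq,
    List.take_succ_cons, List.take_zero, List.mem_cons, List.not_mem_nil, or_false]; tauto

/-- An explicit construction of the Mathieu groups of degrees 11 and 12. On the points 0, …, 11 let s = (3 4 5)(6 7 8)(9 10 11), t = (3 6 9)(4 7 10)(5 8 11), u = (4 6 5 9)(7 8 11 10), v = (4 7 5 11)(6 10 9 8), w = (4 10 5 8)(6 11 9 7), x₁ = (0 3)(6 7)(8 10)(9 11), x₂ = (0 1)(6 9)(7 10)(8 11), x₃ = (1 2)(6 11)(7 9)(8 10) (each written as a product of transpositions). Then the group M₁₂ generated by all eight permutations is sharply 5-transitive on the 12 points and has order 95040, and the group M₁₁ generated by the first seven has order 7920 and is the stabilizer of the point 2 in M₁₂. -/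
theorem result
    (s t u v w x₁ x₂ x₃ : Equiv.Perm (Fin 12))
    (hs : s = Equiv.swap (3 : Fin 12) 5 * Equiv.swap (3 : Fin 12) 4 * Equiv.swap (6 : Fin 12) 8 * Equiv.swap (6 : Fin 12) 7 * Equiv.swap (9 : Fin 12) 11 * Equiv.swap (9 : Fin 12) 10) (ht : t = Equiv.swap (3 : Fin 12) 9 * Equiv.swap (3 : Fin 12) 6 * Equiv.swap (4 : Fin 12) 10 * Equiv.swap (4 : Fin 12) 7 * Equiv.swap (5 : Fin 12) 11 * Equiv.swap (5 : Fin 12) 8)
    (hu : u = Equiv.swap (4 : Fin 12) 9 * Equiv.swap (4 : Fin 12) 5 * Equiv.swap (4 : Fin 12) 6 * Equiv.swap (7 : Fin 12) 10 * Equiv.swap (7 : Fin 12) 11 * Equiv.swap (7 : Fin 12) 8) (hv : v = Equiv.swap (4 : Fin 12) 11 * Equiv.swap (4 : Fin 12) 5 * Equiv.swap (4 : Fin 12) 7 * Equiv.swap (6 : Fin 12) 8 * Equiv.swap (6 : Fin 12) 9 * Equiv.swap (6 : Fin 12) 10) (hw : w = Equiv.swap (4 : Fin 12) 8 * Equiv.swap (4 : Fin 12) 5 * Equiv.swap (4 : Fin 12) 10 * Equiv.swap (6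 : Fin 12) 7 * Equiv.swap (6 : Fin 12) 9 * Equiv.swap (6 : Fin 12) 11)
    (hx₁ : x₁ = Equiv.swap (0 : Fin 12) 3 * Equiv.swap (6 : Fin 12) 7 * Equiv.swap (8 : Fin 12) 10 * Equiv.swap (9 : Fin 12) 11) (hx₂ : x₂ = Equiv.swap (0 : Fin 12) 1 * Equiv.swap (6 : Fin 12) 9 * Equiv.swap (7 : Fin 12) 10 * Equiv.swap (8 : Fin 12) 11)
    (hx₃ : x₃ = Equiv.swap (1 : Fin 12) 2 * Equiv.swap (6 : Fin 12) 11 * Equiv.swap (7 : Fin 12) 9 * Equiv.swap (8 : Fin 12) 10)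
    (M₁₂ M₁₁ : Subgroup (Equiv.Perm (Fin 12))) (hM₁₂ : M₁₂ = Subgroup.closure {s, t, u, v, w, x₁, x₂, x₃})
    (hM₁₁ : M₁₁ = Subgroup.closure {s, t, u, v, w, x₁, x₂}) :
    MulAction.IsMultiplyPretransitive M₁₂ (Fin 12) 5 ∧ (∀ y : Fin 5 ↪ Fin 12, MulAction.stabilizer M₁₂ y = ⊥) ∧
    Nat.card M₁₂ = 95040 ∧ Nat.card M₁₁ = 7920 ∧
    M₁₁ = M₁₂ ⊓ MulAction.stabilizer (Equiv.Perm (Fin 12)) (2 : Fin 12) := by
  have e12 : M₁₂ = H25.xM12 := by
    rw [hM₁₂, set8, hs, ht, hu, hv, hw, hx₁, hx₂, hx₃]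
    rfl
  have e11 : M₁₁ = H25.xM12 ⊓ MulAction.stabilizer (Equiv.Perm (Fin 12)) (2 : Fin 12) := by
    rw [← H25.xM11_eq, hM₁₁, set7 _ _ _ _ _ _ _ x₃, hs, ht, hu, hv, hw, hx₁, hx₂, hx₃]
    rfl
  rw [e11, e12]
  have h := H25.xM12_shp
  refine ⟨h.tr, h.sh, by rw [h.card]; simp [Nat.descFactorial], ?_, rfl⟩
  have h4 := (h.stab (2 : Fin 12)).card
  have h5 : Nat.card (SubMulAction.ofStabilizer H25.xM12 (2 : Fin 12)) = 11 := by
    have := SubMulAction.nat_card_ofStabilizer_add_one_eq H25.xM12 (2 : Fin 12)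
    rw [Nat.card_fin] at this
    omega
  rw [h5] at h4
  rw [← (show _ = 7920 from h4)]
  symm
  refine Nat.card_congr ⟨fun g => ⟨g.1.1, g.1.2, g.2⟩, fun g => ⟨⟨g.1, g.2.1⟩, g.2.2⟩, fun _ => rfl, fun _ => rfl⟩

end Cfsg.Agent.S3362
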