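import Cfsg.Statements.S3381
import Cfsg.Agent.H25.Prim

set_option autoImplicit false
open Cfsg

namespace Cfsg.Agent.S3381

/-- Let G be a finite group acting faithfully and linearly on a non-trivial finite vector space V over the field with q elements (q prime) so that every non-zero vector has a stabilizer of order 2, and suppose G has a central involution. Then V has q^(2r) elements for some r and G contains exactly q^r + 1 non-central involutions. -/
theorem result
    (q : ℕ) [Fact q.Prime] {V : Type*} [AddCommGroup V] [Module (ZMod q) V] [Finite V] [Nontrivial V]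
    {G : Type*} [Group G] [Finite G] (ρ : G →* (V ≃ₗ[ZMod q] V)) (hρ : Function.Injective ρ)
    (hstab : ∀ v : V, v ≠ 0 → Nat.card {g : G // ρ g v = v} = 2)
    (z : G) (hz : orderOf z = 2) (hzc : z ∈ Subgroup.center G) :
    ∃ r : ℕ, Nat.card V = q ^ (2 * r) ∧
      Nat.card {g : G // orderOf g = 2 ∧ g ∉ Subgroup.center G} = q ^ r + 1 := by
  classical
  have hq : q.Prime := Fact.out
  have hst : ∀ v : V, v ≠ 0 → ∃ t : G, orderOf t = 2 ∧ ρ t v = v ∧ ∀ s, ρ s v = v → s = 1 ∨ s = t := by
    intro v hv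
    obtain ⟨t, ht, hu⟩ := (Nat.card_eq_two_iff' (⟨1, by simp⟩ : {g : G // ρ g v = v})).1 (hstab v hv)
    have h1 : ∀ s, ρ s v = v → s = 1 ∨ s = t := fun s hs => by
      by_cases h : s = 1
      · exact Or.inl h
      · exact Or.inr (congrArg Subtype.val (hu ⟨s, hs⟩ fun e => h (congrArg Subtype.val e)))
    have ht1 : (t : G) ≠ 1 := fun e => ht (Subtype.ext e)
    refine ⟨t, orderOf_eq_prime ?_ ht1, t.2, h1⟩
    rcases h1 (t * t) (by rw [map_mul, LinearEquiv.mul_apply, t.2, t.2]) with h | h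
    · rw [pow_two, h]
    · exact absurd (mul_eq_left.1 h) ht1
  have hsq : ∀ t : G, orderOf t = 2 → ∀ v, ρ t (ρ t v) = v := fun t ht v => by
    rw [← LinearEquiv.mul_apply, ← map_mul, ← pow_two, ← ht, pow_orderOf_eq_one, map_one]; rfl
  have hne : ∀ t : G, orderOf t = 2 → t ≠ 1 := fun t ht e => by simp [e] at ht
  have hcen : ∀ y : G, orderOf y = 2 → y ∈ Subgroup.center G → ∀ v, ρ y v = v → v = 0 := by
    intro y hy hyc w hw
    by_contra hw0
    have hc : ∀ g v, ρ g (ρ y v) = ρ y (ρ g v) := fun g v => by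
      rw [← LinearEquiv.mul_apply, ← map_mul, Subgroup.mem_center_iff.1 hyc g, map_mul]; rfl
    obtain ⟨v, hv⟩ : ∃ v, ρ y v ≠ v := by
      by_contra h
      push Not at h
      exact hne y hy (hρ (by rw [map_one]; exact LinearEquiv.ext h))
    have uniq : ∀ u, u ≠ 0 → ρ y u = u → ∀ t, orderOf t = 2 → ρ t u = u → t = y := by
      intro u hu hyu t ht htu
      obtain ⟨s, -, -, hs⟩ := hst u hu
      exact ((hs t htu).resolve_left (hne t ht)).trans ((hs y hyu).resolve_left (hne y hy)).symm
    by_cases h2 : ρ y v + v = 0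
    · obtain ⟨t, ht, htv, -⟩ := hst (v + w) fun e => hv (by
        rw [eq_neg_of_add_eq_zero_left e, map_neg, hw])
      have h3 := congrArg (ρ y) htv
      rw [← hc, map_add (ρ y), hw] at h3
      have h4 : ρ t (w + w) = w + w := by
        have := congrArg₂ (· + ·) htv h3
        simp only [← map_add] at this
        rwa [show v + w + (ρ y v + w) = (ρ y v + v) + (w + w) by abel, h2, zero_add] at this
      have h5 : w + w ≠ 0 := by
        intro e
        have e2 : (2 : ZMod q) = 0 := by
          rw [← two_smul (ZMod q) w, smul_eq_zero] at e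
          exact e.resolve_right hw0
        have e3 : v + v = 0 := by rw [← two_smul (ZMod q) v, e2, zero_smul]
        exact hv (add_right_cancel (h2.trans e3.symm))
      obtain rfl := uniq _ h5 (by rw [map_add, hw]) t ht h4
      rw [map_add, hw] at htv
      exact hv (add_right_cancel htv)
    · obtain ⟨t, ht, htv, -⟩ := hst v fun e => hv (by simp [e])
      obtain rfl := uniq _ h2 (by rw [map_add, hsq y hy, add_comm]) t ht
        (by rw [map_add, hc, htv])
      exact hv htv
  have hneg : ∀ y : G, orderOf y = 2 → y ∈ Subgroup.center G → ∀ v, ρ y v = -v := fun y hy hyc v =>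
    eq_neg_of_add_eq_zero_left (hcen y hy hyc _ (by rw [map_add, hsq y hy, add_comm]))
  have h2 : ∀ v : V, v = -v → v = 0 := fun v hv => hcen z hz hzc v (by rw [hneg z hz hzc, ← hv])
  have h2' : (2 : ZMod q) ≠ 0 := fun e => by
    obtain ⟨v, hv⟩ := exists_ne (0 : V)
    exact hv (h2 v (eq_neg_of_add_eq_zero_left (by rw [← two_smul (ZMod q) v, e, zero_smul])))
  let I := {g : G // orderOf g = 2 ∧ g ∉ Subgroup.center G}
  let C : G → Submodule (ZMod q) V := fun t => LinearMap.eqLocus (ρ t : V →ₗ[ZMod q] V) LinearMap.id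
  have hC : ∀ t v, v ∈ C t ↔ ρ t v = v := fun _ _ => Iff.rfl
  have hzm : ∀ t v, ρ (t * z) v = -ρ t v := fun t v => by
    rw [map_mul, LinearEquiv.mul_apply, hneg z hz hzc, map_neg]
  have hst' : ∀ v : V, v ≠ 0 → ∃ t : I, ρ t v = v := fun v hv => by
    obtain ⟨t, ht, htv, -⟩ := hst v hv
    exact ⟨⟨t, ht, fun h => hv (hcen t ht h v htv)⟩, htv⟩
  have hdisj : ∀ s t : I, s ≠ t → Disjoint (C s) (C t) := fun s t hst0 => by
    rw [Submodule.disjoint_def]
    intro v h1 h2
    by_contra hv
    obtain ⟨u, -, -, hu⟩ := hst v hv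
    exact hst0 (Subtype.ext (((hu s h1).resolve_left (hne _ s.2.1)).trans
      ((hu t h2).resolve_left (hne _ t.2.1)).symm))
  have hI : ∀ t : I, orderOf ((t : G) * z) = 2 ∧ (t : G) * z ∉ Subgroup.center G := fun t => by
    have h3 : (t : G) * z ∉ Subgroup.center G := fun h => t.2.2 (by
      simpa using mul_mem h (inv_mem hzc))
    refine ⟨orderOf_eq_prime (hρ (LinearEquiv.ext fun v => ?_)) fun e => h3 (e ▸ one_mem _), h3⟩
    rw [pow_two, map_mul, LinearEquiv.mul_apply, hzm, hzm, map_neg, neg_neg, hsq _ t.2.1, map_one]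
    rfl
  let σ : I → I := fun t => ⟨t * z, hI t⟩
  have hσ : ∀ t, σ t ≠ t := fun t e => hne z hz (mul_eq_left.1 (congrArg Subtype.val e))
  have hσσ : ∀ t, σ (σ t) = t := fun t => Subtype.ext (by
    show (t : G) * z * z = t
    rw [mul_assoc, ← pow_two, show z ^ 2 = 1 from hz ▸ pow_orderOf_eq_one z, mul_one])
  have hcompl : ∀ t : I, IsCompl (C t) (C (σ t)) := fun t => by
    refine ⟨hdisj _ _ (hσ t).symm, codisjoint_iff.2 (eq_top_iff.2 fun v _ => ?_)⟩
    have : v = (2 : ZMod q)⁻¹ • ((v + ρ t v) + (v - ρ t v)) := by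
      rw [show v + ρ t v + (v - ρ t v) = (2 : ZMod q) • v by rw [two_smul]; abel, smul_smul,
        inv_mul_cancel₀ h2', one_smul]
    rw [this]
    refine Submodule.smul_mem _ _ (Submodule.add_mem_sup ?_ ?_)
    · rw [hC, map_add, hsq _ t.2.1, add_comm]
    · rw [hC]
      show ρ (t * z) _ = _
      rw [hzm, map_sub, hsq _ t.2.1, neg_sub]
  have hbot : ∀ t : I, C t ≠ ⊥ := fun t e => by
    have := (hcompl t).codisjoint
    rw [e, codisjoint_iff, bot_sup_eq] at this
    refine hne _ (σ t).2.1 (hρ (LinearEquiv.ext fun v => ?_))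
    rw [map_one]
    exact (this ▸ Submodule.mem_top : v ∈ C (σ t))
  have hle : ∀ s : I, 2 * Module.finrank (ZMod q) (C s) ≤ Module.finrank (ZMod q) V := by
    intro s
    obtain ⟨v, hv, hv0⟩ := (Submodule.ne_bot_iff _).1 (hbot s)
    obtain ⟨w, hw, hw0⟩ := (Submodule.ne_bot_iff _).1 (hbot (σ s))
    have hd := Submodule.disjoint_def.1 (hcompl s).disjoint
    obtain ⟨t, ht⟩ := hst' (v + w) fun e => hv0 (hd v hv (by
      rw [eq_neg_of_add_eq_zero_left e]; exact neg_mem hw))
    have h3 : s ≠ t := by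
      rintro rfl
      exact hw0 (hd w (by simpa using sub_mem ((hC _ _).2 ht) hv) hw)
    have h4 : s ≠ σ t := by
      rintro rfl
      rw [hσσ] at hw hd
      exact hv0 (hd v hv (by simpa using sub_mem ((hC _ _).2 ht) hw))
    have e1 := Submodule.finrank_add_finrank_le_of_disjoint (hdisj _ _ h3)
    have e2 := Submodule.finrank_add_finrank_le_of_disjoint (hdisj _ _ h4)
    have e3 := Submodule.finrank_add_eq_of_isCompl (hcompl t)
    omega
  have heq : ∀ s : I, 2 * Module.finrank (ZMod q) (C s) = Module.finrank (ZMod q) V := fun s => by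
    have e1 := hle s
    have e2 := hle (σ s)
    have e3 := Submodule.finrank_add_eq_of_isCompl (hcompl s)
    omega
  obtain ⟨v, hv⟩ := exists_ne (0 : V)
  obtain ⟨t, -⟩ := hst' v hv
  set r := Module.finrank (ZMod q) (C t)
  have hV : Nat.card V = q ^ (2 * r) := by
    rw [Module.natCard_eq_pow_finrank (K := ZMod q), Nat.card_zmod, heq t]
  refine ⟨r, hV, ?_⟩
  have hc1 : ∀ (X : Type _) [Finite X] [Zero X], Nat.card {x : X // x ≠ 0} = Nat.card X - 1 := by
    intro X _ _
    have := Fintype.ofFinite X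
    rw [Nat.card_eq_fintype_card, Nat.card_eq_fintype_card, Fintype.card_subtype_compl,
      Fintype.card_subtype_eq]
  have := Fintype.ofFinite I
  have h3 : Nat.card (Σ s : I, {x : C s // x ≠ 0}) = Nat.card {x : V // x ≠ 0} := by
    refine Nat.card_eq_of_bijective (fun x => ⟨x.2.1, by simpa using x.2.2⟩) ⟨?_, ?_⟩
    · rintro ⟨s, ⟨x, hx⟩, hx0⟩ ⟨s', ⟨x', hx'⟩, hx0'⟩ e
      obtain rfl : x = x' := congrArg Subtype.val e
      obtain rfl : s = s' := by
        by_contra h
        exact hx0 (Subtype.ext (Submodule.disjoint_def.1 (hdisj _ _ h) x hx hx'))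
      rfl
    · rintro ⟨x, hx⟩
      obtain ⟨s, hs⟩ := hst' x hx
      exact ⟨⟨s, ⟨x, hs⟩, fun e => hx (congrArg Subtype.val e)⟩, rfl⟩
  rw [Nat.card_sigma, Finset.sum_congr rfl (g := fun _ => q ^ r - 1), Finset.sum_const,
    Finset.card_univ, smul_eq_mul, hc1, hV, ← Nat.card_eq_fintype_card] at h3
  · have h4 : 1 < q ^ r := Nat.one_lt_pow (fun e => hbot t (Submodule.finrank_eq_zero.1 e)) hq.one_lt
    refine Nat.eq_of_mul_eq_mul_right (show 0 < q ^ r - 1 by omega) (h3.trans ?_)
    rw [mul_comm 2, pow_mul, ← Nat.sq_sub_sq, one_pow]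
  · intro s _
    rw [hc1, Module.natCard_eq_pow_finrank (K := ZMod q), Nat.card_zmod]
    congr 2
    have := heq s
    have := heq t
    omega

end Cfsg.Agent.S3381
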