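import Cfsg.Statements.S3370
import Cfsg.Agent.H25.Roq
import Cfsg.Agent.H25.Fix
import Cfsg.Agent.H23.Stab
import Cfsg.Agent.S3381

set_option autoImplicit false
open Cfsg

namespace Cfsg.Agent.S3370

theorem stab_card {F V G : Type*} [Field F] [AddCommGroup V] [Module F V] [Finite V] [Group G]
    (ρ : G →* (V ≃ₗ[F] V)) (htrans : ∀ v w : V, v ≠ 0 → w ≠ 0 → ∃ g : G, ρ g v = w) {v : V}
    (hv : v ≠ 0) : Nat.card G = (Nat.card V - 1) * Nat.card {g : G // ρ g v = v} := by
  letI : MulAction G {v : V // v ≠ 0} :=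
    { smul := fun g v => ⟨ρ g v, by simpa using v.2⟩
      one_smul := fun v => Subtype.ext (by show ρ 1 _ = _; simp)
      mul_smul := fun a b v => Subtype.ext (H25.rho_mul ρ a b v) }
  have : MulAction.IsPretransitive G {v : V // v ≠ 0} := ⟨fun a b => by
    obtain ⟨g, hg⟩ := htrans a b a.2 b.2
    exact ⟨g, Subtype.ext hg⟩⟩
  rw [H25.card_eq_card_mul_card_stabilizer (⟨v, hv⟩ : {v : V // v ≠ 0})]
  congr 1
  · classical
    have := Fintype.ofFinite V
    rw [Nat.card_eq_fintype_card, Nat.card_eq_fintype_card, Fintype.card_subtype_compl,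
      Fintype.card_subtype_eq]
  · exact Nat.card_congr (Equiv.subtypeEquivRight fun g => Subtype.ext_iff)

theorem num_odd {x n a : ℕ} (hx : Odd x) (hn : Odd n) (h : x ^ n + 1 = 2 ^ a ∨ x ^ n = 2 ^ a + 1) :
    x ^ n = x := by
  have geom : ∀ {x : ℤ}, Odd x → x ^ n - 1 ∣ 2 ^ a → (x ^ n - 1).natAbs = (x - 1).natAbs := by
    intro x hx h
    have h1 : Odd (∑ i ∈ Finset.range n, x ^ i) := by
      have : ∀ n : ℕ, Even (∑ i ∈ Finset.range n, x ^ i - n) := fun n => by
        induction n with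
        | zero => simp
        | succ n ih =>
          rw [Finset.sum_range_succ, Nat.cast_succ, add_sub_add_comm]
          exact ih.add (hx.pow.sub_odd odd_one)
      simpa using (this n).add_odd (show Odd (n : ℤ) by exact_mod_cast hn)
    rw [← mul_geom_sum] at h ⊢
    have h2 : IsUnit (∑ i ∈ Finset.range n, x ^ i) :=
      (Int.isCoprime_two_right.2 h1).pow_right.isUnit_of_dvd ((dvd_mul_left _ _).trans h)
    rw [Int.natAbs_mul, Int.isUnit_iff_natAbs_eq.1 h2, mul_one]
  rcases h with h | h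
  · have := geom (x := -x) (by simpa using (by exact_mod_cast hx : Odd (x : ℤ))) (by
      rw [hn.neg_pow, ← Nat.cast_pow, show -((x ^ n : ℕ) : ℤ) - 1 = -((x ^ n + 1 : ℕ) : ℤ) by
        push_cast; ring, h, neg_dvd]
      push_cast; rfl)
    rw [hn.neg_pow, ← Nat.cast_pow] at this
    omega
  · have := geom (x := x) (by exact_mod_cast hx) (by rw [← Nat.cast_pow, h]; push_cast; simp)
    rw [← Nat.cast_pow] at this
    have h3 : 0 < x ^ n := pow_pos hx.pos n
    have := hx.pos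
    omega

theorem num {p q a n : ℕ} (hp : p.Prime) (hq : q.Prime) (ha : 0 < a) (h : q ^ n = p ^ a + 1) :
    (q = 2 ∧ a = 1) ∨ (p = 2 ∧ n = 1) ∨ (p = 2 ∧ q = 3 ∧ n = 2) := by
  have h1 : 1 < p ^ a := Nat.one_lt_pow ha.ne' hp.one_lt
  have hn : n ≠ 0 := by rintro rfl; rw [pow_zero] at h; omega
  rcases hq.eq_two_or_odd' with rfl | hqo
  · refine Or.inl ⟨rfl, ?_⟩
    obtain ⟨n, rfl⟩ : ∃ k, n = k + 2 := ⟨n - 2, by
      rcases Nat.lt_or_ge n 2 with h2 | h2
      · obtain rfl : n = 1 := by omega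
        omega
      · omega⟩
    have ho : Odd (p ^ a) := by rw [Nat.odd_iff]; rw [pow_succ] at h; omega
    have hpo := (Nat.odd_pow_iff ha.ne').1 ho
    rcases Nat.even_or_odd a with ⟨k, rfl⟩ | hodd
    · obtain ⟨c, hc⟩ : Odd (p ^ k) := hpo.pow
      rw [pow_add p, hc, pow_succ, pow_succ] at h
      have : (2 * c + 1) * (2 * c + 1) + 1 = 4 * (c * c + c) + 2 := by ring
      omega
    · exact Nat.pow_right_injective hp.two_le ((num_odd hpo hodd (Or.inl h.symm)).trans (pow_one p).symm)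
  have hp2 : p = 2 := by
    have : Even (p ^ a) := by
      obtain ⟨c, hc⟩ : Odd (q ^ n) := hqo.pow
      exact ⟨c, by omega⟩
    exact (Nat.Prime.even_iff hp).1 (Nat.even_pow.1 this).1
  subst hp2
  refine Or.inr ?_
  rcases Nat.even_or_odd n with ⟨k, rfl⟩ | hodd
  · right
    obtain ⟨c, hc⟩ : Odd (q ^ k) := hqo.pow
    have h3 : q ^ k = 3 := by
      rw [pow_add, hc] at h
      have h1 : 2 * c * (2 * (c + 1)) = 2 ^ a := by nlinarith
      obtain ⟨i, -, hi⟩ := (Nat.dvd_prime_pow Nat.prime_two).1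
        ((Dvd.intro_left 2 rfl).trans (Dvd.intro _ h1))
      obtain ⟨j, -, hj⟩ := (Nat.dvd_prime_pow Nat.prime_two).1
        ((Dvd.intro_left 2 rfl).trans (Dvd.intro_left _ h1))
      rcases i with _ | i
      · simp [hc, hi]
      · rcases j with _ | j
        · have := Nat.one_le_two_pow (n := i + 1)
          omega
        · rw [pow_succ] at hi hj; omega
    obtain ⟨h4, h5⟩ := (Nat.Prime.pow_eq_iff Nat.prime_three).1 h3
    exact ⟨rfl, h4, by omega⟩
  · exact Or.inl ⟨rfl, Nat.pow_right_injective hq.two_le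
      ((num_odd hqo hodd (Or.inr h)).trans (pow_one q).symm)⟩

theorem four {V G : Type*} [AddCommGroup V] [Module (ZMod 3) V] [Finite V] [Group G] [Fintype G]
    [DecidableEq G] (ρ : G →* (V ≃ₗ[ZMod 3] V)) (hρ : Function.Injective ρ)
    (htrans : ∀ v w : V, v ≠ 0 → w ≠ 0 → ∃ g : G, ρ g v = w) (hV : Nat.card V = 9)
    (hG : Nat.card G = 16) (z : G) (hz : z ≠ 1 ∧ z ^ 2 = 1 ∧ ∀ g, g * z = z * g) :
    Fintype.card {g : G // g ≠ 1 ∧ g ^ 2 = 1 ∧ ¬ ∀ h, h * g = g * h} = 4 := by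
  have : Nontrivial V := Finite.one_lt_card_iff_nontrivial.1 (by omega)
  obtain ⟨r, h1, h2⟩ := Cfsg.Agent.S3381.result 3 ρ hρ (fun v hv => by
    have := stab_card ρ htrans hv
    rw [hV, hG] at this
    omega) z (orderOf_eq_prime hz.2.1 hz.1) (Subgroup.mem_center_iff.2 hz.2.2)
  obtain rfl : r = 1 := by
    have := Nat.pow_right_injective (show 2 ≤ 3 by omega) (h1.symm.trans (hV.trans (by rfl : 9 = 3 ^ 2)))
    omega
  rw [← Nat.card_eq_fintype_card]
  refine (Nat.card_congr (Equiv.subtypeEquivRight fun g => ?_)).trans h2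
  rw [orderOf_eq_prime_iff, Subgroup.mem_center_iff]
  tauto

/-- Let q be a prime, V a non-trivial finite vector space over the field with q elements, and G a non-trivial finite p-group (p prime) acting faithfully and linearly on V and transitively on the non-zero vectors. Then either q = 2 and G has prime order p = |V| − 1; or p = 2, V has q elements with q = 2^m + 1 and G is cyclic of order 2^m; or p = 2, q = 3, V has 9 elements and G is cyclic of order 8, quaternion of order 8, or semidihedral of order 16. -/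
theorem result (q : ℕ) [Fact q.Prime] {V : Type*} [AddCommGroup V] [Module (ZMod q) V] [Finite V] [Nontrivial V]
    {G : Type*} [Group G] [Finite G] [Nontrivial G] (p : ℕ) [Fact p.Prime] (hG : IsPGroup p G)
    (ρ : G →* (V ≃ₗ[ZMod q] V)) (hρ : Function.Injective ρ)
    (htrans : ∀ v w : V, v ≠ 0 → w ≠ 0 → ∃ g : G, ρ g v = w) :
    (q = 2 ∧ p = Nat.card V - 1 ∧ Nat.card G = p) ∨
    (p = 2 ∧ Nat.card V = q ∧ (∃ m : ℕ, q = 2 ^ m + 1 ∧ Nat.card G = 2 ^ m) ∧ IsCyclic G) ∨
    (p = 2 ∧ q = 3 ∧ Nat.card V = 9 ∧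
      ((IsCyclic G ∧ Nat.card G = 8) ∨ Nonempty (G ≃* QuaternionGroup 2) ∨ (Cfsg.IsQuasiDihedral G ∧ Nat.card G = 16))) := by
  have hp : p.Prime := Fact.out
  have hq : q.Prime := Fact.out
  have hirr : ∀ W : Submodule (ZMod q) V, (∀ g : G, ∀ w ∈ W, ρ g w ∈ W) → W = ⊥ ∨ W = ⊤ := by
    intro W hW
    refine or_iff_not_imp_left.2 fun h => eq_top_iff.2 fun v _ => ?_
    obtain ⟨w, hw, hw0⟩ := (Submodule.ne_bot_iff _).1 h
    by_cases hv : v = 0
    · simp [hv]
    obtain ⟨g, rfl⟩ := htrans w v hw0 hv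
    exact hW g w hw
  obtain ⟨v, hv⟩ := exists_ne (0 : V)
  have hst := stab_card ρ htrans hv
  obtain ⟨b, hb⟩ := IsPGroup.iff_card.1 hG
  obtain ⟨a, -, ha⟩ := (Nat.dvd_prime_pow hp).1 (hb ▸ Dvd.intro _ hst.symm)
  have hV := Module.natCard_eq_pow_finrank (K := ZMod q) (V := V)
  rw [Nat.card_zmod] at hV
  have hV1 := Finite.one_lt_card (α := V)
  have ha0 : 0 < a := by
    by_contra h
    obtain rfl : a = 0 := by omega
    rw [pow_zero] at ha
    obtain ⟨g, hg⟩ := exists_ne (1 : G)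
    refine hg (hρ (LinearEquiv.ext fun w => ?_))
    obtain ⟨y, -, hy⟩ := (Nat.card_eq_two_iff' (0 : V)).1 (by omega)
    by_cases hw : w = 0
    · simp [hw]
    · rw [map_one, hy (ρ g w) (by simpa using hw)]
      exact (hy w hw).symm
  have hnum := num hp hq ha0 (hV.symm.trans (by omega))
  have hnoE : ∀ E : Subgroup G, E.Normal → IsMulCommutative E → (∀ x ∈ E, x ^ p = 1) →
      Nat.card E ≠ p ^ 2 := by
    intro E _ h1 h2 h3
    obtain ⟨H, W, hi, hs, hind, hH, -, hσ⟩ := H25.imprim_of_normal_pp hG ρ hρ hirr E h1 h2 h3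
    obtain ⟨i, hi0⟩ : ∃ i, W i ≠ ⊥ := by
      by_contra h
      push Not at h
      rw [iSup_eq_bot.2 h] at hs
      exact bot_ne_top hs
    obtain ⟨w, hw, hw0⟩ := (Submodule.ne_bot_iff _).1 hi0
    have hmap : ∀ g, ∃ j, ρ g w ∈ W j := fun g => by
      by_cases hg : g ∈ H
      · exact ⟨i, hH g hg i w hw⟩
      · obtain ⟨σ, -, h⟩ := hσ g hg
        exact ⟨σ i, h i ▸ ⟨w, hw, rfl⟩⟩
    obtain ⟨j, hij, u, hu, hu0⟩ : ∃ j, j ≠ i ∧ ∃ u ∈ W j, u ≠ 0 := by
      by_contra h
      push Not at h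
      obtain ⟨g, hg⟩ : ∃ g, g ∉ H := by
        by_contra h'
        push Not at h'
        rw [(Subgroup.eq_top_iff' H).2 h', Subgroup.index_top] at hi
        exact hp.one_lt.ne hi
      obtain ⟨σ, h4, h5⟩ := hσ g hg
      have : σ.IsCycle := Equiv.Perm.isCycle_of_prime_order'' (by simpa using hp) (by simpa using h4)
      have h6 : σ i ≠ i := by
        rw [← Equiv.Perm.mem_support, Finset.eq_univ_of_card σ.support
          (by rw [← this.orderOf, h4, Fintype.card_fin])]
        exact Finset.mem_univ i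
      exact hw0 (by simpa using h _ h6 (ρ g w) (h5 i ▸ ⟨w, hw, rfl⟩))
    have hd := fun {i j : Fin p} (h : i ≠ j) => Submodule.disjoint_def.1 (hind.pairwiseDisjoint h)
    obtain ⟨g, hg⟩ := htrans w (w + u) hw0 fun e => hw0 (hd hij.symm w hw (by
      rw [eq_neg_of_add_eq_zero_left e]; exact neg_mem hu))
    obtain ⟨k, hk⟩ := hmap g
    rw [hg] at hk
    by_cases hki : k = i
    · subst hki
      exact hu0 (hd hij u hu (by simpa using sub_mem hk hw))
    · refine hw0 (Submodule.disjoint_def.1 (hind i) w hw ?_)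
      have h1 : ∀ l, l ≠ i → W l ≤ ⨆ j, ⨆ (_ : j ≠ i), W j := fun l hl =>
        le_iSup₂_of_le (f := fun j (_ : j ≠ i) => W j) l hl le_rfl
      simpa using sub_mem (h1 k hki hk) (h1 j hij hu)
  have hreg : (∀ g h : G, g * h = h * g) → Nat.card G = p ^ a := fun hc => by
    have : Nat.card {g : G // ρ g v = v} = 1 := by
      refine Nat.card_eq_one_iff_exists.2 ⟨⟨1, by simp⟩, fun g => Subtype.ext ?_⟩
      by_contra h
      exact hv (H25.fpf_of_central hρ hirr (Subgroup.mem_center_iff.2 fun x => hc x g) h g.2)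
    rw [hst, this, mul_one, ha]
  by_cases hcyc : IsCyclic G
  · have h1 := hreg fun g h => by
      obtain ⟨x, hx⟩ := hcyc.exists_generator
      obtain ⟨i, rfl⟩ := hx g
      obtain ⟨j, rfl⟩ := hx h
      exact zpow_mul_comm x i j
    rcases hnum with ⟨h2, rfl⟩ | ⟨rfl, h2⟩ | ⟨rfl, rfl, h2⟩
    · exact Or.inl ⟨h2, by simpa using ha.symm, by simpa using h1⟩
    · rw [h2, pow_one] at hV
      exact Or.inr (Or.inl ⟨rfl, hV, ⟨a, by omega, h1⟩, hcyc⟩)
    · rw [h2] at hV
      exact Or.inr (Or.inr ⟨rfl, rfl, hV, Or.inl ⟨hcyc, by omega⟩⟩)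
  obtain rfl : p = 2 := by
    by_contra h
    obtain ⟨E, -, hE, h1, h2⟩ := H9.exists_normal_rank_two h hG ⊤ (mt H9.isCyclic_iff_top.1 hcyc)
    exact hnoE E hE h1.1 h1.2 h2
  have hd := ((H9.cyclic_or_dqs hG hnoE).resolve_left hcyc).iso
  have hcG := H23.card_linearEquiv (F := ZMod q) (W := V) rfl
  have hdvd := hcG ▸ Subgroup.card_dvd_of_injective ρ hρ
  rw [ZMod.card] at hdvd
  rcases hnum with ⟨rfl, rfl⟩ | ⟨-, h2⟩ | ⟨-, rfl, h2⟩
  · exfalso
    have : 2 ∣ 2 ^ Module.finrank (ZMod 2) V := dvd_pow_self 2 fun e => by rw [e] at hV; omega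
    omega
  · exfalso
    obtain ⟨u, -, hu⟩ := finrank_eq_one_iff'.1 h2
    have hc : ∀ g h : G, g * h = h * g := fun g h => hρ (LinearEquiv.ext fun w => by
      obtain ⟨c, rfl⟩ := hu w
      obtain ⟨x, hx⟩ := hu (ρ g u)
      obtain ⟨y, hy⟩ := hu (ρ h u)
      simp only [H25.rho_mul, map_smul, ← hx, ← hy, smul_smul, mul_comm])
    refine hcyc (isCyclic_of_injective_ringHom (R := ZMod q)
      ((Units.coeHom _).comp (LinearEquiv.det.comp ρ)) ((injective_iff_map_eq_one _).2 fun g hg => ?_))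
    refine hρ (LinearEquiv.ext fun w => ?_)
    obtain ⟨x, hx⟩ := hu (ρ g u)
    have e : (ρ g : V →ₗ[ZMod q] V) = x • LinearMap.id := LinearMap.ext fun w => by
      obtain ⟨c, rfl⟩ := hu w
      simp [← hx, smul_smul, mul_comm]
    have e2 : LinearMap.det (ρ g : V →ₗ[ZMod q] V) = 1 := by simpa using hg
    rw [e, LinearMap.det_smul, h2, pow_one, LinearMap.det_id, mul_one] at e2
    simpa [e2] using LinearMap.congr_fun e w
  rw [h2] at hV hdvd
  refine Or.inr (Or.inr ⟨rfl, rfl, hV, Or.inr ?_⟩)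
  have h48 : Nat.card G ∣ 48 := by simpa [Fin.prod_univ_two] using hdvd
  have hk : ∀ k, Nat.card G = 2 ^ (k + 3) → k = 0 ∨ k = 1 := fun k hk => by
    by_contra h
    have : 2 ^ 5 ∣ 48 := (pow_dvd_pow 2 (by omega)).trans (hk ▸ h48)
    omega
  have htr : ∀ {G' : Type} [Group G'] (e : G ≃* G') (v w : V), v ≠ 0 → w ≠ 0 →
      ∃ g, ρ.comp e.symm.toMonoidHom g v = w := fun e v w hv hw => by
    obtain ⟨g, hg⟩ := htrans v w hv hw
    exact ⟨e g, by simpa using hg⟩
  rcases hd with ⟨k, ⟨e⟩⟩ | ⟨k, h1, x, y, h3⟩ | ⟨k, ⟨e⟩⟩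
  · exfalso
    have hc := Nat.card_congr e.toEquiv
    rw [DihedralGroup.nat_card] at hc
    rcases hk k (by rw [hc]; ring) with rfl | rfl
    · have hfc : H25.FC G := H25.fc_of_lin ρ fun w hw g hg => by
        have h1 := stab_card ρ htrans hw
        rw [hV, hc] at h1
        have h3 : Nat.card {g : G // ρ g w = w} = 1 := by omega
        obtain ⟨y, hy⟩ := Nat.card_eq_one_iff_exists.1 h3
        exact congrArg Subtype.val ((hy ⟨g, hg⟩).trans (hy ⟨1, by simp⟩).symm)
      have := hfc.invol_eq (x := e.symm (.sr 0)) (y := e.symm (.sr 1))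
        (by rw [← map_pow, e.symm.map_eq_one_iff]; decide) (by rw [Ne, e.symm.map_eq_one_iff]; decide)
        (by rw [← map_pow, e.symm.map_eq_one_iff]; decide) (by rw [Ne, e.symm.map_eq_one_iff]; decide)
      exact absurd (e.symm.injective this) (by decide)
    · have := four (G := DihedralGroup 8) (ρ.comp e.symm.toMonoidHom) (hρ.comp e.symm.injective)
        (htr e) hV (by rw [DihedralGroup.nat_card]) (.r 4) (by decide)
      exact absurd this (by decide)
  · rcases hk (k + 1) h1 with h | h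
    · omega
    · obtain rfl : k = 0 := by omega
      exact Or.inr ⟨⟨3, le_rfl, h1, x, y, h3⟩, h1⟩
  · have hc := Nat.card_congr e.toEquiv
    rw [Nat.card_eq_fintype_card (α := QuaternionGroup _), QuaternionGroup.card] at hc
    rcases hk k (by rw [hc]; ring) with rfl | rfl
    · exact Or.inl ⟨e⟩
    · have := four (G := QuaternionGroup 4) (ρ.comp e.symm.toMonoidHom) (hρ.comp e.symm.injective)
        (htr e) hV (by rw [Nat.card_eq_fintype_card, QuaternionGroup.card]) (.a 4) (by decide)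
      exact absurd this (by decide)

end Cfsg.Agent.S3370
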