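import Cfsg.Statements.S3374
import Cfsg.Agent.H25.Zas4

set_option autoImplicit false
open Cfsg

namespace Cfsg.Agent.S3374

open Matrix MatrixGroups in
def u11 : SL(2, ZMod 11) := ⟨!![0, -1; 1, -1], by decide⟩
open Matrix MatrixGroups in
def v11 : SL(2, ZMod 11) := ⟨!![2, 4; 3, 1], by decide⟩

open Matrix MatrixGroups in
theorem fc_sl25 : H25.FC H25.SL25 := by
  have : Fact (Nat.Prime 11) := ⟨by norm_num⟩
  obtain ⟨f, -, -, hf⟩ := H25.exists_hom_sl25 u11 v11 (-1)
    (by decide) (by decide) (by simp) (by simp) (by simp) (by decide)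
  have hi := H25.sl25_injective f (by rw [hf]; decide)
  refine H25.fc_of_lin (Matrix.SpecialLinearGroup.toLin'.comp f) fun v hv g hg => ?_
  obtain ⟨k, hk⟩ := H4.isPGroup_stabilizer (p := 11) hv ⟨f g, hg⟩
  have h1 : orderOf g ∣ 11 ^ k := by
    rw [← orderOf_injective f hi]
    exact orderOf_dvd_of_pow_eq_one (congrArg Subtype.val hk)
  have h2 : orderOf g ∣ 120 := H25.card_sl25 ▸ orderOf_dvd_natCard g
  exact orderOf_eq_one_iff.1 (Nat.eq_one_of_dvd_coprimes
    (Nat.Coprime.pow_left k (by norm_num)) h1 h2)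

/-- SL(2,5) occurs as a Frobenius complement: there is a finite group L with a subgroup H isomorphic to SL(2,5) which is a non-trivial proper subgroup meeting each conjugate gHg⁻¹ with g outside H trivially. -/
theorem result :
    ∃ (L : Type) (_ : Group L) (_ : Finite L) (H : Subgroup L),
      Cfsg.IsFrobeniusComplement H ∧ Nonempty (H ≃* Matrix.SpecialLinearGroup (Fin 2) (ZMod 5)) := by
  have : Nontrivial H25.SL25 := ⟨⟨_, _, H25.sl25_neg_ne⟩⟩
  obtain ⟨L, _, _, H, h1, ⟨e⟩⟩ := fc_sl25.exists_frob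
  exact ⟨L, _, inferInstance, H, h1, ⟨e.symm⟩⟩

end Cfsg.Agent.S3374
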