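import Cfsg.Statements.S3375


set_option autoImplicit false
open Cfsg

namespace Cfsg.Agent.S3375

theorem aux {H : Type*} [Group H] [Finite H] (γ : MulAut H) (hinv : Function.Involutive γ)
    (h2 : Nat.card {h : H // γ h = h} = 2) (M : Subgroup H) (hM : M.index = 2)
    (hγM : ∀ a, γ a ∈ M ↔ a ∈ M) : ∀ a ∈ M, γ a = a⁻¹ := by
  let C : Subgroup H := γ.toMonoidHom.eqLocus (MonoidHom.id H)
  have hC : Nat.card C = 2 := h2
  let f : H ⧸ C → M := fun q => ⟨q.out * (γ q.out)⁻¹, by
    rw [Subgroup.mul_mem_iff_of_index_two hM, inv_mem_iff, hγM]⟩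
  have hf : Function.Injective f := by
    intro q r h
    have h' : q.out * (γ q.out)⁻¹ = r.out * (γ r.out)⁻¹ := congrArg Subtype.val h
    rw [← q.out_eq', ← r.out_eq', QuotientGroup.eq]
    change γ (q.out⁻¹ * r.out) = q.out⁻¹ * r.out
    rw [map_mul, map_inv, eq_inv_mul_iff_mul_eq, ← mul_assoc, h', inv_mul_cancel_right]
  have hcard : Nat.card (H ⧸ C) = Nat.card M := by
    have e1 := C.index_mul_card
    have e2 := M.index_mul_card
    rw [hC] at e1
    rw [hM] at e2
    change C.index = _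
    omega
  have hs := ((Nat.bijective_iff_injective_and_card f).2 ⟨hf, hcard⟩).2
  intro a ha
  obtain ⟨q, hq⟩ := hs ⟨a, ha⟩
  have hq' : q.out * (γ q.out)⁻¹ = a := congrArg Subtype.val hq
  rw [← hq', map_mul, map_inv, hinv, mul_inv_rev, inv_inv]

/-- Let γ be an automorphism of order 2 of a finite group H. (i) If γ fixes only the identity, then H is abelian and γ inverts every element. (ii) If γ has exactly two fixed points and H has a subgroup of index 2, then H has a γ-invariant abelian subgroup of index 2 on which γ acts by inversion. -/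
theorem result {H : Type*} [Group H] [Finite H] (γ : MulAut H) (hγ : orderOf γ = 2) :
    ((∀ h : H, γ h = h → h = 1) → (∀ a b : H, a * b = b * a) ∧ ∀ h : H, γ h = h⁻¹) ∧
    ((Nat.card {h : H // γ h = h} = 2 ∧ ∃ M : Subgroup H, M.index = 2) →
      ∃ A : Subgroup H, A.index = 2 ∧ IsMulCommutative A ∧ (∀ a ∈ A, γ a ∈ A) ∧ ∀ a ∈ A, γ a = a⁻¹) := by
  have hinv : Function.Involutive γ := fun x => by
    have : γ ^ 2 = 1 := hγ ▸ pow_orderOf_eq_one γ
    rw [← MulAut.mul_apply, ← sq, this, MulAut.one_apply]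
  refine ⟨fun h => ?_, ?_⟩
  · have hf : MonoidHom.FixedPointFree γ := h
    exact ⟨fun a b => hf.commute_all_of_involutive hinv a b,
      fun a => congrFun (hf.coe_eq_inv_of_involutive hinv) a⟩
  · rintro ⟨h2, M, hM⟩
    obtain ⟨A, hA, hγA⟩ : ∃ A : Subgroup H, A.index = 2 ∧ ∀ a, γ a ∈ A ↔ a ∈ A := by
      by_cases h : ∀ a, γ a ∈ M ↔ a ∈ M
      · exact ⟨M, hM, h⟩
      · push Not at h
        obtain ⟨b, hb⟩ := h
        let A : Subgroup H :=
          { carrier := {a | γ a ∈ M ↔ a ∈ M}
            one_mem' := by simp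
            mul_mem' := fun {x y} hx hy => by
              simp only [Set.mem_setOf_eq, map_mul, Subgroup.mul_mem_iff_of_index_two hM] at *
              tauto
            inv_mem' := fun {x} hx => by simpa using hx }
        refine ⟨A, Subgroup.index_eq_two_iff.2 ⟨b, fun c => ?_⟩, fun a => ?_⟩
        · change Xor (γ (c * b) ∈ M ↔ c * b ∈ M) (γ c ∈ M ↔ c ∈ M)
          simp only [map_mul, Subgroup.mul_mem_iff_of_index_two hM, Xor]
          tauto
        · change (γ (γ a) ∈ M ↔ γ a ∈ M) ↔ (γ a ∈ M ↔ a ∈ M)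
          rw [hinv]; tauto
    have key := aux γ hinv h2 A hA hγA
    refine ⟨A, hA, ⟨⟨fun a b => Subtype.ext ?_⟩⟩, fun a ha => (hγA a).2 ha, key⟩
    have := key _ (A.mul_mem a.2 b.2)
    rw [map_mul, key _ a.2, key _ b.2, ← mul_inv_rev, inv_inj] at this
    exact this.symm

end Cfsg.Agent.S3375
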