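import Cfsg.Statements.S3377
import Cfsg.Agent.H25.SL25

set_option autoImplicit false
open Cfsg

namespace Cfsg.Agent.S3377

/-- The alternating group of degree 5 has the presentation ⟨x, y | x³ = 1, y⁵ = 1, (xy)² = 1⟩: the group so presented is isomorphic to Alt(5). -/
theorem result :
    Nonempty (PresentedGroup ({FreeGroup.of (0 : Fin 2) ^ 3, FreeGroup.of (1 : Fin 2) ^ 5,
        (FreeGroup.of (0 : Fin 2) * FreeGroup.of 1) ^ 2} : Set (FreeGroup (Fin 2))) ≃* alternatingGroup (Fin 5)) := by
  open Subgroup Equiv in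
  let u : alternatingGroup (Fin 5) := ⟨swap 0 1 * swap 1 2, by
    rw [Perm.mem_alternatingGroup]; decide⟩
  let v : alternatingGroup (Fin 5) := ⟨swap 0 3 * swap 3 2 * swap 2 4 * swap 4 1, by
    rw [Perm.mem_alternatingGroup]; decide⟩
  have hu : u ^ 3 = 1 := Subtype.ext (by decide)
  have hv : v ^ 5 = 1 := Subtype.ext (by decide)
  have huv : (u * v) ^ 2 = 1 := Subtype.ext (by decide)
  set rels : Set (FreeGroup (Fin 2)) := {FreeGroup.of (0 : Fin 2) ^ 3, FreeGroup.of (1 : Fin 2) ^ 5,
        (FreeGroup.of (0 : Fin 2) * FreeGroup.of 1) ^ 2} with hrels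
  let φ : PresentedGroup rels →* alternatingGroup (Fin 5) :=
    PresentedGroup.toGroup (f := ![u, v]) (by
      rintro r (rfl | rfl | rfl) <;> simp [hu, hv, huv])
  have hr : ∀ r ∈ rels, PresentedGroup.mk rels r = 1 := fun r hr => PresentedGroup.one_of_mem hr
  obtain ⟨f, h1, h2, h3⟩ := H25.exists_hom_sl25 (PresentedGroup.of (rels := rels) 0)
    (PresentedGroup.of 1) 1 (hr _ (by simp [hrels])) (hr _ (by simp [hrels])) (one_pow _)
    (Commute.one_left _) (Commute.one_left _) (hr _ (by simp [hrels]))
  have hf : Function.Surjective f := by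
    rw [← MonoidHom.range_eq_top, eq_top_iff, ← PresentedGroup.closure_range_of, closure_le]
    rintro _ ⟨i, rfl⟩
    fin_cases i
    exacts [⟨_, h1⟩, ⟨_, h2⟩]
  have hfin := Finite.of_surjective f hf
  have hA : Nat.card (alternatingGroup (Fin 5)) = 60 := by
    rw [nat_card_alternatingGroup]; simp [Nat.factorial]
  have hP : Nat.card (PresentedGroup rels) ≤ 60 := by
    have e := card_mul_index f.ker
    rw [index_ker, MonoidHom.range_eq_top.2 hf, card_top, H25.card_sl25] at e
    have : 1 < Nat.card f.ker := (one_lt_card_iff_ne_bot _).2 fun h =>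
      H25.sl25_neg_ne (mem_bot.1 (h ▸ h3))
    nlinarith
  have hs : φ.range = ⊤ := by
    have mu : u ∈ φ.range := ⟨PresentedGroup.of 0, by simp [φ]⟩
    have mv : v ∈ φ.range := ⟨PresentedGroup.of 1, by simp [φ]⟩
    have := Fact.mk Nat.prime_five
    have d1 := φ.range.orderOf_dvd_natCard mu
    have d2 := φ.range.orderOf_dvd_natCard mv
    have d3 := φ.range.orderOf_dvd_natCard (mul_mem mu mv)
    rw [orderOf_eq_prime hu (fun h => absurd (congrArg Subtype.val h) (by decide))] at d1
    rw [orderOf_eq_prime hv (fun h => absurd (congrArg Subtype.val h) (by decide))] at d2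
    rw [orderOf_eq_prime huv (fun h => absurd (congrArg Subtype.val h) (by decide))] at d3
    have e := card_mul_index φ.range
    rw [hA] at e
    obtain ⟨k, hk⟩ : 30 ∣ Nat.card φ.range := by omega
    have e2 : k * φ.range.index = 2 := by rw [hk] at e; nlinarith
    rcases (Nat.dvd_prime Nat.prime_two).1 (Dvd.intro_left _ e2) with h | h
    · exact index_eq_one.1 h
    · rcases IsSimpleGroup.eq_bot_or_eq_top_of_normal _ (normal_of_index_eq_two h) with h' | h'
      · rw [h', card_bot] at hk; omega
      · exact h'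
  have hs' := MonoidHom.range_eq_top.1 hs
  exact ⟨MulEquiv.ofBijective φ ((Nat.bijective_iff_surjective_and_card φ).2
    ⟨hs', le_antisymm (hA ▸ hP) (Nat.card_le_card_of_surjective φ hs')⟩)⟩

end Cfsg.Agent.S3377
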