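import Cfsg.Statements.S3378
import Cfsg.Agent.H25.Zas4
import Cfsg.Agent.S0494
import Cfsg.Agent.H19.BS3

set_option autoImplicit false
open Cfsg

namespace Cfsg.Agent.S3378

open Subgroup H25

theorem sol_of_dvd {G : Type*} [Group G] [Finite G] (h : Nat.card G ∣ 120) (h1 : Nat.card G ≠ 60)
    (h2 : Nat.card G ≠ 120) : Group.IsSolvable G := by
  by_cases h30 : Nat.card G = 30
  · have : IsZGroup G := IsZGroup.of_squarefree (by rw [h30]; decide +kernel)
    infer_instance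
  have key : ∀ p q : ℕ, p.Prime → q.Prime → Nat.card G ∣ p ^ 3 * q → Group.IsSolvable G :=
    fun p q hp hq hd => H17.isSolvable_of_two_primes hp hq fun r hr h3 => by
      rcases (Nat.Prime.dvd_mul hr).1 (h3.trans hd) with h4 | h4
      · exact Or.inl ((Nat.prime_dvd_prime_iff_eq hr hp).1 (hr.dvd_of_dvd_pow h4))
      · exact Or.inr ((Nat.prime_dvd_prime_iff_eq hr hq).1 h4)
  have h5 : Nat.card G ∣ 2 ^ 3 * 3 ∨ Nat.card G ∣ 2 ^ 3 * 5 ∨ Nat.card G ∣ 3 ^ 3 * 5 := by
    have := Nat.le_of_dvd (by norm_num) h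
    generalize Nat.card G = n at *
    interval_cases n <;> simp_all
  rcases h5 with h5 | h5 | h5
  · exact key 2 3 Nat.prime_two Nat.prime_three h5
  · exact key 2 5 Nat.prime_two Nat.prime_five h5
  · exact key 3 5 Nat.prime_three Nat.prime_five h5

theorem sol_of_normal {G : Type*} [Group G] (N : Subgroup G) [N.Normal] (h1 : Group.IsSolvable N)
    (h2 : Group.IsSolvable (G ⧸ N)) : Group.IsSolvable G :=
  solvable_of_ker_le_range N.subtype (QuotientGroup.mk' N) (by simp)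

def ax : alternatingGroup (Fin 5) :=
  ⟨Equiv.swap 0 2 * Equiv.swap 0 4, Equiv.Perm.mem_alternatingGroup.2 (by decide)⟩
def ay : alternatingGroup (Fin 5) :=
  ⟨Equiv.swap 0 4 * Equiv.swap 0 3 * Equiv.swap 0 2 * Equiv.swap 0 1,
    Equiv.Perm.mem_alternatingGroup.2 (by decide)⟩

theorem part1 (G : Type*) [Group G] [Finite G] (hc : Nat.card G = 120) (hs : ¬ Group.IsSolvable G)
    (hP : ∀ P : Sylow 2 G, Nonempty ((P : Subgroup G) ≃* QuaternionGroup 2)) :
    Nonempty (G ≃* SL25) := by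
  classical
  have hO : pPrimeCore 2 G = ⊥ := by
    by_contra hO
    have h1 := H1.not_dvd_card_pPrimeCore (G := G) Nat.prime_two
    have h2 := (pPrimeCore 2 G).card_mul_index
    have h3 : Nat.card (pPrimeCore 2 G) ≠ 1 := by rwa [Ne, card_eq_one]
    rw [hc] at h2
    have h4 : Nat.card (pPrimeCore 2 G) ∣ 120 := Dvd.intro _ h2
    refine hs (sol_of_normal (pPrimeCore 2 G) (sol_of_dvd h4 (by omega) (by omega))
      (sol_of_dvd (Dvd.intro_left _ h2) ?_ ?_)) <;>
    · rw [← index_eq_card]; intro e; rw [e] at h2; omega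
  obtain ⟨P⟩ : Nonempty (Sylow 2 G) := inferInstance
  obtain ⟨e⟩ := hP P
  have hq : ∀ s : QuaternionGroup 2, s ^ 2 = 1 → s = 1 ∨ s = QuaternionGroup.a 2 := by decide
  let z : G := e.symm (QuaternionGroup.a 2)
  have zo : orderOf z = 2 := by
    rw [orderOf_coe, MulEquiv.orderOf_eq]; exact orderOf_eq_prime (by decide) (by decide)
  have hz : ∀ s ∈ (P : Subgroup G), s ^ 2 = 1 → s = 1 ∨ s = z := fun s hs h2 => by
    rcases hq (e ⟨s, hs⟩) (by rw [← map_pow, MulEquiv.map_eq_one_iff]; exact Subtype.ext h2) with h | h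
    · exact Or.inl (congrArg Subtype.val (e.map_eq_one_iff.1 h))
    · exact Or.inr (congrArg Subtype.val (e.eq_symm_apply.2 h))
  have zc : z ∈ center G := H19.brauer_suzuki (S := P)
    ⟨le_top, P.isPGroup', fun Q hQ h _ => P.is_maximal' hQ h⟩ (e.symm _).2 zo
    (fun s hs h => (hz s hs (h ▸ pow_orderOf_eq_one s)).resolve_left (by rintro rfl; simp at h)) hO
  have zc' : ∀ g, Commute z g := fun g => (mem_center_iff.1 zc g).symm
  have z2 : z ^ 2 = 1 := zo ▸ pow_orderOf_eq_one z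
  have hz' : ∀ s : G, s ^ 2 = 1 → s ∈ zpowers z := fun s h2 => by
    obtain ⟨Q, hQ⟩ := (IsPGroup.of_card_dvd_pow (p := 2) (n := 1) (G := zpowers s) (by
      rw [Nat.card_zpowers, pow_one]; exact orderOf_dvd_of_pow_eq_one h2)).exists_le_sylow
    obtain ⟨g, rfl⟩ := MulAction.exists_smul_eq G P Q
    obtain ⟨t, ht, rfl⟩ : s ∈ (P : Subgroup G).map (MulAut.conj g).toMonoidHom := hQ (mem_zpowers s)
    rcases hz t ht ((MulAut.conj g).injective (by rw [map_pow, map_one]; exact h2)) with rfl | rfl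
    · simp
    · simp [← (zc' g).eq]
  have hn : (zpowers z).Normal := ⟨fun c hc g => by
    rwa [mem_center_iff.1 (zpowers_le.2 zc hc) g, mul_inv_cancel_right]⟩
  have hz2 : Nat.card (zpowers z) = 2 := by rw [Nat.card_zpowers, zo]
  have h60 : Nat.card (G ⧸ zpowers z) = 60 := by
    have := (zpowers z).card_mul_index
    rw [index_eq_card, hz2, hc] at this
    omega
  have hs' : ¬ Group.IsSolvable (G ⧸ zpowers z) := fun h => hs (sol_of_normal _ inferInstance h)
  have : Nontrivial (G ⧸ zpowers z) := Finite.one_lt_card_iff_nontrivial.1 (by omega)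
  have : IsSimpleGroup (G ⧸ zpowers z) := ⟨fun N hN => by
    by_contra h
    push Not at h
    have h2 := N.card_mul_index
    have h3 : Nat.card N ≠ 1 := by rw [Ne, card_eq_one]; exact h.1
    have h4 : N.index ≠ 1 := by rw [Ne, index_eq_one]; exact h.2
    rw [h60] at h2
    refine hs' (sol_of_normal N (sol_of_dvd ((Dvd.intro _ h2).trans (by norm_num)) ?_ ?_)
      (sol_of_dvd ((Dvd.intro_left _ h2).trans (by norm_num)) ?_ ?_))
    · intro e; rw [e] at h2; omega
    · intro e; rw [e] at h2; omega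
    · rw [← index_eq_card]; intro e; rw [e] at h2; omega
    · rw [← index_eq_card]; intro e; rw [e] at h2; omega⟩
  obtain ⟨a⟩ := Cfsg.Agent.S0494.result h60
  let π : G →* alternatingGroup (Fin 5) := a.toMonoidHom.comp (QuotientGroup.mk' _)
  have hπ : ∀ g, π g = 1 ↔ g ∈ zpowers z := fun g =>
    a.map_eq_one_iff.trans (QuotientGroup.eq_one_iff g)
  have hπs : Function.Surjective π := a.surjective.comp (QuotientGroup.mk'_surjective _)
  have hsq : ∀ g, π g = 1 → g ^ 2 = 1 := fun g hg => by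
    obtain ⟨k, rfl⟩ := (hπ g).1 hg
    change (z ^ k) ^ 2 = 1
    rw [← zpow_natCast, ← zpow_mul, mul_comm, zpow_mul, zpow_natCast, z2, one_zpow]
  obtain ⟨u, hu⟩ := hπs ax
  obtain ⟨v, hv⟩ := hπs ay
  have hu3 := hsq (u ^ 3) (by rw [map_pow, hu]; decide)
  have hv5 := hsq (v ^ 5) (by rw [map_pow, hv]; decide)
  have e1 : π (u ^ 4 * v ^ 6) = ax * ay := by rw [map_mul, map_pow, map_pow, hu, hv]; decide
  have e2 : (u ^ 4 * v ^ 6) ^ 2 = z := by
    have h1 := hsq ((u ^ 4 * v ^ 6) ^ 2) (by rw [map_pow, e1]; decide)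
    have h2 : (u ^ 4 * v ^ 6) ^ 2 ≠ 1 := fun h => by
      have := (hπ _).2 (hz' _ h)
      rw [e1] at this
      exact absurd this (by decide)
    obtain ⟨k, hk⟩ := (mem_zpowers_iff_mem_range_orderOf).1 (hz' _ h1) |> Finset.mem_image.1
    rw [zo, Finset.mem_range] at hk
    obtain ⟨hk, e⟩ := hk
    interval_cases k
    · exact (h2 (by rw [← e, pow_zero])).elim
    · rw [← e, pow_one]
  obtain ⟨f, -, -, hf⟩ := exists_hom_sl25 (u ^ 4) (v ^ 6) z
    (by rw [← pow_mul, show 4 * 3 = 3 * 2 * 2 from rfl, pow_mul, pow_mul, hu3, one_pow])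
    (by rw [← pow_mul, show 6 * 5 = 5 * 2 * 3 from rfl, pow_mul, pow_mul, hv5, one_pow])
    z2 (zc' _) (zc' _) e2
  have hi := sl25_injective f (by rw [hf]; rintro h; rw [h] at zo; simp at zo)
  exact ⟨(MulEquiv.ofBijective f ((Nat.bijective_iff_injective_and_card f).2
    ⟨hi, card_sl25.trans hc.symm⟩)).symm⟩

theorem part2 (rels : Set (FreeGroup (Fin 3))) (hr : rels = {FreeGroup.of (0 : Fin 3) ^ 3,
    FreeGroup.of (1 : Fin 3) ^ 5, FreeGroup.of (2 : Fin 3) ^ 2,
    (FreeGroup.of (2 : Fin 3))⁻¹ * FreeGroup.of 0 * FreeGroup.of 2 * (FreeGroup.of (0 : Fin 3))⁻¹,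
    (FreeGroup.of (2 : Fin 3))⁻¹ * FreeGroup.of 1 * FreeGroup.of 2 * (FreeGroup.of (1 : Fin 3))⁻¹,
    (FreeGroup.of (0 : Fin 3) * FreeGroup.of 1) ^ 2 * (FreeGroup.of (2 : Fin 3))⁻¹}) :
    Nonempty (PresentedGroup rels ≃* SL25) := by
  have h1 : ∀ r ∈ rels, FreeGroup.lift ![sx, sy, -1] r = 1 := by
    rw [hr]
    rintro r (rfl | rfl | rfl | rfl | rfl | rfl) <;>
    · simp only [map_mul, map_pow, map_inv, FreeGroup.lift_apply_of]
      decide
  have h2 : ∀ r ∈ rels, PresentedGroup.mk rels r = 1 := fun r h => PresentedGroup.one_of_mem h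
  generalize hm : PresentedGroup.mk rels = m at h2
  simp only [hr, Set.forall_mem_insert, Set.mem_singleton_iff, forall_eq, map_mul, map_pow,
    map_inv] at h2
  subst hm
  obtain ⟨r1, r2, r3, r4, r5, r6⟩ := h2
  rw [mul_inv_eq_one] at r4 r5 r6
  rw [mul_assoc, inv_mul_eq_iff_eq_mul] at r4 r5
  obtain ⟨f, f1, f2, f3⟩ := exists_hom_sl25 _ _ _ r1 r2 r3 r4.symm r5.symm r6
  refine ⟨MonoidHom.toMulEquiv (PresentedGroup.toGroup h1) f ?_ ?_⟩
  · refine PresentedGroup.ext fun i => ?_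
    rw [MonoidHom.comp_apply, PresentedGroup.toGroup.of]
    fin_cases i
    exacts [f1, f2, f3]
  · refine sl25_hom_ext ?_ ?_
    · rw [MonoidHom.comp_apply, f1]; exact PresentedGroup.toGroup.of h1
    · rw [MonoidHom.comp_apply, f2]; exact PresentedGroup.toGroup.of h1

/-- Every non-solvable group of order 120 whose Sylow 2-subgroups are quaternion of order 8 is isomorphic to SL(2,5), and SL(2,5) has the presentation ⟨x, y, z | x³ = y⁵ = z² = 1, z⁻¹xz = x, z⁻¹yz = y, (xy)² = z⟩. -/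
theorem result :
    (∀ (G : Type*) [Group G] [Finite G], Nat.card G = 120 → ¬ Group.IsSolvable G →
      (∀ P : Sylow 2 G, Nonempty ((P : Subgroup G) ≃* QuaternionGroup 2)) →
      Nonempty (G ≃* Matrix.SpecialLinearGroup (Fin 2) (ZMod 5))) ∧
    Nonempty (PresentedGroup ({FreeGroup.of (0 : Fin 3) ^ 3, FreeGroup.of (1 : Fin 3) ^ 5, FreeGroup.of (2 : Fin 3) ^ 2,
        (FreeGroup.of (2 : Fin 3))⁻¹ * FreeGroup.of 0 * FreeGroup.of 2 * (FreeGroup.of (0 : Fin 3))⁻¹,
        (FreeGroup.of (2 : Fin 3))⁻¹ * FreeGroup.of 1 * FreeGroup.of 2 * (FreeGroup.of (1 : Fin 3))⁻¹,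
        (FreeGroup.of (0 : Fin 3) * FreeGroup.of 1) ^ 2 * (FreeGroup.of (2 : Fin 3))⁻¹} : Set (FreeGroup (Fin 3)))
      ≃* Matrix.SpecialLinearGroup (Fin 2) (ZMod 5)) := by
  exact ⟨part1, part2 _ rfl⟩

end Cfsg.Agent.S3378
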