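import Cfsg.Statements.S3382
import Cfsg.Agent.H6.WR2

set_option autoImplicit false
open Cfsg

namespace Cfsg.Agent.S3382

open Subgroup H6

variable {F : Type*} [Field F]

def Dg (a b : F) (f : (Fin 2 → F) ≃ₗ[F] (Fin 2 → F)) : Prop := ∀ v, f v = ![a * v 0, b * v 1]
def An (a b : F) (f : (Fin 2 → F) ≃ₗ[F] (Fin 2 → F)) : Prop := ∀ v, f v = ![b * v 1, a * v 0]

variable {a b c d : F} {f g : (Fin 2 → F) ≃ₗ[F] (Fin 2 → F)}

theorem dg_one : Dg (1 : F) 1 1 := fun v => by ext i; fin_cases i <;> simp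
theorem Dg.eq (h : Dg a b f) (k : Dg a b g) : f = g := LinearEquiv.ext fun v => (h v).trans (k v).symm
theorem An.eq (h : An a b f) (k : An a b g) : f = g := LinearEquiv.ext fun v => (h v).trans (k v).symm
theorem Dg.mul (h : Dg a b f) (k : Dg c d g) : Dg (a * c) (b * d) (f * g) := fun v => by
  rw [LinearEquiv.mul_apply, h, k]; simp [mul_assoc]
theorem An.mul (h : An a b f) (k : An c d g) : Dg (b * c) (a * d) (f * g) := fun v => by
  rw [LinearEquiv.mul_apply, h, k]; simp [mul_assoc]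
theorem Dg.mul' (h : Dg a b f) (k : An c d g) : An (b * c) (a * d) (f * g) := fun v => by
  rw [LinearEquiv.mul_apply, h, k]; simp [mul_assoc]
theorem An.mul' (h : An a b f) (k : Dg c d g) : An (a * c) (b * d) (f * g) := fun v => by
  rw [LinearEquiv.mul_apply, h, k]; simp [mul_assoc]
theorem Dg.pow (h : Dg a b f) (n : ℕ) : Dg (a ^ n) (b ^ n) (f ^ n) := by
  induction n with
  | zero => simpa using dg_one
  | succ n ih => simpa [pow_succ] using ih.mul h
theorem Dg.uniq (h : Dg a b f) (k : Dg c d f) : a = c ∧ b = d := by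
  simpa using (h 1).symm.trans (k 1)
theorem An.sq (h : An a b f) : Dg (a * b) (a * b) (f * f) := by simpa [mul_comm] using h.mul h
theorem An.four (h : An a b f) (e : (a * b) ^ 2 = 1) : f ^ 4 = 1 := by
  have := h.sq.pow 2
  rw [e, ← pow_two, ← pow_mul] at this
  exact this.eq dg_one

def mkD (a b : F) (h : (a * b) ^ 2 = 1) : (Fin 2 → F) ≃ₗ[F] (Fin 2 → F) where
  toFun v := ![a * v 0, b * v 1]
  invFun v := ![a * b * b * v 0, a * b * a * v 1]
  map_add' u v := by ext i; fin_cases i <;> simp [mul_add]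
  map_smul' c v := by ext i; fin_cases i <;> simp [mul_left_comm]
  left_inv v := by ext i; fin_cases i <;> simp <;> [linear_combination v 0 * h; linear_combination v 1 * h]
  right_inv v := by ext i; fin_cases i <;> simp <;> [linear_combination v 0 * h; linear_combination v 1 * h]

def sw : (Fin 2 → F) ≃ₗ[F] (Fin 2 → F) := LinearEquiv.funCongrLeft F F (Equiv.swap 0 1)

theorem an_sw : An (1 : F) 1 sw := fun v => by ext i; fin_cases i <;> simp [sw, LinearMap.funLeft_apply]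

def AA (F : Type*) [Field F] [Finite F] : Subgroup ((Fin 2 → F) ≃ₗ[F] (Fin 2 → F)) where
  carrier := {f | ∃ a b, (a * b) ^ 2 = 1 ∧ Dg a b f}
  one_mem' := ⟨1, 1, by simp, dg_one⟩
  mul_mem' := fun ⟨a, b, h, k⟩ ⟨c, d, h', k'⟩ => ⟨_, _, by linear_combination (c * d) ^ 2 * h + h', k.mul k'⟩
  inv_mem' := fun {f} ⟨a, b, h, k⟩ => ⟨a * b * b, a * b * a, by linear_combination ((a * b) ^ 4 + (a * b) ^ 2 + 1) * h,
    fun v => by rw [k.eq (g := mkD a b h) fun _ => rfl]; rfl⟩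


/-- Let q = 2^m + 1 be a prime other than 5. Then the automorphism group of the group of linear maps of F_q² of the forms (x, y) ↦ (a x, ± a⁻¹ y) and (x, y) ↦ (± a⁻¹ y, a x) with a ≠ 0 is itself a 2-group. -/
theorem result (q m : ℕ) [Fact q.Prime] (hq : q = 2 ^ m + 1) (hq5 : q ≠ 5)
    (T : Subgroup ((Fin 2 → ZMod q) ≃ₗ[ZMod q] (Fin 2 → ZMod q)))
    (hT : ∀ f, f ∈ T ↔ ∃ a s : ZMod q, a ≠ 0 ∧ (s = 1 ∨ s = -1) ∧
      ((∀ v, f v = ![a * v 0, s * a⁻¹ * v 1]) ∨ (∀ v, f v = ![s * a⁻¹ * v 1, a * v 0]))) :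
    IsPGroup 2 (MulAut T) := by
  have : Finite ((Fin 2 → ZMod q) ≃ₗ[ZMod q] (Fin 2 → ZMod q)) := DFunLike.finite _
  have mT : ∀ f, f ∈ T ↔ ∃ a b, (a * b) ^ 2 = 1 ∧ (Dg a b f ∨ An a b f) := fun f => by
    rw [hT]
    refine ⟨fun ⟨a, s, h1, h2, h3⟩ => ⟨a, s * a⁻¹, ?_, h3⟩, fun ⟨a, b, h1, h2⟩ => ?_⟩
    · rcases h2 with rfl | rfl <;> simp [h1]
    · have : a ≠ 0 := by rintro rfl; simp at h1
      refine ⟨a, a * b, this, mul_self_eq_one_iff.1 (by rw [← sq, h1]), ?_⟩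
      rwa [mul_comm a b, mul_inv_cancel_right₀ this]
  have pw : ∀ a b : ZMod q, (a * b) ^ 2 = 1 → a ^ 2 ^ m = 1 ∧ b ^ 2 ^ m = 1 := fun a b h => by
    have := fun (x : ZMod q) (hx : x ≠ 0) => ZMod.pow_card_sub_one_eq_one hx
    rw [show q - 1 = 2 ^ m from Nat.sub_eq_of_eq_add hq] at this
    exact ⟨this a (by rintro rfl; simp at h), this b (by rintro rfl; simp at h)⟩
  have h2 : IsPGroup 2 T := fun ⟨f, hf⟩ => by
    obtain ⟨a, b, h, k | k⟩ := (mT f).1 hf
    · have := k.pow (2 ^ m)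
      rw [(pw a b h).1, (pw a b h).2] at this
      exact ⟨m, Subtype.ext (this.eq dg_one)⟩
    · exact ⟨2, Subtype.ext (k.four h)⟩
  have hA : AA (ZMod q) ≤ T := fun f ⟨a, b, h, k⟩ => (mT f).2 ⟨a, b, h, Or.inl k⟩
  have idx : ∀ b ∈ T, ∀ c ∈ T, b ∉ AA (ZMod q) → c ∉ AA (ZMod q) → b⁻¹ * c ∈ AA (ZMod q) := fun f hf g hg h1 h2 => by
    obtain ⟨a, b, h, k | k⟩ := (mT _).1 (T.inv_mem hf)
    · exact absurd ((AA _).inv_mem_iff.1 ⟨a, b, h, k⟩) h1
    obtain ⟨c, d, h', k' | k'⟩ := (mT _).1 hg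
    · exact absurd ⟨c, d, h', k'⟩ h2
    exact ⟨_, _, by linear_combination (c * d) ^ 2 * h + h', k.mul k'⟩
  by_contra hc
  obtain ⟨φ, hφ, x, hx, hne⟩ := exists_oddAut h2 hc
  refine hne ?_
  have hw : sw ∈ T := (mT _).2 ⟨1, 1, by simp, Or.inr an_sw⟩
  obtain rfl | rfl | hm : m = 0 ∨ m = 1 ∨ 3 ≤ m := by
    have : m ≠ 2 := by rintro rfl; exact hq5 hq
    omega
  · refine hφ.fix_of_index (A := AA _) (fun f ⟨a, b, h, k⟩ => ?_) hA idx x hx
    have := pw a b h
    simp only [pow_zero, pow_one] at this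
    rw [this.1, this.2] at k
    rw [k.eq dg_one, hφ.one]
  · have : Fact (2 < q) := ⟨by omega⟩
    have hr := Dg.mul' (f := mkD (-1 : ZMod q) 1 (by simp)) (fun _ => rfl) an_sw
    generalize mkD (-1 : ZMod q) 1 (by simp) * sw = r at hr
    rw [mul_one, mul_one] at hr
    have hrT : r ∈ T := (mT _).2 ⟨_, _, by simp, Or.inr hr⟩
    have h3 : ∀ a f, a * a = 1 → Dg a a f ∨ An a (-a) f → f ∈ zpowers r := fun a f h k => by
      have r2 := hr.sq
      have r3 := r2.mul' hr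
      simp only [mul_neg, mul_one, neg_neg] at r2 r3
      rcases mul_self_eq_one_iff.1 h with rfl | rfl <;> rcases k with k | k
      · rw [k.eq dg_one]; exact one_mem _
      · rw [k.eq hr]; exact mem_zpowers r
      · rw [k.eq r2]; exact mul_mem (mem_zpowers r) (mem_zpowers r)
      · rw [neg_neg] at k
        rw [k.eq r3]; exact mul_mem (mul_mem (mem_zpowers r) (mem_zpowers r)) (mem_zpowers r)
    have h4 : ∀ f ∈ T, f ∉ zpowers r → ∃ a, a * a = 1 ∧ (Dg a (-a) f ∨ An a a f) := fun f hf h => by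
      obtain ⟨a, b, h1, k⟩ := (mT _).1 hf
      obtain ⟨h5, h6⟩ := pw a b h1
      rw [pow_one, pow_two] at h5 h6
      obtain rfl | rfl := mul_self_eq_mul_self_iff.1 (h6.trans h5.symm)
      · exact ⟨_, h5, Or.inr (k.resolve_left fun k => h (h3 _ f h5 (Or.inl k)))⟩
      · exact ⟨_, h5, Or.inl (k.resolve_right fun k => h (h3 _ f h5 (Or.inr k)))⟩
    have h5 := hφ.fix_cyclic hrT (k := 2) (hr.four (by simp)) (by_contra fun e => by
      obtain ⟨a, h5, k⟩ := h4 _ (hφ.maps r hrT) e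
      have h6 : φ r * φ r = 1 := k.elim (fun k => (k.mul k).eq (by simpa [h5] using dg_one))
        fun k => k.sq.eq (by simpa [h5] using dg_one)
      have h7 := hφ.inj _ (mul_mem hrT hrT) _ (one_mem _) (by rw [hφ.mul r hrT r hrT, h6, hφ.one])
      exact ZMod.neg_one_ne_one ((one_mul _).symm.trans (hr.sq.uniq (h7 ▸ dg_one)).1))
    refine hφ.fix_of_index (A := zpowers r) ?_ (zpowers_le.2 hrT) (fun f hf g hg h6 h7 => ?_) x hx
    · rintro _ ⟨i, rfl⟩
      exact (hφ.zpow hrT i).trans (by rw [h5])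
    · obtain ⟨a, h8, k⟩ := h4 _ (inv_mem hf) (mt (zpowers r).inv_mem_iff.1 h6)
      obtain ⟨c, h9, k'⟩ := h4 _ hg h7
      have h10 : a * c * (a * c) = 1 := by linear_combination c * c * h8 + h9
      rcases k with k | k <;> rcases k' with k' | k'
      · exact h3 _ _ h10 (Or.inl (by simpa using k.mul k'))
      · exact h3 (-(a * c)) _ (by simpa using h10) (Or.inr (by simpa using k.mul' k'))
      · exact h3 _ _ h10 (Or.inr (by simpa using k.mul' k'))
      · exact h3 _ _ h10 (Or.inl (k.mul k'))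
  · have h3 : ∀ f ∈ T, f ^ 4 ≠ 1 → φ f ∈ AA (ZMod q) := fun f hf h => by
      obtain ⟨a, b, h1, k | k⟩ := (mT _).1 (hφ.maps f hf)
      · exact ⟨a, b, h1, k⟩
      · exact absurd (hφ.inj _ (pow_mem hf 4) _ (one_mem _) (by rw [hφ.pow hf, k.four h1, hφ.one])) h
    have cm : ∀ f ∈ AA (ZMod q), ∀ g ∈ AA (ZMod q), Commute f g := fun f ⟨a, b, _, k⟩ g ⟨c, d, _, k'⟩ =>
      (k.mul k').eq (by simpa [mul_comm] using k'.mul k)
    obtain ⟨u, hu⟩ := IsCyclic.exists_ofOrder_eq_natCard (α := (ZMod q)ˣ)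
    rw [Nat.card_eq_fintype_card, ZMod.card_units, show q - 1 = 2 ^ m from Nat.sub_eq_of_eq_add hq] at hu
    have hu' : ((u : ZMod q) * (u⁻¹ : (ZMod q)ˣ)) ^ 2 = 1 := by rw [Units.mul_inv, one_pow]
    have hy : (mkD (u : ZMod q) (u⁻¹ : (ZMod q)ˣ) hu') ∈ AA (ZMod q) := ⟨_, _, hu', fun _ => rfl⟩
    have hy4 : (mkD (u : ZMod q) (u⁻¹ : (ZMod q)ˣ) hu') ^ 4 ≠ 1 := fun e => by
      have := ((Dg.pow (f := mkD (u : ZMod q) (u⁻¹ : (ZMod q)ˣ) hu') (fun _ => rfl) 4).uniq (e ▸ dg_one)).1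
      have := Nat.le_of_dvd (by omega) (hu ▸ orderOf_dvd_of_pow_eq_one (Units.ext this : u ^ 4 = 1))
      have := Nat.pow_le_pow_right two_pos hm
      omega
    generalize mkD (u : ZMod q) (u⁻¹ : (ZMod q)ˣ) hu' = y at hy hy4
    have h4 : ∀ f ∈ AA (ZMod q), φ f ∈ AA (ZMod q) := fun f hf => by
      by_cases e : f ^ 4 = 1
      · have := h3 _ (hA (mul_mem hf hy)) (by rwa [(cm f hf y hy).mul_pow, e, one_mul])
        rw [hφ.mul f (hA hf) y (hA hy)] at this
        exact (mul_mem_cancel_right (h3 y (hA hy) hy4)).1 this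
      · exact h3 f (hA hf) e
    have hz : Dg (-1) (-1) (mkD (-1 : ZMod q) (-1) (by simp)) := fun _ => rfl
    generalize mkD (-1 : ZMod q) (-1) (by simp) = z at hz
    have hzA : z ∈ AA (ZMod q) := ⟨_, _, by simp, hz⟩
    have sq1 : ∀ f ∈ AA (ZMod q), f * f = 1 → ∃ a b, (a = 1 ∨ a = -1) ∧ (b = 1 ∨ b = -1) ∧ Dg a b f :=
      fun f ⟨a, b, _, k⟩ e => have := (k.mul k).uniq (e ▸ dg_one)
        ⟨a, b, mul_self_eq_one_iff.1 this.1, mul_self_eq_one_iff.1 this.2, k⟩
    have zz : z * z = 1 := (hz.mul hz).eq (by simpa using dg_one)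
    refine hφ.fix_of_index ((hφ.restrict hA h4).fix_abelian' (h2.to_le hA) cm (z := z) ?_ fun f hf g hg e e' => ?_)
      hA idx x hx
    · obtain ⟨a, b, h5, h6, k⟩ := sq1 _ (h4 z hzA) (by rw [← hφ.mul z (hA hzA) z (hA hzA), zz, hφ.one])
      obtain ⟨w, h7, h8⟩ := hφ.surj hw
      have h9 : z * w = w * z := LinearEquiv.ext fun v => by
        rw [LinearEquiv.mul_apply, LinearEquiv.mul_apply, hz, hz, show ![-1 * v 0, -1 * v 1] = -v by
          ext i; fin_cases i <;> simp, map_neg]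
        ext i; fin_cases i <;> simp
      have h10 := congrArg φ h9
      rw [hφ.mul z (hA hzA) w h7, hφ.mul w h7 z (hA hzA), h8] at h10
      have h11 := LinearEquiv.congr_fun h10 1
      rw [LinearEquiv.mul_apply, LinearEquiv.mul_apply, k, k, an_sw, an_sw] at h11
      obtain rfl : a = b := by simpa using congrFun h11 0
      obtain rfl | rfl := h5
      · have := hφ.inj z (hA hzA) 1 (one_mem _) ((k.eq dg_one).trans hφ.one.symm)
        rw [this, hφ.one]
      · exact k.eq hz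
    · obtain ⟨a, b, h5, h6, k⟩ := sq1 f hf e
      obtain ⟨c, d, h7, h8, k'⟩ := sq1 g hg e'
      have := k.mul k'
      rw [inv_eq_of_mul_eq_one_right e]
      rcases h5 with rfl | rfl <;> rcases h6 with rfl | rfl <;> rcases h7 with rfl | rfl <;>
        rcases h8 with rfl | rfl <;> simp only [mul_one, mul_neg, neg_neg] at this <;>
        first
        | exact Or.inl (k.eq dg_one)
        | exact Or.inr (Or.inl (k.eq hz))
        | exact Or.inr (Or.inr (Or.inl (this.eq dg_one)))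
        | exact Or.inr (Or.inr (Or.inr (Or.inl (this.eq hz))))
        | exact Or.inr (Or.inr (Or.inr (Or.inr (Or.inl (k'.eq dg_one)))))
        | exact Or.inr (Or.inr (Or.inr (Or.inr (Or.inr (k'.eq hz)))))

end Cfsg.Agent.S3382
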