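import Cfsg.Statements.S3383
import Cfsg.Agent.H2.Frob
import Cfsg.Agent.H2.Norm
import Cfsg.Agent.H1.Basic

set_option autoImplicit false
open Cfsg

namespace Cfsg.Agent.S3383

/-- Let H be a Frobenius complement in a finite group L and K the Frobenius kernel (as a subgroup). Then K is characteristic in L, and every normal subgroup of L either contains K or is contained in K. -/
theorem result {L : Type*} [Group L] [Finite L]
    (H : Subgroup L) (hH : Cfsg.IsFrobeniusComplement H)
    (K : Subgroup L) (hK : (K : Set L) = Cfsg.frobeniusKernel H) :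
    K.Characteristic ∧ ∀ N : Subgroup L, N.Normal → K ≤ N ∨ N ≤ K := by
  have hmem : ∀ x, x ∈ K ↔ x ∈ Cfsg.frobeniusKernel H := fun x => by rw [← hK]; rfl
  have hn : K.Normal := ⟨fun x hx g => (hmem _).2 (H2.frobKernel_conj_mem H ((hmem x).1 hx) g)⟩
  have hcard : Nat.card K = H.index := by rw [← H2.card_frobKernel hH, ← hK]; rfl
  have hidx : K.index = Nat.card H := by
    have e1 := K.index_mul_card
    rw [hcard, ← H.card_mul_index] at e1
    exact Nat.eq_of_mul_eq_mul_right (Nat.pos_of_ne_zero Subgroup.index_ne_zero_of_finite) e1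
  constructor
  · rw [Subgroup.characteristic_iff_map_le]
    intro φ
    apply H1.le_of_coprime_index
    rw [Subgroup.card_map_of_injective φ.injective, hcard, hidx]
    exact (H2.frob_coprime hH).symm
  · intro N hN
    rw [or_iff_not_imp_right]
    intro h
    obtain ⟨x, hxN, hxK⟩ := SetLike.not_le_iff_exists.1 h
    intro k hk
    obtain ⟨n, -, rfl⟩ := H2.fpf_surj (MulAut.conj x).toMonoidHom K (fun n hn' => hn.conj_mem n hn' x)
      (fun n hn' he => by
        by_contra h1
        apply hxK
        rw [hmem]
        refine H2.mem_frobKernel_of_commute hH ((hmem n).1 hn') h1 ?_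
        exact (mul_inv_eq_iff_eq_mul.1 he).symm) hk
    have : n⁻¹ * (MulAut.conj x).toMonoidHom n = n⁻¹ * x * n⁻¹⁻¹ * x⁻¹ := by
      simp [mul_assoc]
    rw [this]
    exact N.mul_mem (hN.conj_mem x hxN _) (N.inv_mem hxN)

end Cfsg.Agent.S3383
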