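import Mathlib
import Cfsg.Statements.S3419
import Cfsg.Agent.H8.AltSp

set_option autoImplicit false
open Cfsg

namespace Cfsg.Agent.S3419

theorem result {G : Type*} [Group G] [Finite G] (n : ℕ) (hn : 5 ≤ n)
    (hcard : Nat.card G = Nat.card ↥(alternatingGroup (Fin n)))
    (hspec : Set.range (orderOf : G → ℕ) = Set.range (orderOf : ↥(alternatingGroup (Fin n)) → ℕ)) :
    ¬ Group.IsSolvable G := by
  intro hs
  have key : ∀ p q : ℕ, p.Prime → q.Prime → p < q → n < 2 * p → q ≤ n → False := fun p q hp hq a b c => by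
    obtain ⟨N, H, _, -, -, h1, h2, -⟩ := H8.Sy.alt_factor hn hp hq a b c hcard hspec
    exact h2 ⟨⟨IsSimpleGroup.comm_iff_isSolvable.2 inferInstance⟩⟩
  have k2 : ∀ p q m : ℕ, p.Prime → q.Prime → p ≠ q → n < p + q → n.factorial / 2 = m → p ∣ m → ¬ p ^ 2 ∣ m →
      q ∣ m → ¬ q ^ 3 ∣ m → ¬ q ≡ 1 [MOD p] → ¬ q ^ 2 ≡ 1 [MOD p] → ¬ q ∣ p - 1 → False := by
    intro p q m hp hq a b c d e f g h i j
    have : Nontrivial (Fin n) := Fin.nontrivial_iff_two_le.2 (by omega)
    rw [nat_card_alternatingGroup, Nat.card_eq_fintype_card (α := Fin n), Fintype.card_fin, c] at hcard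
    subst hcard
    obtain ⟨x, hx⟩ := H8.Sy.solv_elt hs hp hq a d e f (fun k k1 k2 => by
      rcases k with _ | _ | _ | k
      · rfl
      · exact (h (by simpa using k2)).elim
      · exact (i k2).elim
      · exact (g ((pow_dvd_pow _ (by omega)).trans k1)).elim) j
    exact H8.Sy.alt_no_elt hp hq a b hspec x hx
  by_cases h11 : 11 ≤ n
  · obtain ⟨p, q, hp, hq, a, b, c⟩ := H8.Sy.exists_two_primes n h11
    exact key p q hp hq a b c
  obtain rfl | rfl | h | rfl : n = 5 ∨ n = 6 ∨ (7 ≤ n ∧ n ≤ 9) ∨ n = 10 := by omega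
  · exact key 3 5 (by norm_num) (by norm_num) (by omega) (by omega) (by omega)
  · exact k2 5 3 360 (by norm_num) (by norm_num) (by omega) (by omega) (by decide) (by decide) (by decide)
      (by decide) (by decide) (by decide) (by decide) (by decide)
  · exact key 5 7 (by norm_num) (by norm_num) (by omega) (by omega) (by omega)
  · exact k2 7 5 1814400 (by norm_num) (by norm_num) (by omega) (by omega) (by decide) (by decide)
      (by decide) (by decide) (by decide) (by decide) (by decide) (by decide)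

end Cfsg.Agent.S3419
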