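import Mathlib
import Cfsg.Statements.S3420
import Cfsg.Agent.H8.AltSp

set_option autoImplicit false
open Cfsg

namespace Cfsg.Agent.S3420

theorem result {G : Type*} [Group G] [Finite G] (n : ℕ) (hn : 11 ≤ n)
    (hcard : Nat.card G = Nat.card ↥(alternatingGroup (Fin n)))
    (hspec : Set.range (orderOf : G → ℕ) = Set.range (orderOf : ↥(alternatingGroup (Fin n)) → ℕ)) :
    ∃ (N H : Subgroup G) (_ : N.Normal), H.Normal ∧ N < H ∧
      IsSimpleGroup (↥H ⧸ N.subgroupOf H) ∧ ¬ IsMulCommutative (↥H ⧸ N.subgroupOf H) ∧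
      ∀ p : ℕ, p.Prime → n < 2 * p → p ≤ n → p ∣ Nat.card (↥H ⧸ N.subgroupOf H) := by
  obtain ⟨p, q, hp, hq, a, b, c⟩ := H8.Sy.exists_two_primes n hn
  exact H8.Sy.alt_factor (by omega) hp hq a b c hcard hspec

end Cfsg.Agent.S3420
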