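import Cfsg.Statements.S3421
import Cfsg.Agent.H2.Rc1
import Cfsg.Agent.H4.Tor3
import Cfsg.Agent.H4.Dk1

set_option autoImplicit false
open Cfsg

namespace Cfsg.Agent.S3421

/-- Let F be a finite field with more than 3 elements. A finite group G is isomorphic to PSL(2, F) if and only if G has the same set of element orders and the same order as PSL(2, F). -/
theorem result {G : Type*} [Group G] [Finite G] {F : Type*} [Field F] [Fintype F] (hF : 3 < Fintype.card F) :
    Nonempty (G ≃* Matrix.ProjectiveSpecialLinearGroup (Fin 2) F) ↔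
      (Set.range (orderOf : G → ℕ) = Set.range (orderOf : Matrix.ProjectiveSpecialLinearGroup (Fin 2) F → ℕ) ∧
        Nat.card G = Nat.card (Matrix.ProjectiveSpecialLinearGroup (Fin 2) F)) := by
  refine ⟨fun ⟨e⟩ => ⟨?_, Nat.card_congr e.toEquiv⟩, fun ⟨hs, hc⟩ => ?_⟩
  · ext n
    exact ⟨fun ⟨g, hg⟩ => ⟨e g, by rw [← hg, e.orderOf_eq]⟩,
      fun ⟨g, hg⟩ => ⟨e.symm g, by rw [← hg, e.symm.orderOf_eq]⟩⟩
  obtain ⟨p, hchar⟩ := CharP.exists F
  haveI hp : Fact p.Prime := ⟨CharP.char_is_prime F p⟩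
  obtain ⟨f, -, hf⟩ := FiniteField.card F p
  set q := Fintype.card F with hq
  have hcard := H4.card_psl (F := F)
  rw [← hc, ← hq] at hcard
  have hpq : p ∣ q := hf ▸ dvd_pow_self p f.ne_zero
  have hspec : ∀ g : G, orderOf g ∣ p ∨ orderOf g ∣ (q - 1) / Nat.gcd 2 (q - 1) ∨
      orderOf g ∣ (q + 1) / Nat.gcd 2 (q - 1) := fun g => by
    obtain ⟨x, hx⟩ : orderOf g ∈ Set.range (orderOf : Matrix.ProjectiveSpecialLinearGroup (Fin 2) F → ℕ) :=
      hs ▸ ⟨g, rfl⟩
    rw [← hx]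
    exact H4.orderOf_psl_cases p x
  have hd1 : Nat.gcd 2 (q - 1) ∣ q - 1 := Nat.gcd_dvd_right _ _
  have hd2 : Nat.gcd 2 (q - 1) ∣ q + 1 := by
    have : q + 1 = (q - 1) + 2 := by omega
    rw [this]; exact dvd_add hd1 (Nat.gcd_dvd_left _ _)
  have hp1 : ¬ p ∣ q - 1 := fun h => hp.out.one_lt.ne' (Nat.dvd_one.1 (by
    have := Nat.dvd_sub hpq h
    rwa [Nat.sub_sub_self (by omega)] at this))
  have hp2 : ¬ p ∣ q + 1 := fun h => hp.out.one_lt.ne' (Nat.dvd_one.1 ((Nat.dvd_add_right hpq).1 h))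
  have hX : H2.PX p G := fun g hg => by
    rcases hspec g with h | h | h
    · exact Nat.dvd_antisymm h hg
    · exact absurd ((hg.trans h).trans (Nat.div_dvd_of_dvd hd1)) hp1
    · exact absurd ((hg.trans h).trans (Nat.div_dvd_of_dvd hd2)) hp2
  obtain ⟨P⟩ : Nonempty (Sylow p G) := inferInstance
  obtain ⟨n, hn⟩ : ∃ n, q = n + 1 := ⟨q - 1, by omega⟩
  have hsq : q ^ 2 - 1 = (q + 1) * (q - 1) := by
    rw [hn, Nat.add_sub_cancel, show (n + 1) ^ 2 = (n + 1 + 1) * n + 1 by ring, Nat.add_sub_cancel]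
  obtain ⟨m, hm⟩ := hd1
  have hdpos : 0 < Nat.gcd 2 (q - 1) := Nat.gcd_pos_of_pos_left _ two_pos
  have hd2' : Nat.gcd 2 (q - 1) ≤ 2 := Nat.gcd_le_left _ two_pos
  have hG : Nat.card G = q * ((q + 1) * m) := by
    apply Nat.eq_of_mul_eq_mul_left hdpos
    rw [hcard, hsq]
    nth_rewrite 1 [hm]
    ring
  have hmd : m ∣ q - 1 := Dvd.intro_left _ hm.symm
  have hnd : ¬ p ∣ (q + 1) * m := fun h => ((Nat.Prime.dvd_mul hp.out).1 h).elim hp2
    fun h => hp1 (h.trans hmd)
  have hP : Nat.card (P : Subgroup G) = q := by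
    rw [Sylow.card_eq_multiplicity, hG, Nat.factorization_mul (by omega) (by rintro e; exact hnd (e ▸ dvd_zero p)),
      Finsupp.add_apply, Nat.factorization_eq_zero_of_not_dvd hnd, hf, Nat.factorization_pow]
    simp [hp.out.factorization_self]
  have hi : (P : Subgroup G).index = (q + 1) * m := by
    have := (P : Subgroup G).card_mul_index
    rw [hP, hG] at this
    exact Nat.eq_of_mul_eq_mul_left (by omega) this
  have hm0 : 0 < m := Nat.pos_of_ne_zero (by rintro rfl; omega)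
  have hns := hX.card_sylow P (by omega) hP (by rw [hi, hsq]; exact Nat.mul_dvd_mul_left _ hmd)
    (by rw [hi]; nlinarith)
  have hZ := hX.z3 P (by intro e; rw [e, Subgroup.card_bot] at hP; omega) (by rw [hns, hP])
  rcases Nat.even_or_odd q with he | ho
  · have hg : Nat.gcd 2 (q - 1) = 1 := by
      rw [← Nat.coprime_iff_gcd_eq_one, Nat.coprime_two_left, hn, Nat.add_sub_cancel]
      rw [hn] at he
      exact Nat.not_even_iff_odd.1 (Nat.even_add_one.1 he)
    rw [hg, one_mul] at hm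
    have h3 := H2.z_three_of_card hZ (n := n) (by omega) (by
      rw [hG, ← hm, hn, Nat.add_sub_cancel]; ring)
    obtain ⟨a, -, ha, K, _, _, hK, e⟩ := H2.z_sl_of_three hZ h3 (by omega) (by rw [hns]; exact he.add_one)
    obtain ⟨e1⟩ := H2.z_psl_of_sl (by rw [hK, ← Nat.add_right_cancel (hns.symm.trans ha)]; exact he) e
    obtain ⟨e2⟩ := H2.z_psl_congr (F := K) (K := F) (by omega) 2
    exact ⟨e1.trans e2⟩
  · have hg : Nat.gcd 2 (q - 1) = 2 := Nat.gcd_eq_left (even_iff_two_dvd.1 (by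
      rw [hn, Nat.add_sub_cancel]; rw [hn] at ho; exact Nat.not_odd_iff_even.1 (Nat.odd_add_one.1 ho)))
    rw [hg] at hm hspec
    have hqm : q = 2 * m + 1 := by omega
    obtain ⟨K, _, _, hK, ⟨e1⟩⟩ := H2.z_psl_of_half' hZ (d := m) (by omega) (by rw [hG, hqm]; ring)
      fun hmo g r hr hrm e => by
        have h1 : (q - 1) / 2 = m := by omega
        have h2 : (q + 1) / 2 = m + 1 := by omega
        rw [h1, h2] at hspec
        rcases hspec g with h | h | h <;> rw [e] at h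
        · have h3 := (dvd_mul_right 2 r).trans (h.trans hpq)
          omega
        · exact (Nat.not_even_iff_odd.2 hmo) (even_iff_two_dvd.2 ((dvd_mul_right 2 r).trans h))
        · exact hr.one_lt.ne' (Nat.dvd_one.1 ((Nat.dvd_add_right hrm).1 ((dvd_mul_left r 2).trans h)))
    obtain ⟨e2⟩ := H2.z_psl_congr (F := K) (K := F) (by omega) 2
    exact ⟨e1.trans e2⟩

end Cfsg.Agent.S3421
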