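import Cfsg.Statements.S3430
import Cfsg.Agent.H25.Zsig

set_option autoImplicit false
open Cfsg

namespace Cfsg.Agent.S3430

/-- Let q, n ≥ 2 be integers. Unless (n = 2 and q + 1 = 2^s·3^t for some s ≥ 0 and t ≤ 1), or (q = 2 and n ∈ {4, 6, 10, 12, 18}), or (q = 3 and n ∈ {4, 6}), or (q, n) = (5, 6), there is a prime p dividing q^n − 1 but no q^i − 1 with 1 ≤ i < n (a primitive prime divisor), such that p > n + 1 or p² divides q^n − 1. -/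
theorem result (q n : ℕ) (hq : 2 ≤ q) (hn : 2 ≤ n)
    (h1 : ¬ (n = 2 ∧ ∃ s t : ℕ, t ≤ 1 ∧ q + 1 = 2 ^ s * 3 ^ t))
    (h2 : ¬ (q = 2 ∧ (n = 4 ∨ n = 6 ∨ n = 10 ∨ n = 12 ∨ n = 18)))
    (h3 : ¬ (q = 3 ∧ (n = 4 ∨ n = 6))) (h4 : ¬ (q = 5 ∧ n = 6)) :
    ∃ p : ℕ, p.Prime ∧ p ∣ q ^ n - 1 ∧ (∀ i : ℕ, 1 ≤ i → i < n → ¬ p ∣ q ^ i - 1) ∧ (n + 1 < p ∨ p ^ 2 ∣ q ^ n - 1) := by
  suffices h : ∃ p, H25.Ppd q n p ∧ (n + 1 < p ∨ p ^ 2 ∣ q ^ n - 1) by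
    obtain ⟨p, h5, h6⟩ := h
    exact ⟨p, h5.1, h5.2.1, h5.2.2, h6⟩
  rcases hn.eq_or_lt with rfl | hn3
  swap
  · exact H25.exists_large_ppd hq hn3 h2 h3 h4
  obtain ⟨s, m, hm, e⟩ := Nat.exists_eq_pow_mul_and_not_dvd (n := q + 1) (by omega) 2 (by norm_num)
  obtain ⟨t, l, hl, rfl⟩ := Nat.exists_eq_pow_mul_and_not_dvd (n := m) (by rintro rfl; simp at hm) 3
    (by norm_num)
  by_cases h5 : l = 1
  · subst h5
    have ht : 2 ≤ t := by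
      by_contra ht
      exact h1 ⟨rfl, s, t, by omega, by rw [e, mul_one]⟩
    have h6 : 3 ^ 2 ∣ q + 1 := e ▸ ((pow_dvd_pow 3 ht).mul_right 1).mul_left _
    refine ⟨3, H25.exists_ppd_two hq Nat.prime_three (by norm_num)
      ((dvd_pow_self 3 two_ne_zero).trans h6), Or.inr ?_⟩
    rw [show q ^ 2 - 1 = (q + 1) * (q - 1) by simpa using Nat.sq_sub_sq q 1]
    exact h6.mul_right _
  · obtain ⟨p, hp, h6⟩ := Nat.exists_prime_and_dvd h5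
    have p2 : p ≠ 2 := by rintro rfl; exact hm (h6.mul_left _)
    have p3 : p ≠ 3 := by rintro rfl; exact hl h6
    refine ⟨p, H25.exists_ppd_two hq hp p2 (e ▸ (h6.mul_left _).mul_left _), Or.inl ?_⟩
    have := hp.two_le
    omega

end Cfsg.Agent.S3430
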