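import Cfsg.Statements.S3705
import Cfsg.Agent.H25.ON6
import Cfsg.Agent.H25.Dual2

set_option autoImplicit false
open Cfsg

namespace Cfsg.Agent.S3705

open MulAction Subgroup

theorem exists_ab {H : Type*} [Group H] (N : Subgroup H) [N.Normal] (h1 : N ≠ ⊥)
    (hs : Group.IsSolvable N) :
    ∃ A : Subgroup H, A.Normal ∧ A ≠ ⊥ ∧ A ≤ N ∧ ∀ a ∈ A, ∀ b ∈ A, a * b = b * a := by
  obtain ⟨n, hn⟩ := hs.solvable
  by_contra hh
  push Not at hh
  have key : ∀ k, (derivedSeries N k).map N.subtype ≠ ⊥ := fun k => by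
    induction k with
    | zero => simpa [← MonoidHom.range_eq_map] using h1
    | succ k ih =>
      rw [derivedSeries_succ, map_commutator]
      intro e
      obtain ⟨a, ha, b, hb, hab⟩ := hh _ inferInstance ih (map_subtype_le _)
      exact hab (commutator_eq_bot_iff_le_centralizer.1 e hb a ha)
  exact key n (by rw [hn, Subgroup.map_bot])

/-- Let G be a finite group acting faithfully and 2-transitively on a finite set Ω of size n, and let H be a subgroup of index n in G which is not transitive on Ω and fixes no point of Ω. Suppose H has a nontrivial solvable normal subgroup N that fixes some point of Ω. Then there are an integer m ≥ 2 and a finite field F with #Ω = (#F^(m+1) − 1)/(#F − 1), and G has a normal subgroup isomorphic to PSL_{m+1}(F) whose centralizer in G is trivial (so that G lies between PSL_{m+1}(F) and its automorphism group). -/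
theorem result {G Ω : Type*} [Group G] [Finite G] [MulAction G Ω] [FaithfulSMul G Ω] [Finite Ω] (h2 : MulAction.IsMultiplyPretransitive G Ω 2) (H : Subgroup G) (hidx : H.index = Nat.card Ω) (hnt : ¬ MulAction.IsPretransitive H Ω) (hfix : ∀ a : Ω, ∃ h : H, h • a ≠ a) (N : Subgroup H) (hN : N.Normal) (hN1 : N ≠ ⊥) (hsol : Group.IsSolvable N) (hNfix : ∃ a : Ω, ∀ x ∈ N, x • a = a) : ∃ (m : ℕ) (F : Type) (_ : Field F) (_ : Fintype F), 2 ≤ m ∧ Nat.card Ω = (Fintype.card F ^ (m + 1) - 1) / (Fintype.card F - 1) ∧ ∃ N : Subgroup G, N.Normal ∧ Nonempty (N ≃* Matrix.ProjectiveSpecialLinearGroup (Fin (m + 1)) F) ∧ Subgroup.centralizer (N : Set G) = ⊥ := by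
  obtain ⟨d2, df, fx⟩ := H25.dual_action h2 H hidx hnt
  obtain ⟨A, hA, A1, hAN, hc⟩ := exists_ab N hN1 hsol
  obtain ⟨a, ha⟩ := hNfix
  obtain ⟨n, hn, n1⟩ := (A.bot_or_exists_ne_one).resolve_left A1
  obtain ⟨h, hh⟩ := hfix a
  have e : stabilizer G ((1 : G) : G ⧸ H) = H := stabilizer_quotient H
  have h3 : 1 < Nat.card (fixedBy (G ⧸ H) (n : G)) := by
    rw [← fx, Finite.one_lt_card_iff_nontrivial]
    refine ⟨⟨h • a, ?_⟩, ⟨a, ha n (hAN hn)⟩, fun e => hh (congrArg Subtype.val e)⟩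
    have := ha _ (hN.conj_mem' n (hAN hn) h)
    rwa [mul_smul, mul_smul, inv_smul_eq_iff] at this
  rw [Finite.one_lt_card_iff_nontrivial] at h3
  obtain ⟨y, hy⟩ := exists_ne (⟨(1 : G), e.ge n.2⟩ : fixedBy (G ⧸ H) (n : G))
  obtain ⟨M, p, k, -⟩ := H25.exists_ON d2 ((1 : G) : G ⧸ H) (A.map H.subtype)
    (e.symm ▸ map_subtype_le A)
    (by rintro g hg _ ⟨a, ha, rfl⟩; exact ⟨_, hA.conj_mem a ha ⟨g, e.le hg⟩, rfl⟩)
    (by rintro _ ⟨a, ha, rfl⟩ _ ⟨b, hb, rfl⟩; exact congrArg Subtype.val (hc a ha b hb))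
    ⟨n, ⟨n, hn, rfl⟩, fun e => n1 (Subtype.ext e), y, fun e => hy (Subtype.ext e), y.2⟩
  have : Nontrivial (G ⧸ H) := ⟨y, _, fun e => hy (Subtype.ext e)⟩
  obtain ⟨F, _, _, m, f, -, h3, h4, h5, h6, h7⟩ := k.main
  obtain ⟨m, rfl⟩ : ∃ k, m = k + 1 := ⟨m - 1, by omega⟩
  refine ⟨m, F, _, ‹_›, by omega, ?_, _, h4, h6, h5⟩
  rw [← h7, Nat.mul_div_cancel _ (Nat.sub_pos_of_lt Fintype.one_lt_card), ← hidx]
  rfl

end Cfsg.Agent.S3705
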