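import Cfsg.Statements.S3732
import Cfsg.Agent.H20.OW5
import Cfsg.Agent.H25.ON6
-- import your own Cfsg.Agent.* helpers here

set_option autoImplicit false
open Cfsg

namespace Cfsg.Agent.S3732

open MulAction Subgroup H20.OW in
theorem exists_on {G P L : Type*} [Group G] [MulAction G P] [MulAction G L] [Finite G] [Finite P]
    [Finite L] {I : P → L → Prop} {n : ℕ} (h : CG G I n) (h2 : Two G P) (e : El G I) :
    ∃ (N : P → Subgroup G) (p : ℕ), H25.ON N p ∧
      ∀ {x y z : P} {l : L}, x ≠ y → I x l → I y l → (z ∈ H25.Ln N x y ↔ I z l) := by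
  obtain ⟨τ, c, l, h1, h3, h4⟩ := e
  have all : ∀ {x k}, I x k → ∃ a ∈ TC G I x k, a ≠ 1 := fun hx => by
    obtain ⟨g, rfl, rfl⟩ := h.flag h2 h1 hx
    exact ⟨_, ⟨h.ce_conj h3.1 g, h.ax_conj h3.2 g⟩, by simpa using h4⟩
  have el : ∀ x : P, (∀ a ∈ h.flip.T x, ∀ b ∈ h.flip.T x, a * b = b * a) ∧
      ∃ p : ℕ, p.Prime ∧ ∀ a ∈ h.flip.T x, a ^ p = 1 := fun x => by
    obtain ⟨i, i1, -⟩ := h.thirdL x l l
    obtain ⟨j, j1, ij, -⟩ := h.thirdL x i i
    obtain ⟨a, a1, a2⟩ := all i1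
    obtain ⟨b, b1, b2⟩ := all j1
    exact h.flip.T_elem j1 i1 ⟨b1.2, b1.1⟩ ⟨a1.2, a1.1⟩ ij b2 a2
  have cj : ∀ {x : P} {a : G} (g : G), a ∈ h.flip.T x → g * a * g⁻¹ ∈ h.flip.T (g • x) :=
    fun g ⟨k, k1, k2, k3⟩ => ⟨g • k, h.inc g k1, h.ax_conj k2 g, h.ce_conj k3 g⟩
  obtain ⟨p, hp, hc⟩ := (el c).2
  refine ⟨h.flip.T, p, ⟨h2, fun g => h.triv, fun ⟨_, _, _, k3⟩ => h.ce_fix k3, cj,
    fun ha hb => (el _).1 _ ha _ hb, fun x a => ⟨1, Subtype.ext ?_⟩, hp, fun {x y} e => ?_⟩,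
    fun {x y z k} e hx hy => ⟨fun hz => ?_, fun hz a ⟨j, j1, j2, j3⟩ ay => ?_⟩⟩
  · obtain ⟨k, hk, -⟩ := h.thirdL x l l
    obtain ⟨g, rfl, -⟩ := h.flag h2 hk h1
    have := hc _ (cj g a.2)
    rw [conj_pow] at this
    simpa using this
  · obtain ⟨k, k1, k2⟩ := h.jn e
    obtain ⟨a, a1, a2⟩ := all k1
    exact ⟨a, ⟨k, k1, a1.2, a1.1⟩, a2, a1.2 y k2⟩
  · obtain ⟨a, a1, a2⟩ := all hx
    rcases h.fix_pt a1.1 a1.2 a2 (hz a ⟨k, hx, a1.2, a1.1⟩ (a1.2 y hy)) with rfl | e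
    exacts [hx, e]
  · obtain rfl | a1 := eq_or_ne a 1
    · exact one_smul _ _
    exact j2 z (h.eqL e hx hy j1 ((h.fix_pt j3 j2 a1 ay).resolve_left e.symm) ▸ hz)


/-- The Ostrom–Wagner Theorem. Let Π be a finite projective plane (points P, lines L) whose collineation group is 2-transitive on points: for any two ordered pairs of distinct points there is a permutation of the points, together with a compatible permutation of the lines preserving incidence, carrying the first pair to the second. Then Π is Desarguesian: there is a finite field F and a bijection from P onto the points of the projective plane over F (the 1-dimensional subspaces of F³) under which the lines of Π correspond exactly to the 2-dimensional subspaces of F³. -/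
theorem result
    {P L : Type*} [Membership P L] [Fintype P] [Fintype L] [Configuration.ProjectivePlane P L]
    (h2t : ∀ p₁ p₂ q₁ q₂ : P, p₁ ≠ p₂ → q₁ ≠ q₂ →
      ∃ (σ : Equiv.Perm P) (τ : Equiv.Perm L), (∀ (p : P) (l : L), σ p ∈ τ l ↔ p ∈ l) ∧ σ p₁ = q₁ ∧ σ p₂ = q₂) :
    ∃ (F : Type) (_ : Field F) (_ : Fintype F) (φ : P ≃ Projectivization F (Fin 3 → F)),
      (∀ l : L, ∃ W : Submodule F (Fin 3 → F), Module.finrank F W = 2 ∧
          ∀ p : P, p ∈ l ↔ (φ p).submodule ≤ W) ∧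
      (∀ W : Submodule F (Fin 3 → F), Module.finrank F W = 2 →
          ∃ l : L, ∀ p : P, p ∈ l ↔ (φ p).submodule ≤ W) := by
  classical
  obtain ⟨n, hn⟩ : ∃ n, H20.OW.PP (fun (p : P) (l : L) => p ∈ l) n :=
    H20.OW.exists_PP (fun e => ⟨_, Configuration.HasLines.mkLine_ax e⟩)
      (fun e => ⟨_, Configuration.HasPoints.mkPoint_ax e⟩) Configuration.Nondegenerate.eq_or_eq
      Configuration.ProjectivePlane.exists_config
  let Γ : Subgroup (Equiv.Perm P × Equiv.Perm L) :=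
    { carrier := {g | ∀ (p : P) (l : L), g.1 p ∈ g.2 l ↔ p ∈ l}
      one_mem' := fun _ _ => Iff.rfl
      mul_mem' := fun ha hb p l => (ha _ _).trans (hb p l)
      inv_mem' := fun {a} ha p l => by simpa using (ha (a.1⁻¹ p) (a.2⁻¹ l)).symm }
  letI : MulAction Γ P := MulAction.compHom P ((MonoidHom.fst _ _).comp Γ.subtype)
  letI : MulAction Γ L := MulAction.compHom L ((MonoidHom.snd _ _).comp Γ.subtype)
  have h : H20.OW.CG Γ (fun (p : P) (l : L) => p ∈ l) n :=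
    ⟨hn, fun g p l e => (g.2 p l).2 e, fun g a b =>
      Subtype.ext (Prod.ext (Equiv.ext a) (Equiv.ext b))⟩
  have h2 : H20.OW.Two Γ P := fun e e' =>
    let ⟨σ, τ, a, b⟩ := h2t _ _ _ _ e e'; ⟨⟨(σ, τ), a⟩, b⟩
  obtain ⟨N, p, on, ln⟩ := exists_on h h2 (H20.OW.exists_el n h h2)
  obtain ⟨-, p₂, p₃, -, -, l₃, -, -, -, -, c5, -, -, c8⟩ := hn.cfg
  haveI : Nontrivial P := ⟨p₂, p₃, fun e => c8 (e ▸ c5)⟩
  obtain ⟨F, _, _, d, f, k, h3, -⟩ := on.main
  have sp : ∀ {u v w : Fin d → F} {l : L}, u ≠ 0 → v ≠ 0 → f u ≠ f v → w ≠ 0 → f u ∈ l → f v ∈ l →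
      (f w ∈ l ↔ ∃ α β : F, α • u + β • v = w) := fun hu hv huv hw a b =>
    (ln huv a b).symm.trans (k.ln' on hu hv huv hw)
  obtain rfl : d = 3 := by
    by_contra hd
    obtain ⟨e, rfl⟩ : ∃ e, d = e + 4 := ⟨d - 4, by omega⟩
    have s0 : ∀ i : Fin (e + 4), (Pi.single i 1 : Fin (e + 4) → F) ≠ 0 := fun i => by simp
    have sn : ∀ {i j : Fin (e + 4)}, i ≠ j → f (Pi.single i 1) ≠ f (Pi.single j 1) :=
      fun {i j} ij e => by
        obtain ⟨a, ha⟩ := (k.eq (s0 i) (s0 j)).1 e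
        simpa [Pi.single_apply, ij.symm] using congrFun ha j
    let i0 : Fin (e + 4) := ⟨0, by omega⟩
    let i1 : Fin (e + 4) := ⟨1, by omega⟩
    let i2 : Fin (e + 4) := ⟨2, by omega⟩
    let i3 : Fin (e + 4) := ⟨3, by omega⟩
    have n01 : i0 ≠ i1 := by simp [i0, i1]
    have n23 : i2 ≠ i3 := by simp [i2, i3]
    obtain ⟨l, l1, l2⟩ := hn.jn (sn n01)
    obtain ⟨m, m1, m2⟩ := hn.jn (sn n23)
    obtain ⟨x, x1, x2⟩ : ∃ x, x ∈ l ∧ x ∈ m := by
      obtain rfl | e := eq_or_ne l m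
      exacts [⟨_, l1, l1⟩, hn.mt e]
    obtain ⟨w, w0, rfl⟩ := k.sur x
    obtain ⟨α, β, e1⟩ := (sp (s0 _) (s0 _) (sn n01) w0 l1 l2).1 x1
    obtain ⟨γ, δ, e2⟩ := (sp (s0 _) (s0 _) (sn n23) w0 m1 m2).1 x2
    have a0 := congrFun (e1.trans e2.symm) i0
    have a1 := congrFun (e1.trans e2.symm) i1
    simp [Pi.single_apply, i0, i1, i2, i3] at a0 a1
    exact w0 (by rw [← e1, a0, a1]; simp)
  let ψ : Projectivization F (Fin 3 → F) → P := fun x => f x.rep
  have bij : Function.Bijective ψ := ⟨fun x y e => by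
    obtain ⟨a, ha⟩ := (k.eq y.rep_nonzero x.rep_nonzero).1 e.symm
    rw [← x.mk_rep, ← y.mk_rep]
    exact (Projectivization.mk_eq_mk_iff' _ _ _ _ _).2 ⟨a, ha⟩, fun x => by
      obtain ⟨w, w0, rfl⟩ := k.sur x
      refine ⟨.mk F w w0, ((k.eq w0 (Projectivization.rep_nonzero _)).2 ?_).symm⟩
      obtain ⟨a, ha⟩ := Projectivization.exists_smul_eq_mk_rep F w w0
      exact ⟨a, ha⟩⟩
  have key : ∀ {u v : Fin 3 → F} {l : L}, u ≠ 0 → v ≠ 0 → f u ≠ f v → f u ∈ l → f v ∈ l → ∀ p : P,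
      p ∈ l ↔ ((Equiv.ofBijective ψ bij).symm p).submodule ≤ Submodule.span F {u, v} :=
    fun hu hv huv a b p => by
      obtain ⟨x, rfl⟩ := (Equiv.ofBijective ψ bij).surjective p
      rw [Equiv.symm_apply_apply, Projectivization.submodule_eq, Submodule.span_singleton_le_iff_mem,
        Submodule.mem_span_pair]
      exact sp hu hv huv x.rep_nonzero a b
  refine ⟨F, _, ‹_›, (Equiv.ofBijective ψ bij).symm, fun l => ?_, fun W hW => ?_⟩
  · obtain ⟨x, hx, -⟩ := hn.third l p₂ p₂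
    obtain ⟨y, hy, e, -⟩ := hn.third l x x
    obtain ⟨u, hu, rfl⟩ := k.sur y
    obtain ⟨v, hv, rfl⟩ := k.sur x
    refine ⟨_, ?_, key hu hv e hy hx⟩
    have li : LinearIndependent F ![u, v] := by
      rw [LinearIndependent.pair_iff' hu]
      exact fun a ha => e ((k.eq hu hv).2 ⟨a, ha⟩)
    have := finrank_span_eq_card li
    rwa [Matrix.range_cons_cons_empty] at this
  · let b := Module.finBasisOfFinrankEq F W hW
    have li : LinearIndependent F ![(b 0 : Fin 3 → F), b 1] := by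
      have := b.linearIndependent.map' W.subtype W.ker_subtype
      have e : (W.subtype ∘ b) = ![(b 0 : Fin 3 → F), b 1] := by
        ext1 i; fin_cases i <;> rfl
      rwa [e] at this
    have hu : (b 0 : Fin 3 → F) ≠ 0 := li.ne_zero 0
    have hv : (b 1 : Fin 3 → F) ≠ 0 := li.ne_zero 1
    have e : f (b 0) ≠ f (b 1) := fun e => by
      obtain ⟨a, ha⟩ := (k.eq hu hv).1 e
      exact (LinearIndependent.pair_iff' hu).1 li a ha
    obtain ⟨l, l1, l2⟩ := hn.jn e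
    refine ⟨l, fun p => (key hu hv e l1 l2 p).trans (by
      rw [Submodule.eq_of_le_of_finrank_eq (S₂ := W) (Submodule.span_le.2 (by
        rintro _ (rfl | rfl) <;> exact Subtype.prop _)) (by
          rw [hW]
          have := finrank_span_eq_card li
          rwa [Matrix.range_cons_cons_empty] at this)])⟩

end Cfsg.Agent.S3732
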