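import Cfsg.Statements.S3733
import Cfsg.Agent.H7.PGrp

set_option autoImplicit false
open Cfsg

namespace Cfsg.Agent.S3733

open scoped IsMulCommutative in
theorem norm_fixed {A V : Type*} [Group A] [Fintype A] [CommGroup V] [MulDistribMulAction A V]
    (B : Subgroup A) [DecidablePred (· ∈ B)] (v : V) {b : A} (hb : b ∈ B) :
    b • ∏ a ∈ Finset.univ.filter (· ∈ B), a • v = ∏ a ∈ Finset.univ.filter (· ∈ B), a • v := by
  rw [Finset.smul_prod']
  refine Finset.prod_bij (fun a _ => b * a) ?_ ?_ ?_ ?_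
  · intro a ha
    simp only [Finset.mem_filter, Finset.mem_univ, true_and] at ha ⊢
    exact mul_mem hb ha
  · intro a _ c _ h; exact mul_left_cancel h
  · intro c hc
    simp only [Finset.mem_filter, Finset.mem_univ, true_and] at hc ⊢
    exact ⟨b⁻¹ * c, mul_mem (inv_mem hb) hc, by simp⟩
  · intro a _; rw [mul_smul]

open scoped IsMulCommutative in

/-- Let A and V be subgroups of a finite group with V abelian and nontrivial and A normalizing V. Suppose a nonempty finite family of proper subgroups of A partitions A: every non-identity element of A lies in exactly one member. If the number of members minus one is coprime to the order of V, then some member B of the family has a non-identity fixed point on V, that is V ∩ C(B) ≠ 1. -/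
theorem result {G : Type*} [Group G] [Finite G] (A V : Subgroup G) (hVab : IsMulCommutative V) (hV : V ≠ ⊥) (hAV : A ≤ Subgroup.normalizer (V : Set G)) (𝒜 : Finset (Subgroup G)) (hne : 𝒜.Nonempty) (hprop : ∀ B ∈ 𝒜, B < A) (hpart : ∀ a ∈ A, a ≠ 1 → ∃! B, B ∈ 𝒜 ∧ a ∈ B) (hk : (𝒜.card - 1).Coprime (Nat.card V)) : ∃ B ∈ 𝒜, V ⊓ Subgroup.centralizer (B : Set G) ≠ ⊥ := by
  classical
  by_contra hcon
  push Not at hcon
  letI : MulDistribMulAction A V := MulDistribMulAction.compHom V (Subgroup.inclusion hAV)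
  haveI := Fintype.ofFinite A
  have hsm : ∀ (a : A) (v : V), ((a • v : V) : G) = a * v * (a : G)⁻¹ := fun a v => rfl
  have key : ∀ (B : Subgroup G) (v : V), (∃ C ∈ 𝒜, C ≤ B) →
      ∏ a ∈ Finset.univ.filter (· ∈ B.subgroupOf A), a • v = 1 := by
    rintro B v ⟨C, hC, hCB⟩
    set w := ∏ a ∈ Finset.univ.filter (· ∈ B.subgroupOf A), a • v with hw
    have : (w : G) ∈ V ⊓ Subgroup.centralizer (C : Set G) := by
      refine ⟨w.2, fun c hc => ?_⟩
      have := norm_fixed (B.subgroupOf A) v (b := ⟨c, (hprop C hC).le hc⟩) (hCB hc)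
      rw [← hw] at this
      have h2 := congrArg Subtype.val this
      rw [hsm, mul_inv_eq_iff_eq_mul] at h2
      exact h2
    rw [hcon C hC] at this
    exact Subtype.ext this
  apply hV
  rw [eq_bot_iff]
  intro v hv
  set v' : V := ⟨v, hv⟩
  have h1 : ∏ B ∈ 𝒜, ∏ a ∈ Finset.univ.filter (· ∈ B.subgroupOf A), a • v' = 1 :=
    Finset.prod_eq_one fun B hB => key B v' ⟨B, hB, le_rfl⟩
  obtain ⟨C, hC⟩ := hne
  have h2 := key A v' ⟨C, hC, (hprop C hC).le⟩
  simp only [Subgroup.subgroupOf_self, Subgroup.mem_top, Finset.filter_true] at h2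
  rw [Finset.prod_comm' (t' := (Finset.univ : Finset A)) (s' := fun a : A => 𝒜.filter (fun B => (a : G) ∈ B))
    (by simp [Subgroup.mem_subgroupOf])] at h1
  simp only [Finset.prod_const] at h1
  rw [← Finset.mul_prod_erase _ _ (Finset.mem_univ 1)] at h1 h2
  have h3 : ∏ a ∈ Finset.univ.erase (1 : A), (a • v') ^ (𝒜.filter (fun B => (a : G) ∈ B)).card =
      ∏ a ∈ Finset.univ.erase (1 : A), a • v' := by
    refine Finset.prod_congr rfl fun a ha => ?_
    obtain ⟨B, hB, huniq⟩ := hpart a a.2 (fun e => Finset.ne_of_mem_erase ha (Subtype.ext e))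
    have : 𝒜.filter (fun B => (a : G) ∈ B) = {B} := by
      ext D; simp only [Finset.mem_filter, Finset.mem_singleton]
      exact ⟨huniq D, fun e => e ▸ hB⟩
    rw [this, Finset.card_singleton, pow_one]
  have h4 : 𝒜.filter (fun B => ((1 : A) : G) ∈ B) = 𝒜 := Finset.filter_true_of_mem fun B _ => one_mem B
  rw [h3, h4, one_smul, ← Nat.sub_add_cancel (Finset.card_pos.2 ⟨C, hC⟩), pow_succ, mul_assoc] at h1
  rw [one_smul] at h2
  rw [h2, mul_one] at h1
  have h5 : orderOf v' = 1 :=
    Nat.eq_one_of_dvd_coprimes hk (orderOf_dvd_of_pow_eq_one h1) (orderOf_dvd_natCard v')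
  exact congrArg Subtype.val (orderOf_eq_one_iff.1 h5)

end Cfsg.Agent.S3733
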