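import Cfsg.Statements.S3735
import Cfsg.Agent.H7.Simple
import Cfsg.Agent.H5.Subnormal

set_option autoImplicit false
open Cfsg

namespace Cfsg.Agent.S3735



/-- Clifford's Theorem for actions on finite abelian groups, first part. Let H and V be subgroups of a finite group with V abelian and H normalizing V, and let A be a normal subgroup of H. If every H-invariant subgroup of V has an H-invariant complement in V, then every A-invariant subgroup of V has an A-invariant complement in V. -/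
theorem result {G : Type*} [Group G] [Finite G] (H A V : Subgroup G) (hVab : IsMulCommutative V) (hHV : H ≤ Subgroup.normalizer (V : Set G)) (hAH : A ≤ H) (hAn : H ≤ Subgroup.normalizer (A : Set G)) (hss : ∀ U : Subgroup G, U ≤ V → H ≤ Subgroup.normalizer (U : Set G) → ∃ W : Subgroup G, W ≤ V ∧ H ≤ Subgroup.normalizer (W : Set G) ∧ U ⊓ W = ⊥ ∧ U ⊔ W = V) (U : Subgroup G) (hUV : U ≤ V) (hAU : A ≤ Subgroup.normalizer (U : Set G)) : ∃ W : Subgroup G, W ≤ V ∧ A ≤ Subgroup.normalizer (W : Set G) ∧ U ⊓ W = ⊥ ∧ U ⊔ W = V := by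
  let S : Set (Subgroup G) := {M | M ≤ V ∧ A ≤ Subgroup.normalizer (M : Set G) ∧
    ∀ L : Subgroup G, L ≤ M → A ≤ Subgroup.normalizer (L : Set G) → L = ⊥ ∨ L = M}
  have hn : ∀ {X Y : Subgroup G}, X ≤ V → Y ≤ V → X ≤ Subgroup.normalizer (Y : Set G) :=
    fun hX hY => hX.trans (V.le_centralizer.trans ((Subgroup.centralizer_le hY).trans
      (Subgroup.centralizer_le_normalizer _)))
  have hcj : ∀ g ∈ H, ∀ L : Subgroup G, A ≤ Subgroup.normalizer (L : Set G) →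
      A ≤ Subgroup.normalizer (H5.cj g L : Set G) := fun g hg L hL => by
    rw [← H5.cj_normalizer, ← H5.cj_eq_of_mem_normalizer (hAn hg)]
    exact H5.cj_mono hL
  have h1 : H ≤ Subgroup.normalizer ((sSup S : Subgroup G) : Set G) := by
    refine H5.le_normalizer_sSup fun g hg M hM => ⟨H5.cj_le_of_le hM.1 (hHV hg), hcj g hg M hM.2.1,
      fun L hL hAL => ?_⟩
    have := hM.2.2 (H5.cj g⁻¹ L) (H5.cj_inv_cj g M ▸ H5.cj_mono hL) (hcj _ (inv_mem hg) L hAL)
    refine this.imp H5.cj_eq_bot_iff.1 fun e => ?_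
    rw [← e, H5.cj_cj_inv]
  have h2 : sSup S = V := by
    obtain ⟨W, hWV, hHW, h3, h4⟩ := hss _ (sSup_le fun M hM => hM.1) h1
    by_cases hW : W = ⊥
    · rwa [hW, sup_bot_eq] at h4
    obtain ⟨M, ⟨hM0, hAM⟩, hMW, hmin⟩ := H1.exists_minimal_le
      (fun M : Subgroup G => M ≠ ⊥ ∧ A ≤ Subgroup.normalizer (M : Set G)) ⟨hW, hAH.trans hHW⟩
    refine absurd (le_bot_iff.1 (h3 ▸ le_inf (le_sSup ?_) hMW)) hM0
    exact ⟨hMW.trans hWV, hAM, fun L hL hAL => or_iff_not_imp_left.2 fun h => hmin L ⟨h, hAL⟩ hL⟩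
  obtain ⟨W, ⟨hWV, hAW, hUW⟩, -, hmax⟩ := H1.exists_maximal_ge
    (fun W : Subgroup G => W ≤ V ∧ A ≤ Subgroup.normalizer (W : Set G) ∧ U ⊓ W = ⊥) (N := ⊥)
    ⟨bot_le, Subgroup.le_normalizer_of_normal, inf_bot_eq U⟩
  refine ⟨W, hWV, hAW, hUW, le_antisymm (sup_le hUV hWV) ?_⟩
  rw [← h2]
  refine sSup_le fun M hM => ?_
  rcases hM.2.2 (M ⊓ (U ⊔ W)) inf_le_left
    (H1.le_normalizer_inf hM.2.1 (H1.le_normalizer_sup hAU hAW)) with h | h
  · have := hmax (W ⊔ M) ⟨sup_le hWV hM.1, H1.le_normalizer_sup hAW hM.2.1, ?_⟩ le_sup_left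
    · exact (le_sup_right.trans this.le).trans le_sup_right
    rw [eq_bot_iff]
    rintro u ⟨hu, hu'⟩
    obtain ⟨w, hw, m, hm, rfl⟩ := (H7.mem_sup_of_le_normalizer (hn hWV hM.1)).1 hu'
    have h5 : m ∈ M ⊓ (U ⊔ W) := ⟨hm, by
      simpa using mul_mem (inv_mem (Subgroup.mem_sup_right hw : w ∈ U ⊔ W))
        (Subgroup.mem_sup_left hu)⟩
    rw [h, Subgroup.mem_bot] at h5
    rw [h5, mul_one] at hu ⊢
    exact hUW.le ⟨hu, hw⟩
  · exact h ▸ inf_le_right

end Cfsg.Agent.S3735
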