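import Cfsg.Statements.S3739
import Cfsg.Agent.H7.Semireg
import Cfsg.Agent.H6.Q8
import Cfsg.Agent.H10.SylowIn
import Cfsg.Agent.H3.SylowIn
import Cfsg.Agent.H1.Coprime2

set_option autoImplicit false
open Cfsg

namespace Cfsg.Agent.S3739



/-- Let G be a finite group with C_G(O₂(G)) ≤ O₂(G) containing an element of order 6, and let d be a non-identity 3-element of G normalizing a nontrivial elementary abelian 2-subgroup W with C_W(d) = 1. Then G has an elementary abelian subgroup of order 8. -/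
theorem result {G : Type*} [Group G] [Finite G] (hchar : Subgroup.centralizer (Cfsg.pCore 2 G : Set G) ≤ Cfsg.pCore 2 G) (hsix : ∃ g : G, orderOf g = 6) (d : G) (hd1 : d ≠ 1) (hd : IsPGroup 3 ↥(Subgroup.zpowers d)) (W : Subgroup G) (hW : Cfsg.IsElementaryAbelian 2 W) (hW1 : W ≠ ⊥) (hdW : d ∈ Subgroup.normalizer (W : Set G)) (hfpf : W ⊓ Subgroup.centralizer {d} = ⊥) : ∃ E : Subgroup G, Cfsg.IsElementaryAbelian 2 E ∧ Nat.card E = 8 := by
  open Subgroup in
  by_contra hno
  push Not at hno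
  haveI : Fact (Nat.Prime 3) := ⟨Nat.prime_three⟩
  have hrank : ∀ V : Subgroup G, Cfsg.IsElementaryAbelian 2 V → Nat.card V ≤ 4 := by
    intro V hV
    by_contra h
    have hV2 := H9.isPGroup_of_elementary hV
    obtain ⟨K, -, -, -, h4⟩ := H9.exists_normal_card_eq_pow hV2 (M := ⊤) (N := ⊥) bot_le (k := 3)
      (by simp) (by rw [card_top]; exact H9.pow_lt_of_not_le hV2 (k := 2) h)
    exact hno (K.map V.subtype) (H9.elementary_of_le hV (map_subtype_le K))
      (by rw [card_map_of_injective V.subtype_injective, h4]; rfl)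
  have hfour : ∀ V : Subgroup G, Cfsg.IsElementaryAbelian 2 V → V ≠ ⊥ → ∀ e : G,
      e ∈ normalizer (V : Set G) → V ⊓ centralizer {e} = ⊥ → Nat.card V = 4 := by
    intro V hV h1 e h2 h3
    have h4 := hrank V hV
    have h5 := H7.card_ne_two_of_fpf h2 h3
    obtain ⟨k, hk⟩ := (H9.isPGroup_of_elementary hV).exists_card_eq
    have h6 : Nat.card V ≠ 1 := fun e => h1 (card_eq_one.1 e)
    rw [hk] at h4 h5 h6 ⊢
    have : k ≤ 2 := (Nat.pow_le_pow_iff_right (a := 2) (by norm_num)).1 h4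
    interval_cases k <;> omega
  have hW4 := hfour W hW hW1 d hdW hfpf
  have hsub : ∀ V : Subgroup G, V ≤ W → V ≠ ⊥ → ∀ e : G,
      e ∈ normalizer (V : Set G) → W ⊓ centralizer {e} = ⊥ → V = W := fun V h1 h2 e h3 h4 =>
    eq_of_le_of_card_ge h1 (by
      rw [hW4, hfour V (H9.elementary_of_le hW h1) h2 e h3
        (by rw [eq_bot_iff, ← h4]; exact inf_le_inf_right _ h1)])
  have hmax : ∀ V : Subgroup G, Cfsg.IsElementaryAbelian 2 V → V ≤ centralizer (W : Set G) →
      V ≤ W := fun V h1 h2 => by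
    have h3 := hrank _ (H9.elementary_sup hW h1 fun a ha b hb => h2 hb a ha)
    rw [eq_of_le_of_card_ge (le_sup_left : W ≤ W ⊔ V) (by omega)]
    exact le_sup_right
  set P := Cfsg.pCore 2 G with hP
  have hP2 : IsPGroup 2 P := H1.isPGroup_pCore 2
  have hWC : W ≤ centralizer (P : Set G) := by
    have hT : IsPGroup 2 (W ⊔ P : Subgroup G) :=
      (H9.isPGroup_of_elementary hW).to_sup_of_normal_right hP2
    have h1 := H7.inf_centralizer_ne_bot hT hT le_normalizer fun e => hW1 (sup_eq_bot_iff.1 e).1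
    set Z := (W ⊔ P) ⊓ centralizer ((W ⊔ P : Subgroup G) : Set G)
    haveI : IsMulCommutative Z := H1.isMulCommutative_iff'.2 fun a ha b hb => hb.2 a ha.1
    have h2 := H1.powKer_ne_bot Z Nat.prime_two
      (H10.dvd_card_of_isPGroup_ne_bot hT.to_inf_left h1)
    have h3 : H1.powKer Z 2 ≤ centralizer ((W ⊔ P : Subgroup G) : Set G) :=
      (H1.powKer_le Z 2).trans inf_le_right
    have h4 : zpowers d ≤ normalizer ((W ⊔ P : Subgroup G) : Set G) :=
      H5.le_normalizer_sup (zpowers_le.2 hdW) le_normalizer_of_normal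
    rw [← hsub (H1.powKer Z 2) (hmax _ ⟨H1.isMulCommutative_of_le (H1.powKer_le Z 2),
      fun x hx => (H1.mem_powKer.1 hx).2⟩ (h3.trans (H5.centralizer_anti le_sup_left))) h2 d
      (H1.normalizer_le_normalizer_powKer Z 2 (H5.le_normalizer_inf h4
        (H5.le_normalizer_centralizer h4) (mem_zpowers d))) hfpf]
    exact h3.trans (H5.centralizer_anti le_sup_right)
  have hWP : W ≤ P := hWC.trans hchar
  have hinv : ∀ x ∈ centralizer (W : Set G), x ^ 2 = 1 → x ∈ W := fun x h1 h2 =>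
    hmax _ (H9.elementary_zpowers h2) (zpowers_le.2 h1) (mem_zpowers x)
  haveI hWn : W.Normal := ⟨fun w hw g => hinv _ (le_centralizer_iff.1 hWC
    (Subgroup.Normal.conj_mem inferInstance w (hWP hw) g)) (by rw [conj_pow, hW.2 w hw]; simp)⟩
  have hK : IsKleinFour W := ⟨hW4, by
    haveI : Nontrivial W := (nontrivial_iff_ne_bot W).2 hW1
    exact (Monoid.exponent_eq_prime_iff Nat.prime_two).2 fun x hx =>
      orderOf_eq_prime (Subtype.ext (hW.2 x x.2)) hx⟩
  have hf1 : ∀ e : G, Odd (orderOf e) → e ∉ centralizer (W : Set G) → W ⊓ centralizer {e} = ⊥ := by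
    intro e h1 h2
    rw [eq_bot_iff]
    intro t ht
    by_contra h3
    refine H6.four_odd_ne hK h1 (le_normalizer_of_normal (mem_top e)) h2 ht.1 h3 ?_
    rw [← mem_centralizer_singleton_iff.1 ht.2]; simp
  have hf2 : ∀ e : G, W ⊓ centralizer {e} = ⊥ → P ⊓ centralizer {e} = ⊥ := by
    intro e h1
    by_contra h2
    obtain ⟨t, ht, ht2⟩ := H10.exists_orderOf_eq_of_ne_bot hP2.to_inf_left h2
    have h3 : t ∈ W ⊓ centralizer {e} := ⟨hinv t (le_centralizer_iff.1 hWC ht.1)
      (by rw [← ht2, pow_orderOf_eq_one]), ht.2⟩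
    rw [h1, mem_bot] at h3
    exact H10.ne_one_of_orderOf_eq ht2 h3
  have h32 : ∀ A : Subgroup G, IsPGroup 3 A → A ⊓ centralizer (P : Set G) = ⊥ := fun A hA => by
    rw [eq_bot_iff, ← (IsPGroup.disjoint_of_ne 3 2 (by decide) _ _ hA hP2).eq_bot]
    exact inf_le_inf_left _ hchar
  have hd3 : orderOf d = 3 := by
    obtain ⟨n, hn⟩ := H10.orderOf_eq_pow_of_mem hd (mem_zpowers d)
    refine H7.orderOf_eq_three_of_rank_two (n := n) ?_ hn hP2 (le_normalizer_of_normal (mem_top d))
      (h32 _ hd) (hf2 d hfpf) fun V _ h => hrank V h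
    by_contra h
    rw [show n = 0 by omega, pow_zero, orderOf_eq_one_iff] at hn
    exact hd1 hn
  obtain ⟨g, hg⟩ := hsix
  have hx : orderOf (g ^ 2) = 3 := by rw [orderOf_pow_of_dvd (by decide) (by rw [hg]; decide), hg]
  have ht : orderOf (g ^ 3) = 2 := by rw [orderOf_pow_of_dvd (by decide) (by rw [hg]; decide), hg]
  have hc : Commute (g ^ 3) (g ^ 2) := Commute.pow_pow_self g 3 2
  have hxW : g ^ 2 ∈ centralizer (W : Set G) := by
    by_contra h
    have h1 := hf1 _ (by rw [hx]; decide) h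
    have h2 := H7.inf_centralizer_ne_bot (H10.isPGroup_zpowers_of_orderOf_eq ht)
      (H9.isPGroup_of_elementary hW) le_normalizer_of_normal hW1
    have h3 := hsub _ inf_le_left h2 (g ^ 2) (H5.le_normalizer_inf le_normalizer_of_normal
      (H5.le_normalizer_centralizer (H5.le_normalizer_of_le_centralizer (A := zpowers (g ^ 2)) (by
        rw [H5.centralizer_zpowers, zpowers_le, mem_centralizer_singleton_iff]
        exact hc.eq.symm))) (mem_zpowers _)) h1
    have h4 : g ^ 3 ∈ W ⊓ centralizer {g ^ 2} := ⟨hinv _ (le_centralizer_iff.1 (inf_eq_left.1 h3)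
      (mem_zpowers _)) (by rw [← ht, pow_orderOf_eq_one]), mem_centralizer_singleton_iff.2 hc.eq⟩
    rw [h1, mem_bot] at h4
    exact H10.ne_one_of_orderOf_eq ht h4
  obtain ⟨T, hT⟩ := hd.exists_le_sylow
  obtain ⟨h, hh⟩ := H3.exists_conj_le_sylow T (H10.isPGroup_zpowers_of_orderOf_eq hx)
  have h1 : (T : Subgroup G) ⊓ centralizer (W : Set G) ≠ ⊥ := fun e => by
    have h2 : h⁻¹ * g ^ 2 * h ∈ (T : Subgroup G) ⊓ centralizer (W : Set G) :=
      ⟨hh _ (mem_zpowers _), Subgroup.Normal.conj_mem' inferInstance _ hxW h⟩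
    rw [e, mem_bot] at h2
    exact H10.ne_one_of_orderOf_eq hx (by
      calc g ^ 2 = h * (h⁻¹ * g ^ 2 * h) * h⁻¹ := by group
        _ = 1 := by rw [h2]; group)
  obtain ⟨y, ⟨⟨hy1, hy2⟩, hy3⟩, hy⟩ := H10.exists_orderOf_eq_of_ne_bot T.2.to_inf_left.to_inf_left
    (H7.inf_centralizer_ne_bot T.2 T.2.to_inf_left
      (H5.le_normalizer_inf le_normalizer le_normalizer_of_normal) h1)
  have hyd : zpowers d ≤ centralizer (zpowers y : Set G) :=
    hT.trans (le_centralizer_iff.1 (zpowers_le.2 hy3))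
  have hE := H9.elementary_sup (p := 3) (H9.elementary_zpowers (x := y) (by rw [← hy, pow_orderOf_eq_one]))
    (H9.elementary_zpowers (x := d) (by rw [← hd3, pow_orderOf_eq_one])) fun a ha b hb => hyd hb a ha
  have hdW' : d ∉ centralizer (W : Set G) := fun e => hW1 (by
    rw [← hfpf, eq_comm, inf_eq_left, ← H5.centralizer_zpowers, le_centralizer_iff, zpowers_le]
    exact e)
  have hded : (zpowers y ⊔ zpowers d) ⊓ centralizer (W : Set G) = zpowers y := by
    rw [H1.sup_inf_assoc_of_le_normalizer (zpowers_le.2 hy2)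
      (Or.inr (H5.le_normalizer_of_le_centralizer hyd)),
      (H7.eq_or_eq_bot_of_card_prime (p := 3) (by rw [Nat.card_zpowers, hd3])
        inf_le_left).resolve_right fun e => hdW' (inf_eq_left.1 e (mem_zpowers d)), sup_bot_eq]
  haveI := hE.1
  have h2 := H1.le_of_forall_centralizer_le (A := zpowers y ⊔ zpowers d) (K := P)
    (H := centralizer (zpowers y : Set G)) (H9.not_isCyclic_of_elementary hE.2 (by
      have := H1.card_lt_of_lt (left_lt_sup.2 fun e => hdW' (zpowers_le.2 hy2 (e (mem_zpowers d))) :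
        zpowers y < zpowers y ⊔ zpowers d)
      rwa [Nat.card_zpowers, hy] at this)) le_normalizer_of_normal
    (H1.IsPGroup.coprime_card (H9.isPGroup_of_elementary hE)
      (H1.IsPGroup.coprime_card hP2 (by decide))) fun a ha ha1 => by
      by_cases h3 : a ∈ centralizer (W : Set G)
      · have h4 : zpowers a ≤ zpowers y := by rw [← hded, zpowers_le]; exact ⟨ha, h3⟩
        rw [← (H7.eq_or_eq_bot_of_card_prime (p := 3) (by rw [Nat.card_zpowers, hy])
          h4).resolve_left fun e => ha1 (zpowers_eq_bot.1 e), H5.centralizer_zpowers]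
        exact inf_le_right
      · rw [hf2 a (hf1 a (by rw [orderOf_eq_prime (hE.2 a ha) ha1]; decide) h3)]
        exact bot_le
  have h3 := h32 _ (H10.isPGroup_zpowers_of_orderOf_eq hy)
  rw [inf_eq_left.2 (le_centralizer_iff.1 h2), zpowers_eq_bot] at h3
  exact H10.ne_one_of_orderOf_eq hy h3

end Cfsg.Agent.S3739
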