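import Cfsg.Statements.S3740
import Cfsg.Agent.H4.Tor3
import Cfsg.Agent.H6.Dihedral
import Cfsg.Agent.S0106

set_option autoImplicit false
open Cfsg

namespace Cfsg.Agent.S3740

open Subgroup in
theorem sl23 {X : Type*} [Group X] [Finite X] (h : Nat.card X = 24) (R : Subgroup X) [R.Normal]
    (e : R ≃* QuaternionGroup 2) (h3 : ¬ 3 ∣ Nat.card (centralizer (R : Set X))) :
    Nonempty (X ≃* Matrix.SpecialLinearGroup (Fin 2) (ZMod 3)) := by
  have h8 : Nat.card R = 8 := by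
    rw [Nat.card_congr e.toEquiv, Nat.card_eq_fintype_card, QuaternionGroup.card]
  have hf : (Nat.card X).factorization 2 = 3 := by
    rw [h, show 24 = 2 ^ 3 * 3 from rfl, Nat.factorization_mul (by norm_num) (by norm_num),
      Nat.prime_two.factorization_pow]
    simp [Nat.factorization_eq_zero_of_not_dvd]
  rcases Cfsg.Agent.S0106.result (Sylow.ofCard (p := 2) R (by rw [h8, hf]; rfl)) 1 le_rfl ⟨e⟩ with
    ⟨P, N, hN, hc⟩ | ⟨H, K, hK, ⟨a⟩⟩
  · have h1 := hc.card_mul_card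
    rw [P.card_eq_multiplicity, hf, h] at h1
    have h2 : Nat.card N = 3 := by omega
    refine (h3 (h2 ▸ card_dvd_of_le (commutator_eq_bot_iff_le_centralizer.1 (eq_bot_iff.2
      ((commutator_le_inf N R).trans (inf_eq_bot_of_coprime (by rw [h2, h8]; norm_num)).le))))).elim
  · have h1 := (K.subgroupOf H).card_mul_index
    have h2 : Nat.card (Matrix.SpecialLinearGroup (Fin 2) (ZMod 3)) = 24 := by
      rw [Nat.card_eq_fintype_card]; decide
    rw [index_eq_card, Nat.card_congr a.toEquiv, h2] at h1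
    have h4 := H.card_le_card_group
    have h5 : 0 < Nat.card (K.subgroupOf H) := Nat.card_pos
    have h6 : H = ⊤ := eq_top_of_le_card _ (by omega)
    have h7 : K.subgroupOf H = ⊥ := card_eq_one.1 (by omega)
    subst h6
    exact ⟨topEquiv.symm.trans (QuotientGroup.quotientBot.symm.trans
      ((QuotientGroup.quotientMulEquivOfEq h7.symm).trans a))⟩

open scoped commutatorElement in
open Subgroup H4 in
theorem key {F : Type} [Field F] [Fintype F] {p : ℕ} [hp' : Fact p.Prime] [CharP F p] (hp : p ≠ 2)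
    {a : Matrix.ProjGenLinGroup (Fin 2) F} (ha : orderOf a = p) (haL : a ∈ pL F)
    {R : Subgroup (Matrix.ProjGenLinGroup (Fin 2) F)}
    (hR : ¬ p ∣ Nat.card R) (haR : a ∈ normalizer (R : Set (Matrix.ProjGenLinGroup (Fin 2) F)))
    {r : Matrix.ProjGenLinGroup (Fin 2) F} (hr : r ∈ R) (hra : ⁅a, r⁆ ≠ 1) :
    p = 3 ∧ Nat.card (R ⊔ zpowers a : Subgroup _) = 12 ∧ ∃ x ∈ pL F, ∃ y ∈ pL F, Four x y ∧ R = V4 x y := by
  have hN : R ⊔ zpowers a ≤ normalizer (R : Set (Matrix.ProjGenLinGroup (Fin 2) F)) :=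
    sup_le le_normalizer (zpowers_le_of_mem haR)
  have hc : ⁅a, r⁆ ∈ R := mul_mem ((mem_normalizer_iff.1 haR r).1 hr) (inv_mem hr)
  have k0 : ∀ x ∈ R, x ^ p = 1 → x = 1 := fun x hx h => by_contra fun h1 =>
    hR (orderOf_eq_prime h h1 ▸ orderOf_dvd_card_of_mem hx)
  have hap : a ^ p = 1 := ha ▸ pow_orderOf_eq_one a
  have ha1 : a ≠ 1 := fun h => by rw [h, orderOf_one] at ha; exact hp'.out.one_lt.ne ha
  have haH : a ∈ R ⊔ zpowers a := mem_sup_right (mem_zpowers a)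
  have hrH : r ∈ R ⊔ zpowers a := mem_sup_left hr
  have k1 : ∀ x ∈ R ⊔ zpowers a, x ^ p ∈ R := fun x hx => by
    obtain ⟨y, hy, b, ⟨n, rfl⟩, rfl⟩ :=
      (coe_mul_of_right_le_normalizer_left R _ (zpowers_le_of_mem haR)).le hx
    beta_reduce
    have h1 : ∀ k : ℕ, (y * a ^ n) ^ k * ((a ^ n) ^ k)⁻¹ ∈ R := fun k => by
      induction k with
      | zero => simp
      | succ k ih =>
        have := mul_mem hy ((mem_normalizer_iff.1 (zpow_mem haR n) _).1 ih)
        rwa [show y * (a ^ n * ((y * a ^ n) ^ k * ((a ^ n) ^ k)⁻¹) * (a ^ n)⁻¹) =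
          (y * a ^ n) ^ (k + 1) * ((a ^ n) ^ (k + 1))⁻¹ by rw [pow_succ', pow_succ' (a ^ n)]; group] at this
    have := h1 p
    rwa [← zpow_natCast (a ^ n), ← zpow_mul, mul_comm n, zpow_mul, zpow_natCast, hap, _root_.one_zpow,
      inv_one, mul_one] at this
  have k2 : ∀ x ∈ R ⊔ zpowers a, x * x = 1 → x ∈ R := fun x hx h => by
    obtain ⟨k, hk⟩ := hp'.out.odd_of_ne_two hp
    have := k1 x hx
    rwa [hk, pow_succ, pow_mul, sq, h, one_pow, one_mul] at this
  have k3 : ∀ S ≤ R ⊔ zpowers a, IsSimpleGroup S → p ∣ Nat.card S → ⁅a, r⁆ ∉ S := fun S hS hs h1 h2 => by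
    rcases (⟨fun x hx g => (mem_normalizer_iff.1 (hN (hS g.2)) x.1).1 hx⟩ :
      (R.subgroupOf S).Normal).eq_bot_or_eq_top with h | h
    · exact hra (congrArg Subtype.val (mem_bot.1 (h.le (mem_subgroupOf.2 hc : (⟨_, h2⟩ : S) ∈ _))))
    · exact hR (h1.trans (card_dvd_of_le (subgroupOf_eq_top.1 h)))
  rcases dickson_pgl p (R ⊔ zpowers a) with ⟨x, h⟩ | ⟨g, hg, h⟩ | ⟨h, -⟩ | ⟨h3, h⟩ | ⟨E, P, hE, h⟩
  · exact (hra (k0 _ hc (commutator_pow_of_fix p (h haH) (h hrH)))).elim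
  · refine (ha1 (eq_one_of_mem_pT p hg ((dih_pN hg).mem_of_sq (h haH) fun h1 => hp ?_) hap)).elim
    rw [← sq, ← orderOf_dvd_iff_pow_eq_one, ha] at h1
    exact (Nat.prime_dvd_prime_iff_eq hp'.out Nat.prime_two).1 h1
  · exact (h (ha ▸ orderOf_dvd_card_of_mem haH)).elim
  · exact (k3 _ le_rfl h.some.isSimpleGroup (ha ▸ orderOf_dvd_card_of_mem haH)
      (mem_sup_left hc)).elim
  rcases hE.eq_or_lt with hE | hE
  swap
  · have h1 : cj (pslS E) P ≤ R ⊔ zpowers a ∧ R ⊔ zpowers a ≤ cj (pglS E) P := by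
      rcases h with h | h <;> rw [h]
      exacts [⟨le_rfl, cj_mono (pslS_le_pglS E) P⟩, ⟨cj_mono (pslS_le_pglS E) P, le_rfl⟩]
    have := isSimpleGroup_pslS hE
    refine (k3 _ h1.1 (nonempty_map_conj _ P).some.isSimpleGroup
      (by rw [card_cj]; exact char_dvd_card_pslS p E) ?_).elim
    obtain ⟨u, hu⟩ := mem_cj.1 (h1.2 haH)
    obtain ⟨v, hv⟩ := mem_cj.1 (h1.2 hrH)
    obtain ⟨w, hw⟩ := commutator_mem_pL u v
    refine mem_cj.2 ⟨w, ?_⟩
    rw [MonoidHom.comp_apply, hw, map_commutatorElement, hu, hv]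
    simp only [commutatorElement_def]; group
  have h3 : p = 3 := by
    obtain ⟨m, -, h1⟩ := exists_card_pow E
    have h2 := char_dvd_card (F := F) p
    rw [← Nat.card_eq_fintype_card, h1, ← hE] at h2
    exact (Nat.prime_dvd_prime_iff_eq hp'.out Nat.prime_three).1 (hp'.out.dvd_of_dvd_pow h2)
  subst h3
  rcases h with h | h
  · have e : Nonempty ((R ⊔ zpowers a : Subgroup _) ≃* alternatingGroup (Fin 4)) :=
      h ▸ equiv_cj (pslS_equiv_a4 hE.symm) P
    have h12 := (card_of_equiv e).trans card_a4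
    obtain ⟨x, hx, y, hy, h1, h2, h4, -⟩ := (has4_of_a4 e).exists_pL
    refine ⟨rfl, h12, x, hx, y, hy, h4, (eq_of_le_of_card ((closure_le _).2 ?_) ?_).symm⟩
    · rintro _ (rfl | rfl)
      exacts [k2 _ h1 (sq_of_ord2 h4.oa), k2 _ h2 (sq_of_ord2 h4.ob)]
    · have h5 := card_dvd_of_le (le_sup_left : R ≤ R ⊔ zpowers a)
      rw [h12] at h5
      rw [h4.card]
      exact Nat.le_of_dvd (by norm_num) (Nat.Coprime.dvd_of_dvd_mul_left (m := 3) (n := 4)
        ((Nat.Prime.coprime_iff_not_dvd Nat.prime_three).2 hR).symm h5)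
  · obtain ⟨e⟩ : Nonempty ((R ⊔ zpowers a : Subgroup _) ≃* Equiv.Perm (Fin 4)) :=
      h ▸ equiv_cj (pglS_equiv_s4 hE.symm) P
    have k : ∀ s : Equiv.Perm (Fin 4), s * s = 1 → (e.symm s).1 ∈ R := fun s hs =>
      k2 _ (e.symm s).2 (by rw [← coe_mul, ← map_mul, hs, map_one, coe_one])
    have h1 := mul_mem (k (Equiv.swap 0 1) (by decide)) (k (Equiv.swap 1 2) (by decide))
    rw [← coe_mul, ← map_mul] at h1
    have h2 := k0 _ h1 (by
      rw [← coe_pow, ← map_pow, show (Equiv.swap (0 : Fin 4) 1 * Equiv.swap 1 2) ^ 3 = 1 by decide,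
        map_one, coe_one])
    exact absurd (e.symm.injective (Subtype.ext (h2.trans (congrArg Subtype.val (map_one e.symm)).symm)))
      (by decide)

/-- Let F be a finite field of odd characteristic p and let a be a p-element of SL₂(F) normalizing a subgroup R of order prime to p with [R, a] ≠ 1. Then p = 3, R is a quaternion group of order 8, and R⟨a⟩ is isomorphic to SL₂(3). -/
theorem result (F : Type) [Field F] [Fintype F] {p : ℕ} [Fact p.Prime] [CharP F p] (hp : p ≠ 2) (a : Matrix.SpecialLinearGroup (Fin 2) F) (ha : IsPGroup p ↥(Subgroup.zpowers a)) (R : Subgroup (Matrix.SpecialLinearGroup (Fin 2) F)) (hR : (Nat.card R).Coprime p) (haR : a ∈ Subgroup.normalizer (R : Set (Matrix.SpecialLinearGroup (Fin 2) F))) (hnt : ⁅R, Subgroup.zpowers a⁆ ≠ ⊥) : p = 3 ∧ Nonempty (↥R ≃* QuaternionGroup 2) ∧ Nonempty (↥(R ⊔ Subgroup.zpowers a) ≃* Matrix.SpecialLinearGroup (Fin 2) (ZMod 3)) := by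
  have hp' : p.Prime := Fact.out
  have h2 := H4.two_ne_zero_of_char (F := F) p hp
  obtain ⟨k, hk⟩ := H8.exists_pow_eq_one_of_mem ha (Subgroup.mem_zpowers a)
  have hnc : ¬ R ≤ Subgroup.centralizer {a} := fun h => hnt (by
    rw [Subgroup.commutator_eq_bot_iff_le_centralizer]
    rintro x hx _ ⟨n, rfl⟩
    exact ((show Commute x a from Subgroup.mem_centralizer_singleton_iff.1 (h hx)).zpow_right n).symm)
  obtain ⟨r, hr, h3⟩ := SetLike.not_le_iff_exists.1 hnc
  rw [Subgroup.mem_centralizer_singleton_iff] at h3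
  have ha1 : a ≠ 1 := fun h => h3 (by rw [h, mul_one, one_mul])
  have hu := H4.sl_un_of_pow p ha1 hk
  have hR' : ¬ p ∣ Nat.card R := hp'.coprime_iff_not_dvd.1 hR.symm
  obtain ⟨rfl, h12, x, hx, y, hy, h4, h5⟩ := key hp (H4.smk_un_pow p hu) (H4.smk_mem_pL a)
    (R := R.map H4.smk) (fun h => hR' (h.trans (Subgroup.card_map_dvd _ _)))
    (Subgroup.le_normalizer_map _ ⟨a, haR, rfl⟩) (r := H4.smk r) ⟨r, hr, rfl⟩ fun h => by
      rw [commutatorElement_eq_one_iff_mul_comm, ← map_mul, ← map_mul, H4.smk_eq_iff] at h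
      refine h3 (h.resolve_right fun h => ?_)
      have h4 := congrArg (fun x : Matrix.SpecialLinearGroup (Fin 2) F => x.1.trace)
        (show r * a * r⁻¹ = -(a * r * r⁻¹) by rw [h, neg_mul])
      simp only [mul_inv_cancel_right] at h4
      rw [← H4.sl_trace_of_isConj (isConj_iff.2 ⟨r, rfl⟩), H4.sl_neg_val, Matrix.trace_neg, hu.2.1] at h4
      exact mul_ne_zero h2 h2 (by linear_combination h4)
  obtain ⟨A, hA, rfl⟩ : x ∈ R.map H4.smk := h5 ▸ H4.left_mem_V4 x y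
  obtain ⟨B, hB, rfl⟩ : y ∈ R.map H4.smk := h5 ▸ H4.right_mem_V4 _ y
  have tA := H4.trace_eq_zero_of_ord2 h4.oa
  have tB := H4.trace_eq_zero_of_ord2 h4.ob
  have tAB := H4.trace_eq_zero_of_ord2 (u := A * B) (by rw [map_mul]; exact h4.oab)
  have hn : -1 ∈ R := H4.sl_sq_of_trace tA ▸ mul_mem hA hA
  have h8 : Nat.card R = 8 := by rw [H4.card_of_neg_one_mem h2 hn, h5, h4.card]
  have h6 : Nonempty (Subgroup.closure {A, B} ≃* QuaternionGroup 2) := by
    refine H6.closure_equiv_quaternion (orderOf_eq_prime_pow (p := 2) (n := 1) ?_ ?_) ?_ ?_ ?_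
    · rw [pow_one, sq, H4.sl_sq_of_trace tA]; exact H4.sl_neg_one_ne_one h2
    · rw [show 2 ^ (1 + 1) = 2 * 2 from rfl, pow_mul, sq A, H4.sl_sq_of_trace tA]; simp
    · rw [sq, H4.sl_sq_of_trace tA, H4.sl_sq_of_trace tB]
    · rw [mul_inv_eq_iff_eq_mul]
      refine Subtype.ext ?_
      rw [H4.sl_coe_mul, H4.sl_coe_mul, H4.sl_inv_val, H4.adj_of_trace_zero tA, H4.anti_of_trace tA tB tAB,
        neg_mul]
    · rw [H4.mem_zpowers_four tA]
      have h7 := h4.ob
      rintro (rfl | rfl | rfl | rfl)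
      · simp at h7
      · rw [H4.smk_neg] at h7; simp at h7
      · exact h4.ne rfl
      · exact h4.ne (H4.smk_neg _).symm
  have h7 : Subgroup.closure {A, B} = R := H4.eq_of_le_of_card ((Subgroup.closure_le _).2 (by
    rintro _ (rfl | rfl); exacts [hA, hB])) (by
      rw [h8, H4.card_of_equiv h6, Nat.card_eq_fintype_card, QuaternionGroup.card])
  rw [h7] at h6
  have h24 : Nat.card (R ⊔ Subgroup.zpowers a : Subgroup _) = 24 := by
    rw [H4.card_of_neg_one_mem h2 (Subgroup.mem_sup_left hn), Subgroup.map_sup, MonoidHom.map_zpowers, h12]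
  refine ⟨rfl, h6, ?_⟩
  have : (R.subgroupOf (R ⊔ Subgroup.zpowers a)).Normal :=
    (Subgroup.normal_subgroupOf_iff_le_normalizer le_sup_left).2
      (sup_le Subgroup.le_normalizer (Subgroup.zpowers_le_of_mem haR))
  refine sl23 h24 (R.subgroupOf _) ((Subgroup.subgroupOfEquivOfLe le_sup_left).trans h6.some) fun h9 => h3 ?_
  have haH : a ∈ R ⊔ Subgroup.zpowers a := Subgroup.mem_sup_right (Subgroup.mem_zpowers a)
  set C := Subgroup.centralizer ((R.subgroupOf (R ⊔ Subgroup.zpowers a) : Subgroup _) : Set (R ⊔ Subgroup.zpowers a : Subgroup _)) with hC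
  have h10 : (⟨a, haH⟩ : (R ⊔ Subgroup.zpowers a : Subgroup _)) ∈ C := by
    rw [← QuotientGroup.eq_one_iff, ← orderOf_eq_one_iff]
    have h11 := orderOf_dvd_natCard (QuotientGroup.mk ⟨a, haH⟩ : _ ⧸ C)
    have h13 : orderOf (QuotientGroup.mk ⟨a, haH⟩ : _ ⧸ C) ∣ 3 ^ k := by
      rw [orderOf_dvd_iff_pow_eq_one, ← QuotientGroup.mk_pow,
        show (⟨a, haH⟩ : (R ⊔ Subgroup.zpowers a : Subgroup _)) ^ 3 ^ k = 1 from Subtype.ext hk,
        QuotientGroup.mk_one]
    have h14 := C.index_mul_card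
    obtain ⟨m, hm⟩ := h9
    rw [h24, hm] at h14
    have h15 : C.index ∣ 2 ^ 3 := ⟨m, by linarith⟩
    exact Nat.eq_one_of_dvd_coprimes (Nat.Coprime.pow k 3 (by norm_num : Nat.Coprime 3 2)) h13 (h11.trans h15)
  exact congrArg Subtype.val (h10 ⟨r, Subgroup.mem_sup_left hr⟩ hr)

end Cfsg.Agent.S3740
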