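import Cfsg.Statements.S3741
import Cfsg.Agent.H7.PGrp

set_option autoImplicit false
open Cfsg

namespace Cfsg.Agent.S3741



/-- Let A and B be subgroups of a finite p-group with [A, B] ≤ A ∩ B and [A, B] of order at most p. Then |A : C_A(B)| = |B : C_B(A)|. -/
theorem result {G : Type*} [Group G] [Finite G] {p : ℕ} [Fact p.Prime] (hG : IsPGroup p G) (A B : Subgroup G) (hAB : ⁅A, B⁆ ≤ A ⊓ B) (hcard : Nat.card ↥⁅A, B⁆ ≤ p) : (A ⊓ Subgroup.centralizer (B : Set G)).relIndex A = (B ⊓ Subgroup.centralizer (A : Set G)).relIndex B := by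
  rw [Subgroup.inf_relIndex_left, Subgroup.inf_relIndex_left]
  have hp : p.Prime := Fact.out
  obtain ⟨n, hn⟩ := IsPGroup.iff_card.1 (hG.to_subgroup ⁅A, B⁆)
  have hn1 : n ≤ 1 := by
    rw [hn] at hcard
    exact (Nat.pow_le_pow_iff_right hp.one_lt).1 (by simpa using hcard)
  have hdvd : Nat.card ↥⁅A, B⁆ ∣ p := by
    rw [hn]; simpa using pow_dvd_pow p hn1
  haveI : IsCyclic ↥⁅A, B⁆ := isCyclic_of_card_dvd_prime hdvd
  have key : ∀ C : Subgroup G, C ≤ Subgroup.normalizer ((⁅A, B⁆ : Subgroup G) : Set G) →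
      C ≤ Subgroup.centralizer ((⁅A, B⁆ : Subgroup G) : Set G) := by
    intro C hC
    rcases (Nat.dvd_prime hp).1 hdvd with h | h
    · rw [Subgroup.card_eq_one.1 h]
      intro x _ y hy
      rw [Subgroup.mem_bot.1 hy]; simp
    · exact H7.le_centralizer_of_card_prime (hG.to_subgroup C) h hC
  exact H7.relIndex_centralizer_symm A B ⁅A, B⁆ le_rfl
    (key _ (Subgroup.normalizer_commutator_ge_left A B))
    (key _ (Subgroup.normalizer_commutator_ge_right A B))

end Cfsg.Agent.S3741
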