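import Cfsg.Statements.S3744
import Cfsg.Agent.H7.Simple
import Cfsg.Agent.H1.PSolv
import Cfsg.Agent.H1.HallTop

set_option autoImplicit false
open Cfsg

namespace Cfsg.Agent.S3744



/-- A finite p-soluble group has a p-complement, all its p-complements are conjugate, and every subgroup of order prime to p lies in one of them. Here a p-complement is a subgroup of order prime to p whose index is a power of p. -/
theorem result {G : Type*} [Group G] [Finite G] {p : ℕ} [Fact p.Prime] (hG : Cfsg.IsPSolvable p G) : (∃ H : Subgroup G, (Nat.card H).Coprime p ∧ ∃ n : ℕ, H.index = p ^ n) ∧ (∀ H₁ H₂ : Subgroup G, (Nat.card H₁).Coprime p → (∃ n : ℕ, H₁.index = p ^ n) → (Nat.card H₂).Coprime p → (∃ n : ℕ, H₂.index = p ^ n) → ∃ g : G, H₂ = H₁.map (MulAut.conj g).toMonoidHom) ∧ (∀ U : Subgroup G, (Nat.card U).Coprime p → ∃ H : Subgroup G, (Nat.card H).Coprime p ∧ (∃ n : ℕ, H.index = p ^ n) ∧ ∃ g : G, U.map (MulAut.conj g).toMonoidHom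 ≤ H) := by
  have hp := (Fact.out : p.Prime)
  have h := H1.hallOK_compl_of_isPSolvable hG
  have e : ∀ H : Subgroup G, IsPiHall {p}ᶜ H ↔ (Nat.card H).Coprime p ∧ ∃ n : ℕ, H.index = p ^ n :=
    fun H => by
      rw [H1.isPiHall_iff, compl_compl, H1.isPiNat_compl_singleton_iff hp,
        H1.isPiNat_singleton_iff hp Subgroup.index_ne_zero_of_finite]
  refine ⟨?_, fun H₁ H₂ h1 h2 h3 h4 => ?_, fun U hU => ?_⟩
  · obtain ⟨H, hH⟩ := h.exists_isPiHall
    exact ⟨H, (e H).1 hH⟩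
  · obtain ⟨g, hg⟩ := h.isPiHall_conj ((e _).2 ⟨h1, h2⟩) ((e _).2 ⟨h3, h4⟩)
    exact ⟨g, hg.symm⟩
  · obtain ⟨H, hH, hU⟩ := h.exists_isPiHall_ge ((H1.isPiNat_compl_singleton_iff hp).2 hU)
    exact ⟨H, ((e H).1 hH).1, ((e H).1 hH).2, 1, by rwa [H7.cj_one]⟩

end Cfsg.Agent.S3744
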