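import Cfsg.Statements.S3745
import Cfsg.Agent.H1.HallTop

set_option autoImplicit false
open Cfsg

namespace Cfsg.Agent.S3745



/-- Coprime action on a solvable group and Hall subgroups. Let A and G be subgroups of a finite group with A normalizing G, the orders of A and G coprime, and G solvable, and let π be a set of primes. Then (a) G has an A-invariant Hall π-subgroup; (b) any two A-invariant Hall π-subgroups of G are conjugate by an element of C_G(A); (c) every A-invariant π-subgroup of G lies in an A-invariant Hall π-subgroup of G. -/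
theorem result {X : Type*} [Group X] [Finite X] (A G : Subgroup X) (hAG : A ≤ Subgroup.normalizer (G : Set X)) (hcop : (Nat.card A).Coprime (Nat.card G)) (hsolv : Group.IsSolvable G) (π : Set ℕ) : (∃ H : Subgroup X, Cfsg.IsPiHallOf π H G ∧ A ≤ Subgroup.normalizer (H : Set X)) ∧ (∀ H₁ H₂ : Subgroup X, Cfsg.IsPiHallOf π H₁ G → A ≤ Subgroup.normalizer (H₁ : Set X) → Cfsg.IsPiHallOf π H₂ G → A ≤ Subgroup.normalizer (H₂ : Set X) → ∃ c ∈ G ⊓ Subgroup.centralizer (A : Set X), H₂ = H₁.map (MulAut.conj c).toMonoidHom) ∧ (∀ U : Subgroup X, U ≤ G → A ≤ Subgroup.normalizer (U : Set X) → (∀ p : ℕ, p.Prime → p ∣ Nat.card U → p ∈ π) → ∃ H : Subgroup X, Cfsg.IsPiHallOf π H G ∧ A ≤ Subgroup.normalizer (H : Set X) ∧ U ≤ H) := by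
  have h := H1.hallOK_of_isSolvable π hsolv
  refine ⟨h.exists_invariant hAG hcop (Or.inr hsolv), fun H₁ H₂ h1 h2 h3 h4 => ?_,
    fun U h1 h2 h3 => ?_⟩
  · obtain ⟨c, hc, e⟩ := h.invariant_conj hAG hcop (Or.inr hsolv) h1 h3 h2 h4
    exact ⟨c, hc, e.symm⟩
  · obtain ⟨H, h4, h5, h6⟩ := h.exists_invariant_ge hAG hcop (Or.inr hsolv) h1 h3 h2
    exact ⟨H, h4, h6, h5⟩

end Cfsg.Agent.S3745
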