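import Cfsg.Statements.S3746
import Cfsg.Agent.H5.Fstar

set_option autoImplicit false
open Cfsg

namespace Cfsg.Agent.S3746



/-- Let Z ≤ Z(G) be a central subgroup of a finite group G and E a subgroup of G containing Z whose image E/Z is a component of G/Z (subnormal and quasisimple). Then the derived subgroup [E, E] is a component of G. -/
theorem result {G : Type*} [Group G] [Finite G] (Z : Subgroup G) (hZ : Z ≤ Subgroup.center G) [Z.Normal] (E : Subgroup G) (hZE : Z ≤ E) (hE : Cfsg.IsComponent (E.map (QuotientGroup.mk' Z))) : Cfsg.IsComponent ⁅E, E⁆ := by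
  rw [← H5.compOf_top_iff] at hE ⊢
  have hcm : ∀ K : Subgroup G, (K.map (QuotientGroup.mk' Z)).comap (QuotientGroup.mk' Z) = Z ⊔ K :=
    fun K => QuotientGroup.comap_map_mk' Z K
  have hsn : H5.SN E ⊤ := by
    have := hE.sn.comap (QuotientGroup.mk' Z)
    rwa [hcm, sup_eq_right.2 hZE, Subgroup.comap_top] at this
  have hmap : (⁅E, E⁆ : Subgroup G).map (QuotientGroup.mk' Z) = E.map (QuotientGroup.mk' Z) := by
    rw [Subgroup.map_commutator, hE.perfect]
  have hE' : ⁅E, E⁆ ⊔ Z = E := by
    have := hcm ⁅E, E⁆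
    rw [hmap, hcm, sup_eq_right.2 hZE] at this
    rw [sup_comm, ← this]
  have hle : ⁅E, E⁆ ≤ E := le_sup_left.trans hE'.le
  have hZc : ∀ K : Subgroup G, Z ≤ Subgroup.centralizer (K : Set G) :=
    fun K => hZ.trans (Subgroup.center_le_centralizer _)
  refine ⟨H5.SN.step hle (H5.le_normalizer_commutator Subgroup.le_normalizer Subgroup.le_normalizer) hsn, ?_⟩
  refine H5.qs_of_map (QuotientGroup.mk' Z) ?_ ?_ (hmap ▸ hE.qs)
  · have := H5.commutator_sup_self_of_central (A := ⁅E, E⁆) (Z := Z) (hZc _)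
    rw [hE'] at this
    exact this.symm
  · rw [QuotientGroup.ker_mk']
    exact inf_le_right.trans (hZc _)

end Cfsg.Agent.S3746
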