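import Cfsg.Statements.S3747
import Cfsg.Agent.H5.Fstar

set_option autoImplicit false
open Cfsg

namespace Cfsg.Agent.S3747

theorem partA {G : Type*} [Group G] [Finite G] (K : Subgroup G) (hK : H5.CompOf K ⊤)
    (hZ : H5.zOf K = ⊥) (N : Subgroup G) (hN : N.Normal)
    (hle : N ≤ Subgroup.normalClosure (K : Set G)) :
    N = ⊥ ∨ N = Subgroup.normalClosure (K : Set G) := by
  rcases hK.le_or_commutator_eq_bot (H5.sn_top_iff.2 hN.isSubnormal) with h | h
  · exact Or.inr (le_antisymm hle (Subgroup.normalClosure_le_normal h))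
  left
  let S : Set (Subgroup G) := Set.range (fun g : G => H5.cj g K)
  have hS : ∀ L ∈ S, H5.CompOf L ⊤ := by
    rintro _ ⟨g, rfl⟩
    exact hK.cj_of_mem (Subgroup.le_normalizer (Subgroup.mem_top g))
  haveI hSn : (sSup S).Normal := by
    rw [H5.normal_iff_top_le_normalizer]
    refine H5.le_normalizer_sSup ?_
    rintro g - _ ⟨h, rfl⟩
    exact ⟨g * h, H5.cj_mul g h K⟩
  have h1 : Subgroup.normalClosure (K : Set G) ≤ sSup S :=
    Subgroup.normalClosure_le_normal (le_sSup (s := S) ⟨1, H5.cj_one K⟩)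
  have h2 : N ≤ H5.zOf (sSup S) := by
    refine le_inf (hle.trans h1) ?_
    rw [Subgroup.le_centralizer_iff, sSup_le_iff]
    rintro _ ⟨g, rfl⟩
    rw [← Subgroup.commutator_eq_bot_iff_le_centralizer, ← H5.cj_eq_of_normal g N,
      ← H5.cj_commutator, h, H5.cj_bot]
  rw [H5.zOf_sSup_compOf hS] at h2
  refine le_bot_iff.1 (h2.trans (iSup₂_le ?_))
  rintro _ ⟨g, rfl⟩
  show H5.cj g K ⊓ Subgroup.centralizer (H5.cj g K : Set G) ≤ ⊥
  rw [← H5.cj_centralizer, ← H5.cj_inf]
  exact (H5.cj_eq_bot_iff.2 hZ).le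

/-- Let G be a finite group. (a) If K is a component of G with trivial centre, then the normal closure of K in G is a minimal normal subgroup of G. (b) If the Fitting subgroup of G is trivial, then the layer E(G) is generated by the minimal normal subgroups of G. -/
theorem result {G : Type*} [Group G] [Finite G] : (∀ K : Subgroup G, Cfsg.IsComponent K → Subgroup.center ↥K = ⊥ → (Subgroup.normalClosure (K : Set G) ≠ ⊥ ∧ ∀ N : Subgroup G, N.Normal → N ≤ Subgroup.normalClosure (K : Set G) → N = ⊥ ∨ N = Subgroup.normalClosure (K : Set G))) ∧ (Cfsg.fittingSubgroup G = ⊥ → sSup {N : Subgroup G | N ≠ ⊥ ∧ N.Normal ∧ ∀ N' : Subgroup G, N'.Normal → N' ≤ N → N' = ⊥ ∨ N' = N} = Cfsg.layer G) := by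
  have hne : ∀ K : Subgroup G, H5.CompOf K ⊤ → Subgroup.normalClosure (K : Set G) ≠ ⊥ :=
    fun K hK h => hK.ne_bot (le_bot_iff.1 (h ▸ Subgroup.le_normalClosure))
  refine ⟨fun K hK hZ => ?_, fun hF => le_antisymm (sSup_le ?_) ?_⟩
  · rw [← H5.compOf_top_iff] at hK
    refine ⟨hne K hK, partA K hK ?_⟩
    show K ⊓ _ = ⊥
    rw [← H5.map_center_subtype, hZ, Subgroup.map_bot]
  · rintro N ⟨hN0, hN, hmin⟩
    obtain ⟨L, hL, hLN⟩ := H5.exists_compOf_le (H5.sn_top_iff.2 hN.isSubnormal)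
      (by rw [H5.fitOf_top, hF]; simp) (by rw [H5.fitOf_top, hF]; simpa using hN0)
    rcases hmin _ inferInstance (Subgroup.normalClosure_le_normal hLN) with h | h
    · exact absurd h (hne L hL)
    · rw [← h]
      exact Subgroup.normalClosure_le_normal (H5.layerOf_top (G := G) ▸ hL.le_layerOf)
  · rw [← H5.layerOf_top, H5.layerOf_le_iff]
    intro L hL
    refine Subgroup.le_normalClosure.trans (le_sSup ⟨hne L hL, inferInstance, partA L hL ?_⟩)
    have := hL.sn.zOf_le_fitOf
    rwa [H5.fitOf_top, hF, le_bot_iff] at this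

end Cfsg.Agent.S3747
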