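import Cfsg.Statements.S3749
import Cfsg.Agent.H7.Prim
import Cfsg.Agent.H1.HallTop

set_option autoImplicit false
open Cfsg

namespace Cfsg.Agent.S3749



/-- Call a proper subgroup M of G primitive when M = N_G(N) for every non-trivial normal subgroup N of M. Let M be a primitive subgroup of the finite group G, p a prime with O_p(M) ≠ 1, and N a normal subgroup of G with M ∩ N = 1. Then p does not divide the order of N; for every prime q there is exactly one Sylow q-subgroup of N normalized by M; and if the order of N has at least two prime divisors then M is not a maximal subgroup of G. -/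
theorem result {G : Type*} [Group G] [Finite G] (M : Subgroup G) (hM : M ≠ ⊤) (hprim : ∀ N : Subgroup G, N ≤ M → M ≤ Subgroup.normalizer (N : Set G) → N ≠ ⊥ → Subgroup.normalizer (N : Set G) = M) {p : ℕ} [Fact p.Prime] (hOp : Cfsg.pCore p ↥M ≠ ⊥) (N : Subgroup G) [N.Normal] (hMN : M ⊓ N = ⊥) : ¬ p ∣ Nat.card N ∧ (∀ q : ℕ, [Fact q.Prime] → ∃! Q : Sylow q ↥N, M ≤ Subgroup.normalizer ((Q : Subgroup ↥N).map N.subtype : Set G)) ∧ ((∃ q r : ℕ, q.Prime ∧ r.Prime ∧ q ≠ r ∧ q ∣ Nat.card N ∧ r ∣ Nat.card N) → ¬ IsCoatom M) := by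
  have hp := (Fact.out : p.Prime)
  have hP := H5.isPGroup_opOf p M
  have hP0 : H5.opOf p M ≠ ⊥ := by
    rwa [Ne, Subgroup.map_eq_bot_iff_of_injective _ M.subtype_injective]
  have h1 := hprim _ (H5.opOf_le p M) (H5.self_le_normalizer_opOf p M) hP0
  have hC : N ⊓ Subgroup.centralizer (H5.opOf p M : Set G) = ⊥ := by
    rw [← le_bot_iff, ← hMN, inf_comm]
    exact inf_le_inf_right _ ((Subgroup.centralizer_le_normalizer _).trans h1.le)
  have hnd : ¬ p ∣ Nat.card N := by
    intro hd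
    obtain ⟨S, hS⟩ := hP.exists_le_sylow
    have h2 := H3.not_dvd_relIndex_of_normal S N
    have h3 : (S : Subgroup G) ⊓ N ≠ ⊥ := fun e => by
      have := H7.card_inf_mul_relIndex (S : Subgroup G) N
      rw [e, Subgroup.card_bot, one_mul] at this
      exact h2 (this ▸ hd)
    refine H7.inf_centralizer_ne_bot hP (S.2.to_le inf_le_left)
      (H1.le_normalizer_inf (hS.trans Subgroup.le_normalizer) Subgroup.le_normalizer_of_normal) h3 ?_
    rw [← le_bot_iff, ← hC]
    exact inf_le_inf_right _ inf_le_right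
  have hcop : (Nat.card (H5.opOf p M)).Coprime (Nat.card N) :=
    H1.IsPGroup.coprime_card hP ((Nat.Prime.coprime_iff_not_dvd hp).2 hnd).symm
  have hs : Group.IsSolvable (H5.opOf p M) ∨ Group.IsSolvable N := by
    haveI := hP.isNilpotent
    exact Or.inl inferInstance
  have huq : ∀ (q : ℕ) [Fact q.Prime] (Q R : Subgroup G), IsPiHallOf {q} Q N → IsPiHallOf {q} R N →
      H5.opOf p M ≤ Subgroup.normalizer (Q : Set G) →
      H5.opOf p M ≤ Subgroup.normalizer (R : Set G) → Q = R := by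
    intro q _ Q R hQ hR h2 h3
    obtain ⟨c, hc, e⟩ := H1.invariant_sylowOf_conj Subgroup.le_normalizer_of_normal hcop hs hQ hR h2 h3
    rw [hC, Subgroup.mem_bot] at hc
    rw [← e, hc, map_one, one_smul]
  have hex : ∀ (q : ℕ) [Fact q.Prime], ∃ Q : Subgroup G, IsPiHallOf {q} Q N ∧
      M ≤ Subgroup.normalizer (Q : Set G) := by
    intro q _
    obtain ⟨Q, hQ, h2⟩ := H1.exists_invariant_sylowOf q Subgroup.le_normalizer_of_normal hcop hs
    refine ⟨Q, hQ, fun m hm => H1.mem_normalizer_iff_smul.2 (huq q _ _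
      (H1.IsPiHallOf.conj_of_mem hQ (Subgroup.le_normalizer_of_normal (Subgroup.mem_top m))) hQ ?_ h2)⟩
    rw [H1.normalizer_conj_smul, ← H1.mem_normalizer_iff_smul.1 (h1.ge hm)]
    exact Subgroup.pointwise_smul_le_pointwise_smul_iff.2 h2
  refine ⟨hnd, fun q _ => ?_, ?_⟩
  · obtain ⟨Q, hQ, h2⟩ := hex q
    obtain ⟨S, rfl⟩ := H1.exists_sylow_of_isPiHallOf hQ
    refine ⟨S, h2, fun R hR => Sylow.ext (Subgroup.map_injective N.subtype_injective ?_)⟩
    exact huq q _ _ (H1.isPiHallOf_sylow R) hQ ((H5.opOf_le p M).trans hR) ((H5.opOf_le p M).trans h2)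
  · rintro ⟨q, r, hq, hr, hqr, hq', hr'⟩ hco
    haveI := Fact.mk hq
    obtain ⟨Q, hQ, h2⟩ := hex q
    obtain ⟨hQN, hQp, hQi⟩ := H1.isPiHallOf_singleton_iff.1 hQ
    rcases hco.le_iff.1 (le_sup_right : M ≤ Q ⊔ M) with h | h
    · have h3 := H7.dedekind hQN (Or.inr h2)
      rw [h, hMN, top_inf_eq, sup_bot_eq] at h3
      obtain ⟨k, hk⟩ := IsPGroup.iff_card.1 hQp
      rw [h3, hk] at hr'
      exact hqr ((Nat.prime_dvd_prime_iff_eq hr hq).1 (hr.dvd_of_dvd_pow hr')).symm
    · have h3 : Q = ⊥ := le_bot_iff.1 (hMN ▸ le_inf (h ▸ le_sup_left) hQN)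
      rw [h3, Subgroup.relIndex_bot_left] at hQi
      exact hQi hq'

end Cfsg.Agent.S3749
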