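import Cfsg.Statements.S3750
import Cfsg.Agent.H7.Prim

set_option autoImplicit false
open Cfsg

namespace Cfsg.Agent.S3750



/-- Call a proper subgroup M of G primitive when M = N_G(N) for every non-trivial normal subgroup N of M. Let M be a primitive subgroup of the finite group G and N a normal subgroup of G with M ∩ F*(N) ≠ 1. Then F(G) = 1 and F*(N) = F*(G) = E(G); in particular every minimal normal subgroup of G is contained in N. -/
theorem result {G : Type*} [Group G] [Finite G] (M : Subgroup G) (hM : M ≠ ⊤) (hprim : ∀ N : Subgroup G, N ≤ M → M ≤ Subgroup.normalizer (N : Set G) → N ≠ ⊥ → Subgroup.normalizer (N : Set G) = M) (N : Subgroup G) [N.Normal] (hMF : M ⊓ (Cfsg.generalizedFittingSubgroup ↥N).map N.subtype ≠ ⊥) : Cfsg.fittingSubgroup G = ⊥ ∧ (Cfsg.generalizedFittingSubgroup ↥N).map N.subtype = Cfsg.generalizedFittingSubgroup G ∧ Cfsg.generalizedFittingSubgroup G = Cfsg.layer G ∧ ∀ K : Subgroup G, K.Normal → K ≠ ⊥ → (∀ K' : Subgroup G, K'.Normal → K' ≤ K → K' = ⊥ ∨ K'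 = K) → K ≤ N := by
  have hn : (H5.fstarOf N).Normal := H5.normal_iff_top_le_normalizer.2
    (H5.le_normalizer_fstarOf Subgroup.le_normalizer_of_normal)
  have h1 := hprim _ inf_le_left
    (H1.le_normalizer_inf Subgroup.le_normalizer Subgroup.le_normalizer_of_normal) hMF
  have hC : Subgroup.centralizer (H5.fstarOf N : Set G) = ⊥ :=
    H7.prim_subnormal_eq_bot hM hprim (Subgroup.Normal.isSubnormal inferInstance)
      (h1 ▸ (Subgroup.centralizer_le (inf_le_right : M ⊓ H5.fstarOf N ≤ _)).trans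
        (Subgroup.centralizer_le_normalizer _))
  have hCN : Subgroup.centralizer (N : Set G) = ⊥ :=
    le_bot_iff.1 (hC ▸ Subgroup.centralizer_le (H5.fstarOf_le N))
  have hsn : H5.SN N ⊤ := H5.sn_top_iff.2 (Subgroup.Normal.isSubnormal inferInstance)
  have hF : H5.fitOf N = ⊥ := by
    by_contra hne
    refine H1.inf_centralizer_ne_bot (H5.isNilpotent_fitOf N) le_rfl Subgroup.le_normalizer hne ?_
    have := H5.inf_centralizer_fstarOf_eq N
    rw [hC, inf_bot_eq] at this
    exact this.symm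
  have h2 : H5.fstarOf N = H5.layerOf N := by rw [H5.fstarOf_eq, hF, sup_bot_eq]
  have h3 : H5.fitOf (⊤ : Subgroup G) = ⊥ := by
    refine le_bot_iff.1 (hC ▸ (H5.fitOf_le_centralizer_layerOf ⊤).trans ?_)
    rw [h2]
    exact Subgroup.centralizer_le hsn.layerOf_le
  have h4 : H5.layerOf N = H5.layerOf ⊤ := by
    refine le_antisymm hsn.layerOf_le (H5.layerOf_le_iff.2 fun L hL => ?_)
    rcases hL.le_or_commutator_eq_bot hsn with h | h
    · exact (hL.mono h le_top).le_layerOf
    · rw [Subgroup.commutator_eq_bot_iff_le_centralizer, hCN, le_bot_iff] at h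
      exact absurd h hL.ne_bot
  have h5 : H5.fstarOf (⊤ : Subgroup G) = H5.layerOf ⊤ := by rw [H5.fstarOf_eq, h3, sup_bot_eq]
  refine ⟨H5.fitOf_top.symm.trans h3, ?_, ?_, fun K hK hK0 hmin => ?_⟩
  · rw [← H5.fstarOf_top (G := G), h5, ← h4, ← h2]
  · rw [← H5.fstarOf_top, h5, H5.layerOf_top]
  · rcases hmin (K ⊓ N) inferInstance inf_le_left with h | h
    · refine absurd (le_bot_iff.1 (hCN ▸ ?_)) hK0
      rw [← Subgroup.commutator_eq_bot_iff_le_centralizer, ← le_bot_iff, ← h]
      exact Subgroup.commutator_le_inf K N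
    · exact h ▸ inf_le_right

end Cfsg.Agent.S3750
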