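import Cfsg.Statements.S3751
import Cfsg.Agent.H7.Simple
import Cfsg.Agent.H10.Act

set_option autoImplicit false
open Cfsg

namespace Cfsg.Agent.S3751

def ML {G : Type*} [Group G] (p : ℕ) (M : Subgroup G) : Prop :=
  (∃ T : Subgroup G, IsPGroup p T ∧ T ≠ ⊥ ∧ M = Subgroup.normalizer (T : Set G)) ∧
    ∀ L : Subgroup G, (∃ T : Subgroup G, IsPGroup p T ∧ T ≠ ⊥ ∧ L = Subgroup.normalizer (T : Set G)) →
      M ≤ L → L = M

theorem ML.eq {G : Type*} [Group G] {p : ℕ} {M T : Subgroup G} (h : ML p M) (hT : IsPGroup p T)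
    (h0 : T ≠ ⊥) (hn : M ≤ Subgroup.normalizer (T : Set G)) : Subgroup.normalizer (T : Set G) = M :=
  h.2 _ ⟨T, hT, h0, rfl⟩ hn

theorem ML.core {G : Type*} [Group G] {p : ℕ} {M : Subgroup G} (h : ML p M) : pCoreOf p M ≠ ⊥ := by
  obtain ⟨T, hT, h0, rfl⟩ := h.1
  exact fun e => h0 (le_bot_iff.1 (e ▸ H10.le_pCoreOf hT Subgroup.le_normalizer le_rfl))

theorem ML.cj {G : Type*} [Group G] {p : ℕ} {M : Subgroup G} (h : ML p M) (g : G) :
    ML p (M.map (MulAut.conj g).toMonoidHom) := by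
  have key : ∀ (g : G) (L : Subgroup G),
      (∃ T : Subgroup G, IsPGroup p T ∧ T ≠ ⊥ ∧ L = Subgroup.normalizer (T : Set G)) →
      ∃ T : Subgroup G, IsPGroup p T ∧ T ≠ ⊥ ∧
        L.map (MulAut.conj g).toMonoidHom = Subgroup.normalizer (T : Set G) := by
    rintro g _ ⟨T, hT, h0, rfl⟩
    exact ⟨_, H7.isPGroup_cj hT g, by rwa [Ne, H7.cj_eq_bot_iff], (H7.normalizer_cj T g).symm⟩
  refine ⟨key g M h.1, fun L hL hle => ?_⟩
  rw [← h.2 _ (key g⁻¹ L hL) (H7.cj_le_iff_le_cj.1 hle), H7.cj_cj, mul_inv_cancel, H7.cj_one]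

theorem ML.mem {G : Type*} [Group G] {p : ℕ} {M : Subgroup G} (h : ML p M) {g : G}
    (hg : M.map (MulAut.conj g).toMonoidHom = M) : g ∈ M :=
  (h.eq (H10.isPGroup_pCoreOf M) h.core (H10.le_NN_pCoreOf M)).le
    (H10.NN_le_NN_pCoreOf M (H7.cj_eq_self_iff.1 hg))

theorem ML.charP {G : Type*} [Group G] {p : ℕ} {M : Subgroup G} (h : ML p M)
    (hloc : IsOfLocalCharacteristic p G) : H10.CharPIn p M := by
  obtain ⟨T, hT, h0, rfl⟩ := h.1
  exact H10.charPIn_iff.2 (hloc.2 T hT h0)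

theorem ML.norm_le {G : Type*} [Group G] {p : ℕ} {M A : Subgroup G} (h : ML p M)
    (hloc : IsOfLocalCharacteristic p G) (h0 : A ≠ ⊥) (hA : A ≤ M)
    (hn : M ≤ Subgroup.normalizer (A : Set G)) : Subgroup.normalizer (A : Set G) ≤ M := by
  have h1 : pCoreOf p A ≠ ⊥ := by
    intro e
    have h2 := H10.pCoreOf_eq_of_normal (p := p) hA hn
    have h3 : A ≤ pCoreOf p M := by
      refine (h.charP hloc).le hA ?_
      rw [← Subgroup.commutator_eq_bot_iff_le_centralizer, ← le_bot_iff, ← e, h2]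
      exact le_inf (Subgroup.le_normalizer_iff_commutator_le_right.1 (hA.trans (H10.le_NN_pCoreOf M)))
        (Subgroup.le_normalizer_iff_commutator_le_left.1 ((H10.pCoreOf_le M).trans hn))
    rw [inf_eq_right.2 h3, e] at h2
    exact h0 h2.symm
  exact (H10.NN_le_NN_pCoreOf A).trans
    (h.eq (H10.isPGroup_pCoreOf A) h1 (H10.le_NN_pCoreOf' hn)).le

/-- Two distinct subgroups M₁, M₂ of G form a primitive pair when, for {i, j} = {1, 2}, every non-trivial normal subgroup A of M_i contained in M₁ ∩ M₂ satisfies N_{M_j}(A) = M₁ ∩ M₂; the pair has characteristic p when moreover C_{M_i}(O_p(M_i)) ≤ O_p(M_i) for both i and O_p(M₁)O_p(M₂) ≤ M₁ ∩ M₂. Let G be a finite group, p a prime dividing its order, with O_p(G) = 1 and every p-local subgroup of characteristic p. Then either G has a primitive pair of characteristic p, or every maximal p-local subgroup M of G is strongly p-embedded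 in G: M is a proper subgroup, p divides its order, and for every g ∉ M the order of M ∩ gMg⁻¹ is prime to p. -/
theorem result {G : Type*} [Group G] [Finite G] {p : ℕ} [Fact p.Prime] (hloc : Cfsg.IsOfLocalCharacteristic p G) (hOp : Cfsg.pCore p G = ⊥) : (∃ M₁ M₂ : Subgroup G, M₁ ≠ M₂ ∧ (∀ A : Subgroup G, A ≠ ⊥ → A ≤ M₁ ⊓ M₂ → (M₁ ≤ Subgroup.normalizer (A : Set G) → M₂ ⊓ Subgroup.normalizer (A : Set G) = M₁ ⊓ M₂) ∧ (M₂ ≤ Subgroup.normalizer (A : Set G) → M₁ ⊓ Subgroup.normalizer (A : Set G) = M₁ ⊓ M₂)) ∧ Subgroup.centralizer (Cfsg.pCore p ↥M₁ : Set ↥M₁) ≤ Cfsg.pCore p ↥M₁ ∧ Subgroup.centralizer (Cfsg.pCore p ↥M₂ : Set ↥M₂) ≤ Cfsg.pCore p ↥M₂ ∧ (Cfsg.pCore p ↥M₁).map M₁.subtype ⊔ (Cfsg.pCore p ↥M₂).map M₂.subtype ≤ M₁ ⊓ M₂) ∨ (∀ M : Subgroup G, (∃ T : Subgroup G, IsPGroup p T ∧ T ≠ ⊥ ∧ M = Subgroup.normalizer (T : Set G)) → (∀ L : Subgroup G, (∃ T : Subgroup G, IsPGroup p T ∧ T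 ≠ ⊥ ∧ L = Subgroup.normalizer (T : Set G)) → M ≤ L → L = M) → M ≠ ⊤ ∧ p ∣ Nat.card M ∧ ∀ g : G, g ∉ M → ¬ p ∣ Nat.card ↥(M ⊓ M.map (MulAut.conj g).toMonoidHom)) := by
  refine or_iff_not_imp_left.2 fun hno M hM1 hM2 => ?_
  have hM : ML p M := ⟨hM1, hM2⟩
  have pair : ∀ M₁ M₂ T : Subgroup G, ML p M₁ → ML p M₂ → H10.IsSylowIn p T M₁ →
      H10.IsSylowIn p T M₂ → M₁ = M₂ := by
    intro M₁ M₂ T h1 h2 h3 h4
    by_contra hne
    refine hno ⟨M₁, M₂, hne, fun A h0 hA => ⟨fun hn => ?_, fun hn => ?_⟩,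
      H10.charPIn_iff.1 (h1.charP hloc), H10.charPIn_iff.1 (h2.charP hloc),
      (sup_le h3.pCoreOf_le h4.pCoreOf_le).trans (le_inf h3.le h4.le)⟩
    · exact le_antisymm (le_inf (inf_le_right.trans (h1.norm_le hloc h0 (hA.trans inf_le_left) hn))
        inf_le_left) (le_inf inf_le_right (inf_le_left.trans hn))
    · exact le_antisymm (inf_le_inf_left _ (h2.norm_le hloc h0 (hA.trans inf_le_right) hn))
        (inf_le_inf_left _ hn)
  refine ⟨fun e => hM.core (by rw [e, H10.pCoreOf_top, hOp]), ?_, fun g hg hd => ?_⟩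
  · exact (dvd_trans (by
      obtain ⟨n, hn, e⟩ := (H10.isPGroup_pCoreOf (p := p) M).nontrivial_iff_card.1
        ((Subgroup.nontrivial_iff_ne_bot _).2 hM.core)
      exact e ▸ dvd_pow_self p hn.ne') (Subgroup.card_dvd_of_le (H10.pCoreOf_le M)))
  obtain ⟨T₀, hT₀⟩ := H10.exists_isSylowIn p (M ⊓ M.map (MulAut.conj g).toMonoidHom)
  obtain ⟨T, ⟨hT, M₁, M₂, h1, h2, hne, h3, h4⟩, h0, hmax⟩ := H1.exists_maximal_ge
    (fun T : Subgroup G => IsPGroup p T ∧ ∃ M₁ M₂, ML p M₁ ∧ ML p M₂ ∧ M₁ ≠ M₂ ∧ T ≤ M₁ ∧ T ≤ M₂)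
    (N := T₀) ⟨hT₀.isPGroup, _, _, hM, hM.cj g, fun e => hg (hM.mem e.symm),
      hT₀.le.trans inf_le_left, hT₀.le.trans inf_le_right⟩
  have hT0 : T ≠ ⊥ := fun e => hT₀.ne_bot hd (le_bot_iff.1 (e ▸ h0))
  obtain ⟨U, hU1, hU2, hU3⟩ := H1.exists_maximal_ge (fun L : Subgroup G =>
    ∃ T : Subgroup G, IsPGroup p T ∧ T ≠ ⊥ ∧ L = Subgroup.normalizer (T : Set G)) ⟨T, hT, hT0, rfl⟩
  have hU : ML p U := ⟨hU1, hU3⟩
  have k1 : ∀ L, ML p L → T ≤ L → ¬ H10.IsSylowIn p T L →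
      L = U ∧ ∃ x ∈ Subgroup.normalizer (T : Set G), x ∉ T ∧ IsPGroup p (Subgroup.zpowers x) := by
    intro L hL hTL hn
    obtain ⟨S, hS, hTS⟩ := H10.exists_isSylowIn_ge hT hTL
    have h5 := H7.lt_normalizer_inf hS.isPGroup (lt_of_le_of_ne hTS fun e => hn (e ▸ hS))
    refine ⟨by_contra fun hne => h5.ne' (hmax _ ⟨hS.isPGroup.to_le inf_le_right, L, U, hL, hU, hne,
      inf_le_right.trans hS.le, inf_le_left.trans hU2⟩ h5.le), ?_⟩
    obtain ⟨x, hx, hx'⟩ := SetLike.exists_of_lt h5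
    exact ⟨x, hx.1, hx', hS.isPGroup.to_le (Subgroup.zpowers_le.2 hx.2)⟩
  have k2 : ∀ L, ML p L → H10.IsSylowIn p T L →
      ¬ ∃ x ∈ Subgroup.normalizer (T : Set G), x ∉ T ∧ IsPGroup p (Subgroup.zpowers x) := by
    rintro L hL hS ⟨x, hx, hx', hxp⟩
    have h5 := hS.cj x
    rw [show H10.cj x T = T from H7.cj_eq_self_iff.2 hx] at h5
    have h6 := hL.mem (pair _ _ T (hL.cj x) hL h5 hS)
    exact hx' (hS.le_of_le_NN hxp (Subgroup.zpowers_le.2 h6) (Subgroup.zpowers_le.2 hx)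
      (Subgroup.mem_zpowers x))
  by_cases s1 : H10.IsSylowIn p T M₁ <;> by_cases s2 : H10.IsSylowIn p T M₂
  · exact hne (pair _ _ T h1 h2 s1 s2)
  · exact k2 _ h1 s1 (k1 _ h2 h4 s2).2
  · exact k2 _ h2 s2 (k1 _ h1 h3 s1).2
  · exact hne ((k1 _ h1 h3 s1).1.trans (k1 _ h2 h4 s2).1.symm)

end Cfsg.Agent.S3751
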