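import Cfsg.Statements.S3752
import Cfsg.Agent.H7.Prim
import Cfsg.Agent.H1.Coprime

set_option autoImplicit false
open Cfsg

namespace Cfsg.Agent.S3752

open Subgroup H5 in
theorem layer_eq {G : Type*} [Group G] [Finite G] {H M : Subgroup G} (h1 : fstarOf M ≤ H)
    (h2 : H ≤ M) : layerOf H = layerOf M := by
  refine le_antisymm (layerOf_le_iff.2 fun L hL => ?_)
    (layerOf_le_layerOf_of_le ((layerOf_le_fstarOf M).trans h1) h2)
  by_contra hne
  refine qs_not_le_solvable hL.qs (isSolvable_fitOf M)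
    (le_fitOf_of_centralizes (hL.le.trans h2) ?_ ?_)
  · rw [le_centralizer_iff, layerOf_le_iff]
    intro K hK
    rw [← commutator_eq_bot_iff_le_centralizer]
    exact (hK.mono (hK.le_fstarOf.trans h1) h2).commutator_eq_bot hL
      fun e => hne (e ▸ hK.le_layerOf)
  · rw [← commutator_eq_bot_iff_le_centralizer]
    exact hL.commutator_eq_bot_of_le_normalizer ((fitOf_le_fstarOf M).trans h1)
      ((hL.le.trans h2).trans (self_le_normalizer_fitOf M)) (isSolvable_fitOf M)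

open Subgroup H5 in
theorem aux {G : Type*} [Group G] [Finite G] {M₁ M₂ : Subgroup G}
    (hP : ∀ A : Subgroup G, A ≠ ⊥ → A ≤ M₁ ⊓ M₂ → M₁ ≤ normalizer (A : Set G) →
      M₂ ⊓ normalizer (A : Set G) = M₁ ⊓ M₂)
    (h₁ : fitOf M₁ ≤ M₂) (h₂ : fitOf M₂ ≤ M₁)
    (hC : M₂ ⊓ centralizer (fitOf M₂ : Set G) ≤ fitOf M₂) {q : ℕ} [hq : Fact q.Prime]
    (h0 : opOf q M₁ ≠ ⊥) :
    opOf q M₂ ≠ ⊥ ∧ ∀ (p : ℕ) [Fact p.Prime], p ≠ q → opOf p M₁ ≤ opOf p M₂ := by
  have hD := isNilpotent_fitOf (M₁ ⊓ M₂)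
  have hD1 : fitOf M₁ ≤ fitOf (M₁ ⊓ M₂) :=
    (le_inf le_rfl (le_inf (fitOf_le _) h₁)).trans (fitOf_inf_le inf_le_left)
  have hD2 : fitOf M₂ ≤ fitOf (M₁ ⊓ M₂) :=
    (le_inf le_rfl (le_inf h₂ (fitOf_le _))).trans (fitOf_inf_le inf_le_right)
  have hX : ∀ (p : ℕ) [Fact p.Prime],
      opOf p M₁ ≤ M₂ ⊓ centralizer (oppOf p (fitOf M₂) : Set G) := fun p _ =>
    le_inf ((opOf_le_fitOf p _).trans h₁) (H1.le_centralizer_of_coprime_of_isNilpotent hD
      ((opOf_le_fitOf p _).trans hD1) ((oppOf_le p _).trans hD2)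
      (H1.IsPGroup.coprime_card (isPGroup_opOf p _) (coprime_card_oppOf p _)))
  have hXn : ∀ p : ℕ, M₂ ≤ normalizer
      ((M₂ ⊓ centralizer (oppOf p (fitOf M₂) : Set G) : Subgroup G) : Set G) := fun p =>
    H1.le_normalizer_inf le_normalizer
      (H1.le_normalizer_centralizer (le_normalizer_oppOf p (self_le_normalizer_fitOf M₂)))
  have hF : ∀ (p : ℕ) [Fact p.Prime], fitOf M₂ ≤ opOf p M₂ ⊔ oppOf p (fitOf M₂) := fun p _ => by
    have := fitOf_le_opOf_sup_oppOf p (fitOf M₂)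
    rwa [fitOf_eq_self_iff.2 (isNilpotent_fitOf M₂), opOf_fitOf] at this
  refine ⟨fun e => h0 ?_, fun p hp hpq => ?_⟩
  · have h3 := hF q
    rw [e, bot_sup_eq] at h3
    rw [← le_bot_iff, ← e]
    exact le_opOf_of_le_fitOf (isPGroup_opOf q _)
      (((hX q).trans (inf_le_inf_left _ (centralizer_le h3))).trans hC)
  have hcop : p.Coprime q := (Nat.coprime_primes hp.out hq.out).2 hpq
  have h3 : fitOf M₂ ≤ oppOf q (fitOf M₂) ⊔ oppOf p (fitOf M₂) :=
    (hF p).trans (sup_le_sup_right (opOf_fitOf p M₂ ▸ opOf_le_oppOf hcop _) _)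
  have h4 := hP _ h0 (le_inf (opOf_le q _) ((opOf_le_fitOf q _).trans h₁))
    (self_le_normalizer_opOf q _)
  have h5 : ∀ A : Subgroup G, IsPGroup p A → A ≤ M₂ ⊓ centralizer (oppOf p (fitOf M₂) : Set G) →
      A ≤ M₁ := by
    intro A hA hAX
    have h6 : ⁅opOf q M₁, A⁆ ≤ zOf (fitOf M₂) := by
      have : ⁅opOf q M₁, A⁆ ≤ M₂ ⊓ centralizer (fitOf M₂ : Set G) := by
        refine le_trans ?_ (inf_le_inf_left _ (centralizer_le h3))
        rw [H5.centralizer_sup, inf_inf_distrib_left]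
        exact (commutator_mono (hX q) hAX).trans (le_inf
          (le_normalizer_iff_commutator_le_left.1 (inf_le_left.trans (hXn q)))
          (le_normalizer_iff_commutator_le_right.1 (inf_le_left.trans (hXn p))))
      exact le_inf (this.trans hC) (this.trans inf_le_right)
    have h7 : A ≤ normalizer ((opOf q M₁ ⊔ zOf (fitOf M₂) : Subgroup G) : Set G) := by
      rw [le_normalizer_iff_commutator_le_left]
      refine commutator_sup_left_le (le_sup_left.trans le_normalizer)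
        (le_sup_right.trans le_normalizer) (h6.trans le_sup_right) (le_trans ?_ le_sup_right)
      exact le_normalizer_iff_commutator_le_left.1 ((hAX.trans inf_le_left).trans
        ((self_le_normalizer_fitOf M₂).trans (normalizer_le_normalizer_zOf _)))
    have h8 : opOf q M₁ ≤ opOf q (opOf q M₁ ⊔ zOf (fitOf M₂)) := by
      refine le_opOf_of_le_fitOf (isPGroup_opOf q _) ?_
      rw [fitOf_eq_self_iff.2 (isNilpotent_of_le hD (sup_le ((opOf_le_fitOf q _).trans hD1)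
        (inf_le_left.trans hD2)))]
      exact le_sup_left
    have h9 : IsPGroup q (⁅opOf q M₁, A⁆ : Subgroup G) := (isPGroup_opOf q _).to_le
      ((commutator_mono h8 le_rfl).trans
        (le_normalizer_iff_commutator_le_left.1 (le_normalizer_opOf q h7)))
    have h10 := H1.le_centralizer_of_commutator_le (K := opOf q M₁) (A := A) le_rfl
      (le_centralizer_iff.1 ((hAX.trans inf_le_right).trans (centralizer_le
        ((le_opOf_of_le_fitOf h9 (h6.trans inf_le_left)).trans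
          (opOf_fitOf q M₂ ▸ opOf_le_oppOf hcop.symm _)))))
      (H1.IsPGroup.coprime_card hA (H1.IsPGroup.coprime_card h9 hcop))
    exact ((le_inf (hAX.trans inf_le_left) (h10.trans (centralizer_le_normalizer _))).trans
      h4.le).trans inf_le_left
  have h6 : ncl (opOf p M₁) M₂ ≤ M₁ := ncl_le_iff.2 fun g hg =>
    h5 _ (H7.isPGroup_cj (isPGroup_opOf p _) g) (cj_le_of_le (hX p) (hXn p hg))
  exact (SN.step (le_ncl _ _) (h6.trans (self_le_normalizer_opOf p _))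
    (SN.of_normal (ncl_le_of_le ((hX p).trans inf_le_left) le_rfl)
      (right_le_normalizer_ncl _ _))).le_opOf (isPGroup_opOf p _)

/-- Bender's Theorem on primitive pairs. Two distinct subgroups M₁, M₂ of G form a primitive pair when, for {i, j} = {1, 2}, every non-trivial normal subgroup A of M_i contained in M₁ ∩ M₂ satisfies N_{M_j}(A) = M₁ ∩ M₂; the pair has characteristic p when moreover C_{M_i}(O_p(M_i)) ≤ O_p(M_i) for both i and O_p(M₁)O_p(M₂) ≤ M₁ ∩ M₂. If (M₁, M₂) is a primitive pair of the finite group G with F*(M₁) ≤ M₂ and F*(M₂) ≤ M₁, then for some prime p the pair has characteristic p. -/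
theorem result {G : Type*} [Group G] [Finite G] (M₁ M₂ : Subgroup G) (hne : M₁ ≠ M₂) (hP : ∀ A : Subgroup G, A ≠ ⊥ → A ≤ M₁ ⊓ M₂ → (M₁ ≤ Subgroup.normalizer (A : Set G) → M₂ ⊓ Subgroup.normalizer (A : Set G) = M₁ ⊓ M₂) ∧ (M₂ ≤ Subgroup.normalizer (A : Set G) → M₁ ⊓ Subgroup.normalizer (A : Set G) = M₁ ⊓ M₂)) (h₁ : (Cfsg.generalizedFittingSubgroup ↥M₁).map M₁.subtype ≤ M₂) (h₂ : (Cfsg.generalizedFittingSubgroup ↥M₂).map M₂.subtype ≤ M₁) : ∃ p : ℕ, p.Prime ∧ Subgroup.centralizer (Cfsg.pCore p ↥M₁ : Set ↥M₁) ≤ Cfsg.pCore p ↥M₁ ∧ Subgroup.centralizer (Cfsg.pCore p ↥M₂ : Set ↥M₂) ≤ Cfsg.pCore p ↥M₂ ∧ (Cfsg.pCore p ↥M₁).map M₁.subtype ⊔ (Cfsg.pCore p ↥M₂).map M₂.subtype ≤ M₁ ⊓ M₂ := by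
  open H5 in
  have hb : ∀ A : Subgroup G, A ≤ M₁ ⊓ M₂ → M₁ ≤ Subgroup.normalizer (A : Set G) →
      M₂ ≤ Subgroup.normalizer (A : Set G) → A = ⊥ := by
    intro A hA h1 h2
    by_contra h0
    have h3 := (hP A h0 hA).1 h1
    have h4 := (hP A h0 hA).2 h2
    rw [inf_eq_left.2 h2] at h3
    rw [inf_eq_left.2 h1] at h4
    exact hne (h4.trans h3.symm)
  have e1 := layer_eq (le_inf (fstarOf_le M₁) h₁) inf_le_left
  have e2 := layer_eq (le_inf h₂ (fstarOf_le M₂)) inf_le_right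
  have e0 := hb _ (layerOf_le _) (e1 ▸ self_le_normalizer_layerOf _)
    (e2 ▸ self_le_normalizer_layerOf _)
  rw [e0] at e1 e2
  have c1 := inf_centralizer_fitOf_le_iff.2 e1.symm
  have c2 := inf_centralizer_fitOf_le_iff.2 e2.symm
  have f1 : fstarOf M₁ = fitOf M₁ := by rw [fstarOf_eq, ← e1, bot_sup_eq]
  have f2 : fstarOf M₂ = fitOf M₂ := by rw [fstarOf_eq, ← e2, bot_sup_eq]
  have g1 := (fitOf_le_fstarOf M₁).trans h₁
  have g2 := (fitOf_le_fstarOf M₂).trans h₂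
  obtain ⟨q, hq0⟩ : ∃ q : Nat.Primes, opOf q M₁ ≠ ⊥ := by
    by_contra h
    push Not at h
    have h1 : M₁ = ⊥ := eq_bot_of_fstarOf_eq_bot (by rw [f1, fitOf_eq_iSup]; simp [h])
    exact hne (h1.trans (eq_bot_of_fstarOf_eq_bot (le_bot_iff.1 (h1 ▸ h₂))).symm)
  haveI := Fact.mk q.2
  obtain ⟨h1, h2⟩ := aux (fun A a b => (hP A a b).1) g1 g2 c2 hq0
  obtain ⟨-, h3⟩ := aux (M₁ := M₂) (M₂ := M₁)
    (fun A a b c => ((hP A a (inf_comm M₂ M₁ ▸ b)).2 c).trans (inf_comm _ _)) g2 g1 c1 h1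
  have h4 : ∀ p : Nat.Primes, p ≠ q → opOf p M₁ = ⊥ ∧ opOf p M₂ = ⊥ := by
    intro p hp
    haveI := Fact.mk p.2
    have e := le_antisymm (h2 p fun e => hp (Subtype.ext e)) (h3 p fun e => hp (Subtype.ext e))
    have := hb _ (le_inf (opOf_le p M₁) (e ▸ opOf_le p M₂)) (self_le_normalizer_opOf _ _)
      (e ▸ self_le_normalizer_opOf _ _)
    exact ⟨this, e ▸ this⟩
  have h5 : ∀ M : Subgroup G, (∀ p : Nat.Primes, p ≠ q → opOf p M = ⊥) → fstarOf M = fitOf M →
      Subgroup.centralizer (Cfsg.pCore q M : Set M) ≤ Cfsg.pCore q M := by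
    intro M h f
    rw [← fstar_eq_pCore_iff_centralizer, fstar_eq_pCore_iff_of, f]
    refine le_antisymm ?_ (opOf_le_fitOf _ _)
    rw [fitOf_eq_iSup]
    refine iSup_le fun p => ?_
    by_cases hp : p = q
    · rw [hp]
    · rw [h p hp]; exact bot_le
  exact ⟨q, q.2, h5 _ (fun p hp => (h4 p hp).1) f1, h5 _ (fun p hp => (h4 p hp).2) f2,
    sup_le (le_inf (opOf_le _ _) ((opOf_le_fitOf _ _).trans g1))
      (le_inf ((opOf_le_fitOf _ _).trans g2) (opOf_le _ _))⟩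

end Cfsg.Agent.S3752
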