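import Cfsg.Statements.S3753
import Cfsg.Agent.H10.FrakM
import Cfsg.Agent.H10.Misc
import Cfsg.Agent.H4.ZJ
import Cfsg.Agent.H4.Replace
import Cfsg.Agent.H4.Sec

set_option autoImplicit false
open Cfsg H10

namespace Cfsg.Agent.S3753

section aux
variable {G : Type*} [Group G] [Finite G] {p : ℕ} [hp : Fact p.Prime]

/-- ambient `p`-stability -/
def StabIn (p : ℕ) (M : Subgroup G) : Prop :=
  ∀ V A : Subgroup G, V ≤ M → M ≤ NN(V) → IsPGroup p V → A ≤ M → ⁅⁅V, A⁆, A⁆ = ⊥ →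
    ∃ D, A ≤ D ∧ D ≤ M ∧ M ≤ NN(D) ∧ resOf p D ≤ CC(V)

theorem stabIn_of (hp2 : p ≠ 2) {M : Subgroup G}
    (h : ¬ H4.IsSec (Matrix.SpecialLinearGroup (Fin 2) (ZMod p)) (⊤ : Subgroup M)) :
    StabIn p M := by
  intro V A hV hn hVp hA hq
  have := normal_subgroupOf hn
  have hs := H4.isPStableOn_of_not_isSec hp2 h (V.subgroupOf M) (isPGroup_subgroupOf hVp M)
  set C := Subgroup.centralizer ((V.subgroupOf M : Subgroup M) : Set M) with hC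
  refine ⟨((pCore p (M ⧸ C)).comap (QuotientGroup.mk' C)).map M.subtype, fun a ha => ?_,
    Subgroup.map_subtype_le _, le_NN_map_subtype _, resOf_le_of_pow ?_⟩
  · refine ⟨⟨a, hA ha⟩, hs _ ?_, rfl⟩
    have h1 : Subgroup.zpowers (⟨a, hA ha⟩ : M) ≤ A.subgroupOf M := by
      rw [Subgroup.zpowers_le]; exact ha
    rw [eq_bot_iff]
    refine (Subgroup.commutator_mono (Subgroup.commutator_mono le_rfl h1) h1).trans ?_
    rw [← subgroupOf_commutator hV hA, ← subgroupOf_commutator (comm_le_of_le hV hA) hA, hq]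
    simp
  · rintro _ ⟨d, hd, rfl⟩
    obtain ⟨k, hk⟩ := isPGroup_iff_mem.1 (isPGroup_pCore' (p := p) (G := M ⧸ C)) _ hd
    refine ⟨k, ?_⟩
    rw [← map_pow, QuotientGroup.mk'_apply, QuotientGroup.eq_one_iff, hC, CC_subgroupOf hV] at hk
    exact hk

theorem le_core_of {M D A : Subgroup G} (hD : D ≤ M) (hn : M ≤ NN(D)) (hA : A ≤ D)
    (hAp : IsPGroup p A) (h : ⁅A, resOf p D⁆ ≤ pCoreOf p M) : A ≤ pCoreOf p M := by
  have hQ := le_NN_pCoreOf (p := p) M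
  have hY : IsPGroup p (A ⊔ pCoreOf p M : Subgroup G) :=
    isPGroup_sup_of_NN hAp (isPGroup_pCoreOf M) ((hA.trans hD).trans hQ)
  have hK : resOf p D ≤ NN(A ⊔ pCoreOf p M) := by
    refine le_NN_of_comm_le_left (comm_sup_le (le_sup_left.trans (le_NN_self _))
      (le_sup_right.trans (le_NN_self _)) (h.trans le_sup_right) ?_)
    exact (comm_le_left (((resOf_le D).trans hD).trans hQ)).trans le_sup_right
  have h1 : SubnIn (D ⊔ pCoreOf p M) M :=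
    subnIn_of_normal (sup_le hD (pCoreOf_le M)) (le_NN_sup hn hQ)
  have h2 : SubnIn (resOf p D ⊔ (A ⊔ pCoreOf p M)) (D ⊔ pCoreOf p M) := by
    refine subnIn_of_resOf_le (p := p) ?_
      (sup_le ((resOf_le D).trans le_sup_left) (sup_le_sup_right hA _))
    rw [resOf_sup_pgroup (isPGroup_pCoreOf M) ((pCoreOf_le M).trans hn)]
    exact le_sup_left
  exact le_sup_left.trans (le_pCoreOf_of_subn hY
    ((h2.trans h1).step le_sup_right (sup_le hK (le_NN_self _))))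

theorem quad_rep {T W A : Subgroup G} (hW : IsElementaryAbelian p W) (hWT : W ≤ T)
    (hT : T ≤ NN(W)) (hA : A ∈ H4.maxAb p T) (hc : ¬ A ≤ CC(W)) :
    ∃ A' ∈ H4.maxAb p T, ⁅⁅W, A'⁆, A'⁆ = ⊥ ∧ ¬ A' ≤ CC(W) := by
  obtain ⟨h1, h2, h3⟩ := H4.thompson_replacement hW hWT hA ((H4.maxAb_le hA).trans hT)
  exact ⟨_, h1, h2, fun h => h3 (fun e => hc (comm_eq_bot'.1 e)) (comm_eq_bot'.2 h)⟩

theorem core {M₁ M₂ : Subgroup G} (hs₁ : StabIn p M₁) (hs₂ : StabIn p M₂) (hc₁ : CharPIn p M₁)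
    (hc₂ : CharPIn p M₂) (h12 : pCoreOf p M₁ ≤ M₂) (h21 : pCoreOf p M₂ ≤ M₁)
    (h0 : pCoreOf p M₂ ≠ ⊥)
    (hP : ∀ A : Subgroup G, A ≠ ⊥ → A ≤ M₁ ⊓ M₂ → M₂ ≤ NN(A) → M₁ ⊓ NN(A) ≤ M₂) :
    thompsonSubgroupOf p (pCoreOf p M₁ ⊔ pCoreOf p M₂) ≤ pCoreOf p M₁ := by
  set Q₁ := pCoreOf p M₁ with hQ₁
  set Q₂ := pCoreOf p M₂ with hQ₂
  set B := Q₁ ⊔ Q₂ with hB
  have hQn₁ : M₁ ≤ NN(Q₁) := le_NN_pCoreOf M₁
  have hQn₂ : M₂ ≤ NN(Q₂) := le_NN_pCoreOf M₂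
  have hBp : IsPGroup p B :=
    isPGroup_sup_of_NN (isPGroup_pCoreOf _) (isPGroup_pCoreOf _) (h12.trans hQn₂)
  have hB₁ : B ≤ M₁ := sup_le (pCoreOf_le _) h21
  have hB₂ : B ≤ M₂ := sup_le h12 (pCoreOf_le _)
  have hV := pRed_YOf (p := p) M₂
  set V := YOf p M₂ with hVdef
  have hV0 : V ≠ ⊥ := YOf_ne_bot hc₂ h0
  have hVQ : V ≤ Q₂ := hV.le_pCoreOf
  have hquad : ∀ A ≤ M₂, ⁅⁅V, A⁆, A⁆ = ⊥ → A ≤ CC(V) := fun A hA hq => by
    obtain ⟨D, h1, h2, h3, h4⟩ := hs₂ V A hV.le hV.nn hV.isPGroup hA hq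
    exact h1.trans (hV.red D h2 h3 h4)
  have s1 : ∀ A ∈ H4.maxAb p B, A ≤ CC(V) := fun A hA => by
    by_contra hc
    obtain ⟨A', h1, h2, h3⟩ := quad_rep hV.ea (hVQ.trans le_sup_right) (hB₂.trans hV.nn) hA hc
    exact h3 (hquad A' ((H4.maxAb_le h1).trans hB₂) h2)
  have s2 : V ≤ Q₁ := by
    obtain ⟨D, h1, h2, h3, h4⟩ := hs₁ Q₁ V (pCoreOf_le _) hQn₁ (isPGroup_pCoreOf _)
      (hVQ.trans h21) (comm_eq_bot.2 ((comm_le_right (h12.trans hV.nn)).trans (elab_le_CC hV.ea)))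
    refine h1.trans (le_pCoreOf (isPGroup_of_resOf_isPGroup ?_) h2 h3)
    exact (isPGroup_pCoreOf M₁).to_le (hc₁.le ((resOf_le D).trans h2) h4)
  have s3 : ∀ g ∈ M₁, cj g V ≤ CC(V) := fun g hg => by
    have h1 : cj g V ≤ Q₁ := cj_le_of_mem_NN (hQn₁ hg) s2
    refine hquad _ (h1.trans h12) (comm_eq_bot.2 ((comm_le_right ?_).trans
      (elab_le_CC (elab_cj g hV.ea))))
    rw [← cj_normalizer]
    refine s2.trans ?_
    rw [← cj_eq_of_mem_NN (hQn₁ hg)]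
    exact cj_mono g (h12.trans hV.nn)
  set W := ncl V M₁ with hW
  have hWn : M₁ ≤ NN(W) := le_NN_ncl V M₁
  have hWQ : W ≤ Q₁ := ncl_le s2 hQn₁
  have hWe : IsElementaryAbelian p W := by
    refine elab_iSup (fun g a ha => (isElementaryAbelian_iff.1 (elab_cj _ hV.ea)).2 a ha)
      fun g h => ?_
    have := cj_mono (h : G) (s3 ((h : G)⁻¹ * g) (M₁.mul_mem (M₁.inv_mem h.2) g.2))
    rwa [← cj_mul, mul_inv_cancel_left, cj_centralizer] at this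
  have key : ∀ A D : Subgroup G, A ≤ B → A ≤ D → D ≤ M₁ → M₁ ≤ NN(D) → resOf p D ≤ CC(W) →
      A ≤ Q₁ := fun A D hA hAD hD hn hr => by
    have hK₁ : resOf p D ≤ M₁ := (resOf_le D).trans hD
    have hK₂ : resOf p D ≤ M₂ := (le_inf hK₁ ((hr.trans (CC_anti (le_ncl V M₁))).trans
      (CC_le_NN _))).trans (hP V hV0 (le_inf (hVQ.trans h21) hV.le) hV.nn)
    have hKB : resOf p D ≤ NN(B) := le_NN_sup (hK₁.trans hQn₁) (hK₂.trans hQn₂)
    have hKn : M₁ ≤ NN(resOf p D) := le_NN_resOf' hn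
    refine le_core_of hD hn hAD (hBp.to_le hA) ?_
    refine le_trans (b := B ⊓ resOf p D) (le_inf ((Subgroup.commutator_mono hA le_rfl).trans
      (comm_le_left hKB)) (comm_le_right ((hA.trans hB₁).trans hKn))) ?_
    exact (le_pCoreOf (hBp.to_le inf_le_left) inf_le_right
      (le_NN_inf hKB (le_NN_self _))).trans (pCoreOf_le_of_normal hK₁ hKn)
  rw [H4.thompsonOf_le_iff]
  intro A hA
  have hAW : A ≤ CC(W) := by
    by_contra hc
    obtain ⟨A', h1, h2, h3⟩ := quad_rep hWe (hWQ.trans le_sup_left) (hB₁.trans hWn) hA hc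
    obtain ⟨D, h4, h5, h6, h7⟩ := hs₁ W A' (hWQ.trans (pCoreOf_le _)) hWn (elab_isPGroup hWe)
      ((H4.maxAb_le h1).trans hB₁) h2
    have h8 := key A' D (H4.maxAb_le h1) h4 h5 h6 h7
    refine h3 (le_CC_symm (ncl_le_iff.2 fun g hg => ?_))
    have h9 : cj g⁻¹ A' ∈ H4.maxAb p B :=
      H4.maxAb_of_card_le h1 ((cj_le_of_mem_NN (hQn₁ (M₁.inv_mem hg)) h8).trans le_sup_left)
        (elab_cj _ (H4.maxAb_elemAb h1)) (card_cj _ _).ge
    have := cj_mono g (le_CC_symm (s1 _ h9))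
    rwa [cj_centralizer, cj_cj_inv] at this
  exact key A (M₁ ⊓ CC(W)) (H4.maxAb_le hA) (le_inf ((H4.maxAb_le hA).trans hB₁) hAW) inf_le_left
    (le_NN_inf (le_NN_self _) (le_NN_CC hWn)) ((resOf_le _).trans inf_le_right)

end aux

/-- Two distinct subgroups M₁, M₂ of G form a primitive pair when, for {i, j} = {1, 2}, every non-trivial normal subgroup A of M_i contained in M₁ ∩ M₂ satisfies N_{M_j}(A) = M₁ ∩ M₂; the pair has characteristic p when moreover C_{M_i}(O_p(M_i)) ≤ O_p(M_i) for both i and O_p(M₁)O_p(M₂) ≤ M₁ ∩ M₂. If the finite group G has a primitive pair (M₁, M₂) of characteristic p for some prime p, then M₁ or M₂ has non-abelian Sylow 2-subgroups. In particular no group of odd order has a primitive pair of characteristic p. -/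
theorem result {G : Type*} [Group G] [Finite G] {p : ℕ} [Fact p.Prime] (M₁ M₂ : Subgroup G) (hne : M₁ ≠ M₂) (hP : ∀ A : Subgroup G, A ≠ ⊥ → A ≤ M₁ ⊓ M₂ → (M₁ ≤ Subgroup.normalizer (A : Set G) → M₂ ⊓ Subgroup.normalizer (A : Set G) = M₁ ⊓ M₂) ∧ (M₂ ≤ Subgroup.normalizer (A : Set G) → M₁ ⊓ Subgroup.normalizer (A : Set G) = M₁ ⊓ M₂)) (hc₁ : Subgroup.centralizer (Cfsg.pCore p ↥M₁ : Set ↥M₁) ≤ Cfsg.pCore p ↥M₁) (hc₂ : Subgroup.centralizer (Cfsg.pCore p ↥M₂ : Set ↥M₂) ≤ Cfsg.pCore p ↥M₂) (hO : (Cfsg.pCore p ↥M₁).map M₁.subtype ⊔ (Cfsg.pCore p ↥M₂).map M₂.subtype ≤ M₁ ⊓ M₂) : (∃ S : Sylow 2 ↥M₁, ¬ IsMulCommutative (S : Subgroup ↥M₁)) ∨ (∃ S : Sylow 2 ↥M₂, ¬ IsMulCommutative (S : Subgroup ↥M₂)) := by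
  by_contra hcon
  push Not at hcon
  obtain ⟨ha₁, ha₂⟩ := hcon
  rw [pCoreOf_def, pCoreOf_def] at hO
  rw [← charPIn_iff] at hc₁ hc₂
  have h12 : pCoreOf p M₁ ≤ M₂ := le_sup_left.trans (hO.trans inf_le_right)
  have h21 : pCoreOf p M₂ ≤ M₁ := le_sup_right.trans (hO.trans inf_le_left)
  have fin : ∀ A : Subgroup G, A ≠ ⊥ → A ≤ M₁ ⊓ M₂ → M₁ ≤ NN(A) → M₂ ≤ NN(A) → False :=
    fun A h0 hA h1 h2 => by
      have h3 := (hP A h0 hA).1 h1
      have h4 := (hP A h0 hA).2 h2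
      rw [inf_eq_left.2 h2] at h3
      rw [inf_eq_left.2 h1] at h4
      exact hne (h4.trans h3.symm)
  have hb : ∀ {M M' : Subgroup G}, CharPIn p M → CharPIn p M' → pCoreOf p M' ≤ M →
      pCoreOf p M = ⊥ → M = ⊥ ∧ M' = ⊥ := fun {M M'} h h' hle e => by
    have h1 : M = ⊥ := by_contra fun hh => h.pCoreOf_ne_bot hh e
    exact ⟨h1, by_contra fun hh => h'.pCoreOf_ne_bot hh (eq_bot_iff.2 (h1 ▸ hle))⟩
  have h01 : pCoreOf p M₁ ≠ ⊥ := fun e => by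
    obtain ⟨h1, h2⟩ := hb hc₁ hc₂ h21 e
    exact hne (h1.trans h2.symm)
  have h02 : pCoreOf p M₂ ≠ ⊥ := fun e => by
    obtain ⟨h1, h2⟩ := hb hc₂ hc₁ h12 e
    exact hne (h2.trans h1.symm)
  by_cases hp2 : p = 2
  · subst hp2
    have ab : ∀ {M M' : Subgroup G}, (∀ S : Sylow 2 M, IsMulCommutative (S : Subgroup M)) →
        CharPIn 2 M → pCoreOf 2 M' ≤ M → pCoreOf 2 M' ≤ pCoreOf 2 M := fun {M M'} ha h hle => by
      obtain ⟨S⟩ : Nonempty (Sylow 2 M) := inferInstance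
      have h1 : IsPGroup 2 (pCoreOf 2 M' ⊔ pCoreOf 2 M : Subgroup G) :=
        isPGroup_sup_of_NN (isPGroup_pCoreOf _) (isPGroup_pCoreOf _) (hle.trans (le_NN_pCoreOf _))
      have h2 := isMulCommutative_iff_le_CC.1
        (H4.comm_of_sylow_comm S (ha S) (isPGroup_subgroupOf h1 M))
      have h3 : pCoreOf 2 M' ⊔ pCoreOf 2 M ≤ M := sup_le hle (pCoreOf_le _)
      rw [CC_subgroupOf h3] at h2
      have h4 : pCoreOf 2 M' ⊔ pCoreOf 2 M ≤ CC(pCoreOf 2 M' ⊔ pCoreOf 2 M) := fun x hx =>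
        h2 (show (⟨x, h3 hx⟩ : M) ∈ _ from hx)
      exact h.le hle (le_sup_left.trans (h4.trans (CC_anti le_sup_right)))
    have e : pCoreOf 2 M₁ = pCoreOf 2 M₂ := le_antisymm (ab ha₂ hc₂ h12) (ab ha₁ hc₁ h21)
    exact fin _ h01 (le_inf (pCoreOf_le _) h12) (le_NN_pCoreOf _) (e ▸ le_NN_pCoreOf _)
  have st : ∀ {M : Subgroup G}, (∀ S : Sylow 2 M, IsMulCommutative (S : Subgroup M)) →
      StabIn p M := fun {M} ha => stabIn_of hp2 fun h => by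
    obtain ⟨S⟩ : Nonempty (Sylow 2 M) := inferInstance
    exact h.of_subgroup.sylow_two_not_comm hp2 S (ha S)
  have c1 := core (st ha₁) (st ha₂) hc₁ hc₂ h12 h21 h02 fun A h0 hA h =>
    ((hP A h0 hA).2 h).le.trans inf_le_right
  have c2 := core (st ha₂) (st ha₁) hc₂ hc₁ h21 h12 h01 fun A h0 hA h =>
    ((hP A h0 (inf_comm M₂ M₁ ▸ hA)).1 h).le.trans inf_le_left
  rw [sup_comm] at c2
  have hBp : IsPGroup p (pCoreOf p M₁ ⊔ pCoreOf p M₂ : Subgroup G) :=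
    isPGroup_sup_of_NN (isPGroup_pCoreOf _) (isPGroup_pCoreOf _) (h12.trans (le_NN_pCoreOf _))
  refine fin (thompsonSubgroupOf p (pCoreOf p M₁ ⊔ pCoreOf p M₂)) (fun e => ?_)
    ((H4.thompsonOf_le _).trans hO) ?_ ?_
  · refine H4.centerThompsonOf_ne_bot hBp (fun e' => h01 (eq_bot_iff.2 (e' ▸ le_sup_left))) ?_
    exact eq_bot_iff.2 (e ▸ H4.centerThompsonOf_le_thompsonOf _)
  · rw [← H4.thompsonOf_eq_of_le c1 le_sup_left]
    exact (le_NN_pCoreOf _).trans (H4.normalizer_le_normalizer_thompsonOf _)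
  · rw [← H4.thompsonOf_eq_of_le c2 le_sup_right]
    exact (le_NN_pCoreOf _).trans (H4.normalizer_le_normalizer_thompsonOf _)

end Cfsg.Agent.S3753
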