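import Cfsg.Statements.S3754
import Cfsg.Agent.H10.PRed
import Cfsg.Agent.H10.Misc
import Cfsg.Agent.H5.SigGrp
import Cfsg.Agent.H1.PSolv

set_option autoImplicit false
open Cfsg H10

namespace Cfsg.Agent.S3754

open scoped commutatorElement

theorem step {H : Type*} [Group H] [Finite H] {p : ℕ} [Fact p.Prime] {E Q : Subgroup H}
    (hE : IsElementaryAbelian p E) (h1 : E ≠ ⊥) (hn : E ≤ NN(Q))
    (hQ : (Nat.card Q).Coprime p) (hc : ¬ Q ≤ CC(E)) :
    ∃ E₀ K : Subgroup H, H5.Hyp p E E₀ ∧ K ≤ Q ∧ K ≤ CC(E₀) ∧ E ≤ NN(K) ∧ ¬ K ≤ CC(E) ∧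
      ∀ y ∈ K, y ∉ CC(E) → E ⊔ cj y E = K ⊔ E := by
  obtain ⟨E₀, h0, h0c⟩ : ∃ E₀, H5.Hyp p E E₀ ∧ ¬ Q ⊓ CC(E₀) ≤ CC(E) := by
    by_contra hh
    push Not at hh
    exact hc (H5.le_of_forall_hyp hE h1 hn hQ hh)
  have hE0 : E ≤ NN(Q ⊓ CC(E₀)) :=
    le_NN_inf hn (le_NN_CC (((elab_le_CC hE).trans (CC_anti h0.1)).trans (CC_le_NN _)))
  obtain ⟨K, ⟨hK1, hK2, hK3⟩, hmin⟩ := exists_minimal_subgroup
    (P := fun K => K ≤ Q ⊓ CC(E₀) ∧ E ≤ NN(K) ∧ ¬ K ≤ CC(E)) ⟨le_rfl, hE0, h0c⟩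
  refine ⟨E₀, K, h0, hK1.trans inf_le_left, hK1.trans inf_le_right, hK2, hK3, fun y hy hyc => ?_⟩
  have hKc : (Nat.card K).Coprime p :=
    Nat.Coprime.coprime_dvd_left (Subgroup.card_dvd_of_le (hK1.trans inf_le_left)) hQ
  have hcomm : ∀ e ∈ E, ⁅y, e⁆ ∈ K := fun e he => by
    have := K.mul_mem hy (conj_mem_of_mem_NN (hK2 he) (K.inv_mem hy))
    simpa [commutatorElement_def, mul_assoc] using this
  have hcomm' : ∀ e ∈ E, ⁅y, e⁆ ∈ E ⊔ cj y E := fun e he => by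
    have := (E ⊔ cj y E).mul_mem (Subgroup.mem_sup_right (conj_mem_cj (g := y) he))
      (Subgroup.mem_sup_left (E.inv_mem he))
    simpa [commutatorElement_def, mul_assoc] using this
  apply le_antisymm
  · refine sup_le le_sup_right (cj_le_of fun e he => ?_)
    have := (K ⊔ E).mul_mem (Subgroup.mem_sup_left (hcomm e he)) (Subgroup.mem_sup_right he)
    simpa [commutatorElement_def, mul_assoc] using this
  · refine sup_le ?_ le_sup_left
    have hnn : E ≤ NN((E ⊔ cj y E) ⊓ K) := le_NN_inf (le_sup_left.trans (le_NN_self _)) hK2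
    have := hmin ((E ⊔ cj y E) ⊓ K) ⟨inf_le_right.trans hK1, hnn, fun hh => hyc ?_⟩ inf_le_right
    · exact this ▸ inf_le_left
    · rw [mem_CC]
      intro e he
      have h2 : ⁅y, e⁆ ∈ CC(E) := hh ⟨hcomm' e he, hcomm e he⟩
      have h3 : Commute e ⁅e, y⁆ := by
        have : Commute e ⁅y, e⁆ := (mem_CC.1 h2) e he
        rw [← commutatorElement_inv]
        exact this.inv_right
      have h4 := commutator_pow_of_commute h3 p
      rw [(isElementaryAbelian_iff.1 hE).2 e he] at h4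
      have h5 : ⁅e, y⁆ ∈ K := by
        rw [← commutatorElement_inv]; exact K.inv_mem (hcomm e he)
      have h6 : ⁅e, y⁆ = 1 := by
        have ho : orderOf ⁅e, y⁆ ∣ p := orderOf_dvd_of_pow_eq_one (by simpa using h4.symm)
        have ho2 : orderOf ⁅e, y⁆ ∣ Nat.card K := Subgroup.orderOf_dvd_natCard _ h5
        exact orderOf_eq_one_iff.1 (Nat.eq_one_of_dvd_coprimes hKc ho2 ho)
      exact commutatorElement_eq_one_iff_mul_comm.1 h6

/-- Let M be a finite p-soluble group and A a p-subgroup of M with Φ(A) ≤ O_p(M) but A ≰ O_p(M). Then there is x ∈ O_{p,p'}(M) such that L = ⟨A, xAx⁻¹⟩ satisfies: x ∈ O^p(L) and O^p(L) ≤ O_{p,p'}(M); [O^p(L), A] = O^p(L); A ∩ O_p(L) has index p in A; and [A ∩ O_p(L), L] ≤ O_p(M). Here O^p(L) is the subgroup generated by the p'-elements of L and O_{p,p'}(M) the preimage of O_{p'}(M/O_p(M)). -/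
theorem result {M : Type*} [Group M] [Finite M] {p : ℕ} [Fact p.Prime] (hM : Cfsg.IsPSolvable p M) (A : Subgroup M) (hA : IsPGroup p A) (hΦ : (frattini ↥A).map A.subtype ≤ Cfsg.pCore p M) (hnot : ¬ A ≤ Cfsg.pCore p M) : ∃ x ∈ (Cfsg.pPrimeCore p (M ⧸ Cfsg.pCore p M)).comap (QuotientGroup.mk' (Cfsg.pCore p M)), x ∈ (Cfsg.pResidual p ↥(A ⊔ A.map (MulAut.conj x).toMonoidHom)).map (A ⊔ A.map (MulAut.conj x).toMonoidHom).subtype ∧ (Cfsg.pResidual p ↥(A ⊔ A.map (MulAut.conj x).toMonoidHom)).map (A ⊔ A.map (MulAut.conj x).toMonoidHom).subtype ≤ (Cfsg.pPrimeCore p (M ⧸ Cfsg.pCore p M)).comap (QuotientGroup.mk' (Cfsg.pCore p M)) ∧ ⁅(Cfsg.pResidual p ↥(A ⊔ A.map (MulAut.conj x).toMonoidHom)).map (A ⊔ A.map (MulAut.conj x).toMonoidHom).subtype, A⁆ = (Cfsg.pResidual p ↥(A ⊔ A.map (MulAut.conj x).toMonoidHom)).map (A ⊔ A.map (MulAut.conj x).toMonoidHom).subtype ∧ (A ⊓ (Cfsg.pCore p ↥(A ⊔ A.map (MulAut.conj x).toMonoidHom)).map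 (A ⊔ A.map (MulAut.conj x).toMonoidHom).subtype).relIndex A = p ∧ ⁅A ⊓ (Cfsg.pCore p ↥(A ⊔ A.map (MulAut.conj x).toMonoidHom)).map (A ⊔ A.map (MulAut.conj x).toMonoidHom).subtype, A ⊔ A.map (MulAut.conj x).toMonoidHom⁆ ≤ Cfsg.pCore p M := by
  show ∃ x ∈ (pPrimeCore p (M ⧸ pCore p M)).comap (QuotientGroup.mk' (pCore p M)),
    x ∈ resOf p (A ⊔ cj x A) ∧
    resOf p (A ⊔ cj x A) ≤ (pPrimeCore p (M ⧸ pCore p M)).comap (QuotientGroup.mk' (pCore p M)) ∧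
    ⁅resOf p (A ⊔ cj x A), A⁆ = resOf p (A ⊔ cj x A) ∧
    (A ⊓ pCoreOf p (A ⊔ cj x A)).relIndex A = p ∧
    ⁅A ⊓ pCoreOf p (A ⊔ cj x A), A ⊔ cj x A⁆ ≤ pCore p M
  rw [frOf_def] at hΦ
  set f := QuotientGroup.mk' (pCore p M) with hf
  have hker : f.ker = pCore p M := QuotientGroup.ker_mk' _
  have hsurj : Function.Surjective f := QuotientGroup.mk'_surjective _
  set E := A.map f with hEdef
  have hE : IsElementaryAbelian p E := by
    rw [isElementaryAbelian_iff]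
    refine ⟨?_, ?_⟩
    · rw [← comm_eq_bot, hEdef, ← Subgroup.map_commutator, Subgroup.map_eq_bot_iff, hker]
      exact (comm_le_frOf hA).trans hΦ
    · rintro _ ⟨a, ha, rfl⟩
      rw [← map_pow, ← MonoidHom.mem_ker, hker]
      exact hΦ (pow_mem_frOf hA ha)
  have h1 : E ≠ ⊥ := fun h => hnot (by rwa [hEdef, Subgroup.map_eq_bot_iff, hker] at h)
  have hQ := H1.coprime_card_pPrimeCore (G := M ⧸ pCore p M) p
  have hc : ¬ pPrimeCore p (M ⧸ pCore p M) ≤ CC(E) := fun h => by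
    have h2 := H1.IsPSolvable.centralizer_pPrimeCore_le (H1.IsPSolvable.quotient hM (pCore p M))
      (H1.pCore_quotient_pCore p)
    have h3 : E ≤ pPrimeCore p (M ⧸ pCore p M) := (le_CC_symm h).trans h2
    exact h1 (by
      have := H1.inf_eq_bot_of_isPGroup_of_coprime (elab_isPGroup hE) hQ
      rwa [inf_eq_left.2 h3] at this)
  obtain ⟨E₀, K, h0, hKQ, hK0, hEK, hKE, hgen⟩ := step hE h1 (le_NN_of_normal _ _) hQ hc
  have hKc : (Nat.card K).Coprime p :=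
    Nat.Coprime.coprime_dvd_left (Subgroup.card_dvd_of_le hKQ) hQ
  obtain ⟨k, hk, hkc⟩ := SetLike.not_le_iff_exists.1 hKE
  obtain ⟨y0, rfl⟩ := hsurj k
  obtain ⟨L, ⟨y, hy, hyc, rfl⟩, hmin⟩ := exists_minimal_subgroup
    (P := fun L => ∃ y, f y ∈ K ∧ f y ∉ CC(E) ∧ L = A ⊔ cj y A) ⟨y0, hk, hkc, rfl⟩
  have hmap : ∀ y, f y ∈ K → f y ∉ CC(E) → (A ⊔ cj y A).map f = K ⊔ E := fun y hy hyc => by
    rw [Subgroup.map_sup, map_cj, ← hEdef, hgen _ hy hyc]
  have hres : ∀ y, f y ∈ K → f y ∉ CC(E) → (resOf p (A ⊔ cj y A)).map f = K := fun y hy hyc => by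
    rw [map_resOf, hmap y hy hyc, resOf_sup_pgroup (elab_isPGroup hE) hEK, resOf_eq_of_coprime hKc]
  obtain ⟨x, hx, hxy⟩ : f y ∈ (resOf p (A ⊔ cj y A)).map f := by rw [hres y hy hyc]; exact hy
  have hxK : f x ∈ K := hxy ▸ hy
  have hxc : f x ∉ CC(E) := hxy ▸ hyc
  have heq : A ⊔ cj x A = A ⊔ cj y A :=
    hmin _ ⟨x, hxK, hxc, rfl⟩ (sup_le le_sup_left (cj_le_of_mem (resOf_le _ hx) le_sup_left))
  rw [← heq] at hx
  set L := A ⊔ cj x A with hL
  have hLm : L.map f = K ⊔ E := hmap x hxK hxc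
  have hAR : A ≤ NN(resOf p L) := le_sup_left.trans (le_NN_resOf L)
  have hpk : IsPGroup p (L ⊓ f.ker : Subgroup M) := by
    rw [hker]; exact isPGroup_pCore'.to_le inf_le_right
  have hE0c : E₀ ≤ CC(L.map f) := by
    rw [hLm, CC_sup]
    exact le_inf (le_CC_symm hK0) (h0.1.trans (elab_le_CC hE))
  have hE0O : E₀ ≤ pCoreOf p (L.map f) :=
    le_pCoreOf ((elab_isPGroup hE).to_le h0.1) (by rw [hLm]; exact h0.1.trans le_sup_right)
      ((le_CC_symm hE0c).trans (CC_le_NN _))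
  have hEO : E ⊓ pCoreOf p (L.map f) = E₀ := by
    have hp : (E₀.relIndex E).Prime := by rw [h0.2]; exact Fact.out
    rcases H1.eq_or_eq_of_relIndex_prime hp (le_inf h0.1 hE0O) inf_le_left with h | h
    · exact h
    · exfalso
      apply hKE
      have h2 : E ≤ pCoreOf p (L.map f) := inf_eq_left.1 h
      rw [← comm_eq_bot, eq_bot_iff,
        ← H1.inf_eq_bot_of_isPGroup_of_coprime (isPGroup_pCoreOf (p := p) (L.map f)) hKc]
      refine le_inf ((Subgroup.commutator_mono le_rfl h2).trans (comm_le_right ?_)) (comm_le_left hEK)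
      exact (le_sup_left.trans hLm.ge).trans (le_NN_pCoreOf _)
  have hA0 : A ⊓ pCoreOf p L = A ⊓ E₀.comap f := by
    rw [← inf_comap_pCoreOf f hpk, ← hEO, Subgroup.comap_inf, ← inf_assoc, ← inf_assoc,
      inf_eq_left.2 (le_sup_left : A ≤ L), inf_eq_left.2 (Subgroup.le_comap_map f A)]
  refine ⟨x, hKQ hxK, hx, ?_, ?_, ?_, ?_⟩
  · rw [← Subgroup.map_le_iff_le_comap, hres x hxK hxc]; exact hKQ
  · refine le_antisymm (comm_le_left hAR) ?_
    have h2 : L ≤ ⁅resOf p L, A⁆ ⊔ A := by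
      refine sup_le le_sup_right (cj_le_of fun e he => ?_)
      have := (⁅resOf p L, A⁆ ⊔ A).mul_mem
        (Subgroup.mem_sup_left (Subgroup.commutator_mem_commutator hx he)) (Subgroup.mem_sup_right he)
      simpa [commutatorElement_def, mul_assoc] using this
    exact (resOf_mono h2).trans (resOf_sup_le hA (right_le_NN_comm _ _))
  · rw [hA0, Subgroup.inf_relIndex_left, Subgroup.relIndex_comap]; exact h0.2
  · refine le_trans ?_ hker.le
    rw [hA0, ← Subgroup.map_eq_bot_iff, Subgroup.map_commutator, comm_eq_bot]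
    exact (Subgroup.map_le_iff_le_comap.2 inf_le_right).trans hE0c

end Cfsg.Agent.S3754
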