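import Cfsg.Statements.S3764
import Cfsg.Agent.H2.BG25
import Cfsg.Agent.H7.Extra2

set_option autoImplicit false
open Cfsg

namespace Cfsg.Agent.S3764

/-- Let p, q, r be distinct primes and let X, Q, V be subgroups of a finite group with X of order r, Q an extraspecial q-group normalized by X with C_Q(X) = Z(Q), and V an elementary abelian p-group normalized by X and Q on which XQ acts faithfully ((X ⊔ Q) ∩ C(V) = 1). If C_V(X) = 1, then q = 2, r = 2^n + 1 for some n, and Q has order 2^(2n+1). -/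
theorem result {G : Type*} [Group G] [Finite G] {p q r : ℕ} (hp : p.Prime) (hq : q.Prime) (hr : r.Prime) (hpq : p ≠ q) (hpr : p ≠ r) (hqr : q ≠ r) (X Q V : Subgroup G) (hX : Nat.card X = r) (hQ : Cfsg.IsExtraspecial q ↥Q) (hXQ : X ≤ Subgroup.normalizer (Q : Set G)) (hCQ : Q ⊓ Subgroup.centralizer (X : Set G) = (Subgroup.center ↥Q).map Q.subtype) (hV : Cfsg.IsElementaryAbelian p V) (hXV : X ≤ Subgroup.normalizer (V : Set G)) (hQV : Q ≤ Subgroup.normalizer (V : Set G)) (hfaith : (X ⊔ Q) ⊓ Subgroup.centralizer (V : Set G) = ⊥) (hCV : V ⊓ Subgroup.centralizer (X : Set G) = ⊥) : q = 2 ∧ ∃ n : ℕ, r = 2 ^ n + 1 ∧ Nat.card Q = 2 ^ (2 * n + 1) := by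
  have : Fact q.Prime := ⟨hq⟩
  have : Fact r.Prime := ⟨hr⟩
  have : Fact p.Prime := ⟨hp⟩
  rw [H15.map_center_subtype] at hCQ
  obtain ⟨n, hn1, hn⟩ := H7.extraspecial_card hQ
  obtain ⟨m, hm⟩ := (H1.isPGroup_of_pow_eq_one hV.2).exists_card_eq
  have h := H2.bg2_5_fix' hQ hn (isCyclic_of_prime_card hX) hXQ
    (by rw [hX]; exact (Nat.coprime_primes hr hq).2 hqr.symm)
    (fun x hx hx1 => by
      have : Subgroup.zpowers x = X := by
        have h1 := Subgroup.card_dvd_of_le (Subgroup.zpowers_le.2 hx)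
        rw [hX, Nat.dvd_prime hr] at h1
        rcases h1 with h1 | h1
        · exact absurd (Subgroup.zpowers_eq_bot.1 (Subgroup.card_eq_one.1 h1)) hx1
        · exact Subgroup.eq_of_le_of_card_ge (Subgroup.zpowers_le.2 hx) (by rw [h1, hX])
      rw [← hCQ, ← this, H15.cent_zpowers])
    (H1.isSolvable_of_comm' hV.1) hQV hXV
    (by rw [hm]; exact ((Nat.coprime_primes hp hq).2 hpq).pow_left _)
    (by rw [hm, hX]; exact ((Nat.coprime_primes hp hr).2 hpr).pow_left _)
    (fun h => by
      have h1 := H7.extraspecial_card_center hQ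
      have : Q ⊓ Subgroup.centralizer (Q : Set G) = ⊥ := by
        rw [eq_bot_iff, ← hfaith]
        exact le_inf (inf_le_left.trans le_sup_right) h
      rw [this, Subgroup.card_bot] at h1
      exact hq.ne_one h1.symm) hCV
  rw [hX] at h
  have h2 : q = 2 := by
    by_contra h2
    have h3 : Odd (q ^ n) := (hq.odd_of_ne_two h2).pow
    have h4 : r = 2 := by
      by_contra h4
      have := hr.odd_of_ne_two h4
      rw [h] at this
      exact (Nat.not_odd_iff_even.2 h3.add_one) this
    have : 1 < q ^ n := Nat.one_lt_pow (by omega) hq.one_lt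
    omega
  subst h2
  exact ⟨rfl, n, h, hn⟩

end Cfsg.Agent.S3764
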