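import Cfsg.Statements.S3765
import Cfsg.Agent.H2.BG34

set_option autoImplicit false
open Cfsg

namespace Cfsg.Agent.S3765

/-- Let p, q, r be distinct primes and let X, Q, V be subgroups of a finite group with X of order r normalizing the q-group Q and acting faithfully on it (X ∩ C(Q) = 1), and V a nontrivial elementary abelian p-group normalized by X and Q on which XQ acts faithfully. If q = 2 and r has the form 2^n + 1, assume in addition that Q is abelian. Then C_V(X) ≠ 1. -/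
theorem result {G : Type*} [Group G] [Finite G] {p q r : ℕ} (hp : p.Prime) (hq : q.Prime) (hr : r.Prime) (hpq : p ≠ q) (hpr : p ≠ r) (hqr : q ≠ r) (X Q V : Subgroup G) (hX : Nat.card X = r) (hQ : IsPGroup q Q) (hXQ : X ≤ Subgroup.normalizer (Q : Set G)) (hXfaith : X ⊓ Subgroup.centralizer (Q : Set G) = ⊥) (hV : Cfsg.IsElementaryAbelian p V) (hV1 : V ≠ ⊥) (hXV : X ≤ Subgroup.normalizer (V : Set G)) (hQV : Q ≤ Subgroup.normalizer (V : Set G)) (hfaith : (X ⊔ Q) ⊓ Subgroup.centralizer (V : Set G) = ⊥) (hexc : q = 2 → (∃ n : ℕ, r = 2 ^ n + 1) → IsMulCommutative Q) : V ⊓ Subgroup.centralizer (X : Set G) ≠ ⊥ := by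
  have : Fact q.Prime := ⟨hq⟩
  have : Fact p.Prime := ⟨hp⟩
  intro hCV
  obtain ⟨m, hm⟩ := (H1.isPGroup_of_pow_eq_one hV.2).exists_card_eq
  obtain ⟨e, he⟩ := hQ.exists_card_eq
  have hc : (Nat.card Q).Coprime (Nat.card X) := by
    rw [he, hX]; exact ((Nat.coprime_primes hq hr).2 hqr).pow_left _
  obtain ⟨a, b, c⟩ := H2.bg3_4_gen hXQ (hX ▸ hr) hc (H1.isSolvable_of_comm' hV.1) hQV hXV
    (by rw [hm, he]; exact Nat.Coprime.pow _ _ ((Nat.coprime_primes hp hq).2 hpq))
    (by rw [hm, hX]; exact ((Nat.coprime_primes hp hr).2 hpr).pow_left _) hCV (fun h => by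
      have h1 : ⁅Q, X⁆ = ⊥ := by
        rw [eq_bot_iff, ← hfaith]
        exact le_inf ((H15.comm_le_left hXQ).trans le_sup_right) h
      have h2 : X ≤ ⊥ := by
        rw [← hXfaith]
        exact le_inf le_rfl (H15.cent_comm (H15.le_cent_iff_comm.2 h1))
      rw [le_bot_iff.1 h2, Subgroup.card_bot] at hX
      exact hr.ne_one hX.symm)
  rw [he] at b
  exact c (hexc ((Nat.prime_dvd_prime_iff_eq Nat.prime_two hq).1
    (Nat.prime_two.dvd_of_dvd_pow b)).symm (hX ▸ a))

end Cfsg.Agent.S3765
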