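import Cfsg.Statements.S3766
import Cfsg.Agent.H7.Chief

set_option autoImplicit false
open Cfsg

namespace Cfsg.Agent.S3766



/-- Let G be a finite solvable group and N a normal subgroup of G. Call a pair V < U of normal subgroups of G a chief factor of G when no normal subgroup of G lies strictly between them; an element g centralizes the chief factor U/V when u g u⁻¹ g⁻¹ ∈ V for all u ∈ U. Then an element of G lies in the Fitting subgroup F(N) if and only if it lies in N and centralizes every chief factor of G; and also if and only if it lies in N and centralizes every chief factor U/V of G with U ≤ F(N). -/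
theorem result {G : Type*} [Group G] [Finite G] (hG : Group.IsSolvable G) (N : Subgroup G) [N.Normal] (g : G) : (g ∈ (Cfsg.fittingSubgroup ↥N).map N.subtype ↔ g ∈ N ∧ ∀ U V : Subgroup G, (U.Normal ∧ V.Normal ∧ V < U ∧ ∀ W : Subgroup G, W.Normal → V ≤ W → W ≤ U → W = V ∨ W = U) → ∀ u ∈ U, u * g * u⁻¹ * g⁻¹ ∈ V) ∧ (g ∈ (Cfsg.fittingSubgroup ↥N).map N.subtype ↔ g ∈ N ∧ ∀ U V : Subgroup G, (U.Normal ∧ V.Normal ∧ V < U ∧ ∀ W : Subgroup G, W.Normal → V ≤ W → W ≤ U → W = V ∨ W = U) → U ≤ (Cfsg.fittingSubgroup ↥N).map N.subtype → ∀ u ∈ U, u * g * u⁻¹ * g⁻¹ ∈ V) := by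
  haveI : (H5.fitOf N).Normal := H5.normal_iff_top_le_normalizer.2
    (H5.le_normalizer_fitOf Subgroup.le_normalizer_of_normal)
  have h1 : g ∈ H5.fitOf N → ∀ U V : Subgroup G, (U.Normal ∧ V.Normal ∧ V < U ∧
      ∀ W : Subgroup G, W.Normal → V ≤ W → W ≤ U → W = V ∨ W = U) →
      ∀ u ∈ U, u * g * u⁻¹ * g⁻¹ ∈ V := by
    rintro hg U V ⟨_, _, h1, h2⟩ u hu
    exact H7.commutator_le_of_chief (H5.isNilpotent_fitOf N) h1 h2
      (Subgroup.commutator_mem_commutator hu hg)
  have h2 : g ∈ N → (∀ U V : Subgroup G, (U.Normal ∧ V.Normal ∧ V < U ∧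
      ∀ W : Subgroup G, W.Normal → V ≤ W → W ≤ U → W = V ∨ W = U) → U ≤ H5.fitOf N →
      ∀ u ∈ U, u * g * u⁻¹ * g⁻¹ ∈ V) → g ∈ H5.fitOf N := by
    intro hg h
    refine H7.le_fitOf_of_commutator_lt (D := Subgroup.normalClosure {g}) (L := ⊤)
      (Subgroup.normalClosure_le_normal (Set.singleton_subset_iff.2 hg)) le_top
      Subgroup.le_normalizer_of_normal Subgroup.le_normalizer_of_normal
      (H5.inf_centralizer_fitOf_le_of_solvable inferInstance) (fun U hU hn h0 => ?_)
      (Subgroup.subset_normalClosure rfl)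
    haveI := H5.normal_iff_top_le_normalizer.2 hn
    obtain ⟨V, hV, h3, h4⟩ := H7.exists_chief_below U h0
    refine lt_of_le_of_lt ?_ h3
    haveI : (H9.centMod V (U : Set G)).Normal := ⟨fun x hx a => H9.mem_centMod.2 fun s hs => by
      have := hV.conj_mem _ (H9.mem_centMod.1 hx _ (this.conj_mem s hs a⁻¹)) a
      simpa [commutatorElement_def, mul_assoc] using this⟩
    rw [Subgroup.commutator_comm, H9.commutator_le_iff_le_centMod]
    refine Subgroup.normalClosure_le_normal (Set.singleton_subset_iff.2 (H9.mem_centMod.2 fun u hu => ?_))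
    rw [← commutatorElement_inv]
    exact inv_mem (h U V ⟨inferInstance, hV, h3, h4⟩ hU u hu)
  exact ⟨⟨fun hg => ⟨H5.fitOf_le N hg, h1 hg⟩, fun h => h2 h.1 fun U V h' _ => h.2 U V h'⟩,
    ⟨fun hg => ⟨H5.fitOf_le N hg, fun U V h' _ => h1 hg U V h'⟩, fun h => h2 h.1 h.2⟩⟩

end Cfsg.Agent.S3766
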