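import Cfsg.Statements.S3768
import Cfsg.Agent.H7.Simple
import Cfsg.Agent.H1.Coprime
import Cfsg.Agent.H2.Frob
import Cfsg.Agent.S0035
import Cfsg.Agent.S0039

set_option autoImplicit false
open Cfsg

namespace Cfsg.Agent.S3768



/-- Let G be a finite Frobenius group with Frobenius complement R and Frobenius kernel K (the identity together with the elements in no conjugate of R), and let N be a normal subgroup of G not containing K. Then G/N is a Frobenius group with Frobenius complement RN/N whose Frobenius kernel is the image of K. -/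
theorem result {G : Type*} [Group G] [Finite G] (R : Subgroup G) (hR : Cfsg.IsFrobeniusComplement R) (N : Subgroup G) [N.Normal] (hKN : ¬ Cfsg.frobeniusKernel R ⊆ N) : Cfsg.IsFrobeniusComplement (R.map (QuotientGroup.mk' N)) ∧ Cfsg.frobeniusKernel (R.map (QuotientGroup.mk' N)) = QuotientGroup.mk' N '' Cfsg.frobeniusKernel R := by
  obtain ⟨K, hK, hKn, hc⟩ := S0035.result R hR
  rw [← hK] at hKN ⊢
  have hK0 : K ≠ ⊥ := fun e => hKN (e ▸ (bot_le : ⊥ ≤ N))
  have hfp := (S0039.result K R hc hK0 hR.1).1 hR
  have hcop : ∀ r ∈ R, (Nat.card (Subgroup.zpowers r)).Coprime (Nat.card K) := fun r hr => by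
    rw [← hc.index_eq_card]
    exact (H2.frob_coprime hR).coprime_dvd_left (Subgroup.card_dvd_of_le (Subgroup.zpowers_le.2 hr))
  have hs : ∀ r : G, Group.IsSolvable (Subgroup.zpowers r) ∨ Group.IsSolvable K := fun r =>
    Or.inl (H1.isSolvable_of_comm' inferInstance)
  have hNK : N ≤ K := by
    intro x hx
    rw [← SetLike.mem_coe, hK, H2.mem_frobKernel_iff, or_iff_not_imp_left]
    intro hx1 g hg
    apply hKN
    have h1 := H1.commutator_sup_centralizer Subgroup.le_normalizer_of_normal (hcop _ hg) (hs _)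
    rw [H5.centralizer_zpowers, hfp _ hg (by simpa [mul_assoc, inv_mul_eq_one] using hx1), sup_bot_eq] at h1
    show K ≤ N
    rw [← h1]
    refine (Subgroup.commutator_mono le_rfl (Subgroup.zpowers_le.2 ?_)).trans
      (Subgroup.commutator_le_right K N)
    simpa using (inferInstance : N.Normal).conj_mem _ hx g⁻¹
  have hinf : K.map (QuotientGroup.mk' N) ⊓ R.map (QuotientGroup.mk' N) = ⊥ := by
    apply Subgroup.comap_injective (QuotientGroup.mk'_surjective N)
    rw [Subgroup.comap_inf, QuotientGroup.comap_map_mk', QuotientGroup.comap_map_mk',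
      sup_eq_right.2 hNK, inf_comm, H7.dedekind hNK (Or.inr Subgroup.le_normalizer_of_normal),
      inf_comm, hc.disjoint.eq_bot, sup_bot_eq, MonoidHom.comap_bot, QuotientGroup.ker_mk']
  haveI := hKn.map _ (QuotientGroup.mk'_surjective N)
  constructor
  · refine (S0039.result (K.map (QuotientGroup.mk' N)) _ (H1.isComplement'_of_inf_sup hinf ?_)
      ?_ ?_).2 ?_
    · rw [← Subgroup.map_sup, hc.sup_eq_top,
        Subgroup.map_top_of_surjective _ (QuotientGroup.mk'_surjective N)]
    · rwa [Ne, Subgroup.map_eq_bot_iff, QuotientGroup.ker_mk']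
    · rw [Ne, Subgroup.map_eq_bot_iff, QuotientGroup.ker_mk']
      exact fun h => hR.1 (hc.disjoint.symm.eq_bot_of_le (h.trans hNK))
    · rintro _ ⟨r, hr, rfl⟩ h1
      have := H1.map_inf_centralizer_of_coprime (QuotientGroup.mk' N)
        Subgroup.le_normalizer_of_normal (hcop r hr) (hs r)
      rw [H5.centralizer_zpowers, hfp r hr (fun e => h1 (by rw [e, map_one])), Subgroup.map_bot,
        MonoidHom.map_zpowers, H5.centralizer_zpowers] at this
      exact this.symm
  · ext x
    rw [H2.mem_frobKernel_iff]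
    constructor
    · rintro (rfl | h)
      · exact ⟨1, K.one_mem, rfl⟩
      obtain ⟨x, rfl⟩ := QuotientGroup.mk'_surjective N x
      refine ⟨x, ?_, rfl⟩
      rw [hK, H2.mem_frobKernel_iff]
      exact Or.inr fun g hg => h (QuotientGroup.mk' N g) ⟨_, hg, by simp⟩
    · intro hx
      refine or_iff_not_imp_left.2 fun h1 g hg => h1 ?_
      have h2 : g⁻¹ * x * g ∈ K.map (QuotientGroup.mk' N) := by
        simpa using this.conj_mem _ hx g⁻¹
      simpa [mul_assoc, inv_mul_eq_one] using hinf.le ⟨h2, hg⟩

end Cfsg.Agent.S3768
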