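import Cfsg.Statements.S3770
import Cfsg.Agent.H2.BG34
import Cfsg.Agent.S0042
import Cfsg.Agent.S0035
import Cfsg.Agent.S0039

set_option autoImplicit false
open Cfsg

namespace Cfsg.Agent.S3770

/-- Let G and V be subgroups of a finite group with G a Frobenius group with complement R of prime order and kernel K, G normalizing V, and V an elementary abelian ℓ-group for a prime ℓ not dividing the order of G. If C_V(R) has order ℓ, then the derived subgroup of K centralizes V. -/
theorem result {X : Type*} [Group X] [Finite X] (G : Subgroup X) (V : Subgroup X) {ℓ : ℕ} (hℓ : ℓ.Prime) (hV : Cfsg.IsElementaryAbelian ℓ V) (hℓG : ¬ ℓ ∣ Nat.card G) (hGV : G ≤ Subgroup.normalizer (V : Set X)) (R : Subgroup ↥G) (hR : Cfsg.IsFrobeniusComplement R) (hRp : (Nat.card R).Prime) (hCV : Nat.card ↥(V ⊓ Subgroup.centralizer ((R.map G.subtype : Subgroup X) : Set X)) = ℓ) : ⁅Subgroup.closure (Subtype.val '' Cfsg.frobeniusKernel R), Subgroup.closure (Subtype.val '' Cfsg.frobeniusKernel R)⁆ ≤ Subgroup.centralizer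 (V : Set X) := by
  have : Fact ℓ.Prime := ⟨hℓ⟩
  obtain ⟨N, hN, hNn, hc⟩ := Cfsg.Agent.S0035.result R hR
  obtain ⟨N', hN', -, hnil⟩ := Cfsg.Agent.S0042.result R hR
  obtain rfl : N = N' := SetLike.coe_injective (hN.trans hN'.symm)
  have hN1 : N ≠ ⊥ := by
    rintro rfl
    have := hc.sup_eq_top
    rw [bot_sup_eq] at this
    exact hR.2.1 this
  have hfr := (Cfsg.Agent.S0039.result N R hc hN1 hR.1).1 hR
  have hK : Subgroup.closure (Subtype.val '' Cfsg.frobeniusKernel R) = N.map G.subtype := by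
    rw [← hN]; exact Subgroup.closure_eq (N.map G.subtype)
  obtain ⟨m, hm⟩ := (H1.isPGroup_of_pow_eq_one hV.2).exists_card_eq
  have hc : (Nat.card V).Coprime (Nat.card G) := by
    rw [hm]; exact ((Nat.Prime.coprime_iff_not_dvd hℓ).2 hℓG).pow_left _
  rw [hK]
  refine H2.bg3_5_nil (R := R.map G.subtype) (H1.isNilpotent_map hnil _)
    (H1.le_normalizer_map Subgroup.le_normalizer_of_normal _) ?_ (H1.isSolvable_of_comm' hV.1)
    ((Subgroup.map_subtype_le _).trans hGV) ((Subgroup.map_subtype_le _).trans hGV)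
    (hc.coprime_dvd_right (Subgroup.card_dvd_of_le (Subgroup.map_subtype_le _)))
    (hc.coprime_dvd_right (Subgroup.card_dvd_of_le (Subgroup.map_subtype_le _)))
    (isCyclic_of_prime_card hCV)
  rintro _ ⟨r, hr, rfl⟩ hr1
  refine H2.inf_centralizer_eq_bot_of ?_
  rintro _ ⟨k, hk, rfl⟩ h
  have := H2.eq_one_of_inf_centralizer (hfr r hr (fun h => hr1 (by simp [h]))) hk (Subtype.ext h)
  simp [this]

end Cfsg.Agent.S3770
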