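import Cfsg.Statements.S3771
import Cfsg.Agent.H7.Extra2

set_option autoImplicit false
open Cfsg

namespace Cfsg.Agent.S3771



/-- Let p be a prime and R a finite p-group of p-rank at most 2 (no elementary abelian subgroup of order p³) in which every element has order dividing p. Then R has order at most p³. -/
theorem result {R : Type*} [Group R] [Finite R] {p : ℕ} [Fact p.Prime] (hR : IsPGroup p R) (hrank : Cfsg.PRankLE p 2 R) (hexp : ∀ x : R, x ^ p = 1) : Nat.card R ≤ p ^ 3 := by
  have hp : p.Prime := Fact.out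
  by_contra hcon
  obtain ⟨n, hn⟩ := IsPGroup.iff_card.1 hR
  rw [hn, Nat.pow_le_pow_iff_right hp.one_lt] at hcon
  obtain ⟨H, hH⟩ := Sylow.exists_subgroup_card_pow_prime p (G := R) (n := 4)
    (hn ▸ pow_dvd_pow p (by omega))
  obtain ⟨A, -, hA, hi⟩ := H7.exists_abelian_index_of_card_pow_four hH
  have h1 := hrank (A.map H.subtype) inferInstance (fun a _ => hexp a)
  have h2 := A.card_mul_index
  rw [Subgroup.card_subtype] at h1
  rw [hi, hH] at h2
  have h3 := Nat.mul_le_mul_right p h1
  rw [h2, ← pow_succ, Nat.pow_le_pow_iff_right hp.one_lt] at h3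
  omega

end Cfsg.Agent.S3771
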