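import Cfsg.Statements.S3772
import Cfsg.Agent.H3.Critical
import Cfsg.Agent.H9.Basic
import Cfsg.Agent.H7.Basic

set_option autoImplicit false
open Cfsg

namespace Cfsg.Agent.S3772

open scoped commutatorElement

theorem sum_eq_zero_of_neg {G : Type*} [Group G] {s : Finset G} (f : G → ℤ) (a : G)
    (hs : ∀ x, x ∈ s ↔ x * a ∈ s) (h : ∀ x ∈ s, f (x * a) = - f x) : ∑ x ∈ s, f x = 0 := by
  have := Finset.sum_equiv (s := s) (t := s) (Equiv.mulRight a) (f := fun x => - f x) (g := f) hs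
    fun x hx => (h x hx).symm
  rw [Finset.sum_neg_distrib] at this
  omega

theorem key {G : Type*} [Group G] [Finite G] (hG : IsPGroup 2 G) (hΦ : Nat.card (frattini G) = 2) :
    2 * Nat.card {x : G // x ^ 2 = 1} = Nat.card G ∨
      ((∀ u ∈ Subgroup.center G, u ^ 2 = 1) ∧
      ((2 * Nat.card {x : G // x ^ 2 = 1} : ℤ) - Nat.card G) ^ 2 =
        Nat.card G * Nat.card (Subgroup.center G)) := by
  classical
  haveI := Fintype.ofFinite G
  haveI := hG.isNilpotent
  have hZ : frattini G ≤ Subgroup.center G := H9.le_center_of_card_le_prime hG hΦ.le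
  let χ : G → ℤ := fun g => if g = 1 then 1 else -1
  obtain ⟨z, hz1, hz⟩ := (Nat.card_eq_two_iff' (1 : frattini G)).1 hΦ
  have hz1' : (z : G) ≠ 1 := fun e => hz1 (Subtype.ext e)
  have hΦ' : ∀ a ∈ frattini G, a = 1 ∨ a = z := fun a ha => or_iff_not_imp_left.2 fun h =>
    congrArg Subtype.val (hz ⟨a, ha⟩ fun e => h (congrArg Subtype.val e))
  have hzz : (z : G) * z = 1 := by
    rcases hΦ' _ (mul_mem z.2 z.2) with h | h
    · exact h
    · exact absurd (mul_eq_left.1 h) hz1'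
  have hχ : ∀ a ∈ frattini G, ∀ b ∈ frattini G, χ (a * b) = χ a * χ b := by
    intro a ha b hb
    rcases hΦ' a ha with rfl | rfl <;> rcases hΦ' b hb with rfl | rfl <;> simp [χ, hz1', hzz]
  have hχ2 : ∀ a, χ a * χ a = 1 := fun a => by simp only [χ]; split_ifs <;> rfl
  have hsq : ∀ x : G, x ^ 2 ∈ frattini G := H3.pow_mem_frattini hG
  have hc : ∀ x y : G, ⁅x, y⁆ ∈ frattini G := fun x y =>
    H3.commutator_le_frattini (Subgroup.commutator_mem_commutator trivial trivial)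
  have hcc : ∀ g x y : G, Commute g ⁅x, y⁆ := fun g x y => H9.commute_of_mem_center (hZ (hc x y)) g
  have hmul : ∀ x u : G, (x * u) ^ 2 = x ^ 2 * u ^ 2 * ⁅u, x⁆ := fun x u => by
    rw [H9.mul_pow_class_two (hcc _ _ _) (hcc _ _ _), Nat.choose_self, pow_one]
  have hS : ∑ x : G, χ (x ^ 2) = 2 * Nat.card {x : G // x ^ 2 = 1} - Nat.card G := by
    have := Finset.card_filter_add_card_filter_not (s := Finset.univ) (fun x : G => x ^ 2 = 1)
    simp only [χ, Finset.sum_ite, Finset.sum_const, Nat.card_eq_fintype_card, Fintype.card_subtype]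
    rw [← Finset.card_univ, ← this]
    simp; ring
  have h1 : ∀ u : G, ∑ x : G, χ ⁅u, x⁆ = if u ∈ Subgroup.center G then Nat.card G else 0 := by
    intro u
    split_ifs with hu
    · rw [Finset.sum_congr rfl (g := fun _ => 1) fun x _ => by
        simp [χ, (H9.commute_of_mem_center hu x).symm.commutator_eq]]
      simp
    · obtain ⟨a, ha⟩ := not_forall.1 (mt Subgroup.mem_center_iff.2 hu)
      refine sum_eq_zero_of_neg _ a (by simp) fun x _ => ?_
      rw [H9.commutator_mul_right_of_commute (hcc _ _ _), hχ _ (hc _ _) _ (hc _ _)]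
      have : ⁅u, a⁆ ≠ 1 := fun e => ha (commutatorElement_eq_one_iff_mul_comm.1 e).symm
      simp [χ, this]
  have h2 : (∑ x : G, χ (x ^ 2)) ^ 2 =
      Nat.card G * ∑ u ∈ Finset.univ.filter (· ∈ Subgroup.center G), χ (u ^ 2) := by
    rw [sq, Finset.sum_mul_sum, Finset.sum_congr rfl (g := fun x => ∑ u : G, χ (u ^ 2) * χ ⁅u, x⁆)
      fun x _ => (Fintype.sum_equiv (Equiv.mulLeft x) _ _ fun u => by
        rw [Equiv.coe_mulLeft, hmul, hχ _ (mul_mem (hsq _) (hsq _)) _ (hc _ _), hχ _ (hsq _) _ (hsq _),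
          ← mul_assoc, ← mul_assoc, hχ2, one_mul]).symm, Finset.sum_comm, Finset.mul_sum,
      Finset.sum_filter]
    refine Finset.sum_congr rfl fun u _ => ?_
    rw [← Finset.mul_sum, h1]
    split_ifs <;> simp [mul_comm]
  rw [hS] at h2
  by_cases h3 : ∀ u ∈ Subgroup.center G, u ^ 2 = 1
  · refine Or.inr ⟨h3, ?_⟩
    rw [h2, Finset.sum_congr rfl (g := fun _ => 1) fun u hu => by
      simp [χ, h3 u (by simpa using hu)]]
    simp [Fintype.card_subtype]
  · push Not at h3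
    obtain ⟨a, ha, ha'⟩ := h3
    rw [sum_eq_zero_of_neg _ a (by simp [mul_mem_cancel_right ha]) fun x _ => by
      rw [(H9.commute_of_mem_center ha x).mul_pow, hχ _ (hsq _) _ (hsq _)]
      simp [χ, ha'], mul_zero, sq_eq_zero_iff] at h2
    exact Or.inl (by omega)

/-- Let G be a finite 2-group whose Frattini subgroup Φ(G) has order 2, with |G : Φ(G)| = 2^d, and let j be the number of elements x of G with x² = 1. Then j = 2^d, or j = 2^d + 2^(d−r) or j = 2^d − 2^(d−r) for some positive integer r with 2r ≤ d. Moreover if d = 2r and j is 2^d + 2^r or 2^d − 2^r, then G is extraspecial. -/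
theorem result {G : Type*} [Group G] [Finite G] (hG : IsPGroup 2 G) (hΦ : Nat.card (frattini G) = 2) (d : ℕ) (hd : (frattini G).index = 2 ^ d) : (Nat.card {x : G // x ^ 2 = 1} = 2 ^ d ∨ ∃ r : ℕ, 1 ≤ r ∧ 2 * r ≤ d ∧ (Nat.card {x : G // x ^ 2 = 1} = 2 ^ d + 2 ^ (d - r) ∨ Nat.card {x : G // x ^ 2 = 1} + 2 ^ (d - r) = 2 ^ d)) ∧ (∀ r : ℕ, d = 2 * r → (Nat.card {x : G // x ^ 2 = 1} = 2 ^ d + 2 ^ r ∨ Nat.card {x : G // x ^ 2 = 1} + 2 ^ r = 2 ^ d) → Cfsg.IsExtraspecial 2 G) := by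
  haveI := hG.isNilpotent
  have hZ : frattini G ≤ Subgroup.center G := H9.le_center_of_card_le_prime hG hΦ.le
  have hc : Nat.card G = 2 * 2 ^ d := by rw [← (frattini G).card_mul_index, hΦ, hd]
  obtain ⟨k, hk⟩ := H9.card_eq_pow hG (Subgroup.center G)
  have hk1 : 1 ≤ k := by
    have := Subgroup.card_le_of_le hZ
    rwa [hΦ, hk, ← pow_one 2, ← pow_mul, Nat.pow_le_pow_iff_right one_lt_two, one_mul] at this
  have hab : (∀ u ∈ Subgroup.center G, u ^ 2 = 1) → Subgroup.center G ≠ ⊤ := fun h1 h2 => by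
    have : frattini G ≤ ⊥ := H3.frattini_le_of ((commutator_eq_bot_iff_center_eq_top G).2 h2).le
      fun x => h1 x (h2 ▸ trivial)
    rw [le_bot_iff.1 this, Subgroup.card_bot] at hΦ
    omega
  set N := Nat.card {x : G // x ^ 2 = 1}
  rcases key hG hΦ with h | ⟨h1, h2⟩
  · refine ⟨Or.inl (by omega), fun r _ h' => ?_⟩
    have : 0 < 2 ^ r := by positivity
    omega
  have hkd : k ≤ d := by
    have := H7.card_lt_of_lt (lt_top_iff_ne_top.2 (hab h1))
    rw [Subgroup.card_top, hk, hc, ← pow_succ', Nat.pow_lt_pow_iff_right one_lt_two] at this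
    omega
  have h3 : ((N : ℤ) - 2 ^ d).natAbs ^ 2 = 2 ^ (d + k - 1) := by
    obtain ⟨j, rfl⟩ := Nat.exists_eq_add_of_le' hk1
    rw [hk, hc] at h2
    rw [← Int.natAbs_pow, show ((N : ℤ) - 2 ^ d) ^ 2 = 2 ^ (d + j) by
      push_cast at h2
      rw [pow_succ 2 j] at h2
      rw [pow_add]
      linarith, Int.natAbs_pow]
    rfl
  obtain ⟨m, -, hm⟩ := (Nat.dvd_prime_pow Nat.prime_two).1
    (h3 ▸ dvd_pow_self ((N : ℤ) - 2 ^ d).natAbs two_ne_zero)
  have h4 : m * 2 = d + k - 1 := Nat.pow_right_injective le_rfl (by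
    simp only [pow_mul]; rw [← hm, h3])
  have h5 : N = 2 ^ d + 2 ^ m ∨ N + 2 ^ m = 2 ^ d := by
    have : ((2 ^ d : ℕ) : ℤ) = 2 ^ d := by push_cast; rfl
    omega
  refine ⟨Or.inr ⟨d - m, by omega, by omega, by rwa [show d - (d - m) = m by omega]⟩,
    fun r hr h' => ?_⟩
  have h6 : m = r := by
    have p1 : 0 < 2 ^ r := by positivity
    have p2 : 0 < 2 ^ m := by positivity
    exact Nat.pow_right_injective le_rfl (show 2 ^ m = 2 ^ r by omega)
  have h7 : Nat.card (Subgroup.center G) = 2 := by rw [hk, show k = 1 by omega, pow_one]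
  have h8 : frattini G = Subgroup.center G := Subgroup.eq_of_le_of_card_ge hZ (by omega)
  refine ⟨⟨hG, h8, ?_⟩, h7⟩
  rcases H9.eq_or_eq_of_card_eq_mul (p := 2) bot_le (H3.commutator_le_frattini.trans hZ)
    (by rw [h7, Subgroup.card_bot]) with h9 | h9
  · exact absurd ((commutator_eq_bot_iff_center_eq_top G).1 h9) (hab h1)
  · exact h9

end Cfsg.Agent.S3772
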