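import Cfsg.Statements.S3773
import Cfsg.Agent.H7.QuadMap
import Cfsg.Agent.H7.Maschke
import Cfsg.Agent.H7.PGrp2
import Cfsg.Agent.H3.Critical

set_option autoImplicit false
open Cfsg

namespace Cfsg.Agent.S3773

open scoped commutatorElement
open Subgroup

/-- Let G be a finite 2-group of nilpotency class at most 2 and exponent dividing 4 in which the elements x with x² = 1 form a subgroup N. Then |G| ≤ |N|³, and |G| < |N|³ unless G is special. -/
theorem result {G : Type*} [Group G] [Finite G] (hG : IsPGroup 2 G) (hcl : (⊤ : Subgroup G).lowerCentralSeries 2 = ⊥) (hexp : ∀ x : G, x ^ 4 = 1) (hN : ∀ x y : G, x ^ 2 = 1 → y ^ 2 = 1 → (x * y) ^ 2 = 1) : Nat.card G ≤ Nat.card {x : G // x ^ 2 = 1} ^ 3 ∧ (¬ Cfsg.IsSpecial 2 G → Nat.card G < Nat.card {x : G // x ^ 2 = 1} ^ 3) := by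
  haveI := hG.isNilpotent
  let N : Subgroup G :=
    { carrier := {x | x ^ 2 = 1}
      mul_mem' := fun {a b} => hN a b
      one_mem' := one_pow 2
      inv_mem' := fun {a} (ha : a ^ 2 = 1) => show a⁻¹ ^ 2 = 1 by rw [inv_pow, ha, inv_one] }
  haveI : N.Normal := ⟨fun a (ha : a ^ 2 = 1) g => show (g * a * g⁻¹) ^ 2 = 1 by
    rw [conj_pow, ha, mul_one, mul_inv_cancel]⟩
  change Nat.card G ≤ Nat.card N ^ 3 ∧ (_ → Nat.card G < Nat.card N ^ 3)
  have h1 : commutator G ≤ center G := by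
    rw [← H7.centralizer_top_eq_center, ← commutator_eq_bot_iff_le_centralizer]
    exact hcl
  have hcc : ∀ g x y : G, Commute g ⁅x, y⁆ := fun g x y =>
    H9.commute_of_mem_center (h1 (commutator_mem_commutator trivial trivial)) g
  have hsN : ∀ x : G, x ^ 2 ∈ N := fun x => show (x ^ 2) ^ 2 = 1 by rw [← pow_mul, hexp]
  have hcN : ∀ x y : G, ⁅x, y⁆ ∈ N := fun x y => by
    have := mul_mem (mul_mem (hsN x) (hsN (x⁻¹ * y))) (hsN y⁻¹)
    simpa [sq, mul_assoc, commutatorElement_def] using this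
  have h2 : frattini G ≤ N ⊓ center G := H3.frattini_le_of
    (le_inf (commutator_le.2 fun x _ y _ => hcN x y) h1) fun x => ⟨hsN x, mem_center_iff.2 fun y =>
      (commutatorElement_eq_one_iff_mul_comm.1 (by
        rw [H9.commutator_pow_left (hcc _ _ _)]; exact hcN x y)).symm⟩
  have hs : ∀ x : G, x ^ 2 ∈ frattini G := H3.pow_mem_frattini hG
  have hc : ∀ x y : G, ⁅x, y⁆ ∈ frattini G := fun x y =>
    H3.commutator_le_frattini (commutator_mem_commutator trivial trivial)
  have hcompl : ∀ E : Subgroup G, frattini G ≤ E →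
      ∃ W : Subgroup G, frattini G ≤ W ∧ E ⊓ W = frattini G ∧ E ⊔ W = ⊤ := fun E hE => by
    obtain ⟨W, -, h⟩ := H7.maschke_amb (A := ⊥) Nat.prime_two (by simp) hE le_top bot_le bot_le
      bot_le H3.commutator_le_frattini fun v _ => hs v
    exact ⟨W, h⟩
  have hpos : ∀ K : Subgroup G, 0 < Nat.card K := fun K => Nat.card_pos
  have h3 : Nat.card G ≤ Nat.card N * Nat.card (frattini G) ^ 2 := by
    obtain ⟨W, e1, e2, e3⟩ := hcompl N (h2.trans inf_le_left)
    have e4 := H7.card_le_of_sq_anisotropic hG (H := W) (K := frattini G) (T := ⊥)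
      (h2.trans inf_le_right) (fun m hm => (h2 hm).1) bot_le (fun x _ => hs x)
      (fun x _ y _ => hc x y) e1 (h2.trans inf_le_right)
      fun x hx => ⟨fun h => e2.le ⟨h, hx⟩, fun h => (h2 h).1⟩
    have e5 := H7.card_sup_mul_card_inf W N
    rw [sup_comm, e3, inf_comm, e2, card_top] at e5
    rw [card_bot, one_pow, mul_one] at e4
    refine Nat.le_of_mul_le_mul_right ?_ (hpos (frattini G))
    rw [e5]
    nlinarith [hpos N]
  have h4 := card_le_of_le (h2.trans inf_le_left)
  refine ⟨h3.trans (by rw [pow_succ' _ 2]; gcongr), fun hsp => ?_⟩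
  by_cases h5 : frattini G = N
  swap
  · have := H7.card_lt_of_lt (lt_of_le_of_ne (h2.trans inf_le_left) h5)
    exact h3.trans_lt (by rw [pow_succ' _ 2]; gcongr; exact hpos N)
  have hNZ : N ≤ center G := h5 ▸ h2.trans inf_le_right
  rw [h5] at hc hcompl
  by_cases h6 : N = center G
  · obtain ⟨M, -, e1, e2, e3⟩ := H9.exists_normal_mul_card_eq hG (N := commutator G) (M := N)
      (lt_of_le_of_ne (h5 ▸ H3.commutator_le_frattini) fun h => hsp ⟨hG, h5.trans h6, h.trans h6⟩)
    have e4 : ∀ x y : G, ⁅x, y⁆ ∈ M := fun x y => e1 (commutator_mem_commutator trivial trivial)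
    have hmul : ∀ x y : G, (x * y) ^ 2 = x ^ 2 * y ^ 2 * ⁅y, x⁆ := fun x y => by
      simpa using H9.mul_pow_class_two (hcc x y x) (hcc y y x) 2
    let H : Subgroup G :=
      { carrier := {x | x ^ 2 ∈ M}
        mul_mem' := fun {a b} ha hb => show (a * b) ^ 2 ∈ M from
          hmul a b ▸ mul_mem (mul_mem ha hb) (e4 b a)
        one_mem' := show (1 : G) ^ 2 ∈ M by simp
        inv_mem' := fun {a} ha => show a⁻¹ ^ 2 ∈ M from inv_pow a 2 ▸ inv_mem ha }
    have e5 := H7.card_le_of_sq_anisotropic hG (H := H) (K := N) (T := ⊥) (e2.trans hNZ)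
      (fun m hm => e2 hm) bot_le (fun x hx => hx) (fun x _ y _ => e4 x y)
      (fun x (hx : x ^ 2 = 1) => show x ^ 2 ∈ M from hx ▸ one_mem M) hNZ fun x _ => Iff.rfl
    have e6 : (M.subgroupOf N).index = 2 := by
      have := H7.card_mul_relIndex e2
      rw [e3, mul_comm] at this
      exact Nat.eq_of_mul_eq_mul_right (hpos M) this
    have e7 : H.index ∣ 2 := by
      by_cases h : H = ⊤
      · rw [h, index_top]; exact one_dvd 2
      obtain ⟨a, -, ha⟩ := SetLike.exists_of_lt (lt_top_iff_ne_top.2 h)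
      refine index_dvd_two_iff.2 ⟨a, fun b => or_iff_not_imp_right.2 fun hb => ?_⟩
      show (b * a) ^ 2 ∈ M
      rw [hmul]
      exact mul_mem ((mul_mem_iff_of_index_two e6 (a := ⟨_, hsN b⟩) (b := ⟨_, hsN a⟩)).2
        (iff_of_false hb ha)) (e4 _ _)
    have e8 := Nat.le_of_dvd two_pos e7
    rw [card_bot, one_pow, mul_one, e3] at e5
    rw [← H.card_mul_index, e3]
    have := pow_pos (hpos M) 3
    nlinarith
  · obtain ⟨z, hz, hzN⟩ := SetLike.exists_of_lt (lt_of_le_of_ne hNZ h6)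
    obtain ⟨W, e1, e2, e3⟩ := hcompl (N ⊔ zpowers z) le_sup_left
    have e4 := H9.card_sup_zpowers Nat.prime_two (le_normalizer_of_normal (mem_top z)) hzN (hsN z)
    haveI : (N ⊔ zpowers z).Normal := H9.normal_of_commutator_le (N := N)
      (commutator_le.2 fun x _ y _ => hc x y) le_sup_left
    have e5 := H7.card_sup_mul_card_inf W (N ⊔ zpowers z)
    rw [sup_comm, e3, inf_comm, e2, card_top, e4] at e5
    have ho : orderOf (z ^ 2) = 2 := orderOf_eq_prime (hsN z) hzN
    have e6 := H7.card_le_of_sq_anisotropic hG (H := W) (K := N) (T := zpowers (z ^ 2)) hNZ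
      (fun m hm => hm) (zpowers_le.2 (hsN z)) (fun x _ => hsN x) (fun x _ y _ => hc x y) e1 hNZ
      fun x hx => ⟨fun h => ?_, fun (h : x ^ 2 = 1) => h ▸ one_mem _⟩
    · rw [Nat.card_zpowers, ho] at e6
      have e7 : Nat.card G = 2 * Nat.card W := Nat.eq_of_mul_eq_mul_right (hpos N) (by linarith)
      have := hpos W
      nlinarith
    classical
    rw [mem_zpowers_iff_mem_range_orderOf, ho] at h
    have h' : x ^ 2 = 1 ∨ x ^ 2 = z ^ 2 := by simpa [Finset.range_add_one, or_comm, eq_comm] using h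
    refine h'.elim id fun h' => absurd (e2.le ⟨mem_sup_right (mem_zpowers z), ?_⟩) hzN
    refine (mul_mem_cancel_left hx).1 (e1 (show (x * z) ^ 2 = 1 from ?_))
    rw [(H9.commute_of_mem_center hz x).mul_pow, h', ← pow_add, hexp]

end Cfsg.Agent.S3773
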