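import Cfsg.Statements.S3774
import Cfsg.Agent.H7.PGrp2
import Cfsg.Agent.H10.Act

set_option autoImplicit false
open Cfsg

namespace Cfsg.Agent.S3774



/-- Let G be a nontrivial finite 2-group whose automorphism group permutes the involutions of G transitively. Then every involution of G is central, so that the involutions together with 1 form the subgroup Ω₁(Z(G)), and if this subgroup has order q then |G| is a power of q. -/
theorem result {G : Type*} [Group G] [Finite G] [Nontrivial G] (hG : IsPGroup 2 G) (htrans : ∀ x y : G, x ≠ 1 → x ^ 2 = 1 → y ≠ 1 → y ^ 2 = 1 → ∃ a : MulAut G, a x = y) : (∀ x : G, x ^ 2 = 1 → x ∈ Subgroup.center G) ∧ ∃ m : ℕ, Nat.card G = Nat.card {z : G // z ^ 2 = 1} ^ m := by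
  classical
  obtain ⟨z, hz⟩ : ∃ z : G, z ∈ Subgroup.center G ∧ z ≠ 1 ∧ z ^ 2 = 1 := by
    obtain ⟨⟨z, hz⟩, h1⟩ := Subgroup.ne_bot_iff_exists_ne_one.1
      (H10.ZO_ne_bot (T := (⊤ : Subgroup G)) (hG.to_subgroup _) top_ne_bot)
    obtain ⟨-, h2, h3⟩ := H10.mem_ZO.1 hz
    exact ⟨z, H7.centralizer_top_eq_center (G := G) ▸ h2, fun e => h1 (Subtype.ext e), h3⟩
  have hcen : ∀ x : G, x ^ 2 = 1 → x ∈ Subgroup.center G := fun x hx => by
    by_cases h1 : x = 1
    · rw [h1]; exact one_mem _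
    obtain ⟨a, rfl⟩ := htrans z x hz.2.1 hz.2.2 h1 hx
    exact (Subgroup.characteristic_iff_map_le.1 inferInstance a) ⟨z, hz.1, rfl⟩
  refine ⟨hcen, ?_⟩
  haveI := Fintype.ofFinite G
  obtain ⟨m, hm⟩ := IsPGroup.iff_card.1 hG
  obtain ⟨n, hn⟩ := IsPGroup.iff_card.1 (H10.isPGroup_ZO (p := 2) (⊤ : Subgroup G))
  have hq : Nat.card {z : G // z ^ 2 = 1} = 2 ^ n := by
    rw [← hn]
    exact Nat.card_congr (Equiv.subtypeEquivRight fun x => ⟨fun h => H10.mem_ZO.2
      ⟨trivial, H7.centralizer_top_eq_center (G := G) ▸ hcen x h, h⟩, fun h => (H10.mem_ZO.1 h).2.2⟩)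
  let f : G → G := fun x => x ^ (orderOf x / 2)
  let s : Finset G := Finset.univ.erase 1
  let t : Finset G := (Finset.univ.filter fun x : G => x ^ 2 = 1).erase 1
  have h1 : Set.MapsTo f s t := fun x hx => by
    have hx1 : x ≠ 1 := by simpa [s] using hx
    obtain ⟨k, hk⟩ := IsPGroup.iff_orderOf.1 hG x
    rcases k with _ | k
    · exact absurd (orderOf_eq_one_iff.1 hk) hx1
    have h2 : orderOf x / 2 = 2 ^ k := by rw [hk, pow_succ, Nat.mul_div_cancel _ two_pos]
    simp only [t, f, Finset.coe_erase, Set.mem_diff, Finset.coe_filter, Finset.mem_univ, true_and,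
      Set.mem_setOf_eq, Set.mem_singleton_iff, h2]
    refine ⟨by rw [← pow_mul, ← pow_succ, ← hk, pow_orderOf_eq_one], fun h => ?_⟩
    have := Nat.le_of_dvd (by positivity) (orderOf_dvd_of_pow_eq_one h)
    rw [hk, Nat.pow_le_pow_iff_right one_lt_two] at this
    omega
  have h2 : ∀ y ∈ t, (s.filter fun x => f x = y).card = (s.filter fun x => f x = z).card := by
    intro y hy
    have hy' : y ≠ 1 ∧ y ^ 2 = 1 := by simpa [t] using hy
    obtain ⟨a, rfl⟩ := htrans z y hz.2.1 hz.2.2 hy'.1 hy'.2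
    refine (Finset.card_equiv a.toEquiv fun x => ?_).symm
    simp [s, f, ← map_pow]
  have h3 := Finset.card_eq_sum_card_fiberwise h1
  rw [Finset.sum_congr rfl h2, Finset.sum_const, smul_eq_mul] at h3
  have h4 : s.card = 2 ^ m - 1 := by
    rw [Finset.card_erase_of_mem (Finset.mem_univ _), Finset.card_univ, ← Nat.card_eq_fintype_card, hm]
  have h5 : t.card = 2 ^ n - 1 := by
    rw [Finset.card_erase_of_mem (by simp), ← Fintype.card_subtype, ← Nat.card_eq_fintype_card, hq]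
  have h6 := Nat.pow_sub_one_mod_pow_sub_one 2 n m
  rw [← h4, h3, h5, Nat.mul_mod_right] at h6
  have h7 : m % n = 0 := by
    have : 2 ^ (m % n) ≤ 2 ^ 0 := by omega
    rwa [Nat.pow_le_pow_iff_right one_lt_two, Nat.le_zero] at this
  obtain ⟨k, hk⟩ := Nat.dvd_of_mod_eq_zero h7
  exact ⟨k, by rw [hq, hm, hk, pow_mul]⟩

end Cfsg.Agent.S3774
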