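import Cfsg.Statements.S3775
import Cfsg.Agent.H7.Homocyc

set_option autoImplicit false
open Cfsg

namespace Cfsg.Agent.S3775



/-- Let A be a finite abelian p-group and X a group of automorphisms of A of order prime to p. Call a subgroup of A invariant when every element of X maps it onto itself. Then the following are equivalent: (i) A is not the direct product of two nontrivial invariant subgroups; (ii) every invariant subgroup of A is one of the subgroups Ω_i(A) = {a : a^(p^i) = 1}; (iii) the subgroup Ω₁(A) of elements of order dividing p has no invariant subgroups other than 1 and itself. -/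
theorem result {A : Type*} [CommGroup A] [Finite A] {p : ℕ} [Fact p.Prime] (hA : IsPGroup p A) (X : Subgroup (MulAut A)) (hX : (Nat.card X).Coprime p) : ((¬ ∃ B C : Subgroup A, B ≠ ⊥ ∧ C ≠ ⊥ ∧ (∀ x ∈ X, B.map x.toMonoidHom = B) ∧ (∀ x ∈ X, C.map x.toMonoidHom = C) ∧ B ⊓ C = ⊥ ∧ B ⊔ C = ⊤) ↔ (∀ B : Subgroup A, (∀ x ∈ X, B.map x.toMonoidHom = B) → ∃ i : ℕ, ∀ a : A, a ∈ B ↔ a ^ p ^ i = 1)) ∧ ((∀ B : Subgroup A, (∀ x ∈ X, B.map x.toMonoidHom = B) → ∃ i : ℕ, ∀ a : A, a ∈ B ↔ a ^ p ^ i = 1) ↔ (∀ B : Subgroup A, (∀ x ∈ X, B.map x.toMonoidHom = B) → (∀ b ∈ B, b ^ p = 1) → B = ⊥ ∨ ∀ a : A, a ∈ B ↔ a ^ p = 1)) := by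
  have hp : p.Prime := Fact.out
  have inv : ∀ {B : Subgroup A}, (∀ x ∈ X, B.map x.toMonoidHom = B) ↔
      ∀ x, ∀ v ∈ B, X.subtype x v ∈ B := fun {B} =>
    ⟨fun h x v hv => (h x x.2).le ⟨v, hv, rfl⟩, fun h x hx => H7.map_eq_of_inv h ⟨x, hx⟩⟩
  have h21 : (∀ B : Subgroup A, (∀ x ∈ X, B.map x.toMonoidHom = B) →
      ∃ i : ℕ, ∀ a : A, a ∈ B ↔ a ^ p ^ i = 1) → ∀ B C : Subgroup A,
      (∀ x ∈ X, B.map x.toMonoidHom = B) → (∀ x ∈ X, C.map x.toMonoidHom = C) → B ≤ C ∨ C ≤ B := by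
    intro h B C hB hC
    obtain ⟨i, hi⟩ := h B hB
    obtain ⟨j, hj⟩ := h C hC
    refine (le_total i j).imp (fun hij a ha => ?_) (fun hij a ha => ?_)
    · obtain ⟨m, rfl⟩ := Nat.exists_eq_add_of_le hij
      rw [hj, pow_add, pow_mul, (hi a).1 ha, one_pow]
    · obtain ⟨m, rfl⟩ := Nat.exists_eq_add_of_le hij
      rw [hi, pow_add, pow_mul, (hj a).1 ha, one_pow]
  have h32 : (∀ B : Subgroup A, (∀ x ∈ X, B.map x.toMonoidHom = B) → (∀ b ∈ B, b ^ p = 1) →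
      B = ⊥ ∨ ∀ a : A, a ∈ B ↔ a ^ p = 1) → ∀ B : Subgroup A, (∀ x ∈ X, B.map x.toMonoidHom = B) →
      ∃ i : ℕ, ∀ a : A, a ∈ B ↔ a ^ p ^ i = 1 := by
    intro h B hB
    obtain ⟨i, rfl⟩ := H7.uniserial_of_irred hA (φ := X.subtype) (C := ⊥) H7.inv_bot
      (fun U h1 _ h2 => (h U (inv.2 h1) fun b hb => h2 hb).imp id fun h3 => Subgroup.ext h3)
      (inv.1 hB) bot_le
    exact ⟨i, fun a => Iff.rfl⟩
  refine ⟨⟨fun h => h32 fun U hU hUp => ?_, ?_⟩, fun h B hB hBp => ?_, h32⟩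
  · rcases subsingleton_or_nontrivial A with hs | hs
    · exact Or.inl (Subgroup.eq_bot_of_subsingleton U)
    obtain ⟨B, C, n, hB, hC, h1, h2, h3, h4, h5, h6⟩ := H7.exists_homocyclic_factor hA X.subtype hX
    have h7 : C = ⊥ := by_contra fun h7 => h ⟨B, C, fun e => h4 (by rw [e, Subgroup.map_bot]), h7,
      inv.2 hB, inv.2 hC, h1, h2⟩
    rw [h7, sup_bot_eq] at h2
    subst h2
    refine (h6 U (inv.1 hU) fun u hu => h5 u trivial (hUp u hu)).imp id fun h8 a =>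
      ⟨hUp a, fun ha => h8.ge (h5 a trivial ha)⟩
  · rintro h ⟨B, C, h1, h2, hB, hC, h3, -⟩
    rcases h21 h B C hB hC with h4 | h4
    · exact h1 (by rw [← h3, inf_eq_left.2 h4])
    · exact h2 (by rw [← h3, inf_eq_right.2 h4])
  · obtain ⟨i, hi⟩ := h B hB
    rcases i with _ | i
    · exact Or.inl (eq_bot_iff.2 fun a ha => by simpa using (hi a).1 ha)
    · exact Or.inr fun a => ⟨hBp a, fun ha => by rw [hi, pow_succ', pow_mul, ha, one_pow]⟩

end Cfsg.Agent.S3775
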