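import Cfsg.Statements.S3778
import Cfsg.Agent.H9.Collect
import Cfsg.Agent.H7.PGrp2

set_option autoImplicit false
open Cfsg

namespace Cfsg.Agent.S3778



/-- If G is a finite p-group in which every conjugacy class has at most p^b elements (every element has centralizer of index at most p^b), then G is abelian when b = 0, and when b ≥ 1 its nilpotency class c satisfies (c − 1)(p − 1) < bp, that is c < bp/(p − 1) + 1, and hence c ≤ 2b. -/
theorem result {G : Type*} [Group G] [Finite G] {p : ℕ} [Fact p.Prime] (hG : IsPGroup p G) (b : ℕ) (hb : ∀ x : G, (Subgroup.centralizer ({x} : Set G)).index ≤ p ^ b) : ∃ c : ℕ, (⊤ : Subgroup G).lowerCentralSeries c = ⊥ ∧ (b ≠ 0 → (c - 1) * (p - 1) < b * p ∧ c ≤ 2 * b) ∧ (b = 0 → c ≤ 1) := by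
  open scoped commutatorElement in
  classical
  have hp : 1 < p := (Fact.out : p.Prime).one_lt
  haveI := hG.isNilpotent
  letI := Fintype.ofFinite G
  set c := Group.nilpotencyClass G with hc
  let L : ℕ → Subgroup G := (⊤ : Subgroup G).lowerCentralSeries
  let D : ℕ → Subgroup G := fun i => H9.centMod (L (i + 2)) (L i)
  let E : G → ℕ → Subgroup G := fun x j => H9.centMod (L (j + 1)) {x}
  have hstep : ∀ x j, p ^ ((Finset.range j).filter fun i => x ∉ D i).card * Nat.card (E x j) ≤
      Nat.card G := by
    intro x j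
    induction j with
    | zero => simpa using Subgroup.card_le_card_group (E x 0)
    | succ j ih =>
      have h1 : E x (j + 1) ≤ E x j := fun g hg => H9.mem_centMod.2 fun s hs =>
        Subgroup.lowerCentralSeries_antitone ⊤ (Nat.le_succ _) (H9.mem_centMod.1 hg s hs)
      rw [Finset.range_add_one, Finset.filter_insert]
      split_ifs with hx
      swap
      · rw [Finset.card_insert_of_notMem (by simp), pow_succ, mul_assoc]
        refine le_trans (Nat.mul_le_mul_left _ (H7.mul_card_le_of_lt (hG.to_subgroup _)
          (lt_of_le_of_ne h1 fun e => hx ?_))) ih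
        refine H9.mem_centMod.2 fun s hs => ?_
        have h2 : s ∈ E x j := H9.mem_centMod.2 fun t ht => by
          rw [Set.mem_singleton_iff.1 ht]
          exact Subgroup.commutator_mem_commutator hs (Subgroup.mem_top x)
        rw [← e] at h2
        rw [← commutatorElement_inv]
        exact inv_mem (H9.mem_centMod.1 h2 x rfl)
      · exact le_trans (Nat.mul_le_mul_left _ (Subgroup.card_le_of_le h1)) ih
  have hL : L c = ⊥ := Subgroup.lowerCentralSeries_nilpotencyClass
  have hcnt : ∀ x, ((Finset.range (c - 1)).filter fun i => x ∉ D i).card ≤ b := by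
    intro x
    have h1 := hstep x (c - 1)
    have h2 : Subgroup.centralizer {x} ≤ E x (c - 1) := fun g hg => H9.mem_centMod.2 fun s hs => by
      rw [Set.mem_singleton_iff.1 hs, commutatorElement_eq_one_iff_mul_comm.2
        (Subgroup.mem_centralizer_singleton_iff.1 hg)]
      exact one_mem _
    have h3 := (Subgroup.centralizer {x}).card_mul_index
    have h4 := Subgroup.card_le_of_le h2
    by_cases h0 : c = 0
    · simp [h0]
    have h5 : E x (c - 1) ≤ Subgroup.centralizer {x} := fun g hg => by
      have := H9.mem_centMod.1 hg x rfl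
      rw [show c - 1 + 1 = c by omega, hL, Subgroup.mem_bot] at this
      exact Subgroup.mem_centralizer_singleton_iff.2 (commutatorElement_eq_one_iff_mul_comm.1 this)
    rw [le_antisymm h5 h2, ← h3, mul_comm] at h1
    exact (Nat.pow_le_pow_iff_right hp).1 ((le_of_mul_le_mul_left h1 Nat.card_pos).trans (hb x))
  have hD : ∀ i ∈ Finset.range (c - 1), (p - 1) * Nat.card G ≤
      p * (Finset.univ.filter fun x => x ∉ D i).card := by
    intro i hi
    have h1 : D i < ⊤ := by
      refine lt_top_iff_ne_top.2 fun e => ?_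
      have h2 : ⁅(⊤ : Subgroup G), L i⁆ ≤ L (i + 2) := H9.commutator_le_iff_le_centMod.2 e.ge
      rw [Subgroup.commutator_comm] at h2
      have h3 : L (i + 1) ≠ ⊥ := fun h => by
        have := Subgroup.lowerCentralSeries_eq_bot_iff_nilpotencyClass_le.1 h
        have := Finset.mem_range.1 hi
        omega
      exact (H9.commutator_lt (H := ⊤) Subgroup.le_normalizer_of_normal h3).not_ge h2
    have h2 := H7.mul_card_le_of_lt (hG.to_subgroup ⊤) h1
    have h3 := Finset.card_filter_add_card_filter_not (s := Finset.univ) (fun x => x ∈ D i)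
    rw [← Fintype.card_subtype, ← Nat.card_eq_fintype_card, Finset.card_univ,
      ← Nat.card_eq_fintype_card] at h3
    rw [Subgroup.card_top] at h2
    obtain ⟨q, rfl⟩ : ∃ q, p = q + 1 := ⟨p - 1, by omega⟩
    simp only [Nat.add_sub_cancel]
    nlinarith
  have h1 := Finset.sum_le_sum hD
  rw [Finset.sum_const, Finset.card_range, smul_eq_mul, ← Finset.mul_sum] at h1
  simp only [Finset.card_filter] at h1
  rw [Finset.sum_comm] at h1
  simp only [← Finset.card_filter] at h1
  have h2 : ∑ x : G, ((Finset.range (c - 1)).filter fun i => x ∉ D i).card + b ≤ b * Nat.card G := by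
    rw [← Finset.add_sum_erase _ _ (Finset.mem_univ 1)]
    have h3 : ((Finset.range (c - 1)).filter fun i => (1 : G) ∉ D i).card = 0 := by simp
    have h4 := Finset.sum_le_card_nsmul (Finset.univ.erase (1 : G)) _ b fun x _ => hcnt x
    rw [Finset.card_erase_of_mem (Finset.mem_univ _), Finset.card_univ, ← Nat.card_eq_fintype_card,
      smul_eq_mul] at h4
    have h5 : 0 < Nat.card G := Nat.card_pos
    obtain ⟨m, hm⟩ : ∃ m, Nat.card G = m + 1 := ⟨Nat.card G - 1, by omega⟩
    rw [h3, hm]
    rw [hm, Nat.add_sub_cancel] at h4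
    nlinarith
  have h5 : 0 < Nat.card G := Nat.card_pos
  refine ⟨c, hL, fun hb0 => ?_, fun hb0 => ?_⟩
  · have h3 : (c - 1) * (p - 1) < b * p := by
      refine lt_of_mul_lt_mul_right (a := Nat.card G) ?_ (Nat.zero_le _)
      have h6 : 0 < p * b := by positivity
      nlinarith [Nat.mul_le_mul_left p h2]
    refine ⟨h3, ?_⟩
    by_contra h4
    have h6 : 2 * b ≤ c - 1 := by omega
    obtain ⟨q, rfl⟩ : ∃ q, p = q + 2 := ⟨p - 2, by omega⟩
    rw [show q + 2 - 1 = q + 1 by omega] at h3
    nlinarith
  · subst hb0
    have h6 : (c - 1) * ((p - 1) * Nat.card G) = 0 := by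
      have : ∑ x : G, ((Finset.range (c - 1)).filter fun i => x ∉ D i).card = 0 := by omega
      rw [this] at h1
      omega
    have h7 : 0 < (p - 1) * Nat.card G := Nat.mul_pos (by omega) h5
    rcases Nat.mul_eq_zero.1 h6 with h | h <;> omega

end Cfsg.Agent.S3778
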