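import Cfsg.Statements.S3780
import Cfsg.Agent.H3.Critical
import Cfsg.Agent.H1.Frattini

set_option autoImplicit false
open Cfsg

namespace Cfsg.Agent.S3780

theorem card_ker_pow_le {V : Type*} [Group V] [Finite V] (f : Monoid.End V) (k : ℕ) :
    Nat.card (MonoidHom.ker (f ^ k : Monoid.End V)) ≤ Nat.card (MonoidHom.ker f) ^ k := by
  induction k with
  | zero =>
    rw [pow_zero, pow_zero]
    exact (Subgroup.card_eq_one.2 ((MonoidHom.ker_eq_bot_iff _).2 fun x y h => h)).le
  | succ k ih =>
    rw [← H1.card_map_mul_card_inf_ker _ f, pow_succ (Nat.card _)]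
    refine Nat.mul_le_mul ((Subgroup.card_le_of_le ?_).trans ih)
      (Subgroup.card_le_of_le inf_le_right)
    rintro _ ⟨x, hx, rfl⟩
    rw [pow_succ] at hx
    exact hx

/-- Let V be a finite abelian p-group and α an automorphism of V of order p whose fixed-point subgroup has order p^n. Then V can be generated by pn elements: some subset of V with at most pn elements generates V. -/
theorem result {V : Type*} [CommGroup V] [Finite V] {p : ℕ} [Fact p.Prime] (hV : IsPGroup p V) (α : MulAut V) (hα : orderOf α = p) (n : ℕ) (hfix : Nat.card {v : V // α v = v} = p ^ n) : ∃ S : Finset V, S.card ≤ p * n ∧ Subgroup.closure (S : Set V) = ⊤ := by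
  classical
  have hp : p.Prime := Fact.out
  obtain ⟨d, hd⟩ := hV.index (frattini V)
  haveI := Fintype.ofFinite V
  obtain ⟨T, -, h1, h2⟩ := H1.burnside_basis hV hd Finset.univ (by simp)
  refine ⟨T, ?_, h2⟩
  rw [h1, ← Nat.pow_le_pow_iff_right hp.one_lt, ← hd]
  let A : AddMonoid.End (Additive V) := MonoidHom.toAdditive α.toMonoidHom
  let β : Monoid.End V := MonoidHom.toAdditive.symm (A + -1 : AddMonoid.End (Additive V))
  have hA : ∀ (k : ℕ) (v : V), (A ^ k) (Additive.ofMul v) = Additive.ofMul ((α ^ k) v) := by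
    intro k
    induction k with
    | zero => intro v; rfl
    | succ k ih => intro v; rw [pow_succ, pow_succ]; exact ih _
  have hβ : ∀ (k : ℕ) (v : V), ((A + -1) ^ k) (Additive.ofMul v) = Additive.ofMul ((β ^ k) v) := by
    intro k
    induction k with
    | zero => intro v; rfl
    | succ k ih => intro v; rw [pow_succ, pow_succ]; exact ih _
  have h3 : (powMonoidHom p : V →* V).range ≤ frattini V := by
    rintro _ ⟨x, rfl⟩
    exact H3.pow_mem_frattini hV x
  have h4 : (powMonoidHom p : V →* V).ker ≤ MonoidHom.ker (β ^ p : Monoid.End V) := by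
    intro v hv
    have hv' : p • Additive.ofMul v = 0 := hv
    obtain ⟨r, hr⟩ := (Commute.neg_one_right A).exists_add_pow_prime_eq hp
    have h5 : ((p : AddMonoid.End (Additive V)) * A * -1 * r) (Additive.ofMul v) = 0 := by
      rw [mul_assoc, mul_assoc, ← nsmul_eq_mul]
      show p • (A * (-1 * r)) (Additive.ofMul v) = 0
      rw [← map_nsmul, hv', map_zero]
    have h6 : (A ^ p) (Additive.ofMul v) = Additive.ofMul v := by
      rw [hA, ← hα, pow_orderOf_eq_one]; rfl
    have h7 := hβ p v
    rw [hr] at h7
    change (A ^ p) (Additive.ofMul v) + ((-1 : AddMonoid.End (Additive V)) ^ p) (Additive.ofMul v)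
      + ((p : AddMonoid.End (Additive V)) * A * -1 * r) (Additive.ofMul v) = _ at h7
    rw [h5, h6, add_zero] at h7
    show Additive.ofMul ((β ^ p) v) = 0
    rw [← h7]
    rcases hp.eq_two_or_odd' with h | h
    · have e : (-1 : AddMonoid.End (Additive V)) ^ p = 1 := by rw [h]; exact neg_one_sq (R := AddMonoid.End (Additive V))
      rw [e, ← hv', h, two_nsmul]; rfl
    · have e : (-1 : AddMonoid.End (Additive V)) ^ p = -1 := h.neg_one_pow (α := AddMonoid.End (Additive V))
      rw [e]; exact add_neg_cancel _
  have h8 : Nat.card (MonoidHom.ker β) = p ^ n := by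
    rw [← hfix]
    exact Nat.card_congr (Equiv.subtypeEquivRight fun v => mul_inv_eq_one)
  calc (frattini V).index ≤ (powMonoidHom p : V →* V).range.index :=
        Nat.le_of_dvd (Nat.pos_of_ne_zero Subgroup.FiniteIndex.index_ne_zero) (Subgroup.index_dvd_of_le h3)
    _ = Nat.card (powMonoidHom p : V →* V).ker := Subgroup.index_range
    _ ≤ _ := Subgroup.card_le_of_le h4
    _ ≤ _ := card_ker_pow_le β p
    _ = _ := by rw [h8, ← pow_mul, mul_comm]

end Cfsg.Agent.S3780
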