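import Cfsg.Statements.S3782
import Cfsg.Agent.H9.Krek4

set_option autoImplicit false
open Cfsg

namespace Cfsg.Agent.S3782

/-- Alperin's Theorem: for each prime p and each n ≥ 0 there is an integer l such that every finite solvable group admitting an automorphism of order p with exactly p^n fixed points has derived length at most l. -/
theorem result (p : ℕ) (hp : p.Prime) (n : ℕ) : ∃ l : ℕ, ∀ (G : Type) [Group G] [Finite G], Group.IsSolvable G → ∀ α : MulAut G, orderOf α = p → Nat.card {g : G // α g = g} = p ^ n → derivedSeries G l = ⊥ := by
  exact ⟨_, fun G _ _ hs α hα hc => H9.Krek.alperin hp α (hα ▸ pow_orderOf_eq_one α) hc⟩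

end Cfsg.Agent.S3782
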