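import Cfsg.Statements.S3783
import Cfsg.Agent.H9.HH4

set_option autoImplicit false
open Cfsg

namespace Cfsg.Agent.S3783



/-- Let G be a finite p-soluble group in which, for every prime q ≠ p, the Sylow q-subgroups are abelian. If the Sylow p-subgroups of G have exponent dividing p^n, then G has p-length at most n. -/
theorem result {G : Type*} [Group G] [Finite G] {p : ℕ} [Fact p.Prime] (hG : Cfsg.IsPSolvable p G) (hab : ∀ (q : ℕ) [Fact q.Prime], q ≠ p → ∀ Q : Sylow q G, IsMulCommutative (Q : Subgroup G)) (n : ℕ) (hexp : ∀ (P : Sylow p G), ∀ x ∈ (P : Subgroup G), x ^ p ^ n = 1) : Cfsg.PLengthLE p n G := by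
  refine H9.pLengthLE_of_pExp n G hG (fun n₀ q m h1 hq hm h => ?_) (H9.pExp_of_sylow hexp)
  haveI := Fact.mk hq
  refine H9.abQ_of_sylow (hab q ?_)
  rintro rfl
  have hp := hq.one_lt
  have h2 : q ∣ q ^ n₀ := dvd_pow_self q (by omega)
  have h3 : q ∣ q ^ m := dvd_pow_self q (by omega)
  have h4 : 1 ≤ q ^ n₀ := Nat.one_le_pow _ _ (by omega)
  have : q ∣ 1 := by
    have : q ^ n₀ = q ^ m + 1 := by omega
    rw [this] at h2
    exact (Nat.dvd_add_right h3).1 h2
  exact absurd (Nat.le_of_dvd one_pos this) (by omega)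

end Cfsg.Agent.S3783
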