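import Cfsg.Statements.S3785
import Cfsg.Agent.H7.Chief
import Cfsg.Agent.H3.Critical
import Cfsg.Agent.H8.Elt
import Cfsg.Agent.H10.Misc

set_option autoImplicit false
open Cfsg

namespace Cfsg.Agent.S3785

open Subgroup in
theorem le_fitting_of_resOf {G : Type*} [Group G] [Finite G] {D : Subgroup G} [D.Normal]
    (hC : centralizer (fittingSubgroup G : Set G) ≤ fittingSubgroup G)
    (h : ∀ p : ℕ, p.Prime → H10.resOf p D ≤ centralizer (pCore p G : Set G)) :
    D ≤ fittingSubgroup G := by
  have key : ∀ p : ℕ, p.Prime → pElementClosure p D ≤ fittingSubgroup G := by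
    intro p hp
    haveI := Fact.mk hp
    set E := pElementClosure p D with hE
    haveI : E.Normal := H5.normal_iff_top_le_normalizer.2
      (le_normalizer_of_normal.trans (H10.NN_le_NN_pElementClosure D))
    have h1 : ∀ q : ℕ, q.Prime → q ≠ p → E ≤ centralizer (pCore q G : Set G) := fun q hq hqp =>
      (H10.pElementClosure_le_iff.2 fun x hx ⟨k, hk⟩ => H10.mem_resOf hx
        (hk ▸ ((Nat.coprime_primes hp hq).2 hqp.symm).pow_left k)).trans (h q hq)
    have h2 : H10.resOf p E ≤ fittingSubgroup G := by
      refine le_trans ?_ hC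
      rw [le_centralizer_iff, H1.fitting_eq_iSup_pCore]
      refine iSup_le fun q => le_centralizer_iff.1 ?_
      by_cases hq : (q : ℕ) = p
      · rw [hq]; exact (H10.resOf_mono (H10.pElementClosure_le D)).trans (h p hp)
      · exact (H10.resOf_le E).trans (h1 q q.2 hq)
    have h3 : fittingSubgroup G ≤ centralizer (E : Set G) ⊔ pCore p G := by
      rw [H1.fitting_eq_iSup_pCore]
      refine iSup_le fun q => ?_
      by_cases hq : (q : ℕ) = p
      · rw [hq]; exact le_sup_right
      · exact (le_centralizer_iff.1 (h1 q q.2 hq)).trans le_sup_left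
    have h4 : H10.resOf p E ≤ centralizer (E : Set G) := by
      rw [← H10.resOf_resOf]
      exact (H10.resOf_mono (h2.trans h3)).trans
        (H10.resOf_sup_le H10.isPGroup_pCore' le_normalizer_of_normal)
    haveI := H10.pResidual_normal' (p := p) (G := E)
    haveI := (H10.isPGroup_quotient_pResidual (p := p) (G := E)).isNilpotent
    refine H1.le_fitting (Subgroup.isNilpotent_of_ker_le_center (QuotientGroup.mk' (pResidual p E)) ?_)
    rw [QuotientGroup.ker_mk', ← H10.resOf_subgroupOf]
    intro x hx
    exact mem_center_iff.2 fun y => Subtype.ext (h4 hx y y.2)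
  have : (fittingSubgroup G).subgroupOf D = ⊤ := by
    refine H8.eq_top_of_forall_sylow fun q hq => ?_
    haveI := Fact.mk hq
    obtain ⟨P⟩ := (inferInstance : Nonempty (Sylow q D))
    refine ⟨P, map_le_iff_le_comap.1 (le_trans ?_ (key q hq))⟩
    exact H10.le_pElementClosure (P.isPGroup'.map _) (map_subtype_le _)
  exact subgroupOf_eq_top.1 this

/-- Let G be a finite solvable group whose Fitting subgroup F(G) has odd order. If an element g of G commutes with every element of prime order of F(G), then g ∈ F(G). -/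
theorem result {G : Type*} [Group G] [Finite G] (hG : Group.IsSolvable G) (hodd : Odd (Nat.card (Cfsg.fittingSubgroup G))) (g : G) (hg : ∀ x ∈ Cfsg.fittingSubgroup G, (orderOf x).Prime → g * x = x * g) : g ∈ Cfsg.fittingSubgroup G := by
  let S : Set G := {x | x ∈ fittingSubgroup G ∧ (orderOf x).Prime}
  haveI : (Subgroup.centralizer S).Normal := ⟨fun x hx a => Subgroup.mem_centralizer_iff.2
    fun s hs => by
      have := Subgroup.mem_centralizer_iff.1 hx (a⁻¹ * s * a⁻¹⁻¹) ⟨H1.fitting_normal.conj_mem _ hs.1 _, by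
        rw [show orderOf (a⁻¹ * s * a⁻¹⁻¹) = orderOf s from (MulAut.conj a⁻¹).orderOf_eq s]
        exact hs.2⟩
      calc s * (a * x * a⁻¹) = a * ((a⁻¹ * s * a⁻¹⁻¹) * x) * a⁻¹ := by group
        _ = _ := by rw [this]; group⟩
  refine le_fitting_of_resOf (D := Subgroup.centralizer S) ?_ (fun p hp => ?_)
    (Subgroup.mem_centralizer_iff.2 fun s hs => (hg s hs.1 hs.2).symm)
  · have := H5.inf_centralizer_fitOf_le_of_solvable (K := (⊤ : Subgroup G)) inferInstance
    rwa [H5.fitOf_top, top_inf_eq] at this
  haveI := Fact.mk hp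
  by_cases h2 : p = 2
  · have : pCore p G = ⊥ := by
      obtain ⟨k, hk⟩ := IsPGroup.iff_card.1 (H10.isPGroup_pCore' (p := p) (G := G))
      have h1 := Subgroup.card_dvd_of_le (H1.pCore_le_fitting (G := G) p)
      rw [hk, h2] at h1
      rcases k with _ | k
      · exact Subgroup.eq_bot_of_card_eq _ hk
      · exact absurd (hodd.of_dvd_nat ((dvd_pow_self 2 k.succ_ne_zero).trans h1)) (by decide)
    rw [this, Subgroup.le_centralizer_iff]
    exact bot_le
  refine H10.resOf_le_iff.2 fun x hx hc => H3.mem_centralizer_of_centralizes_omega_odd h2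
    H10.isPGroup_pCore' (Subgroup.le_normalizer_of_normal (Subgroup.mem_top x)) hc fun y hy hyp => ?_
  by_cases h1 : y = 1
  · simp [h1]
  exact Subgroup.mem_centralizer_iff.1 hx y ⟨H1.pCore_le_fitting p hy, by
    rw [orderOf_eq_prime hyp h1]; exact hp⟩

end Cfsg.Agent.S3785
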