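import Cfsg.Statements.S3787
import Cfsg.Agent.H7.HHX
import Cfsg.Agent.H3.FQd
import Cfsg.Agent.H7.PGrp

set_option autoImplicit false
open Cfsg

namespace Cfsg.Agent.S3787

open Subgroup in
theorem chain {V : Type*} [CommGroup V] [Finite V] {p : ℕ} [hp : Fact p.Prime]
    (hV : ∀ v : V, v ^ p = 1) (D : V →* V) (n : ℕ) : ∀ v : V, D^[n] v ≠ 1 → D^[n + 1] v = 1 →
    ∃ B : Subgroup V, Nat.card B = p ^ (n + 1) ∧ Nat.card (B.map D) = p ^ n ∧ B.map D ≤ B ∧
      v ∈ B ∧ ∀ b ∈ B, D^[n + 1] b = 1 := by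
  induction n with
  | zero =>
    intro v h1 h2
    refine ⟨zpowers v, by rw [Nat.card_zpowers, orderOf_eq_prime (hV v) h1, zero_add, pow_one],
      ?_, ?_, mem_zpowers v, ?_⟩
    · rw [MonoidHom.map_zpowers, show D v = 1 from h2]; simp
    · rw [MonoidHom.map_zpowers, show D v = 1 from h2]; simp
    · rintro _ ⟨k, rfl⟩
      simp [show D v = 1 from h2]
  | succ n ih =>
    intro v h1 h2
    obtain ⟨B, a1, a2, a3, a4, a5⟩ := ih (D v) h1 h2
    have hv1 : v ≠ 1 := fun h => h1 (by rw [h, iterate_map_one])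
    have hc : Nat.card (zpowers v) = p := by
      rw [Nat.card_zpowers, orderOf_eq_prime (hV v) hv1]
    have hd : zpowers v ⊓ B = ⊥ :=
      (H7.eq_or_eq_bot_of_card_prime hc inf_le_left).resolve_right fun h =>
        h1 (a5 v (inf_eq_left.1 h (mem_zpowers v)))
    have hDv : D v ≠ 1 := fun h => h1 (by rw [Function.iterate_succ_apply, h, iterate_map_one])
    have hc' : Nat.card (zpowers (D v)) = p := by
      rw [Nat.card_zpowers, orderOf_eq_prime (hV _) hDv]
    have hd' : zpowers (D v) ⊓ B.map D = ⊥ :=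
      (H7.eq_or_eq_bot_of_card_prime hc' inf_le_left).resolve_right fun h => by
        obtain ⟨b, hb, e⟩ := inf_eq_left.1 h (mem_zpowers (D v))
        refine h1 ?_
        rw [Function.iterate_succ_apply, ← e]
        exact a5 b hb
    refine ⟨zpowers v ⊔ B, ?_, ?_, ?_, le_sup_left (b := B) (mem_zpowers v), fun b hb => ?_⟩
    · rw [H1.card_sup_of_disjoint le_normalizer_of_normal hd, hc, a1, ← pow_succ']
    · rw [Subgroup.map_sup, MonoidHom.map_zpowers,
        H1.card_sup_of_disjoint le_normalizer_of_normal hd', hc', a2, ← pow_succ']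
    · rw [Subgroup.map_sup, MonoidHom.map_zpowers]
      exact (sup_le (zpowers_le_of_mem a4) a3).trans le_sup_right
    · obtain ⟨_, ⟨k, rfl⟩, c, hc, rfl⟩ := mem_sup.1 hb
      rw [iterate_map_mul, iterate_map_zpow, h2, Function.iterate_succ_apply', a5 c hc]
      simp

theorem nilp {V : Type*} [CommGroup V] {p : ℕ} [hp : Fact p.Prime]
    (hV : ∀ v : V, v ^ p = 1) (σ D : V →* V) (hD : ∀ v, D v = v⁻¹ * σ v)
    (hσ : ∀ v, σ^[p] v = v) (v : V) : D^[p] v = 1 := by
  let s : AddMonoid.End (Additive V) := MonoidHom.toAdditive σ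
  let d : AddMonoid.End (Additive V) := MonoidHom.toAdditive D
  have e : s = d + 1 := by
    ext v
    change σ v.toMul = D v.toMul * v.toMul
    rw [hD, mul_comm, mul_inv_cancel_left]
  have h1 : s ^ p = 1 := by
    ext v
    rw [AddMonoid.End.coe_pow]
    exact hσ v
  obtain ⟨r, hr⟩ := (Commute.one_right d).exists_add_pow_prime_eq hp.out
  have h0 : (p : AddMonoid.End (Additive V)) = 0 := by
    ext v
    rw [AddMonoid.End.natCast_apply]
    exact hV v
  rw [← e, h1, h0, one_pow] at hr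
  have h2 : d ^ p = 0 := by simpa using hr
  have := congrArg (fun f : AddMonoid.End (Additive V) => f (Additive.ofMul v)) h2
  simp only [AddMonoid.End.coe_pow] at this
  exact this

def IsWr (p : ℕ) (W : Type*) [Group W] : Prop :=
  ∃ (B : Subgroup W) (t : W), B.Normal ∧ IsMulCommutative B ∧ (∀ b ∈ B, b ^ p = 1) ∧
    Nat.card B = p ^ p ∧ orderOf t = p ∧ t ∉ B ∧ Nat.card W = p ^ (p + 1) ∧
    Nat.card ↥(B ⊓ Subgroup.centralizer ({t} : Set W)) = p

theorem IsWr.of_equiv {p : ℕ} {W W' : Type*} [Group W] [Group W'] (h : IsWr p W) (e : W' ≃* W) :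
    IsWr p W' := by
  obtain ⟨B, t, a1, a2, a3, a4, a5, a6, a7, a8⟩ := h
  refine ⟨B.comap e.toMonoidHom, e.symm t, inferInstance, ?_, ?_, ?_, ?_, by simpa using a6,
    by rw [← a7]; exact Nat.card_congr e.toEquiv, ?_⟩
  · refine H1.isMulCommutative_iff'.2 fun a ha b hb => e.injective ?_
    rw [map_mul, map_mul]
    exact H1.isMulCommutative_iff'.1 a2 _ ha _ hb
  · intro b hb
    refine e.injective ?_
    rw [map_pow, map_one]
    exact a3 _ hb
  · rw [← a4]
    exact Nat.card_congr (e.toEquiv.subtypeEquiv fun a => Iff.rfl)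
  · rw [← a5, MulEquiv.orderOf_eq]
  · rw [← a8]
    refine Nat.card_congr (e.toEquiv.subtypeEquiv fun a => and_congr Iff.rfl ?_)
    simp only [SetLike.mem_coe, Subgroup.mem_toSubmonoid, Subgroup.mem_centralizer_singleton_iff]
    rw [← e.injective.eq_iff]
    simp

open Subgroup in
open scoped IsMulCommutative in
theorem exists_wr {G : Type*} [Group G] [Finite G] {p : ℕ} [hp : Fact p.Prime] (hp2 : p ≠ 2)
    (hnf : ¬ ∃ k : ℕ, p = 2 ^ k + 1) (hG : IsPSolvable p G) (h : ¬ PLengthLE p 1 G)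
    (hq : ∀ (N : Subgroup G) [N.Normal], N ≠ ⊥ → PLengthLE p 1 (G ⧸ N)) :
    ∃ W : Subgroup G, IsWr p W := by
  obtain ⟨h0, -, -, hc, hV, -, -, H, hH⟩ := H1.pLength_critical hG h hq
  set V := pCore p G with hVdef
  have hd : p ∣ Nat.card H := by
    by_contra hd
    refine h (H1.pLengthLE_one_iff.2 ?_)
    rw [H1.pPrimePCore_eq_pCore h0, hH.symm.index_eq_card]
    exact ((Nat.Prime.coprime_iff_not_dvd hp.out).2 hd).symm
  obtain ⟨x', hx'⟩ := exists_prime_orderOf_dvd_card' p hd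
  obtain ⟨x, hx⟩ : ∃ x : G, x = (x' : G) := ⟨_, rfl⟩
  have ox : orderOf x = p := by rw [hx, Subgroup.orderOf_coe, hx']
  have xp : x ^ p = 1 := ox ▸ pow_orderOf_eq_one x
  have hxV : x ∉ V := fun h1 => by
    have := hH.disjoint.le_bot ⟨h1, hx ▸ x'.2⟩
    rw [mem_bot] at this
    rw [show x = 1 from this, orderOf_one] at ox
    exact hp.out.one_lt.ne ox
  have hV' : ∀ v : V, v ^ p = 1 := fun v => Subtype.ext (hV v v.2)
  let σ : V →* V := (MulAut.conjNormal x⁻¹ : MulAut V).toMonoidHom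
  have hσ : ∀ v : V, (σ v : G) = x⁻¹ * v * x := fun v => by simp [σ]
  let D : V →* V := (MonoidHom.id V)⁻¹ * σ
  have hD : ∀ v : V, D v = v⁻¹ * σ v := fun v => rfl
  have hnil := nilp hV' σ D hD (fun v => by
    have : ∀ k : ℕ, ((σ^[k] v : V) : G) = (x ^ k)⁻¹ * v * x ^ k := by
      intro k
      induction k with
      | zero => simp
      | succ k ih => rw [Function.iterate_succ_apply', hσ, ih, pow_succ]; group
    exact Subtype.ext (by rw [this, xp]; simp))
  have hp1 : p - 1 + 1 = p := Nat.sub_add_cancel hp.out.pos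
  obtain ⟨v, hv⟩ : ∃ v : V, D^[p - 1] v ≠ 1 := by
    by_contra hn
    push Not at hn
    have ho : orderOf (x : G ⧸ V) = p ^ (0 + 1) := by
      rw [zero_add, pow_one]
      exact orderOf_eq_prime (by rw [← QuotientGroup.mk_pow, xp]; rfl)
        (fun h1 => hxV ((QuotientGroup.eq_one_iff x).1 h1))
    let c : ℕ → Subgroup G := fun i => ((⊤ : Subgroup V).map
      ((show Monoid.End V from D) ^ i : Monoid.End V)).map V.subtype
    obtain ⟨n₀, q, m, a1, -, a3, a4, a5, -⟩ := H9.hall_higman_group (F := ZMod p) hG h0 ho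
      (r := p - 1) (H9.sub_one_pow_eq_zero c (fun t ht => ⟨⟨t, ht⟩, ⟨⟨t, ht⟩, trivial, rfl⟩, rfl⟩)
        (fun i => map_subtype_le _) (by
          rintro i _ ⟨_, ⟨w, -, rfl⟩, rfl⟩
          refine ⟨_, ⟨w, trivial, rfl⟩, ?_⟩
          rw [pow_succ']
          change ((D _ : V) : G) = _
          rw [hD, coe_mul, hσ]; rfl) (by
          rintro _ ⟨_, ⟨w, -, rfl⟩, rfl⟩
          have : ((show Monoid.End V from D) ^ (p - 1) : Monoid.End V) w = 1 := by
            rw [Monoid.End.coe_pow]; exact hn w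
          erw [this]
          exact one_mem _)) (by rw [zero_add, pow_one]; omega)
    exact hnf (H9.fermat_of_exc hp2 a1 a3 a4 a5).2
  obtain ⟨B, a1, a2, a3, -, -⟩ := chain hV' D (p - 1) v hv (by rw [hp1]; exact hnil v)
  rw [hp1] at a1
  set B' := B.map V.subtype with hB'
  have hB'V : B' ≤ V := map_subtype_le _
  have c1 : Nat.card B' = p ^ p := by rw [hB', card_map_of_injective V.subtype_injective, a1]
  have hxB : x ∈ normalizer (B' : Set G) := by
    refine (normalizer (B' : Set G)).inv_mem_iff.1 (mem_normalizer_fintype ?_)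
    rintro _ ⟨b, hb, rfl⟩
    refine ⟨σ b, ?_, by simp [hσ]⟩
    have := B.mul_mem hb (a3 ⟨b, hb, rfl⟩)
    rwa [hD, mul_inv_cancel_left] at this
  have c2 : Nat.card (B' ⊓ centralizer ({x} : Set G) : Subgroup G) = p := by
    have e : B' ⊓ centralizer ({x} : Set G) = (B ⊓ D.ker).map V.subtype := by
      ext g
      constructor
      · rintro ⟨⟨b, hb, rfl⟩, h2⟩
        refine ⟨b, ⟨hb, ?_⟩, rfl⟩
        have h3 := mem_centralizer_singleton_iff.1 h2
        refine Subtype.ext ?_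
        rw [hD, coe_mul, hσ, mul_assoc x⁻¹, show (b : G) * x = x * b from h3]
        simp
      · rintro ⟨b, ⟨hb, h2⟩, rfl⟩
        refine ⟨⟨b, hb, rfl⟩, mem_centralizer_singleton_iff.2 ?_⟩
        have h3 := congrArg Subtype.val (show D b = 1 from h2)
        rw [hD, coe_mul, hσ, coe_inv, coe_one, inv_mul_eq_one, mul_assoc,
          eq_inv_mul_iff_mul_eq] at h3
        exact h3.symm
    rw [e, card_map_of_injective V.subtype_injective]
    have := H1.card_map_mul_card_inf_ker B D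
    rw [a1, a2] at this
    refine Nat.eq_of_mul_eq_mul_left (pow_pos hp.out.pos (p - 1)) ?_
    rw [this, ← pow_succ, hp1]
  have hz : Nat.card (zpowers x) = p := by rw [Nat.card_zpowers, ox]
  have hxW : x ∈ zpowers x ⊔ B' := le_sup_left (b := B') (mem_zpowers x)
  refine ⟨zpowers x ⊔ B', B'.subgroupOf _, ⟨x, hxW⟩, ?_, ?_, ?_, ?_, ?_, fun h1 => hxV (hB'V h1),
    ?_, ?_⟩
  · exact normal_subgroupOf_of_le_normalizer (sup_le (zpowers_le_of_mem hxB) le_normalizer)
  · have := H1.isMulCommutative_of_le hB'V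
    infer_instance
  · exact fun b hb => Subtype.ext (hV _ (hB'V hb))
  · rw [H1.card_subgroupOf_of_le le_sup_right, c1]
  · rw [← Subgroup.orderOf_coe, ox]
  · rw [H1.card_sup_of_disjoint (zpowers_le_of_mem hxB)
      ((H7.eq_or_eq_bot_of_card_prime hz inf_le_left).resolve_right fun h =>
        hxV (hB'V (inf_eq_left.1 h (mem_zpowers x)))), hz, c1, pow_succ']
  · rw [← c2, ← H1.card_subgroupOf_of_le (inf_le_left.trans (le_sup_right : B' ≤ zpowers x ⊔ B'))]
    congr 2
    ext g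
    simp only [mem_inf, mem_subgroupOf, mem_centralizer_singleton_iff, Subtype.ext_iff, coe_mul]

universe u in
theorem main {p : ℕ} [hp : Fact p.Prime] (hp2 : p ≠ 2) (hnf : ¬ ∃ k : ℕ, p = 2 ^ k + 1) (n : ℕ) :
    ∀ (G : Type u) [Group G] [Finite G], Nat.card G = n → IsPSolvable p G → ¬ PLengthLE p 1 G →
      ∃ (W : Type u) (_ : Group W) (_ : Finite W), IsWr p W ∧ H4.IsSec W (⊤ : Subgroup G) := by
  induction n using Nat.strong_induction_on with
  | _ n ih =>
    intro G _ _ hn hG h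
    by_cases hq : ∀ (N : Subgroup G) [N.Normal], N ≠ ⊥ → PLengthLE p 1 (G ⧸ N)
    · obtain ⟨W, hW⟩ := exists_wr hp2 hnf hG h hq
      exact ⟨W, inferInstance, inferInstance, hW, W, MonoidHom.id _, le_top,
        Function.surjective_id⟩
    · push Not at hq
      obtain ⟨N, _, h1, h2⟩ := hq
      obtain ⟨W, _, _, a1, a2⟩ := ih _ (hn ▸ H1.card_quotient_lt h1) (G ⧸ N) rfl
        (H1.IsPSolvable.quotient hG N) h2
      exact ⟨W, inferInstance, inferInstance, a1,
        a2.of_surjective (QuotientGroup.mk'_surjective N)⟩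

/-- Let G be a finite p-soluble group, p an odd prime not of the form 2^k + 1, and suppose the wreath product C_p ≀ C_p (of order p^(p+1)) is not involved in a Sylow p-subgroup of G: no section of a Sylow p-subgroup is isomorphic to it. Then G has p-length at most 1. -/
theorem result {G : Type*} [Group G] [Finite G] {p : ℕ} [Fact p.Prime] (hp2 : p ≠ 2) (hnf : (¬ ∃ k : ℕ, p = 2 ^ k + 1)) (hG : Cfsg.IsPSolvable p G) (P : Sylow p G) (hwr : ∀ (W : Type) [Group W] [Finite W], (∃ (B : Subgroup W) (t : W), B.Normal ∧ IsMulCommutative B ∧ (∀ b ∈ B, b ^ p = 1) ∧ Nat.card B = p ^ p ∧ orderOf t = p ∧ t ∉ B ∧ Nat.card W = p ^ (p + 1) ∧ Nat.card ↥(B ⊓ Subgroup.centralizer ({t} : Set W)) = p) → ¬ Cfsg.Involves W ↥(P : Subgroup G)) : Cfsg.PLengthLE p 1 G := by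
  by_contra h
  obtain ⟨W, _, _, a1, K, φ, -, hφ⟩ := main hp2 hnf _ G rfl hG h
  let e : Shrink.{0} W ≃* W := Shrink.mulEquiv
  have : Finite (Shrink.{0} W) := Finite.of_equiv _ e.symm.toEquiv
  refine hwr (Shrink.{0} W) (a1.of_equiv e) (H3.involves_iff_isSec.2 ?_)
  have hW : IsPGroup p W := by
    obtain ⟨B, t, -, -, -, -, -, -, a7, -⟩ := a1
    exact IsPGroup.of_card a7
  obtain ⟨Q, hQ, hQm⟩ := H1.exists_isPGroup_map_eq hφ (hW.to_subgroup ⊤)
  obtain ⟨S, hS⟩ := (hQ.map K.subtype).exists_le_sylow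
  obtain ⟨g, hg⟩ := MulAction.exists_smul_eq G S P
  refine H4.IsSec.top_subgroup ?_
  rw [← hg, H7.sylow_coe_smul]
  refine H4.IsSec.map (MulAut.conj g).injective (H4.IsSec.mono (H4.IsSec.map K.subtype_injective
    ⟨Q, (e.symm : W →* _).comp (φ.comp Q.subtype), le_rfl, ?_⟩) hS)
  refine e.symm.surjective.comp fun w => ?_
  obtain ⟨y, hy, rfl⟩ : w ∈ Q.map φ := hQm ▸ Subgroup.mem_top w
  exact ⟨⟨y, hy⟩, rfl⟩

end Cfsg.Agent.S3787
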