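import Cfsg.Statements.S3788
import Cfsg.Agent.H7.HHX
import Cfsg.Agent.H3.FQd

set_option autoImplicit false
open Cfsg

namespace Cfsg.Agent.S3788

open Subgroup in
theorem aux1 {G : Type*} [Group G] [Finite G] {p : ℕ} [hp : Fact p.Prime] (hG : IsPSolvable p G)
    (h0 : pPrimeCore p G = ⊥) {a : G} (ha : a ^ p ∈ pCore p G)
    (hc : ∀ v ∈ pCore p G, v * a * v⁻¹ ∈ zpowers a)
    (h : p ≠ 2 ∨ ¬ H4.IsSec (Equiv.Perm (Fin 4)) (⊤ : Subgroup G)) : a ∈ pCore p G := by
  by_contra hn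
  set T := pCore p G with hT
  have hTp : IsPGroup p T := H1.isPGroup_pCore p
  have := H1.normal_map_char T (frattini T)
  set F := (frattini T).map T.subtype with hF
  have hFT : F ≤ T := map_subtype_le _
  have hFp : IsPGroup p F := hTp.to_le hFT
  have hs := QuotientGroup.mk'_surjective F
  have e1 := H1.map_pCore_mk' p F hFp
  have e2 := H1.comap_pCore_mk' p F hFp
  have e3 : pPrimeCore p (G ⧸ F) = ⊥ := by
    have := H1.comap_pPrimeCore_of_le_frattini F hFp (H1.frattiniOf_normal_le T)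
    rw [h0, sup_bot_eq] at this
    rw [← map_comap_eq_self_of_surjective hs (pPrimeCore p (G ⧸ F)), this]
    exact H1.map_mk'_eq_bot_iff.2 le_rfl
  refine hn ?_
  rw [hT, ← e2]
  refine H7.mem_of_comm_zpowers (H1.IsPSolvable.quotient hG F) e3
    (e1 ▸ H4.elemAb_map_frattini hTp) (e1 ▸ ⟨_, ha, map_pow _ _ _⟩) ?_
    (h.imp_right fun h1 h2 => h1 (h2.of_surjective hs))
  rw [← e1]
  rintro _ ⟨v, hv, rfl⟩
  obtain ⟨k, hk⟩ := (zpowers a).mul_mem (mem_zpowers a) ((zpowers a).inv_mem (hc v hv))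
  have h1 : a ^ k ∈ T := by
    simp only at hk
    rw [hk]
    simpa [mul_assoc] using T.mul_mem ((inferInstance : T.Normal).conj_mem v hv a) (T.inv_mem hv)
  have h2 : (p : ℤ) ∣ k := by
    by_contra h2
    have h3 : IsCoprime (p : ℤ) k :=
      (Nat.prime_iff_prime_int.1 hp.out).irreducible.coprime_iff_not_dvd.2 h2
    obtain ⟨x, y, e⟩ := h3
    refine hn ?_
    have := T.mul_mem (T.zpow_mem ha x) (T.zpow_mem h1 y)
    rwa [← zpow_natCast, ← zpow_mul, ← zpow_mul, ← zpow_add, mul_comm _ x, mul_comm _ y, e,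
      zpow_one] at this
  obtain ⟨m, rfl⟩ := h2
  refine ⟨m, ?_⟩
  simp only at hk ⊢
  rw [← map_pow, ← map_zpow, ← zpow_natCast, ← zpow_mul, hk]
  simp [mul_assoc]

/-- Let G be a finite p-soluble group, P a Sylow p-subgroup of G and A a cyclic normal subgroup of P. If p is odd, or if no section of G is isomorphic to the symmetric group of degree 4, then A ≤ O_{p',p}(G). -/
theorem result {G : Type*} [Group G] [Finite G] {p : ℕ} [Fact p.Prime] (hG : Cfsg.IsPSolvable p G) (P : Sylow p G) (A : Subgroup G) (hAP : A ≤ (P : Subgroup G)) (hAn : (P : Subgroup G) ≤ Subgroup.normalizer (A : Set G)) (hA : IsCyclic A) (h : p ≠ 2 ∨ ¬ Cfsg.Involves (Equiv.Perm (Fin 4)) G) : A ≤ Cfsg.pPrimePCore p G := by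
  rw [H3.involves_iff_isSec] at h
  have hs := QuotientGroup.mk'_surjective (pPrimeCore p G)
  have key : ∀ x ∈ A, x ^ p ∈ pPrimePCore p G → x ∈ pPrimePCore p G := by
    intro x hx hxp
    refine aux1 (H1.IsPSolvable.quotient hG _) (H1.pPrimeCore_quotient_pPrimeCore p)
      (by rw [← map_pow]; exact hxp) ?_ (h.imp_right fun h1 h2 => h1 (h2.of_surjective hs))
    intro v hv
    obtain ⟨t, ht, rfl⟩ := H1.pCore_le_sylow (P.mapSurjective hs) hv
    have h2 : t * x * t⁻¹ ∈ Subgroup.zpowers x := by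
      obtain ⟨g, hg⟩ := hA.exists_generator
      obtain ⟨i, hi⟩ := hg ⟨x, hx⟩
      obtain ⟨j, hj⟩ := hg ⟨_, H1.conj_mem_of_mem_normalizer (hAn ht) g.2⟩
      have hi' : (g : G) ^ i = x := congrArg Subtype.val hi
      have hj' : (g : G) ^ j = t * g * t⁻¹ := congrArg Subtype.val hj
      refine ⟨j, ?_⟩
      simp only
      rw [← hi', ← conj_zpow, ← hj', ← zpow_mul, ← zpow_mul, mul_comm]
    have h3 := Subgroup.mem_map_of_mem (QuotientGroup.mk' (pPrimeCore p G)) h2
    rw [MonoidHom.map_zpowers] at h3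
    simpa using h3
  intro x hx
  obtain ⟨k, hk⟩ := P.isPGroup' ⟨x, hAP hx⟩
  have hk' : x ^ p ^ k ∈ pPrimePCore p G := by
    rw [show x ^ p ^ k = 1 from congrArg Subtype.val hk]; exact one_mem _
  clear hk
  induction k with
  | zero => simpa using hk'
  | succ k ih => exact ih (key _ (A.pow_mem hx _) (by rwa [← pow_mul, ← pow_succ]))

end Cfsg.Agent.S3788
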