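import Cfsg.Statements.S3789
import Cfsg.Agent.H17.Dl3

set_option autoImplicit false
open Cfsg

namespace Cfsg.Agent.S3789

open H17 Cfsg


/-- Let p be an odd prime and G a finite p-soluble group whose Sylow p-subgroups have derived length at most d. Then G has p-length at most d. -/
theorem result {G : Type*} [Group G] [Finite G] {p : ℕ} [Fact p.Prime] (hp : p ≠ 2) (hG : Cfsg.IsPSolvable p G) (d : ℕ) (hd : ∀ P : Sylow p G, derivedSeries ↥(P : Subgroup G) d = ⊥) : Cfsg.PLengthLE p d G := by
  exact H17.Dl.main hp d _ G rfl hG fun P => (H17.Dl.ds_bot _ d).1 (hd P)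

end Cfsg.Agent.S3789
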