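import Cfsg.Statements.S3790
import Cfsg.Agent.H1.PLength2

set_option autoImplicit false
open Cfsg

namespace Cfsg.Agent.S3790

universe u

theorem step {p s m : ℕ} [Fact p.Prime] [Fact s.Prime] (hsp : s ≠ p)
    (C : ∀ (G : Type u) [Group G], Prop)
    (hsub : ∀ (G : Type u) [Group G] [Finite G] (H : Subgroup G), C G → C H)
    (hquo : ∀ (G : Type u) [Group G] [Finite G] (N : Subgroup G) [N.Normal], C G → C (G ⧸ N))
    (h0 : ∀ (G : Type u) [Group G] [Finite G], C G → (Nat.card G).Coprime s →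
      Cfsg.PLengthLE p m G) (k : ℕ) :
    ∀ (G : Type u) [Group G] [Finite G], C G → Cfsg.PLengthLE s k G →
      Cfsg.PLengthLE p ((1 + k) * m) G := by
  induction k with
  | zero =>
    intro G _ _ hC h
    simpa using h0 G hC (H1.pLengthLE_zero_iff.1 h)
  | succ k ih =>
    intro G _ _ hC h
    rw [show (1 + (k + 1)) * m = m + (1 + k) * m by ring]
    refine H1.pLengthLE_add (Cfsg.pPrimeCore s G)
      (h0 _ (hsub G _ hC) (H1.coprime_card_pPrimeCore s)) ?_
    refine H1.pLengthLE_of_quotient_coprime (Cfsg.pPrimePCore s _) ?_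
      (ih _ (hquo _ _ (hquo G _ hC)) (H1.pLengthLE_succ_iff.1 (H1.PLengthLE.quotient h _)))
    rw [H1.pPrimePCore_eq_pCore (H1.pPrimeCore_quotient_pPrimeCore s)]
    exact H1.IsPGroup.coprime_card (H1.isPGroup_pCore s)
      ((Nat.coprime_primes Fact.out Fact.out).2 hsp.symm)

theorem aux {ι : Type*} (p : ℕ) [Fact p.Prime] (q l : ι → ℕ) (hq : ∀ i, (q i).Prime ∧ q i ≠ p)
    (T : Finset ι) : ∀ (G : Type u) [Group G] [Finite G],
      (∀ s : ℕ, s.Prime → s ∣ Nat.card G → s ≠ p → ∃ i ∈ T, q i = s) →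
      (∀ i, Cfsg.PLengthLE (q i) (l i) G) → Cfsg.PLengthLE p (T.prod fun i => 1 + l i) G := by
  classical
  induction T using Finset.induction_on with
  | empty =>
    intro G _ _ h _
    refine H1.pLengthLE_one_of_isPGroup (H1.isPiNat_card_singleton_iff.1 fun s hs hd => ?_)
    by_contra hsp
    simpa using h s hs hd hsp
  | insert j T hj ih =>
    intro G _ _ h1 h2
    rw [Finset.prod_insert hj]
    have := Fact.mk (hq j).1
    refine step (hq j).2 (fun G _ => (∀ s : ℕ, s.Prime → s ∣ Nat.card G → s ≠ p →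
      ∃ i ∈ insert j T, q i = s) ∧ ∀ i, Cfsg.PLengthLE (q i) (l i) G) ?_ ?_ ?_ (l j) G
      ⟨h1, h2⟩ (h2 j)
    · rintro G _ _ H ⟨h1, h2⟩
      exact ⟨fun s hs hd => h1 s hs (hd.trans H.card_subgroup_dvd_card), fun i =>
        haveI := Fact.mk (hq i).1; H1.PLengthLE.subgroup (h2 i) H⟩
    · rintro G _ _ N _ ⟨h1, h2⟩
      exact ⟨fun s hs hd => h1 s hs (hd.trans (H1.card_quotient_dvd N)), fun i =>
        haveI := Fact.mk (hq i).1; H1.PLengthLE.quotient (h2 i) N⟩
    · rintro G _ _ ⟨h1, h2⟩ hc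
      refine ih G (fun s hs hd hsp => ?_) h2
      obtain ⟨i, hi, rfl⟩ := h1 s hs hd hsp
      rcases Finset.mem_insert.1 hi with rfl | hi
      · exact (hs.one_lt.ne' (hc.symm.eq_one_of_dvd hd)).elim
      · exact ⟨i, hi, rfl⟩

/-- Let G be a finite solvable group and p a prime. Suppose p₁, …, p_r are distinct primes, all different from p, that include every prime dividing the order of G other than p, and that G has p_i-length at most l_i for each i. Then G has p-length at most the product of the numbers 1 + l_i. -/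
theorem result {G : Type*} [Group G] [Finite G] (hG : Group.IsSolvable G) (p : ℕ) [Fact p.Prime] (r : ℕ) (q : Fin r → ℕ) (hq : ∀ i, (q i).Prime ∧ q i ≠ p) (hinj : Function.Injective q) (hcover : ∀ s : ℕ, s.Prime → s ∣ Nat.card G → s ≠ p → ∃ i, q i = s) (l : Fin r → ℕ) (hl : ∀ i, Cfsg.PLengthLE (q i) (l i) G) : Cfsg.PLengthLE p (Finset.univ.prod fun i => 1 + l i) G := by
  exact aux p q l hq Finset.univ G (fun s hs hd hsp => by simpa using hcover s hs hd hsp) hl

end Cfsg.Agent.S3790
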