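import Cfsg.Statements.S3791
import Cfsg.Agent.H1.PLength2

set_option autoImplicit false
open Cfsg

namespace Cfsg.Agent.S3791

universe u

theorem aux {ι : Type*} [Fintype ι] (q d : ι → ℕ) (hq : ∀ i, (q i).Prime) (n : ℕ) :
    ∀ (G : Type u) [Group G] [Finite G], Nat.card G = n → Group.IsSolvable G →
      (∀ s : ℕ, s.Prime → s ∣ Nat.card G → ∃ i, q i = s) →
      (∀ i, ∀ P : Subgroup G, IsPGroup (q i) P → derivedSeries P (d i) = ⊥) →
      ∀ l : ι → ℕ, (∀ i, Cfsg.PLengthLE (q i) (l i) G) →
      derivedSeries G (Finset.univ.sum fun i => d i * l i) = ⊥ := by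
  classical
  induction n using Nat.strong_induction_on with
  | _ n ih =>
  intro G _ _ hn hG h1 h2 l h3
  have quo : ∀ (N : Subgroup G) [N.Normal], N ≠ ⊥ → ∀ l : ι → ℕ,
      (∀ i, Cfsg.PLengthLE (q i) (l i) (G ⧸ N)) →
      derivedSeries G (Finset.univ.sum fun i => d i * l i) ≤ N := by
    intro N _ hN l hl
    have hs := QuotientGroup.mk'_surjective N
    rw [← H1.map_mk'_eq_bot_iff, map_derivedSeries_eq hs]
    refine ih _ (hn ▸ H1.card_quotient_lt hN) _ rfl inferInstance
      (fun s hs hd => h1 s hs (hd.trans (H1.card_quotient_dvd N))) (fun i Q hQ => ?_) l hl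
    have := Fact.mk (hq i)
    obtain ⟨P, hP, rfl⟩ := H1.exists_isPGroup_map_eq hs hQ
    rw [← map_derivedSeries_eq ((QuotientGroup.mk' N).subgroupMap_surjective P), h2 i P hP,
      Subgroup.map_bot]
  rcases subsingleton_or_nontrivial G with h | h
  · exact Subsingleton.elim _ _
  obtain ⟨p, hp, hP⟩ := H1.exists_pCore_ne_bot (G := G)
  have := Fact.mk hp
  by_cases h0 : Cfsg.pPrimeCore p G = ⊥
  swap
  · rw [eq_bot_iff, ← H1.pCore_inf_pPrimeCore p]
    exact le_inf (quo _ hP l fun i => haveI := Fact.mk (hq i); H1.PLengthLE.quotient (h3 i) _)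
      (quo _ h0 l fun i => haveI := Fact.mk (hq i); H1.PLengthLE.quotient (h3 i) _)
  have hd : p ∣ Nat.card G := by
    obtain ⟨k, hk⟩ := IsPGroup.iff_card.1 (H1.isPGroup_pCore (G := G) p)
    rcases k with _ | k
    · exact (hP (Subgroup.card_eq_one.1 (by simpa using hk))).elim
    · exact (dvd_pow_self p k.succ_ne_zero).trans (hk ▸ Subgroup.card_subgroup_dvd_card _)
  obtain ⟨j, rfl⟩ := h1 p hp hd
  obtain ⟨k, hk⟩ : ∃ k, l j = k + 1 := Nat.exists_eq_succ_of_ne_zero fun h => by
    have := h3 j
    rw [h, H1.pLengthLE_zero_iff] at this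
    exact hp.one_lt.ne' (this.symm.eq_one_of_dvd hd)
  have he := H1.pPrimePCore_eq_pCore h0
  have h4 := quo (Cfsg.pPrimePCore (q j) G) (he ▸ hP) (Function.update l j k) fun i => by
    have := Fact.mk (hq i)
    by_cases hi : i = j
    · subst hi
      rw [Function.update_self, ← H1.pLengthLE_succ_iff, ← hk]
      exact h3 i
    · rw [Function.update_of_ne hi]
      exact H1.PLengthLE.quotient (h3 i) _
  have h5 : (Finset.univ.sum fun i => d i * l i) =
      (Finset.univ.sum fun i => d i * Function.update l j k i) + d j := by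
    rw [← Finset.add_sum_erase _ _ (Finset.mem_univ j),
      ← Finset.add_sum_erase _ _ (Finset.mem_univ j), Function.update_self, hk,
      Finset.sum_congr rfl (f := fun i => d i * Function.update l j k i)
        (g := fun i => d i * l i) (s₂ := Finset.univ.erase j) fun i hi => by
        rw [Function.update_of_ne (Finset.ne_of_mem_erase hi)]]
    ring
  rw [h5]
  generalize (Finset.univ.sum fun i => d i * Function.update l j k i) = m at h4
  rw [he] at h4
  have h6 : ∀ t, derivedSeries G (m + t) ≤ (derivedSeries (Cfsg.pCore (q j) G) t).map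
      (Cfsg.pCore (q j) G).subtype := by
    intro t
    induction t with
    | zero => simpa [← MonoidHom.range_eq_map] using h4
    | succ t ih =>
      rw [← add_assoc, derivedSeries_succ, derivedSeries_succ, Subgroup.map_commutator]
      exact Subgroup.commutator_mono ih ih
  have h7 := h6 (d j)
  rwa [h2 j _ (H1.isPGroup_pCore _), Subgroup.map_bot, le_bot_iff] at h7

/-- The Hall–Higman bound on derived length: let G be a finite solvable group, let p₁, …, p_r be distinct primes that include every prime dividing the order of G, and suppose that for each i the Sylow p_i-subgroups of G have derived length at most d_i and G has p_i-length at most l_i. Then G has derived length at most Σ d_i l_i. -/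
theorem result {G : Type*} [Group G] [Finite G] (hG : Group.IsSolvable G) (r : ℕ) (q : Fin r → ℕ) (hq : ∀ i, (q i).Prime) (hinj : Function.Injective q) (hcover : ∀ s : ℕ, s.Prime → s ∣ Nat.card G → ∃ i, q i = s) (d l : Fin r → ℕ) (hd : ∀ i, ∀ P : Subgroup G, (haveI := Fact.mk (hq i); ∃ S : Sylow (q i) G, (S : Subgroup G) = P) → derivedSeries ↥P (d i) = ⊥) (hl : ∀ i, Cfsg.PLengthLE (q i) (l i) G) : derivedSeries G (Finset.univ.sum fun i => d i * l i) = ⊥ := by
  refine aux q d hq _ G rfl hG hcover (fun i P hP => ?_) l hl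
  have := Fact.mk (hq i)
  obtain ⟨S, hS⟩ := hP.exists_le_sylow
  have h := map_derivedSeries_le_derivedSeries (Subgroup.inclusion hS) (d i)
  rw [hd i S ⟨S, rfl⟩, le_bot_iff] at h
  exact (Subgroup.map_eq_bot_iff_of_injective _ (Subgroup.inclusion_injective hS)).1 h

end Cfsg.Agent.S3791
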