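import Cfsg.Statements.S3799
import Cfsg.Agent.H7.Heisen

set_option autoImplicit false
open Cfsg

namespace Cfsg.Agent.S3799



/-- For every odd prime p and every n ≥ 1 there is an extraspecial p-group of order p^(1+2n) and exponent p; concretely, the general linear group of degree n + 2 over the field with p elements contains such a subgroup. -/
theorem result (p : ℕ) [Fact p.Prime] (hp : p ≠ 2) (n : ℕ) (hn : 1 ≤ n) : ∃ E : Subgroup (Matrix.GeneralLinearGroup (Fin (n + 2)) (ZMod p)), Cfsg.IsExtraspecial p ↥E ∧ Nat.card E = p ^ (1 + 2 * n) ∧ ∀ x ∈ E, x ^ p = 1 := by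
  let b := Module.finBasisOfFinrankEq (ZMod p) (ZMod p × (Fin n → ZMod p) × ZMod p) (n := n + 2)
    (by simp; ring)
  let f := (Matrix.GeneralLinearGroup.toLin' b).symm.toMonoidHom.comp
    (H7.Heisen.rep (n := n) (R := ZMod p)).toHomUnits
  have hf : Function.Injective f := (Matrix.GeneralLinearGroup.toLin' b).symm.injective.comp
    fun x y h => H7.Heisen.rep_injective (congrArg Units.val h)
  refine ⟨f.range, H7.isExtraspecial_of_equiv
    (H7.Heisen.isES.isExtraspecial (H7.Heisen.zpowers_ne_top hn)) (MonoidHom.ofInjective hf), ?_, ?_⟩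
  · rw [← Nat.card_congr (MonoidHom.ofInjective hf).toEquiv, H7.Heisen.card_eq, Nat.card_zmod]
  · rintro _ ⟨x, rfl⟩
    rw [← map_pow, H7.Heisen.pow_prime hp, map_one]

end Cfsg.Agent.S3799
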