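import Mathlib
import Cfsg.Statements.S3952
import Cfsg.Agent.H8.Schur6

set_option autoImplicit false
open Cfsg

namespace Cfsg.Agent.S3952

open scoped IsMulCommutative commutatorElement

universe u

theorem monomial (p : ℕ) [hp : Fact p.Prime] (n : ℕ) : ∀ (G : Type u) [Group G] [Finite G],
    IsPGroup p G → ∀ (Z : Subgroup G), Z ≤ Subgroup.center G → ∀ l : Z →* ℂˣ,
    Z.index + Nat.card G ≤ n → ∃ (B : Subgroup G) (h : Z ≤ B) (μ : B →* ℂˣ),
      (∀ z : Z, μ ⟨z, h z.2⟩ = l z) ∧ B.index ^ 2 ≤ Z.index := by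
  induction n with
  | zero =>
    intro G _ _ _ Z _ _ h
    have := Nat.card_pos (α := G)
    omega
  | succ n ih =>
    intro G _ _ hG Z hZ l hn
    by_cases hl : l.ker = ⊥
    swap
    · let N := l.ker.map Z.subtype
      have hNZ : N ≤ Z := Subgroup.map_subtype_le _
      haveI : N.Normal := H8.normal_of_le_center (hNZ.trans hZ)
      have hN : N ≠ ⊥ := by
        rwa [Ne, Subgroup.map_eq_bot_iff_of_injective _ Z.subtype_injective]
      obtain ⟨l', hl'⟩ := H8.exists_factor ((QuotientGroup.mk' N).subgroupMap_surjective Z) l (by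
        intro z hz
        have h1 : ((z : G) : G ⧸ N) = 1 := congrArg Subtype.val hz
        obtain ⟨z', hz', h2⟩ := (QuotientGroup.eq_one_iff _).mp h1
        have : z' = z := Subtype.ext h2
        exact this ▸ hz')
      have hi : (Z.map (QuotientGroup.mk' N)).index = Z.index := by
        rw [Subgroup.index_map, QuotientGroup.ker_mk', sup_eq_left.mpr hNZ,
          QuotientGroup.range_mk', Subgroup.index_top, mul_one]
      have hc : Nat.card (G ⧸ N) < Nat.card G := by
        rw [Subgroup.card_eq_card_quotient_mul_card_subgroup N]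
        exact lt_mul_of_one_lt_right Nat.card_pos ((Subgroup.one_lt_card_iff_ne_bot _).2 hN)
      obtain ⟨B, h, μ, h1, h2⟩ := ih (G ⧸ N) (hG.to_quotient N) (Z.map (QuotientGroup.mk' N)) (by
        rintro _ ⟨z, hz, rfl⟩
        rw [Subgroup.mem_center_iff]
        intro g
        obtain ⟨g, rfl⟩ := QuotientGroup.mk'_surjective N g
        rw [← map_mul, ← map_mul, Subgroup.mem_center_iff.mp (hZ hz)]) l' (by omega)
      refine ⟨B.comap (QuotientGroup.mk' N), Subgroup.map_le_iff_le_comap.mp h,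
        μ.comp ((QuotientGroup.mk' N).subgroupComap B), fun z => ?_, ?_⟩
      · rw [← hl', ← h1]; rfl
      · rw [Subgroup.index_comap_of_surjective _ (QuotientGroup.mk'_surjective N), ← hi]
        exact h2
    by_cases hZt : Z = ⊤
    · subst hZt
      exact ⟨⊤, le_rfl, l, fun _ => rfl, by simp⟩
    haveI : Z.Normal := H8.normal_of_le_center hZ
    haveI : Nontrivial (G ⧸ Z) := QuotientGroup.nontrivial_iff.mpr hZt
    haveI := (hG.to_quotient Z).center_nontrivial
    obtain ⟨y, hy⟩ := exists_prime_orderOf_dvd_card' (G := Subgroup.center (G ⧸ Z)) p (by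
      obtain ⟨k, hk, h⟩ := (((hG.to_quotient Z).to_subgroup
        (Subgroup.center (G ⧸ Z))).nontrivial_iff_card).mp inferInstance
      rw [h]; exact dvd_pow_self p hk.ne')
    obtain ⟨x, hx⟩ := QuotientGroup.mk_surjective (y : G ⧸ Z)
    have hx1 : x ∉ Z := by
      intro h
      rw [(QuotientGroup.eq_one_iff x).mpr h] at hx
      have : y = 1 := Subtype.ext hx.symm
      rw [this, orderOf_one] at hy
      exact hp.out.one_lt.ne hy
    have hx2 : x ^ p ∈ Z := by
      rw [← QuotientGroup.eq_one_iff, QuotientGroup.mk_pow, hx, ← Subgroup.coe_pow, ← hy,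
        pow_orderOf_eq_one]; rfl
    have hx3 : ∀ g, g * x * g⁻¹ * x⁻¹ ∈ Z := by
      intro g
      rw [← QuotientGroup.eq_one_iff]
      simp only [QuotientGroup.mk_mul, QuotientGroup.mk_inv, hx]
      rw [Subgroup.mem_center_iff.mp y.2]; group
    let χ : G →* Z := MonoidHom.mk' (fun g => ⟨_, hx3 g⟩) (fun a b => Subtype.ext (by
      have h1 := Subgroup.mem_center_iff.mp (hZ (hx3 b))
      show a * b * x * (a * b)⁻¹ * x⁻¹ = a * x * a⁻¹ * x⁻¹ * (b * x * b⁻¹ * x⁻¹)
      calc a * b * x * (a * b)⁻¹ * x⁻¹ = a * ((b * x * b⁻¹ * x⁻¹) * (x * a⁻¹ * x⁻¹)) := by group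
        _ = _ := by rw [← h1]; group))
    have hχ : ∀ g, χ g ^ p = 1 := fun g => Subtype.ext (by
      have h1 : Commute (g * x * g⁻¹ * x⁻¹) x :=
        (Subgroup.mem_center_iff.mp (hZ (hx3 g)) x).symm
      have h2 : g * x ^ p * g⁻¹ = (g * x * g⁻¹ * x⁻¹) ^ p * x ^ p := by
        rw [← h1.mul_pow, ← conj_pow]; group
      rw [Subgroup.mem_center_iff.mp (hZ hx2), mul_inv_cancel_right] at h2
      exact right_eq_mul.mp h2)
    let C := (l.comp χ).ker
    have hC : ∀ g, g ∈ C ↔ g * x = x * g := fun g => by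
      rw [MonoidHom.mem_ker, MonoidHom.comp_apply, ← MonoidHom.mem_ker, hl, Subgroup.mem_bot,
        Subtype.ext_iff]
      show g * x * g⁻¹ * x⁻¹ = 1 ↔ _
      rw [mul_inv_eq_one, mul_inv_eq_iff_eq_mul]
    have hCi : C.index ≤ p := by
      haveI : NeZero p := ⟨hp.out.ne_zero⟩
      rw [Subgroup.index_ker]
      refine le_trans (Subgroup.card_le_of_le (K := rootsOfUnity p ℂ) ?_) (card_rootsOfUnity ℂ p)
      rintro _ ⟨g, rfl⟩
      rw [mem_rootsOfUnity, MonoidHom.comp_apply, ← map_pow, hχ, map_one]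
    let A := Z ⊔ Subgroup.zpowers x
    have hA : ∀ a ∈ A, ∀ c ∈ C, c * a = a * c := by
      intro a ha c hc
      have : A ≤ Subgroup.centralizer {c} := by
        refine sup_le (fun z hz => ?_) ?_
        · exact Subgroup.mem_centralizer_singleton_iff.mpr
            (Subgroup.mem_center_iff.mp (hZ hz) c).symm
        · rw [Subgroup.zpowers_le, Subgroup.mem_centralizer_singleton_iff]
          exact ((hC c).mp hc).symm
      exact (Subgroup.mem_centralizer_singleton_iff.mp (this ha)).symm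
    have hAC : A ≤ C := by
      refine sup_le (fun z hz => ?_) ?_
      · exact (hC z).mpr (Subgroup.mem_center_iff.mp (hZ hz) x).symm
      · rw [Subgroup.zpowers_le, hC]
    have hA1 : A.subgroupOf C ≤ Subgroup.center C := fun a ha =>
      Subgroup.mem_center_iff.mpr fun c => Subtype.ext (hA a ha c c.2)
    haveI : IsMulCommutative (A.subgroupOf C) := ⟨⟨fun a b => Subtype.ext
      (Subgroup.mem_center_iff.mp (hA1 b.2) a)⟩⟩
    haveI : IsMulCommutative Z := ⟨⟨fun a b => Subtype.ext
      (Subgroup.mem_center_iff.mp (hZ b.2) a)⟩⟩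
    let j : Z →* A.subgroupOf C :=
      (Subgroup.inclusion (le_sup_left.trans hAC)).codRestrict _ (fun z => le_sup_left (a := Z) z.2)
    have hj : Function.Injective j := fun a b h =>
      Subtype.ext (congrArg (fun t : A.subgroupOf C => ((t : C) : G)) h)
    obtain ⟨l1, hl1⟩ := H8.exists_extend_divisible (D := ℂˣ) (fun k hk d => by
      obtain ⟨z, hz⟩ := IsAlgClosed.exists_pow_nat_eq (d : ℂ) (Nat.pos_of_ne_zero hk)
      have hz0 : z ≠ 0 := by
        rintro rfl
        rw [zero_pow hk] at hz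
        exact d.ne_zero hz.symm
      exact ⟨Units.mk0 z hz0, Units.ext hz⟩) j hj l
    have hrel : p ≤ Z.relIndex A := by
      obtain ⟨k, hk⟩ := (hG.to_subgroup A).index (Z.subgroupOf A)
      have h1 : Z.relIndex A ≠ 1 := by
        rw [Ne, Subgroup.relIndex_eq_one]
        intro h
        exact hx1 (h (le_sup_right (a := Z) (Subgroup.mem_zpowers x)))
      rw [Subgroup.relIndex, hk] at h1 ⊢
      exact Nat.le_self_pow (by rintro rfl; simp at h1) p
    have hidx : Z.index = Z.relIndex A * (A.relIndex C * C.index) := by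
      rw [Subgroup.relIndex_mul_index hAC, Subgroup.relIndex_mul_index le_sup_left]
    have hC0 : 0 < C.index := Nat.pos_of_ne_zero Subgroup.FiniteIndex.index_ne_zero
    have hA0 : 0 < A.relIndex C := Nat.pos_of_ne_zero Subgroup.FiniteIndex.index_ne_zero
    have hp1 := hp.out.one_lt
    obtain ⟨B, h, μ, h1, h2⟩ := ih C (hG.to_subgroup C) (A.subgroupOf C) hA1 l1 (by
      have h3 : Nat.card C ≤ Nat.card G := Subgroup.card_le_card_group C
      have h4 : A.relIndex C < Z.index := by
        rw [hidx]; nlinarith [Nat.le_mul_of_pos_right (A.relIndex C) hC0]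
      rw [Subgroup.relIndex] at h4
      omega)
    refine ⟨B.map C.subtype, fun z hz => ⟨_, h (j ⟨z, hz⟩).2, rfl⟩,
      μ.comp (B.equivMapOfInjective _ C.subtype_injective).symm.toMonoidHom, fun z => ?_, ?_⟩
    · rw [← hl1, ← h1]
      simp only [MonoidHom.comp_apply]
      congr 1
      apply (B.equivMapOfInjective _ C.subtype_injective).injective
      simp only [MulEquiv.toMonoidHom_eq_coe, MonoidHom.coe_coe, MulEquiv.apply_symm_apply]
      rfl
    · rw [Subgroup.index_map_subtype, hidx]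
      change B.index ^ 2 ≤ A.relIndex C at h2
      calc (B.index * C.index) ^ 2 = C.index * (B.index ^ 2 * C.index) := by ring
        _ ≤ _ := Nat.mul_le_mul (hCi.trans hrel) (Nat.mul_le_mul_right _ h2)

theorem pgroup_case {p : ℕ} [hp : Fact p.Prime] {Q : Type u} [Group Q] (hQ : IsPGroup p Q)
    {A : Type*} [CommGroup A] (hA : Cfsg.HasSchurMultiplier Q A) {k : ℕ} (a : A)
    (ha : p ^ k ∣ orderOf a) : p ^ (2 * k) ∣ Nat.card Q := by
  rcases k with _ | k
  · simp
  have hAp := H8.hasSchur_isPGroup hA hQ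
  haveI := H8.hasSchur_finite' hA
  obtain ⟨Γ, _, _, σ, hσ, ⟨e⟩⟩ := hA.1
  have hΓ : IsPGroup p Γ := by
    have h1 : IsPGroup p (⊤ : Subgroup Q) := hQ.to_subgroup ⊤
    have h2 := h1.comap_of_ker_isPGroup σ (hAp.of_equiv e.symm)
    rw [Subgroup.comap_top] at h2
    exact h2.of_equiv Subgroup.topEquiv
  haveI := H8.stem_ker_comm hσ.2.1
  haveI : NeZero (Monoid.exponent σ.ker) := ⟨Monoid.exponent_ne_zero_of_finite⟩
  have hne : (e.symm a) ^ p ^ k ≠ 1 := by
    rw [← map_pow, Ne, MulEquiv.map_eq_one_iff, ← orderOf_dvd_iff_pow_eq_one]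
    intro h
    have := (Nat.pow_dvd_pow_iff_le_right hp.out.one_lt).mp (ha.trans h)
    omega
  obtain ⟨l, hl⟩ := CommGroup.exists_apply_ne_one_of_hasEnoughRootsOfUnity σ.ker ℂ hne
  obtain ⟨B, h, μ, h1, h2⟩ := monomial p _ Γ hΓ σ.ker hσ.2.1 l le_rfl
  obtain ⟨j, hj⟩ := hΓ.index B
  have h3 := MonoidHom.transfer_eq_pow μ (e.symm a : Γ) (fun i g _ => by
    rw [mul_assoc, ← Subgroup.mem_center_iff.mp (Subgroup.pow_mem _ (hσ.2.1 (e.symm a).2) i)]
    group)
  rw [Abelianization.commutator_subset_ker _ (hσ.2.2 (e.symm a).2)] at h3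
  have h4 : l (e.symm a ^ p ^ j) = 1 := by
    rw [← h1, h3]; congr 1
    exact Subtype.ext (by simp [hj])
  have h5 : k + 1 ≤ j := by
    by_contra hc
    apply hl
    obtain ⟨i, rfl⟩ : ∃ i, k = j + i := ⟨k - j, by omega⟩
    rw [pow_add, pow_mul, map_pow, h4, one_pow]
  obtain ⟨n, hn⟩ := hQ.exists_card_eq
  rw [Subgroup.index_ker, MonoidHom.range_eq_top_of_surjective _ hσ.1, Subgroup.card_top, hn, hj,
    ← pow_mul, Nat.pow_le_pow_iff_right hp.out.one_lt] at h2
  rw [hn]
  exact pow_dvd_pow p (by omega)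

theorem result {Q : Type*} [Group Q] [Finite Q] {A : Type*} [CommGroup A] (hA : Cfsg.HasSchurMultiplier Q A) : Monoid.exponent A ^ 2 ∣ Nat.card Q := by
  haveI := H8.hasSchur_finite hA
  have he : Monoid.exponent A ≠ 0 := Monoid.exponent_ne_zero_of_finite
  rw [Nat.dvd_iff_prime_pow_dvd_dvd]
  intro p k hp hk
  haveI : Fact p.Prime := ⟨hp⟩
  obtain ⟨a, ha⟩ := hp.exists_orderOf_eq_pow_factorization_exponent A
  obtain ⟨P⟩ : Nonempty (Sylow p Q) := inferInstance
  obtain ⟨T, I, h⟩ := H8.exists_transfer (P : Subgroup Q) hA (H8.hasSchur_SM P)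
  have hcop : (orderOf a).Coprime (P : Subgroup Q).index := by
    rw [ha]
    exact Nat.Coprime.pow_left _ ((Nat.Prime.coprime_iff_not_dvd hp).mpr P.not_dvd_index)
  have h1 : p ^ (Monoid.exponent A).factorization p ∣ orderOf (T a) := by
    rw [← ha, ← hcop.orderOf_pow, ← h]
    exact orderOf_map_dvd I _
  have h2 := pgroup_case P.isPGroup' (H8.hasSchur_SM P) _ h1
  refine dvd_trans (pow_dvd_pow p ?_) (h2.trans (Subgroup.card_subgroup_dvd_card _))
  have := (hp.pow_dvd_iff_le_factorization (pow_ne_zero 2 he)).mp hk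
  simpa using this

end Cfsg.Agent.S3952
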