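import Mathlib
import Cfsg.Statements.S3953
import Cfsg.Agent.H8.Schur6

set_option autoImplicit false
open Cfsg

namespace Cfsg.Agent.S3953

theorem result {G : Type*} [Group G] [Finite G] (p : ℕ) [Fact p.Prime] (P : Sylow p G) {A B : Type*} [CommGroup A] [CommGroup B] (hA : Cfsg.HasSchurMultiplier G A) (hB : Cfsg.HasSchurMultiplier P B) : ∃ C D : Subgroup B, C ⊓ D = ⊥ ∧ C ⊔ D = ⊤ ∧ Nonempty (CommGroup.primaryComponent A p ≃* C) := by
  obtain ⟨T, I, h⟩ := H8.exists_transfer (P : Subgroup G) hA hB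
  have hBp := H8.hasSchur_isPGroup hB P.isPGroup'
  have hAp : IsPGroup p (CommGroup.primaryComponent A p) := CommGroup.primaryComponent.isPGroup
  have hcop : p.Coprime (P : Subgroup G).index :=
    (Nat.Prime.coprime_iff_not_dvd Fact.out).mpr P.not_dvd_index
  have hinj : ∀ a : CommGroup.primaryComponent A p, I (T a) = 1 → a = 1 := by
    intro a ha
    rw [h] at ha
    apply (hAp.powEquiv hcop).injective
    rw [IsPGroup.powEquiv_apply, IsPGroup.powEquiv_apply, one_pow]
    exact Subtype.ext ha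
  let f := T.comp (CommGroup.primaryComponent A p).subtype
  have hf : Function.Injective f := by
    rw [injective_iff_map_eq_one]
    intro a ha
    apply hinj
    have : T a = 1 := ha
    rw [this, map_one]
  refine ⟨f.range, I.ker, ?_, ?_, ⟨MonoidHom.ofInjective hf⟩⟩
  · rw [eq_bot_iff]
    rintro _ ⟨⟨a, rfl⟩, ha⟩
    rw [hinj a ha, map_one]; exact Subgroup.one_mem _
  · rw [eq_top_iff]
    rintro b -
    have h1 : I b ∈ CommGroup.primaryComponent A p := by
      obtain ⟨k, hk⟩ := hBp b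
      exact ⟨k, by rw [← map_pow, hk, map_one]⟩
    obtain ⟨a, ha⟩ := (hAp.powEquiv hcop).surjective ⟨I b, h1⟩
    have h2 : (a : A) ^ (P : Subgroup G).index = I b := congrArg Subtype.val ha
    rw [Subgroup.mem_sup]
    refine ⟨f a, ⟨a, rfl⟩, (f a)⁻¹ * b, ?_, by simp⟩
    rw [MonoidHom.mem_ker, map_mul, map_inv, ← h2, ← h]
    exact inv_mul_cancel _

end Cfsg.Agent.S3953
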