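import Mathlib
import Cfsg.Statements.S3954
import Cfsg.Agent.H8.Schur6

set_option autoImplicit false
open Cfsg

namespace Cfsg.Agent.S3954

theorem result {G : Type*} [Group G] [Finite G] (U : Subgroup G) {A B : Type*} [CommGroup A] [CommGroup B] (hA : Cfsg.HasSchurMultiplier G A) (hB : Cfsg.HasSchurMultiplier U B) : ∃ C : Subgroup B, Nonempty ((powMonoidHom U.index : A →* A).range ≃* C) := by
  obtain ⟨T, I, h⟩ := H8.exists_transfer U hA hB
  haveI := H8.hasSchur_finite hB
  let f : T.range →* (powMonoidHom U.index : A →* A).range :=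
    (I.comp T.range.subtype).codRestrict _ (by
      rintro ⟨_, a, rfl⟩
      exact ⟨a, (h a).symm⟩)
  have hf : Function.Surjective f := by
    rintro ⟨_, a, rfl⟩
    exact ⟨⟨T a, a, rfl⟩, Subtype.ext (h a)⟩
  obtain ⟨g, hg⟩ := H8.exists_injective_of_surjective f hf
  exact ⟨_, ⟨MonoidHom.ofInjective (f := T.range.subtype.comp g)
    (T.range.subtype_injective.comp hg)⟩⟩

end Cfsg.Agent.S3954
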