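import Mathlib
import Cfsg.Statements.S3955
import Cfsg.Agent.H8.Schur5

set_option autoImplicit false
open Cfsg

namespace Cfsg.Agent.S3955

open scoped IsMulCommutative in

theorem result {Q : Type*} [Group Q] [Finite Q] {A : Type*} [CommGroup A] (hA : Cfsg.HasSchurMultiplier Q A) {Γ : Type*} [Group Γ] [Finite Γ] (σ : Γ →* Q) (hσ : Cfsg.IsStemExtension σ) (hk : Nonempty (σ.ker ≃* A)) (n : ℕ) (γ : Q →* (GL (Fin n) ℂ ⧸ Subgroup.center (GL (Fin n) ℂ))) : ∃ ρ : Γ →* GL (Fin n) ℂ, (QuotientGroup.mk' (Subgroup.center (GL (Fin n) ℂ))).comp ρ = γ.comp σ := by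
  obtain ⟨e⟩ := hk
  obtain ⟨e2⟩ := H8.hasSchur_unique (H8.hasSchur_SM Q) hA
  exact H8.lift_to_cover hσ (Nat.card_congr (e2.trans e.symm).toEquiv).le
    (QuotientGroup.mk'_surjective _) (by rw [QuotientGroup.ker_mk']) (H8.center_GL_divisible n) γ

end Cfsg.Agent.S3955
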