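import Mathlib
import Cfsg.Statements.S3956
import Cfsg.Agent.H8.Schur5

set_option autoImplicit false
universe u v
open Cfsg

namespace Cfsg.Agent.S3956

open scoped IsMulCommutative in

theorem result {Q : Type u} [Group Q] [Finite Q] {Γ : Type v} [Group Γ] [Finite Γ] (σ : Γ →* Q) (hσ : Cfsg.IsStemExtension σ) (hlift : ∀ (n : ℕ) (γ : Q →* (GL (Fin n) ℂ ⧸ Subgroup.center (GL (Fin n) ℂ))), ∃ ρ : Γ →* GL (Fin n) ℂ, (QuotientGroup.mk' (Subgroup.center (GL (Fin n) ℂ))).comp ρ = γ.comp σ) (Δ : Type u) [Group Δ] [Finite Δ] (τ : Δ →* Q) (hτ : Cfsg.IsStemExtension τ) : ∃ π : σ.ker →* τ.ker, Function.Surjective π := by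
  obtain ⟨e⟩ := H8.hasSchur_of_card_le (H8.hasSchur_SM Q) hσ (H8.card_le_of_lifts hσ hlift)
  obtain ⟨π, hπ⟩ := (H8.hasSchur_SM Q).2 Δ τ hτ
  exact ⟨π.comp e.symm.toMonoidHom, hπ.comp e.symm.surjective⟩

end Cfsg.Agent.S3956
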