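import Mathlib
import Cfsg.Statements.S3957
import Cfsg.Agent.H8.Schur2

set_option autoImplicit false
universe u v
open Cfsg

namespace Cfsg.Agent.S3957

open scoped IsMulCommutative in

theorem result {Q : Type u} [Group Q] [Finite Q] {A : Type v} [CommGroup A] (hA : Cfsg.HasSchurMultiplier Q A) {Δ : Type u} [Group Δ] [Finite Δ] (τ : Δ →* Q) (hτ : Cfsg.IsStemExtension τ) : ∃ (Γ : Type u) (_ : Group Γ) (_ : Finite Γ) (σ : Γ →* Q), Cfsg.IsStemExtension σ ∧ Nonempty (σ.ker ≃* A) ∧ ∃ β : Γ →* Δ, Function.Surjective β ∧ τ.comp β = σ := by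
  obtain ⟨Γ, _, _, σ, h1, ⟨e⟩, h2⟩ := H8.exists_cover_over hτ
  obtain ⟨e2⟩ := H8.hasSchur_unique (H8.hasSchur_SM Q) hA
  exact ⟨Γ, inferInstance, inferInstance, σ, h1, ⟨e.trans e2⟩, h2⟩

end Cfsg.Agent.S3957
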