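import Mathlib
import Cfsg.Statements.S3958
import Cfsg.Agent.H8.Schur2

set_option autoImplicit false
universe u v
open Cfsg

namespace Cfsg.Agent.S3958

open scoped IsMulCommutative in

theorem result {Q : Type u} [Group Q] [Finite Q] {Γ : Type v} [Group Γ] [Finite Γ] (σ : Γ →* Q) (hσ : Cfsg.IsStemExtension σ) (hΓ : Cfsg.HasCyclicSchurMultiplier Γ 1) (Δ : Type u) [Group Δ] [Finite Δ] (τ : Δ →* Q) (hτ : Cfsg.IsStemExtension τ) : ∃ π : σ.ker →* τ.ker, Function.Surjective π := by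
  obtain ⟨Γ', _, _, σ', h1, ⟨e⟩, β, hβ, h2⟩ := H8.exists_cover_over hσ
  have hk : β.ker ≤ σ'.ker := fun x hx => by
    rw [MonoidHom.mem_ker, ← h2, MonoidHom.comp_apply, MonoidHom.mem_ker.mp hx, map_one]
  have hst : Cfsg.IsStemExtension β := ⟨hβ, hk.trans h1.2.1, hk.trans h1.2.2⟩
  have hb := H8.ker_eq_bot_of_hasSchur_one hΓ hst
  let e2 : Γ' ≃* Γ := MulEquiv.ofBijective β ⟨(MonoidHom.ker_eq_bot_iff β).mp hb, hβ⟩
  obtain ⟨_, ⟨e3⟩⟩ := H8.stem_comp_equiv hσ e2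
  have h3 : σ.comp e2.toMonoidHom = σ' := h2
  rw [h3] at e3
  obtain ⟨π, hπ⟩ := (H8.hasSchur_SM Q).2 Δ τ hτ
  exact ⟨π.comp (e3.symm.trans e).toMonoidHom, hπ.comp (e3.symm.trans e).surjective⟩

end Cfsg.Agent.S3958
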