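import Mathlib
import Cfsg.Statements.S3959
import Cfsg.Agent.H8.Schur4

set_option autoImplicit false
universe u v w
open Cfsg

namespace Cfsg.Agent.S3959

open scoped IsMulCommutative TensorProduct

theorem exists_tensor_lift {M N K : Type*} [CommGroup M] [CommGroup N] [CommGroup K]
    (B : M →* N →* K) : ∃ θ : Multiplicative (Additive M ⊗[ℤ] Additive N) →* K,
      ∀ m n, θ (Multiplicative.ofAdd (Additive.ofMul m ⊗ₜ Additive.ofMul n)) = B m n := by
  let f : Additive M →+ Additive N →+ Additive K := AddMonoidHom.mk'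
    (fun m => MonoidHom.toAdditive (B m.toMul)) (fun a b => by ext n; simp)
  let g := TensorProduct.liftAddHom (R := ℤ) f (fun r m n => by simp [map_zsmul])
  exact ⟨AddMonoidHom.toMultiplicativeLeft g, fun m n => rfl⟩

/-- the universal pairing -/
noncomputable def pairing (M N : Type*) [CommGroup M] [CommGroup N] :
    M →* N →* Multiplicative (Additive M ⊗[ℤ] Additive N) :=
  MonoidHom.mk' (fun m => MonoidHom.mk'
    (fun n => Multiplicative.ofAdd (Additive.ofMul m ⊗ₜ Additive.ofMul n))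
    (fun a b => by simp [TensorProduct.tmul_add]))
    (fun a b => by ext n; simp [TensorProduct.add_tmul])

theorem pairing_gen {M N : Type*} [CommGroup M] [CommGroup N]
    (L : Subgroup (Multiplicative (Additive M ⊗[ℤ] Additive N)))
    (h : ∀ m n, pairing M N m n ∈ L) : L = ⊤ := by
  rw [eq_top_iff]
  rintro x -
  have : ∀ y : Additive M ⊗[ℤ] Additive N, Multiplicative.ofAdd y ∈ L := by
    intro y
    induction y using TensorProduct.induction_on with
    | zero => exact L.one_mem
    | tmul a b => exact h a.toMul b.toMul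
    | add a b ha hb => exact L.mul_mem ha hb
  exact this x.toAdd

theorem result {Q₁ : Type u} {Q₂ : Type v} [Group Q₁] [Group Q₂] [Finite Q₁] [Finite Q₂] {A B : Type w} [CommGroup A] [CommGroup B] (hA : Cfsg.HasSchurMultiplier Q₁ A) (hB : Cfsg.HasSchurMultiplier Q₂ B) : Cfsg.HasSchurMultiplier (Q₁ × Q₂) (A × B × Multiplicative (TensorProduct ℤ (Additive (Abelianization Q₁)) (Additive (Abelianization Q₂)))) := by
  obtain ⟨Γ₁, _, _, σ₁, h₁, ⟨e₁⟩⟩ := hA.1
  obtain ⟨Γ₂, _, _, σ₂, h₂, ⟨e₂⟩⟩ := hB.1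
  obtain ⟨h3, ⟨e3⟩⟩ := H8.stem_prod h₁ h₂
  let a₁ : Γ₁ × Γ₂ →* Abelianization Q₁ := (Abelianization.of.comp σ₁).comp (MonoidHom.fst _ _)
  let a₂ : Γ₁ × Γ₂ →* Abelianization Q₂ := (Abelianization.of.comp σ₂).comp (MonoidHom.snd _ _)
  let c := (pairing (Abelianization Q₁) (Abelianization Q₂)).compl₂ a₂ |>.comp a₁
  obtain ⟨h4, ⟨e4⟩⟩ := H8.BExt.stem (c := c) h3 (fun L hL => pairing_gen L (fun m n => by
    obtain ⟨q₁, rfl⟩ : ∃ q, Abelianization.of q = m := QuotientGroup.mk_surjective m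
    obtain ⟨q₂, rfl⟩ : ∃ q, Abelianization.of q = n := QuotientGroup.mk_surjective n
    obtain ⟨g₁, rfl⟩ := h₁.1 q₁
    obtain ⟨g₂, rfl⟩ := h₂.1 q₂
    have := hL (g₁, 1) (1, g₂) (by simp)
    simpa [c, a₁, a₂] using this))
  haveI : Finite (TensorProduct ℤ (Additive (Abelianization Q₁)) (Additive (Abelianization Q₂))) := by
    haveI : Module.Finite ℤ (Additive (Abelianization Q₁)) := Module.Finite.of_finite
    haveI : Module.Finite ℤ (Additive (Abelianization Q₂)) := Module.Finite.of_finite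
    haveI h0 : Module.Finite ℤ (TensorProduct ℤ (Additive (Abelianization Q₁))
      (Additive (Abelianization Q₂))) := Module.Finite.tensorProduct _ _ _
    refine @Module.finite_of_fg_torsion _ _ _ h0 ?_
    intro y
    refine ⟨⟨(Nat.card (Additive (Abelianization Q₁)) : ℤ), mem_nonZeroDivisors_of_ne_zero
      (by exact_mod_cast Nat.card_pos.ne')⟩, ?_⟩
    induction y using TensorProduct.induction_on with
    | zero => simp
    | tmul a b =>
      rw [Submonoid.mk_smul, TensorProduct.smul_tmul', natCast_zsmul, card_nsmul_eq_zero',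
        TensorProduct.zero_tmul]
    | add a b ha hb => rw [smul_add, ha, hb, add_zero]
  refine H8.hasSchur_intro h4 (e4.trans (((e3.trans (e₁.prodCongr e₂)).prodCongr
    (MulEquiv.refl _)).trans MulEquiv.prodAssoc)) (fun Δ _ _ τ hτ => ?_)
  haveI := H8.stem_ker_comm hτ.2.1
  obtain ⟨α, β, b, hb⟩ := H8.prod_upper hA hB hτ
  let b1 : Q₁ →* Abelianization Q₂ →* τ.ker := MonoidHom.mk' (fun q => Abelianization.lift (b q))
    (fun x y => by ext; simp)
  obtain ⟨θ, hθ⟩ := exists_tensor_lift (Abelianization.lift b1)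
  refine ⟨α.coprod (β.coprod θ), ?_⟩
  rw [← MonoidHom.range_eq_top]
  refine hb _ (fun a => ⟨(a, 1, 1), by simp⟩) (fun a => ⟨(1, a, 1), by simp⟩) (fun q₁ q₂ =>
    ⟨(1, 1, Multiplicative.ofAdd (Additive.ofMul (Abelianization.of q₁) ⊗ₜ
      Additive.ofMul (Abelianization.of q₂))), ?_⟩)
  simp only [MonoidHom.coprod_apply, map_one, one_mul, hθ]
  rfl

end Cfsg.Agent.S3959
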