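import Mathlib
import Cfsg.Statements.S3960
import Cfsg.Agent.H8.Schur3

set_option autoImplicit false
universe u
open Cfsg

namespace Cfsg.Agent.S3960

theorem result {Q : Type u} [Group Q] [Finite Q] (hQ : Group.IsPerfect Q) : ∃ (G : Type u) (_ : Group G) (_ : Finite G) (π : G →* Q), Group.IsPerfect G ∧ Function.Surjective π ∧ π.ker ≤ Subgroup.center G ∧ ∀ (X : Type u) [Group X] (ξ : X →* Q), Function.Surjective ξ → ξ.ker ≤ Subgroup.center X → ∃! η : G →* X, ξ.comp η = π := by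
  obtain ⟨h1, h2, h3, h4⟩ := H8.univ_props (H8.freeMap_surjective Q) hQ
  refine ⟨_, inferInstance, h1, H8.univMap (H8.freeMap Q), h2, h3, h4, fun X _ ξ hs hc => ?_⟩
  obtain ⟨η, hη⟩ := H8.univ_lift (H8.freeMap Q) ξ hs hc
  exact ⟨η, hη, fun η' hη' => H8.eq_of_perfect_over h2 hc (hη'.trans hη.symm)⟩

end Cfsg.Agent.S3960
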