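import Mathlib
import Cfsg.Statements.S3962

set_option autoImplicit false
open Cfsg

namespace Cfsg.Agent.S3962

open scoped IsMulCommutative in
theorem result {G Q : Type*} [Group G] [Group Q] (hG : Group.IsPerfect G) (π : G →* Q) (hπ : Function.Surjective π) (hker : π.ker ≤ Subgroup.center G) : (Subgroup.center G).map π = Subgroup.center Q := by
  apply le_antisymm
  · rintro _ ⟨z, hz, rfl⟩
    rw [Subgroup.mem_center_iff]
    intro q
    obtain ⟨g, rfl⟩ := hπ q
    rw [← map_mul, ← map_mul, Subgroup.mem_center_iff.mp hz g]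
  · intro q hq
    obtain ⟨z, rfl⟩ := hπ q
    refine ⟨z, ?_, rfl⟩
    have hc : ∀ g : G, z * g * z⁻¹ * g⁻¹ ∈ Subgroup.center G := by
      intro g
      apply hker
      rw [MonoidHom.mem_ker]
      have := Subgroup.mem_center_iff.mp hq (π g)
      simp only [map_mul, map_inv]
      rw [← this]; group
    let f : G →* Subgroup.center G :=
      { toFun := fun g => ⟨z * g * z⁻¹ * g⁻¹, hc g⟩
        map_one' := by ext; simp
        map_mul' := by
          intro a b
          ext
          have h1 := Subgroup.mem_center_iff.mp (hc b)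
          simp only [Subgroup.coe_mul]
          calc z * (a * b) * z⁻¹ * (a * b)⁻¹ = (z * a * z⁻¹) * (z * b * z⁻¹ * b⁻¹) * a⁻¹ := by group
            _ = (z * a * z⁻¹) * (a⁻¹ * (z * b * z⁻¹ * b⁻¹)) := by rw [h1 a⁻¹]; group
            _ = _ := by group }
    have hle : commutator G ≤ f.ker := Abelianization.commutator_subset_ker f
    rw [hG.commutator_eq_top] at hle
    show z ∈ Subgroup.center G
    rw [Subgroup.mem_center_iff]
    intro g
    have := hle (Subgroup.mem_top g)
    rw [MonoidHom.mem_ker] at this
    have h2 : z * g * z⁻¹ * g⁻¹ = 1 := congrArg Subtype.val this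
    calc g * z = (z * g * z⁻¹ * g⁻¹) * (g * z) := by rw [h2]; group
      _ = z * g := by group

end Cfsg.Agent.S3962
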