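import Mathlib
import Cfsg.Statements.S3961
import Cfsg.Agent.H8.Schur3
import Cfsg.Agent.S3962

set_option autoImplicit false
universe u v
open Cfsg

namespace Cfsg.Agent.S3961

theorem result {G : Type u} {Q : Type v} [Group G] [Group Q] [Finite G] (hG : Group.IsPerfect G) (π : G →* Q) (hπ : Function.Surjective π) (hker : π.ker ≤ Subgroup.center G) : (∀ (X : Type u) [Group X] (ξ : X →* Q), Function.Surjective ξ → ξ.ker ≤ Subgroup.center X → ∃ η : G →* X, ξ.comp η = π) ↔ Cfsg.HasCyclicSchurMultiplier G 1 := by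
  haveI : Finite Q := Finite.of_surjective π hπ
  constructor
  · intro h
    rw [H8.hasSchur_one_iff]
    intro Δ _ _ τ hτ
    have hΔ : Group.IsPerfect Δ := H8.perfect_of_stem hG hτ
    have hc : (π.comp τ).ker ≤ Subgroup.center Δ := by
      intro x hx
      have h1 : τ x ∈ Subgroup.center G := hker hx
      rw [← Cfsg.Agent.S3962.result hΔ τ hτ.1 hτ.2.1] at h1
      obtain ⟨z, hz, hzx⟩ := h1
      have h2 : z⁻¹ * x ∈ τ.ker := by
        rw [MonoidHom.mem_ker, map_mul, map_inv, hzx, inv_mul_cancel]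
      simpa using Subgroup.mul_mem _ hz (hτ.2.1 h2)
    obtain ⟨η, hη⟩ := h Δ (π.comp τ) (hπ.comp hτ.1) hc
    have h3 : τ.comp η = MonoidHom.id G :=
      H8.eq_of_perfect_over (ξ := π) hG hker (by simpa [MonoidHom.comp_assoc] using hη)
    have h4 := H8.surjective_of_over_stem Function.surjective_id hτ h3
    rw [eq_bot_iff]
    intro x hx
    obtain ⟨g, rfl⟩ := h4 x
    have h5 : g = 1 := by
      have := DFunLike.congr_fun h3 g
      simp only [MonoidHom.comp_apply, MonoidHom.id_apply] at this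
      rw [← this]; exact hx
    simp [h5]
  · intro h X _ ξ hs hc
    let φ : FreeGroup G →* Q := π.comp (H8.freeMap G)
    have hφ : Function.Surjective φ := hπ.comp (H8.freeMap_surjective G)
    have hQ : Group.IsPerfect Q := Group.IsPerfect.ofSurjective hπ
    obtain ⟨h1, h2, h3, h4⟩ := H8.univ_props hφ hQ
    obtain ⟨η0, hη0⟩ := H8.univ_lift φ π hπ hker
    obtain ⟨η, hη⟩ := H8.univ_lift φ ξ hs hc
    have hst : Cfsg.IsStemExtension π := ⟨hπ, hker, by simp⟩
    have h5 := H8.surjective_of_over_stem h3 hst hη0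
    have hk : η0.ker ≤ (H8.univMap φ).ker := fun x hx => by
      rw [MonoidHom.mem_ker, ← hη0, MonoidHom.comp_apply, MonoidHom.mem_ker.mp hx, map_one]
    have hst0 : Cfsg.IsStemExtension η0 := ⟨h5, hk.trans h4, by simp⟩
    have hb := H8.ker_eq_bot_of_hasSchur_one h hst0
    let e := MulEquiv.ofBijective η0 ⟨(MonoidHom.ker_eq_bot_iff η0).mp hb, h5⟩
    refine ⟨η.comp e.symm.toMonoidHom, ?_⟩
    ext g
    obtain ⟨x, rfl⟩ := e.surjective g
    have h6 := DFunLike.congr_fun hη x
    have h7 := DFunLike.congr_fun hη0 x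
    simp only [MonoidHom.comp_apply] at h6 h7 ⊢
    simp only [MulEquiv.toMonoidHom_eq_coe, MonoidHom.coe_coe, MulEquiv.symm_apply_apply]
    rw [h6, ← h7]; rfl

end Cfsg.Agent.S3961
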