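import Mathlib
import Cfsg.Statements.S3964
import Cfsg.Agent.H8.Meta3

set_option autoImplicit false
open Cfsg

namespace Cfsg.Agent.S3964

theorem result (n : ℕ) (hn : Odd n) : Cfsg.HasCyclicSchurMultiplier (DihedralGroup n) 1 := by
  have hn0 := hn.pos
  haveI : NeZero n := ⟨hn0.ne'⟩
  have := H8.meta_schur (H8.isMeta_dihedral n) two_pos (d := 1) (m1 := n) (r1 := 2 * (n - 1))
    (l := 0) (e := 1) (by simp) (by omega) one_pos hn0 (by
      refine Nat.Coprime.mul_right (Nat.coprime_two_right.mpr hn) ?_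
      obtain ⟨k, rfl⟩ : ∃ k, n = k + 1 := ⟨n - 1, by omega⟩
      simp) (by simp) (by
      have : ∑ i ∈ Finset.range 2, (2 * n - 1) ^ i = 2 * n := by
        simp [Finset.sum_range_succ]; omega
      rw [this]; simp)
  simpa using this

end Cfsg.Agent.S3964
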