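import Mathlib
import Cfsg.Statements.S3966
import Cfsg.Agent.H8.Meta3

set_option autoImplicit false
open Cfsg

namespace Cfsg.Agent.S3966

open scoped commutatorElement

/-- the natural map -/
def toDihedral (n : ℕ) : QuaternionGroup n →* DihedralGroup n :=
  MonoidHom.mk' (fun x => match x with
    | .a i => .r (ZMod.castHom (Dvd.intro_left 2 rfl) (ZMod n) i)
    | .xa i => .sr (ZMod.castHom (Dvd.intro_left 2 rfl) (ZMod n) i)) (by
      rintro (i | i) (j | j)
      · simp only [QuaternionGroup.a_mul_a, DihedralGroup.r_mul_r, map_add]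
      · simp only [QuaternionGroup.a_mul_xa, DihedralGroup.r_mul_sr, map_sub]
      · simp only [QuaternionGroup.xa_mul_a, DihedralGroup.sr_mul_r, map_add]
      · simp only [QuaternionGroup.xa_mul_xa, DihedralGroup.sr_mul_sr, map_sub, map_add,
          map_natCast, ZMod.natCast_self, zero_add])

theorem result (n : ℕ) [NeZero n] (hn : Even n) : ∃ σ : QuaternionGroup n →* DihedralGroup n, Cfsg.IsStemExtension σ ∧ Nat.card σ.ker = 2 := by
  have hs : Function.Surjective (toDihedral n) := by
    rintro (i | i)
    · obtain ⟨j, hj⟩ := ZMod.castHom_surjective (Dvd.intro_left 2 rfl : n ∣ 2 * n) i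
      exact ⟨.a j, congrArg DihedralGroup.r hj⟩
    · obtain ⟨j, hj⟩ := ZMod.castHom_surjective (Dvd.intro_left 2 rfl : n ∣ 2 * n) i
      exact ⟨.xa j, congrArg DihedralGroup.sr hj⟩
  have hc : Nat.card (toDihedral n).ker = 2 := by
    have h1 := Subgroup.card_mul_index (toDihedral n).ker
    rw [Subgroup.index_ker, MonoidHom.range_eq_top_of_surjective _ hs, Subgroup.card_top,
      DihedralGroup.nat_card, Nat.card_eq_fintype_card (α := QuaternionGroup n),
      QuaternionGroup.card] at h1
    have hn0 := NeZero.pos n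
    have : Nat.card (toDihedral n).ker * (2 * n) = 2 * (2 * n) := by omega
    exact Nat.eq_of_mul_eq_mul_right (by omega) this
  have hz : (QuaternionGroup.a n : QuaternionGroup n) ∈ (toDihedral n).ker := by
    show DihedralGroup.r (ZMod.castHom _ (ZMod n) (n : ZMod (2 * n))) = 1
    rw [map_natCast, ZMod.natCast_self]; rfl
  have hk : (toDihedral n).ker = Subgroup.zpowers (QuaternionGroup.a n : QuaternionGroup n) := by
    symm
    apply Subgroup.eq_of_le_of_card_ge (by simpa using hz)
    rw [hc, Nat.card_zpowers, ← QuaternionGroup.xa_sq 0, orderOf_pow' _ two_ne_zero,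
      QuaternionGroup.orderOf_xa]
    norm_num
  refine ⟨toDihedral n, ⟨hs, ?_, ?_⟩, hc⟩
  · rw [hk, Subgroup.zpowers_le, Subgroup.mem_center_iff]
    rintro (i | i)
    · simp [add_comm]
    · simp only [QuaternionGroup.xa_mul_a, QuaternionGroup.a_mul_xa, QuaternionGroup.xa.injEq]
      linear_combination H8.zmod_two_mul_self n
  · rw [hk, Subgroup.zpowers_le]
    obtain ⟨k, hk⟩ := hn
    have : (QuaternionGroup.a n : QuaternionGroup n) =
        ⁅QuaternionGroup.a (k : ZMod (2 * n)), QuaternionGroup.xa 0⁆ := by
      rw [commutatorElement_def, H8.quaternion_inv_xa, H8.quaternion_inv_a]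
      simp only [QuaternionGroup.xa_mul_a, QuaternionGroup.a_mul_xa, QuaternionGroup.xa_mul_xa,
        QuaternionGroup.a.injEq]
      have h1 : (n : ZMod (2 * n)) = k + k := by
        have := congrArg (Nat.cast : ℕ → ZMod (2 * n)) hk
        simpa using this
      linear_combination h1 - H8.zmod_two_mul_self n
    rw [this]
    exact Subgroup.commutator_mem_commutator (Subgroup.mem_top _) (Subgroup.mem_top _)

end Cfsg.Agent.S3966
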