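import Mathlib
import Cfsg.Statements.S3967
import Cfsg.Agent.H8.Meta2

set_option autoImplicit false
open Cfsg

namespace Cfsg.Agent.S3967

theorem result (m n r l : ℕ) (hm : 0 < m) (hn : 0 < n) (hr : 0 < r) (hrn : r ^ n ≡ 1 [MOD m]) : Cfsg.HasCyclicSchurMultiplier (PresentedGroup ({FreeGroup.of true ^ m, (FreeGroup.of false) ^ n * (FreeGroup.of true ^ (m * l / Nat.gcd m (r - 1)))⁻¹, FreeGroup.of false * FreeGroup.of true * (FreeGroup.of false)⁻¹ * (FreeGroup.of true ^ r)⁻¹} : Set (FreeGroup Bool))) (Nat.gcd l (Nat.gcd m (r - 1) * Nat.gcd m (∑ i ∈ Finset.range n, r ^ i) / m)) := by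
  obtain ⟨d, hd⟩ : ∃ d, d = Nat.gcd m (r - 1) := ⟨_, rfl⟩
  have hd0 : 0 < d := hd ▸ Nat.gcd_pos_of_pos_left _ hm
  obtain ⟨m1, hm1⟩ : d ∣ m := hd ▸ Nat.gcd_dvd_left _ _
  obtain ⟨r1, hr1⟩ : d ∣ r - 1 := hd ▸ Nat.gcd_dvd_right _ _
  have hm10 : 0 < m1 := Nat.pos_of_mul_pos_left (hm1 ▸ hm)
  have hcop : m1.Coprime r1 := by
    have h1 : d * Nat.gcd m1 r1 = d * 1 := by
      rw [← Nat.gcd_mul_left, ← hm1, ← hr1, ← hd, mul_one]
    exact Nat.eq_of_mul_eq_mul_left hd0 h1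
  have hr' : r = d * r1 + 1 := by omega
  have hS : m1 ∣ ∑ i ∈ Finset.range n, r ^ i := by
    have h1 : (∑ i ∈ Finset.range n, r ^ i) * (d * r1) + 1 ≡ 0 + 1 [MOD m] := by
      conv_lhs => rw [hr', geom_sum_mul_add, ← hr']
      exact hrn
    have h2 := (Nat.modEq_zero_iff_dvd).mp (Nat.ModEq.add_right_cancel' 1 h1)
    rw [hm1, mul_left_comm, Nat.mul_dvd_mul_iff_left hd0] at h2
    exact hcop.dvd_of_dvd_mul_right h2
  obtain ⟨e, he⟩ : m1 ∣ Nat.gcd m (∑ i ∈ Finset.range n, r ^ i) :=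
    Nat.dvd_gcd ⟨d, by rw [hm1, mul_comm]⟩ hS
  have ht : m * l / d = m1 * l := by
    rw [hm1, mul_assoc, Nat.mul_div_cancel_left _ hd0]
  have he2 : d * Nat.gcd m (∑ i ∈ Finset.range n, r ^ i) / m = e := by
    rw [he, ← mul_assoc, ← hm1, Nat.mul_div_cancel_left _ hm]
  rw [← hd, ht, he2]
  refine H8.meta_schur (H8.isMeta_pres m n r (m1 * l) hm hn hrn ?_) hn hm1 hr' hd0 hm10 hcop rfl he
  have : r * (m1 * l) = m1 * l + m * (r1 * l) := by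
    conv_lhs => rw [hr']
    rw [hm1]; ring
  rw [this]
  simp [Nat.ModEq]

end Cfsg.Agent.S3967
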