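import Cfsg.Statements.S3970
import Cfsg.Agent.H3.Misc2
import Cfsg.Agent.H17.FT

set_option autoImplicit false
open Cfsg

namespace Cfsg.Agent.S3970

/-- Let `G` be a finite group such that for every prime `p` dividing its order, other than the largest such prime, the Sylow `p`-subgroups are abelian and generated by at most two elements, and suppose `12` does not divide the order of `G`. Then `G` is solvable. In particular a group of cube-free order not divisible by `12` is solvable. -/
theorem result {G : Type*} [Group G] [Finite G] (h : ∀ p : ℕ, p.Prime → p ∣ Nat.card G → (∃ q : ℕ, q.Prime ∧ q ∣ Nat.card G ∧ p < q) → ∀ P : Sylow p G, IsMulCommutative (P : Subgroup G) ∧ Group.rank (P : Subgroup G) ≤ 2) (h12 : ¬ 12 ∣ Nat.card G) : Group.IsSolvable G := by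
  by_cases h2 : 2 ∣ Nat.card G
  swap
  · exact H17.odd_solvable (Nat.odd_iff.mpr (Nat.two_dvd_ne_zero.mp h2))
  have : Fact (Nat.Prime 2) := ⟨Nat.prime_two⟩
  refine H3.isSolvable_of_npc (p := 2) ?_ fun N hN => H17.odd_solvable (Nat.coprime_two_right.mp hN)
  obtain ⟨P⟩ : Nonempty (Sylow 2 G) := inferInstance
  by_cases hq : ∃ q : ℕ, q.Prime ∧ q ∣ Nat.card G ∧ 2 < q
  · obtain ⟨hab, hr⟩ := h 2 Nat.prime_two h2 hq P
    refine H3.hasNormalPComplement_of_abelian_of_forall P fun q hq hqp hqG g k hk hg => ?_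
    by_contra hc
    obtain ⟨m, hm0, hm, hm', hd⟩ := H3.exists_dvd_pow_sub_one_rank P.isPGroup' hq hqp hk hg hc
    have hm2 := hm.trans hr
    interval_cases m
    · exact hq.one_lt.ne' (by simpa using hd)
    · have h3 : q = 3 := (Nat.prime_dvd_prime_iff_eq hq Nat.prime_three).mp (by simpa using hd)
      subst h3
      exact h12 (Nat.Coprime.mul_dvd_of_dvd_of_dvd (m := 4) (n := 3) (by norm_num)
        (hm'.trans (Subgroup.card_subgroup_dvd_card _)) hqG)
  · refine H3.hasNormalPComplement_of_not_dvd fun q hq' hq2 hqG => ?_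
    exact absurd ⟨q, hq', hqG, lt_of_le_of_ne hq'.two_le (Ne.symm hq2)⟩ hq

end Cfsg.Agent.S3970
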