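import Cfsg.Statements.S3971
import Cfsg.Agent.H3.Misc2

set_option autoImplicit false
open Cfsg

namespace Cfsg.Agent.S3971

/-- Let `G` be a finite group of order `2 ^ a * n` with `n` odd and not divisible by `3`, and suppose `G` has an element of order `2 ^ (a - 1)` (so a Sylow `2`-subgroup has a cyclic subgroup of index at most `2`). Then `G` has a normal subgroup of order `n`. -/
theorem result {G : Type*} [Group G] [Finite G] (a n : ℕ) (hG : Nat.card G = 2 ^ a * n) (hn : Odd n) (h3 : ¬ 3 ∣ n) (hx : ∃ x : G, orderOf x = 2 ^ (a - 1)) : ∃ N : Subgroup G, N.Normal ∧ Nat.card N = n := by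
  have : Fact (Nat.Prime 2) := ⟨Nat.prime_two⟩
  obtain ⟨x, hx⟩ := hx
  have hxp : IsPGroup 2 (Subgroup.zpowers x) := IsPGroup.of_card (by rw [Nat.card_zpowers, hx])
  obtain ⟨P, hP⟩ := hxp.exists_le_sylow
  have hn2 : ¬ 2 ∣ n := Nat.two_dvd_ne_zero.mpr (Nat.odd_iff.mp hn)
  have hn0 : n ≠ 0 := fun h => hn2 (h ▸ dvd_zero 2)
  have hcP : Nat.card (P : Subgroup G) = 2 ^ a := by
    rw [P.card_eq_multiplicity, hG, Nat.factorization_mul (by positivity) hn0,
      Finsupp.add_apply, Nat.factorization_eq_zero_of_not_dvd hn2]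
    simp [Nat.prime_two.factorization]
  have hmeta : Cfsg.IsMetacyclic (P : Subgroup G) := by
    let y : (P : Subgroup G) := ⟨x, hP (Subgroup.mem_zpowers x)⟩
    have hy : orderOf y = 2 ^ (a - 1) := by rw [← hx]; exact Subgroup.orderOf_mk _ _
    have hi : (Subgroup.zpowers y).index ∣ 2 := by
      have h1 := (Subgroup.zpowers y).card_mul_index
      rw [Nat.card_zpowers, hy, hcP] at h1
      rcases a with _ | a
      · simp at h1; simp [h1]
      · rw [Nat.add_sub_cancel, pow_succ] at h1
        exact (Nat.eq_of_mul_eq_mul_left (by positivity) h1).dvd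
    refine H3.isMetacyclic_of_index_dvd_prime hi ?_
    rcases (Nat.dvd_prime Nat.prime_two).mp hi with h | h
    · rw [Subgroup.index_eq_one.mp h]; infer_instance
    · exact Subgroup.normal_of_index_eq_two h
  have hnpc : Cfsg.HasNormalPComplement 2 G := by
    refine H3.npc_of_isMetacyclic P hmeta fun q hq hq2 hqG hd => h3 ?_
    have h3 : q = 3 := (Nat.prime_dvd_prime_iff_eq hq Nat.prime_three).mp (by simpa using hd)
    subst h3
    rw [hG] at hqG
    exact (Nat.Coprime.pow_right a (by norm_num)).dvd_of_dvd_mul_left hqG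
  obtain ⟨N, hN, hc⟩ := (H3.hasNormalPComplement_iff_sylow P).mp hnpc
  refine ⟨N, hN, ?_⟩
  have := hc.card_mul_card
  rw [hcP, hG, mul_comm] at this
  exact Nat.eq_of_mul_eq_mul_left (by positivity) this

end Cfsg.Agent.S3971
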