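import Mathlib
import Cfsg.Statements.S3972
import Cfsg.Agent.H8.BGrp

set_option autoImplicit false
open Cfsg

namespace Cfsg.Agent.S3972

theorem result {Ω : Type*} [Fintype Ω] [DecidableEq Ω] (p m : ℕ) (hp : p.Prime) (hm : 2 ≤ m) (hΩ : Fintype.card Ω = p ^ m) (G : Subgroup (Equiv.Perm Ω)) (htr : MulAction.IsPretransitive G Ω) (h2 : ¬ MulAction.IsMultiplyPretransitive G Ω 2) (g : G) (hg : orderOf g = p ^ m) : ¬ MulAction.IsPreprimitive G Ω ∧ ¬ MulAction.IsPretransitive (Subgroup.normalClosure ({g ^ (p ^ (m - 1))} : Set G)) Ω := by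
  obtain ⟨ω, hb⟩ := H8.exists_regular_zpowers (Ω := Ω) hp (by omega) hg
    (by rw [Nat.card_eq_fintype_card, hΩ])
  have h : ¬ MulAction.IsPreprimitive G Ω := fun _ => h2
    (H8.two_pretransitive_of_cyclic (Subgroup.zpowers g) ω hb
      (by rw [Nat.card_zpowers, hg]; exact (Nat.one_lt_pow (by omega) hp.one_lt).ne')
      (by rw [Nat.card_zpowers, hg]; exact Nat.Prime.not_prime_pow hm))
  exact ⟨h, H8.not_pretransitive_normalClosure hp hg hb h⟩

end Cfsg.Agent.S3972
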