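import Mathlib
import Cfsg.Statements.S3973
import Cfsg.Agent.H8.Schur4

set_option autoImplicit false
open Cfsg

namespace Cfsg.Agent.S3973

open scoped IsMulCommutative

theorem rank_le_finrank {M : Type*} [AddCommGroup M] [Module.Free ℤ M] [Module.Finite ℤ M]
    {A : Type*} [CommGroup A] [Group.FG A] (f : M →+ Additive A) (hf : Function.Surjective f) :
    Group.rank A ≤ Module.finrank ℤ M := by
  classical
  let b := Module.finBasis ℤ M
  refine (Group.rank_le (S := Finset.univ.image (fun i => (f (b i)).toMul)) ?_).trans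
    (Finset.card_image_le.trans (by simp))
  rw [eq_top_iff]
  rintro x -
  obtain ⟨m, hm⟩ := hf (Additive.ofMul x)
  have : x = (f m).toMul := by rw [hm]; rfl
  rw [this, ← b.sum_repr m, map_sum, toMul_sum]
  refine Subgroup.prod_mem _ fun i _ => ?_
  rw [map_zsmul, toMul_zsmul]
  exact Subgroup.zpow_mem _ (Subgroup.subset_closure (by simp)) _

theorem aux {M N A : Type*} [AddCommGroup M] [Module.Free ℤ M] [Module.Finite ℤ M]
    [AddCommGroup N] [Module.Free ℤ N] [Module.Finite ℤ N] (θ : M →ₗ[ℤ] N) (k : ℕ) (hk : k ≠ 0)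
    (h : ∀ x, k • x ∈ θ.range) [CommGroup A] [Group.FG A] (f : θ.ker →+ Additive A)
    (hf : Function.Surjective f) :
    Group.rank A ≤ Module.finrank ℤ M - Module.finrank ℤ N := by
  have h1 := rank_le_finrank f hf
  have h₂ := θ.quotKerEquivRange.finrank_eq
  have h₃ := θ.ker.finrank_quotient_add_finrank
  have h4 : Module.finrank ℤ N ≤ Module.finrank ℤ θ.range := by
    refine LinearMap.finrank_le_finrank_of_injective
      (f := LinearMap.codRestrict θ.range (k • LinearMap.id) h) ?_
    intro x y hxy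
    have h5 : k • x = k • y := congrArg Subtype.val hxy
    haveI : IsAddTorsionFree N := Module.isTorsionFree_int_iff_isAddTorsionFree.mp inferInstance
    exact nsmul_right_injective hk h5
  omega

theorem result (n : ℕ) (rels : Finset (FreeGroup (Fin n))) [Finite (PresentedGroup (rels : Set (FreeGroup (Fin n))))] {A : Type*} [CommGroup A] [Finite A] (hA : Cfsg.HasSchurMultiplier (PresentedGroup (rels : Set (FreeGroup (Fin n)))) A) : Group.rank A ≤ rels.card - n := by
  classical
  let φ := PresentedGroup.mk (rels : Set (FreeGroup (Fin n)))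
  have hφ : Function.Surjective φ := PresentedGroup.mk_surjective _
  obtain ⟨e⟩ := H8.hasSchur_equiv_mult hφ hA
  rw [Group.rank_congr e]
  haveI := H8.stem_ker_comm (H8.covMap_central φ)
  let g : rels → (H8.covMap φ).ker := fun r => ⟨(r.1 : H8.Cov φ), PresentedGroup.one_of_mem r.2⟩
  let Θ : (rels → ℤ) →ₗ[ℤ] Additive (H8.covMap φ).ker :=
    Fintype.linearCombination ℤ (fun r => Additive.ofMul (g r))
  have hΘ : Function.Surjective Θ := by
    let L : Subgroup (H8.Cov φ) :=
      (AddSubgroup.toSubgroup' Θ.range.toAddSubgroup).map (H8.covMap φ).ker.subtype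
    haveI : L.Normal := H8.normal_of_le_center
      ((Subgroup.map_subtype_le _).trans (H8.covMap_central φ))
    have h1 : Subgroup.normalClosure (rels : Set (FreeGroup (Fin n))) ≤
        L.comap (QuotientGroup.mk' _) := by
      apply Subgroup.normalClosure_le_normal
      intro r hr
      exact ⟨g ⟨r, hr⟩, ⟨Pi.single ⟨r, hr⟩ 1, by simp [Θ]; rfl⟩, rfl⟩
    rintro ⟨x, hx⟩
    obtain ⟨f, rfl⟩ := QuotientGroup.mk_surjective x
    obtain ⟨y, ⟨c, hc⟩, hy⟩ := h1 (PresentedGroup.mk_eq_one_iff.mp hx)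
    exact ⟨c, hc.trans (Subtype.ext hy)⟩
  let a : H8.Cov φ →* Abelianization (FreeGroup (Fin n)) := QuotientGroup.lift _ Abelianization.of
    (by rw [Abelianization.ker_of]; exact Subgroup.commutator_mono le_top le_top)
  have ha : ∀ x, a x = 1 ↔ x ∈ commutator (H8.Cov φ) := by
    intro x
    obtain ⟨f, rfl⟩ := QuotientGroup.mk_surjective x
    rw [H8.mk_mem_commutator_cov, ← Abelianization.ker_of]; rfl
  let θ : (rels → ℤ) →ₗ[ℤ] FreeAbelianGroup (Fin n) :=
    (MonoidHom.toAdditive (a.comp (H8.covMap φ).ker.subtype)).toIntLinearMap.comp Θ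
  let f0 : θ.ker →+ Additive (H8.mult (H8.covMap φ)) :=
    { toFun := fun x => Additive.ofMul ⟨(Θ x.1).toMul.1, (Θ x.1).toMul.2, (ha _).mp x.2⟩
      map_zero' := by simp
      map_add' := fun x y => by
        apply Subtype.ext
        show ((Θ (x.1 + y.1)).toMul.1 : H8.Cov φ) = (Θ x.1).toMul.1 * (Θ y.1).toMul.1
        rw [map_add]; rfl }
  have := aux θ (Nat.card (PresentedGroup (rels : Set (FreeGroup (Fin n))))) Nat.card_pos.ne'
    (fun x => by
      obtain ⟨f, hf⟩ : ∃ f : FreeGroup (Fin n), Additive.ofMul (Abelianization.of f) = x :=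
        QuotientGroup.mk_surjective (s := commutator (FreeGroup (Fin n))) x
      obtain ⟨c, hc⟩ := hΘ (Additive.ofMul ⟨((f ^ Nat.card (PresentedGroup
        (rels : Set (FreeGroup (Fin n)))) : FreeGroup (Fin n)) : H8.Cov φ), by
          rw [MonoidHom.mem_ker, H8.covMap_mk, map_pow, pow_card_eq_one']⟩)
      refine ⟨c, ?_⟩
      show (MonoidHom.toAdditive (a.comp (H8.covMap φ).ker.subtype)) (Θ c) = _
      rw [hc, ← hf]
      exact congrArg Additive.ofMul (map_pow Abelianization.of f _)) f0 (by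
      rintro ⟨x, hx1, hx2⟩
      obtain ⟨c, hc⟩ := hΘ (Additive.ofMul ⟨x, hx1⟩)
      refine ⟨⟨c, ?_⟩, Subtype.ext ?_⟩
      · show (MonoidHom.toAdditive (a.comp (H8.covMap φ).ker.subtype)) (Θ c) = _
        rw [hc]
        exact (ha x).mpr hx2
      · show ((Θ c).toMul.1 : H8.Cov φ) = x
        rw [hc]; rfl)
  rw [Module.finrank_eq_card_basis (FreeAbelianGroup.basis (Fin n))] at this
  simpa using this

end Cfsg.Agent.S3973
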