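import Mathlib
import Cfsg.Statements.S3974
import Cfsg.Agent.H8.Schur5

set_option autoImplicit false
universe u v
open Cfsg

namespace Cfsg.Agent.S3974

open scoped IsMulCommutative

theorem exists_extend_coprime {M N D : Type*} [CommGroup M] [CommGroup N] [CommGroup D]
    (f : M →* N) (hf : Function.Injective f) (g : M →* D) (n : ℕ) (hn : ∀ y, y ^ n ∈ f.range)
    (hc : (Nat.card D).Coprime n) : ∃ h : N →* D, ∀ m, h (f m) = g m := by
  let p : N →* f.range := (powMonoidHom n).codRestrict _ hn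
  refine ⟨(zpowGroupHom ((Nat.card D).gcdB n)).comp
    (g.comp ((MonoidHom.ofInjective hf).symm.toMonoidHom.comp p)), fun m => ?_⟩
  have h1 : p (f m) = MonoidHom.ofInjective hf (m ^ n) := Subtype.ext (by
    show f m ^ n = f (m ^ n)
    rw [map_pow])
  simp only [MonoidHom.comp_apply, h1, MulEquiv.toMonoidHom_eq_coe, MonoidHom.coe_coe,
    MulEquiv.symm_apply_apply, map_pow]
  have := (powCoprime hc).left_inv (g m)
  simp only [Equiv.invFun_as_coe, Equiv.toFun_as_coe, powCoprime_apply,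
    powCoprime_symm_apply] at this
  rw [← map_pow]
  exact this

theorem exists_coord {C : Type*} [CommGroup C] [Group.FG C]
    (htf : ∀ (b : C) (n : ℕ), n ≠ 0 → b ^ n = 1 → b = 1) (p : ℕ) (c0 : C)
    (h : ∀ c : C, c ^ p ≠ c0) : ∃ f : C →* Multiplicative ℤ, ¬ (p : ℤ) ∣ (f c0).toAdd := by
  haveI : IsMulTorsionFree C := ⟨fun n hn a b hab => by
    have : (a * b⁻¹) ^ n = 1 := by
      rw [mul_pow, inv_pow]; simp only at hab; rw [hab, mul_inv_cancel]
    exact mul_inv_eq_one.mp (htf _ n hn this)⟩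
  haveI : Module.Finite ℤ (Additive C) := Module.Finite.iff_addGroup_fg.mpr inferInstance
  let b := Module.finBasis ℤ (Additive C)
  by_contra hcon
  push Not at hcon
  have h1 : ∀ i, (p : ℤ) ∣ b.repr (Additive.ofMul c0) i := fun i =>
    hcon (AddMonoidHom.toMultiplicativeRight (b.coord i).toAddMonoidHom)
  choose k hk using h1
  apply h (∑ i, k i • b i).toMul
  have : (p : ℤ) • ∑ i, k i • b i = Additive.ofMul c0 := by
    rw [← b.sum_repr (Additive.ofMul c0), Finset.smul_sum]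
    simp only [hk, mul_smul]
  rw [natCast_zsmul] at this
  exact congrArg Additive.toMul this

theorem result {Q : Type u} [Group Q] [Finite Q] {A : Type v} [CommGroup A] (hA : Cfsg.HasSchurMultiplier Q A) : (∀ (Γ₁ Γ₂ : Type u) [Group Γ₁] [Finite Γ₁] [Group Γ₂] [Finite Γ₂] (σ₁ : Γ₁ →* Q) (σ₂ : Γ₂ →* Q), Cfsg.IsStemExtension σ₁ → Cfsg.IsStemExtension σ₂ → Nonempty (σ₁.ker ≃* A) → Nonempty (σ₂.ker ≃* A) → ∃ e : Γ₁ ≃* Γ₂, σ₂.comp e.toMonoidHom = σ₁) ↔ Nat.Coprime (Nat.card (Abelianization Q)) (Nat.card A) := by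
  obtain ⟨eA⟩ := H8.hasSchur_unique (H8.hasSchur_SM Q) hA
  have h := H8.isPCover_cov (H8.freeMap_surjective Q)
  set ε := H8.covMap (H8.freeMap Q) with hε
  constructor
  · intro huniq
    by_contra hnc
    obtain ⟨p, hp, hp1, hp2⟩ := Nat.Prime.not_coprime_iff_dvd.mp hnc
    haveI : Fact p.Prime := ⟨hp⟩
    obtain ⟨C, hC1, hC2, hC3⟩ := h.exists_complement ε.ker le_rfl (fun w hw => ⟨w, hw, by simp⟩)
    haveI : C.Normal := H8.normal_of_le_center (hC1.trans h.central)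
    haveI : IsMulCommutative C := ⟨⟨fun a b => Subtype.ext
      (Subgroup.mem_center_iff.mp (h.central (hC1 b.2)) a)⟩⟩
    obtain ⟨f1, s1, ⟨e1⟩⟩ := H8.stem_of_complement h.surj h.central C hC1 hC2 hC3
    have hmapc : (commutator _).map ε = commutator Q := by
      rw [commutator_def, Subgroup.map_commutator, ← MonoidHom.range_eq_map,
        MonoidHom.range_eq_top_of_surjective _ h.surj, commutator_def]
    obtain ⟨q, hq⟩ := exists_prime_orderOf_dvd_card' p hp1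
    obtain ⟨q, rfl⟩ : ∃ x, Abelianization.of x = q := QuotientGroup.mk_surjective q
    obtain ⟨y, rfl⟩ := h.surj q
    have hy1 : ε (y ^ p) ∈ commutator Q := by
      rw [← Abelianization.ker_of, MonoidHom.mem_ker, map_pow, map_pow, ← hq, pow_orderOf_eq_one]
    rw [← hmapc] at hy1
    obtain ⟨e0, he0, he0'⟩ := hy1
    obtain ⟨c0, hc0, hc0'⟩ := hC3 (y ^ p * e0⁻¹) (by
      rw [MonoidHom.mem_ker, map_mul, map_inv, he0', mul_inv_cancel])
    have hc1 : c0⁻¹ * y ^ p ∈ commutator _ := by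
      simpa [mul_assoc] using Subgroup.mul_mem _ hc0' he0
    haveI := h.fg
    haveI : C.FiniteIndex := Subgroup.finiteIndex_of_finite_quotient
    have hCtf : ∀ (b : C) (n : ℕ), n ≠ 0 → b ^ n = 1 → b = 1 := by
      intro b n hn hb
      have h1 : (b : H8.Cov (H8.freeMap Q)) ^ n = 1 := congrArg Subtype.val hb
      have h2 : (b : H8.Cov (H8.freeMap Q)) ∈ C ⊓ commutator _ :=
        ⟨b.2, h.tf _ n hn (by rw [h1]; exact Subgroup.one_mem _)⟩
      rw [hC2] at h2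
      exact Subtype.ext h2
    obtain ⟨f, hf⟩ := exists_coord hCtf p ⟨c0, hc0⟩ (by
      rintro ⟨c, hc⟩ hcp
      have h1 : c ^ p = c0 := congrArg Subtype.val hcp
      have h2 : Commute c⁻¹ y :=
        (Subgroup.mem_center_iff.mp (h.central (hC1 (C.inv_mem hc))) y).symm
      rw [← h1, ← inv_pow, ← h2.mul_pow] at hc1
      have h3 := h.tf _ p hp.ne_zero hc1
      have h4 : ε (c⁻¹ * y) ∈ commutator Q := hmapc ▸ ⟨_, h3, rfl⟩
      rw [map_mul, map_inv, MonoidHom.mem_ker.mp (hC1 hc), inv_one, one_mul,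
        ← Abelianization.ker_of, MonoidHom.mem_ker] at h4
      rw [h4, orderOf_one] at hq
      exact hp.one_lt.ne hq)
    obtain ⟨m, hm⟩ : ∃ m : H8.mult ε, ∀ m' : H8.mult ε, m' ^ p ≠ m := by
      by_contra hcon
      push Not at hcon
      have h1 : Function.Surjective (fun m : H8.mult ε => m ^ p) := hcon
      have h2 := Finite.injective_iff_surjective.mpr h1
      rw [← Nat.card_congr eA.toEquiv] at hp2
      obtain ⟨x, hx⟩ := exists_prime_orderOf_dvd_card' p hp2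
      have h3 : x = 1 := h2 (by simp only; rw [← hx, pow_orderOf_eq_one, one_pow])
      rw [h3, orderOf_one] at hx
      exact hp.one_lt.ne hx
    let δ : C →* H8.mult ε := (zpowersHom _ m).comp f
    let C2 : Subgroup (H8.Cov (H8.freeMap Q)) :=
      (H8.twist C.subtype (inf_le_left.trans h.central) δ).range
    have hC21 : C2 ≤ ε.ker := by
      rintro _ ⟨c, rfl⟩
      exact Subgroup.mul_mem _ (hC1 c.2) (δ c).2.1
    have hC22 : C2 ⊓ commutator _ = ⊥ := by
      rw [eq_bot_iff]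
      rintro _ ⟨⟨c, rfl⟩, hc⟩
      have h1 : (c : H8.Cov (H8.freeMap Q)) ∈ C ⊓ commutator _ :=
        ⟨c.2, (Subgroup.mul_mem_cancel_right _ (δ c).2.2).mp hc⟩
      rw [hC2] at h1
      have h2 : c = 1 := Subtype.ext h1
      rw [h2, map_one]; exact Subgroup.one_mem _
    have hC23 : ∀ w ∈ ε.ker, ∃ c ∈ C2, c⁻¹ * w ∈ commutator _ := by
      intro w hw
      obtain ⟨c, hc, hc'⟩ := hC3 w hw
      refine ⟨_, ⟨⟨c, hc⟩, rfl⟩, ?_⟩
      rw [H8.twist_apply, mul_inv_rev, mul_assoc]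
      exact Subgroup.mul_mem _ (Subgroup.inv_mem _ (δ ⟨c, hc⟩).2.2) hc'
    haveI : C2.Normal := H8.normal_of_le_center (hC21.trans h.central)
    obtain ⟨f2, s2, ⟨e2⟩⟩ := H8.stem_of_complement h.surj h.central C2 hC21 hC22 hC23
    obtain ⟨e, he⟩ := huniq _ _ _ _ s1 s2 ⟨e1.trans eA⟩ ⟨e2.trans eA⟩
    set σ2 := QuotientGroup.lift C2 ε hC21
    let ψ := e.toMonoidHom.comp (QuotientGroup.mk' C)
    let ψ' := QuotientGroup.mk' C2
    have hψ' : σ2.comp ψ' = ε := rfl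
    have hψ : σ2.comp ψ = ε := by rw [← MonoidHom.comp_assoc, he]; rfl
    have hk : (ψ y)⁻¹ * ψ' y ∈ σ2.ker := by
      rw [MonoidHom.mem_ker, map_mul, map_inv, ← MonoidHom.comp_apply, ← MonoidHom.comp_apply,
        hψ, hψ', inv_mul_cancel]
    have hk2 : (ψ y)⁻¹ * ψ' y ∈ σ2.ker ⊓ commutator _ := ⟨hk, s2.2.2 hk⟩
    rw [← H8.map_mult_of_over h.surj s2.2.1 hψ'] at hk2
    obtain ⟨m', hm', hm''⟩ := hk2
    have h5 : ψ' y = ψ y * ψ' m' := by rw [hm'']; group
    have h6 : Commute (ψ y) (ψ' m') := by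
      rw [hm'']; exact Subgroup.mem_center_iff.mp (s2.2.1 hk) _
    have h7 := H8.eq_on_commutator_of_over s2.2.1 (hψ.trans hψ'.symm) hc1
    have h8 : ψ c0 = 1 := by
      show e (c0 : _ ⧸ C) = 1
      rw [(QuotientGroup.eq_one_iff c0).mpr hc0, map_one]
    rw [map_mul, map_mul, map_inv, map_inv, map_pow, map_pow, h8, h5, h6.mul_pow,
      (h6.pow_pow p p).eq, ← mul_assoc, inv_one, one_mul, right_eq_mul, inv_mul_eq_one,
      ← map_pow] at h7
    have h9 : ψ' (c0 * δ ⟨c0, hc0⟩) = 1 := (QuotientGroup.eq_one_iff _).mpr ⟨⟨c0, hc0⟩, rfl⟩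
    rw [map_mul, h7, ← map_mul] at h9
    have h10 : m' ^ p * δ ⟨c0, hc0⟩ ∈ C2 ⊓ commutator _ := ⟨(QuotientGroup.eq_one_iff _).mp h9,
      Subgroup.mul_mem _ (Subgroup.pow_mem _ hm'.2 _) (δ ⟨c0, hc0⟩).2.2⟩
    rw [hC22] at h10
    have h11 : (⟨m', hm'⟩ : H8.mult ε) ^ p * m ^ (f ⟨c0, hc0⟩).toAdd = 1 := Subtype.ext h10
    obtain ⟨u, v, huv⟩ := (Nat.prime_iff_prime_int.mp hp).irreducible.coprime_iff_not_dvd.mpr hf
    apply hm (m ^ u * (⟨m', hm'⟩ : H8.mult ε) ^ (-v))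
    rw [mul_eq_one_iff_eq_inv] at h11
    rw [mul_pow, ← zpow_natCast, ← zpow_natCast, ← zpow_mul, ← zpow_mul, mul_comm (-v), zpow_mul (⟨m', hm'⟩ : H8.mult ε),
      zpow_natCast, h11, ← zpow_neg, ← zpow_mul, ← zpow_add, neg_mul_neg, mul_comm _ v, huv, zpow_one]
  · intro hcop Γ₁ Γ₂ _ _ _ _ σ₁ σ₂ h₁ h₂ ⟨e₁⟩ ⟨e₂⟩
    obtain ⟨ψ₁, hψ₁⟩ := H8.cov_lift (H8.freeMap Q) σ₁ h₁.1 h₁.2.1
    obtain ⟨ψ₂, hψ₂⟩ := H8.cov_lift (H8.freeMap Q) σ₂ h₂.1 h₂.2.1
    have k1 := H8.ker_inf_commutator_eq_bot h.surj h₁ hψ₁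
      (Nat.card_congr (eA.trans e₁.symm).toEquiv).le
    have s1 := H8.surjective_of_over_stem h.surj h₁ hψ₁
    have h3 : ∀ e, σ₁ (ψ₁ e) = ε e := fun e => DFunLike.congr_fun hψ₁ e
    have h4 : ∀ e, σ₂ (ψ₂ e) = ε e := fun e => DFunLike.congr_fun hψ₂ e
    haveI := H8.stem_ker_comm h₂.2.1
    let g : ψ₁.ker →* σ₂.ker := (ψ₂.comp ψ₁.ker.subtype).codRestrict _ (fun c => by
      rw [MonoidHom.mem_ker, MonoidHom.comp_apply, h4, ← h3]
      have : ψ₁ (ψ₁.ker.subtype c) = 1 := c.2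
      rw [this, map_one])
    let f : ψ₁.ker →* Abelianization _ := Abelianization.of.comp ψ₁.ker.subtype
    have hf : Function.Injective f := by
      rw [injective_iff_map_eq_one]
      intro c hc
      have h1 : c.1 ∈ Abelianization.of.ker := hc
      rw [Abelianization.ker_of] at h1
      have h2 : c.1 ∈ ψ₁.ker ⊓ commutator _ := ⟨c.2, h1⟩
      rw [k1] at h2
      exact Subtype.ext h2
    haveI : IsMulCommutative ψ₁.ker := ⟨⟨fun a b => hf (by rw [map_mul, map_mul, mul_comm])⟩⟩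
    obtain ⟨θ, hθ⟩ := exists_extend_coprime f hf g (Nat.card (Abelianization Q)) (by
      intro y
      obtain ⟨y, rfl⟩ : ∃ x, Abelianization.of x = y := QuotientGroup.mk_surjective y
      have hy1 : σ₁ (ψ₁ (y ^ Nat.card (Abelianization Q))) ∈ commutator Q := by
        rw [← Abelianization.ker_of, MonoidHom.mem_ker, map_pow, map_pow, map_pow, pow_card_eq_one']
      have hy2 : ψ₁ (y ^ Nat.card (Abelianization Q)) ∈ commutator Γ₁ := by
        rw [← H8.map_commutator_of_over (ξ := MonoidHom.id Q) (ψ := σ₁) h₁.1 (by simp) rfl] at hy1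
        obtain ⟨z, hz, hz'⟩ := hy1
        have : z⁻¹ * ψ₁ (y ^ Nat.card (Abelianization Q)) ∈ σ₁.ker := by
          rw [MonoidHom.mem_ker, map_mul, map_inv, hz', inv_mul_cancel]
        simpa using Subgroup.mul_mem _ hz (h₁.2.2 this)
      rw [← H8.map_commutator_of_over h.surj h₁.2.1 hψ₁] at hy2
      obtain ⟨z, hz, hz'⟩ := hy2
      refine ⟨⟨y ^ Nat.card (Abelianization Q) * z⁻¹, by
        rw [MonoidHom.mem_ker, map_mul, map_inv, hz', mul_inv_cancel]⟩, ?_⟩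
      rw [← Abelianization.ker_of, SetLike.mem_coe, MonoidHom.mem_ker] at hz
      simp [f, hz]) (by rw [Nat.card_congr e₂.toEquiv]; exact hcop.symm)
    obtain ⟨ρ, hρ⟩ := H8.exists_factor s1 (H8.twist ψ₂ h₂.2.1 (θ.comp Abelianization.of)⁻¹)
      (fun c hc => by
        rw [MonoidHom.mem_ker, H8.twist_apply, MonoidHom.inv_apply]
        have : (θ.comp Abelianization.of) c = g ⟨c, hc⟩ := hθ ⟨c, hc⟩
        rw [this]
        exact mul_inv_cancel _)
    have hρ' : σ₂.comp ρ = σ₁ := MonoidHom.ext fun x => by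
      obtain ⟨e, rfl⟩ := s1 x
      rw [MonoidHom.comp_apply, hρ, H8.twist_apply, map_mul, h4, h3]
      have : σ₂ (((θ.comp Abelianization.of)⁻¹ e : σ₂.ker) : Γ₂) = 1 :=
        ((θ.comp Abelianization.of)⁻¹ e).2
      rw [this, mul_one]
    have s2 := H8.surjective_of_over_stem h₁.1 h₂ hρ'
    have hc : Nat.card Γ₁ = Nat.card Γ₂ := by
      rw [← Subgroup.card_mul_index σ₁.ker, ← Subgroup.card_mul_index σ₂.ker, Subgroup.index_ker,
        Subgroup.index_ker, MonoidHom.range_eq_top_of_surjective _ h₁.1,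
        MonoidHom.range_eq_top_of_surjective _ h₂.1, Nat.card_congr (e₁.trans e₂.symm).toEquiv]
    exact ⟨MulEquiv.ofBijective ρ (s2.bijective_of_nat_card_le hc.le), hρ'⟩

end Cfsg.Agent.S3974
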