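import Mathlib
import Cfsg.Statements.S3976
import Cfsg.Agent.H8.SubCnt

set_option autoImplicit false
open Cfsg

namespace Cfsg.Agent.S3976

theorem result {G : Type*} [Group G] [Finite G] (p m s : ℕ) (hp : p.Prime) (hG : Nat.card G = p ^ m) (hs : s ≤ m) : Nat.card {H : Subgroup G // H.Normal ∧ Nat.card H = p ^ s} ≡ 1 [MOD p] := by
  exact H8.card_normal_sub_modEq hp (IsPGroup.of_card hG) (hG ▸ pow_dvd_pow p hs)

end Cfsg.Agent.S3976
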