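import Mathlib
import Cfsg.Statements.S3977
import Cfsg.Agent.H8.SubCnt
import Cfsg.Agent.S0016

set_option autoImplicit false
open Cfsg

namespace Cfsg.Agent.S3977

theorem result {G : Type*} [Group G] [Finite G] (p m s : ℕ) (hp : p.Prime) (hG : Nat.card G = p ^ m) (hs : 1 ≤ s) (hsm : s < m) (h2 : p ≠ 2 ∨ 2 ≤ s) (huniq : ∀ H K : Subgroup G, Nat.card H = p ^ s → Nat.card K = p ^ s → H = K) : IsCyclic G := by
  open Subgroup in
  haveI := Fact.mk hp
  obtain ⟨U, hU⟩ := Sylow.exists_subgroup_card_pow_prime p (n := s) (hG ▸ pow_dvd_pow p hsm.le)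
  have hle : ∀ (H : Subgroup G) (j : ℕ), Nat.card H = p ^ j → j ≤ s → H ≤ U := fun H j hH hj => by
    obtain ⟨K, hK, h1⟩ := Sylow.exists_subgroup_card_pow_prime_le p (m := s)
      (hG ▸ pow_dvd_pow p hsm.le) H hH hj
    exact huniq K U hK hU ▸ h1
  obtain ⟨K, hK⟩ := Sylow.exists_subgroup_card_pow_prime p (n := s + 1) (hG ▸ pow_dvd_pow p hsm)
  obtain ⟨x, hxK, hxU⟩ : ∃ x ∈ K, x ∉ U := by
    by_contra hn
    push Not at hn
    have := card_le_of_le (show K ≤ U from hn)
    rw [hK, hU] at this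
    exact absurd ((Nat.pow_le_pow_iff_right hp.one_lt).1 this) (by omega)
  have hUc : IsCyclic U := by
    obtain ⟨j, hj, hj'⟩ := (Nat.dvd_prime_pow hp).1 (hK ▸ card_dvd_of_le (zpowers_le.2 hxK))
    have hj2 : s ≤ j := by
      by_contra hlt
      exact hxU (hle _ j hj' (by omega) (mem_zpowers x))
    obtain ⟨L, hL⟩ := Sylow.exists_subgroup_card_pow_prime p (G := zpowers x) (n := s)
      (hj' ▸ pow_dvd_pow p hj2)
    rw [← huniq (L.map (zpowers x).subtype) U
      ((card_map_of_injective (subtype_injective _)).trans hL) hU]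
    exact isCyclic_of_surjective _ (L.equivMapOfInjective _ (subtype_injective _)).surjective
  rcases Cfsg.Agent.S0016.result p (IsPGroup.of_card hG) (fun H K hH hK =>
    H8.eq_of_card_eq_of_isCyclic hUc (hle H 1 (by simpa using hH) hs) (hle K 1 (by simpa using hK) hs)
      (hH.trans hK.symm)) with h | ⟨rfl, n, ⟨e⟩⟩
  · exact h
  have hs2 : 2 ≤ s := h2.resolve_left (by simp)
  have h1 : ∀ i, e.symm (.xa i) ∈ U := fun i => hle (zpowers _) 2 (by
    rw [Nat.card_zpowers, MulEquiv.orderOf_eq, QuaternionGroup.orderOf_xa]; rfl) hs2 (mem_zpowers _)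
  have h3 := congrArg (fun y : U => e y) (hUc.isMulCommutative.is_comm.comm ⟨_, h1 0⟩ ⟨_, h1 1⟩)
  simp only [MulMemClass.mk_mul_mk, map_mul, MulEquiv.apply_symm_apply, QuaternionGroup.xa_mul_xa,
    QuaternionGroup.a.injEq] at h3
  have h4 : ((2 : ℕ) : ZMod (2 * 2 ^ n)) = 0 := by push_cast; linear_combination h3
  have h5 := Nat.le_of_dvd (by norm_num) ((ZMod.natCast_eq_zero_iff _ _).1 h4)
  obtain rfl : n = 0 := by
    by_contra hne
    have : 2 ^ 1 ≤ 2 ^ n := Nat.pow_le_pow_right (by norm_num) (by omega)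
    omega
  have := QuaternionGroup.quaternionGroup_one_isCyclic
  exact isCyclic_of_surjective _ e.symm.surjective

end Cfsg.Agent.S3977
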