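import Mathlib
import Cfsg.Statements.S3978
import Cfsg.Agent.S3955
import Cfsg.Agent.S3956

set_option autoImplicit false
open Cfsg

namespace Cfsg.Agent.S3978

theorem result {Q : Type*} [Group Q] [Finite Q] : Cfsg.HasCyclicSchurMultiplier Q 1 ↔ ∀ (n : ℕ) (γ : Q →* (GL (Fin n) ℂ ⧸ Subgroup.center (GL (Fin n) ℂ))), ∃ ρ : Q →* GL (Fin n) ℂ, (QuotientGroup.mk' (Subgroup.center (GL (Fin n) ℂ))).comp ρ = γ := by
  haveI : Unique (MonoidHom.id Q).ker := by
    rw [MonoidHom.ker_id]; infer_instance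
  constructor
  · intro h n γ
    simpa using Cfsg.Agent.S3955.result h (MonoidHom.id Q) (H8.stem_id Q) ⟨MulEquiv.ofUnique⟩ n γ
  · intro h
    rw [H8.hasSchur_one_iff]
    intro Δ _ _ τ hτ
    obtain ⟨π, hπ⟩ := Cfsg.Agent.S3956.result (MonoidHom.id Q) (H8.stem_id Q)
      (by simpa using h) Δ τ hτ
    haveI : Subsingleton τ.ker := hπ.subsingleton
    exact Subgroup.eq_bot_of_subsingleton _

end Cfsg.Agent.S3978
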