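import Mathlib
import Cfsg.Statements.S3980
import Cfsg.Agent.S3959

set_option autoImplicit false
universe u v w
open Cfsg

namespace Cfsg.Agent.S3980

open scoped TensorProduct in

theorem result {Q₁ : Type u} {Q₂ : Type v} [Group Q₁] [Group Q₂] [Finite Q₁] [Finite Q₂] {A B : Type w} [CommGroup A] [CommGroup B] (hA : Cfsg.HasSchurMultiplier Q₁ A) (hB : Cfsg.HasSchurMultiplier Q₂ B) (hcop : Nat.Coprime (Nat.card (Abelianization Q₁)) (Nat.card (Abelianization Q₂))) : Cfsg.HasSchurMultiplier (Q₁ × Q₂) (A × B) := by
  have h := Cfsg.Agent.S3959.result hA hB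
  haveI : Subsingleton (TensorProduct ℤ (Additive (Abelianization Q₁))
      (Additive (Abelianization Q₂))) := by
    refine subsingleton_of_forall_eq 0 fun y => ?_
    induction y using TensorProduct.induction_on with
    | zero => rfl
    | add a b ha hb => rw [ha, hb, add_zero]
    | tmul a b =>
      obtain ⟨u, v, huv⟩ := Nat.isCoprime_iff_coprime.mpr hcop
      have h1 : (Nat.card (Abelianization Q₁) : ℤ) • a = 0 := by
        rw [natCast_zsmul]; exact card_nsmul_eq_zero'
      have h2 : (Nat.card (Abelianization Q₂) : ℤ) • b = 0 := by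
        rw [natCast_zsmul]; exact card_nsmul_eq_zero'
      calc a ⊗ₜ[ℤ] b = (u * (Nat.card (Abelianization Q₁) : ℤ) +
            v * (Nat.card (Abelianization Q₂) : ℤ)) • (a ⊗ₜ[ℤ] b) := by rw [huv, one_smul]
        _ = 0 := by
          rw [add_smul, mul_smul, mul_smul, TensorProduct.smul_tmul' _ a b, h1,
            ← TensorProduct.tmul_smul _ a b, h2]
          simp
  haveI : Unique (Multiplicative (TensorProduct ℤ (Additive (Abelianization Q₁))
      (Additive (Abelianization Q₂)))) := uniqueOfSubsingleton 1
  exact H8.hasSchur_congr h ((MulEquiv.refl A).prodCongr MulEquiv.prodUnique)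

end Cfsg.Agent.S3980
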