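import Mathlib
import Cfsg.Statements.S3994
import Cfsg.Agent.H8.Count

set_option autoImplicit false
open Cfsg

namespace Cfsg.Agent.S3994

open Subgroup in

theorem result {G : Type*} [Group G] [Finite G] (n : ℕ) (hn : 0 < n) :
    Nat.card {g : G // n ∣ orderOf g} = 0 ∨
      (Nat.card G / Nat.gcd (Nat.card G) (n ^ Nat.card G)) ∣ Nat.card {g : G // n ∣ orderOf g} := by
  classical
  right
  have := Fintype.ofFinite G
  have hx : Nat.card G ≠ 0 := Nat.card_pos.ne'
  set a := (Nat.card G).gcd (n ^ Nat.card G) with ha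
  obtain ⟨b, hb⟩ : a ∣ Nat.card G := Nat.gcd_dvd_left _ _
  have ha0 : 0 < a := Nat.gcd_pos_of_pos_left _ Nat.card_pos
  have hcop : n.Coprime b := by
    rw [Nat.coprime_comm]
    refine Nat.coprime_of_dvd fun q hq hqb hqm => ?_
    have h1 : q ^ (Nat.card G).factorization q ∣ a := Nat.dvd_gcd (Nat.ordProj_dvd _ _)
      ((pow_dvd_pow q (Nat.factorization_lt q hx).le).trans (pow_dvd_pow_of_dvd hqm _))
    refine Nat.pow_succ_factorization_not_dvd hx hq ?_
    rw [pow_succ]
    calc q ^ (Nat.card G).factorization q * q ∣ a * b := mul_dvd_mul h1 hqb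
      _ = _ := hb.symm
  have hab : a.Coprime b := (hcop.pow_left _).coprime_dvd_left (Nat.gcd_dvd_right _ _)
  rw [show Nat.card G / a = b by rw [hb, Nat.mul_div_cancel_left _ ha0]]
  have h1 : {g : G | n ∣ orderOf g} = {g : G | ∃ y ∈ {y : G | y ^ a = 1 ∧ n ∣ orderOf y},
      ∃ z, z ^ b = 1 ∧ Commute y z ∧ g = y * z} := by
    have h2 : ∀ y z : G, y ^ a = 1 → z ^ b = 1 → Commute y z →
        (n ∣ orderOf (y * z) ↔ n ∣ orderOf y) := by
      intro y z hy hz h
      rw [h.orderOf_mul_eq_mul_orderOf_of_coprime ((hab.coprime_dvd_left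
        (orderOf_dvd_of_pow_eq_one hy)).coprime_dvd_right (orderOf_dvd_of_pow_eq_one hz))]
      exact (hcop.coprime_dvd_right (orderOf_dvd_of_pow_eq_one hz)).dvd_mul_right
    ext g
    constructor
    · intro h
      obtain ⟨y, -, z, -, h5, h6, h7, rfl⟩ := H8.exists_coprime_decomp hab (g := g)
        (by rw [← hb, pow_card_eq_one'])
      exact ⟨y, ⟨h5, (h2 y z h5 h6 h7).1 h⟩, z, h6, h7, rfl⟩
    · rintro ⟨y, hy, z, h6, h7, rfl⟩
      exact (h2 y z hy.1 h6 h7).2 hy.2
  change b ∣ Set.ncard {g : G | n ∣ orderOf g}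
  rw [h1, H8.ncard_decomp hab _ fun y hy => hy.1]
  refine H8.dvd_sum_of_conj _ (fun g x => ?_) _ fun y => ?_
  · simp only [Set.mem_setOf_eq, H8.card_sol_centralizer_conj, ← orderOf_dvd_iff_pow_eq_one (x := x),
      ← orderOf_dvd_iff_pow_eq_one (x := g * x * g⁻¹)]
    rw [show g * x * g⁻¹ = MulAut.conj g x from rfl, MulEquiv.orderOf_eq]
  split_ifs with hy
  · exact H8.dvd_index_mul_card_sol _ (Dvd.intro_left _ hb.symm)
  · simp

end Cfsg.Agent.S3994
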