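import Cfsg.Statements.S3995
import Cfsg.Agent.H1.Ord1
import Cfsg.Agent.H6.QLift
import Cfsg.Agent.H13.Ess3

set_option autoImplicit false
open Cfsg

namespace Cfsg.Agent.S3995

open H1.Ord H10 Subgroup

/-- Let G be a finite group such that the numbers of elements of each order that occurs in G (the numbers #{g : o(g) = m}, m ranging over the element orders of G) take exactly two values, 1 and some n ≠ 1. Then either G is a p-group of exponent p and order at least 3 for some prime p, or G is the quaternion group of order 8, or G is cyclic of order 4, or G ≅ Z₂ × P for a p-group P of exponent p with p an odd prime. -/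
theorem result {G : Type*} [Group G] [Finite G] (n : ℕ) (hn : n ≠ 1) (h : ((fun m : ℕ => Nat.card {g : G // orderOf g = m}) '' Set.range (orderOf : G → ℕ)) = {1, n}) :
    (∃ p : ℕ, p.Prime ∧ IsPGroup p G ∧ 3 ≤ Nat.card G ∧ Monoid.exponent G = p) ∨
      Nonempty (G ≃* QuaternionGroup 2) ∨ (IsCyclic G ∧ Nat.card G = 4) ∨
      (∃ (p : ℕ) (P : Type) (_ : Group P) (_ : Finite P), p.Prime ∧ p ≠ 2 ∧ IsPGroup p P ∧ Monoid.exponent P = p ∧
        Nonempty (G ≃* Multiplicative (ZMod 2) × P)) := by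
  have hv : ∀ m, s G m = 0 ∨ s G m = 1 ∨ s G m = n := fun m =>
    (em _).imp_right fun hm => h.le ⟨m, s_ne.1 hm, rfl⟩
  obtain ⟨m₀, hm₀, e₀⟩ : n ∈ (fun m : ℕ => Nat.card {g : G // orderOf g = m}) ''
    Set.range (orderOf : G → ℕ) := h.ge (Or.inr rfl)
  have e₀ : s G m₀ = n := e₀
  have hm₀ : s G m₀ ≠ 0 := s_ne.2 hm₀
  have hm1 : m₀ ≠ 1 := by rintro rfl; exact hn (e₀.symm.trans (s_one G))
  have hv' : ∀ m, 2 < m → s G m = 0 ∨ s G m = n := fun m hm => by
    have := hv m; have := s_ne_one (G := G) hm; tauto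
  have lt : ∀ {p : ℕ}, p.Prime → p ≠ 2 → 2 < p := fun hp h => lt_of_le_of_ne hp.two_le (Ne.symm h)
  have one : ∀ p q : ℕ, p.Prime → q.Prime → p ≠ 2 → q ≠ 2 → p ∣ Nat.card G → q ∣ Nat.card G →
      p = q := fun p q hp hq hp2 hq2 h1 h2 =>
    one_odd hp hq hp2 h1 h2 ((hv' p (lt hp hp2)).resolve_left (s_pos hp h1))
      ((hv' q (lt hq hq2)).resolve_left (s_pos hq h2)) (hv' _ (by nlinarith [lt hp hp2, lt hq hq2]))
  have sq : ∀ p : ℕ, p.Prime → p ≠ 2 → p ∣ Nat.card G → s G (p ^ 2) = 0 := fun p hp hp2 hd => by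
    refine (hv' _ (by nlinarith [lt hp hp2])).resolve_right fun e => ?_
    have a1 := sq_dvd (G := G) hp 1
    rw [mul_one, e, ← (hv' p (lt hp hp2)).resolve_left (s_pos hp hd), ← ZMod.natCast_eq_zero_iff,
      fp hp hd] at a1
    exact no1 hp (neg_eq_zero.1 a1)
  have expG : ∀ p : ℕ, p.Prime → IsPGroup p G → s G (p ^ 2) = 0 → Monoid.exponent G = p :=
    fun p hp hG h2 => by
      refine (Monoid.exponent_eq_of_mulEquiv topEquiv).symm.trans
        (exp_p hp h2 (isPGroup_top_iff.2 hG) ?_)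
      intro e
      obtain ⟨g, hg⟩ := s_ne.1 hm₀
      exact hm1 (by rw [← hg, mem_bot.1 (e.le (mem_top g)), orderOf_one])
  by_cases hev : 2 ∣ Nat.card G
  swap
  · obtain ⟨p, hp, hd⟩ := Nat.exists_prime_and_dvd hm1
    have hd := hd.trans (s_card hm₀)
    have hp2 : p ≠ 2 := fun e => hev (e ▸ hd)
    have hG := pg_of hp fun q hq hqd => one q p hq hp (fun e => hev (e ▸ hqd)) hp2 hqd hd
    exact Or.inl ⟨p, hp, hG, (lt hp hp2).trans_le (Nat.le_of_dvd Nat.card_pos hd),
      expG p hp hG (sq p hp hp2 hd)⟩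
  have o2 := Nat.odd_iff.1 (s2_odd hev)
  by_cases h2 : s G 2 = 1
  swap
  · have z : ∀ m, 2 < m → s G m = 0 := fun m hm => by
      have := hv' m hm; have := s_even (G := G) hm; have := hv 2; omega
    have hG := pg_of Nat.prime_two fun q hq hqd => by_contra fun hq2 => s_pos hq hqd (z q (lt hq hq2))
    refine Or.inl ⟨2, Nat.prime_two, hG, ?_, expG 2 Nat.prime_two hG (z _ (by norm_num))⟩
    have : s G 2 ≤ Nat.card G := Nat.card_le_card_of_injective _ Subtype.val_injective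
    omega
  by_cases h4 : 4 ∣ Nat.card G
  · have a4 := s4_mod h4 h2
    have e4 : s G 4 = n := (hv' 4 (by norm_num)).resolve_left (by omega)
    have hG : IsPGroup 2 G := pg_of Nat.prime_two fun q hq hqd => by_contra fun hq2 => by
      have a1 := f4p h4 h2 hq hq2 hqd
      have a2 := four_tot (G := G) hq hq2 (by norm_num : 2 < 4) (ndvd4 hq hq2)
      have a3 := fp hq hqd
      rw [(hv' (4 * q) (by nlinarith [hq.two_le])).resolve_right (by omega), e4] at a1
      rw [(hv' q (lt hq hq2)).resolve_left (s_pos hq hqd)] at a3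
      exact no1 hq (by push_cast at a1; linear_combination a3 - a1)
    have h8 : s G 8 = 0 := by
      have := tot G 8
      rw [show Nat.totient 8 = 4 from rfl] at this
      have := hv' 8 (by norm_num)
      omega
    have cyc : IsCyclic G → Nat.card G = 4 := fun hc => by
      haveI : Fact (Nat.Prime 2) := ⟨Nat.prime_two⟩
      obtain ⟨k, hk⟩ := IsPGroup.iff_card.1 hG
      obtain ⟨g, hg⟩ := IsCyclic.exists_ofOrder_eq_natCard (α := G)
      rcases k with _ | _ | _ | k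
      · omega
      · omega
      · exact hk
      · exact absurd h8 (s_dvd (s_ne.2 ⟨g, hg⟩) (by rw [hk]; exact pow_dvd_pow 2 (by omega : 3 ≤ _)))
    rcases H6.cyclic_or_quat_of_unique hG (fun x y => uniq h2) with hc | ⟨k, ⟨e⟩⟩
    · exact Or.inr (Or.inr (Or.inl ⟨hc, cyc hc⟩))
    rcases k with _ | _ | k
    · haveI := QuaternionGroup.quaternionGroup_one_isCyclic
      have hc : IsCyclic G := isCyclic_of_surjective e.symm e.symm.surjective
      exact Or.inr (Or.inr (Or.inl ⟨hc, cyc hc⟩))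
    · exact Or.inr (Or.inl ⟨e⟩)
    · refine absurd h8 (s_dvd (s_ne.2 ⟨e.symm (QuaternionGroup.a 1), rfl⟩) ?_)
      rw [MulEquiv.orderOf_eq, QuaternionGroup.orderOf_a_one]
      exact ⟨2 ^ k, by ring⟩
  obtain ⟨c, hc⟩ := hev
  have hc2 : ¬ 2 ∣ c := fun h => h4 (hc ▸ Nat.mul_dvd_mul_left 2 h)
  have hc1 : c ≠ 1 := by
    rintro rfl
    rcases (Nat.dvd_prime Nat.prime_two).1 (hc ▸ s_card hm₀) with e | e
    · exact hm1 e
    · exact hn (by rw [← e₀, e, h2])
  obtain ⟨p, hp, hd⟩ := Nat.exists_prime_and_dvd hc1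
  haveI : Fact p.Prime := ⟨hp⟩
  have hp2 : p ≠ 2 := fun e => hc2 (e ▸ hd)
  have hd' : p ∣ Nat.card G := hc ▸ hd.mul_left 2
  obtain ⟨k, hk⟩ : ∃ k, c = p ^ k := ⟨_, Nat.eq_prime_pow_of_unique_prime_dvd
    (by rintro rfl; simp at hc2) fun {q} hq hqd =>
      one q p hq hp (fun e => hc2 (e ▸ hqd)) hp2 (hc ▸ hqd.mul_left 2) hd'⟩
  obtain ⟨P, hP⟩ := Sylow.exists_subgroup_card_pow_prime (G := G) p (n := k)
    (by rw [hc, hk]; exact dvd_mul_left _ _)
  have hPp : IsPGroup p P := IsPGroup.of_card hP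
  obtain ⟨z, hz, hzc⟩ := exists_z h2
  haveI : Fact (Nat.Prime 2) := ⟨Nat.prime_two⟩
  obtain ⟨e⟩ := H13.equiv_prod_zmod (p := 2) (H := P) (c := z) (fun x _ => hzc x)
    (hz ▸ pow_orderOf_eq_one z)
    (fun hzP => hc2 (by rw [hk, ← hP, ← hz]; exact P.orderOf_dvd_natCard hzP))
    (by rw [hc, hk, hP])
  let f : Shrink.{0} P ≃* P := Shrink.mulEquiv
  refine Or.inr (Or.inr (Or.inr ⟨p, Shrink.{0} P, inferInstance, Finite.of_equiv _ f.symm.toEquiv,
    hp, hp2, hPp.of_equiv f.symm, ?_, ⟨e.trans (MulEquiv.prodComm.trans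
      (MulEquiv.prodCongr (MulEquiv.refl _) f.symm))⟩⟩))
  rw [Monoid.exponent_eq_of_mulEquiv f]
  refine exp_p hp (sq p hp hp2 hd') hPp fun e => hc1 ?_
  rw [hk, ← hP, e, card_bot]

end Cfsg.Agent.S3995
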