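import Cfsg.Statements.S3996
import Cfsg.Agent.H1.Ord1
import Cfsg.Agent.H1.FTLib
import Cfsg.Agent.H17.Central
import Cfsg.Agent.H25.Two4
import Cfsg.Agent.H1.Solvable

set_option autoImplicit false
open Cfsg

namespace Cfsg.Agent.S3996

open H1.Ord

theorem quat {G : Type*} [Group G] [Finite G] (h4 : 4 ∣ Nat.card G) (h2 : s G 2 = 1) {b : ℕ}
    (hv : ∀ m, 2 < m → s G m = 0 ∨ s G m = s G 4 ∨ s G m = b) {p q : ℕ} (hp : p.Prime) (hq : q.Prime)
    (hp2 : p ≠ 2) (hq2 : q ≠ 2) (h1 : p ∣ Nat.card G) (h1' : q ∣ Nat.card G) : p = q := by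
  by_contra hne
  have a4 := s4_mod h4 h2
  have lt : ∀ {p : ℕ}, p.Prime → p ≠ 2 → 2 < p := fun hp h => lt_of_le_of_ne hp.two_le (Ne.symm h)
  have nd : ∀ {p q : ℕ}, p.Prime → q.Prime → p ≠ q → ¬ q ∣ p := fun hp hq h e =>
    h ((Nat.prime_dvd_prime_iff_eq hq hp).1 e).symm
  have hb : ∀ {r m : ℕ}, r.Prime → r ≠ 2 → 2 < m → ¬ r ∣ m → s G (m * r) = 0 ∨ s G (m * r) = b := by
    intro r m hr hr2 hm h
    have := four_tot (G := G) hr hr2 hm h
    rcases hv (m * r) (by nlinarith [hr.two_le]) with e | e | e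
    · exact Or.inl e
    · omega
    · exact Or.inr e
  have k1 : ∀ {r : ℕ}, r.Prime → r ≠ 2 → r ∣ Nat.card G → s G r = s G 4 →
      s G (4 * r) = b ∧ (b : ZMod r) = 1 := by
    intro r hr hr2 hd e
    have a1 := f4p h4 h2 hr hr2 hd
    have a2 := fp hr hd
    rw [e] at a2
    rcases hb hr hr2 (by norm_num : 2 < 4) (ndvd4 hr hr2) with e' | e' <;> rw [e'] at a1
    · exact (no1 hr (by push_cast at a1; linear_combination a2 - a1)).elim
    · exact ⟨e', by linear_combination a1 - a2⟩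
  have k2 : ∀ {p q : ℕ}, p.Prime → q.Prime → p ≠ 2 → q ≠ 2 → p ≠ q → p ∣ Nat.card G →
      q ∣ Nat.card G → s G p = s G 4 → s G q = b → False := by
    intro p q hp hq hp2 hq2 hne h1 h1' e1 e2
    have a1 := (k1 hp hp2 h1 e1).2
    have a2 := fpq hp hq hne h1 h1' (dvd_mul_right p q)
    have a3 := fp hp h1
    rw [e2] at a2
    rcases hb hq hq2 (lt hp hp2) (nd hp hq hne) with e | e <;> rw [e] at a2
    · exact no1 hp (by push_cast at a2; linear_combination a2 - a3 - a1)
    · exact no2 hp hp2 (by linear_combination a2 - a3 - 2 * a1)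
  rcases (hv p (lt hp hp2)).resolve_left (s_pos hp h1) with e1 | e1 <;>
    rcases (hv q (lt hq hq2)).resolve_left (s_pos hq h1') with e2 | e2
  · obtain ⟨a1, a2⟩ := k1 hp hp2 h1 e1
    obtain ⟨a3, -⟩ := k1 hq hq2 h1' e2
    have a5 := fp hp h1
    have a6 := fpq hp hq hne h1 h1' (dvd_mul_right p q)
    have n1 : ¬ q ∣ 4 * p := fun h => (hq.dvd_mul.1 h).elim (ndvd4 hq hq2) (nd hp hq hne)
    have a7 := frobZ (G := G) (n := 4 * p * q) (p := p)
      ((hq.coprime_iff_not_dvd.2 n1).symm.mul_dvd_of_dvd_of_dvd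
        ((hp.coprime_iff_not_dvd.2 (ndvd4 hp hp2)).symm.mul_dvd_of_dvd_of_dvd h4 h1) h1')
      ((dvd_mul_left p 4).mul_right q)
    rw [sd_mul hq n1, sd_mul hp (ndvd4 hp hp2), show Nat.divisors 4 = {1, 2, 4} from rfl,
      Finset.sum_insert (by decide), Finset.sum_pair (by decide), s_one, h2] at a7
    simp only [one_mul, mul_assoc 2 p q, s_two_mul h2 (hp.odd_of_ne_two hp2),
      s_two_mul h2 (hq.odd_of_ne_two hq2),
      s_two_mul h2 ((hp.odd_of_ne_two hp2).mul (hq.odd_of_ne_two hq2)), a1, a3] at a7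
    rw [e1] at a5
    rw [e1, e2] at a6 a7
    push_cast at a7
    rcases hb hq hq2 (by nlinarith [hp.two_le] : 2 < 4 * p) n1 with e | e <;> rw [e] at a7
    · exact no1 hp (by push_cast at a7; linear_combination a7 - 2 * a6 - a5 - 2 * a2)
    · exact no2 hp hp2 (by linear_combination a7 - 2 * a6 - a5 - 3 * a2)
  · exact k2 hp hq hp2 hq2 hne h1 h1' e1 e2
  · exact k2 hq hp hq2 hp2 (Ne.symm hne) h1' h1 e2 e1
  · exact hne (one_odd hp hq hp2 h1 h1' e1 e2 (hb hq hq2 (lt hp hp2) (nd hp hq hne)))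

/-- A finite group in which the numbers of elements of each order that occurs (the numbers #{g : o(g) = m}, m ranging over the element orders) take exactly three different values is solvable. -/
theorem result {G : Type*} [Group G] [Finite G] (h : (((fun m : ℕ => Nat.card {g : G // orderOf g = m}) '' Set.range (orderOf : G → ℕ))).ncard = 3) : Group.IsSolvable G := by
  obtain ⟨a, b, hv⟩ := three_vals h
  rcases Nat.even_or_odd (Nat.card G) with hev | hodd
  swap
  · exact H1.ft_odd hodd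
  have hev := hev.two_dvd
  have hv' : ∀ m, 2 < m → s G m = 0 ∨ s G m = a ∨ s G m = b := fun m hm => by
    have := hv m; have := s_ne_one (G := G) hm; tauto
  by_cases h4 : 4 ∣ Nat.card G
  swap
  · obtain ⟨N, hN, ho⟩ := H25.exists_odd_index_two hev h4
    haveI := Subgroup.normal_of_index_eq_two hN
    haveI : Group.IsSolvable N := H1.ft_odd (by
      have := N.index_mul_card
      rw [hN] at this
      exact Nat.odd_iff.2 (by omega))
    haveI : IsCyclic (G ⧸ N) := isCyclic_of_prime_card (p := 2) hN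
    exact solvable_of_ker_le_range N.subtype (QuotientGroup.mk' N) (by simp)
  have key : ∀ p q : ℕ, p.Prime → q.Prime → p ≠ 2 → q ≠ 2 → p ∣ Nat.card G → q ∣ Nat.card G →
      p = q := by
    intro p q hp hq hp2 hq2 h1 h2
    have lp : 2 < p := lt_of_le_of_ne hp.two_le (Ne.symm hp2)
    have lq : 2 < q := lt_of_le_of_ne hq.two_le (Ne.symm hq2)
    have o2 := Nat.odd_iff.1 (s2_odd hev)
    have one : ∀ c, (∀ m, 2 < m → s G m = 0 ∨ s G m = c) → p = q := fun c hc =>
      one_odd hp hq hp2 h1 h2 ((hc p lp).resolve_left (s_pos hp h1))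
        ((hc q lq).resolve_left (s_pos hq h2)) (hc _ (by nlinarith))
    rcases hv 2 with e | e | e | e
    · omega
    · have a4 := s4_mod h4 e
      rcases hv' 4 (by norm_num) with e4 | e4 | e4
      · omega
      · exact quat h4 e (b := b) (by rwa [e4]) hp hq hp2 hq2 h1 h2
      · exact quat h4 e (b := a) (fun m hm => by have := hv' m hm; rw [e4]; tauto) hp hq hp2 hq2 h1 h2
    · exact one b fun m hm => by have := hv' m hm; have := s_even (G := G) hm; omega
    · exact one a fun m hm => by have := hv' m hm; have := s_even (G := G) hm; omega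
  by_cases hex : ∃ p : ℕ, p.Prime ∧ p ≠ 2 ∧ p ∣ Nat.card G
  · obtain ⟨p, hp, hp2, hd⟩ := hex
    exact H17.isSolvable_of_two_primes Nat.prime_two hp fun r hr hrd =>
      (em (r = 2)).imp_right fun h2 => key r p hr hp h2 hp2 hrd hd
  · exact H17.isSolvable_of_two_primes Nat.prime_two Nat.prime_three fun r hr hrd =>
      Or.inl (by_contra fun h2 => hex ⟨r, hr, h2, hrd⟩)

end Cfsg.Agent.S3996
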