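import Mathlib
import Cfsg.Statements.S3997
import Cfsg.Agent.H8.Elt

set_option autoImplicit false
open Cfsg

namespace Cfsg.Agent.S3997

open Subgroup in

theorem result {G H : Type*} [Group G] [Finite G] [Group H] [Finite H] (hT : (∀ m : ℕ, Nat.card {g : G // orderOf g = m} = Nat.card {h : H // orderOf h = m})) (hG : Group.IsNilpotent G) :
    Group.IsNilpotent H := by
  have e : ∀ m : ℕ, {g : G // orderOf g = m} ≃ {h : H // orderOf h = m} := fun m =>
    (Finite.card_eq.1 (hT m)).some
  let f : G ≃ H := Equiv.ofFiberEquiv e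
  have hf : ∀ g, orderOf (f g) = orderOf g := fun g => Equiv.ofFiberEquiv_map e g
  have hc : Nat.card G = Nat.card H := Nat.card_congr f
  refine H1.isNilpotent_of_sylow_normal fun p _ Q => ?_
  let P : Sylow p G := default
  have hP : (P : Subgroup G).Normal := inferInstance
  have h1 : Nat.card (P : Subgroup G) = Nat.card (Q : Subgroup H) := by
    rw [P.card_eq_multiplicity, Q.card_eq_multiplicity, hc]
  have h2 : (Q : Set H) = {h : H | ∃ k, orderOf h = p ^ k} := by
    refine Set.eq_of_subset_of_ncard_le (fun x hx => H8.exists_orderOf_eq_of_mem Q.2 hx) ?_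
    have h3 : {h : H | ∃ k, orderOf h = p ^ k} ⊆ f '' (P : Set G) := by
      rintro x ⟨k, hk⟩
      refine ⟨f.symm x, H8.mem_sylow_of_mem_normalizer P (by rw [normalizer_eq_top]; trivial)
        (H8.isPGroup_zpowers_of_orderOf (k := k) ?_), f.apply_symm_apply x⟩
      rw [← hf, f.apply_symm_apply, hk]
    refine (Set.ncard_le_ncard h3).trans ?_
    rw [Set.ncard_image_of_injective _ f.injective, ← Nat.card_coe_set_eq, ← Nat.card_coe_set_eq]
    exact h1.le
  refine ⟨fun x hx g => ?_⟩
  have h4 : x ∈ (Q : Set H) := hx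
  change g * x * g⁻¹ ∈ (Q : Set H)
  rw [h2] at h4 ⊢
  obtain ⟨k, hk⟩ := h4
  exact ⟨k, by rw [← hk]; exact ((MulAut.conj g).orderOf_eq x)⟩

end Cfsg.Agent.S3997
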