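import Mathlib
import Cfsg.Statements.S3999
import Cfsg.Agent.H8.OType2
import Cfsg.Agent.S0042

set_option autoImplicit false
open Cfsg

namespace Cfsg.Agent.S3999

theorem result {F G : Type*} [Group F] [Finite F] [Group G] [Finite G] (hF : (∃ C : Subgroup F, Cfsg.IsFrobeniusComplement C)) (hT : (∀ m : ℕ, Nat.card {g : F // orderOf g = m} = Nat.card {h : G // orderOf h = m})) :
    (∃ C : Subgroup G, Cfsg.IsFrobeniusComplement C) ∧ (Group.IsSolvable G ↔ Group.IsSolvable F) := by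
  obtain ⟨C, hC⟩ := hF
  obtain ⟨N, hN, hNn, hnil⟩ := Cfsg.Agent.S0042.result C hC
  have h : H8.OT F G := hT
  obtain ⟨D, hD⟩ := h.isFrobenius hC hN hnil
  obtain ⟨M, hM, hMn, hnil'⟩ := Cfsg.Agent.S0042.result D hD
  exact ⟨⟨D, hD⟩, fun hs => h.symm.isSolvable_of_frobenius hD hM hnil' hs,
    fun hs => h.isSolvable_of_frobenius hC hN hnil hs⟩

end Cfsg.Agent.S3999
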