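import Cfsg.Statements.S4001
import Cfsg.Agent.H12.TwoFrob

set_option autoImplicit false
open Cfsg

namespace Cfsg.Agent.S4001

open Subgroup H10 H12

/-- Let G be a 2-Frobenius group: it has normal subgroups H < K with K a Frobenius group with kernel H and G/H a Frobenius group with kernel K/H. Then G is solvable; K/H has odd order coprime to the order of H and to the order of G/K (it is the image of an odd-order Hall subgroup); G/K is cyclic; and the prime graph of G has exactly two connected components, both complete: for distinct primes p, q dividing the order of G, G has an element of order pq exactly when p and q either both divide the order of K/H or both do not. -/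
theorem result {G : Type*} [Group G] [Finite G] (H K : Subgroup G) [H.Normal] [K.Normal] (hlt : H < K)
    (hK : ∃ C : Subgroup ↥K, Cfsg.IsFrobeniusComplement C ∧ Cfsg.frobeniusKernel C = (H.subgroupOf K : Set ↥K))
    (hGH : ∃ C : Subgroup (G ⧸ H), Cfsg.IsFrobeniusComplement C ∧ Cfsg.frobeniusKernel C = (K.map (QuotientGroup.mk' H) : Set (G ⧸ H))) :
    Group.IsSolvable G ∧ Odd (Nat.card (↥K ⧸ H.subgroupOf K)) ∧
      Nat.Coprime (Nat.card (↥K ⧸ H.subgroupOf K)) (Nat.card ↥H * Nat.card (G ⧸ K)) ∧ IsCyclic (G ⧸ K) ∧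
      ∀ p q : ℕ, p.Prime → q.Prime → p ≠ q → p ∣ Nat.card G → q ∣ Nat.card G →
        ((∃ g : G, orderOf g = p * q) ↔ (p ∣ Nat.card (↥K ⧸ H.subgroupOf K) ↔ q ∣ Nat.card (↥K ⧸ H.subgroupOf K))) := by
  obtain ⟨C1, hC1, k1⟩ := hK
  obtain ⟨C2, hC2, k2⟩ := hGH
  set f := QuotientGroup.mk' H with hf
  have hfs : Function.Surjective f := QuotientGroup.mk'_surjective H
  have hk : ∀ g, f g = 1 ↔ g ∈ H := fun g => QuotientGroup.eq_one_iff g
  have F1 : FK H K := FK.of_sub hlt.le (FK_of_frob hC1 k1)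
  have F2 : FK (K.map f) ⊤ := FK_of_frob hC2 k2
  change _ ∧ Odd (H.relIndex K) ∧ (H.relIndex K).Coprime (_ * K.index) ∧ _ ∧
    ∀ p q : ℕ, _ → _ → _ → _ → _ → (_ ↔ (p ∣ H.relIndex K ↔ q ∣ H.relIndex K))
  have c1 : (Nat.card H).Coprime (H.relIndex K) := by
    have := H8.frob_ker_coprime hC1 k1.symm
    rwa [card_subgroupOf_of_le hlt.le] at this
  have hH1 : H ≠ ⊥ := by
    rintro rfl
    exact H8.frob_ker_ne_bot hC1 k1.symm (by simp)
  have cK : Nat.card (K.map f) = H.relIndex K := by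
    rw [← relIndex_ker, QuotientGroup.ker_mk']
  have iK : (K.map f).index = K.index := index_map_eq _ hfs ((QuotientGroup.ker_mk' H).le.trans hlt.le)
  have c2 : (H.relIndex K).Coprime K.index := by
    have := H8.frob_ker_coprime hC2 k2.symm
    rwa [cK, iK] at this
  have fp2 := H8.frob_fpf hC2 k2.symm
  have hK1 := H8.frob_ker_ne_bot hC2 k2.symm
  haveI : (K.map f).Normal := Normal.map inferInstance f hfs
  obtain ⟨r, hr, hrd⟩ := Nat.exists_prime_and_dvd (mt card_eq_one.1 hC2.1)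
  haveI : Fact r.Prime := ⟨hr⟩
  obtain ⟨x, hx, hxr⟩ := exists_orderOf_eq_of_dvd hrd
  obtain ⟨B, b1, b2, b3, b4, b5, b6, b7⟩ := twoFrob_core hlt.le hH1 c1 F1 hr
    (hxr ▸ pow_orderOf_eq_one x) (fp2 x hx (ne_one_of_orderOf_eq hxr))
  have b0 : ∀ b ∈ B, b ∈ H → b = 1 := fun b h1 h2 => by
    have : b ∈ H ⊓ B := ⟨h2, h1⟩
    rwa [b2, mem_bot] at this
  have d2 : ∀ c ∈ C2, c ∈ K.map f → c = 1 := fun c h1 h2 => by
    by_contra c1
    have : c ∈ K.map f ⊓ centralizer {c} := ⟨h2, mem_centralizer_singleton_iff.2 rfl⟩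
    rw [fp2 c h1 c1, mem_bot] at this
    exact c1 this
  haveI : IsMulCommutative C2 := by
    rw [isMulCommutative_iff_le_CC, ← comm_eq_bot, eq_bot_iff]
    intro c hc
    obtain ⟨y, hy, y1⟩ := ((K.map f).bot_or_exists_ne_one).resolve_left hK1
    have := H9.commutator_le_centralizer_of_isCyclic _ b7 (commutator_mono le_top le_top hc) y hy
    exact d2 c (comm_le_of_le le_rfl le_rfl hc) (F2 y hy y1 c (mem_top c) this)
  have cy2 := H2.isCyclic_of_fpf_comm' C2 (K.map f) hK1 (le_NN_of_normal _ _) fp2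
  let ψ : G ⧸ H →* G ⧸ K := QuotientGroup.map H K (MonoidHom.id G) hlt.le
  have hψ : ∀ y, ψ y = 1 → y ∈ K.map f := by
    intro y hy
    obtain ⟨g, rfl⟩ := hfs y
    exact mem_map_of_mem f ((QuotientGroup.eq_one_iff g).1 hy)
  have cyc : IsCyclic (G ⧸ K) := by
    have hi : Function.Injective (ψ.comp C2.subtype) := (injective_iff_map_eq_one _).2
      fun c h => Subtype.ext (d2 c c.2 (hψ c h))
    refine isCyclic_of_surjective _ ((Nat.bijective_iff_injective_and_card _).2 ⟨hi, ?_⟩).2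
    rw [← H8.frob_index_ker hC2 k2.symm, iK, index_eq_card]
  have hB1 : B ≠ ⊥ := by
    rintro rfl
    exact hlt.ne (by simpa using b3)
  have hfpf : ∀ b ∈ B, b ≠ 1 → H ⊓ centralizer {b} = ⊥ := fun b hb b1' =>
    F1.fpf (b1 hb) fun e => b1' (b0 b hb e)
  haveI := H2.nilpotent_of_semiregular hB1 (le_NN_of_normal B H) hfpf
  have cG : Nat.card G = Nat.card H * H.relIndex K * K.index := by
    rw [card_mul_relIndex hlt.le, card_mul_index]
  -- an element of order `p * q` with `p ∣ |K/H|`, `q ∤ |K/H|` cannot exist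
  have no : ∀ p q : ℕ, p.Prime → q.Prime → p ∣ H.relIndex K → ¬ q ∣ H.relIndex K →
      ∀ g : G, orderOf g ≠ p * q := by
    intro p q hp hq h1 h2 g hg
    haveI : Fact p.Prime := ⟨hp⟩
    haveI : Fact q.Prime := ⟨hq⟩
    have a1 : orderOf (g ^ q) = p := by
      rw [orderOf_pow_of_dvd hq.ne_zero (hg ▸ dvd_mul_left _ _), hg, Nat.mul_div_cancel _ hq.pos]
    have a2 : orderOf (g ^ p) = q := by
      rw [orderOf_pow_of_dvd hp.ne_zero (hg ▸ dvd_mul_right _ _), hg, Nat.mul_div_cancel_left _ hp.pos]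
    have a3 : g ^ q ∉ H := fun h => hp.one_lt.ne' (Nat.eq_one_of_dvd_coprimes c1
      (a1 ▸ H.orderOf_dvd_natCard h) h1)
    have a4 : g ^ q ∈ K := zpowers_le.1 (syl_le_of_not_dvd_index (isPGroup_zpowers_of_orderOf_eq a1)
      fun h => hp.one_lt.ne' (Nat.eq_one_of_dvd_coprimes c2 h1 h))
    have a5 := F2 _ (mem_map_of_mem f a4) (fun e => a3 ((hk _).1 e)) (f (g ^ p)) (mem_top _)
      ((Commute.pow_pow_self g q p).map f)
    have a6 : f (g ^ p) = 1 := by
      have e1 := (K.map f).orderOf_dvd_natCard a5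
      have e2 : orderOf (f (g ^ p)) ∣ q := a2 ▸ orderOf_map_dvd f _
      rcases (Nat.dvd_prime hq).1 e2 with e | e
      · exact orderOf_eq_one_iff.1 e
      · exact absurd (cK ▸ e ▸ e1) h2
    exact a3 (F1 _ ((hk _).1 a6) (ne_one_of_orderOf_eq a2) _ a4 (Commute.pow_pow_self g p q))
  have mix : ∀ p q : ℕ, p.Prime → q.Prime → p ∣ Nat.card H → ¬ q ∣ Nat.card H →
      q ∣ K.index → ∃ g : G, orderOf g = p * q := by
    intro p q hp hq h1 h2 h3
    haveI : Fact p.Prime := ⟨hp⟩
    haveI : Fact q.Prime := ⟨hq⟩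
    have hq2 : ¬ q ∣ H.relIndex K := fun h => hq.one_lt.ne' (Nat.eq_one_of_dvd_coprimes c2 h h3)
    have hBs : Group.IsSolvable B := by
      haveI := b6.isMulCommutative
      exact Group.isSolvable_of_comm fun a b => mul_comm' a b
    have e1 : K.relIndex ⊤ = K.relIndex NN(B) := by
      refine relIndex_eq_of_mul le_top fun g _ => ?_
      obtain ⟨c, hc, e⟩ := H1.schurZassenhaus_conj_of_sup_eq (N := H) (A := cj g⁻¹ B) (B := B)
        (le_NN_of_normal _ _) (by rw [card_cj, b4]; exact c1) (b4 ▸ c1) (Or.inl inferInstance)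
        (by rw [← cj_eq_of_normal g⁻¹ H, ← cj_sup, b3, cj_eq_of_normal g⁻¹ H, cj_eq_of_normal, b3])
      rw [cj_smul, ← cj_mul, ← mem_NN] at e
      exact ⟨_, inv_mem e, c, hlt.le hc, by group⟩
    obtain ⟨y, hy, hyq⟩ := exists_orderOf_eq_of_dvd (p := q) (L := NN(B))
      (h3.trans (by rw [← relIndex_top_right, e1]; exact relIndex_dvd_card _ _))
    set P := pCoreOf p H
    have hP : IsSylowIn p P H := by
      obtain ⟨S, hS⟩ := exists_isSylowIn p H
      have : H ≤ NN(S) := le_NN_of_normal_subgroupOf hS.le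
        (hS.coe_toSylow ▸ (inferInstance : (hS.toSylow : Subgroup H).Normal))
      exact isSylowIn_of_card_ge hS (isPGroup_pCoreOf _) (pCoreOf_le _)
        (card_le_of_le (le_pCoreOf hS.isPGroup hS.le this))
    have hn : ∀ L : Subgroup G, L ≤ NN(ZO p P) := fun L =>
      ((le_NN_of_normal L H).trans (NN_le_NN_pCoreOf _)).trans (NN_le_NN_ZO _)
    have hV : ZO p P ≤ H := (ZO_le _).trans hP.le
    have hV1 : ZO p P ≠ ⊥ := ZO_ne_bot hP.isPGroup (hP.ne_bot h1)
    have hfix : ZO p P ⊓ CC(zpowers y) ≠ ⊥ := by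
      intro h
      have := H2.bg3_3' (K := B) (R := zpowers y) (V := ZO p P) (zpowers_le.2 hy) ?_
        (elab_ZO _).1 (hn _) (hn _) ((b4 ▸ c1).coprime_dvd_left (card_dvd_of_le hV)) h
      · obtain ⟨b, hb, b1'⟩ := (B.bot_or_exists_ne_one).resolve_left hB1
        refine hV1 (eq_bot_iff.2 fun v hv => ?_)
        rw [← hfpf b hb b1']
        exact ⟨hV hv, mem_centralizer_singleton_iff.2 (this hb v hv)⟩
      · intro s hs s1
        rw [eq_bot_iff]
        intro b hb
        by_contra b1'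
        have a1 := F2 _ (mem_map_of_mem f (b1 hb.1)) (fun e => b1' (b0 b hb.1 ((hk _).1 e))) (f s)
          (mem_top _) (Commute.map (mem_centralizer_singleton_iff.1 hb.2) f)
        have a2 : s ∈ K := by
          have := mem_comap.2 a1
          rwa [comap_map_eq, QuotientGroup.ker_mk', sup_eq_left.2 hlt.le] at this
        have a3 : orderOf s ∣ q := by
          have := (zpowers y).orderOf_dvd_natCard hs
          rwa [Nat.card_zpowers, hyq] at this
        have a4 := K.orderOf_dvd_natCard a2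
        rw [← card_mul_relIndex hlt.le, ((Nat.dvd_prime hq).1 a3).resolve_left
          (mt orderOf_eq_one_iff.1 s1), hq.dvd_mul] at a4
        exact a4.elim h2 hq2
    obtain ⟨v, hv, hvp⟩ := exists_orderOf_eq_of_ne_bot
      (hP.isPGroup.to_le (inf_le_left.trans (ZO_le _))) hfix
    refine ⟨v * y, ?_⟩
    rw [Commute.orderOf_mul_eq_mul_orderOf_of_coprime (hv.2 y (mem_zpowers y)).symm, hvp, hyq]
    rw [hvp, hyq]
    exact (Nat.coprime_primes hp hq).2 fun e => h2 (e ▸ h1)
  refine ⟨?_, b4 ▸ b5, Nat.Coprime.mul_right c1.symm c2, cyc, fun p q hp hq hpq h1 h2 => ⟨?_, ?_⟩⟩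
  · haveI := b7.isMulCommutative
    haveI := cyc.isMulCommutative
    haveI : Group.IsSolvable (K.map f) := Group.isSolvable_of_comm fun a b => mul_comm' a b
    haveI : Group.IsSolvable (G ⧸ K) := Group.isSolvable_of_comm fun a b => mul_comm' a b
    haveI : Group.IsSolvable (G ⧸ H) := Group.isSolvable_of_ker_le_range (K.map f).subtype ψ
      fun y hy => ⟨⟨y, hψ y hy⟩, rfl⟩
    exact Group.isSolvable_of_ker_le_range H.subtype f fun y hy => ⟨⟨y, (hk y).1 hy⟩, rfl⟩
  · rintro ⟨g, hg⟩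
    constructor
    · intro a
      by_contra b
      exact no p q hp hq a b g hg
    · intro a
      by_contra b
      exact no q p hq hp a b g (hg.trans (mul_comm _ _))
  · intro h
    haveI : Fact p.Prime := ⟨hp⟩
    haveI : Fact q.Prime := ⟨hq⟩
    have cop := (Nat.coprime_primes hp hq).2 hpq
    by_cases a : p ∣ H.relIndex K
    · obtain ⟨z, hz⟩ := b6.exists_ofOrder_eq_natCard
      obtain ⟨k, e⟩ := exists_orderOf_of_dvd (g := (z : G)) (n := p * q) (orderOf_pos _).ne'
        (by rw [orderOf_coe, hz, b4]; exact cop.mul_dvd_of_dvd_of_dvd a (h.1 a))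
      exact ⟨_, e⟩
    have b : ¬ q ∣ H.relIndex K := fun b => a (h.2 b)
    rw [cG, hp.dvd_mul, hp.dvd_mul] at h1
    rw [cG, hq.dvd_mul, hq.dvd_mul] at h2
    by_cases a1 : p ∣ Nat.card H <;> by_cases a2 : q ∣ Nat.card H
    · obtain ⟨u, hu⟩ := exists_prime_orderOf_dvd_card' p a1
      obtain ⟨v, hv⟩ := exists_prime_orderOf_dvd_card' q a2
      have hc : (orderOf u).Coprime (orderOf v) := by rwa [hu, hv]
      refine ⟨(u * v : H), ?_⟩
      rw [orderOf_coe, (H1.commute_of_coprime_orderOf hc).orderOf_mul_eq_mul_orderOf_of_coprime hc,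
        hu, hv]
    · exact mix p q hp hq a1 a2 (by tauto)
    · rw [mul_comm]
      exact mix q p hq hp a2 a1 (by tauto)
    · obtain ⟨z, hz⟩ := cyc.exists_ofOrder_eq_natCard
      obtain ⟨g, rfl⟩ := QuotientGroup.mk'_surjective K z
      obtain ⟨k, e⟩ := exists_orderOf_of_dvd (g := g) (n := p * q) (orderOf_pos _).ne'
        (Dvd.dvd.trans (by
          rw [hz, ← index_eq_card]
          exact cop.mul_dvd_of_dvd_of_dvd (by tauto) (by tauto)) (orderOf_map_dvd _ g))
      exact ⟨_, e⟩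

end Cfsg.Agent.S4001
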