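import Cfsg.Statements.S4003
import Cfsg.Agent.H9.Rank
import Cfsg.Agent.H9.NormalCyc
import Cfsg.Agent.H8.Count
import Cfsg.Agent.H25.Fix

set_option autoImplicit false
open Cfsg

namespace Cfsg.Agent.S4003

open Subgroup
open scoped Pointwise
variable {G : Type*} [Group G] [Finite G] {p : ℕ} [hp : Fact p.Prime]
theorem tot (t : ℕ) : (p ^ (t + 1)).totient = p ^ t * (p - 1) := Nat.totient_prime_pow_succ hp.out t
theorem pgrp (h2 : p ≠ 2) (hG : IsPGroup p G) (hc : ¬ IsCyclic G) (s : ℕ) :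
    p ^ (s + 2) ∣ {x : G | orderOf x = p ^ (s + 2)}.ncard := by
  obtain ⟨N, -, n, ⟨a, e⟩, c⟩ := H9.exists_normal_rank_two h2 hG ⊤ (mt H9.isCyclic_iff_top.1 hc)
  have := hG.isNilpotent
  have z : ⁅N, (⊤ : Subgroup G)⁆ ≤ center G := H9.le_center_of_card_le_prime hG ((H9.le_pow_of_lt (hG.to_subgroup _) (k := 1)
    (c ▸ H1.card_lt_of_lt (H9.commutator_lt le_normalizer_of_normal fun h => by
      rw [h, card_bot] at c; exact (Nat.one_lt_pow two_ne_zero hp.out.one_lt).ne c))).trans_eq (pow_one p))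
  have k : ∀ x y : G, (y : G ⧸ N) ∈ zpowers (x : G ⧸ N) → ∀ t, x ^ p ^ (t + 1) = 1 → y ^ p ^ (t + 1) = 1 := by
    rintro x y ⟨i, h⟩ t u
    have m : (x ^ i)⁻¹ * y ∈ N := QuotientGroup.eq.1 h
    have w := z (commutator_mem_commutator m (mem_top (x ^ i)))
    rw [← mul_inv_cancel_left (x ^ i) y, pow_succ', pow_mul, H9.mul_pow_of_odd (H9.commute_of_mem_center w _)
      (H9.commute_of_mem_center w _) (hp.out.odd_of_ne_two h2)
      (e _ (commutator_le_left _ _ (commutator_mem_commutator m (mem_top _)))), e _ m, mul_one, ← pow_mul, ← pow_succ',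
      ← zpow_natCast, zpow_comm, zpow_natCast, u, one_zpow]
  refine H8.dvd_ncard_of_fiber _ (fun x : G => zpowers (x : G ⧸ N)) _ fun x hx => ?_
  have f : {y | y ∈ {x : G | orderOf x = p ^ (s + 2)} ∧ zpowers (y : G ⧸ N) = zpowers (x : G ⧸ N)} =
      QuotientGroup.mk ⁻¹' {y | zpowers y = zpowers (x : G ⧸ N)} := Set.ext fun y => and_iff_right_of_imp fun h =>
    orderOf_eq_prime_pow (fun g => by
      have := orderOf_dvd_of_pow_eq_one (k y x (h.ge (mem_zpowers _)) s g)
      rw [hx, Nat.pow_dvd_pow_iff_le_right hp.out.one_lt] at this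
      omega) (k x y (h.le (mem_zpowers _)) _ (hx ▸ pow_orderOf_eq_one x))
  obtain ⟨t, o⟩ := IsPGroup.iff_orderOf.1 (hG.to_quotient N) x
  have l : s + 2 ≤ t + 1 := by
    rw [← Nat.pow_dvd_pow_iff_le_right hp.out.one_lt, ← hx, orderOf_dvd_iff_pow_eq_one, pow_succ, pow_mul]
    exact e _ ((QuotientGroup.eq_one_iff _).1 (by rw [QuotientGroup.mk_pow, ← o, pow_orderOf_eq_one]))
  obtain ⟨r, rfl⟩ : ∃ r, t = s + r + 1 := ⟨t - s - 1, by omega⟩
  rw [f, ← Nat.card_coe_set_eq, Nat.card_congr (QuotientGroup.preimageMkEquivSubgroupProdSet _ _), Nat.card_prod,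
    Nat.card_coe_set_eq, H8.ncard_generators, c, o, tot]
  exact ⟨p ^ r * (p - 1), by ring⟩
theorem cyc {T : Set G} {k : ℕ} (h : ∀ x ∈ T, orderOf x = k) (h' : ∀ x ∈ T, ∀ y, zpowers y = zpowers x → y ∈ T) :
    T.ncard = (zpowers '' T).ncard * k.totient := by
  classical
  have := Fintype.ofFinite G
  rw [Set.ncard_eq_toFinset_card', Finset.card_eq_sum_card_image zpowers, Set.ncard_eq_toFinset_card', Set.toFinset_image]
  refine Finset.sum_const_nat fun C hC => ?_
  obtain ⟨x, hx, rfl⟩ := Finset.mem_image.1 hC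
  rw [Set.mem_toFinset] at hx
  rw [← h x hx, ← H8.ncard_generators, ← Set.ncard_coe_finset]
  congr 1; ext y
  simpa using h' x hx y
theorem grp (h2 : p ≠ 2) (P : Sylow p G) (hc : ¬ IsCyclic P) (s : ℕ) :
    p ^ (s + 2) ∣ {x : G | orderOf x = p ^ (s + 2)}.ncard := by
  have k : ∀ H : Subgroup G, P.1 ≤ H → (zpowers '' {x | x ∈ H ∧ orderOf x = p ^ (s + 2)}).ncard ≡
      {C ∈ zpowers '' {x | x ∈ P.1 ∧ orderOf x = p ^ (s + 2)} | ∀ q ∈ P.1.map MulAut.conj, q • C = C}.ncard [MOD p] :=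
    fun H l => by
    refine (H25.ncard_modEq_fixed (P.1.map MulAut.conj) (P.2.map _) _ (Set.toFinite _) ?_).trans (congrArg (· % p) ?_)
    · rintro _ ⟨g, hg, rfl⟩ _ ⟨x, hx, rfl⟩
      exact ⟨_, ⟨mul_mem (mul_mem (l hg) hx.1) (inv_mem (l hg)), ((MulAut.conj g).orderOf_eq x).trans hx.2⟩,
        (MonoidHom.map_zpowers (MulAut.conj g).toMonoidHom x).symm⟩
    · congr 1; ext C
      refine and_congr_left fun f => ⟨?_, fun ⟨x, hx, e⟩ => ⟨x, ⟨l hx.1, hx.2⟩, e⟩⟩
      rintro ⟨x, hx, rfl⟩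
      have n : P.1 ≤ normalizer (zpowers x : Set G) := fun g hg => conjAct_pointwise_smul_iff.1 (f _ ⟨g, hg, rfl⟩)
      exact ⟨x, ⟨(le_sup_right.trans (P.3 (P.2.to_sup_of_normal_right' (.of_card ((Nat.card_zpowers x).trans hx.2)) n)
        le_sup_left).le) (mem_zpowers x), hx.2⟩, rfl⟩
  have c : ∀ H : Subgroup G, {x | x ∈ H ∧ orderOf x = p ^ (s + 2)}.ncard = _ := fun H => cyc (fun x h => h.2)
    fun x h y e => ⟨zpowers_le.2 h.1 (e.le (mem_zpowers y)), (H8.orderOf_eq_of_zpowers_eq e).trans h.2⟩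
  have a := pgrp h2 P.2 hc s
  rw [← Set.ncard_image_of_injective _ P.1.subtype_injective, show P.1.subtype '' _ = {x | x ∈ P.1 ∧ orderOf x = p ^ (s + 2)} by
    ext; simp [and_comm], c, tot, mul_left_comm, pow_succ p (s + 1), Nat.mul_dvd_mul_iff_left (pow_pos hp.out.pos _),
    ((Nat.coprime_self_sub_right hp.out.one_le).2 (Nat.coprime_one_right p)).dvd_mul_right] at a
  have b := c ⊤
  simp only [mem_top, true_and] at b
  rw [b, tot, mul_left_comm, pow_succ p (s + 1)]
  have d := ((k ⊤ le_top).trans (k _ le_rfl).symm).dvd_iff dvd_rfl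
  simp only [mem_top, true_and] at d
  exact Nat.mul_dvd_mul_left _ ((d.2 a).mul_right _)

/-- Let G be a finite group, p an odd prime dividing the order of G whose Sylow p-subgroups are not cyclic, and n = p^s·m with s > 1 and m coprime to p. Then the number of elements of G of order n is a multiple of p^s. -/
theorem result {G : Type*} [Group G] [Finite G] (p : ℕ) [Fact p.Prime] (hodd : p ≠ 2) (hpG : p ∣ Nat.card G)
    (P : Sylow p G) (hP : ¬ IsCyclic ↥(P : Subgroup G)) (s m : ℕ) (hs : 1 < s) (hm : Nat.Coprime p m) :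
    p ^ s ∣ Nat.card {g : G // orderOf g = p ^ s * m} := by
  classical
  have := Fintype.ofFinite G
  obtain ⟨s, rfl⟩ : ∃ t, s = t + 2 := ⟨s - 2, by omega⟩
  have co : m.Coprime (p ^ (s + 2)) := hm.symm.pow_right _
  let T : G → Set G := fun z => {y | y ∈ centralizer {z} ∧ orderOf y = p ^ (s + 2)}
  let f : G → ℕ := fun z => if orderOf z = m then (T z).ncard else 0
  have e : Nat.card {g : G // orderOf g = p ^ (s + 2) * m} = ∑ z, f z := by
    have : ∀ z, f z = Nat.card {y // orderOf z = m ∧ y ∈ T z} := fun z => by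
      by_cases h : orderOf z = m <;> simp [f, h, ← Nat.card_coe_set_eq]
    rw [Finset.sum_congr rfl fun z _ => this z, ← Nat.card_sigma]
    refine (Nat.card_congr (Equiv.ofBijective (fun x => ⟨x.2 * x.1, by
      obtain ⟨z, y, a, b, c⟩ := x
      rw [Commute.orderOf_mul_eq_mul_orderOf_of_coprime (mem_centralizer_singleton_iff.1 b)
        (by rw [a, c]; exact co.symm), a, c]⟩) ⟨?_, ?_⟩)).symm
    · rintro ⟨z, y, a, b, c⟩ ⟨z', y', a', b', c'⟩ h
      obtain ⟨rfl, rfl⟩ := H8.coprime_decomp_unique co.symm (c ▸ pow_orderOf_eq_one y) (a ▸ pow_orderOf_eq_one z)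
        (c' ▸ pow_orderOf_eq_one y') (a' ▸ pow_orderOf_eq_one z') (mem_centralizer_singleton_iff.1 b)
        (mem_centralizer_singleton_iff.1 b') (congrArg Subtype.val h)
      rfl
    · rintro ⟨g, h⟩
      obtain ⟨y, -, z, -, a, b, c, rfl⟩ := H8.exists_coprime_decomp co.symm (h ▸ pow_orderOf_eq_one g)
      have u := orderOf_dvd_of_pow_eq_one a
      have v := orderOf_dvd_of_pow_eq_one b
      rw [c.orderOf_mul_eq_mul_orderOf_of_coprime ((co.symm.coprime_dvd_left u).coprime_dvd_right v)] at h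
      have w : orderOf y = p ^ (s + 2) := Nat.dvd_antisymm u
        ((co.symm.coprime_dvd_right v).dvd_of_dvd_mul_right ⟨_, h⟩)
      exact ⟨⟨z, y, Nat.eq_of_mul_eq_mul_left (orderOf_pos y) (h.trans (by rw [w])), mem_centralizer_singleton_iff.2 c, w⟩, rfl⟩
  rw [e]
  refine H8.dvd_sum_of_conj f (fun g x => ?_) _ fun z => ?_
  · have : T (g * x * g⁻¹) = MulAut.conj g '' T x := by
      ext y
      obtain ⟨y, rfl⟩ := (MulAut.conj g).surjective y
      rw [(MulAut.conj g).injective.mem_set_image]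
      refine and_congr ?_ (by rw [MulEquiv.orderOf_eq])
      simp [mem_centralizer_singleton_iff, mul_assoc]
      simp [← mul_assoc]
    simp only [f, this, Set.ncard_image_of_injective _ (MulAut.conj g).injective]
    rw [show orderOf (g * x * g⁻¹) = _ from (MulAut.conj g).orderOf_eq x]
  by_cases h : orderOf z = m
  swap
  · simp [f, h]
  rw [show f z = _ from if_pos h, Nat.cast_id]
  by_cases i : p ∣ (centralizer {z}).index
  · rw [pow_succ']
    refine Nat.mul_dvd_mul i (H8.dvd_ncard_of_totient _ (fun x a y e => And.intro (zpowers_le.2 a.1 (e.le (mem_zpowers y)))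
      ((H8.orderOf_eq_of_zpowers_eq e).trans a.2)) _ fun x a => ?_)
    rw [a.2, tot]; exact dvd_mul_right _ _
  obtain ⟨Q⟩ : Nonempty (Sylow p (centralizer ({z} : Set G))) := inferInstance
  have c : ¬ IsCyclic Q := fun c => by
    let R := (Q.2.map (Subgroup.subtype _)).toSylow (by
      rw [index_map_subtype, Nat.Prime.dvd_mul Fact.out]; exact fun h => h.elim Q.not_dvd_index i)
    exact hP ((R.equiv P).symm.isCyclic.2 ((Q.1.equivMapOfInjective _ (Subgroup.subtype_injective _)).isCyclic.1 c))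
  have := grp hodd Q c s
  rw [← Set.ncard_image_of_injective _ (Subgroup.subtype_injective _)] at this
  convert this.mul_left _ using 3
  ext; simp [T, and_comm]

end Cfsg.Agent.S4003
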