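import Cfsg.Statements.S4004
import Cfsg.Agent.H1.Ord1
import Cfsg.Agent.H1.FTLib

set_option autoImplicit false
open Cfsg

namespace Cfsg.Agent.S4004

open H1.Ord H10 Subgroup

section
variable {G : Type*} [Group G] [Finite G] (ho : ∀ p : ℕ, p.Prime → p ∣ Nat.card G → p ≠ 2) {a b : ℕ}
  (hv : ∀ m, m ≠ 1 → s G m = 0 ∨ s G m = a ∨ s G m = b)
include ho hv

theorem ne1 {p : ℕ} (hp : p.Prime) (m : ℕ) : s G (p * m) = 0 ∨ s G (p * m) = a ∨ s G (p * m) = b :=
  hv _ fun e => hp.one_lt.ne' (Nat.eq_one_of_mul_eq_one_right e)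

theorem bone {p q : ℕ} (hp : p.Prime) (hq : q.Prime) (hne : p ≠ q) (h1 : p ∣ Nat.card G)
    (h2 : q ∣ Nat.card G) (e1 : s G p = a) (e2 : s G q = a) : s G (p * q) = b ∧ (b : ZMod p) = 1 := by
  have e : s G (p * q) = b := by
    by_contra h
    exact hne (one_odd hp hq (ho p hp h1) h1 h2 e1 e2 (by have := ne1 ho hv hp q; tauto))
  have a1 := fpq hp hq hne h1 h2 (dvd_mul_right p q)
  have a2 := fp hp h1
  rw [e1] at a2
  rw [e, e1, e2] at a1
  exact ⟨e, by linear_combination a1 - 2 * a2⟩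

theorem diff {p q : ℕ} (hp : p.Prime) (hq : q.Prime) (hne : p ≠ q) (h1 : p ∣ Nat.card G)
    (h2 : q ∣ Nat.card G) (e1 : s G p = a) (e2 : s G q = a) : False := by
  obtain ⟨c1, b1⟩ := bone ho hv hp hq hne h1 h2 e1 e2
  obtain ⟨-, b2⟩ := bone ho hv hq hp hne.symm h2 h1 e2 e1
  have nd : ∀ {p q : ℕ}, p.Prime → q.Prime → p ≠ q → ¬ q ∣ p := fun hp hq h e =>
    h ((Nat.prime_dvd_prime_iff_eq hq hp).1 e).symm
  have all : ∀ r : ℕ, r.Prime → r ∣ Nat.card G → s G r = a := by
    intro r hr h3
    by_contra hra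
    have e3 : s G r = b := by have := hv r hr.one_lt.ne'; have := s_pos hr h3; tauto
    have k : ∀ {p : ℕ}, p.Prime → p ∣ Nat.card G → s G p = a → (b : ZMod p) = 1 →
        p ≠ r ∧ s G (p * r) = a := by
      intro p hp h1 e1 b1
      have hpr : p ≠ r := fun e => hra (e ▸ e1)
      have a1 := fpq hp hr hpr h1 h3 (dvd_mul_right p r)
      have a2 := fp hp h1
      rw [e3] at a1
      refine ⟨hpr, ?_⟩
      rcases ne1 ho hv hp r with e | e | e
      · rw [e] at a1; exact (no1 hp (by push_cast at a1; linear_combination a1 - a2 - b1)).elim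
      · exact e
      · rw [e] at a1; exact (no2 hp (ho p hp h1) (by linear_combination a1 - a2 - 2 * b1)).elim
    obtain ⟨n1, k1⟩ := k hp h1 e1 b1
    obtain ⟨n2, k2⟩ := k hq h2 e2 b2
    have n3 : ¬ r ∣ p * q := fun h => (hr.dvd_mul.1 h).elim (nd hp hr n1) (nd hq hr n2)
    have hd := (hr.coprime_iff_not_dvd.2 n3).symm.mul_dvd_of_dvd_of_dvd
      (((Nat.coprime_primes hp hq).2 hne).mul_dvd_of_dvd_of_dvd h1 h2) h3
    have a1 := frobZ (G := G) (p := p) hd ((dvd_mul_right p q).mul_right r)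
    have a2 := frobZ (G := G) (p := r) hd (dvd_mul_left r _)
    rw [sd_mul hr n3, sd_mul hq (nd hp hq hne), hp.sum_divisors] at a1 a2
    simp only [one_mul, s_one, e1, e2, e3, c1, k1, k2] at a1 a2
    push_cast at a1 a2
    have a3 := fp hp h1
    have a4 := fp hr h3
    have a5 := fpq hp hr n1 h1 h3 (dvd_mul_left r p)
    rw [e1] at a3
    rw [e3] at a4
    rw [e1, e3, k1] at a5
    have := ne1 ho hv hp (q * r)
    rw [← mul_assoc] at this
    rcases this with e | e | e
    · rw [e] at a1; exact no1 hp (by push_cast at a1; linear_combination 4 * a3 + 2 * b1 - a1)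
    · rw [e] at a1; exact no2 hp (ho p hp h1) (by linear_combination 5 * a3 + 2 * b1 - a1)
    · rw [e] at a2; exact no2 hr (ho r hr h3) (by linear_combination 2 * a5 + a4 - a2)
  have hd : Nat.card G ∣ 1 + a := (Nat.dvd_iff_prime_pow_dvd_dvd _ _).2 fun r k hr hk => by
    rcases k with _ | k
    · simp
    have h3 : r ∣ Nat.card G := (dvd_pow_self r k.succ_ne_zero).trans hk
    have b3 : (b : ZMod r) = 1 := by
      by_cases e : r = p
      · exact e ▸ b1
      · exact (bone ho hv hr hp e h3 h1 (all r hr h3) e1).2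
    have a3 := fp hr h3
    rw [all r hr h3] at a3
    have z : s G (r ^ 2) = 0 := by
      have a1 := (ZMod.natCast_eq_zero_iff _ _).2 (sq_dvd (G := G) hr 1)
      rw [mul_one] at a1
      have := ne1 ho hv hr r
      rw [← sq] at this
      rcases this with e | e | e
      · exact e
      · rw [e] at a1; exact (no1 hr (by linear_combination a3 - a1)).elim
      · rw [e] at a1; exact (no1 hr (by linear_combination a1 - b3)).elim
    have := frob hk
    rw [Nat.sum_divisors_prime_pow hr, Finset.sum_range_succ', Finset.sum_range_succ',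
      Finset.sum_eq_zero (fun j _ => by_contra fun h => s_dvd h (pow_dvd_pow r (by omega)) z),
      zero_add, zero_add, pow_one, pow_zero, s_one, all r hr h3, add_comm a] at this
    exact this
  have h3 := sum_s G (n := Nat.card G) Nat.card_pos.ne'
  rw [Nat.card_congr (Equiv.subtypeUnivEquiv fun g : G => pow_card_eq_one')] at h3
  have h4 : ∑ d ∈ {1, p, q}, s G d ≤ ∑ d ∈ (Nat.card G).divisors, s G d :=
    Finset.sum_le_sum_of_subset (by
      intro d hd
      simp only [Finset.mem_insert, Finset.mem_singleton] at hd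
      rcases hd with rfl | rfl | rfl <;> simp [h1, h2, Nat.card_pos.ne'])
  rw [Finset.sum_insert (by simp [hp.one_lt.ne, hq.one_lt.ne]), Finset.sum_pair hne, s_one, e1, e2,
    ← h3] at h4
  have := Nat.le_of_dvd (by omega) hd
  have := s_pos hp h1
  omega

theorem npq {p q : ℕ} (hp : p.Prime) (hq : q.Prime) (hne : p ≠ q) (h1 : p ∣ Nat.card G)
    (h2 : q ∣ Nat.card G) (e1 : s G p = a) (e2 : s G q = b) : s G (p * q) ≠ a := by
  intro e3
  haveI : Fact p.Prime := ⟨hp⟩
  have a1 := fpq hp hq hne h1 h2 (dvd_mul_right p q)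
  have a2 := fp hp h1
  rw [e3, e1] at a1
  rw [e1] at a2
  have a3 : ¬ p ∣ s G q := fun h => no1 hp (by
    have := (ZMod.natCast_eq_zero_iff _ _).2 h
    linear_combination 2 * a2 + this - a1)
  have key : ∀ y : {g : G // orderOf g = p}, ∃ z : G, orderOf z = q ∧ Commute y.1 z := by
    intro y
    letI : MulAction (zpowers y.1) {g : G // orderOf g = q} :=
      { smul := fun x g => ⟨x * g * x⁻¹, ((MulAut.conj (x : G)).orderOf_eq g).trans g.2⟩
        one_smul := fun g => Subtype.ext (by show ((1 : zpowers y.1) : G) * g * _ = _; simp)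
        mul_smul := fun x x' g => Subtype.ext (by
          show ((x * x' : zpowers y.1) : G) * g * ((x * x' : zpowers y.1) : G)⁻¹ =
            x * (x' * g * (x' : G)⁻¹) * (x : G)⁻¹
          rw [coe_mul]; group) }
    obtain ⟨z, hz⟩ := (isPGroup_zpowers_of_orderOf_eq y.2).nonempty_fixed_point_of_prime_not_dvd_card
      {g : G // orderOf g = q} a3
    exact ⟨z, z.2, mul_inv_eq_iff_eq_mul.1 (congrArg Subtype.val (hz ⟨y, mem_zpowers _⟩))⟩
  choose z hz hc using key
  have hq2 : q.Coprime 2 := (Nat.coprime_primes hq Nat.prime_two).2 (ho q hq h2)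
  have hpq := (Nat.coprime_primes hp hq).2 hne
  have o2 : ∀ y (i : Fin 2), orderOf (z y ^ ((i : ℕ) + 1)) = q := fun y i => by
    rw [Nat.Coprime.orderOf_pow, hz]
    rw [hz]
    fin_cases i
    · simp
    · exact hq2
  have : Nat.card ({g : G // orderOf g = p} × Fin 2) ≤ s G (p * q) := by
    refine Nat.card_le_card_of_injective (fun x => ⟨x.1.1 * z x.1 ^ ((x.2 : ℕ) + 1), ?_⟩) ?_
    · rw [((hc x.1).pow_right _).orderOf_mul_eq_mul_orderOf_of_coprime (by rw [x.1.2, o2]; exact hpq),
        x.1.2, o2]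
    · rintro ⟨y, i⟩ ⟨y', i'⟩ e
      obtain ⟨f1, f2⟩ := H8.coprime_decomp_unique hpq (orderOf_dvd_iff_pow_eq_one.1 y.2.dvd)
        (o2 y i ▸ pow_orderOf_eq_one _) (orderOf_dvd_iff_pow_eq_one.1 y'.2.dvd)
        (o2 y' i' ▸ pow_orderOf_eq_one _) ((hc y).pow_right _) ((hc y').pow_right _)
        (congrArg Subtype.val e)
      obtain rfl : y = y' := Subtype.ext f1
      have h3 : 2 < q := lt_of_le_of_ne hq.two_le (Ne.symm (ho q hq h2))
      have := pow_injOn_Iio_orderOf (x := z y) (by rw [hz, Set.mem_Iio]; omega)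
        (by rw [hz, Set.mem_Iio]; omega) f2
      exact Prod.ext rfl (Fin.ext (by omega))
  rw [Nat.card_prod, e3, Nat.card_fin] at this
  have h5 : Nat.card {g : G // orderOf g = p} = a := e1
  have := s_pos hp h1
  omega

theorem sq0 {p q : ℕ} (hp : p.Prime) (hq : q.Prime) (hne : p ≠ q) (h1 : p ∣ Nat.card G)
    (h2 : q ∣ Nat.card G) (e1 : s G p = a) (e2 : s G q = b) (e3 : s G (p * q) = 0) :
    s G (p ^ 2) = 0 := by
  have a1 := (ZMod.natCast_eq_zero_iff _ _).2 (sq_dvd (G := G) hp 1)
  have a2 := fp hp h1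
  rw [mul_one] at a1
  have := ne1 ho hv hp p
  rw [← sq] at this
  rcases this with e | e | e
  · exact e
  · rw [e] at a1; rw [e1] at a2; exact (no1 hp (by linear_combination a2 - a1)).elim
  by_contra h0
  have n1 : ¬ q ∣ p ^ 2 := fun h =>
    hne ((Nat.prime_dvd_prime_iff_eq hq hp).1 (hq.dvd_of_dvd_pow h)).symm
  have a3 := frobZ (G := G) (p := q)
    ((hq.coprime_iff_not_dvd.2 n1).symm.mul_dvd_of_dvd_of_dvd (s_card h0) h2) (dvd_mul_left q _)
  have z : s G (p ^ 2 * q) = 0 := by_contra fun h =>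
    s_dvd h (Nat.mul_dvd_mul_right (dvd_pow_self p two_ne_zero) q) e3
  rw [sd_mul hq n1, Nat.sum_divisors_prime_pow hp] at a3
  simp only [Finset.sum_range_succ, Finset.range_zero, Finset.sum_empty, pow_zero, pow_one, one_mul,
    s_one, e, e1, e2, e3, z] at a3
  have a4 := fpq hp hq hne h1 h2 (dvd_mul_left q p)
  have a5 := fp hq h2
  rw [e1, e2, e3] at a4
  rw [e2] at a5
  push_cast at a3 a4
  exact no1 hq (by linear_combination a4 + a5 - a3)
end

/-- Let G be a finite group of odd order in which the numbers of elements of each order that occurs (the numbers #{g : o(g) = m}, m ranging over the element orders of G) take exactly three different values. Then the order of G has at most two prime divisors; and if it has exactly two, then every Sylow subgroup of G for a prime dividing its order has prime exponent, G is a Frobenius group, and some Frobenius complement of G has prime order. -/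
theorem result {G : Type*} [Group G] [Finite G] (hodd : Odd (Nat.card G)) (h : (((fun m : ℕ => Nat.card {g : G // orderOf g = m}) '' Set.range (orderOf : G → ℕ))).ncard = 3) :
    (Nat.card G).primeFactors.card ≤ 2 ∧
      ((Nat.card G).primeFactors.card = 2 →
        (∀ (p : ℕ) [Fact p.Prime] (P : Sylow p G), p ∣ Nat.card G → Monoid.exponent ↥(P : Subgroup G) = p) ∧
        ∃ C : Subgroup G, Cfsg.IsFrobeniusComplement C ∧ (Nat.card ↥C).Prime) := by
  obtain ⟨a, b, hv0⟩ := three_vals h
  have ho : ∀ p : ℕ, p.Prime → p ∣ Nat.card G → p ≠ 2 := fun p _ hd e =>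
    (Nat.not_even_iff_odd.2 hodd) (even_iff_two_dvd.2 (e ▸ hd))
  have hv : ∀ m, m ≠ 1 → s G m = 0 ∨ s G m = a ∨ s G m = b := fun m hm => by
    by_cases h0 : s G m = 0
    · exact Or.inl h0
    have := Nat.odd_iff.1 (hodd.of_dvd_nat (s_card h0))
    have := s_ne_one (G := G) (m := m) (by omega)
    have := hv0 m
    tauto
  have hv' : ∀ m, m ≠ 1 → s G m = 0 ∨ s G m = b ∨ s G m = a := fun m hm => by
    have := hv m hm; tauto
  have hab : ∀ p : ℕ, p.Prime → p ∣ Nat.card G → s G p = a ∨ s G p = b := fun p hp hd =>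
    (hv p hp.one_lt.ne').resolve_left (s_pos hp hd)
  have hinj : ∀ p q : ℕ, p.Prime → q.Prime → p ∣ Nat.card G → q ∣ Nat.card G → s G p = s G q →
      p = q := fun p q hp hq h1 h2 e => by_contra fun hne => by
    rcases hab p hp h1 with e1 | e1
    · exact diff ho hv hp hq hne h1 h2 e1 (e.symm.trans e1)
    · exact diff ho hv' hp hq hne h1 h2 e1 (e.symm.trans e1)
  refine ⟨?_, fun h2 => ?_⟩
  · refine (Finset.card_le_card_of_injOn (s G) (t := {a, b}) (fun p hp => ?_) ?_).trans
      Finset.card_le_two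
    · simpa using hab p (Nat.prime_of_mem_primeFactors hp) (Nat.dvd_of_mem_primeFactors hp)
    · intro p hp q hq e
      exact hinj p q (Nat.prime_of_mem_primeFactors hp) (Nat.prime_of_mem_primeFactors hq)
        (Nat.dvd_of_mem_primeFactors hp) (Nat.dvd_of_mem_primeFactors hq) e
  have z : ∀ p q : ℕ, p.Prime → q.Prime → p ≠ q → p ∣ Nat.card G → q ∣ Nat.card G →
      s G (p * q) = 0 ∧ s G (p ^ 2) = 0 := by
    intro p q hp hq hne h1 h2
    have hd := mt (hinj p q hp hq h1 h2) hne
    rcases hab p hp h1 with e1 | e1 <;> rcases hab q hq h2 with e2 | e2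
    · exact absurd (e1.trans e2.symm) hd
    · have a1 := npq ho hv hp hq hne h1 h2 e1 e2
      have a2 := npq ho hv' hq hp hne.symm h2 h1 e2 e1
      rw [mul_comm] at a2
      have a3 : s G (p * q) = 0 := by have := ne1 ho hv hp q; tauto
      exact ⟨a3, sq0 ho hv hp hq hne h1 h2 e1 e2 a3⟩
    · have a1 := npq ho hv' hp hq hne h1 h2 e1 e2
      have a2 := npq ho hv hq hp hne.symm h2 h1 e2 e1
      rw [mul_comm] at a2
      have a3 : s G (p * q) = 0 := by have := ne1 ho hv hp q; tauto
      exact ⟨a3, sq0 ho hv' hp hq hne h1 h2 e1 e2 a3⟩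
    · exact absurd (e1.trans e2.symm) hd
  obtain ⟨p, q, hne, e⟩ := Finset.card_eq_two.1 h2
  have mp : p ∈ (Nat.card G).primeFactors := by rw [e]; simp
  have mq : q ∈ (Nat.card G).primeFactors := by rw [e]; simp
  have hp := Nat.prime_of_mem_primeFactors mp
  have hq := Nat.prime_of_mem_primeFactors mq
  have dp := Nat.dvd_of_mem_primeFactors mp
  have dq := Nat.dvd_of_mem_primeFactors mq
  have hE : Epp G := fun r r' hr hr' hn => by_contra fun h0 =>
    h0 (z r r' hr hr' hn ((dvd_mul_right r r').trans (s_card h0))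
      ((dvd_mul_left r' r).trans (s_card h0))).1
  have hs : ∀ r : ℕ, r.Prime → s G (r ^ 2) = 0 := fun r hr => by_contra fun h0 => by
    have hd := (dvd_pow_self r two_ne_zero).trans (s_card h0)
    by_cases e : r = p
    · exact h0 (z r q hr hq (e ▸ hne) hd dq).2
    · exact h0 (z r p hr hp e hd dp).2
  refine ⟨fun r hr P hd => exp_p hr.out (hs r hr.out) P.isPGroup' (P.ne_bot_of_dvd_card hd), ?_⟩
  haveI := H1.ft_odd hodd
  have hnn := hE.nn hp hq hne dp dq
  by_cases h0 : fittingHall G = ⊥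
  · obtain ⟨r, hr, h3⟩ := H1.CN.three hE.cn hnn h0
    exact absurd h3 (hE.not_three hr (hs r hr))
  obtain ⟨-, E, -, hF, hf, hn⟩ := H1.CN.frob hE.cn hnn h0
  refine ⟨E, hF, ?_⟩
  rcases H1.CN.shape h0 hf hn with hc | ⟨C, Q, -, -, -, -, n, ⟨f⟩⟩
  · obtain ⟨g, hg⟩ := IsCyclic.exists_ofOrder_eq_natCard (α := E)
    rw [← orderOf_coe] at hg
    obtain ⟨r, hr, hd⟩ := Nat.exists_prime_and_dvd (mt card_eq_one.1 hF.1)
    rw [← hg] at hd ⊢
    have := pow_p hr (hs r hr) (Nat.eq_prime_pow_of_unique_prime_dvd (orderOf_pos (g : G)).ne'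
      fun hq hd' => hE.eq hq hr hd' hd (Commute.refl _))
    rwa [Nat.dvd_antisymm (orderOf_dvd_of_pow_eq_one this) hd]
  · have := hodd.of_dvd_nat (card_subgroup_dvd_card Q)
    rw [Nat.card_congr f.toEquiv, Nat.card_eq_fintype_card, QuaternionGroup.card] at this
    exact absurd this (by rw [Nat.not_odd_iff_even]; exact ⟨2 * 2 ^ n, by ring⟩)

end Cfsg.Agent.S4004
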