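import Mathlib
import Cfsg.Statements.S4198
import Cfsg.Agent.H8.AutA

set_option autoImplicit false
open Cfsg

namespace Cfsg.Agent.S4198

def inc : List ℕ → List ℕ
  | [] => [1]
  | a :: l => (a + 1) :: l

def PL : ℕ → Finset (List ℕ)
  | 0 => {[]}
  | n + 1 => (((PL n).image (1 :: ·)) ∪ (PL n).image inc).filter (List.Pairwise (· ≤ ·))

theorem mem_PL (n : ℕ) : ∀ l : List ℕ, l.Pairwise (· ≤ ·) → (∀ a ∈ l, 0 < a) → l.sum = n → l ∈ PL n := by
  induction n with
  | zero =>
    rintro (_ | ⟨a, l⟩) - h e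
    · simp [PL]
    · have := h a (by simp); simp at e; omega
  | succ n ih =>
    rintro (_ | ⟨a, l⟩) s h e
    · simp at e
    refine Finset.mem_filter.2 ⟨Finset.mem_union.2 ?_, s⟩
    rw [List.pairwise_cons] at s
    rw [List.sum_cons] at e
    obtain _ | _ | a := a
    · exact absurd (h 0 (by simp)) (by simp)
    · exact Or.inl (Finset.mem_image.2 ⟨l, ih l s.2 (fun a ha => h a (by simp [ha])) (by omega), rfl⟩)
    · refine Or.inr (Finset.mem_image.2 ⟨(a + 1) :: l, ih _ (List.pairwise_cons.2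
        ⟨fun b hb => by have := s.1 b hb; omega, s.2⟩) (fun b hb => ?_) (by rw [List.sum_cons]; omega), rfl⟩)
      rcases List.mem_cons.1 hb with rfl | hb
      exacts [by omega, h b (by simp [hb])]

theorem card_PL (k : ℕ) : (PL (k + 5)).card ≤ 2 ^ (k + 3) := by
  induction k with
  | zero => decide +kernel
  | succ k ih =>
    refine (Finset.card_filter_le _ _).trans ((Finset.card_union_le _ _).trans ?_)
    have := add_le_add (Finset.card_image_le (s := PL (k + 5)) (f := (1 :: ·)))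
      (Finset.card_image_le (s := PL (k + 5)) (f := inc))
    rw [show k + 1 + 3 = k + 3 + 1 by omega, pow_succ]
    exact this.trans (by omega)

open Equiv Equiv.Perm Subgroup in
theorem lt {α : Type*} [Fintype α] [DecidableEq α] (h5 : 5 ≤ Fintype.card α) :
    Nat.card (ConjClasses (alternatingGroup α)) < Nat.card (ConjClasses (Perm α)) := by
  classical
  choose r hr using ConjClasses.exists_rep (α := alternatingGroup α)
  let b : Multiset ℕ → alternatingGroup α := fun T => Classical.epsilon fun w => w.1.cycleType = T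
  have hb : ∀ u : alternatingGroup α, IsConj (b u.1.cycleType).1 u.1 := fun u =>
    isConj_iff_cycleType_eq.2 (Classical.epsilon_spec (p := fun w : alternatingGroup α =>
      w.1.cycleType = u.1.cycleType) ⟨u, rfl⟩)
  have key : ∀ c : ConjClasses (alternatingGroup α), ∃ σ : Perm α, σ.cycleType ≠ {2} ∧
      ((IsConj (b (r c).1.cycleType) (r c) ∧ σ = r c) ∨ (¬ IsConj (b (r c).1.cycleType) (r c) ∧
        sign σ = -1 ∧ ∃ m T, σ.cycleType = m ::ₘ T ∧ (r c).1.cycleType = (m + 1) ::ₘ T ∧ Even m ∧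
          ∀ a ∈ T, Odd a)) := fun c => by
    have sg := mem_alternatingGroup.1 (r c).2
    rw [sign_of_cycleType] at sg
    by_cases h : IsConj (b (r c).1.cycleType) (r c)
    · exact ⟨r c, fun e => by rw [e] at sg; exact absurd sg (by decide), Or.inl ⟨h, rfl⟩⟩
    obtain ⟨h1, h2, -⟩ := centralizer_le_alternating_iff.1
      (not_not.1 (mt (H8.Sy.isConj_alt (hb (r c)).symm) fun e => h e.symm))
    have le := (r c).1.sum_cycleType_le
    obtain ⟨m, hm⟩ := Multiset.exists_mem_of_ne_zero (s := (r c).1.cycleType) fun e => by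
      rw [e, Multiset.sum_zero] at h2; omega
    obtain ⟨T, e⟩ := Multiset.exists_cons_of_mem hm
    have m2 := two_le_of_mem_cycleType hm
    have om := h1 m hm
    obtain ⟨m, rfl⟩ : ∃ k, m = k + 1 := ⟨m - 1, by omega⟩
    have em : Even m := by simpa [parity_simps] using om
    have t2 : ∀ a ∈ T, 2 ≤ a := fun a ha => two_le_of_mem_cycleType (e ▸ Multiset.mem_cons_of_mem ha)
    rw [e, Multiset.sum_cons] at le h2 sg
    obtain ⟨σ, hσ⟩ := (exists_with_cycleType_iff α (m := m ::ₘ T)).2 ⟨by rw [Multiset.sum_cons]; omega,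
      fun a ha => by
        rcases Multiset.mem_cons.1 ha with rfl | ha
        exacts [by obtain ⟨j, rfl⟩ := em; omega, t2 a ha]⟩
    refine ⟨σ, fun e' => ?_, Or.inr ⟨h, ?_, m, T, hσ, e, em,
      fun a ha => h1 a (e ▸ Multiset.mem_cons_of_mem ha)⟩⟩
    · have := congrArg Multiset.sum (hσ.symm.trans e')
      rw [Multiset.sum_cons, Multiset.sum_singleton] at this
      omega
    · rw [sign_of_cycleType, hσ, Multiset.sum_cons, Multiset.card_cons]
      rw [Multiset.card_cons, show m + 1 + T.sum + (T.card + 1) = m + T.sum + (T.card + 1) + 1 by omega,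
        pow_succ] at sg
      rw [mul_neg_one] at sg
      exact neg_eq_iff_eq_neg.1 sg
  choose σ h2 hσ using key
  have : Nontrivial α := Fintype.one_lt_card_iff_nontrivial.1 (by omega)
  obtain ⟨x, y, xy⟩ := exists_pair_ne α
  have := Fintype.ofFinite (ConjClasses (alternatingGroup α))
  rw [Nat.card_eq_fintype_card, Nat.card_eq_fintype_card]
  refine Fintype.card_lt_of_injective_of_notMem (fun c => ConjClasses.mk (σ c)) (fun c d e => ?_)
    (b := ConjClasses.mk (swap x y)) fun ⟨c, e⟩ => h2 c (by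
      rw [isConj_iff_cycleType_eq.1 (ConjClasses.mk_eq_mk_iff_isConj.1 e), (isSwap_iff_cycleType.1 ⟨x, y, xy, rfl⟩)])
  replace e := ConjClasses.mk_eq_mk_iff_isConj.1 e
  have sg : sign (σ c) = sign (σ d) := isConj_iff_eq.1 ((sign : Perm α →* ℤˣ).map_isConj e)
  rw [isConj_iff_cycleType_eq] at e
  rw [← hr c, ← hr d, ConjClasses.mk_eq_mk_iff_isConj]
  rcases hσ c with ⟨a1, a2⟩ | ⟨a1, a2, m, T, a3, a4, a5, a6⟩ <;>
  rcases hσ d with ⟨b1, b2⟩ | ⟨b1, b2, m', T', b3, b4, b5, b6⟩
  · rw [a2, b2] at e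
    exact a1.symm.trans (e ▸ b1)
  · rw [a2, b2, mem_alternatingGroup.1 (r c).2] at sg; exact absurd sg (by decide)
  · rw [a2, b2, mem_alternatingGroup.1 (r d).2] at sg; exact absurd sg (by decide)
  rw [a3, b3] at e
  obtain rfl : m = m' := (Multiset.mem_cons.1 (e ▸ Multiset.mem_cons_self m T)).resolve_right
    fun h => Nat.not_odd_iff_even.2 a5 (b6 m h)
  rw [Multiset.cons_inj_right] at e
  have e' : (r c).1.cycleType = (r d).1.cycleType := by rw [a4, b4, e]
  have od : ∀ u v : alternatingGroup α, ¬ IsConj u v → ∀ g : Perm α, g * u * g⁻¹ = v → sign g = -1 :=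
    fun u v h g e => (Int.units_eq_one_or _).resolve_left fun s =>
      h (isConj_iff.2 ⟨⟨g, mem_alternatingGroup.2 s⟩, Subtype.ext e⟩)
  obtain ⟨g, hg⟩ := isConj_iff.1 (hb (r c))
  obtain ⟨g', hg'⟩ := isConj_iff.1 (hb (r d))
  refine isConj_iff.2 ⟨⟨g' * g⁻¹, mem_alternatingGroup.2 (by
    rw [map_mul, sign_inv, od _ _ a1 g hg, od _ _ b1 g' hg']; rfl)⟩, Subtype.ext ?_⟩
  change g' * g⁻¹ * r c * (g' * g⁻¹)⁻¹ = r d
  rw [← hg', ← e']
  conv_lhs => rw [← hg]
  group

theorem result (n : ℕ) (hn : 5 ≤ n) : Nat.card (ConjClasses (alternatingGroup (Fin n))) < Nat.card (ConjClasses (Equiv.Perm (Fin n))) ∧ Nat.card (ConjClasses (Equiv.Perm (Fin n))) ≤ 2 ^ (n - 2) := by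
  refine ⟨lt (by simpa using hn), ?_⟩
  obtain ⟨k, rfl⟩ : ∃ k, n = k + 5 := ⟨n - 5, by omega⟩
  refine le_trans ?_ (card_PL k)
  choose r hr using ConjClasses.exists_rep (α := Equiv.Perm (Fin (k + 5)))
  rw [← Nat.card_eq_finsetCard]
  refine Nat.card_le_card_of_injective (fun c => (⟨(r c).partition.parts.sort (· ≤ ·), mem_PL _ _
    (Multiset.pairwise_sort _ _) (fun a ha => (r c).partition.parts_pos ((Multiset.mem_sort _).1 ha))
    (by rw [← Multiset.sum_coe, Multiset.sort_eq, Nat.Partition.parts_sum, Fintype.card_fin])⟩ : PL (k + 5)))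
    fun c d e => ?_
  have := congrArg (fun l : PL (k + 5) => (l.1 : Multiset ℕ)) e
  simp only [Multiset.sort_eq] at this
  rw [← hr c, ← hr d, ConjClasses.mk_eq_mk_iff_isConj, Equiv.Perm.partition_eq_of_isConj]
  exact Nat.Partition.ext this

end Cfsg.Agent.S4198
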