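import Cfsg.Statements.S4203
import Cfsg.Agent.H1.SylNum
import Cfsg.Agent.H17.Central

set_option autoImplicit false
open Cfsg

namespace Cfsg.Agent.S4203

universe u

open Subgroup in
theorem aux (n : ℕ) : ∀ (G : Type u) [Group G] [Finite G], Nat.card G = n →
    (∀ M : Subgroup G, IsCoatom M → ∃ p : ℕ, p.Prime ∧ (M.index = p ∨ M.index = p ^ 2)) →
    Group.IsSolvable G := by
  induction n using Nat.strong_induction_on with
  | _ n ih =>
  intro G _ _ hn h
  rcases subsingleton_or_nontrivial G with hG | hG
  · infer_instance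
  obtain ⟨N, _, hN0, -, hmin⟩ := H1.exists_minimal_normal_le (⊤ : Subgroup G) top_ne_bot
  have hN1 := (N.one_lt_card_iff_ne_bot).2 hN0
  have hQ : Group.IsSolvable (G ⧸ N) := by
    refine ih _ ?_ (G ⧸ N) rfl fun M hM => ?_
    · rw [← hn, card_eq_card_quotient_mul_card_subgroup N]
      have : 0 < Nat.card (G ⧸ N) := Nat.card_pos
      nlinarith
    · rw [← index_comap_of_surjective _ (QuotientGroup.mk'_surjective N)]
      exact h _ (isCoatom_comap_of_surjective (QuotientGroup.mk'_surjective N) hM)
  suffices hs : Group.IsSolvable N from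
    solvable_of_ker_le_range N.subtype (QuotientGroup.mk' N) (by simp)
  have hne : (Nat.card N).primeFactors.Nonempty := Nat.nonempty_primeFactors.2 hN1
  obtain ⟨p, hpm, hmax⟩ := (Nat.card N).primeFactors.exists_max_image id hne
  have hp := Nat.prime_of_mem_primeFactors hpm
  have hpd := Nat.dvd_of_mem_primeFactors hpm
  have hle : ∀ q, q.Prime → q ∣ Nat.card N → q ≤ p := fun q hq hd =>
    hmax q (Nat.mem_primeFactors.2 ⟨hq, hd, Nat.card_pos.ne'⟩)
  have : Fact p.Prime := ⟨hp⟩
  obtain ⟨P, hP⟩ := H1.exists_sylowOf p N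
  by_cases hT : normalizer (P : Set G) = ⊤
  · have : P.Normal := normalizer_eq_top_iff.1 hT
    rcases hmin P this hP.1 with h0 | h0
    · exfalso
      have h1 := hP.2.2
      rw [h0, relIndex_bot_left] at h1
      exact h1 p hp rfl hpd
    · have h1 := H1.IsPiHallOf.isPGroup hP
      rw [h0] at h1
      have := h1.isNilpotent
      infer_instance
  obtain ⟨M, hM, hPM⟩ := (eq_top_or_exists_le_coatom _).resolve_left hT
  have hsup : M ⊔ N = ⊤ := by
    have := H1.sylowOf_frattini_sup hP (le_top : N ≤ ⊤) (by rw [normalizer_eq_top])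
    rw [eq_top_iff, ← this]
    exact sup_le le_sup_right (inf_le_right.trans (hPM.trans le_sup_left))
  have h1 : M.index = M.relIndex N := by rw [H1.index_eq_index_sup_mul M N, hsup]; simp
  have h2 := H1.relIndex_normalizer_modEq_one hP
  have h3 := H1.relIndex_normalizer_modEq_one (H1.IsPiHallOf.of_le hP (le_inf hP.1 (le_normalizer.trans hPM))
    (inf_le_left : N ⊓ M ≤ N))
  rw [H1.relIndex_eq_mul (B := M) (inf_le_left.trans hPM), ← h1] at h2
  have h4 : M.index ≡ 1 [MOD p] := by
    have := (Nat.ModEq.mul_left M.index h3).symm.trans h2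
    rwa [mul_one] at this
  obtain ⟨q, hq, h5⟩ := h M hM
  have hqd : q ∣ Nat.card N := by
    refine Dvd.dvd.trans ?_ (relIndex_dvd_card M N)
    rw [← h1]
    rcases h5 with h5 | h5 <;> rw [h5]
    exact dvd_pow_self q two_ne_zero
  have hqp := hle q hq hqd
  have hq2 := hq.two_le
  have hp3 : p = 3 := by
    rcases h5 with h5 | h5 <;> rw [h5] at h4
    · have := Nat.le_of_dvd (by omega) ((Nat.modEq_iff_dvd' (by omega)).1 h4.symm)
      omega
    · have h6 := (Nat.modEq_iff_dvd' (Nat.one_le_pow _ _ hq.pos)).1 h4.symm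
      rw [show q ^ 2 - 1 = (q + 1) * (q - 1) by rw [← Nat.sq_sub_sq, one_pow]] at h6
      rcases (Nat.Prime.dvd_mul hp).1 h6 with h7 | h7
      · rcases hqp.eq_or_lt with rfl | hlt
        · exact absurd ((Nat.dvd_add_right dvd_rfl).1 h7) hq.not_dvd_one
        · have h8 : p = q + 1 := le_antisymm (Nat.le_of_dvd (by omega) h7) hlt
          rcases hq.eq_two_or_odd' with rfl | ho
          · exact h8
          · have := hp.eq_two_or_odd'.resolve_left (by omega)
            rw [h8] at this
            exact absurd ho.add_one (Nat.not_even_iff_odd.2 this)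
      · have := Nat.le_of_dvd (by omega) h7
        omega
  refine H17.isSolvable_of_two_primes Nat.prime_two Nat.prime_three fun r hr hd => ?_
  have := hle r hr hd
  have := hr.two_le
  omega

/-- A finite group in which every maximal subgroup has index a prime or the square of a prime is solvable. -/
theorem result {G : Type*} [Group G] [Finite G] (h : ∀ M : Subgroup G, IsCoatom M → ∃ p : ℕ, p.Prime ∧ (M.index = p ∨ M.index = p ^ 2)) : Group.IsSolvable G := by
  exact aux _ G rfl h

end Cfsg.Agent.S4203
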