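import Cfsg.Statements.S4204
import Cfsg.Agent.H1.Prim

set_option autoImplicit false
open Cfsg

namespace Cfsg.Agent.S4204

theorem comm_le_iff {G : Type*} [Group G] {A B T : Subgroup G} [T.Normal] :
    ⁅A, B⁆ ≤ T ↔ A ≤ (Subgroup.centralizer
      ((B.map (QuotientGroup.mk' T) : Subgroup _) : Set (G ⧸ T))).comap (QuotientGroup.mk' T) := by
  rw [← H1.map_mk'_eq_bot_iff, Subgroup.map_commutator,
    Subgroup.commutator_eq_bot_iff_le_centralizer, Subgroup.map_le_iff_le_comap]

/-- The lower central series of `H` shifted by one, starting from `⊤`. -/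
def ser {G : Type*} [Group G] (H : Subgroup G) : ℕ → Subgroup G
  | 0 => ⊤
  | n + 1 => H.lowerCentralSeries n

instance ser_normal {G : Type*} [Group G] (H : Subgroup G) [H.Normal] (n : ℕ) :
    (ser H n).Normal := by
  rcases n with _ | n
  · exact Subgroup.normal_top
  · change (H.lowerCentralSeries n).Normal
    induction n with
    | zero => assumption
    | succ n ih => rw [Subgroup.lowerCentralSeries_succ]; infer_instance

theorem ser_comm {G : Type*} [Group G] (H : Subgroup G) [H.Normal] (n : ℕ) :
    ⁅ser H n, H⁆ ≤ ser H (n + 1) := by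
  rcases n with _ | n
  · exact Subgroup.commutator_le_right _ _
  · exact le_rfl

/-- If `H` and `K` are normal subgroups of a finite group with `H` nilpotent of class at most `c` and `K` nilpotent of class at most `d` (the terms with index `c`, respectively `d`, of their lower central series are trivial, indices starting at `0`), then `HK` is nilpotent of class at most `c + d`. -/
theorem result {G : Type*} [Group G] [Finite G] (H K : Subgroup G) [H.Normal] [K.Normal] (c d : ℕ) (hH : H.lowerCentralSeries c = ⊥) (hK : K.lowerCentralSeries d = ⊥) : (H ⊔ K).lowerCentralSeries (c + d) = ⊥ := by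
  have key : ∀ n, (H ⊔ K).lowerCentralSeries n ≤
      ⨆ (i : ℕ) (j : ℕ) (_ : i + j = n + 1), ser H i ⊓ ser K j := by
    intro n
    have hle : ∀ n i j, i + j = n + 1 → ser H i ⊓ ser K j ≤
        ⨆ (i : ℕ) (j : ℕ) (_ : i + j = n + 1), ser H i ⊓ ser K j := fun n i j h =>
      le_iSup_of_le i (le_iSup_of_le j (le_iSup_of_le h le_rfl))
    induction n with
    | zero =>
      exact sup_le (le_trans (le_inf le_rfl le_top) (hle 0 1 0 rfl))
        (le_trans (le_inf le_top le_rfl) (hle 0 0 1 rfl))
    | succ n ih =>
      have : (⨆ (i : ℕ) (j : ℕ) (_ : i + j = n + 1 + 1), ser H i ⊓ ser K j).Normal :=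
        inferInstance
      rw [Subgroup.lowerCentralSeries_succ]
      refine (Subgroup.commutator_mono ih le_rfl).trans (comm_le_iff.2 ?_)
      refine iSup_le fun i => iSup_le fun j => iSup_le fun h => comm_le_iff.1 ?_
      rw [Subgroup.commutator_comm]
      refine comm_le_iff.2 (sup_le (comm_le_iff.1 ?_) (comm_le_iff.1 ?_))
      · rw [Subgroup.commutator_comm]
        refine le_trans (le_inf ?_ ?_) (hle _ (i + 1) j (by omega))
        · exact (Subgroup.commutator_mono inf_le_left le_rfl).trans (ser_comm H i)
        · exact (Subgroup.commutator_le_left _ _).trans inf_le_right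
      · rw [Subgroup.commutator_comm]
        refine le_trans (le_inf ?_ ?_) (hle _ i (j + 1) (by omega))
        · exact (Subgroup.commutator_le_left _ _).trans inf_le_left
        · exact (Subgroup.commutator_mono inf_le_right le_rfl).trans (ser_comm K j)
  refine eq_bot_iff.2 ((key _).trans (iSup_le fun i => iSup_le fun j => iSup_le fun h => ?_))
  by_cases hi : c + 1 ≤ i
  · obtain ⟨i, rfl⟩ : ∃ k, i = k + 1 := ⟨i - 1, by omega⟩
    exact inf_le_left.trans ((H.lowerCentralSeries_antitone (by omega : c ≤ i)).trans hH.le)
  · obtain ⟨j, rfl⟩ : ∃ k, j = k + 1 := ⟨j - 1, by omega⟩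
    exact inf_le_right.trans ((K.lowerCentralSeries_antitone (by omega : d ≤ j)).trans hK.le)

end Cfsg.Agent.S4204
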