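import Cfsg.Statements.S4205
import Cfsg.Agent.H1.Prim

set_option autoImplicit false
open Cfsg

namespace Cfsg.Agent.S4205

/-- In a finite group whose upper central series reaches the whole group at step `c` (nilpotent of class at most `c`), starting from any subgroup and taking normalizers `c` times reaches the whole group. -/
theorem result {G : Type*} [Group G] [Finite G] (c : ℕ) (hG : Subgroup.upperCentralSeries G c = ⊤) (H : Subgroup G) : (fun K : Subgroup G => Subgroup.normalizer (K : Set G))^[c] H = ⊤ := by
  suffices ∀ n, Subgroup.upperCentralSeries G n ≤
      (fun K : Subgroup G => Subgroup.normalizer (K : Set G))^[n] H from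
    eq_top_iff.2 (hG ▸ this c)
  intro n
  induction n with
  | zero => simp
  | succ n ih =>
    rw [Function.iterate_succ_apply', Subgroup.le_normalizer_iff_commutator_le_right]
    refine le_trans (Subgroup.commutator_le.2 fun x hx y _ => ?_) ih
    exact (Subgroup.mem_upperCentralSeries_succ_iff.1 hx) y

end Cfsg.Agent.S4205
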