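import Cfsg.Statements.S4207
import Cfsg.Agent.H1.AutP

set_option autoImplicit false
open Cfsg

namespace Cfsg.Agent.S4207

/-- Let `P` be a group of order `p^n` whose Frattini subgroup has index `p^r`. Then any group of automorphisms of `P` each of which induces the identity on the Frattini quotient has order dividing `p^(r(n-r))`; in particular it is a `p`-group. -/
theorem result {P : Type*} [Group P] [Finite P] {p n r : ℕ} [Fact p.Prime] (hP : Nat.card P = p ^ n) (hr : (frattini P).index = p ^ r) (A : Subgroup (MulAut P)) (hA : ∀ α ∈ A, ∀ x : P, α x * x⁻¹ ∈ frattini P) : Nat.card A ∣ p ^ (r * (n - r)) := by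
  have h1 := H1.card_aut_frattini_dvd (IsPGroup.of_card hP) hr A hA
  have h2 := (frattini P).card_mul_index
  rw [hr, hP] at h2
  have hp := (Fact.out : p.Prime)
  have h3 : r ≤ n := (Nat.pow_dvd_pow_iff_le_right hp.one_lt).1 (Dvd.intro_left _ h2)
  have h4 : Nat.card (frattini P) = p ^ (n - r) := by
    apply Nat.eq_of_mul_eq_mul_right (pow_pos hp.pos r)
    rw [h2, ← pow_add, Nat.sub_add_cancel h3]
  rwa [h4, ← pow_mul, mul_comm] at h1

end Cfsg.Agent.S4207
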