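import Cfsg.Statements.S4216
import Cfsg.Agent.H3.Reduce
import Cfsg.Agent.H12.Alperin
import Cfsg.Agent.H6.Inv

set_option autoImplicit false
open Cfsg

namespace Cfsg.Agent.S4216

/-- Grün's first Theorem: if `P` is a Sylow `p`-subgroup of the finite group `G`, then `P ∩ G'` is the subgroup generated by `P ∩ N_G(P)'` together with the subgroups `P ∩ z P' z⁻¹` for all `z ∈ G`, where `'` denotes the derived subgroup and `N_G(P)` the normalizer of `P`. -/
theorem result {G : Type*} [Group G] [Finite G] {p : ℕ} [Fact p.Prime] (P : Sylow p G) : (P : Subgroup G) ⊓ commutator G = ((P : Subgroup G) ⊓ ⁅Subgroup.normalizer ((P : Subgroup G) : Set G), Subgroup.normalizer ((P : Subgroup G) : Set G)⁆) ⊔ ⨆ z : G, (P : Subgroup G) ⊓ (⁅(P : Subgroup G), (P : Subgroup G)⁆).map (MulAut.conj z).toMonoidHom := by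
  open Subgroup H3 H12 in
  refine le_antisymm ?_ (sup_le (inf_le_inf_left _ (commutator_mono le_top le_top))
    (iSup_le fun z => inf_le_inf_left _ ?_))
  swap
  · rw [map_commutator]; exact commutator_mono le_top le_top
  set R := ((P : Subgroup G) ⊓ ⁅normalizer ((P : Subgroup G) : Set G),
    normalizer ((P : Subgroup G) : Set G)⁆) ⊔ ⨆ z : G, (P : Subgroup G) ⊓
    (⁅(P : Subgroup G), (P : Subgroup G)⁆).map (MulAut.conj z).toMonoidHom with hR
  refine (sylIn_top P).inf_commutator_le' (alperin_ind_extremal (sylIn_top P)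
    (fusPredC_mod R P).toFusPred fun U hU hext IH g _ hg a ha => ?_)
  rcases hU.eq_or_lt with rfl | hlt
  · exact mem_sup_left ⟨Subgroup.mul_mem _ (Subgroup.inv_mem _ ha) (conj_mem_of_mem_normalizer hg ha),
      inv_mul_conj_mem_commutator (le_normalizer ha) hg⟩
  set K := closure {x : G | x ∈ normalizer (U : Set G) ∧ ∃ k, x ^ p ^ k = 1} with hK
  have hKN : K ≤ normalizer (U : Set G) := (closure_le _).mpr fun x hx => hx.1
  have hgood : ∀ x ∈ K, ∀ a ∈ U, a⁻¹ * (x * a * x⁻¹) ∈ R := by
    intro x hx
    induction hx using closure_induction with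
    | mem x hx =>
      intro a ha
      obtain ⟨hx, k, hk⟩ := hx
      obtain ⟨z, hz⟩ := exists_conj_le_sylow P (H12.isPGroup_sup (H6.isPGroup_zpowers hk)
        (P.2.to_le hU) (by rwa [zpowers_le]))
      refine mem_sup_right (mem_iSup_of_mem z ⟨hU (mul_mem (inv_mem ha)
        (conj_mem_of_mem_normalizer hx ha)), ?_⟩)
      have h1 := inv_mul_conj_mem_commutator (hz a (mem_sup_right ha))
        (hz x (mem_sup_left (mem_zpowers x)))
      refine mem_map_conj.mpr ?_
      convert h1 using 1
      group
    | one => intro a _; simp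
    | mul x y hx hy ihx ihy =>
      intro a ha
      have := mul_mem (ihy a ha) (ihx _ (conj_mem_of_mem_normalizer (hKN hy) ha))
      convert this using 1
      group
    | inv x hx ihx =>
      intro a ha
      have := inv_mem (ihx _ (conj_mem_of_mem_normalizer' (hKN hx) ha))
      convert this using 1
      group
  have hNK : normalizer (U : Set G) ≤ normalizer (K : Set G) := by
    intro n hn
    refine mem_normalizer_of_conj_mem fun x hx => ?_
    induction hx using closure_induction with
    | mem x hx =>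
      obtain ⟨hx, k, hk⟩ := hx
      exact subset_closure ⟨mul_mem (mul_mem hn hx) (inv_mem hn), k, by rw [conj_pow, hk]; simp⟩
    | one => simp
    | mul x y _ _ ihx ihy => simpa [mul_assoc] using mul_mem ihx ihy
    | inv x _ ihx => simpa [mul_assoc] using inv_mem ihx
  rw [top_inf_eq] at hext
  have hTK : (P : Subgroup G) ⊓ normalizer (U : Set G) ≤ K := fun x hx =>
    subset_closure ⟨hx.2, H6.IsPGroup_pow_eq_one P.2 hx.1⟩
  have hT := hext.of_le hTK hKN
  obtain ⟨k, hk, n, hn, rfl⟩ := exists_mul_normalizer_of_sylowIn hNK hT.le hT.pgrp hT.not_dvd hg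
  have hlt' := lt_inf_normalizer_of_isPGroup P.2 hlt
  have h1 := IH _ inf_le_left (card_lt_of_lt hlt') n (mem_top n)
    (by rw [map_conj_eq_iff.mpr hn]; exact inf_le_left) a (hlt'.le ha)
  have hnU : n ∈ normalizer (U : Set G) := by simpa using mul_mem (inv_mem (hKN hk)) hg
  have := mul_mem h1 (hgood k hk _ (conj_mem_of_mem_normalizer hnU ha))
  convert this using 1
  group

end Cfsg.Agent.S4216
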