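import Cfsg.Statements.S4221
import Cfsg.Agent.H25.Hall5

set_option autoImplicit false
open Cfsg

namespace Cfsg.Agent.S4221

open MulAction H25

/-- Let `G` be a `4`-fold transitive permutation group on a finite set of `n` points in which the pointwise stabilizer of some four distinct points has odd order. Then `n = 4` or `n = 5` with `G` the full symmetric group, or `n = 6` or `n = 7` with `G` the alternating group, or `n = 11` and `G` has order `7920`. -/
theorem result {α : Type*} [Fintype α] [DecidableEq α] (G : Subgroup (Equiv.Perm α)) (hG : MulAction.IsMultiplyPretransitive G α 4) (x : Fin 4 ↪ α) (hodd : Odd (Nat.card (MulAction.stabilizer G x))) : ((Fintype.card α = 4 ∨ Fintype.card α = 5) ∧ G = ⊤) ∨ ((Fintype.card α = 6 ∨ Fintype.card α = 7) ∧ G = alternatingGroup α) ∨ (Fintype.card α = 11 ∧ Nat.card G = 7920) := by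
  have h1 := hall4_card hG (odd4_of_stab hG x hodd)
  obtain ⟨h, hh⟩ := hodd
  have h2 := (card_of_multi hG x).trans (congrArg (_ * ·) hh)
  have h3 := G.card_mul_index
  have h4 : 4 ≤ Fintype.card α := by simpa using Fintype.card_le_of_embedding x
  have h4' : 4 ≤ Nat.card α := by rwa [Nat.card_eq_fintype_card]
  have : IsMultiplyPretransitive G α 2 := isMultiplyPretransitive_of_le (n := 4) (by omega) h4'
  have hp : IsPreprimitive G α := isPreprimitive_of_is_two_pretransitive this
  rw [Nat.card_perm, h2] at h3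
  have hn := Nat.card_eq_fintype_card (α := α)
  rw [hn] at h1 h3
  have : Fintype.card α = 4 ∨ Fintype.card α = 5 ∨ Fintype.card α = 6 ∨ Fintype.card α = 7 ∨
    Fintype.card α = 11 := by omega
  rcases this with e | e | e | e | e <;> rw [e] at h2 h3 <;>
    simp only [Nat.descFactorial, Nat.factorial] at h2 h3 <;> norm_num at h2 h3
  · exact Or.inl ⟨Or.inl e, Subgroup.index_eq_one.1 (Nat.eq_one_of_mul_eq_one_left
      (m := 2 * h + 1) (by nlinarith))⟩
  · exact Or.inl ⟨Or.inr e, Subgroup.index_eq_one.1 (Nat.eq_one_of_mul_eq_one_left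
      (m := 2 * h + 1) (by nlinarith))⟩
  · refine Or.inr (Or.inl ⟨Or.inl e, Equiv.Perm.eq_alternatingGroup_of_index_eq_two ?_⟩)
    have h5 : (2 * h + 1) * G.index = 2 := by nlinarith
    have : h = 0 := by
      by_contra h0
      rcases Nat.eq_zero_or_pos G.index with h | h <;> nlinarith [Nat.pos_of_ne_zero h0]
    subst this; omega
  · refine Or.inr (Or.inl ⟨Or.inr e, Equiv.Perm.eq_alternatingGroup_of_index_eq_two ?_⟩)
    have h5 : (2 * h + 1) * G.index = 6 := by nlinarith
    have h6 := card_ne_840 (G := G) (hn.trans e)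
    have : 2 * h + 1 ≤ 6 := Nat.le_of_dvd (by norm_num) ⟨_, h5.symm⟩
    have : h ≤ 2 := by omega
    interval_cases h <;> omega
  · refine Or.inr (Or.inr ⟨e, ?_⟩)
    have h5 : (2 * h + 1) * G.index = 5040 := by nlinarith
    have hA : ¬ alternatingGroup α ≤ G := fun hA => by
      have : Nontrivial α := Fintype.one_lt_card_iff_nontrivial.1 (by omega)
      have := Nat.le_of_dvd two_pos ((Subgroup.index_dvd_of_le hA).trans
        alternatingGroup.index_eq_two.dvd)
      have h16 : 2 ^ 4 ∣ G.index := (Nat.Coprime.pow_left 4 (Nat.coprime_two_left.2 ⟨h, rfl⟩)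
        ).dvd_of_dvd_mul_left (h5 ▸ by norm_num)
      have := Nat.le_of_dvd (Nat.pos_of_ne_zero Subgroup.index_ne_zero_of_finite) h16
      omega
    have k : ∀ p : ℕ, p.Prime → p ≤ 8 → p ∣ G.index := fun p hp' h8 => by
      by_contra hc
      exact hA (alt_le_of_not_dvd_index G hp hp' (by omega) (by omega) hc)
    obtain ⟨a, ha⟩ : 2 ^ 4 * (3 * (5 * 7)) ∣ G.index :=
      Nat.Coprime.mul_dvd_of_dvd_of_dvd (by norm_num) ((Nat.Coprime.pow_left 4
        (Nat.coprime_two_left.2 ⟨h, rfl⟩)).dvd_of_dvd_mul_left (h5 ▸ by norm_num))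
        (Nat.Coprime.mul_dvd_of_dvd_of_dvd (by norm_num) (k 3 (by norm_num) (by norm_num))
          (Nat.Coprime.mul_dvd_of_dvd_of_dvd (by norm_num) (k 5 (by norm_num) (by norm_num))
            (k 7 (by norm_num) (by norm_num))))
    have h6 : (2 * h + 1) * a = 3 := by rw [ha] at h5; nlinarith
    have : 2 * h + 1 ≤ 3 := Nat.le_of_dvd (by norm_num) ⟨_, h6.symm⟩
    have : Fact (Nat.Prime 11) := ⟨by norm_num⟩
    obtain ⟨P⟩ : Nonempty (Sylow 11 G) := inferInstance
    obtain ⟨d, n, hd, hn', -, h7⟩ := sylow_count_prime_degree (hn.trans e) P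
    have := Nat.le_of_dvd (by norm_num) hd
    unfold Nat.ModEq at hn'
    have : h ≠ 1 := by rintro rfl; interval_cases d <;> omega
    omega

end Cfsg.Agent.S4221
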