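import Cfsg.Statements.S4222
import Cfsg.Agent.H1.Prim

set_option autoImplicit false
open Cfsg

namespace Cfsg.Agent.S4222

/-- If a normal subgroup `N` of a finite group is complete (its centre is trivial and every automorphism of `N` is inner), then the group is the internal direct product of `N` and the centralizer of `N`: the centralizer is a complement to `N`. -/
theorem result {T : Type*} [Group T] [Finite T] (N : Subgroup T) [N.Normal] (hz : Subgroup.center ↥N = ⊥) (ha : Function.Surjective (MulAut.conj : ↥N →* MulAut ↥N)) : (Subgroup.centralizer (N : Set T)).IsComplement' N := by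
  refine H1.isComplement'_of_inf_sup (eq_bot_iff.2 fun x hx => ?_) (eq_top_iff.2 fun g _ => ?_)
  · have : (⟨x, hx.2⟩ : N) ∈ Subgroup.center N :=
      Subgroup.mem_center_iff.2 fun y => Subtype.ext (hx.1 y y.2)
    rw [hz, Subgroup.mem_bot, Subtype.ext_iff] at this
    exact this
  · obtain ⟨n, hn⟩ := ha (MulAut.conjNormal g)
    rw [← inv_mul_cancel_right g n]
    refine Subgroup.mul_mem_sup (fun y hy => ?_) n.2
    have := congrArg Subtype.val (MulEquiv.congr_fun hn ((MulAut.conj n⁻¹) ⟨y, hy⟩))
    simp only [MulAut.conj_apply, MulAut.conjNormal_apply, Subgroup.coe_mul, Subgroup.coe_inv,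
      inv_inv] at this
    calc y * (g * (n : T)⁻¹) = n * ((n : T)⁻¹ * y * n) * (n : T)⁻¹ * (g * (n : T)⁻¹) := by group
      _ = _ := by rw [this]; group

end Cfsg.Agent.S4222
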