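import Cfsg.Statements.S4223
open Subgroup

set_option autoImplicit false
open Cfsg

namespace Cfsg.Agent.S4223

universe u v

theorem idem {M : Type*} [Monoid M] [Finite M] (x : M) :
    ∃ n : ℕ, 0 < n ∧ x ^ n * x ^ n = x ^ n := by
  obtain ⟨a, b, hab, e⟩ : ∃ a b : ℕ, a < b ∧ x ^ a = x ^ b := by
    obtain ⟨a, b, n, e⟩ := Finite.exists_ne_map_eq_of_infinite fun n : ℕ => x ^ n
    rcases lt_or_gt_of_ne n with h | h
    exacts [⟨a, b, h, e⟩, ⟨b, a, h, e.symm⟩]
  obtain ⟨d, rfl⟩ := Nat.exists_eq_add_of_lt hab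
  have k : ∀ t, x ^ (a + (d + 1) * t) = x ^ a := fun t => by
    induction t with
    | zero => simp
    | succ t ih => rw [mul_add, ← add_assoc, pow_add, ih, ← pow_add, mul_one, ← add_assoc, ← e]
  refine ⟨(d + 1) * (a + 1), by positivity, ?_⟩
  obtain ⟨c, hc⟩ : ∃ c, (d + 1) * (a + 1) = c + a := ⟨d * (a + 1) + 1, by ring⟩
  rw [← pow_add]
  nth_rewrite 1 [hc]
  rw [add_assoc, pow_add, k, ← pow_add, hc]

theorem fit {A : Type*} [Group A] [Finite A]
    (hA : ∀ H K : Subgroup A, H.Normal → K.Normal → H ⊓ K = ⊥ → H ⊔ K = ⊤ → H = ⊥ ∨ K = ⊥)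
    (φ : A →* A) (hφ : ∀ x a, φ (x * a * x⁻¹) = x * φ a * x⁻¹) :
    Function.Injective φ ∨ ∀ a, φ a = a → a = 1 := by
  have : Finite (Monoid.End A) := Finite.of_injective _ (DFunLike.coe_injective (F := A →* A))
  obtain ⟨n, hn, e⟩ := idem (M := Monoid.End A) φ
  set ψ : A →* A := (show Monoid.End A from φ) ^ n with hψ
  have e' : ∀ a, ψ (ψ a) = ψ a := fun a => DFunLike.congr_fun e a
  have c : ∀ a, ψ a = φ^[n] a := fun a => congrFun (Monoid.End.coe_pow A φ n) a
  have nm : ∀ x a, ψ (x * a * x⁻¹) = x * ψ a * x⁻¹ := fun x a => by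
    rw [c, c]
    clear c e' hψ e hn
    induction n with
    | zero => rfl
    | succ n ih => rw [Function.iterate_succ_apply', Function.iterate_succ_apply', ih, hφ]
  rcases hA ψ.ker ψ.range inferInstance ⟨by rintro _ ⟨a, rfl⟩ x; exact ⟨_, nm x a⟩⟩
    (eq_bot_iff.2 (by rintro _ ⟨h, a, rfl⟩; exact (e' a).symm.trans h))
    (eq_top_iff.2 fun a _ => by
      rw [← inv_mul_cancel_right a (ψ a)]
      exact mul_mem (mem_sup_left (by simp [MonoidHom.mem_ker, e'])) (mem_sup_right ⟨a, rfl⟩))
    with h | h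
  · obtain ⟨n, rfl⟩ := Nat.exists_eq_succ_of_ne_zero hn.ne'
    refine Or.inl fun a b hab => (MonoidHom.ker_eq_bot_iff ψ).1 h ?_
    rw [c, c, Function.iterate_succ_apply, Function.iterate_succ_apply, hab]
  · refine Or.inr fun a ha => ?_
    have : ψ a ∈ ψ.range := ⟨a, rfl⟩
    rwa [h, mem_bot, c, Function.iterate_fixed ha] at this

theorem key {A : Type*} [Group A] [Finite A] [Nontrivial A]
    (hA : ∀ H K : Subgroup A, H.Normal → K.Normal → H ⊓ K = ⊥ → H ⊔ K = ⊤ → H = ⊥ ∨ K = ⊥)
    {ι : Type*} [Fintype ι] [DecidableEq ι] {B : ι → Type*} [∀ j, Group (B j)]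
    (u : A →* ∀ j, B j) (v : (∀ j, B j) →* A) (h : ∀ a, v (u a) = a) :
    ∃ j, Function.Injective fun a => v (Pi.mulSingle j (u a j)) := by
  let r : Finset ι → (∀ j, B j) →* ∀ j, B j := fun s => MonoidHom.mk'
    (fun b j => if j ∈ s then b j else 1) fun b c => by ext j; by_cases j ∈ s <;> simp [*]
  let f : Finset ι → A →* A := fun s => v.comp ((r s).comp u)
  have nm : ∀ s x a, f s (x * a * x⁻¹) = x * f s a * x⁻¹ := fun s x a => by
    have : r s (u (x * a * x⁻¹)) = u x * r s (u a) * (u x)⁻¹ := by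
      ext j; by_cases j ∈ s <;> simp [r, *]
    change v (r s (u _)) = x * v (r s (u a)) * x⁻¹
    rw [this, map_mul, map_mul, map_inv, h]
  have main : ∀ s, Function.Injective (f s) → ∃ j, Function.Injective (f {j}) := fun s => by
    induction s using Finset.induction_on with
    | empty =>
      intro hs
      obtain ⟨a, ha⟩ := exists_ne (1 : A)
      refine absurd (hs ?_) ha
      have : r ∅ (u a) = 1 := by ext j; simp [r]
      simp [f, this]
    | insert j t hj ih =>
      intro hs
      have e : ∀ a, f (insert j t) a = f {j} a * f t a := fun a => by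
        have : r (insert j t) (u a) = r {j} (u a) * r t (u a) := by
          ext i; by_cases i = j <;> by_cases i ∈ t <;> simp_all [r]
        simp only [f, MonoidHom.comp_apply, this, map_mul]
      let g := MulEquiv.ofBijective _ (Finite.injective_iff_bijective.1 hs)
      have hg : ∀ a, g.symm (f (insert j t) a) = a := g.symm_apply_apply
      rcases fit hA (g.symm.toMonoidHom.comp (f {j})) (fun x a => g.injective (by
        have : ∀ a, g a = f (insert j t) a := fun _ => rfl
        simp only [MonoidHom.comp_apply, MulEquiv.coe_toMonoidHom, MulEquiv.apply_symm_apply]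
        rw [this, nm, nm, ← this, g.apply_symm_apply])) with h | h
      · exact ⟨j, Function.Injective.of_comp (f := g.symm) h⟩
      · refine ih ((injective_iff_map_eq_one _).2 fun a ha => h a ?_)
        have := hg a
        rwa [e, ha, mul_one] at this
  obtain ⟨j, hj⟩ := main Finset.univ fun a b e => by
    have : ∀ a, r Finset.univ (u a) = u a := fun a => by ext j; simp [r]
    simpa [f, this, h] using e
  refine ⟨j, ?_⟩
  convert hj using 2 with a
  simp only [f, MonoidHom.comp_apply]
  congr 1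
  ext i; by_cases e : i = j
  · subst e; simp [r]
  · simp [r, e]

theorem main (m : ℕ) : ∀ {n : ℕ} {A : Fin m → Type u} {B : Fin n → Type v} [∀ i, Group (A i)] [∀ j, Group (B j)] [∀ i, Finite (A i)] [∀ j, Finite (B j)] (_ : ∀ i, Nontrivial (A i) ∧ ∀ H K : Subgroup (A i), H.Normal → K.Normal → H ⊓ K = ⊥ → H ⊔ K = ⊤ → H = ⊥ ∨ K = ⊥) (_ : ∀ j, Nontrivial (B j) ∧ ∀ H K : Subgroup (B j), H.Normal → K.Normal → H ⊓ K = ⊥ → H ⊔ K = ⊤ → H = ⊥ ∨ K = ⊥) (_ : ((i : Fin m) → A i) ≃* ((j : Fin n) → B j)), ∃ σ : Fin m ≃ Fin n, ∀ i, Nonempty (A i ≃* B (σ i)) := by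
  induction m with
  | zero =>
    intro n A B _ _ _ _ hA hB e
    cases n with
    | zero => exact ⟨Equiv.refl _, fun i => i.elim0⟩
    | succ n =>
      have := (hB 0).1
      obtain ⟨b, hb⟩ := exists_ne (1 : B 0)
      have : (Pi.mulSingle 0 b : ∀ j, B j) = 1 := e.symm.injective (Subsingleton.elim _ _)
      exact absurd (by simpa using congrFun this 0) hb
  | succ m ih =>
    intro n A B _ _ _ _ hA hB e
    have := (hA 0).1
    let u : A 0 →* ∀ j, B j := e.toMonoidHom.comp (MonoidHom.mulSingle A 0)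
    let v : (∀ j, B j) →* A 0 := (Pi.evalMonoidHom A 0).comp e.symm.toMonoidHom
    obtain ⟨j, hj⟩ := key (hA 0).2 u v fun a => by simp [u, v]
    cases n with
    | zero => exact j.elim0
    | succ n =>
    let u0 : A 0 →* B j := (Pi.evalMonoidHom B j).comp u
    let v0 : B j →* A 0 := v.comp (MonoidHom.mulSingle B j)
    have hj' : Function.Injective fun a => v0 (u0 a) := hj
    have ui : Function.Injective u0 := Function.Injective.of_comp hj'
    have us : Function.Surjective u0 := by
      have hs := Finite.surjective_of_injective hj'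
      have top : u0.range ⊔ v0.ker = ⊤ := eq_top_iff.2 fun b _ => by
        obtain ⟨a, ha⟩ := hs (v0 b)
        rw [← mul_inv_cancel_left (u0 a) b]
        exact mul_mem (mem_sup_left ⟨a, rfl⟩) (mem_sup_right (by
          simp only at ha; simp [MonoidHom.mem_ker, ha]))
      rcases (hB j).2 u0.range v0.ker ⟨by
          rintro _ ⟨a, rfl⟩ b
          refine ⟨v0 b * a * (v0 b)⁻¹, ?_⟩
          have : (Pi.mulSingle 0 (v0 b * a * (v0 b)⁻¹) : ∀ i, A i) = e.symm (Pi.mulSingle j b) *
              Pi.mulSingle 0 a * (e.symm (Pi.mulSingle j b))⁻¹ := by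
            ext i; by_cases h : i = 0
            · subst h; simp [v0, v]
            · simp [h]
          simp [u0, u, this]⟩ inferInstance
        (eq_bot_iff.2 (by
          rintro _ ⟨⟨a, rfl⟩, h⟩
          rw [hj' (a₁ := a) (a₂ := 1) (by simpa using h), map_one]; exact one_mem _)) top with h | h
      · obtain ⟨a, ha⟩ := exists_ne (1 : A 0)
        exact absurd (ui ((h.le ⟨a, rfl⟩ : u0 a ∈ (⊥ : Subgroup _)).trans (map_one u0).symm)) ha
      · rw [h, sup_bot_eq] at top
        exact MonoidHom.range_eq_top.1 top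
    let w : (∀ i : Fin n, B (j.succAbove i)) →* ∀ i : Fin m, A i.succ := MonoidHom.mk'
      (fun b i => e.symm (j.insertNth 1 b) i.succ) fun b c => by
        ext i
        rw [← one_mul (1 : B j), Fin.insertNth_mul, map_mul, one_mul]; rfl
    have wi : Function.Injective w := (injective_iff_map_eq_one _).2 fun b hb => by
      have h1 : e.symm (j.insertNth 1 b) = Pi.mulSingle 0 (e.symm (j.insertNth 1 b) 0) := by
        ext i
        refine Fin.cases (by simp) (fun i => ?_) i
        rw [Pi.mulSingle_eq_of_ne (Fin.succ_ne_zero i)]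
        exact congrFun hb i
      have h2 := congrArg e h1
      rw [e.apply_symm_apply] at h2
      have h3 : e.symm (j.insertNth 1 b) 0 = 1 := ui (by
        rw [map_one]
        simpa [u0, u] using (congrFun h2 j).symm)
      rw [h3, Pi.mulSingle_one, map_one] at h2
      ext i
      simpa using congrFun h2 (j.succAbove i)
    have c : Nat.card (∀ i : Fin n, B (j.succAbove i)) = Nat.card (∀ i : Fin m, A i.succ) := by
      have := Nat.card_congr e.toEquiv
      rw [Nat.card_pi, Nat.card_pi, Fin.prod_univ_succ, Fin.prod_univ_succAbove _ j,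
        Nat.card_congr (Equiv.ofBijective _ ⟨ui, us⟩)] at this
      rw [Nat.card_pi, Nat.card_pi]
      exact (Nat.eq_of_mul_eq_mul_left Nat.card_pos this).symm
    obtain ⟨σ, hσ⟩ := ih (fun i => hA i.succ) (fun i => hB (j.succAbove i))
      (MulEquiv.ofBijective w ((Nat.bijective_iff_injective_and_card w).2 ⟨wi, c⟩)).symm
    refine ⟨(finSuccEquiv m).trans ((Equiv.optionCongr σ).trans (finSuccEquiv' j).symm), fun i => ?_⟩
    refine Fin.cases ?_ (fun i => ?_) i
    · rw [show ((finSuccEquiv m).trans ((Equiv.optionCongr σ).trans (finSuccEquiv' j).symm)) 0 = j by simp]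
      exact ⟨MulEquiv.ofBijective u0 ⟨ui, us⟩⟩
    · rw [show ((finSuccEquiv m).trans ((Equiv.optionCongr σ).trans (finSuccEquiv' j).symm)) i.succ =
        j.succAbove (σ i) by simp]
      exact hσ i

/-- If a finite group is isomorphic both to a direct product of `m` directly indecomposable nontrivial groups and to a direct product of `n` such groups (a group is directly indecomposable when it is not the internal direct product of two nontrivial normal subgroups), then `m = n` and the factors are isomorphic in pairs after a suitable matching. -/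
theorem result {m n : ℕ} {A : Fin m → Type*} {B : Fin n → Type*} [∀ i, Group (A i)] [∀ j, Group (B j)] [∀ i, Finite (A i)] [∀ j, Finite (B j)] (hA : ∀ i, Nontrivial (A i) ∧ ∀ H K : Subgroup (A i), H.Normal → K.Normal → H ⊓ K = ⊥ → H ⊔ K = ⊤ → H = ⊥ ∨ K = ⊥) (hB : ∀ j, Nontrivial (B j) ∧ ∀ H K : Subgroup (B j), H.Normal → K.Normal → H ⊓ K = ⊥ → H ⊔ K = ⊤ → H = ⊥ ∨ K = ⊥) (e : ((i : Fin m) → A i) ≃* ((j : Fin n) → B j)) : ∃ σ : Fin m ≃ Fin n, ∀ i, Nonempty (A i ≃* B (σ i)) := by
  exact main m hA hB e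

end Cfsg.Agent.S4223
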