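import Cfsg.Statements.S4227
import Cfsg.Agent.H9.HH8
import Cfsg.Agent.H17.Central

set_option autoImplicit false
open Cfsg

namespace Cfsg.Agent.S4227

/-- A finite group in which every element has order dividing `6` has `2`-length at most `1` and `3`-length at most `1`. -/
theorem result {G : Type*} [Group G] [Finite G] (h : ∀ x : G, x ^ 6 = 1) : Cfsg.PLengthLE 2 1 G ∧ Cfsg.PLengthLE 3 1 G := by
  haveI := Fact.mk Nat.prime_two
  haveI := Fact.mk Nat.prime_three
  have hG : Group.IsSolvable G := H17.isSolvable_of_two_primes Nat.prime_two Nat.prime_three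
    fun r hr hd => by
      haveI := Fact.mk hr
      obtain ⟨x, hx⟩ := exists_prime_orderOf_dvd_card' r hd
      have h1 : r ∣ 2 * 3 := hx ▸ orderOf_dvd_of_pow_eq_one (h x)
      rcases (Nat.Prime.dvd_mul hr).1 h1 with h2 | h2
      · exact Or.inl ((Nat.prime_dvd_prime_iff_eq hr Nat.prime_two).1 h2)
      · exact Or.inr ((Nat.prime_dvd_prime_iff_eq hr Nat.prime_three).1 h2)
  have key : ∀ (p m : ℕ), p.Coprime m → p * m = 6 → H9.PExp p 1 G := fun p m hc e x ⟨k, hk⟩ => by
    rw [pow_one, ← orderOf_dvd_iff_pow_eq_one]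
    refine Nat.Coprime.dvd_of_dvd_mul_right (k := orderOf x) (n := m)
      ((hc.pow_left k).coprime_dvd_left (orderOf_dvd_of_pow_eq_one hk)) ?_
    exact e ▸ orderOf_dvd_of_pow_eq_one (h x)
  have h2 := key 2 3 (by decide) rfl
  refine ⟨H9.pLengthLE_gross 0 G hG h2, H9.pLengthLE_of_pExp 1 G
    (H1.isPSolvable_of_isSolvable 3 hG) (fun n q m a b c d => ?_) (key 3 2 (by decide) rfl)⟩
  obtain ⟨rfl, -⟩ := H9.fermat_of_exc (by decide) a b c d
  intro L hL
  refine ⟨⟨fun ⟨x, hx⟩ ⟨y, hy⟩ => Subtype.ext ?_⟩⟩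
  have h3 : ∀ z ∈ L, z * z = 1 := fun z hz => by
    have := h2 z ((hL ⟨z, hz⟩).imp fun k hk => congrArg Subtype.val hk)
    rwa [pow_one, pow_two] at this
  have h4 := h3 _ (mul_mem hx hy)
  have h5 := h3 x hx
  have h6 := h3 y hy
  show x * y = y * x
  calc x * y = x * (x * y * (x * y)) * y := by rw [h4, mul_one]
    _ = x * x * (y * x) * (y * y) := by group
    _ = y * x := by rw [h5, h6, one_mul, mul_one]

end Cfsg.Agent.S4227
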