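import Cfsg.Statements.S4275
import Cfsg.Agent.H1.Prim

set_option autoImplicit false
open Cfsg

namespace Cfsg.Agent.S4275

/-- Let G be a transitive group of permutations of a finite set Ω, let o ∈ Ω, and let α be an automorphism of G. Then α is induced by conjugation by a permutation of Ω normalizing G if and only if the image under α of the stabilizer of o fixes some point of Ω. -/
theorem result {Ω : Type*} [Fintype Ω] (G : Subgroup (Equiv.Perm Ω)) (htr : MulAction.IsPretransitive G Ω) (o : Ω) (α : G ≃* G) : (∃ σ : Equiv.Perm Ω, σ ∈ Subgroup.normalizer (G : Set (Equiv.Perm Ω)) ∧ ∀ g : G, ((α g : G) : Equiv.Perm Ω) = σ * (g : Equiv.Perm Ω) * σ⁻¹) ↔ ∃ ω : Ω, ∀ g ∈ (MulAction.stabilizer G o).map α.toMonoidHom, g • ω = ω := by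
  constructor
  · rintro ⟨σ, -, h⟩
    refine ⟨σ o, ?_⟩
    rintro _ ⟨g, hg, rfl⟩
    change ((α g : G) : Equiv.Perm Ω) (σ o) = σ o
    rw [h]
    simpa using show (g : Equiv.Perm Ω) o = o from hg
  · rintro ⟨ω, h⟩
    have h1 : (MulAction.stabilizer G o).map α.toMonoidHom = MulAction.stabilizer G ω := by
      refine Subgroup.eq_of_le_of_card_ge h (le_of_eq ?_)
      rw [Subgroup.card_map_of_injective α.injective]
      refine Nat.eq_of_mul_eq_mul_right (Nat.pos_of_ne_zero (Subgroup.FiniteIndex.index_ne_zero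
        (H := MulAction.stabilizer G o))) ?_
      rw [Subgroup.card_mul_index, MulAction.index_stabilizer_of_transitive,
        ← MulAction.index_stabilizer_of_transitive G ω, Subgroup.card_mul_index]
    have h2 : ∀ a b : G, a • o = b • o ↔ α a • ω = α b • ω := fun a b => by
      rw [← inv_smul_eq_iff, ← inv_smul_eq_iff (g := α b), ← mul_smul, ← mul_smul, ← map_inv,
        ← map_mul, ← MulAction.mem_stabilizer_iff, ← MulAction.mem_stabilizer_iff, ← h1]
      exact (Subgroup.mem_map_iff_mem α.injective).symm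
    choose t ht using MulAction.exists_smul_eq G o
    have h3 : Function.Injective fun x => α (t x) • ω := fun x y hxy => by
      rw [← ht x, ← ht y]; exact (h2 _ _).2 hxy
    let σ := Equiv.ofBijective _ (Finite.injective_iff_bijective.1 h3)
    have h4 : ∀ g : G, ((α g : G) : Equiv.Perm Ω) = σ * (g : Equiv.Perm Ω) * σ⁻¹ := fun g => by
      rw [eq_mul_inv_iff_mul_eq]
      ext x
      change α g • α (t x) • ω = α (t (g • x)) • ω
      rw [← mul_smul, ← map_mul, ← h2, mul_smul, ht, ht]
    refine ⟨σ, H1.mem_normalizer_of_conj_smul_le (H1.conj_smul_le_iff.2 fun x hx => ?_), h4⟩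
    rw [← h4 ⟨x, hx⟩]
    exact Subtype.prop _

end Cfsg.Agent.S4275
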