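import Cfsg.Statements.S4277
import Cfsg.Agent.H25.WAut
import Cfsg.Agent.S0675

set_option autoImplicit false
open Cfsg

namespace Cfsg.Agent.S4277

open MulAction H25 Subgroup

/-- A case of the Schreier conjecture: if a finite simple group G has a subgroup of prime index, then the outer automorphism group of G is solvable. -/
theorem result {G : Type*} [Group G] [Finite G] [IsSimpleGroup G] (H : Subgroup G) (hH : H.index.Prime) : Group.IsSolvable (Cfsg.Out G) := by
  classical
  by_cases hs : Group.IsSolvable G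
  · have : IsMulCommutative G := ⟨⟨IsSimpleGroup.comm_iff_isSolvable.2 hs⟩⟩
    have : IsCyclic G := by
      let _ : CommGroup G := { mul_comm := mul_comm' }
      exact IsSimpleGroup.isCyclic
    let _ : CommGroup (MulAut G) := (IsCyclic.mulAutMulEquiv G).toMonoidHom.commGroupOfInjective
      (IsCyclic.mulAutMulEquiv G).injective
    exact Group.isSolvable_of_surjective (QuotientGroup.mk'_surjective (Inn G))
  have := Fact.mk hH
  have := Fintype.ofFinite (G ⧸ H)
  have hα : Nat.card (G ⧸ H) = H.index := rfl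
  have hinj : Function.Injective (toPermHom G (G ⧸ H)) := by
    rw [← MonoidHom.ker_eq_bot_iff, ← normalCore_eq_ker]
    refine (IsSimpleGroup.eq_bot_or_eq_top_of_normal _ inferInstance).resolve_right fun h => ?_
    exact hH.one_lt.ne' (index_eq_one.2 (top_le_iff.1 (h ▸ H.normalCore_le)))
  have : FaithfulSMul G (G ⧸ H) := ⟨fun h => hinj (Equiv.ext h)⟩
  have h2 : IsMultiplyPretransitive G (G ⧸ H) 2 := by
    let e := MonoidHom.ofInjective hinj
    have : IsPretransitive (toPermHom G (G ⧸ H)).range (G ⧸ H) := ⟨fun x y => by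
      obtain ⟨g, hg⟩ := exists_smul_eq G x y; exact ⟨e g, hg⟩⟩
    rcases Cfsg.Agent.S0675.result (by rwa [← Nat.card_eq_fintype_card])
      (toPermHom G (G ⧸ H)).range with h | h
    · exact (hs (Group.isSolvable_of_isSolvable_injective (f := e.toMonoidHom) e.injective)).elim
    · refine is_two_pretransitive_iff.2 fun hab hcd => ?_
      obtain ⟨⟨_, g, rfl⟩, hg⟩ := is_two_pretransitive_iff.1 h hab hcd
      exact ⟨g, hg⟩
  obtain ⟨P⟩ : Nonempty (Sylow H.index G) := inferInstance
  have hP := card_sylow_of_prime_degree hα P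
  have := isCyclic_of_prime_card hP
  have tr : IsPretransitive P (G ⧸ H) := sylow_transitive (f := 1) (by rw [hα, pow_one]) P
  obtain ⟨c, hc⟩ := IsCyclic.exists_generator (α := P)
  have hc' : ∀ x ∈ (P : Subgroup G), ∃ j : ℤ, (c : G) ^ j = x := fun x hx => by
    obtain ⟨j, hj⟩ := hc ⟨x, hx⟩; exact ⟨j, congrArg Subtype.val hj⟩
  let o : G ⧸ H := (1 : G)
  have inn : ∀ α : MulAut G, Odd (orderOf α) → α c = c → α ∈ Inn G := fun α h1 h3 => by
    obtain ⟨σ, hσ⟩ := waut_perm h2 o α h1 (orbit ((stabilizer G o).map α.toMonoidHom) o)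
      (fun g hg x hx => by
        obtain ⟨a, rfl⟩ := hx
        exact ⟨⟨_, mem_map_of_mem α.toMonoidHom hg⟩ * a, mul_smul _ _ _⟩) (by
      rw [← Nat.card_eq_fintype_card, hα, ← index_stabilizer]
      refine Nat.Coprime.coprime_dvd_left (index_dvd_card _) ?_
      rw [card_map_of_injective α.injective, Nat.coprime_comm, hH.coprime_iff_not_dvd]
      have e1 := (stabilizer G o).card_mul_index
      have e2 := (P : Subgroup G).card_mul_index
      rw [index_stabilizer_of_transitive, hα, ← e2, hP, mul_comm] at e1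
      rw [Nat.eq_of_mul_eq_mul_left hH.pos e1]
      exact P.not_dvd_index)
    obtain ⟨a, ha⟩ := exists_smul_eq P o (σ o)
    have e : ∀ x, σ x = (a : G) • x := fun x => by
      obtain ⟨b, rfl⟩ := exists_smul_eq P o x
      obtain ⟨j, hj⟩ := hc' b b.2
      change σ ((b : G) • o) = (a : G) • (b : G) • o
      rw [hσ, ← hj, map_zpow, h3, hj, ← ha]
      change (b • a • o : G ⧸ H) = a • b • o
      rw [← mul_smul, ← mul_smul, mul_comm']
    refine ⟨a, MulEquiv.ext fun g => eq_of_smul_eq_smul (α := G ⧸ H) fun x => ?_⟩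
    have := hσ g ((a : G)⁻¹ • x)
    rw [e, e, smul_inv_smul] at this
    rw [← this, MulAut.conj_apply, mul_smul, mul_smul]
  let π := QuotientGroup.mk' (Inn G)
  have sur : ∀ x : Cfsg.Out G, ∃ α : MulAut G, π α = x ∧
      (P : Subgroup G).map (α : G →* G) = (P : Subgroup G) := fun x => by
    obtain ⟨β, rfl⟩ := QuotientGroup.mk'_surjective _ x
    obtain ⟨g, hg⟩ := exists_smul_eq G (β • P) P
    refine ⟨MulAut.conj g * β, ?_, ?_⟩
    · rw [map_mul, show π (MulAut.conj g) = 1 from (QuotientGroup.eq_one_iff _).2 ⟨g, rfl⟩, one_mul]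
    · have := congrArg (fun Q : Sylow H.index G => (Q : Subgroup G)) hg
      simp only [Sylow.smul_def, ← mul_smul] at this
      exact this
  have hle : commutator (Cfsg.Out G) ≤ (stabilizer (MulAut G) (c : G)).map π := by
    refine commutator_le.2 fun x _ y _ => ?_
    obtain ⟨α, rfl, h1⟩ := sur x
    obtain ⟨β, rfl, h3⟩ := sur y
    refine ⟨α * β * α⁻¹ * β⁻¹, ?_, by simp [commutatorElement_def]⟩
    obtain ⟨u, hu, h4⟩ : (c : G) ∈ (P : Subgroup G).map (β : G →* G) := h3.ge c.2
    obtain ⟨v, hv, rfl⟩ : u ∈ (P : Subgroup G).map (α : G →* G) := h1.ge hu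
    obtain ⟨i, hi⟩ := hc' _ (h1.le (mem_map_of_mem _ c.2))
    obtain ⟨j, hj⟩ := hc' _ (h3.le (mem_map_of_mem _ c.2))
    obtain ⟨l, rfl⟩ := hc' v hv
    simp only [MonoidHom.coe_coe] at hi hj h4
    have : α (β ((c : G) ^ l)) = β (α ((c : G) ^ l)) := by
      simp only [map_zpow, ← hi, ← hj, ← zpow_mul, mul_left_comm i j]
    change α (β (α⁻¹ (β⁻¹ c))) = c
    conv_lhs => rw [← h4]
    rw [MulAut.inv_apply_self, MulAut.inv_apply_self, this, h4]
  have hp : IsPGroup 2 (commutator (Cfsg.Out G)) := by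
    rintro ⟨x, hx⟩
    obtain ⟨α, h1, rfl⟩ := hle hx
    obtain ⟨k, m, hm, e⟩ := Nat.exists_eq_two_pow_mul_odd (orderOf_pos α).ne'
    refine ⟨k, Subtype.ext ?_⟩
    rw [coe_pow, ← map_pow]
    refine (QuotientGroup.eq_one_iff _).2 (inn _ (hm.of_dvd_nat (orderOf_dvd_of_pow_eq_one ?_))
      (pow_mem h1 _))
    rw [← pow_mul, ← e, pow_orderOf_eq_one]
  have := Fact.mk Nat.prime_two
  have := hp.isNilpotent
  exact Group.isSolvable_of_ker_le_range (commutator _).subtype Abelianization.of (by
    rw [Abelianization.ker_of, range_subtype])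

end Cfsg.Agent.S4277
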