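import Cfsg.Statements.S4278
import Cfsg.Agent.H14.SS3

set_option autoImplicit false
set_option linter.unusedVariables false
set_option linter.style.haveILetI false
open Cfsg H24 H14.SS

namespace Cfsg.Agent.S4278

/-- In the Chevalley group of type G₂ over a finite field of odd order, any two involutions are conjugate. -/
theorem result {F : Type*} [Field F] [Fintype F] (hF : Odd (Fintype.card F)) (s t : ↥(Cfsg.Lie.chevG2.group F)) (hs : orderOf s = 2) (ht : orderOf t = 2) : IsConj s t := by
  obtain ⟨i, hi, e⟩ := conj_inv tabG2_chk uniG2 hF clsG2 hs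
  obtain ⟨j, hj, e'⟩ := conj_inv tabG2_chk uniG2 hF clsG2 ht
  obtain rfl : i = j := Fin.ext (by simp_all)
  exact e.trans e'.symm

end Cfsg.Agent.S4278
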