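import Cfsg.Statements.S4279
import Cfsg.Agent.H14.SS3
import Cfsg.Agent.H24.ReeG
import Cfsg.Agent.H1.Basic

set_option autoImplicit false
set_option linter.unusedVariables false
set_option linter.style.haveILetI false
open Cfsg H24 H14.SS

namespace Cfsg.Agent.S4279

open H4 MatrixGroups in
theorem sl2_cell {ι Φ : Type} [Fintype ι] [DecidableEq ι] [Fintype Φ] [DecidableEq Φ] {R : CD ι Φ} {F : Type*}
    [Field F] {G : Type*} [Group G] {S : St R F G} {r : Φ} (hr : R.Pos r) {φ : SL(2, F) →* G}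
    (h1 : ∀ t, φ (upT t) = S.x r t) (h2 : ∀ t, φ (loT t) = S.x (R.neg r) t) (g : SL(2, F)) :
    (∃ b, ∃ l : Fˣ, g = upT b * dS l ∧ φ g = S.x r b * S.h r l ∧ φ g ∈ S.Cell Set.univ 1) ∨
      φ g ∈ S.Cell Set.univ (R.w r) := by
  obtain ⟨e1, e2⟩ := St.sl2_w h1 h2
  rcases sl2_bruhat g with ⟨b, l, rfl⟩ | ⟨a, l, b, rfl⟩ <;> simp only [map_mul, h1, e1, e2]
  · exact Or.inl ⟨b, l, rfl, rfl, S.mem_cell_one.2 (S.BK_univ ▸ mul_mem (S.x_mem_B hr b)
      (S.H_le_B (S.h_mem l.ne_zero)))⟩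
  · rw [mul_assoc (S.x r a * _)]
    exact Or.inr (S.canon_mem_cell (S.n_mem one_ne_zero) (S.n_rep _ one_ne_zero) (S.x_mem_B hr a)
      (mul_mem (S.H_le_B (S.h_mem l.ne_zero)) (S.x_mem_B hr b)))

local notation "hT" => tabG2_chk

open H4 MatrixGroups Cfsg.Lie in
theorem std {F : Type*} [Field F] [Fintype F] (hF : Odd (Fintype.card F)) (t : chevG2.group F)
    (ht : t = inv hT uniG2 F ⟨1, by decide⟩) : ∃ φ φ' : SL(2, F) →* chevG2.group F, Function.Injective φ ∧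
      Function.Injective φ' ∧ (∀ g g', Commute (φ g) (φ' g')) ∧ φ.range ⊓ φ'.range = Subgroup.zpowers t ∧
      φ.range ⊔ φ'.range ≤ Subgroup.centralizer {t} := by
  set S := (hT).grp F
  have A := ad hT uniG2 F
  obtain ⟨φ, a1, a2, a3⟩ := S.exists_sl2 A.r3 ((hT).fin 7)
  obtain ⟨φ', b1, b2, b3⟩ := S.exists_sl2 A.r3 ((hT).fin 11)
  have n7 : (hT).cd.neg ((hT).fin 7) = (hT).fin 4 := (hT).neg_fin (by decide)
  have n11 : (hT).cd.neg ((hT).fin 11) = (hT).fin 0 := (hT).neg_fin (by decide)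
  have p7 : (hT).cd.Pos ((hT).fin 7) := ((hT).posB_iff _).1 (by decide +kernel)
  have p11 : (hT).cd.Pos ((hT).fin 11) := ((hT).posB_iff _).1 (by decide +kernel)
  have w1 : ∀ r, (hT).cd.w r ≠ 1 := fun r e => (hT).cd.neg_ne r (by rw [← RS.w_self, e]; rfl)
  have w2 : (hT).cd.w ((hT).fin 7) ≠ (hT).cd.w ((hT).fin 11) := fun e => by
    have := (hT).cd.rt_w ((hT).fin 11) ((hT).fin 7)
    rw [← e, RS.w_self, (hT).A_fin (by decide) (by decide), show tabG2.A 11 7 = 0 by decide +kernel, zero_smul,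
      sub_zero] at this
    exact (hT).cd.neg_ne _ ((hT).cd.rt_inj this)
  have h7 : ∀ l : Fˣ, S.h ((hT).fin 7) l = A.tt ![l ^ (2 : ℤ), l ^ (-3 : ℤ)] := fun l => by
    rw [A.h_eq_tt]
    refine congrArg _ (funext fun i => ?_)
    rw [(hT).sim_eq, (hT).A_fin (by decide) ((hT).simple_lt ((hT).lt_l i))]
    fin_cases i
    exacts [congrArg (l ^ ·) (show tabG2.A 7 (tabG2.simple 0) = 2 by decide +kernel),
      congrArg (l ^ ·) (show tabG2.A 7 (tabG2.simple 1) = -3 by decide +kernel)]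
  have h11 : ∀ l : Fˣ, S.h ((hT).fin 11) l = A.tt ![l ^ (0 : ℤ), l ^ (1 : ℤ)] := fun l => by
    rw [A.h_eq_tt]
    refine congrArg _ (funext fun i => ?_)
    rw [(hT).sim_eq, (hT).A_fin (by decide) ((hT).simple_lt ((hT).lt_l i))]
    fin_cases i
    exacts [congrArg (l ^ ·) (show tabG2.A 11 (tabG2.simple 0) = 0 by decide +kernel),
      congrArg (l ^ ·) (show tabG2.A 11 (tabG2.simple 1) = 1 by decide +kernel)]
  have e7 : S.h ((hT).fin 7) (-1 : Fˣ) = t := by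
    rw [h7, ht]; refine congrArg _ (funext fun i => ?_)
    fin_cases i
    · change ((-1 : Fˣ) ^ (2 : ℤ)) = (-1) ^ (0 : ℤ); simp [zpow_ofNat]
    · change ((-1 : Fˣ) ^ (-3 : ℤ)) = (-1) ^ (1 : ℤ); rw [zpow_neg, Odd.neg_one_zpow (by decide)]; simp
  have e11 : S.h ((hT).fin 11) (-1 : Fˣ) = t := by
    rw [h11, ht]; refine congrArg _ (funext fun i => ?_)
    fin_cases i <;> rfl
  have key : ∀ {r s : Fin chevG2.nroots} {b b' : F} {l l' : Fˣ}, (hT).cd.Pos r → (hT).cd.Pos s →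
      S.x r b * S.h r l = S.x s b' * S.h s l' → S.h r l = S.h s l' := fun {r s b b' l l'} hr hs e => by
    have e1 : (S.x s b')⁻¹ * S.x r b = S.h s l' * (S.h r l)⁻¹ := by
      rw [inv_mul_eq_iff_eq_mul, ← mul_assoc, ← e, mul_inv_cancel_right]
    have := S.eq_one_of_mem_U_H (mul_mem (inv_mem (S.x_mem_U hs b')) (S.x_mem_U hr b))
      (e1 ▸ mul_mem (S.h_mem l'.ne_zero) (inv_mem (S.h_mem l.ne_zero)))
    rw [this, eq_comm, mul_inv_eq_one] at e1
    exact e1.symm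
  have inj : ∀ {r} {φ : SL(2, F) →* chevG2.group F}, (hT).cd.Pos r → (∀ t, φ (upT t) = S.x r t) →
      (∀ t, φ (loT t) = S.x ((hT).cd.neg r) t) → (∀ l : Fˣ, S.h r l = 1 → l = 1) → Function.Injective φ :=
    fun {r φ} hr h1 h2 h3 => (injective_iff_map_eq_one φ).2 fun g hg => by
      rcases sl2_cell hr h1 h2 g with ⟨b, l, rfl, e, -⟩ | e
      · rw [hg] at e
        obtain rfl := h3 l ((key (b' := 0) (l' := 1) hr hr (by rw [← e]; simp [S.h_one])).trans (S.h_one _))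
        rw [Units.val_one, S.h_one, mul_one, eq_comm, S.x_eq_one_iff] at e
        apply sl2_ext <;> simp [coe_dS, coe_upT, e]
      · exact absurd (S.eq_one_of_mem_cell e (hg ▸ one_mem _)) (w1 r)
  have cm : ∀ {r s : ℕ}, (r < tabG2.n ∧ s < tabG2.n ∧ s ≠ tabG2.neg r ∧ gTerms tabG2.chain r s = []) → ∀ t u,
      Commute (S.x ((hT).fin r) t) (S.x ((hT).fin s) u) := fun H t u =>
    St0.commute_of_terms _ (p := 0) Nat.cast_zero (Or.inr ⟨(hT).fin_ne_neg H.1 H.2.1 H.2.2.1, by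
      rw [(hT).terms_eq H.1 H.2.1, H.2.2.2]; simp⟩) t u
  have hχ : ∀ r : ℕ, r < tabG2.n → Even (tabG2.rtv r 1) →
      RS.chi (sg F (Pi.single (⟨1, by decide⟩ : Fin chevG2.rank) 1)) ((hT).cd.rt ((hT).fin r)) = 1 := fun r hr e => by
    rw [chi_sg1]
    change (-1) ^ tabG2.rtv ((hT).fin r) 1 = _
    rw [(hT).val_fin hr, e.neg_one_zpow]
  refine ⟨φ, φ', inj p7 a2 a3 fun l e => ?_, inj p11 b2 b3 fun l e => ?_, fun g g' => ?_,
    le_antisymm ?_ ((Subgroup.zpowers_le).2 ⟨⟨_, (St.sl2_w a2 a3).2 _ |>.trans e7⟩, _, (St.sl2_w b2 b3).2 _ |>.trans e11⟩),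
    ?_⟩
  · have := A.tt_inj ((h7 l).symm.trans (e.trans (map_one _).symm))
    have c0 : l ^ (2 : ℤ) = 1 := congrFun this (0 : Fin 2)
    have c1 : l ^ (-3 : ℤ) = 1 := congrFun this (1 : Fin 2)
    calc l = (l ^ (2 : ℤ)) ^ 2 * l ^ (-3 : ℤ) := by group
      _ = 1 := by rw [c0, c1]; simp
  · have c1 : l ^ (1 : ℤ) = 1 := congrFun (A.tt_inj ((h11 l).symm.trans (e.trans (map_one _).symm))) (1 : Fin 2)
    simpa using c1
  · refine Tw.commute_XS (S := S) (T := {(hT).fin 7, (hT).fin 4}) (T' := {(hT).fin 11, (hT).fin 0}) ?_ _ ?_ _ ?_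
    · rintro _ (rfl | rfl) _ (rfl | rfl) <;> exact cm (by decide +kernel)
    · exact (a1.le.trans (sup_le (S.XS_mono (by simp)) (S.XS_mono (by simp [n7])))) ⟨g, rfl⟩
    · exact (b1.le.trans (sup_le (S.XS_mono (by simp)) (S.XS_mono (by simp [n11])))) ⟨g', rfl⟩
  · rintro _ ⟨⟨g, rfl⟩, g', e⟩
    rcases sl2_cell p7 a2 a3 g with ⟨b, l, -, e1, c1⟩ | c1 <;>
      rcases sl2_cell p11 b2 b3 g' with ⟨b', l', -, e2, c2⟩ | c2 <;> rw [e] at c2
    · have e3 := key p7 p11 (e1.symm.trans (e.symm.trans e2))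
      have e4 := mul_right_cancel (e1.symm.trans (e.symm.trans (e3 ▸ e2)))
      obtain rfl : b = 0 := by_contra fun hb => (hT).fin_ne (by decide) (by decide) (by decide) (S.eq_of_x_eq hb e4)
      rw [h7, h11] at e3
      have c0 : l ^ (2 : ℤ) = l' ^ (0 : ℤ) := congrFun (A.tt_inj e3) (0 : Fin 2)
      rw [zpow_zero, zpow_two, Units.ext_iff, Units.val_mul, Units.val_one, mul_self_eq_one_iff] at c0
      rw [e1, S.x_zero, one_mul]
      rcases c0 with c0 | c0
      · rw [c0, S.h_one]; exact one_mem _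
      · rw [c0]; exact e7 ▸ Subgroup.mem_zpowers _
    · exact absurd (S.cell_unique c2 c1) (w1 _)
    · exact absurd (S.cell_unique c1 c2) (w1 _)
    · exact absurd (S.cell_unique c1 c2) w2
  · rw [a1, b1, n7, n11, ht]
    refine sup_le (sup_le ?_ ?_) (sup_le ?_ ?_) <;> refine A.comm_XS _ ?_ <;> rintro _ rfl <;>
      exact hχ _ (by decide) (by decide +kernel)

/-- In the Chevalley group G of type G₂ over a finite field F of odd order q, the centralizer of an involution t has order q²(q² − 1)² and contains two elementwise commuting subgroups, each isomorphic to SL(2, F), which meet exactly in the subgroup generated by t and whose join has index 2 in the centralizer. -/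
theorem result {F : Type*} [Field F] [Fintype F] (hF : Odd (Fintype.card F)) (t : ↥(Cfsg.Lie.chevG2.group F)) (ht : orderOf t = 2) : Nat.card (Subgroup.centralizer ({t} : Set ↥(Cfsg.Lie.chevG2.group F))) = Fintype.card F ^ 2 * (Fintype.card F ^ 2 - 1) ^ 2 ∧ ∃ L₁ L₂ : Subgroup ↥(Cfsg.Lie.chevG2.group F), Nonempty (L₁ ≃* Matrix.SpecialLinearGroup (Fin 2) F) ∧ Nonempty (L₂ ≃* Matrix.SpecialLinearGroup (Fin 2) F) ∧ (∀ x ∈ L₁, ∀ y ∈ L₂, x * y = y * x) ∧ L₁ ⊓ L₂ = Subgroup.zpowers t ∧ L₁ ⊔ L₂ ≤ Subgroup.centralizer ({t} : Set ↥(Cfsg.Lie.chevG2.group F)) ∧ (L₁ ⊔ L₂).relIndex (Subgroup.centralizer ({t} : Set ↥(Cfsg.Lie.chevG2.group F))) = 2 := by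
  have := (hT).finite_grp F
  obtain ⟨⟨i, _⟩, hi, e⟩ := conj_inv hT uniG2 hF clsG2 ht
  obtain rfl : i = 1 := by simpa using hi
  have hq : 2 ≤ Fintype.card F := Fintype.one_lt_card
  have h1 : Nat.card (Subgroup.centralizer {t}) = Fintype.card F ^ 2 * (Fintype.card F ^ 2 - 1) ^ 2 := by
    rw [H17.card_centralizer_of_isConj e, cardG2_1 hF]
    simp only [evalL, List.map_cons, List.map_nil, List.prod_cons, List.prod_nil, List.foldr_cons, List.foldr_nil]
    zify [Nat.one_le_pow 2 _ (show 0 < Fintype.card F by omega), show 1 ≤ Fintype.card F by omega]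
    ring
  obtain ⟨φ, φ', i1, i2, hc, h2, h3⟩ := std hF _ rfl
  obtain ⟨g, hg⟩ := isConj_iff.1 e.symm
  let γ := (MulAut.conj g).toMonoidHom
  have hγ : Function.Injective γ := (MulAut.conj g).injective
  have h4 : (γ.comp φ).range ⊓ (γ.comp φ').range = Subgroup.zpowers t := by
    rw [MonoidHom.range_comp, MonoidHom.range_comp, ← Subgroup.map_inf _ _ _ hγ, h2, MonoidHom.map_zpowers, ← hg]; rfl
  have h5 : (γ.comp φ).range ⊔ (γ.comp φ').range ≤ Subgroup.centralizer {t} := by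
    rw [MonoidHom.range_comp, MonoidHom.range_comp, ← Subgroup.map_sup]
    rintro _ ⟨y, hy, rfl⟩
    rw [← hg, Subgroup.mem_centralizer_singleton_iff]
    exact (Commute.map (Subgroup.mem_centralizer_singleton_iff.1 (h3 hy)) γ :)
  have h6 : ∀ x ∈ (γ.comp φ).range, ∀ y ∈ (γ.comp φ').range, x * y = y * x := by
    rintro _ ⟨x, rfl⟩ _ ⟨y, rfl⟩; exact (hc x y).map γ
  have j1 : Function.Injective (γ.comp φ) := hγ.comp i1
  have j2 : Function.Injective (γ.comp φ') := hγ.comp i2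
  refine ⟨h1, _, _, ⟨(MonoidHom.ofInjective j1).symm⟩, ⟨(MonoidHom.ofInjective j2).symm⟩, h6, h4, h5, ?_⟩
  have h7 := H1.card_sup_mul_card_inf (H := (γ.comp φ).range) (N := (γ.comp φ').range)
    ((Subgroup.le_centralizer_iff.1 fun y hy x hx => h6 x hx y hy).trans (Subgroup.centralizer_le_normalizer _))
  rw [h4, Nat.card_zpowers, ht, ← Nat.card_congr (MonoidHom.ofInjective j1).toEquiv,
    ← Nat.card_congr (MonoidHom.ofInjective j2).toEquiv, H22.card_SL_two] at h7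
  have h8 := H1.card_mul_relIndex h5
  rw [h1] at h8
  exact Nat.eq_of_mul_eq_mul_left Nat.card_pos (h8.trans (h7.trans (by ring)).symm)

end Cfsg.Agent.S4279
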