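import Cfsg.Statements.S4280
import Cfsg.Agent.H14.SS3

set_option autoImplicit false
set_option linter.unusedVariables false
set_option linter.style.haveILetI false
open Cfsg H24 H14.SS

namespace Cfsg.Agent.S4280

theorem cop {q k : ℕ} (hq : 1 ≤ q) (hk : k ≠ 0) : q.Coprime (q ^ k - 1) :=
  ((Nat.coprime_self_sub_right (Nat.one_le_pow _ _ hq)).2 (by simp)).coprime_dvd_left (dvd_pow_self q hk)

/-- In the Chevalley group of type F₄ over a finite field of odd order q there are exactly two conjugacy classes of involutions; the centralizer of an involution in one class has order q¹⁶(q² − 1)(q⁴ − 1)(q⁶ − 1)(q⁸ − 1), and in the other class q¹⁰(q² − 1)²(q⁴ − 1)(q⁶ − 1). -/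
theorem result {F : Type*} [Field F] [Fintype F] (hF : Odd (Fintype.card F)) : ∃ s t : ↥(Cfsg.Lie.chevF4.group F), orderOf s = 2 ∧ orderOf t = 2 ∧ ¬ IsConj s t ∧ (∀ u : ↥(Cfsg.Lie.chevF4.group F), orderOf u = 2 → IsConj u s ∨ IsConj u t) ∧ Nat.card (Subgroup.centralizer ({s} : Set ↥(Cfsg.Lie.chevF4.group F))) = Fintype.card F ^ 16 * (Fintype.card F ^ 2 - 1) * (Fintype.card F ^ 4 - 1) * (Fintype.card F ^ 6 - 1) * (Fintype.card F ^ 8 - 1) ∧ Nat.card (Subgroup.centralizer ({t} : Set ↥(Cfsg.Lie.chevF4.group F))) = Fintype.card F ^ 10 * (Fintype.card F ^ 2 - 1) ^ 2 * (Fintype.card F ^ 4 - 1) * (Fintype.card F ^ 6 - 1) := by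
  have h1 := cardF4_0 hF
  have h2 := cardF4_3 hF
  have hq : 2 ≤ Fintype.card F := Fintype.one_lt_card
  have := tabF4_chk.finite_grp F
  generalize Fintype.card F = q at h1 h2 hq
  have hp : ∀ n, 1 ≤ q ^ n := fun n => Nat.one_le_pow _ _ (by omega)
  replace h1 := h1.trans (c := q ^ 16 * (q ^ 2 - 1) * (q ^ 4 - 1) * (q ^ 6 - 1) * (q ^ 8 - 1)) (by
    simp only [evalL, List.map_cons, List.map_nil, List.prod_cons, List.prod_nil, List.foldr_cons, List.foldr_nil]
    zify [hp, show 1 ≤ q by omega]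
    ring)
  replace h2 := h2.trans (c := q ^ 10 * (q ^ 2 - 1) ^ 2 * (q ^ 4 - 1) * (q ^ 6 - 1)) (by
    simp only [evalL, List.map_cons, List.map_nil, List.prod_cons, List.prod_nil, List.foldr_cons, List.foldr_nil]
    zify [hp, show 1 ≤ q by omega]
    ring)
  refine ⟨_, _, orderOf_inv' _ _ hF _, orderOf_inv' _ _ hF _, fun e => ?_, fun u hu => ?_, h1, h2⟩
  · have e1 := H17.card_centralizer_of_isConj e
    rw [h1, h2, show 16 = 10 + 5 + 1 from rfl, pow_succ, pow_add] at e1
    simp only [mul_assoc, mul_right_inj' (pow_ne_zero 10 (show q ≠ 0 by omega))] at e1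
    have c : ∀ k, k ≠ 0 → q.Coprime (q ^ k - 1) := fun k => cop (by omega)
    have := (((c 2 (by omega)).pow_right 2).mul_right ((c 4 (by omega)).mul_right (c 6 (by omega)))).eq_one_of_dvd
      (e1 ▸ (dvd_mul_right _ _).mul_left _)
    omega
  · obtain ⟨⟨i, _⟩, hi, e⟩ := conj_inv tabF4_chk uniF4 hF clsF4 hu
    simp only [List.mem_cons, List.not_mem_nil, or_false] at hi
    exact hi.imp (fun h => by subst h; exact e) fun h => by subst h; exact e

end Cfsg.Agent.S4280
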