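import Cfsg.Statements.S4282
import Cfsg.Agent.H9.HH5

set_option autoImplicit false
open Cfsg

namespace Cfsg.Agent.S4282

open Module H2 Subgroup H15 H9
open scoped commutatorElement

/-- A critical case behind the Hall–Higman theorem. Let p ≠ q be primes and G a finite group generated by a normal q-subgroup Q and a cyclic p-subgroup generated by x, such that the centralizer of every non-identity element of that cyclic subgroup is its product with the centre of G. Let K be an algebraically closed field of characteristic p and ρ a faithful representation of G on a nonzero finite-dimensional K-space whose restriction to Q is irreducible. If s is the least exponent with (ρ(x) − 1)^s = 0, then |⟨x⟩| − 1 ≤ s ≤ |⟨x⟩|; and if s = |⟨x⟩| − 1 then |⟨x⟩| − 1 is a power of q and Q is non-abelian. -/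
theorem result {G : Type*} [Group G] [Finite G] (p q : ℕ) [Fact p.Prime] [Fact q.Prime] (hpq : p ≠ q) (Q : Subgroup G) [Q.Normal] (hQ : IsPGroup q Q) (x : G) (hx : IsPGroup p (Subgroup.zpowers x)) (hgen : Q ⊔ Subgroup.zpowers x = ⊤) (hC : ∀ y ∈ Subgroup.zpowers x, y ≠ 1 → Subgroup.centralizer ({y} : Set G) = Subgroup.zpowers x ⊔ Subgroup.center G) {K : Type*} [Field K] [IsAlgClosed K] [CharP K p] {V : Type*} [AddCommGroup V] [Module K V] [FiniteDimensional K V] [Nontrivial V] (ρ : Representation K G V) (hfaith : Function.Injective ρ) (hirr : ∀ W : Submodule K V, (∀ g ∈ Q, Submodule.map (ρ g) W ≤ W) → W = ⊥ ∨ W = ⊤) (s : ℕ) (hs : (ρ x - 1) ^ s = 0) (hmin : ∀ k < s, (ρ x - 1) ^ k ≠ 0) : Nat.card (Subgroup.zpowers x) - 1 ≤ s ∧ s ≤ Nat.card (Subgroup.zpowers x) ∧ (s = Nat.card (Subgroup.zpowers x) - 1 → (∃ b : ℕ, Nat.card (Subgroup.zpowers x) - 1 = q ^ b) ∧ ¬ IsMulCommutative Q) := by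
  have hp : p.Prime := Fact.out
  have hq : q.Prime := Fact.out
  have hker : MonoidHom.ker ρ = ⊥ := (MonoidHom.ker_eq_bot_iff _).2 hfaith
  have hsc : ∀ z ∈ 𝒞(Q), ∃ c : K, ∀ w, ρ z w = c • w := fun z hz => by
    obtain ⟨c, hc⟩ := End.exists_eigenvalue (ρ z)
    refine ⟨c, fun w => End.mem_eigenspace_iff.1 ?_⟩
    rw [(hirr (End.eigenspace (ρ z) c) fun g hg => ?_).resolve_left hc]
    · trivial
    rintro _ ⟨v, hv, rfl⟩
    rw [End.mem_eigenspace_iff, ← End.mul_apply, ← map_mul, ← mem_cent.1 hz g hg, map_mul,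
      End.mul_apply, End.mem_eigenspace_iff.1 hv, map_smul]
  have hs0 : s ≠ 0 := by
    rintro rfl
    exact one_ne_zero hs
  obtain ⟨n, hn⟩ := IsPGroup.iff_card.1 hx
  rw [hn]
  rw [Nat.card_zpowers] at hn
  have hx1 : x ^ p ^ n = 1 := hn ▸ pow_orderOf_eq_one x
  have hle : s ≤ p ^ n := by
    by_contra h
    exact hmin _ (not_le.1 h) (by rw [sub_one_pow_char, ← map_pow, hx1, map_one, sub_self])
  rcases n with _ | n
  · exact ⟨by simp, hle, fun h => absurd (by simpa using h) hs0⟩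
  have hpos : 0 < p ^ (n + 1) := pow_pos hp.pos _
  suffices key : s < p ^ (n + 1) → p ^ (n + 1) - 1 ≤ s ∧ (∃ b : ℕ, p ^ (n + 1) - 1 = q ^ b) ∧
      ¬ IsMulCommutative Q from
    ⟨hle.eq_or_lt.elim (fun h => by omega) fun h => (key h).1, hle, fun h => (key (by omega)).2⟩
  intro hlt
  have hr : (ρ x - 1) ^ (p ^ (n + 1) - 1) = 0 := pow_eq_zero_of_le (by omega) hs
  have hy1 : x ^ p ^ n ≠ 1 := fun h => by
    have := (Nat.pow_dvd_pow_iff_le_right hp.one_lt).1 (hn ▸ orderOf_dvd_of_pow_eq_one h)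
    omega
  have hyQ : x ^ p ^ n ∉ 𝒞(Q) := fun h => by
    obtain ⟨c, hc⟩ := hsc _ h
    obtain ⟨v, hv⟩ := exists_ne (0 : V)
    have h1 : ∀ (k : ℕ) (w : V), ((ρ (x ^ p ^ n) - 1) ^ k) w = (c - 1) ^ k • w := fun k w => by
      induction k with
      | zero => simp
      | succ k ih =>
        rw [pow_succ', End.mul_apply, ih, map_smul, LinearMap.sub_apply, hc, End.one_apply,
          pow_succ, mul_smul, sub_smul, one_smul]
    have h2 := h1 (p ^ 1) v
    rw [sub_one_pow_char, ← map_pow, ← pow_mul, ← pow_add, hx1, map_one, sub_self] at h2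
    have h3 : c = 1 := sub_eq_zero.1 (pow_eq_zero_iff (pow_pos hp.pos 1).ne' |>.1
      ((smul_eq_zero.1 h2.symm).resolve_right hv))
    exact hy1 (hfaith (by ext w; rw [hc, h3, one_smul, map_one, End.one_apply]))
  have hQc : (Nat.card Q).Coprime p :=
    H1.IsPGroup.coprime_card hQ ((Nat.coprime_primes hp hq).2 hpq)
  have hBX : zpowers (x ^ p ^ n) ≤ zpowers x := zpowers_le.2 (pow_mem (mem_zpowers x) _)
  obtain ⟨L, ⟨hRL, hL⟩, hLQ, hm⟩ :=
    H1.exists_minimal_le (fun L : Subgroup G => zpowers x ≤ 𝒩(L) ∧ ¬ zpowers (x ^ p ^ n) ≤ 𝒞(L))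
      (N := Q) ⟨le_normalizer_of_normal, fun h => hyQ (h (mem_zpowers _))⟩
  have hm' : ∀ M < L, zpowers x ≤ 𝒩(M) → zpowers (x ^ p ^ n) ≤ 𝒞(M) := fun M hM h => by
    by_contra h'; exact hM.ne (hm M ⟨h, h'⟩ hM.le)
  have hLc : (Nat.card L).Coprime p := hQc.coprime_dvd_left (card_dvd_of_le hLQ)
  obtain ⟨-, -, -, h1, -, h3, -⟩ := min_action hRL hBX
    (le_norm_of_le_cent (cent_comm (hBX.trans (le_cent_self inferInstance))))
    (H1.IsPGroup.coprime_card hx hLc) (Or.inl inferInstance) hL hm'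
  have hZ : ∀ M < L, zpowers x ≤ 𝒩(M) → M ≤ 𝒞(Q) := fun M hM h r hr => by
    have h4 : r ∈ zpowers x ⊔ center G := by
      rw [← hC _ (pow_mem (mem_zpowers x) _) hy1, mem_centralizer_singleton_iff]
      exact mem_cent.1 (hm' M hM h (mem_zpowers _)) r hr
    obtain ⟨a, ha, z, hz, rfl⟩ := mem_sup_of_normal_right.1 h4
    refine mem_of_pow_mem_of_coprime (m := Nat.card Q) (n := p ^ (n + 1)) ?_ ?_ (hQc.pow_right _)
    · rw [show (a * z) ^ Nat.card Q = 1 from
        congrArg Subtype.val (pow_card_eq_one' (x := (⟨_, hLQ (hM.le hr)⟩ : Q)))]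
      exact one_mem _
    · obtain ⟨j, rfl⟩ := mem_zpowers_iff.1 ha
      rw [Commute.mul_pow (mem_center_iff.1 hz _), ← zpow_natCast, ← zpow_mul, mul_comm, zpow_mul,
        zpow_natCast, hx1, one_zpow, one_mul]
      exact mem_cent.2 fun k _ => mem_center_iff.1 (pow_mem hz _) k
  have hab : ∀ M, zpowers x ≤ 𝒩(M) → M ≤ Q → M ≤ 𝒞(M) → x ^ p ^ n ∈ 𝒞(M) := fun M a b c =>
    exc_mem_cent hker hx1 hr (hQc.coprime_dvd_left (card_dvd_of_le b)) (a (mem_zpowers x)) c
  have hst : ∀ A : Subgroup G, A ≤ stabOn ρ ⊤ := fun A => by rw [stabOn_top]; exact le_top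
  have hLY : L ≤ 𝒩(kerOn ρ ⊤) := (hst L).trans (stabOn_le_norm_kerOn _)
  have hR : relC L (kerOn ρ ⊤) < L := lt_of_le_of_ne (relC_le _ _) fun e =>
    hL (zpowers_le.2 (hab L hRL hLQ (le_cent_iff_comm.2 (le_bot_iff.1 (commutator_le.2
      fun a ha b hb => by
        rw [← hker, ← kerOn_top]; exact ((mem_relC hLY).1 (e.ge ha)).2 b hb)))))
  have hRZ := hZ _ hR (le_norm_relC hLY hRL ((hst _).trans (stabOn_le_norm_kerOn _)))
  choose! l hl using hsc
  obtain ⟨a, b⟩ := hh_core0 (ρ := ρ) hx1 hLc (hRL (mem_zpowers x)) (hst L) (hst ⊤ trivial)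
    (fun z hz => ⟨l z, fun w _ => hl z (hZ _ h3 (le_norm_comm hRL hRL) hz) w⟩) (l := l) (X := ⊤)
    top_ne_bot (fun w _ => ⟨trivial, fun k hk => hl k (hRZ hk) w⟩) (hst _) (hst ⊤ trivial)
    (r := s) (fun w _ => by rw [hs]; rfl) hlt (by rw [h1]; exact hR.not_ge)
  refine ⟨b, ?_, fun h => hyQ (hab Q le_normalizer_of_normal le_rfl (le_cent_self h))⟩
  rw [h1, sup_eq_left.2 hR.le] at a
  obtain ⟨e, he⟩ := relIndex_eq_pow (hQ.to_le hLQ) (relC L (kerOn ρ ⊤))
  obtain ⟨m, -, hm⟩ := (Nat.dvd_prime_pow hq).1 (he ▸ a ▸ dvd_pow_self _ two_ne_zero)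
  exact ⟨m, hm⟩

end Cfsg.Agent.S4282
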