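import Cfsg.Statements.S4283
import Cfsg.Agent.H1.Prim
import Cfsg.Agent.H2.Frob
import Cfsg.Agent.H8.Elt
import Cfsg.Agent.H8.Cls

set_option autoImplicit false
open Cfsg

namespace Cfsg.Agent.S4283

/-- Let G be a finite group with centre Z and let K, H be abelian subgroups of G containing Z such that G/Z is a Frobenius group with complement H/Z and kernel K/Z. Then the conjugacy class sizes of G are exactly 1, [G : K] and [G : H], and these two indices are coprime. (This is the converse half of the characterization of finite groups whose conjugacy class sizes are exactly 1, m and n with m and n coprime.) -/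
theorem result {G : Type*} [Group G] [Finite G] (K H : Subgroup G) (hZK : Subgroup.center G ≤ K) (hZH : Subgroup.center G ≤ H) (hK : IsMulCommutative K) (hH : IsMulCommutative H) (hFrob : Cfsg.IsFrobeniusComplement (H.map (QuotientGroup.mk' (Subgroup.center G)))) (hker : Cfsg.frobeniusKernel (H.map (QuotientGroup.mk' (Subgroup.center G))) = (K.map (QuotientGroup.mk' (Subgroup.center G)) : Set (G ⧸ Subgroup.center G))) : Set.range (fun x : G => (Subgroup.centralizer ({x} : Set G)).index) = ({1, K.index, H.index} : Set ℕ) ∧ K.index.Coprime H.index := by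
  set Z := Subgroup.center G
  set f := QuotientGroup.mk' Z
  have hs : Function.Surjective f := QuotientGroup.mk'_surjective Z
  have hmem : ∀ {L : Subgroup G}, Z ≤ L → ∀ {x : G}, f x ∈ L.map f ↔ x ∈ L := fun {L} hL x => by
    rw [← Subgroup.mem_comap, QuotientGroup.comap_map_mk', sup_eq_right.2 hL]
  have hone : ∀ {x : G}, f x = 1 ↔ x ∈ Z := fun {x} => QuotientGroup.eq_one_iff x
  have hk : ∀ {x : G}, f x ∈ Cfsg.frobeniusKernel (H.map f) ↔ x ∈ K := fun {x} => by
    rw [hker]; exact hmem hZK
  have h1 : ∀ x ∈ K, x ∉ Z → Subgroup.centralizer ({x} : Set G) = K := fun x hx hxZ => by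
    refine le_antisymm (fun y hy => hk.1 ?_) fun y hy => Subgroup.mem_centralizer_singleton_iff.2
      (H1.isMulCommutative_iff'.1 hK y hy x hx)
    refine H2.mem_frobKernel_of_commute hFrob (hk.2 hx) (fun h => hxZ (hone.1 h)) ?_
    rw [← map_mul, ← map_mul, Subgroup.mem_centralizer_singleton_iff.1 hy]
  have h2 : ∀ x ∈ H, x ∉ Z → Subgroup.centralizer ({x} : Set G) = H := fun x hx hxZ => by
    refine le_antisymm (fun y hy => (hmem hZH).1 ?_) fun y hy =>
      Subgroup.mem_centralizer_singleton_iff.2 (H1.isMulCommutative_iff'.1 hH y hy x hx)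
    refine H2.frob_mem' hFrob (Subgroup.mem_map_of_mem f hx) (fun h => hxZ (hone.1 h)) ?_
    rw [← map_inv, ← map_mul, ← map_mul, H8.mem_centralizer_singleton_iff'.1 hy]
    exact Subgroup.mem_map_of_mem f hx
  constructor
  · ext n
    simp only [Set.mem_range, Set.mem_insert_iff, Set.mem_singleton_iff]
    constructor
    · rintro ⟨x, rfl⟩
      by_cases hx : x ∈ Z
      · exact Or.inl (H8.index_centralizer_eq_one_iff.2 hx)
      by_cases hxK : x ∈ K
      · exact Or.inr (Or.inl (by rw [h1 x hxK hx]))
      rw [← hk, H2.mem_frobKernel_iff] at hxK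
      push Not at hxK
      obtain ⟨-, g, hg⟩ := hxK
      obtain ⟨g, rfl⟩ := hs g
      rw [← map_inv, ← map_mul, ← map_mul, hmem hZH] at hg
      refine Or.inr (Or.inr ?_)
      rw [← H8.index_centralizer_conj x g⁻¹, inv_inv, h2 _ hg fun h => hx ?_]
      simpa [mul_assoc] using Subgroup.Normal.conj_mem inferInstance _ h g
    · rintro (rfl | rfl | rfl)
      · exact ⟨1, H8.index_centralizer_eq_one_iff.2 Z.one_mem⟩
      · obtain ⟨x, hx, hx1⟩ := H2.exists_ne_one_mem_frobKernel hFrob
        obtain ⟨x, rfl⟩ := hs x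
        exact ⟨x, by rw [h1 x (hk.1 hx) fun h => hx1 (hone.2 h)]⟩
      · obtain ⟨⟨_, x, hx, rfl⟩, hx1⟩ := Subgroup.ne_bot_iff_exists_ne_one.1 hFrob.1
        exact ⟨x, by rw [h2 x hx fun h => hx1 (Subtype.ext (hone.2 h))]⟩
  · have e : ∀ {L : Subgroup G}, Z ≤ L → (L.map f).index = L.index := fun {L} hL => by
      rw [← Subgroup.index_comap_of_surjective _ hs, QuotientGroup.comap_map_mk', sup_eq_right.2 hL]
    have h3 := H2.card_frobKernel hFrob
    rw [hker] at h3
    have h4 : (K.map f).index = Nat.card (H.map f) := by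
      have e1 := (K.map f).card_mul_index
      rw [← (H.map f).index_mul_card, ← h3] at e1
      exact Nat.eq_of_mul_eq_mul_left Nat.card_pos e1
    rw [← e hZK, ← e hZH, h4]
    exact H2.frob_coprime hFrob

end Cfsg.Agent.S4283
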