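import Cfsg.Statements.S4292
import Cfsg.Agent.H1.FrobCons3

set_option autoImplicit false
open Cfsg

namespace Cfsg.Agent.S4292

/-- Let A and B be nontrivial finite groups. Then the direct product A × B occurs as a Frobenius complement if and only if A and B both occur as Frobenius complements and the orders of A and B are coprime. -/
theorem result {A B : Type*} [Group A] [Finite A] [Nontrivial A] [Group B] [Finite B] [Nontrivial B] :
    (∃ (L : Type) (_ : Group L) (_ : Finite L) (H : Subgroup L), Cfsg.IsFrobeniusComplement H ∧ Nonempty ((A × B) ≃* H)) ↔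
    ((∃ (L : Type) (_ : Group L) (_ : Finite L) (H : Subgroup L), Cfsg.IsFrobeniusComplement H ∧ Nonempty (A ≃* H)) ∧
     (∃ (L : Type) (_ : Group L) (_ : Finite L) (H : Subgroup L), Cfsg.IsFrobeniusComplement H ∧ Nonempty (B ≃* H)) ∧
     (Nat.card A).Coprime (Nat.card B)) := by
  constructor
  · rintro ⟨L, _, _, H, hF, ⟨e⟩⟩
    obtain ⟨h1, h2⟩ := H1.FPF.of_frob hF
    have h3 := h1.of_injective e.toMonoidHom e.injective
    obtain ⟨L1, _, _, C1, a1, b1, -⟩ :=
      (h3.of_injective (MonoidHom.inl A B) (fun a b h => congrArg Prod.fst h)).exists_frob h2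
    obtain ⟨L2, _, _, C2, a2, b2, -⟩ :=
      (h3.of_injective (MonoidHom.inr A B) (fun a b h => congrArg Prod.snd h)).exists_frob h2
    exact ⟨⟨L1, inferInstance, inferInstance, C1, a1, b1⟩,
      ⟨L2, inferInstance, inferInstance, C2, a2, b2⟩, h3.coprime_of_prod h2⟩
  · rintro ⟨⟨L, _, _, H, hF, ⟨e⟩⟩, ⟨L', _, _, H', hF', ⟨e'⟩⟩, hc⟩
    obtain ⟨h1, h2⟩ := H1.FPF.of_frob hF
    obtain ⟨h1', h2'⟩ := H1.FPF.of_frob hF'
    obtain ⟨k, hk, h⟩ := H1.FPF.exists_prod (h1.of_injective e.toMonoidHom e.injective) h2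
      (h1'.of_injective e'.toMonoidHom e'.injective) h2' hc
    obtain ⟨L1, _, _, C1, a1, b1, -⟩ := h.exists_frob hk
    exact ⟨L1, inferInstance, inferInstance, C1, a1, b1⟩

end Cfsg.Agent.S4292
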