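import Cfsg.Statements.S4293
import Cfsg.Agent.H1.FrobCons

set_option autoImplicit false
open Cfsg

namespace Cfsg.Agent.S4293

/-- A nontrivial finite subgroup of the multiplicative group of a division ring occurs as a Frobenius complement of some finite Frobenius group. -/
theorem result {D : Type*} [DivisionRing D] (H : Subgroup Dˣ) [Finite H] (hH : H ≠ ⊥) :
    ∃ (L : Type) (_ : Group L) (_ : Finite L) (C : Subgroup L), Cfsg.IsFrobeniusComplement C ∧ Nonempty (H ≃* C) := by
  have : Nontrivial H := (Subgroup.nontrivial_iff_ne_bot H).2 hH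
  obtain ⟨m, hm, h⟩ := H1.exists_fpf_of_divisionRing ((Units.coeHom D).comp H.subtype)
    (Units.val_injective.comp Subtype.val_injective)
  obtain ⟨L, _, _, C, h1, h2, -⟩ := h.exists_frob hm
  exact ⟨L, inferInstance, inferInstance, C, h1, h2⟩

end Cfsg.Agent.S4293
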