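import Cfsg.Statements.S4294
import Cfsg.Agent.H25.FCS2
import Cfsg.Agent.H25.GaussId

set_option autoImplicit false
open Cfsg

namespace Cfsg.Agent.S4294

open H25 Subgroup
open scoped IsMulCommutative

theorem no_zeta {D : Type*} [DivisionRing D] [Algebra ℚ D] {i j : D} (F : QFr i j) {ζ s : D} {p : ℕ}
    (h1 : ζ ∈ QCen i j) (h2 : s ∈ QCen i j) (hc : ζ * s = s * ζ) (hp : p.Coprime 10)
    (hζ : ζ ^ p = 1) (hζ1 : ζ ≠ 1) (hs : s ^ 2 = 5) : False := by
  let K := Algebra.adjoin ℚ {ζ, s}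
  have : IsMulCommutative K := Algebra.isMulCommutative_adjoin ℚ (by
    rintro _ (rfl | rfl) _ (rfl | rfl)
    exacts [rfl, hc, hc.symm, rfl])
  have hK : K ≤ QCen i j := Algebra.adjoin_le (by rintro _ (rfl | rfl) <;> assumption)
  obtain ⟨x, y, w, e⟩ := neg_one_three_squares (K := K) (ζ := ⟨ζ, Algebra.subset_adjoin (by simp)⟩)
    (s := ⟨s, Algebra.subset_adjoin (by simp)⟩) hp (Subtype.ext hζ)
    (fun e => hζ1 (congrArg Subtype.val e)) (Subtype.ext hs)
  let ι := Subalgebra.inclusion hK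
  have h3 := F.qq_mul (ι 1) (ι x) (ι y) (ι w) (ι 1) (ι (-x)) (ι (-y)) (ι (-w))
  simp only [← map_mul, ← map_add, ← map_sub] at h3
  rw [show 1 * 1 - x * -x - y * -y - w * -w = 0 by linear_combination e,
    show 1 * -x + x * 1 + y * -w - w * -y = 0 by ring,
    show 1 * -y - x * -w + y * 1 + w * -x = 0 by ring,
    show 1 * -w + x * -y - y * -x + w * 1 = 0 by ring, map_zero, qq_sc, map_one] at h3
  rcases mul_eq_zero.1 h3 with h | h <;> exact one_ne_zero (F.re_eq_zero h)

theorem no_sixteen {D : Type*} [DivisionRing D] [Algebra ℚ D] {i j : D} (F : QFr i j)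
    (r s : QCen i j) (hr : r * r = 2) (hs : s * s = 5) (hc : s * r = -(r * s)) : False := by
  have h1 : (r + s + r * s) * (r + s + r * s) = -3 := by
    have e1 : ∀ x, s * (r * x) = -(r * (s * x)) := fun x => by
      rw [← mul_assoc, hc, neg_mul, mul_assoc]
    have e2 : ∀ x, r * (r * x) = 2 * x := fun x => by rw [← mul_assoc, hr]
    simp only [add_mul, mul_add, mul_assoc, hc, e1, e2, hr, hs, mul_neg]
    noncomm_ring
    norm_num
  generalize r + s + r * s = q at h1
  have h3 := F.qq_mul (-q) 1 1 1 q 1 1 1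
  rw [show -q * q - 1 * 1 - 1 * 1 - 1 * 1 = 0 by rw [neg_mul, h1]; norm_num,
    show -q * 1 + 1 * q + 1 * 1 - 1 * 1 = 0 by noncomm_ring,
    show -q * 1 - 1 * 1 + 1 * q + 1 * 1 = 0 by noncomm_ring,
    show -q * 1 + 1 * 1 - 1 * 1 + 1 * q = 0 by noncomm_ring, qq_sc] at h3
  rcases mul_eq_zero.1 h3 with h | h <;> exact one_ne_zero (F.eq_zero h).2.1

theorem comm_of_charP {D : Type*} [DivisionRing D] (p : ℕ) [Fact p.Prime] [CharP D p]
    (H : Subgroup Dˣ) [Finite H] (a b : H) : a * b = b * a := by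
  letI := ZMod.algebra D p
  let ρ : H →* D := (Units.coeHom D).comp H.subtype
  let K := Algebra.adjoin (ZMod p) (MonoidHom.mrange ρ : Set D)
  have : Module.Finite (ZMod p) (Subalgebra.toSubmodule K) := by
    rw [Algebra.adjoin_eq_span, Submonoid.closure_eq]
    exact Module.Finite.span_of_finite _ (Set.finite_range ρ)
  have : Finite K := Module.finite_of_finite (ZMod p) (M := Subalgebra.toSubmodule K)
  exact Subtype.ext (Units.ext (congrArg Subtype.val ((Finite.isDomain_to_isField K).mul_comm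
    ⟨ρ a, Algebra.subset_adjoin ⟨a, rfl⟩⟩ ⟨ρ b, Algebra.subset_adjoin ⟨b, rfl⟩⟩)))

theorem sqrt_five {D : Type*} [Ring D] [Algebra ℚ D] {ρ : SL25 →* D} (q : QF ρ) :
    (∀ g, Commute (ρ g) (ρ sy + ρ sy⁻¹)) ∧
      ρ (sy ^ 2) + ρ (sy ^ 2)⁻¹ = -1 - (ρ sy + ρ sy⁻¹) ∧ (2 * (ρ sy + ρ sy⁻¹) + 1) ^ 2 = 5 := by
  have e1 := q.three (g := sx) ((sl25_three _).2 (by decide))
  have e2 := q.three_inv (g := sx) ((sl25_three _).2 (by decide))
  have e3 := q.invol (g := -1) (by decide) sl25_neg_ne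
  have e4 : ρ (sx * sy) * ρ (sx * sy) = -1 := by rw [← map_mul, ← pow_two, sxy_pow, e3]
  have e5 : ρ sy + ρ sy⁻¹ = -(ρ (sx * sy) + ρ sx * ρ (sx * sy) + ρ (sx * sy) * ρ sx) := by
    nth_rw 1 [show sy = sx⁻¹ * (sx * sy) by group]
    rw [show sy⁻¹ = -1 * (sx * sy) * sx by decide, map_mul ρ sx⁻¹, map_mul ρ _ sx, map_mul ρ (-1),
      e2, e3]
    noncomm_ring
  have e6 := q.nrm sy (by decide)
  rw [orderOf_eq_prime sy_pow (by decide)] at e6
  simp only [Finset.sum_range_succ, Finset.range_zero, Finset.sum_empty] at e6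
  have e7 : ρ sy ^ 5 = 1 := by rw [← map_pow, sy_pow, map_one]
  refine ⟨fun g => ?_, ?_, ?_⟩
  · have : g ∈ Subgroup.closure {sx, sx * sy} := by
      rw [show Subgroup.closure {sx, sx * sy} = ⊤ by
        rw [eq_top_iff, ← sl25_top, closure_le]
        have e8 : sx ∈ Subgroup.closure {sx, sx * sy} := Subgroup.subset_closure (Or.inl rfl)
        rintro _ (rfl | rfl)
        · exact e8
        · exact (Subgroup.mul_mem_cancel_left _ e8).1 (Subgroup.subset_closure (Or.inr rfl))]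
      trivial
    induction this using closure_induction with
    | mem x hx =>
      rw [e5]
      have e8 : ∀ x, ρ sx * (ρ sx * x) = (-1 - ρ sx) * x := fun x => by rw [← mul_assoc, e1]
      have e9 : ∀ x, ρ (sx * sy) * (ρ (sx * sy) * x) = -x := fun x => by
        rw [← mul_assoc, e4, neg_one_mul]
      rcases hx with rfl | rfl <;>
      · simp only [Commute, SemiconjBy, mul_neg, neg_mul, mul_add, add_mul, mul_assoc, e1, e4, e8, e9]
        noncomm_ring
    | one => rw [map_one]; exact Commute.one_left _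
    | mul x y _ _ hx hy => rw [map_mul]; exact hx.mul_left hy
    | inv x _ hx =>
      rw [← mul_one x⁻¹, ← pow_orderOf_eq_one x, ← Nat.sub_add_cancel (orderOf_pos x), pow_succ',
        inv_mul_cancel_left, map_pow]
      exact hx.pow_left _
  · rw [show sy⁻¹ = sy ^ 4 by decide, show (sy ^ 2)⁻¹ = sy ^ 3 by decide, map_pow, map_pow, map_pow,
      ← sub_eq_zero, ← e6]
    noncomm_ring
  · rw [show sy⁻¹ = sy ^ 4 by decide, map_pow]
    generalize ρ sy = y at e6 e7
    have : (2 * (y + y ^ 4) + 1) ^ 2 = 4 * (0 + y ^ 0 + y ^ 1 + y ^ 2 + y ^ 3 + y ^ 4) +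
      (4 * y ^ 3 + 8) * (y ^ 5 - 1) + 5 := by noncomm_ring; norm_num
    rw [this, e6, e7]; simp

/-- A finite non-solvable subgroup of the multiplicative group of a division ring is isomorphic to the binary icosahedral group SL(2,5). -/
theorem result {D : Type*} [DivisionRing D] (H : Subgroup Dˣ) [Finite H] (hH : ¬ Group.IsSolvable H) :
    Nonempty (H ≃* Matrix.SpecialLinearGroup (Fin 2) (ZMod 5)) := by
  obtain ⟨p, hp⟩ := CharP.exists D
  rcases CharP.char_is_prime_or_zero D p with h | rfl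
  · have := Fact.mk h
    exact (hH (isSolvable_of_comm (comm_of_charP p H))).elim
  have := CharP.charP_to_charZero D
  let ρ : H →* D := (Units.coeHom D).comp H.subtype
  have hρ : Function.Injective ρ := Units.val_injective.comp H.subtype_injective
  have q : QF ρ := ⟨inferInstance, fun g hg => by
    have := mul_geom_sum (ρ g) (orderOf g)
    rw [← map_pow, pow_orderOf_eq_one, map_one, sub_self] at this
    exact (mul_eq_zero.1 this).resolve_left (sub_ne_zero.2 fun e => hg (hρ (e.trans ρ.map_one.symm)))⟩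
  have h : FC H := H1.exists_fpf_of_divisionRing ρ hρ
  obtain ⟨f, M, hf, hn, -, h1, h2, -, h3⟩ := h.nonsolvable_structure hH
  obtain ⟨t1, t2, t3⟩ := sqrt_five (q.comp f hf)
  simp only [MonoidHom.comp_apply] at t1 t2 t3
  have hT : ∀ c ∈ centralizer (f.range : Set H), Commute (ρ c) (ρ (f sy) + ρ (f sy⁻¹)) :=
    fun c hc => ((show Commute c _ from (hc _ ⟨_, rfl⟩).symm).map ρ).add_right
      ((show Commute c _ from (hc _ ⟨_, rfl⟩).symm).map ρ)
  set T := ρ (f sy) + ρ (f sy⁻¹)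
  have cs : ∀ x : D, Commute x T → Commute x (2 * T + 1) := fun x hx =>
    ((Commute.ofNat_right x 2).mul_right hx).add_right (Commute.one_right x)
  have z : ρ (f (-1)) = -1 := (q.comp f hf).invol (g := -1) (by decide) sl25_neg_ne
  have hM : M = ⊥ := by
    refine eq_bot_iff.2 fun m hm => by_contra fun hm1 => ?_
    have hc : m ∈ centralizer (f.range : Set H) := h1 ▸ mem_sup_right hm
    obtain ⟨u, v, e1, e2, e3⟩ : ∃ u v : SL25, u * u = -1 ∧ v * v = -1 ∧ v * u = -1 * (u * v) :=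
      ⟨mkSL 2 0 0 3 (by decide), mkSL 0 1 (-1) 0 (by decide), by decide⟩
    have F : QFr (ρ (f u)) (ρ (f v)) :=
      ⟨by rw [← map_mul, ← map_mul, e1, z], by rw [← map_mul, ← map_mul, e2, z],
        by rw [← neg_one_mul, ← z]; simp only [← map_mul, e3]⟩
    refine no_zeta F (ζ := ρ m) (p := orderOf m) ?_ ?_ (cs _ (hT m hc))
      ((h3.coprime_dvd_left (orderOf_dvd_natCard _ hm)).coprime_dvd_right (by norm_num))
      (by rw [← map_pow, pow_orderOf_eq_one, map_one]) (fun e => hm1 (q.eq_one e)) t3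
    · rintro _ (rfl | rfl) <;> exact (show Commute _ m from hc _ ⟨_, rfl⟩).map ρ
    · rintro _ (rfl | rfl) <;> exact cs _ (t1 _)
  rw [hM, sup_bot_eq] at h1 h2
  by_cases h4 : f.range.index = 1
  · exact ⟨(MulEquiv.ofBijective f ⟨hf, MonoidHom.range_eq_top.1 (index_eq_one.1 h4)⟩).symm⟩
  exfalso
  have h5 : f.range.index = 2 := by
    have : f.range.index ≠ 0 := index_ne_zero_of_finite
    omega
  have h6 : Nat.card H = 240 := by
    rw [← f.range.card_mul_index, h5, ← Nat.card_congr (MonoidHom.ofInjective hf).toEquiv, card_sl25]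
  have z2 : orderOf (f (-1)) = 2 :=
    (orderOf_injective f hf _).trans (orderOf_eq_prime (by decide) sl25_neg_ne)
  obtain ⟨g, hg⟩ : ∃ g : H, g * f sy * g⁻¹ = f (sy ^ 2) := by
    obtain ⟨ι, hι⟩ := exists_aut_sl25_hom
    let e := MonoidHom.ofInjective hf
    let φ := ι.comp ((MulAut.congr e.symm).toMonoidHom.comp (MulAut.conjNormal (H := f.range)))
    have hφ : φ.ker = zpowers (f (-1)) := by
      rw [h1, ← ker_conjNormal, MonoidHom.ker_comp_of_injective _ _ hι,
        MonoidHom.ker_comp_of_injective _ _ (MulAut.congr e.symm).injective]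
    have h7 := φ.ker.card_mul_index
    rw [index_ker, hφ, Nat.card_zpowers, z2, h6] at h7
    have h8 : φ.range = ⊤ := eq_top_of_le_card _ (by
      rw [Nat.card_perm, Nat.card_fin]; simp only [Nat.factorial]; omega)
    have key : ∀ σ : Equiv.Perm (Fin 5), σ ^ 5 = 1 → ∃ τ : Equiv.Perm (Fin 5),
      τ * σ * τ⁻¹ = σ ^ 2 := by decide +kernel
    obtain ⟨τ, hτ⟩ := key (φ (f sy)) (by rw [← map_pow, ← map_pow, sy_pow, map_one, map_one])
    obtain ⟨g, rfl⟩ := MonoidHom.range_eq_top.1 h8 τ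
    refine ⟨g, ?_⟩
    have h9 : g * f sy * g⁻¹ * (f (sy ^ 2))⁻¹ ∈ φ.ker := by
      rw [MonoidHom.mem_ker, map_mul, map_mul, map_mul, map_inv, map_inv, hτ, map_pow, map_pow,
        mul_inv_cancel]
    rcases mem_range_inf_centralizer_sl25 f hf (mul_mem (hn.conj_mem _ ⟨_, rfl⟩ g)
      (inv_mem ⟨_, rfl⟩)) (h1 ▸ hφ ▸ h9) with e | e
    · exact mul_inv_eq_one.1 e
    · have := congrArg (· ^ 5) (mul_inv_eq_iff_eq_mul.1 e)
      simp only [conj_pow, ← map_mul, ← map_pow, sy_pow, map_one, mul_one, mul_inv_cancel] at this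
      exact absurd (hf ((map_one f).trans this)) (by decide)
  have h7 : ρ g * (2 * T + 1) = -((2 * T + 1) * ρ g) := by
    have e1 : ρ g * T = (-1 - T) * ρ g := by
      rw [← t2, map_inv f (sy ^ 2), ← hg]
      simp only [T, mul_add, add_mul, ← map_mul ρ]
      rw [map_inv f]
      congr 2 <;> group
    rw [mul_add, ← mul_assoc, (Commute.ofNat_right _ 2).eq, mul_assoc, e1]
    noncomm_ring
  have h8 : ∀ a : H, a ∉ f.range → ρ a * (2 * T + 1) = -((2 * T + 1) * ρ a) := fun a ha => by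
    have hg' : g ∉ f.range := by
      rintro ⟨l, rfl⟩
      have e1 : (2 : D) * ((2 * T + 1) * ρ (f l)) = 0 := by
        rw [two_mul (_ * _)]; nth_rw 1 [← (cs _ (t1 l)).eq, h7]; simp
      rw [mul_eq_zero, mul_eq_zero] at e1
      rcases e1 with e | e | e
      · exact two_ne_zero e
      · rw [e] at t3; norm_num at t3
      · exact Units.ne_zero _ e
    obtain ⟨l, hl⟩ := (mul_mem_iff_of_index_two h5).2 (iff_of_false (inv_mem_iff.not.2 hg') ha)
    rw [eq_inv_mul_iff_mul_eq] at hl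
    rw [← hl, map_mul, mul_assoc, (cs _ (t1 l)).eq, ← mul_assoc, h7, neg_mul, mul_assoc]
  obtain ⟨P⟩ : Nonempty (Sylow 2 H) := inferInstance
  have hP : Nat.card P = 16 := by
    rw [P.card_eq_multiplicity, h6, show 240 = 2 ^ 4 * 15 from rfl,
      Nat.factorization_mul (by norm_num) (by norm_num), Nat.prime_two.factorization_pow]
    simp [Nat.factorization_eq_zero_of_not_dvd]
  have h9 : ∀ a : H, a ^ 2 ∈ f.range := sq_mem_of_index_two h5
  have h10 : ∀ s : SL25, s ^ 8 = 1 → s ^ 4 = 1 := sl25_cases _ (by decide +kernel)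
  rcases h.pgroup P.isPGroup' with e | ⟨-, n, ⟨e⟩⟩
  · obtain ⟨a, ha⟩ := e.exists_ofOrder_eq_natCard
    obtain ⟨s, hs⟩ := h9 a
    rw [hP, ← orderOf_coe] at ha
    have := congrArg f (h10 s (hf (by
      rw [map_pow, hs, ← pow_mul, map_one]; exact orderOf_dvd_iff_pow_eq_one.1 (by rw [ha]))))
    rw [map_pow, hs, ← pow_mul, map_one, ← orderOf_dvd_iff_pow_eq_one, ha] at this
    omega
  have hn4 : 2 ^ n = 4 := by
    have := Nat.card_congr e.toEquiv
    rw [hP, Nat.card_eq_fintype_card, QuaternionGroup.card] at this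
    omega
  obtain ⟨a, b, -, -, a1, a2, a3, -⟩ := H6.exists_gens_of_quaternion_subgroup e
  rw [hn4] at a1 a2
  have a4 : a ∉ f.range := by
    rintro ⟨s, rfl⟩
    have := congrArg f (h10 s (hf (by
      rw [map_pow, map_one]; exact orderOf_dvd_iff_pow_eq_one.1 (by rw [a1]))))
    rw [map_pow, map_one, ← orderOf_dvd_iff_pow_eq_one, a1] at this
    omega
  have a5 : ρ a ^ 4 = -1 := by
    rw [← map_pow]
    exact q.invol (by rw [← pow_mul, show 4 * 2 = orderOf a from a1.symm, pow_orderOf_eq_one])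
      (by rw [Ne, ← orderOf_dvd_iff_pow_eq_one, a1]; omega)
  obtain ⟨j, j1, j2, j3⟩ : ∃ j ∈ f.range, j * j = a ^ 4 ∧ j * a = a⁻¹ * j := by
    rw [mul_inv_eq_iff_eq_mul] at a3
    by_cases hb : b ∈ f.range
    · exact ⟨b, hb, a2, a3⟩
    · exact ⟨a * b, (mul_mem_iff_of_index_two h5).2 (iff_of_false a4 hb),
        by rw [mul_assoc, ← mul_assoc b, a3, mul_assoc, a2, mul_inv_cancel_left],
        by rw [mul_assoc, a3, mul_inv_cancel_left, inv_mul_cancel_left]⟩
  have j4 : j * a⁻¹ = a * j := by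
    rw [mul_inv_eq_iff_eq_mul, mul_assoc, j3, mul_inv_cancel_left]
  have F : QFr (ρ (a ^ 2)) (ρ j) :=
    ⟨by rw [← map_mul, ← pow_add, map_pow, a5], by rw [← map_mul, j2, map_pow, a5], by
      rw [← neg_one_mul, ← a5, ← map_pow, ← map_mul, ← map_mul, ← map_mul, pow_two, ← mul_assoc, j3,
        mul_assoc, j3, ← mul_assoc, ← mul_assoc]
      congr 2
      rw [eq_comm, ← mul_inv_eq_one, ← pow_orderOf_eq_one a, a1]; group⟩
  refine no_sixteen F ⟨ρ a + ρ a⁻¹, ?_⟩ ⟨2 * T + 1, ?_⟩ (Subtype.ext ?_) (Subtype.ext ?_)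
    (Subtype.ext ?_)
  · rintro _ (rfl | rfl)
    · exact (((Commute.refl a).pow_left 2).map ρ).add_right
        (((Commute.refl a).pow_left 2).inv_right.map ρ)
    · rw [mul_add, add_mul, ← map_mul, ← map_mul, ← map_mul, ← map_mul, j3, j4, add_comm]
  · obtain ⟨s, hs⟩ := h9 a
    obtain ⟨t, rfl⟩ := j1
    rintro _ (rfl | rfl)
    exacts [hs ▸ cs _ (t1 s), cs _ (t1 t)]
  · have := q.tr_four (g := a * a) (by rw [← pow_two, orderOf_pow' _ two_ne_zero, a1]; rfl)
    change (ρ a + ρ a⁻¹) * (ρ a + ρ a⁻¹) = 2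
    rw [mul_inv_rev] at this
    simp only [mul_add, add_mul, ← map_mul, mul_inv_cancel, inv_mul_cancel, map_one]
    rw [← one_add_one_eq_two, ← zero_add (1 + 1 : D), ← this]; abel
  · exact (pow_two _).symm.trans t3
  · change (2 * T + 1) * (ρ a + ρ a⁻¹) = -((ρ a + ρ a⁻¹) * (2 * T + 1))
    rw [add_mul (ρ a), h8 a a4, h8 _ (inv_mem_iff.not.2 a4), mul_add (2 * T + 1)]
    abel

end Cfsg.Agent.S4294
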