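import Cfsg.Statements.S4295
import Cfsg.Agent.H1.FrobCons2

set_option autoImplicit false
open Cfsg

namespace Cfsg.Agent.S4295

/-- For a natural number m the following are equivalent: (a) some finite group has a Frobenius complement isomorphic to the quaternion group of order 8 whose Frobenius kernel (the identity together with the elements lying in no conjugate of the complement) has exactly m elements; (b) m is an odd perfect square greater than 1. -/
theorem result (m : ℕ) :
    (∃ (L : Type) (_ : Group L) (_ : Finite L) (H : Subgroup L), Cfsg.IsFrobeniusComplement H ∧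
        Nonempty (H ≃* QuaternionGroup 2) ∧ Nat.card (Cfsg.frobeniusKernel H) = m) ↔
    (Odd m ∧ IsSquare m ∧ 1 < m) := by
  constructor
  · rintro ⟨L, _, _, H, hF, ⟨e⟩, rfl⟩
    obtain ⟨h1, h2⟩ := H1.FPF.of_frob hF
    have h3 := h1.of_injective e.symm.toMonoidHom e.symm.injective
    obtain ⟨h4, h5⟩ := h3.odd_isSquare (x := .a 1) (y := .xa 0) (z := .a 2) (by decide) (by decide)
      (by decide)
    exact ⟨h4, h5, h2⟩
  · rintro ⟨h1, ⟨k, rfl⟩, h3⟩
    obtain ⟨L, _, _, C, h1, ⟨e⟩, h2⟩ :=
      (H1.fpf_quaternion_two_sq k (Nat.odd_mul.1 h1).1).exists_frob h3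
    exact ⟨L, inferInstance, inferInstance, C, h1, ⟨e.symm⟩, h2⟩

end Cfsg.Agent.S4295
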