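import Cfsg.Statements.S4296
import Cfsg.Agent.H1.FrobCons2

set_option autoImplicit false
open Cfsg

namespace Cfsg.Agent.S4296

/-- Let H be a Frobenius complement in a finite group, and suppose some Sylow subgroup of H is not cyclic. Then the number of elements of the Frobenius kernel (the identity together with the elements lying in no conjugate of H) is an odd perfect square. -/
theorem result {L : Type*} [Group L] [Finite L] (H : Subgroup L) (hF : Cfsg.IsFrobeniusComplement H)
    (hZ : ∃ (p : ℕ) (_ : Fact p.Prime) (P : Sylow p H), ¬ IsCyclic P) :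
    Odd (Nat.card (Cfsg.frobeniusKernel H)) ∧ IsSquare (Nat.card (Cfsg.frobeniusKernel H)) := by
  obtain ⟨p, _, P, hP⟩ := hZ
  obtain ⟨N, hN, hn, hc⟩ := Cfsg.Agent.S0035.result H hF
  obtain ⟨h1, h2⟩ := H1.FPF.of_frob hF
  let e := (P : Subgroup H).equivMapOfInjective H.subtype H.subtype_injective
  have hN0 : N ≠ ⊥ := by
    rintro rfl
    rw [← hN] at h2
    simp at h2
  rcases H2.sylow_cyclic_or_quaternion_of_fpf (P := (P : Subgroup H).map H.subtype) hN0
    (by rw [Subgroup.normalizer_eq_top]; exact le_top) (by
      rintro _ ⟨a, ha, rfl⟩ ha1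
      rw [eq_bot_iff]
      rintro v ⟨hv, hv2⟩
      by_contra hv1
      have hvk : v ∈ Cfsg.frobeniusKernel H := by rw [← hN]; exact hv
      have h3 := H2.mem_frobKernel_of_commute hF hvk hv1
        (Subgroup.mem_centralizer_singleton_iff.1 hv2)
      exact ha1 (H2.eq_one_of_mem_frobKernel h3 1 (by simp))) (P.isPGroup'.map _) with h | ⟨-, n, ⟨f⟩⟩
  · exact absurd (isCyclic_of_surjective e.symm e.symm.surjective) hP
  · have h3 : H1.FPF (QuaternionGroup (2 ^ n)) _ :=
      h1.of_injective ((P : Subgroup H).subtype.comp (e.trans f).symm.toMonoidHom)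
        (Subtype.val_injective.comp (e.trans f).symm.injective)
    rcases n with _ | n
    · have : IsCyclic (QuaternionGroup (2 ^ 0)) := QuaternionGroup.quaternionGroup_one_isCyclic
      exact absurd (isCyclic_of_surjective (e.trans f).symm (e.trans f).symm.surjective) hP
    · refine h3.odd_isSquare (x := .a (2 ^ n : ℕ)) (y := .xa 0) (z := .a (2 ^ (n + 1) : ℕ)) ?_ ?_ ?_
      · intro h0
        have h4 : ((2 ^ (n + 1) : ℕ) : ZMod (2 * 2 ^ (n + 1))) = 0 := QuaternionGroup.a.inj h0
        rw [ZMod.natCast_eq_zero_iff] at h4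
        have := Nat.le_of_dvd (by positivity) h4
        have : 0 < 2 ^ (n + 1) := by positivity
        omega
      · rw [QuaternionGroup.a_mul_a, ← Nat.cast_add, ← two_mul, ZMod.natCast_self]; rfl
      · simp only [QuaternionGroup.a_mul_xa, QuaternionGroup.xa_mul_a]
        congr 1
        push_cast
        ring

end Cfsg.Agent.S4296
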