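import Cfsg.Statements.S4297
import Cfsg.Agent.H1.FrobCons2

set_option autoImplicit false
open Cfsg

namespace Cfsg.Agent.S4297

/-- For every n ≥ 2 the dicyclic group of order 4n (generated by an element a of order 2n and an element x with x² = aⁿ and x a x⁻¹ = a⁻¹) occurs as a Frobenius complement of some finite Frobenius group. -/
theorem result (n : ℕ) (hn : 2 ≤ n) :
    ∃ (L : Type) (_ : Group L) (_ : Finite L) (H : Subgroup L), Cfsg.IsFrobeniusComplement H ∧ Nonempty (H ≃* QuaternionGroup n) := by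
  have : NeZero n := ⟨by omega⟩
  obtain ⟨m, hm, h⟩ := H1.exists_fpf_quaternion (n := n) (by omega)
  obtain ⟨L, _, _, C, h1, ⟨e⟩, -⟩ := h.exists_frob hm
  exact ⟨L, inferInstance, inferInstance, C, h1, ⟨e.symm⟩⟩

end Cfsg.Agent.S4297
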