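import Cfsg.Statements.S4298
import Cfsg.Agent.H1.FrobCons

set_option autoImplicit false
open Cfsg

namespace Cfsg.Agent.S4298

def tab : Fin 3 → Fin 3 → Fin 3 → Fin 3 → ZMod 5 × ZMod 5 × ZMod 5 × ZMod 5
  | 0, 1, 2, 0 => (3, 0, 1, 2)
  | 0, 1, 2, 1 => (2, 2, 1, 4)
  | 0, 1, 2, 2 => (0, 3, 3, 4)
  | 0, 2, 1, 0 => (2, 0, 4, 3)
  | 0, 2, 1, 1 => (0, 2, 2, 1)
  | 0, 2, 1, 2 => (3, 3, 4, 1)
  | 1, 0, 0, 1 => (1, 0, 0, 1)
  | 1, 0, 1, 1 => (2, 1, 3, 2)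
  | 1, 0, 2, 1 => (2, 4, 2, 2)
  | 1, 1, 0, 1 => (0, 1, 4, 4)
  | 1, 1, 1, 2 => (4, 1, 3, 1)
  | 1, 1, 2, 0 => (1, 3, 3, 0)
  | 1, 2, 0, 1 => (4, 4, 1, 0)
  | 1, 2, 1, 0 => (4, 3, 4, 2)
  | 1, 2, 2, 2 => (2, 3, 0, 3)
  | 2, 0, 0, 2 => (4, 0, 0, 4)
  | 2, 0, 1, 2 => (3, 1, 3, 3)
  | 2, 0, 2, 2 => (3, 4, 2, 3)
  | 2, 1, 0, 2 => (1, 1, 4, 0)
  | 2, 1, 1, 1 => (3, 2, 0, 2)
  | 2, 1, 2, 0 => (1, 2, 1, 3)
  | 2, 2, 0, 2 => (0, 4, 1, 1)
  | 2, 2, 1, 0 => (4, 2, 2, 0)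
  | 2, 2, 2, 1 => (1, 4, 2, 4)
  | _, _, _, _ => (0, 0, 0, 0)

def qmul (A B : ZMod 5 × ZMod 5 × ZMod 5 × ZMod 5) : ZMod 5 × ZMod 5 × ZMod 5 × ZMod 5 :=
  (A.1 * B.1 + A.2.1 * B.2.2.1, A.1 * B.2.1 + A.2.1 * B.2.2.2,
    A.2.2.1 * B.1 + A.2.2.2 * B.2.2.1, A.2.2.1 * B.2.1 + A.2.2.2 * B.2.2.2)

theorem tab_mul : ∀ a b c d : ZMod 3, a * d - b * c = 1 → ∀ a' b' c' d' : ZMod 3,
    a' * d' - b' * c' = 1 →
    tab (a * a' + b * c') (a * b' + b * d') (c * a' + d * c') (c * b' + d * d') =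
      qmul (tab a b c d) (tab a' b' c' d') := by
  decide +kernel

set_option synthInstance.maxSize 2000 in
set_option synthInstance.maxHeartbeats 200000 in
theorem tab_fpf : ∀ a b c d : ZMod 3, a * d - b * c = 1 → ∀ u v : ZMod 5,
    (tab a b c d).1 * u + (tab a b c d).2.1 * v = u →
    (tab a b c d).2.2.1 * u + (tab a b c d).2.2.2 * v = v →
    (u = 0 ∧ v = 0) ∨ (a = 1 ∧ b = 0 ∧ c = 0 ∧ d = 1) := by
  decide +kernel

def act (A : ZMod 5 × ZMod 5 × ZMod 5 × ZMod 5) : Module.End (ZMod 5) (ZMod 5 × ZMod 5) :=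
  LinearMap.prod (A.1 • LinearMap.fst _ _ _ + A.2.1 • LinearMap.snd _ _ _)
    (A.2.2.1 • LinearMap.fst _ _ _ + A.2.2.2 • LinearMap.snd _ _ _)

theorem act_mul (A B : ZMod 5 × ZMod 5 × ZMod 5 × ZMod 5) : act (qmul A B) = act A * act B := by
  apply LinearMap.ext; rintro ⟨u, v⟩; simp [act, qmul]; constructor <;> ring

/-- The group SL(2,3) of order 24 (the binary tetrahedral group) occurs as a Frobenius complement of some finite Frobenius group. -/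
theorem result :
    ∃ (L : Type) (_ : Group L) (_ : Finite L) (H : Subgroup L), Cfsg.IsFrobeniusComplement H ∧ Nonempty (H ≃* Matrix.SpecialLinearGroup (Fin 2) (ZMod 3)) := by
  have hdet : ∀ g : Matrix.SpecialLinearGroup (Fin 2) (ZMod 3),
      g 0 0 * g 1 1 - g 0 1 * g 1 0 = 1 := fun g => by
    have := g.det_coe
    rwa [Matrix.det_fin_two] at this
  let ρ : Representation (ZMod 5) (Matrix.SpecialLinearGroup (Fin 2) (ZMod 3)) (ZMod 5 × ZMod 5) :=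
    { toFun := fun g => act (tab (g 0 0) (g 0 1) (g 1 0) (g 1 1))
      map_one' := by
        change act (tab 1 0 0 1) = 1
        apply LinearMap.ext; rintro ⟨u, v⟩; simp [act, tab]
      map_mul' := fun g h => by
        rw [← act_mul, ← tab_mul _ _ _ _ (hdet g) _ _ _ _ (hdet h)]
        simp [Matrix.mul_apply, Fin.sum_univ_two] }
  have h := H1.FPF.of_rep ρ (by
    rintro g hg ⟨u, v⟩ hv
    have h1 := congrArg Prod.fst hv
    have h2 := congrArg Prod.snd hv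
    rcases tab_fpf _ _ _ _ (hdet g) u v (by simpa [ρ, act] using h1) (by simpa [ρ, act] using h2)
      with ⟨rfl, rfl⟩ | ⟨a, b, c, d⟩
    · rfl
    · refine absurd ?_ hg
      ext i j
      fin_cases i <;> fin_cases j <;> simp [a, b, c, d])
  have : Nontrivial (Matrix.SpecialLinearGroup (Fin 2) (ZMod 3)) :=
    ⟨⟨1, -1, fun h => by
      have := congrArg (fun g : Matrix.SpecialLinearGroup (Fin 2) (ZMod 3) => g 0 0) h
      revert this; simp; decide⟩⟩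
  obtain ⟨L, _, _, C, h1, ⟨e⟩, -⟩ := h.exists_frob (by simp)
  exact ⟨L, inferInstance, inferInstance, C, h1, ⟨e.symm⟩⟩

end Cfsg.Agent.S4298
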