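import Cfsg.Statements.S4299
import Cfsg.Agent.H1.FrobCons
import Cfsg.Agent.H7.PGrp

set_option autoImplicit false
open Cfsg

namespace Cfsg.Agent.S4299

/-- Every nontrivial finite cyclic group occurs as a Frobenius complement of some finite Frobenius group. -/
theorem result {C : Type*} [Group C] [Finite C] [IsCyclic C] [Nontrivial C] :
    ∃ (L : Type) (_ : Group L) (_ : Finite L) (H : Subgroup L), Cfsg.IsFrobeniusComplement H ∧ Nonempty (C ≃* H) := by
  obtain ⟨f, hf⟩ := H7.exists_injective_hom_complex_units C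
  obtain ⟨m, hm, h⟩ := H1.exists_fpf_of_divisionRing ((Units.coeHom ℂ).comp f)
    (Units.val_injective.comp hf)
  obtain ⟨L, _, _, C, h1, h2, -⟩ := h.exists_frob hm
  exact ⟨L, inferInstance, inferInstance, C, h1, h2⟩

end Cfsg.Agent.S4299
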