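import Cfsg.Statements.S4300
import Cfsg.Agent.H25.Fix

set_option autoImplicit false
open Cfsg

namespace Cfsg.Agent.S4300

/-- Let G act faithfully and primitively on a set X, and suppose the stabilizer of some point is a simple group. Then either G is simple, or G has a normal subgroup, neither trivial nor the whole group, that acts regularly on X (transitively with trivial point stabilizers). -/
theorem result {G : Type*} [Group G] {X : Type*} [MulAction G X] [FaithfulSMul G X]
    (hprim : MulAction.IsPreprimitive G X) (x : X) (hsimple : IsSimpleGroup (MulAction.stabilizer G x)) :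
    IsSimpleGroup G ∨ ∃ N : Subgroup G, N.Normal ∧ N ≠ ⊥ ∧ N ≠ ⊤ ∧
      MulAction.IsPretransitive N X ∧ ∀ y : X, MulAction.stabilizer N y = ⊥ := by
  by_cases h : ∀ N : Subgroup G, N.Normal → N = ⊥ ∨ N = ⊤
  · have := hsimple.toNontrivial
    have : Nontrivial G := (MulAction.stabilizer G x).subtype_injective.nontrivial
    exact Or.inl ⟨h⟩
  push Not at h
  obtain ⟨N, hN, h1, h2⟩ := h
  have ht := H25.normal_transitive_of_primitive (α := X) N h1
  refine Or.inr ⟨N, hN, h1, h2, ht, fun y => ?_⟩
  rcases hsimple.eq_bot_or_eq_top_of_normal (N.subgroupOf (MulAction.stabilizer G x))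
    inferInstance with h | h
  · refine eq_bot_iff.2 fun n hn => ?_
    obtain ⟨g, rfl⟩ := MulAction.exists_smul_eq G x y
    have h3 : g⁻¹ * n * g ∈ MulAction.stabilizer G x := by
      rw [MulAction.mem_stabilizer_iff, mul_smul, mul_smul, inv_smul_eq_iff]
      exact hn
    have h4 : (⟨_, h3⟩ : MulAction.stabilizer G x) ∈ N.subgroupOf (MulAction.stabilizer G x) :=
      hN.conj_mem' _ n.2 g
    rw [h, Subgroup.mem_bot, Subtype.ext_iff] at h4
    refine Subgroup.mem_bot.2 (Subtype.ext ?_)
    calc (n : G) = g * (g⁻¹ * n * g) * g⁻¹ := by group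
      _ = 1 := by rw [show g⁻¹ * n * g = 1 from h4]; group
  · refine (h2 (eq_top_iff.2 fun g _ => ?_)).elim
    obtain ⟨n, hn⟩ := MulAction.exists_smul_eq N x (g • x)
    rw [← mul_inv_cancel_left (n : G) g]
    refine N.mul_mem n.2 (Subgroup.subgroupOf_eq_top.1 h ?_)
    rw [MulAction.mem_stabilizer_iff, mul_smul, inv_smul_eq_iff]
    exact hn.symm

end Cfsg.Agent.S4300
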