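import Cfsg.Statements.S4301

set_option autoImplicit false
open Cfsg

namespace Cfsg.Agent.S4301

/-- One-point extension of a multiply transitive group. Let X be a set and G a group of permutations of Option X (the set X with one extra point ∗ = none) all of whose elements fix ∗, such that G is k-transitive on the points of X for some k ≥ 2, X having at least k points. Suppose a permutation h of Option X and an element g of G satisfy: h interchanges ∗ with a point x of X and fixes a point y of X; g interchanges x and y; (g h)³ and h² lie in G; and for every f in G fixing x, the product h f h lies in G and fixes x. Then an element of the group generated by G and h fixes ∗ exactly when it lies in G, and that group acts (k+1)-transitively on Option X. -/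
theorem result {X : Type*} (G : Subgroup (Equiv.Perm (Option X))) (hfix : ∀ f ∈ G, f none = none)
    (k : ℕ) (hk : 2 ≤ k) (hkX : Nonempty (Fin k ↪ X))
    (htrans : ∀ a b : Fin k ↪ X, ∃ f ∈ G, ∀ i, f (some (a i)) = some (b i))
    (h g : Equiv.Perm (Option X)) (hg : g ∈ G) (x y : X)
    (h1 : h none = some x) (h2 : h (some x) = none) (h3 : h (some y) = some y)
    (h4 : g (some x) = some y) (h5 : g (some y) = some x)
    (h6 : (g * h) ^ 3 ∈ G) (h7 : h ^ 2 ∈ G)
    (h8 : ∀ f ∈ G, f (some x) = some x → h * f * h ∈ G ∧ (h * f * h) (some x) = some x) :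
    (∀ f ∈ Subgroup.closure ((G : Set (Equiv.Perm (Option X))) ∪ {h}), f none = none ↔ f ∈ G) ∧
      MulAction.IsMultiplyPretransitive (Subgroup.closure ((G : Set (Equiv.Perm (Option X))) ∪ {h})) (Option X) (k + 1) := by
  have hxy : x ≠ y := by
    rintro rfl
    rw [h2] at h3
    exact Option.some_ne_none _ h3.symm
  have two : ∀ a b c d : X, a ≠ b → c ≠ d → ∃ f ∈ G, f (some a) = some c ∧ f (some b) = some d := by
    obtain ⟨e⟩ := hkX
    have ext : ∀ a b : X, a ≠ b → ∃ e : Fin k ↪ X, e ⟨0, by omega⟩ = a ∧ e ⟨1, by omega⟩ = b := by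
      intro a b hab
      obtain ⟨σ, hσ⟩ := Equiv.Perm.exists_smul_eq_embedding ((Fin.castLEEmb hk).trans e)
        (⟨![a, b], fun i j hij => by fin_cases i <;> fin_cases j <;> simp_all⟩ : Fin 2 ↪ X)
      exact ⟨σ • e, DFunLike.congr_fun hσ 0, DFunLike.congr_fun hσ 1⟩
    intro a b c d hab hcd
    obtain ⟨e1, rfl, rfl⟩ := ext a b hab
    obtain ⟨e2, rfl, rfl⟩ := ext c d hcd
    obtain ⟨f, hf, h⟩ := htrans e1 e2
    exact ⟨f, hf, h _, h _⟩
  have hsome : ∀ f ∈ G, ∀ a : X, ∃ b : X, f (some a) = some b := fun f hf a =>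
    Option.ne_none_iff_exists'.1 fun e =>
      Option.some_ne_none _ (f.injective (e.trans (hfix f hf).symm))
  let S : Set (Equiv.Perm (Option X)) := {f | f ∈ G ∨ ∃ a ∈ G, ∃ b ∈ G, f = a * h * b}
  have l1 : ∀ a ∈ G, ∀ t ∈ S, a * t ∈ S := by
    rintro a ha t (ht | ⟨b, hb, c, hc, rfl⟩)
    · exact Or.inl (G.mul_mem ha ht)
    · exact Or.inr ⟨a * b, G.mul_mem ha hb, c, hc, by group⟩
  have l2 : ∀ t ∈ S, h * t ∈ S := by
    rintro t (ht | ⟨b, hb, c, hc, rfl⟩)
    · exact Or.inr ⟨1, G.one_mem, t, ht, by group⟩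
    by_cases hbx : b (some x) = some x
    · exact Or.inl (by simpa [mul_assoc] using G.mul_mem (h8 b hb hbx).1 hc)
    obtain ⟨z, hz⟩ := hsome b hb x
    obtain ⟨a, ha, ha1, ha2⟩ := two x y x z hxy fun e => hbx (e ▸ hz)
    have hd : (g⁻¹ * a⁻¹ * b) (some x) = some x := by
      rw [Equiv.Perm.mul_apply, Equiv.Perm.mul_apply, hz, Equiv.Perm.inv_eq_iff_eq,
        Equiv.Perm.inv_eq_iff_eq, h4, ha2]
    have hd' := (h8 _ (G.mul_mem (G.mul_mem (G.inv_mem hg) (G.inv_mem ha)) hb) hd).1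
    refine Or.inr ⟨(h * a * h) * (h ^ 2)⁻¹ * g⁻¹ * (g * h) ^ 3 * (h ^ 2)⁻¹, ?_,
      g⁻¹ * (h ^ 2)⁻¹ * (h * (g⁻¹ * a⁻¹ * b) * h) * c, ?_, ?_⟩
    · exact G.mul_mem (G.mul_mem (G.mul_mem (G.mul_mem (h8 a ha ha1).1 (G.inv_mem h7))
        (G.inv_mem hg)) h6) (G.inv_mem h7)
    · exact G.mul_mem (G.mul_mem (G.mul_mem (G.inv_mem hg) (G.inv_mem h7)) hd') hc
    · simp only [pow_succ, pow_zero, one_mul]
      group
  set E := Subgroup.closure ((G : Set (Equiv.Perm (Option X))) ∪ {h}) with hE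
  have hGE : G ≤ E := fun f hf => Subgroup.subset_closure (Or.inl hf)
  have hhE : h ∈ E := Subgroup.subset_closure (Or.inr rfl)
  have l3 : ∀ f ∈ E, f ∈ S := fun f hf => by
    refine Subgroup.closure_induction_left (p := fun f _ => f ∈ S) (Or.inl G.one_mem) ?_ ?_ hf
    · rintro s (hs | rfl) t _ ht
      exacts [l1 s hs t ht, l2 t ht]
    · rintro s (hs | rfl) t _ ht
      · exact l1 _ (G.inv_mem hs) t ht
      · have := l1 _ (G.inv_mem h7) _ (l2 t ht)
        simpa [sq, mul_assoc] using this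
  refine ⟨fun f hf => ⟨fun hf0 => ?_, hfix f⟩, ⟨fun a b => ?_⟩⟩
  · rcases l3 f hf with hf | ⟨a, ha, b, hb, rfl⟩
    · exact hf
    · obtain ⟨z, hz⟩ := hsome a ha x
      rw [Equiv.Perm.mul_apply, Equiv.Perm.mul_apply, hfix b hb, h1, hz] at hf0
      exact (Option.some_ne_none _ hf0).elim
  have key : ∀ a : Fin (k + 1) ↪ Option X, ∃ f ∈ E, f (a 0) = none ∧
      ∃ a' : Fin k ↪ X, ∀ i, f (a i.succ) = some (a' i) := by
    intro a
    obtain ⟨f, hf, hf0⟩ : ∃ f ∈ E, f (a 0) = none := by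
      rcases a 0 with _ | z
      · exact ⟨1, E.one_mem, rfl⟩
      · obtain ⟨w, hw⟩ : ∃ w, z ≠ w := by
          by_cases hz : z = x
          exacts [⟨y, hz ▸ hxy⟩, ⟨x, hz⟩]
        obtain ⟨f, hf, e, -⟩ := two z w x y hw hxy
        exact ⟨h * f, E.mul_mem hhE (hGE hf), by rw [Equiv.Perm.mul_apply, e, h2]⟩
    have : ∀ i : Fin k, ∃ z, f (a i.succ) = some z := fun i => Option.ne_none_iff_exists'.1
      fun e => Fin.succ_ne_zero i (a.injective (f.injective (e.trans hf0.symm)))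
    choose t ht using this
    exact ⟨f, hf, hf0, ⟨t, fun i j hij => Fin.succ_injective _ (a.injective (f.injective
      (by rw [ht, ht, hij])))⟩, ht⟩
  obtain ⟨f1, hf1, e1, a', ha'⟩ := key a
  obtain ⟨f2, hf2, e2, b', hb'⟩ := key b
  obtain ⟨f, hf, e⟩ := htrans a' b'
  refine ⟨⟨f2⁻¹ * f * f1, E.mul_mem (E.mul_mem (E.inv_mem hf2) (hGE hf)) hf1⟩,
    Function.Embedding.ext fun i => ?_⟩
  change f2⁻¹ (f (f1 (a i))) = b i
  rw [Equiv.Perm.inv_eq_iff_eq]
  refine Fin.cases ?_ (fun i => ?_) i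
  · rw [e1, e2, hfix f hf]
  · rw [ha', hb', e]

end Cfsg.Agent.S4301
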