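import Cfsg.Statements.S4304
import Cfsg.Agent.H6.SylN

set_option autoImplicit false
open Cfsg

namespace Cfsg.Agent.S4304

/-- No finite group has exactly 15 Sylow 7-subgroups. -/
theorem result {G : Type*} [Group G] [Finite G] : Nat.card (Sylow 7 G) ≠ 15 := by
  intro h
  have : Fact (Nat.Prime 7) := ⟨by norm_num⟩
  obtain ⟨S, _, _, _, hS⟩ := H6.exists_simple_of_card_sylow h (by norm_num)
    (by decide +kernel) (fun d hd h1 => by
      have := Nat.le_of_dvd (by norm_num) hd
      interval_cases d <;> omega)
  exact H6.simple_card_sylow_ne (G := S) (p := 7) (by norm_num) hS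

end Cfsg.Agent.S4304
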