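import Cfsg.Statements.S4310
import Cfsg.Agent.H1.FTLib

set_option autoImplicit false
open Cfsg

namespace Cfsg.Agent.S4310

open Subgroup H1 in
open scoped Pointwise in
theorem sep {G : Type*} [Group G] [Finite G] {π : Set ℕ} {A H K : Subgroup G} [A.Normal]
    (hH : IsPiHallOf π H A) (hK : IsPiNat π (A.relIndex K)) :
    PiSep π (K ⊓ normalizer (H : Set G) : Subgroup G) := by
  by_cases hHK : True
  · set L := K ⊓ normalizer (H : Set G)
    have h1 : PiSep π (A ⊓ L : Subgroup G) := by
      have h2 : PiSep π (A ⊓ normalizer (H : Set G) : Subgroup G) :=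
        piSep_of_relIndex (K := H) (le_inf hH.1 le_normalizer) inf_le_right
          (piSep_of_isPiNat hH.2.1) (Or.inr (IsPiHallOf.isPiNat_relIndex
            (IsPiHallOf.of_le hH (le_inf hH.1 le_normalizer) inf_le_left)))
      exact h2.of_le (inf_le_inf_left _ inf_le_right)
    refine piSep_of_relIndex inf_le_right
      (le_normalizer_inf le_normalizer_of_normal le_normalizer) h1 (Or.inl ?_)
    rw [inf_relIndex_right]
    refine hK.of_dvd ?_
    rw [← card_map_mk'_eq_relIndex, ← card_map_mk'_eq_relIndex]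
    exact card_dvd_of_le (map_mono inf_le_left)
  · exact (hHK trivial).elim

/-- Let `π` be a set of primes and `A` a normal subgroup of the finite group `G`. Suppose `A` has a Hall `π`-subgroup and all Hall `π`-subgroups of `A` are conjugate in `A`, and likewise for `G/A`. Then `G` has a Hall `π`-subgroup and all Hall `π`-subgroups of `G` are conjugate. (The conjugacy of complements of coprime order that the usual proof uses rests, in general, on the odd order Theorem.) -/
theorem result {G : Type*} [Group G] [Finite G] (π : Set ℕ) (A : Subgroup G) [A.Normal]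
    (hA : Cfsg.IsCPiGroup π ↥A) (hQ : Cfsg.IsCPiGroup π (G ⧸ A)) : Cfsg.IsCPiGroup π G := by
  open Subgroup H1 in
  open scoped Pointwise in
  obtain ⟨⟨H0, hH0⟩, hAc⟩ := hA
  obtain ⟨⟨Kb, hKb⟩, hQc⟩ := hQ
  have hAc' : ∀ H₁ H₂ : Subgroup G, IsPiHallOf π H₁ A → IsPiHallOf π H₂ A →
      ∃ a ∈ A, MulAut.conj a • H₁ = H₂ := by
    intro H₁ H₂ h₁ h₂
    obtain ⟨a, ha⟩ := hAc _ _ (isPiHallOf_iff_subgroupOf.1 h₁).2 (isPiHallOf_iff_subgroupOf.1 h₂).2
    exact ⟨a, a.2, conj_smul_eq_of_subgroupOf h₁.1 h₂.1 ha.symm⟩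
  have hfr : ∀ H : Subgroup G, IsPiHallOf π H A → ∀ g : G, ∃ a ∈ A,
      a * g ∈ normalizer (H : Set G) := by
    intro H hH g
    obtain ⟨a, ha, e⟩ := hAc' _ _ (IsPiHallOf.conj_of_mem hH (g := g)
      (le_normalizer_of_normal (mem_top g))) hH
    exact ⟨a, ha, mem_normalizer_iff_smul.2 (by rw [← conj_smul_conj_smul, e])⟩
  have hsurj := QuotientGroup.mk'_surjective A
  constructor
  · have hH : IsPiHallOf π (H0.map A.subtype) A := isPiHallOf_map_subtype.2 hH0
    generalize H0.map A.subtype = H at hH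
    let K := Kb.comap (QuotientGroup.mk' A)
    have hAK : A ≤ K := by
      have := ker_le_comap (QuotientGroup.mk' A) Kb
      rwa [QuotientGroup.ker_mk'] at this
    have hi : A.relIndex K = Nat.card Kb := by
      rw [← card_map_mk'_eq_relIndex, map_comap_eq_self_of_surjective hsurj]
    obtain ⟨R, hR⟩ := (sep (K := K) hH (hi ▸ hKb.1)).hallOK'.exists
    have hLK : A ⊔ (K ⊓ normalizer (H : Set G)) = K := by
      refine le_antisymm (sup_le hAK inf_le_left) fun g hg => ?_
      obtain ⟨a, ha, h⟩ := hfr H hH g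
      have : g = a⁻¹ * (a * g) := by group
      rw [this]
      exact mul_mem_sup (inv_mem ha) ⟨mul_mem (hAK ha) hg, h⟩
    refine ⟨R, isPiHallOf_top.1 (IsPiHallOf.trans_of_relIndex (IsPiHallOf.trans_of_relIndex hR
      (inf_le_left : _ ≤ K) ?_) le_top ?_)⟩
    · have h1 : (K ⊓ normalizer (H : Set G)).relIndex K =
          (K ⊓ normalizer (H : Set G)).relIndex A := by
        have e1 := card_sup_mul_card_inf (H := K ⊓ normalizer (H : Set G)) (N := A)
          le_normalizer_of_normal
        rw [sup_comm, hLK, ← card_mul_relIndex (inf_le_left : K ⊓ normalizer (H : Set G) ≤ K),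
          ← card_mul_relIndex (inf_le_right : (K ⊓ normalizer (H : Set G)) ⊓ A ≤ A), mul_assoc,
          inf_relIndex_right, mul_comm (Nat.card (_ ⊓ A : Subgroup G))] at e1
        exact Nat.eq_of_mul_eq_mul_right Nat.card_pos (Nat.eq_of_mul_eq_mul_left Nat.card_pos e1)
      rw [h1]
      exact (IsPiHallOf.isPiNat_relIndex hH).of_dvd (relIndex_dvd_of_le_left _
        (le_inf (hH.1.trans hAK) le_normalizer))
    · rw [relIndex_top_right, index_comap_of_surjective _ hsurj]
      exact (isPiHall_iff.1 hKb).2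
  · intro H₁ H₂ h₁ h₂
    have h₁' := isPiHallOf_top.2 h₁
    have h₂' := isPiHallOf_top.2 h₂
    obtain ⟨q, hq⟩ := hQc _ _
      (isPiHallOf_top.1 (map_top_of_surjective _ hsurj ▸ IsPiHallOf.map h₁' _))
      (isPiHallOf_top.1 (map_top_of_surjective _ hsurj ▸ IsPiHallOf.map h₂' _))
    obtain ⟨g, rfl⟩ := QuotientGroup.mk_surjective q
    have h3 := conj_smul_sup_eq_of_map_mk' (H := H₁) (K := H₂) (g := g) hq.symm
    have h4 : IsPiHallOf π (MulAut.conj g • H₁) ⊤ :=
      IsPiHallOf.conj_of_mem h₁' (le_normalizer (mem_top g))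
    have h5 := IsPiHallOf.inf h4 (N := A) le_top le_normalizer_of_normal
    have h6 := IsPiHallOf.inf h₂' (N := A) le_top le_normalizer_of_normal
    obtain ⟨a, ha, e⟩ := hAc' _ _ h5 h6
    have h7 : IsPiHallOf π (MulAut.conj a • MulAut.conj g • H₁) ⊤ :=
      IsPiHallOf.conj_of_mem h4 (le_normalizer (mem_top a))
    have h8 : MulAut.conj a • MulAut.conj g • H₁ ≤ H₂ ⊔ A := by
      rw [← h3, ← mem_normalizer_iff_smul.1 (le_normalizer (mem_sup_right ha :
        a ∈ MulAut.conj g • H₁ ⊔ A)), pointwise_smul_le_pointwise_smul_iff]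
      exact le_sup_left
    have h9 : MulAut.conj a • MulAut.conj g • H₁ ≤ normalizer ((H₂ ⊓ A : Subgroup G) : Set G) := by
      rw [← e, normalizer_conj_smul, pointwise_smul_le_pointwise_smul_iff]
      exact le_normalizer_inf le_normalizer le_normalizer_of_normal
    have hK : IsPiNat π (A.relIndex (H₂ ⊔ A)) := by
      rw [relIndex_sup_right]
      exact (IsPiHallOf.isPiNat h₂').of_dvd (relIndex_dvd_card _ _)
    obtain ⟨k, -, hk⟩ := (sep h6 hK).hallOK'.conj (IsPiHallOf.of_le h7 (le_inf h8 h9) le_top)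
      (IsPiHallOf.of_le h₂' (le_inf le_sup_left
        (le_normalizer_inf le_normalizer le_normalizer_of_normal)) le_top)
    exact ⟨k * (a * g), by rw [← hk, conj_smul_conj_smul, conj_smul_conj_smul, mul_assoc]; rfl⟩

end Cfsg.Agent.S4310
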