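import Cfsg.Statements.S4320
import Cfsg.Agent.H10.TT
import Mathlib.RepresentationTheory.Coinvariants
import Mathlib.LinearAlgebra.FreeModule.Finite.CardQuotient
open Representation MonoidAlgebra

set_option autoImplicit false
open Cfsg

namespace Cfsg.Agent.S4320

theorem pit0 {Γ B ι : Type*} [CommGroup Γ] [Fintype Γ] [AddCommGroup B] [Fintype ι]
    (ρ : Representation ℤ Γ B) (b : ι → B) (hb : Submodule.span ℤ (Set.range b) = ⊤)
    [Finite (Coinvariants ρ)] (hle : Nat.card (Coinvariants ρ) ≤ Nat.card Γ)
    (π : B →ₗ[ℤ] MonoidAlgebra ℤ Γ) (hπ : ∀ σ x, π (ρ σ x) = single σ 1 * π x)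
    (hs : ∀ σ, ∃ x, π x = single σ 1 - 1) (x : B) : ∑ σ, ρ σ x = 0 := by
  classical
  let Φ := ρ.asAlgebraHom
  let ε : MonoidAlgebra ℤ Γ →ₐ[ℤ] ℤ := MonoidAlgebra.lift ℤ ℤ Γ 1
  let T : (ι → ℤ) →ₗ[ℤ] B := Fintype.linearCombination ℤ b
  have hT : Function.Surjective T := by
    rw [← LinearMap.range_eq_top, Fintype.range_linearCombination, hb]
  let L := LinearMap.ker (Coinvariants.mk ρ ∘ₗ T)
  let q := LinearMap.quotKerEquivOfSurjective (Coinvariants.mk ρ ∘ₗ T)
    ((Coinvariants.mk_surjective ρ).comp hT)
  have fin : Finite ((ι → ℤ) ⧸ L) := Finite.of_equiv _ q.symm.toEquiv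
  let e : (ι → ℤ) ≃ₗ[ℤ] L := LinearEquiv.ofFinrankEq _ _ ((Submodule.finiteQuotient_iff L).1 fin).symm
  let f : (ι → ℤ) →ₗ[ℤ] ι → ℤ := L.subtype ∘ₗ e.toLinearMap
  have hd : (LinearMap.det f).natAbs = Nat.card (Coinvariants ρ) :=
    (L.natAbs_det_equiv e).trans (Nat.card_congr q.toEquiv)
  have key : ∀ y ∈ Coinvariants.ker ρ, ∃ l : ι → MonoidAlgebra ℤ Γ, (∀ k, ε (l k) = 0) ∧
      ∑ k, Φ (l k) (b k) = y := fun y hy => by
    induction hy using Submodule.span_induction with
    | mem y hy =>
      obtain ⟨⟨σ, v⟩, rfl⟩ := hy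
      obtain ⟨n, rfl⟩ := hT v
      refine ⟨fun k => n k • (single σ 1 - 1), fun k => by simp [ε], ?_⟩
      simp [Φ, T, Fintype.linearCombination_apply, smul_sub]
    | zero => exact ⟨0, by simp, by simp⟩
    | add y z _ _ hy hz =>
      obtain ⟨l, h1, rfl⟩ := hy
      obtain ⟨m, h2, rfl⟩ := hz
      exact ⟨l + m, fun k => by simp [h1, h2], by simp [Finset.sum_add_distrib]⟩
    | smul c y _ hy =>
      obtain ⟨l, h1, rfl⟩ := hy
      exact ⟨c • l, fun k => by rw [Pi.smul_apply, map_smul, h1, smul_zero], by
        simp only [Pi.smul_apply, map_smul, LinearMap.smul_apply, Finset.smul_sum]⟩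
  choose l h1 h2 using fun i => key (T (f (Pi.single i 1)))
    ((Submodule.Quotient.mk_eq_zero _).1 (e (Pi.single i 1)).2)
  let c : Matrix ι ι (MonoidAlgebra ℤ Γ) := fun i k => algebraMap ℤ _ (f (Pi.single i 1) k) - l i k
  have hc : ∀ i, ∑ k, Φ (c i k) (b k) = 0 := fun i => by
    simp only [c, map_sub, AlgHom.commutes, LinearMap.sub_apply, Finset.sum_sub_distrib, h2,
      Module.algebraMap_end_apply]
    exact sub_self _
  have g1 : ε c.det = LinearMap.det f := by
    rw [AlgHom.map_det, ← LinearMap.det_toMatrix', ← Matrix.det_transpose]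
    congr 1
    ext i k
    rw [Matrix.transpose_apply, AlgHom.mapMatrix_apply, Matrix.map_apply]
    simp [c, h1, LinearMap.toMatrix'_apply]
  have g2 : ∀ j, Φ c.det (b j) = 0 := fun j => by
    have : ∑ i, Φ (c.adjugate j i) (∑ k, Φ (c i k) (b k)) = 0 := by simp [hc]
    simp only [map_sum] at this
    rw [Finset.sum_comm] at this
    rw [← this, Finset.sum_eq_single j (fun k _ hk => ?_) (by simp)]
    · have := congrFun (congrFun c.adjugate_mul j) j
      rw [Matrix.mul_apply] at this
      simp only [← Module.End.mul_apply, ← map_mul, ← LinearMap.sum_apply, ← map_sum, this]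
      simp
    · have := congrFun (congrFun c.adjugate_mul j) k
      rw [Matrix.mul_apply] at this
      simp only [← Module.End.mul_apply, ← map_mul, ← LinearMap.sum_apply, ← map_sum, this]
      simp [Matrix.one_apply_ne hk.symm]
  have g3 : ∀ y, Φ c.det y = 0 := fun y => by
    obtain ⟨n, rfl⟩ := hT y
    simp [T, Fintype.linearCombination_apply, g2]
  have g4 : ∀ r y, π (Φ r y) = r * π y := fun r y => by
    induction r using MonoidAlgebra.induction_linear with
    | zero => simp
    | add r s hr hs => simp [hr, hs, add_mul]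
    | single σ n =>
      rw [asAlgebraHom_single, LinearMap.smul_apply, map_smul, hπ, ← smul_mul_assoc]; simp
  have g5 : ∀ σ, c.det.coeff σ = c.det.coeff 1 := fun σ => by
    obtain ⟨y, hy⟩ := hs σ
    have := g4 c.det y
    rw [g3, map_zero, hy, mul_sub, mul_one, eq_comm, sub_eq_zero] at this
    have := congrArg (fun r => r.coeff σ) this
    simpa using this.symm
  obtain ⟨r, hr⟩ : ∃ r : ℤ, c.det = ∑ σ, single σ r := ⟨c.det.coeff 1, by
    apply MonoidAlgebra.coeff_injective
    ext σ
    simp [coeff_sum, Finsupp.single_apply, g5 σ]⟩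
  rw [← g1, hr, map_sum] at hd
  have g6 : r.natAbs = 1 := by
    simp only [ε, lift_single, MonoidHom.one_apply, smul_eq_mul, mul_one, Finset.sum_const,
      nsmul_eq_mul, Int.natAbs_mul, Int.natAbs_natCast, Finset.card_univ] at hd
    rw [← hd, Nat.card_eq_fintype_card] at hle
    have : 0 < Fintype.card Γ * r.natAbs := hd ▸ Nat.card_pos
    have := Nat.pos_of_mul_pos_left this
    have := Nat.le_of_mul_le_mul_left (hle.trans_eq (mul_one _).symm) Fintype.card_pos
    omega
  have := g3 x
  simp only [hr, map_sum, Φ, asAlgebraHom_single, LinearMap.sum_apply, LinearMap.smul_apply,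
    ← Finset.smul_sum] at this
  rcases Int.natAbs_eq_iff.1 g6 with rfl | rfl <;> simpa using this

variable {G : Type*} [Group G]

/-- left regular representation on finitely supported functions -/
noncomputable def r0 (G : Type*) [Group G] : Representation ℤ G (G →₀ ℤ) where
  toFun g := Finsupp.lmapDomain ℤ ℤ (g * ·)
  map_one' := by ext; simp
  map_mul' g h := by ext; simp [mul_assoc]

theorem r0_single (g h : G) (n : ℤ) : r0 G g (Finsupp.single h n) = Finsupp.single (g * h) n :=
  Finsupp.mapDomain_single

/-- augmentation -/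
noncomputable def ep (G : Type*) : (G →₀ ℤ) →ₗ[ℤ] ℤ := Finsupp.linearCombination ℤ fun _ => 1

theorem ep_r0 (g : G) (x : G →₀ ℤ) : ep G (r0 G g x) = ep G x := by
  induction x using Finsupp.induction_linear with
  | zero => simp
  | add x y hx hy => simp [hx, hy]
  | single a n => simp [r0_single, ep]

/-- augmentation ideal -/
noncomputable def rI (G : Type*) [Group G] : Representation ℤ G (LinearMap.ker (ep G)) :=
  (r0 G).subrepresentation _ fun g x hx => (ep_r0 g x).trans hx

/-- the universal derivation -/
noncomputable def dl (g : G) : LinearMap.ker (ep G) :=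
  ⟨Finsupp.single g 1 - Finsupp.single 1 1, by simp [ep]⟩

theorem dl_mul (g h : G) : dl (g * h) = dl g + rI G g (dl h) := Subtype.ext (by
  change _ = _ + r0 G g _
  simp [dl, r0_single])

theorem span_dl : Submodule.span ℤ (Set.range (dl (G := G))) = ⊤ := by
  refine eq_top_iff.2 fun x _ => ?_
  have : ∀ y : G →₀ ℤ, (Finsupp.linearCombination ℤ dl y : G →₀ ℤ) = y - ep G y • Finsupp.single 1 1 :=
    fun y => by
    induction y using Finsupp.induction_linear with
    | zero => simp
    | add x y hx hy => simp only [map_add, Submodule.coe_add, hx, hy, add_smul]; abel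
    | single a n => rw [Finsupp.linearCombination_single, Submodule.coe_smul]; simp [dl, ep, smul_sub]
  have e : Finsupp.linearCombination ℤ dl x.1 = x := Subtype.ext (by
    rw [this, show ep G x = 0 from x.2]; simp)
  rw [← e, ← Finsupp.range_linearCombination]
  exact ⟨_, rfl⟩

/-- the `H`-part of an element -/
noncomputable def lam (H : Subgroup G) (g : G) : Additive (Abelianization H) :=
  Additive.ofMul (Abelianization.of ⟨g * ((g⁻¹ : G) : G ⧸ H).out, by
    have := QuotientGroup.eq.1 (QuotientGroup.out_eq' ((g⁻¹ : G) : G ⧸ H)).symm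
    rwa [inv_inv] at this⟩)

theorem lam_mul (H : Subgroup G) (h : H) (g : G) :
    lam H (h * g) = Additive.ofMul (Abelianization.of h) + lam H g := by
  have : ((((h : G) * g)⁻¹ : G) : G ⧸ H) = ((g⁻¹ : G) : G ⧸ H) := QuotientGroup.eq.2 (by simp)
  rw [lam, lam, ← ofMul_mul, ← map_mul]
  congr 2
  exact Subtype.ext (by simp only [this, Subgroup.coe_mul, mul_assoc])

theorem lam_r0 (H : Subgroup G) (h : H) (x : G →₀ ℤ) :
    Finsupp.linearCombination ℤ (lam H) (r0 G h x) =
      ep G x • Additive.ofMul (Abelianization.of h) + Finsupp.linearCombination ℤ (lam H) x := by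
  induction x using Finsupp.induction_linear with
  | zero => simp
  | add x y hx hy => simp only [map_add, hx, hy, add_smul]; abel
  | single a n => simp [r0_single, ep, lam_mul]

theorem pi_r0 (g : G) (x : G →₀ ℤ) :
    Finsupp.linearCombination ℤ (fun a => single (Abelianization.of a) (1 : ℤ)) (r0 G g x) =
      single (Abelianization.of g) 1 *
      Finsupp.linearCombination ℤ (fun a => single (Abelianization.of a) (1 : ℤ)) x := by
  induction x using Finsupp.induction_linear with
  | zero => simp
  | add x y hx hy => simp only [map_add, hx, hy, mul_add]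
  | single a n => simp [r0_single, single_mul_single]

/-- The Principal Ideal Theorem of class field theory in its group-theoretic form: for every finite group `G`, the transfer homomorphism from `G` into the abelianization `G'/G''` of its derived subgroup `G'` is the trivial homomorphism. -/
theorem result {G : Type*} [Group G] [Finite G] :
    MonoidHom.transfer (Abelianization.of : ↥(commutator G) →* Abelianization ↥(commutator G)) =
      (1 : G →* Abelianization ↥(commutator G)) := by
  classical
  set H := commutator G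
  have := Fintype.ofFinite G
  have := Fintype.ofFinite (G ⧸ H)
  let _ : Fintype (Abelianization G) := this
  let B := Coinvariants ((rI G).comp H.subtype)
  let ρ : Representation ℤ (Abelianization G) B := (rI G).quotientToCoinvariants H
  have hρ : ∀ g x, ρ (Abelianization.of g) (Coinvariants.mk _ x) = Coinvariants.mk _ (rI G g x) :=
    fun _ _ => rfl
  let b : G → B := fun g => Coinvariants.mk _ (dl g)
  have hb : Submodule.span ℤ (Set.range b) = ⊤ := by
    have := congrArg (Submodule.map (Coinvariants.mk ((rI G).comp H.subtype))) (span_dl (G := G))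
    rwa [Submodule.map_span, ← Set.range_comp, Submodule.map_top,
      LinearMap.range_eq_top.2 (Coinvariants.mk_surjective _)] at this
  let d : G →* Multiplicative (Coinvariants ρ) := MonoidHom.mk'
    (fun g => Multiplicative.ofAdd (Coinvariants.mk ρ (b g))) fun g h => by
      rw [← ofAdd_add]
      simp only [b, dl_mul, map_add, ← hρ, Coinvariants.mk_self_apply]
  have ds : Function.Surjective (Abelianization.lift d) := fun y => by
    obtain ⟨y, rfl⟩ := Multiplicative.ofAdd.surjective y
    obtain ⟨y, rfl⟩ := Coinvariants.mk_surjective ρ y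
    have : y ∈ Submodule.span ℤ (Set.range b) := hb ▸ Submodule.mem_top
    change _ ∈ (Abelianization.lift d).range
    induction this using Submodule.span_induction with
    | mem y hy => obtain ⟨g, rfl⟩ := hy; exact ⟨Abelianization.of g, rfl⟩
    | zero => exact one_mem _
    | add y z _ _ hy hz => rw [map_add, ofAdd_add]; exact mul_mem hy hz
    | smul c y _ hy => rw [map_smul, ofAdd_zsmul]; exact zpow_mem hy c
  have : Finite (Coinvariants ρ) := Finite.of_surjective (β := Multiplicative _) _ ds
  let π : B →ₗ[ℤ] MonoidAlgebra ℤ (Abelianization G) := Coinvariants.lift _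
    (Finsupp.linearCombination ℤ (fun a => single (Abelianization.of a) (1 : ℤ)) ∘ₗ Submodule.subtype _)
    fun h => LinearMap.ext fun x => by
      refine (pi_r0 (h : G) x.1).trans ?_
      rw [show Abelianization.of (h : G) = 1 from (QuotientGroup.eq_one_iff _).2 h.2, ← one_def, one_mul]
      rfl
  let l : B →ₗ[ℤ] Additive (Abelianization H) := Coinvariants.lift _
    (Finsupp.linearCombination ℤ (lam H) ∘ₗ Submodule.subtype _)
    fun h => LinearMap.ext fun x => by
      refine (lam_r0 H h x.1).trans ?_
      rw [show ep G x = 0 from x.2, zero_smul, zero_add]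
      rfl
  ext g
  have := congrArg l (pit0 ρ b hb (Nat.card_le_card_of_surjective (β := Multiplicative _) _ ds) π
    (fun σ x => by
      obtain ⟨x, rfl⟩ := Coinvariants.mk_surjective _ x
      obtain ⟨s, rfl⟩ := QuotientGroup.mk_surjective σ
      exact pi_r0 s x.1)
    (fun σ => by
      obtain ⟨s, rfl⟩ := QuotientGroup.mk_surjective σ
      refine ⟨b s, ?_⟩
      change Finsupp.linearCombination ℤ _ (dl s).1 = _
      simp only [dl, map_sub, Finsupp.linearCombination_single, one_smul, map_one]
      rfl) (b g))
  rw [map_zero, map_sum, ← Equiv.sum_comp (Equiv.inv _)] at this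
  rw [H10.transfer_eq_prod_out, MonoidHom.one_apply]
  apply Additive.ofMul.injective
  rw [ofMul_prod, ofMul_one, ← this]
  refine Finset.sum_congr rfl fun q _ => ?_
  obtain ⟨u, hu⟩ : ∃ u : G, u = Quotient.out (s := QuotientGroup.leftRel H) q := ⟨_, rfl⟩
  have e : (Equiv.inv (Abelianization G)) q = Abelianization.of u⁻¹ := by
    rw [map_inv, hu]; exact congrArg Inv.inv (QuotientGroup.out_eq' q).symm
  have uq : (u : G ⧸ H) = q := hu ▸ QuotientGroup.out_eq' q
  rw [e, hρ]
  change _ = Finsupp.linearCombination ℤ _ (r0 G u⁻¹ (dl g).1)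
  simp only [dl, map_sub, r0_single, Finsupp.linearCombination_single, one_smul, mul_one]
  have z : lam H u⁻¹ = 0 := by
    rw [lam, ← ofMul_one, ← map_one Abelianization.of]
    congr 2
    exact Subtype.ext (by simp only [inv_inv, uq, ← hu, inv_mul_cancel, Subgroup.coe_one])
  rw [z, sub_zero, lam]
  congr 2
  refine Subtype.ext ?_
  simp only [← hu, mul_inv_rev, inv_inv, mul_assoc]
  rw [← uq]; rfl

end Cfsg.Agent.S4320
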