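import Cfsg.Statements.S4323
import Cfsg.Agent.H17.Mt3

set_option autoImplicit false
open Cfsg

namespace Cfsg.Agent.S4323

open H17 Cfsg

open Subgroup H1 H16 H17.Fv SemidirectProduct in

/-- Let `q` be a prime and `A` a non-cyclic group of order `q²` acting by automorphisms on a finite group `G` of order prime to `q`, such that the fixed-point subgroup `C_G(a)` is abelian for every non-identity `a ∈ A`. Then `G` is solvable. -/
theorem result {A G : Type*} [Group A] [Finite A]
    [Group G] [Finite G] [MulDistribMulAction A G] (q : ℕ) (hq : q.Prime) (hA : Nat.card A = q ^ 2) (hnc : ¬ IsCyclic A)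
    (hcop : ¬ q ∣ Nat.card G) (h : ∀ a : A, a ≠ 1 → IsMulCommutative ↥(FixedPoints.subgroup (Subgroup.zpowers a) G)) :
    Group.IsSolvable G := by
  let φ := MulDistribMulAction.toMulAut A G
  have e := equivMapOfInjective ⊤ _ (inr_injective (φ := φ))
  refine isSolvable_of_mulEquiv (isSolvable_of_mulEquiv (Mt.solv (q := q) _ _ (H8.sdL φ ⊤) (H8.sdR φ ⊤) rfl ⟨hq, ?_, fun c => hnc
    (topEquiv.isCyclic.1 (e.isCyclic.2 c)), ?_, nn _ _, ?_⟩) (H8.sdLEquiv φ ⊤).symm) topEquiv
  · rw [H8.card_sdR, card_top, hA]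
  · rw [H8.card_sdR, H8.card_sdL, card_top, card_top, hA]
    exact (hq.coprime_iff_not_dvd.2 hcop).pow_left 2
  rintro _ ⟨a, -, rfl⟩ h1
  have := h a fun e => h1 (by rw [e, map_one])
  refine comm_of_le (K := H8.sdL φ (FixedPoints.subgroup (zpowers a) G)) inferInstance ?_
  rintro _ ⟨⟨g, -, rfl⟩, hg⟩
  rw [← cent_zpowers, ← MonoidHom.map_zpowers] at hg
  exact mem_map_of_mem _ fun b => (H8.inl_mem_centralizer_sdR φ).1 hg b b.2

end Cfsg.Agent.S4323
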