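import Cfsg.Statements.S4422

set_option autoImplicit false
open Cfsg

namespace Cfsg.Agent.S4422

/-- Primitive divisors of `q^e - 1` are congruent to 1 modulo `e`. Let `q ≥ 2` and `e ≥ 1` be natural numbers and let `m` be a divisor of `q^e - 1` that is coprime to `q^i - 1` for every `1 ≤ i < e` (so `m` divides the primitive part of `q^e - 1`, the largest such divisor). Then `m ≡ 1 (mod e)`. -/
theorem result (q e m : ℕ) (hq : 2 ≤ q) (he : 1 ≤ e)
    (hm : m ∣ q ^ e - 1) (hcop : ∀ i : ℕ, 1 ≤ i → i < e → Nat.Coprime m (q ^ i - 1)) :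
    m % e = 1 % e := by
  have hq1 : 1 ≤ q ^ e := Nat.one_le_pow _ _ (by omega)
  have h0 : m ≠ 0 := by
    rintro rfl
    have := Nat.one_lt_pow (by omega : e ≠ 0) (by omega : 1 < q)
    rw [zero_dvd_iff] at hm
    omega
  change m ≡ 1 [MOD e]
  induction m using Nat.recOnMul with
  | zero => exact (h0 rfl).elim
  | one => rfl
  | prime r hr =>
    have := Fact.mk hr
    have key : ∀ i, (q : ZMod r) ^ i = 1 ↔ r ∣ q ^ i - 1 := fun i => by
      rw [← ZMod.natCast_eq_zero_iff, Nat.cast_sub (Nat.one_le_pow _ _ (by omega)), sub_eq_zero]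
      simp
    have h1 : orderOf (q : ZMod r) = e := by
      refine (orderOf_eq_iff (by omega)).2 ⟨(key e).2 hm, fun i hi hi0 h => ?_⟩
      exact hr.one_lt.ne' ((hcop i hi0 hi).eq_one_of_dvd ((key i).1 h))
    have h2 : (q : ZMod r) ≠ 0 := fun h => by
      have := (key e).2 hm
      rw [h, zero_pow (by omega)] at this
      exact zero_ne_one this
    exact ((Nat.modEq_iff_dvd' hr.one_lt.le).2 (h1 ▸ ZMod.orderOf_dvd_card_sub_one h2)).symm
  | mul a b iha ihb =>
    simpa using (iha ((dvd_mul_right a b).trans hm)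
      (fun i h1 h2 => (hcop i h1 h2).coprime_mul_right) (left_ne_zero_of_mul h0)).mul
      (ihb ((dvd_mul_left b a).trans hm) (fun i h1 h2 => (hcop i h1 h2).coprime_mul_left)
        (right_ne_zero_of_mul h0))

end Cfsg.Agent.S4422
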