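import Cfsg.Statements.S4423
import Cfsg.Agent.H25.Zsig

set_option autoImplicit false
open Cfsg

namespace Cfsg.Agent.S4423

open H25 Polynomial
def Pr (q n : ℕ) : ℕ := ∏ i ∈ Finset.range (n - 1), (q ^ (i + 1) - 1)
def W (q n : ℕ) : ℕ := (q ^ n - 1) / Nat.gcd (q ^ n - 1) (Nat.gcd (q ^ n - 1) (Pr q n) ^ n)
def L : List (ℕ × ℕ) := [(2, 6), (2, 4), (2, 10), (2, 12), (2, 18), (3, 4), (3, 6), (5, 6), (2, 3), (2, 8), (2, 20), (4, 3), (4, 6)]
def T (n t : ℕ) : Prop := 3 * n ^ 2 ≤ 11 ^ t ∧ ∀ q < 12, (2 ≤ q ∧ q ^ t ≤ (3 * n ^ 2) ^ 2 ∧ (q - 1) ^ t < 3 * n ^ 2) →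
  (q, n) ∈ L ∨ (3 * n + 1 ≤ W q n ∧ Nat.gcd (W q n) (Pr q n) = 1)
instance (n t : ℕ) : Decidable (T n t) := by unfold T; infer_instance
theorem table : ∀ n < 520, 3 ≤ n → T n n.totient := by decide +kernel
theorem ineq {t : ℕ} (ht : 40 ≤ t) : 196 * t ^ 6 < 2 ^ t := by
  induction t, ht using Nat.le_induction with
  | base => norm_num
  | succ t ht ih =>
    have h2 := Nat.pow_le_pow_left (show 10 * (t + 1) ≤ 11 * t by omega) 6
    rw [mul_pow, mul_pow] at h2
    rw [pow_succ 2]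
    omega
theorem cop {q e m : ℕ} : m.Coprime (Pr q e) ↔ ∀ i : ℕ, 1 ≤ i → i < e → Nat.Coprime m (q ^ i - 1) := by
  rw [Pr, Nat.coprime_prod_right_iff]
  refine ⟨fun h i a b => ?_, fun h i a => h _ (by omega) (by have := Finset.mem_range.1 a; omega)⟩
  obtain ⟨i, rfl⟩ := Nat.exists_eq_succ_of_ne_zero (by omega : i ≠ 0)
  exact h i (Finset.mem_range.2 (by omega))

/-- Size of the primitive part of `q^e - 1`. For a prime power `q` and `e ≥ 3`, call a divisor of `q^e - 1` primitive when it is coprime to `q^i - 1` for every `1 ≤ i < e`; the primitive part is the largest primitive divisor. Apart from thirteen exceptional pairs, the primitive part is at least `3e + 1`: there is a primitive divisor `m ≥ 3e + 1` unless `(q, e)` is `(2, 6)` (where every primitive divisor is 1), one of `(2,4), (2,10), (2,12), (2,18), (3,4), (3,6), (5,6)` (where the primitive part is exactly `e + 1`), or one of `(2,3), (2,8), (2,20), (4,3), (4,6)`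 (where it is exactly `2e + 1`). The statement asserts the existence of a primitive divisor `m ≥ 3e + 1` outside the thirteen pairs, and that every primitive divisor is at most `2e + 1` for the thirteen pairs. -/
theorem result (q e : ℕ) (hq : IsPrimePow q) (he : 3 ≤ e) :
    ((q, e) ∉ [(2, 6), (2, 4), (2, 10), (2, 12), (2, 18), (3, 4), (3, 6), (5, 6), (2, 3), (2, 8), (2, 20), (4, 3), (4, 6)] →
      ∃ m : ℕ, m ∣ q ^ e - 1 ∧ (∀ i : ℕ, 1 ≤ i → i < e → Nat.Coprime m (q ^ i - 1)) ∧ 3 * e + 1 ≤ m) ∧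
    ((q, e) ∈ [(2, 6), (2, 4), (2, 10), (2, 12), (2, 18), (3, 4), (3, 6), (5, 6), (2, 3), (2, 8), (2, 20), (4, 3), (4, 6)] →
      ∀ m : ℕ, m ∣ q ^ e - 1 → (∀ i : ℕ, 1 ≤ i → i < e → Nat.Coprime m (q ^ i - 1)) → m ≤ 2 * e + 1) := by
  have hq := hq.two_le
  refine ⟨fun h => ?_, fun h m a b => ?_⟩
  swap
  · obtain ⟨c, u, v, w⟩ := (by decide +kernel : ∀ x ∈ L, ∃ c ≤ 2 * x.2 + 1, 0 < c ∧ x.1 ^ x.2 - 1 ∣ c * Pr x.1 x.2 ^ 2) _ h
    exact (Nat.le_of_dvd v (((cop.2 b).pow_right 2).dvd_of_dvd_mul_right (a.trans w))).trans u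
  obtain ⟨u, w, h5, h6, h7⟩ := cyc_decomp hq he
  by_cases hw : 3 * e + 1 ≤ w
  · exact ⟨w, (Dvd.intro_left _ h5.symm).trans (cyc_dvd e (by omega)), fun i a b =>
      Nat.coprime_of_dvd fun s c d => (h7 s c d).2.2 i a b, hw⟩
  have hu : u ≤ e := by
    rcases h6 with rfl | h6
    · omega
    · exact Nat.le_of_dvd (by omega) h6.2
  have b0 : cyc e q ≤ 3 * e ^ 2 := h5 ▸ (Nat.mul_le_mul hu (Nat.le_of_lt_succ (not_le.1 hw))).trans_eq (by ring)
  have b1 := (pow_totient_le_cyc_sq hq he).trans (Nat.pow_le_pow_left b0 2)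
  have b2 := (sub_one_pow_totient_lt_natAbs_cyclotomic_eval (q := q) (n := e) (by omega) (by omega)).trans_le b0
  have b3 : e < 520 := by
    by_contra b3
    have e1 := sq_le_totient_cube e
    have e3 := ((Nat.pow_le_pow_left hq _).trans b1).trans
      (Nat.pow_le_pow_left (show 3 * e ^ 2 ≤ 14 * e.totient ^ 3 by omega) 2)
    rw [mul_pow, ← pow_mul] at e3
    have e4 : e.totient < 40 := by
      by_contra e4
      exact (ineq (not_lt.1 e4)).not_ge e3
    have := Nat.pow_le_pow_left (Nat.le_of_lt_succ e4) 3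
    nlinarith
  obtain ⟨t1, t2⟩ := table e b3 he
  have b4 : q < 12 := by
    by_contra b4
    exact (t1.trans (Nat.pow_le_pow_left (by omega) _)).not_gt b2
  obtain ⟨a, b⟩ := (t2 q b4 ⟨hq, b1, b2⟩).resolve_left h
  exact ⟨_, Nat.div_dvd_of_dvd (Nat.gcd_dvd_left _ _), cop.1 b, a⟩

end Cfsg.Agent.S4423
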