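import Cfsg.Statements.S4424
import Cfsg.Agent.H20.Ht2
-- import your own Cfsg.Agent.* helpers here

set_option autoImplicit false
open Cfsg

namespace Cfsg.Agent.S4424
open H17

/-- Let χ be an irreducible character of the finite group G lying in the p-block B (relative to a maximal ideal M of the algebraic integers containing p), and let p^a be the p-part of the order of G. Then the class function that equals p^a · χ on the p-regular elements and vanishes on the p-singular elements is an integer combination of the irreducible characters in B: there are integers a_ψ, zero for ψ outside B, with that function equal to Σ a_ψ ψ. -/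
theorem result {G : Type*} [Group G] [Finite G] (p : ℕ) [Fact p.Prime] (M : Ideal Cfsg.AlgInt) (hM : Cfsg.IsPModular p M) (B : Set (Cfsg.IrrCharacter G)) (hB : Cfsg.IsPBlock M B) (χ : Cfsg.IrrCharacter G) (hχ : χ ∈ B) : ∃ a : Cfsg.IrrCharacter G → ℤ, (∀ ψ, ψ ∉ B → a ψ = 0) ∧ (fun x : G => if p ∣ orderOf x then (0 : ℂ) else ((p ^ (Nat.card G).factorization p : ℕ) : ℂ) * (χ : G → ℂ) x) = fun x => ∑ᶠ ψ : Cfsg.IrrCharacter G, (a ψ : ℂ) * (ψ : G → ℂ) x := by
  classical
  obtain ⟨O, hO, _⟩ := H19.exists_over hM
  obtain ⟨β, rfl⟩ := hO.exists_blk hB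
  have := Fintype.ofFinite G
  have h1 : (fun x : G => if p ∣ orderOf x then (0 : ℂ) else
      ((p ^ (Nat.card G).factorization p : ℕ) : ℂ) * (χ : G → ℂ) x) =
      ((p ^ (Nat.card G).factorization p : ℕ) : ℂ) • pRegularPart p (χ : G → ℂ) := by
    funext x
    rw [Pi.smul_apply, H19.pr_apply]
    split_ifs <;> simp
  obtain ⟨m, h2, h3⟩ := (H19.isGen_pow_mul_pr (p := p) χ.2.isGen).exists_coeff
  refine ⟨m, fun ψ hψ => ?_, ?_⟩
  · have := h2 ψ
    rw [H20.inner_irr_eq_bil, map_smul, LinearMap.smul_apply,
      H20.bil_pr_eq_zero (H20.irr_mem_LB hχ) hψ, smul_zero] at this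
    exact_mod_cast this.symm
  · rw [h1, h3]
    funext x
    simp [finsum_eq_sum_of_fintype]

end Cfsg.Agent.S4424
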