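import Cfsg.Statements.S4425
import Cfsg.Agent.H20.Ht2
-- import your own Cfsg.Agent.* helpers here

set_option autoImplicit false
open Cfsg

namespace Cfsg.Agent.S4425

/-- Let χ be an irreducible character of the finite group G, p a prime, p^a the p-part of the order of G and p^b the p-part of the degree χ(1). Let χ̃ be the class function equal to p^a · χ on p-regular elements and zero on p-singular elements. Then p^(−b) · χ̃ is a generalized character of G, while p^(−(b+1)) · χ̃ is not. -/
theorem result {G : Type*} [Group G] [Finite G] (p : ℕ) [Fact p.Prime] (χ : Cfsg.IrrCharacter G) : Cfsg.IsGeneralizedCharacter G (fun x : G => if p ∣ orderOf x then (0 : ℂ) else ((p ^ ((Nat.card G).factorization p - (Cfsg.charDegree (χ : G → ℂ)).factorization p) : ℕ) : ℂ) * (χ : G → ℂ) x) ∧ ¬ Cfsg.IsGeneralizedCharacter G (fun x : G => if p ∣ orderOf x then (0 : ℂ) else ((p ^ (Nat.card G).factorization p : ℕ) : ℂ) / ((p ^ ((Cfsg.charDegree (χ : G → ℂ)).factorization p + 1) : ℕ) : ℂ) * (χ : G → ℂ) x) := by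
  classical
  constructor
  · convert H20.isGen_pow_pr p χ using 1
    funext x
    rw [Pi.smul_apply, H19.pr_apply]
    split_ifs <;> simp
  · intro h
    obtain ⟨O, _⟩ := H19.exists_val p
    have h1 := H19.GC_one_div_card p (H19.gen_mem_GC (A := O.toSubring) h) fun g hg => if_pos hg
    simp only [if_neg (H19.preg_one (G := G) (p := p))] at h1
    rw [H19.div_mem_iff_val H17.card_ne_zero_complex, map_mul, map_div₀, H20.val_deg O p,
      H20.val_card O p, Nat.cast_pow, Nat.cast_pow, map_pow, map_pow, pow_succ, div_mul_eq_mul_div,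
      mul_comm, mul_div_mul_left _ _ (pow_ne_zero _ (H20.val_p_ne_zero O p)),
      div_le_iff₀ (H19.val_p_pos O p), ← pow_succ, H19.val_p_pow_le_iff] at h1
    omega

end Cfsg.Agent.S4425
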