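import Cfsg.Statements.S4426
import Cfsg.Agent.H20.Ht2
-- import your own Cfsg.Agent.* helpers here

set_option autoImplicit false
open Cfsg

namespace Cfsg.Agent.S4426

/-- Let χ be an irreducible character in the p-block B of the finite group G (relative to a maximal ideal M of the algebraic integers containing p), let p^a be the p-part of the order of G, and let χ̃ be the class function equal to p^a · χ on p-regular elements and zero elsewhere. For ξ ∈ B the inner product [χ̃, ξ] is an integer. The following are equivalent: (a) χ has height zero in B; (b) for some ξ ∈ B the integer [χ̃, ξ] is nonzero and the exact power of p dividing it equals the exact power of p dividing ξ(1); (c) the same holds for every ξ ∈ B. -/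
theorem result {G : Type*} [Group G] [Fintype G] (p : ℕ) [Fact p.Prime] (M : Ideal Cfsg.AlgInt) (hM : Cfsg.IsPModular p M) (B : Set (Cfsg.IrrCharacter G)) (hB : Cfsg.IsPBlock M B) (χ : Cfsg.IrrCharacter G) (hχ : χ ∈ B) : (Cfsg.blockHeight p B (χ : G → ℂ) = 0 ↔ ∃ ξ ∈ B, ∃ n : ℤ, Cfsg.classInner (fun x : G => if p ∣ orderOf x then (0 : ℂ) else ((p ^ (Nat.card G).factorization p : ℕ) : ℂ) * (χ : G → ℂ) x) (ξ : G → ℂ) = (n : ℂ) ∧ n ≠ 0 ∧ padicValInt p n = (Cfsg.charDegree (ξ : G → ℂ)).factorization p) ∧ (Cfsg.blockHeight p B (χ : G → ℂ) = 0 ↔ ∀ ξ ∈ B, ∃ n : ℤ, Cfsg.classInner (fun x : G => if p ∣ orderOf x then (0 : ℂ) else ((p ^ (Nat.card G).factorization p : ℕ) : ℂ) * (χ : G → ℂ) x) (ξ : G → ℂ) = (n : ℂ) ∧ n ≠ 0 ∧ padicValInt p n = (Cfsg.charDegree (ξ : G → ℂ)).factorization p) := by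
  classical
  obtain ⟨O, hO, _⟩ := H19.exists_over hM
  obtain ⟨β, rfl⟩ := hO.exists_blk hB
  have h1 : (fun x : G => if p ∣ orderOf x then (0 : ℂ) else
      ((p ^ (Nat.card G).factorization p : ℕ) : ℂ) * (χ : G → ℂ) x) =
      ((p ^ (Nat.card G).factorization p : ℕ) : ℂ) • pRegularPart p (χ : G → ℂ) := by
    funext x
    rw [Pi.smul_apply, H19.pr_apply]
    split_ifs <;> simp
  rw [h1]
  obtain ⟨A, hA, -, -, h3, h4⟩ := H20.exists_ctr_matrix p β
  have hp0 : (p : ℤ) ≠ 0 := by exact_mod_cast (Fact.out : p.Prime).ne_zero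
  have key : ∀ ξ ∈ H19.irr β, (blockHeight p (H19.irr β) (χ : G → ℂ) = 0 ↔ ∃ n : ℤ,
      classInner (((p ^ (Nat.card G).factorization p : ℕ) : ℂ) • pRegularPart p (χ : G → ℂ))
        (ξ : G → ℂ) = (n : ℂ) ∧ n ≠ 0 ∧
        padicValInt p n = (charDegree (ξ : G → ℂ)).factorization p) := by
    intro ξ hξ
    have h5 : classInner (((p ^ (Nat.card G).factorization p : ℕ) : ℂ) •
        pRegularPart p (χ : G → ℂ)) (ξ : G → ℂ) =
        ((p ^ H20.emin p (H19.irr β) * A χ ξ : ℤ) : ℂ) := by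
      rw [H20.inner_irr_eq_bil, map_smul, LinearMap.smul_apply, smul_eq_mul,
        ← H20.defect_add_emin p (H19.irr_nonempty β)]
      push_cast
      rw [← hA χ hχ ξ]; ring
    have h6 := H20.height_add_emin p hξ
    have h7 : A χ ξ ≠ 0 → padicValInt p (p ^ H20.emin p (H19.irr β) * A χ ξ) =
        H20.emin p (H19.irr β) + padicValInt p (A χ ξ) := fun h => by
      rw [padicValInt.mul (pow_ne_zero _ hp0) h]
      congr 1
      rw [← Nat.cast_pow, padicValInt.of_nat, padicValNat.prime_pow]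
    rw [h5]
    constructor
    · intro h0
      obtain ⟨h8, h9⟩ := h3 χ hχ ξ hξ h0
      exact ⟨_, rfl, mul_ne_zero (pow_ne_zero _ hp0) h8, by rw [h7 h8, h9, add_comm, h6]⟩
    · rintro ⟨n, h8, h9, h10⟩
      obtain rfl : p ^ H20.emin p (H19.irr β) * A χ ξ = n := by exact_mod_cast h8
      by_contra h0
      have h11 := right_ne_zero_of_mul h9
      have h12 := ((padicValInt_dvd_iff _ _).1 (h4 χ hχ ξ hξ h0)).resolve_left h11
      rw [h7 h11] at h10
      change _ = H20.vd p ξ at h10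
      omega
  exact ⟨⟨fun h => ⟨χ, hχ, (key χ hχ).1 h⟩, fun ⟨ξ, hξ, h⟩ => (key ξ hξ).2 h⟩,
    ⟨fun h ξ hξ => (key ξ hξ).1 h, fun h => (key χ hχ).2 (h χ hχ)⟩⟩

end Cfsg.Agent.S4426
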