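import Cfsg.Statements.S4430
import Cfsg.Agent.H20.Sec
-- import your own Cfsg.Agent.* helpers here

set_option autoImplicit false
open Cfsg

namespace Cfsg.Agent.S4430

open H17


/-- Let H be a subgroup of the finite group G, b a block of H whose induced block B₀ in G is defined (relative to a maximal ideal M of the algebraic integers containing p), and ξ ∈ b. For a block B of G let n_B be the value at 1 of the B-part of the induced character ξ^G (a natural number: the sum over χ ∈ B of the multiplicity of χ in ξ^G times χ(1)). Then for B = B₀ the exact power of p dividing n_B equals the exact power of p dividing ξ^G(1), while for every other block B either n_B = 0 or n_B is divisible by a strictly higher power of p than ξ^G(1). -/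
theorem result {G : Type*} [Group G] [Fintype G] (p : ℕ) [Fact p.Prime] (M : Ideal Cfsg.AlgInt) (hM : Cfsg.IsPModular p M) (H : Subgroup G) [Fintype H] (b : Set (Cfsg.IrrCharacter H)) (B₀ : Set (Cfsg.IrrCharacter G)) (hind : Cfsg.IsInducedBlock M H b B₀) (ξ : Cfsg.IrrCharacter H) (hξ : ξ ∈ b) : (∃ n : ℕ, Cfsg.blockPart B₀ (Cfsg.indFun H (ξ : H → ℂ)) 1 = (n : ℂ) ∧ n ≠ 0 ∧ n.factorization p = (Cfsg.charDegree (Cfsg.indFun H (ξ : H → ℂ))).factorization p) ∧ ∀ B : Set (Cfsg.IrrCharacter G), Cfsg.IsPBlock M B → B ≠ B₀ → ∃ n : ℕ, Cfsg.blockPart B (Cfsg.indFun H (ξ : H → ℂ)) 1 = (n : ℂ) ∧ (n = 0 ∨ (Cfsg.charDegree (Cfsg.indFun H (ξ : H → ℂ))).factorization p < n.factorization p) := by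
  classical
  obtain ⟨O, hO, _⟩ := H19.exists_over hM
  obtain ⟨γ, β, rfl, rfl, hi⟩ := hO.exists_of_isInducedBlock hind
  have hc := ξ.2.isCharacter.ind
  obtain ⟨d, hd⟩ := hc.exists_nat_one
  have hd0 : (d : ℂ) ≠ 0 := by
    rw [← hd, indFun_one]
    exact mul_ne_zero (by exact_mod_cast Subgroup.index_ne_zero_of_finite) (H19.irr_one_ne_zero ξ)
  have hd1 : d ≠ 0 := by exact_mod_cast hd0
  rw [H19.charDegree_natCast hd]
  have key : ∀ β' : H19.Blk O G, ∃ n : ℕ, blockPart (H19.irr β') (indFun H (ξ : H → ℂ)) 1 = n ∧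
      (n : ℂ) / d ∈ O ∧ H19.res O ((n : ℂ) / d) = if β = β' then 1 else 0 := fun β' => by
    have h1 : IsCharacter G (blockPart (H19.irr β') (indFun H (ξ : H → ℂ))) := by
      rw [H19.blockPart_eq_sum']
      refine isCharacter_sum _ _ fun χ _ => ?_
      obtain ⟨m, hm⟩ := hc.inner_nat χ.2.isCharacter
      rw [hm]; exact χ.2.isCharacter.natCast_smul m
    obtain ⟨n, hn⟩ := h1.exists_nat_one
    have h2 : (n : ℂ) / d = H19.om (ξ : H → ℂ) (H19.resH H (H19.fB (H19.irr β'))) := by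
      rw [← hn, ← hd, H19.blockPart_apply_eq_ev _ hc.isClassFunction, ← MonoidAlgebra.one_def,
        mul_one, H19.ev_eq_sum, H19.om_apply, H19.ev_eq_sum, indFun_one]
      simp only [mul_comm (MonoidAlgebra.coeff _ _), H19.coeff_resH]
      rw [sum_indFun_mul _ fun a b => (H19.mem_ZZ_iff.1 (H19.fB_mem_ZZ _)) a b,
        mul_div_mul_left _ _ (by exact_mod_cast Subgroup.index_ne_zero_of_finite)]
    refine ⟨n, hn, h2 ▸ H19.om_mem ξ.2 (H19.resH_mem_ZZ' H (H19.fB_mem_ZZ _))
      (H19.resH_mem_OG H (H19.fB_irr_mem_OG _)), ?_⟩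
    rw [h2, ← H19.lam_resZ_redZ H ξ (H19.fB_mem_ZZ _) (H19.fB_irr_mem_OG _), H19.mem_irr.1 hξ,
      ← hi.resZ_eB β']
    congr 2
  constructor
  · obtain ⟨n, h1, h2, h3⟩ := key β
    rw [if_pos rfl] at h3
    have h4 : n ≠ 0 := by
      rintro rfl
      rw [Nat.cast_zero, zero_div, H19.res_zero] at h3
      exact zero_ne_one h3
    refine ⟨n, h1, h4, le_antisymm (not_lt.1 fun h5 => ?_) ((H19.natCast_div_mem_iff p h4 hd1).1 h2)⟩
    rw [← H19.natCast_div_mem_nonunits_iff (O := O) p h4 hd1, ← H19.res_eq_zero_iff h2, h3] at h5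
    exact one_ne_zero h5
  · intro B hB hne
    obtain ⟨β', rfl⟩ := hO.exists_blk hB
    obtain ⟨n, h1, h2, h3⟩ := key β'
    rw [if_neg fun h => hne (by rw [h]), H19.res_eq_zero_iff h2] at h3
    refine ⟨n, h1, or_iff_not_imp_left.2 fun h4 => ?_⟩
    exact (H19.natCast_div_mem_nonunits_iff p h4 hd1).1 h3

end Cfsg.Agent.S4430
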