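import Cfsg.Statements.S4431
import Cfsg.Agent.H20.Sec
-- import your own Cfsg.Agent.* helpers here

set_option autoImplicit false
open Cfsg

namespace Cfsg.Agent.S4431

open H17


/-- Let H be a subgroup of the finite group G and b a block of H whose induced block B₀ in G is defined (relative to a maximal ideal M of the algebraic integers containing p). Let χ be an irreducible character of G, ψ ∈ b, and let η be the class function on H equal to p^a · χ on the p-regular elements of H and zero elsewhere, p^a being the p-part of the order of H. Then (a) if χ ∉ B₀, the number [η, ψ]/ψ(1) lies in the local ideal at M; (b) if χ ∈ B₀ has height zero, it does not. -/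
theorem result {G : Type*} [Group G] [Fintype G] (p : ℕ) [Fact p.Prime] (M : Ideal Cfsg.AlgInt) (hM : Cfsg.IsPModular p M) (H : Subgroup G) [Fintype H] (b : Set (Cfsg.IrrCharacter H)) (B₀ : Set (Cfsg.IrrCharacter G)) (hind : Cfsg.IsInducedBlock M H b B₀) (χ : Cfsg.IrrCharacter G) (ψ : Cfsg.IrrCharacter H) (hψ : ψ ∈ b) : (χ ∉ B₀ → Cfsg.MemLocalIdeal M (Cfsg.classInner (fun h : H => if p ∣ orderOf h then (0 : ℂ) else ((p ^ (Nat.card H).factorization p : ℕ) : ℂ) * (χ : G → ℂ) h) (ψ : H → ℂ) / (ψ : H → ℂ) 1)) ∧ (χ ∈ B₀ → Cfsg.blockHeight p B₀ (χ : G → ℂ) = 0 → ¬ Cfsg.MemLocalIdeal M (Cfsg.classInner (fun h : H => if p ∣ orderOf h then (0 : ℂ) else ((p ^ (Nat.card H).factorization p : ℕ) : ℂ) * (χ : G → ℂ) h) (ψ : H → ℂ) / (ψ : H → ℂ) 1)) := by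
  classical
  obtain ⟨O, hO, _⟩ := H19.exists_over hM
  obtain ⟨γ, β, rfl, rfl, hi⟩ := hO.exists_of_isInducedBlock hind
  obtain ⟨m, hm⟩ := H20.bil_pr_int p (χ.2.isGen.restrict H) ψ.2.isGen
  have h1 : classInner (fun h : H => if p ∣ orderOf h then (0 : ℂ) else
      ((p ^ (Nat.card H).factorization p : ℕ) : ℂ) * (χ : G → ℂ) h) (ψ : H → ℂ) = m := by
    rw [← hm, H20.inner_irr_eq_bil, ← smul_eq_mul, ← LinearMap.smul_apply, ← map_smul]
    congr 2
    funext x
    rw [Pi.smul_apply, H19.pr_apply]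
    split_ifs <;> simp
  have h2 : IsAlgebraic ℤ ((m : ℂ) / (ψ : H → ℂ) 1) := by
    rw [← H19.cast_deg]
    exact H19.isAlgebraic_div_natCast (isAlgebraic_int m) _
  have h3 : IsClassFunction H (pRegularPart p fun h : H => (χ : G → ℂ) h) :=
    H19.pr_class (H20.class_restrict (H19.irr_class χ) H)
  have h4 : ∀ y, pRegularPart p (fun h : H => (χ : G → ℂ) h) y ∈ O :=
    H20.pr_mem fun y _ => H19.irr_mem O χ _
  have h5 : (m : ℂ) / (ψ : H → ℂ) 1 ∈ O.nonunits ↔ H20.lamZ β (pRegularPart p χ) = 0 := by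
    rw [← H20.lamZ_res hi (H19.pr_class (H19.irr_class χ)), H19.pr_restrict,
      ← H20.res_ctr h3 h4 hψ, H19.res_eq_zero_iff (H20.ctr_mem h3 h4 ψ), ← hm,
      ValuationSubring.mem_nonunits_iff, ValuationSubring.mem_nonunits_iff, map_div₀, map_div₀,
      map_mul, map_mul, map_pow, H20.val_card O p]
  rw [h1, hO.memLocalIdeal_iff hM h2, h5]
  exact ⟨H20.lamZ_of_not_mem, fun h6 h7 => (H20.lamZ_irr_ne_zero_iff h6).2 h7⟩

end Cfsg.Agent.S4431
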