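import Cfsg.Statements.S4434
import Cfsg.Agent.H20.FR
-- import your own Cfsg.Agent.* helpers here

set_option autoImplicit false
open Cfsg

namespace Cfsg.Agent.S4434

/-- Let N be a normal p-subgroup of the finite group G and write Ḡ = G/N; fix a maximal ideal M of the algebraic integers containing p. Then every block B of G contains a block B̄ of Ḡ (the inflation of every member of B̄ lies in B) whose defect groups are exactly the images in Ḡ of the defect groups of B. -/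
theorem result {G : Type*} [Group G] [Finite G] (p : ℕ) [Fact p.Prime] (M : Ideal Cfsg.AlgInt) (hM : Cfsg.IsPModular p M) (N : Subgroup G) [N.Normal] (hN : IsPGroup p N) (B : Set (Cfsg.IrrCharacter G)) (hB : Cfsg.IsPBlock M B) : ∃ Bbar : Set (Cfsg.IrrCharacter (G ⧸ N)), Cfsg.IsPBlock M Bbar ∧ (∀ χ ∈ Bbar, ∀ ψ : Cfsg.IrrCharacter G, (ψ : G → ℂ) = (χ : G ⧸ N → ℂ) ∘ QuotientGroup.mk → ψ ∈ B) ∧ ∀ Dbar : Subgroup (G ⧸ N), Cfsg.IsDefectGroup p M Bbar Dbar ↔ ∃ P : Subgroup G, Cfsg.IsDefectGroup p M B P ∧ Dbar = P.map (QuotientGroup.mk' N) := by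
  obtain ⟨O, hO, _⟩ := H19.exists_over hM
  obtain ⟨β, rfl⟩ := hO.exists_blk hB
  have := Fintype.ofFinite G
  obtain ⟨P, hP⟩ := H20.exists_isDef p ⊤ (H20.isBlk_eG β).ne_zero
  obtain ⟨b, rfl, hb⟩ := H20.exists_dom_isDef _ (QuotientGroup.mk'_surjective N)
    (by rwa [QuotientGroup.ker_mk']) hP
  refine ⟨_, hO.isPBlock_irr b, fun χ hχ ψ hψ => ?_, fun D => ?_⟩
  · obtain rfl : ψ = H19.infl _ (QuotientGroup.mk'_surjective N) χ := Subtype.ext hψ
    rw [H19.mem_irr, H19.lam_infl, H19.mem_irr.1 hχ]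
  · have key : ∀ g : G, (H20.sc g P).map (QuotientGroup.mk' N) =
        H20.sc (g : G ⧸ N) (P.map (QuotientGroup.mk' N)) := fun g => by
      simp only [H20.sc, Subgroup.map_map]
      congr 1
    simp only [H20.isDefectGroup_iff hO hM]
    constructor
    · intro hD
      obtain ⟨g, -, rfl⟩ := hb.exists_conj (H20.isPrim_eG _) hD
      obtain ⟨g, rfl⟩ := QuotientGroup.mk_surjective g
      exact ⟨_, hP.cj_of_mem (H20.isBlk_eG _).fixed (Subgroup.mem_top g), (key g).symm⟩
    · rintro ⟨P', hP', rfl⟩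
      obtain ⟨g, -, rfl⟩ := hP.exists_conj (H20.isPrim_eG _) hP'
      rw [key]
      exact hb.cj_of_mem (H20.isBlk_eG _).fixed (Subgroup.mem_top _)

end Cfsg.Agent.S4434
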