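import Cfsg.Statements.S4435
import Cfsg.Agent.H20.FR
-- import your own Cfsg.Agent.* helpers here

set_option autoImplicit false
open Cfsg

namespace Cfsg.Agent.S4435

/-- Let N be a normal subgroup of the finite group G, b a block of N (relative to a maximal ideal M of the algebraic integers containing p), and T the stabilizer of b in G (the elements g such that conjugating any member of b by g gives a member of b); N ≤ T. Say that a block of T (or of G) covers b when some member has a constituent in b on restriction to N. Then: (i) every block B′ of T covering b induces a block B of G, B covers b, every ψ ∈ B′ induces to an irreducible character of G, and B consists exactly of the characters induced from members of B′; (ii) distinct blocks of T covering b induce distinct blocks of G; (iii) every block of G covering b is induced by some block of T covering b. -/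
theorem result {G : Type*} [Group G] [Fintype G] (p : ℕ) [Fact p.Prime] (M : Ideal Cfsg.AlgInt) (hM : Cfsg.IsPModular p M) (N : Subgroup G) [hN : N.Normal] [Fintype N] (b : Set (Cfsg.IrrCharacter N)) (hb : Cfsg.IsPBlock M b) (T : Subgroup G) [Fintype T] (hT : ∀ g : G, g ∈ T ↔ ∀ θ ∈ b, ∀ θ' : Cfsg.IrrCharacter N, (∀ n : N, (θ' : N → ℂ) n = (θ : N → ℂ) ⟨g * n * g⁻¹, hN.conj_mem n n.2 g⟩) → θ' ∈ b) (hNT : N ≤ T) : (∀ B' : Set (Cfsg.IrrCharacter T), Cfsg.IsPBlock M B' → (∃ ψ ∈ B', ∃ θ ∈ b, Cfsg.classInner (fun n : N => (ψ : T → ℂ) ⟨(n : G), hNT n.2⟩) (θ : N → ℂ) ≠ 0) → ∃ B : Set (Cfsg.IrrCharacter G), Cfsg.IsInducedBlock M T B' B ∧ (∃ χ ∈ B, ∃ θ ∈ b, Cfsg.classInner (fun n : N => (χ : G → ℂ) n) (θ : N → ℂ) ≠ 0) ∧ (∀ ψ ∈ B', Cfsg.IsIrrCharacter G (Cfsg.indFun T (ψ : T → ℂ))) ∧ ∀ χ : Cfsg.IrrCharacter G, χ ∈ B ↔ ∃ ψ ∈ B', (χ : G → ℂ) = Cfsg.indFun T (ψ : T → ℂ)) ∧ (∀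 B'₁ B'₂ : Set (Cfsg.IrrCharacter T), Cfsg.IsPBlock M B'₁ → Cfsg.IsPBlock M B'₂ → (∃ ψ ∈ B'₁, ∃ θ ∈ b, Cfsg.classInner (fun n : N => (ψ : T → ℂ) ⟨(n : G), hNT n.2⟩) (θ : N → ℂ) ≠ 0) → (∃ ψ ∈ B'₂, ∃ θ ∈ b, Cfsg.classInner (fun n : N => (ψ : T → ℂ) ⟨(n : G), hNT n.2⟩) (θ : N → ℂ) ≠ 0) → ∀ B : Set (Cfsg.IrrCharacter G), Cfsg.IsInducedBlock M T B'₁ B → Cfsg.IsInducedBlock M T B'₂ B → B'₁ = B'₂) ∧ (∀ B : Set (Cfsg.IrrCharacter G), Cfsg.IsPBlock M B → (∃ χ ∈ B, ∃ θ ∈ b, Cfsg.classInner (fun n : N => (χ : G → ℂ) n) (θ : N → ℂ) ≠ 0) → ∃ B' : Set (Cfsg.IrrCharacter T), Cfsg.IsPBlock M B' ∧ (∃ ψ ∈ B', ∃ θ ∈ b, Cfsg.classInner (fun n : N => (ψ : T → ℂ) ⟨(n : G), hNT n.2⟩) (θ : N → ℂ) ≠ 0) ∧ Cfsg.IsInducedBlock M T B' B) := by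
  obtain ⟨O, hO, _⟩ := H19.exists_over hM
  obtain ⟨γ, rfl⟩ := hO.exists_blk hb
  obtain rfl : T = H20.stab (H20.eA N γ) := Subgroup.ext fun g => (hT g).trans H20.inv_normal_iff
  have hc := (H20.isBlk_eA N γ).fr
  have hC := H20.fr_fA γ
  have hCO := H20.fA_mem_OG N γ
  refine ⟨fun B' hB' hcov => ?_, fun B₁ B₂ h₁ h₂ hc₁ hc₂ B hi₁ hi₂ => ?_, fun B hB hcov => ?_⟩
  · obtain ⟨β', rfl⟩ := hO.exists_blk hB'
    have h0 := (H20.cover_iff_le hNT β' γ).1 hcov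
    obtain ⟨b, hb, h1⟩ := hc.exists_blk (H20.isBlk_eA _ β') h0
    obtain ⟨β, rfl⟩ := hb.exists_eG
    have h2 : H20.eG β * H20.eA N γ ≠ 0 := h1 ▸ (H20.isBlk_eA _ β').ne_zero
    have h3 : H20.eG β * H19.red O (H20.fA N (H19.irr γ)) = H20.eA _ β' := by rw [H20.red_fA, h1]
    refine ⟨_, (H20.isInducedBlock_iff hO _ _).2 (h1 ▸ hc.ind hb h2), (H20.cover_iff N β γ).2 h2,
      fun ψ hψ => ?_, fun χ => ⟨fun hχ => ?_, ?_⟩⟩
    · obtain ⟨χ, -, h4⟩ := hC.exists_irr_over hCO h3 hψ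
      exact h4 ▸ χ.2
    · exact hC.exists_irr_under hCO h3 hχ (H20.exists_irr_under_of_cover h2 hχ)
    · rintro ⟨ψ, hψ, h4⟩
      obtain ⟨χ', h5, h6⟩ := hC.exists_irr_over hCO h3 hψ
      rwa [show χ = χ' from Subtype.ext (h4.trans h6.symm)]
  · obtain ⟨β₁, rfl⟩ := hO.exists_blk h₁
    obtain ⟨β₂, rfl⟩ := hO.exists_blk h₂
    obtain ⟨β, rfl⟩ := hO.exists_blk hi₁.2.1
    have h1 := hc.eq_of_ind (H20.isBlk_eA _ β₁) ((H20.cover_iff_le hNT β₁ γ).1 hc₁)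
      ((H20.isInducedBlock_iff hO _ _).1 hi₁)
    have h2 := hc.eq_of_ind (H20.isBlk_eA _ β₂) ((H20.cover_iff_le hNT β₂ γ).1 hc₂)
      ((H20.isInducedBlock_iff hO _ _).1 hi₂)
    rw [H20.eA_inj.1 (h1.symm.trans h2)]
  · obtain ⟨β, rfl⟩ := hO.exists_blk hB
    have h0 := (H20.cover_iff N β γ).1 hcov
    obtain ⟨β', h1⟩ := (hc.isBlk (H20.isBlk_eG β) h0).exists_eA
    refine ⟨_, hO.isPBlock_irr β', (H20.cover_iff_le hNT β' γ).2 ?_,
      (H20.isInducedBlock_iff hO _ _).2 (h1 ▸ hc.ind (H20.isBlk_eG β) h0)⟩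
    rwa [h1, mul_assoc, hc.idem.eq]

end Cfsg.Agent.S4435
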