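import Cfsg.Statements.S4436
import Cfsg.Agent.H20.FR
import Cfsg.Agent.H17.Central
-- import your own Cfsg.Agent.* helpers here

set_option autoImplicit false
open Cfsg

namespace Cfsg.Agent.S4436

/-- Let N be a normal subgroup of the finite group G, b a block of N (relative to a maximal ideal M of the algebraic integers containing p), T the stabilizer of b in G, N ≤ T, and B′ a block of T covering b (some member of B′ has a constituent in b on restriction to N) that induces the block B of G. Then every defect group of B′ is a defect group of B, and for every ψ ∈ B′ the induced character ψ^G is an irreducible character of G lying in B with the same height as ψ. -/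
theorem result {G : Type*} [Group G] [Fintype G] (p : ℕ) [Fact p.Prime] (M : Ideal Cfsg.AlgInt) (hM : Cfsg.IsPModular p M) (N : Subgroup G) [hN : N.Normal] [Fintype N] (b : Set (Cfsg.IrrCharacter N)) (hb : Cfsg.IsPBlock M b) (T : Subgroup G) [Fintype T] (hT : ∀ g : G, g ∈ T ↔ ∀ θ ∈ b, ∀ θ' : Cfsg.IrrCharacter N, (∀ n : N, (θ' : N → ℂ) n = (θ : N → ℂ) ⟨g * n * g⁻¹, hN.conj_mem n n.2 g⟩) → θ' ∈ b) (hNT : N ≤ T) (B' : Set (Cfsg.IrrCharacter T)) (hB' : Cfsg.IsPBlock M B') (hcov : (∃ ψ ∈ B', ∃ θ ∈ b, Cfsg.classInner (fun n : N => (ψ : T → ℂ) ⟨(n : G), hNT n.2⟩) (θ : N → ℂ) ≠ 0)) (B : Set (Cfsg.IrrCharacter G)) (hind : Cfsg.IsInducedBlock M T B' B) : (∀ D : Subgroup T, Cfsg.IsDefectGroup p M B' D → Cfsg.IsDefectGroup p M B (D.map T.subtype)) ∧ ∀ ψ ∈ B', ∃ χ ∈ B, (χ : G → ℂ) = Cfsg.indFun T (ψ : T → ℂ) ∧ Cfsg.blockHeight p B (χ : G → ℂ) = Cfsg.blockHeight p B' (ψ : T → ℂ) := by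
  obtain ⟨O, hO, _⟩ := H19.exists_over hM
  obtain ⟨γ, rfl⟩ := hO.exists_blk hb
  have hT' : T = H20.stab (H20.eA N γ) := Subgroup.ext fun g => (hT g).trans H20.inv_normal_iff
  have hc := (H20.isBlk_eA N γ).fr
  have hC := H20.fr_fA γ
  rw [← hT'] at hc hC
  have hCO := H20.fA_mem_OG N γ
  obtain ⟨β', rfl⟩ := hO.exists_blk hB'
  obtain ⟨β, rfl⟩ := hO.exists_blk hind.2.1
  have h1 := hc.eq_of_ind (H20.isBlk_eA _ β') ((H20.cover_iff_le hNT β' γ).1 hcov)
      ((H20.isInducedBlock_iff hO _ _).1 hind)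
  have h2 : H20.eG β * H20.eA N γ ≠ 0 := h1 ▸ (H20.isBlk_eA _ β').ne_zero
  have h3 : H20.eG β * H19.red O (H20.fA N (H19.irr γ)) = H20.eA _ β' := by rw [H20.red_fA, h1]
  refine ⟨fun D hD => ?_, fun ψ hψ => ?_⟩
  · rw [H20.isDefectGroup_iff_up hO hM, ← h1] at hD
    exact (H20.isDefectGroup_iff hO hM _ _).2 (hc.isDef (H20.isBlk_eG β) hD)
  · obtain ⟨χ, hχ, h4⟩ := hC.exists_irr_over hCO h3 hψ
    refine ⟨χ, hχ, h4, ?_⟩
    have key : ∀ (χ : IrrCharacter G) (ψ : IrrCharacter T), (χ : G → ℂ) = indFun T (ψ : T → ℂ) →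
        (charDegree (χ : G → ℂ)).factorization p =
          T.index.factorization p + (charDegree (ψ : T → ℂ)).factorization p := by
      intro χ ψ h
      have : charDegree (χ : G → ℂ) = T.index * charDegree (ψ : T → ℂ) :=
        H19.charDegree_natCast (by rw [h, H17.indFun_one, Nat.cast_mul, H19.cast_deg])
      rw [this, Nat.factorization_mul T.index_ne_zero_of_finite (H19.deg_ne_zero ψ)]
      rfl
    have h5 : sInf ((fun ψ : IrrCharacter G => (charDegree (ψ : G → ℂ)).factorization p) ''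
        H19.irr β) = T.index.factorization p + sInf ((fun ψ : IrrCharacter T =>
          (charDegree (ψ : T → ℂ)).factorization p) '' H19.irr β') := by
      apply le_antisymm
      · obtain ⟨ψ', hψ', h6⟩ := Nat.sInf_mem ((H19.irr_nonempty β').image
          fun ψ : IrrCharacter T => (charDegree (ψ : T → ℂ)).factorization p)
        obtain ⟨χ', hχ', h7⟩ := hC.exists_irr_over hCO h3 hψ'
        rw [← h6, ← key χ' ψ' h7]
        exact Nat.sInf_le ⟨χ', hχ', rfl⟩
      · obtain ⟨χ', hχ', h6⟩ := Nat.sInf_mem ((H19.irr_nonempty β).image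
          fun ψ : IrrCharacter G => (charDegree (ψ : G → ℂ)).factorization p)
        obtain ⟨ψ', hψ', h7⟩ := hC.exists_irr_under hCO h3 hχ'
          (H20.exists_irr_under_of_cover h2 hχ')
        rw [← h6]
        simp only
        rw [key χ' ψ' h7]
        exact Nat.add_le_add_left (Nat.sInf_le (Set.mem_image_of_mem _ hψ')) _
    rw [blockHeight, blockHeight, h5, key χ ψ h4]
    omega

end Cfsg.Agent.S4436
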