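import Cfsg.Statements.S4437
import Cfsg.Agent.H20.FR
import Cfsg.Agent.H20.Fus
import Cfsg.Agent.H19.Main1
-- import your own Cfsg.Agent.* helpers here

set_option autoImplicit false
open Cfsg

namespace Cfsg.Agent.S4437

/-- Let P be a p-subgroup of the finite group G, H = P·C_G(P), and b a block of H (relative to a maximal ideal M of the algebraic integers containing p) having P as a defect group; let B be the block of G induced by b. Let T be the stabilizer of b in N_G(P): the elements g of N_G(P) such that the g-conjugate of every member of b is again a member of b. Then B has defect group P if and only if p does not divide the index of H in T. -/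
theorem result {G : Type*} [Group G] [Fintype G] (p : ℕ) [Fact p.Prime] (M : Ideal Cfsg.AlgInt) (hM : Cfsg.IsPModular p M) (P : Subgroup G) (hP : IsPGroup p P) (H : Subgroup G) [Fintype H] (hH : H = P ⊔ Subgroup.centralizer (P : Set G)) (b : Set (Cfsg.IrrCharacter H)) (hb : Cfsg.IsPBlock M b) (hbP : Cfsg.IsDefectGroup p M b (P.subgroupOf H)) (B : Set (Cfsg.IrrCharacter G)) (hind : Cfsg.IsInducedBlock M H b B) (T : Subgroup G) (hT : ∀ g : G, g ∈ T ↔ (g ∈ Subgroup.normalizer (P : Set G) ∧ ∀ θ ∈ b, ∀ θ' : Cfsg.IrrCharacter H, (∀ h h' : H, (h' : G) = g * h * g⁻¹ → (θ' : H → ℂ) h' = (θ : H → ℂ) h) → θ' ∈ b)) : Cfsg.IsDefectGroup p M B P ↔ ¬ p ∣ H.relIndex T := by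
  obtain ⟨O, hO, _⟩ := H19.exists_over hM
  obtain ⟨γ, rfl⟩ := hO.exists_blk hb
  obtain ⟨β, rfl⟩ := hO.exists_blk hind.2.1
  have hPH : P ≤ H := hH ▸ le_sup_left
  have hCH : H20.cent P ≤ H := hH ▸ le_sup_right
  have hHN : H ≤ H20.nrm P := hH ▸ sup_le (H20.le_nrm_self P) (H20.cent_le_nrm P)
  have hNH : H20.nrm P ≤ H20.nrm H := fun g hg => by
    rw [H20.mem_nrm, hH, H20.sc_sup, ← H20.cent_sc, H20.sc_eq_of_nrm hg]
  have he := H20.isBlk_eA H γ
  obtain rfl : T = H20.nrm P ⊓ H20.stab (H20.eA H γ) := Subgroup.ext fun g => by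
    rw [hT g, Subgroup.mem_inf]
    exact and_congr_right fun hg => H20.inv_iff_cj (hNH hg)
  have h1 := (he.supp_cent_of_normal hP hPH hHN)
  have h2 : H20.IsBlk (H20.cent P) (H20.eA H γ) :=
    H19.isBlk_cent_iff hH (H20.supp_mono inf_le_right h1) he
  have h3 : H20.PairOf p ⊤ ⊤ (H20.eG β) P (H20.eA H γ) :=
    ⟨H20.isPair_top.2 ⟨hP, h2⟩, le_top, (H20.ind_iff_br hP le_top (hPH.trans (H20.le_nrm_self H))
      (inf_le_right.trans hCH) le_top hHN he (H20.isBlk_eG β)).1
      ((H20.isInducedBlock_iff hO _ _).1 hind)⟩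
  have h4 := (H20.isDefectGroup_subgroupOf_iff_of_le hO hM γ hPH).1 hbP
  rw [H20.isDefectGroup_iff hO hM]
  have hHT : H ≤ H20.nrm P ⊓ H20.stab (H20.eA H γ) :=
    le_inf hHN (H20.mem_fixed_iff_le_stab.1 he.fixed)
  constructor
  · intro hD
    have h5 := (H20.Max.mk (H20.isBlk_eG β) h3 hD).isDef_stab
    rw [top_inf_eq] at h5
    have h6 := h5.not_dvd_relIndex h2 (inf_le_left.trans (H20.nrm_le_nrm_cent P)) (hCH.trans hHT)
      (H20.mem_fixed_iff_le_stab.2 inf_le_right)
    rwa [← hH] at h6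
  · intro hi
    refine h3.isDef_of_br (H20.isPrim_eG β) (H20.le_nrm_top _) le_rfl fun R hR h5 h6 => ?_
    rw [top_inf_eq] at h6
    refine h4.br_eq_zero hR ?_ h5
    intro x hx
    have hn := H20.normal_subgroupOf_of_le_nrm (inf_le_left.trans hNH :
      H20.nrm P ⊓ H20.stab (H20.eA H γ) ≤ _)
    have h7 := ((H19.isPElt_coe_iff (x := (⟨x, h6 hx⟩ : ↥(H20.nrm P ⊓ H20.stab (H20.eA H γ))))).1
      (H19.isPElt_of_mem hR hx)).map (QuotientGroup.mk' (H.subgroupOf _))
    have h8 := h7.eq_one fun h => hi (h.trans (orderOf_dvd_natCard _))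
    rw [QuotientGroup.mk'_apply, QuotientGroup.eq_one_iff] at h8
    exact h8

end Cfsg.Agent.S4437
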