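import Cfsg.Statements.S4438
import Cfsg.Agent.H20.FR
-- import your own Cfsg.Agent.* helpers here

set_option autoImplicit false
open Cfsg

namespace Cfsg.Agent.S4438

/-- Let N be a normal subgroup of the finite group G, b a block of N with defect group Q, and B a block of G covering b (some member of B has a constituent in b on restriction to N), all relative to a maximal ideal M of the algebraic integers containing p. Then B has a defect group P with P ⊓ N = Q. -/
theorem result {G : Type*} [Group G] [Fintype G] (p : ℕ) [Fact p.Prime] (M : Ideal Cfsg.AlgInt) (hM : Cfsg.IsPModular p M) (N : Subgroup G) [hN : N.Normal] [Fintype N] (b : Set (Cfsg.IrrCharacter N)) (hb : Cfsg.IsPBlock M b) (Q : Subgroup G) (hQN : Q ≤ N) (hQ : Cfsg.IsDefectGroup p M b (Q.subgroupOf N)) (B : Set (Cfsg.IrrCharacter G)) (hB : Cfsg.IsPBlock M B) (hcov : (∃ χ ∈ B, ∃ θ ∈ b, Cfsg.classInner (fun n : N => (χ : G → ℂ) n) (θ : N → ℂ) ≠ 0)) : ∃ P : Subgroup G, Cfsg.IsDefectGroup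 p M B P ∧ P ⊓ N = Q := by
  obtain ⟨O, hO, _⟩ := H19.exists_over hM
  obtain ⟨γ, rfl⟩ := hO.exists_blk hb
  obtain ⟨β, rfl⟩ := hO.exists_blk hB
  have h0 := (H20.cover_iff N β γ).1 hcov
  have hb := H20.isBlk_eG β
  have hc := H20.isBlk_eA N γ
  have hn := H20.top_le_nrm N
  have h4 := (H20.isDefectGroup_subgroupOf_iff_of_le hO hM γ hQN).1 hQ
  obtain ⟨P, hP⟩ := H20.exists_isDef p ⊤ hb.ne_zero
  obtain ⟨c, hc', h1, h2⟩ := H20.exists_stable_cover hn (H20.fixed_anti le_top hb.fixed) hP.pg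
    le_top hP.ne
  have h3 : H20.eG β * c ≠ 0 := fun h => h2 (by rw [h, map_zero])
  rw [H20.br_mul hP.pg (H20.fixed_anti le_top hb.fixed) h1] at h2
  have h5 := hP.inf_of_cover hn le_top hb hc' h3
    (H20.br_ne_zero_of_le inf_le_left (right_ne_zero_of_mul h2))
  obtain ⟨g, hg, h6⟩ := H20.exists_conj_of_cover hn le_top hb hc' hc h3 h0
  have h7 := h5.cj g
  rw [h6, H20.sc_eq_of_nrm (hn hg)] at h7
  obtain ⟨n, hn', h8⟩ := h7.exists_conj (N := N) hc h4
  refine ⟨H20.sc (n * g) P, (H20.isDefectGroup_iff hO hM _ _).2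
    (hP.cj_of_mem hb.fixed (Subgroup.mem_top _)), ?_⟩
  rw [← h8, ← H20.sc_mul, H20.sc_inf, H20.sc_eq_of_nrm (hn (Subgroup.mem_top _))]

end Cfsg.Agent.S4438
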