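import Cfsg.Statements.S4440
import Cfsg.Agent.H20.PSol
-- import your own Cfsg.Agent.* helpers here

set_option autoImplicit false
open Cfsg

namespace Cfsg.Agent.S4440

/-- Let G be a finite p-solvable group and fix a maximal ideal M of the algebraic integers containing p. Let U be a set of irreducible characters of G such that the class function Σ_{χ ∈ U} χ(1)·χ vanishes at every p-singular element of G. Then U is a union of p-blocks: if χ ∈ U and ψ lies in the same block as χ, then ψ ∈ U. -/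
theorem result {G : Type*} [Group G] [Finite G] (p : ℕ) [Fact p.Prime] (M : Ideal Cfsg.AlgInt) (hM : Cfsg.IsPModular p M) (hsolv : Cfsg.IsPSolvable p G) (U : Set (Cfsg.IrrCharacter G)) (hU : ∀ x : G, p ∣ orderOf x → ∑ᶠ χ ∈ U, (χ : G → ℂ) 1 * (χ : G → ℂ) x = 0) (χ : Cfsg.IrrCharacter G) (hχ : χ ∈ U) (ψ : Cfsg.IrrCharacter G) (hψ : Cfsg.SameBlock M (χ : G → ℂ) (ψ : G → ℂ)) : ψ ∈ U := by
  classical
  obtain ⟨O, hO, _⟩ := H19.exists_over hM
  refine H20.harada G hsolv (H19.lam O χ) U (fun g hg h => hg ?_) χ rfl ψ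
    ((hO.sameBlock_iff χ ψ).1 hψ).symm hχ
  have := hU g⁻¹ (by rwa [orderOf_inv])
  rw [H19.finsum_mem_irr] at this
  rw [H19.coeff_fB, H19.blockCoeff_eq_sum, this, mul_zero]

end Cfsg.Agent.S4440
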