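import Cfsg.Statements.S4442
import Cfsg.Agent.H20.Cyc7
-- import your own Cfsg.Agent.* helpers here

set_option autoImplicit false
open Cfsg

namespace Cfsg.Agent.S4442

/-- Blocks of defect one. Let p be an odd prime and G a finite group whose Sylow p-subgroup P has order p; let C = C_G(P) and N = N_G(P), and fix a maximal ideal M of the algebraic integers containing p. Let B be a block of G with defect group P, b a block of C inducing B, and θ the member of b having P in its kernel (there is exactly one). Let T be the stabilizer of θ in N (the elements g ∈ N with θ(g c g⁻¹) = θ(c) for all c ∈ C) and e the index of C in T. Then e divides p − 1 and B contains exactly e + (p − 1)/e irreducible characters. Moreover B is the disjoint union of a set X of e characters and a set Y of (p − 1)/e characters such that, with f the index of C in N: every χ ∈ X has χ(1) ≡ ±(f/e)·θ(1) (mod p), there is one sign ε with ψ(1) ≡ ε f θ(1) (mod p) for all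 ψ ∈ Y, and all members of Y agree on the p-regular elements of G. -/
theorem result {G : Type*} [Group G] [Finite G] (p : ℕ) [Fact p.Prime] (M : Ideal Cfsg.AlgInt) (hM : Cfsg.IsPModular p M) (hodd : p ≠ 2) (P : Sylow p G) (hP : Nat.card P = p) (B : Set (Cfsg.IrrCharacter G)) (hB : Cfsg.IsPBlock M B) (hBP : Cfsg.IsDefectGroup p M B P) (b : Set (Cfsg.IrrCharacter (Subgroup.centralizer ((P : Subgroup G) : Set G)))) (hind : Cfsg.IsInducedBlock M (Subgroup.centralizer ((P : Subgroup G) : Set G)) b B) (θ : Cfsg.IrrCharacter (Subgroup.centralizer ((P : Subgroup G) : Set G))) (hθ : θ ∈ b) (hθP : ∀ x : Subgroup.centralizer ((P : Subgroup G) : Set G), (x : G) ∈ (P : Subgroup G) → (θ : Subgroup.centralizer ((P : Subgroup G) : Set G) → ℂ) x = (θ : Subgroup.centralizer ((P : Subgroup G) : Set G) → ℂ) 1) (T : Subgroup G) (hT : ∀ g : G, g ∈ T ↔ (g ∈ Subgroup.normalizer ((P : Subgroup G) : Set G) ∧ ∀ c c' : Subgroup.centralizer ((P : Subgroup G) : Set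 G), (c' : G) = g * c * g⁻¹ → (θ : Subgroup.centralizer ((P : Subgroup G) : Set G) → ℂ) c' = (θ : Subgroup.centralizer ((P : Subgroup G) : Set G) → ℂ) c)) (e f : ℕ) (he : (Subgroup.centralizer ((P : Subgroup G) : Set G)).relIndex T = e) (hf : (Subgroup.centralizer ((P : Subgroup G) : Set G)).relIndex (Subgroup.normalizer ((P : Subgroup G) : Set G)) = f) : e ∣ p - 1 ∧ Nat.card B = e + (p - 1) / e ∧ ∃ X Y : Set (Cfsg.IrrCharacter G), B = X ∪ Y ∧ Disjoint X Y ∧ Nat.card X = e ∧ Nat.card Y = (p - 1) / e ∧ (∀ χ ∈ X, (Cfsg.charDegree (χ : G → ℂ) : ℤ) ≡ ((f / e * Cfsg.charDegree (θ : Subgroup.centralizer ((P : Subgroup G) : Set G) → ℂ) : ℕ) : ℤ) [ZMOD p] ∨ (Cfsg.charDegree (χ : G → ℂ) : ℤ) ≡ -((f / e * Cfsg.charDegree (θ : Subgroup.centralizer ((P : Subgroup G) : Set G) → ℂ) : ℕ) : ℤ) [ZMOD p]) ∧ (∃ ε : ℤ, (ε = 1 ∨ ε = -1) ∧ ∀ ψ ∈ Y, (Cfsg.charDegree (ψ : G → ℂ) : ℤ) ≡ ε * ((f * Cfsg.charDegree (θ : Subgroup.centralizer ((P : Subgroup G) : Set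 G) → ℂ) : ℕ) : ℤ) [ZMOD p]) ∧ ∀ ψ ∈ Y, ∀ ψ' ∈ Y, ∀ g : G, ¬ p ∣ orderOf g → (ψ : G → ℂ) g = (ψ' : G → ℂ) g := by
  obtain ⟨O, hO, _⟩ := H19.exists_over hM
  obtain ⟨β, rfl⟩ := hO.exists_blk hB
  obtain ⟨ε, rfl⟩ := hO.exists_blk hind.1
  have C := H20.cy_of_card (H20.max_of_induced hO hM hBP hind) hP
  obtain rfl := C.max.eq_TT_of_canon C.ab hθ hθP hT
  obtain ⟨X, Y, ζ, δ, δ₀, s, h⟩ := C.dade
  have h1 := H20.ext_mem_IB.2 hθ
  have h2 := (H20.ext_one _).trans (H19.cast_charDegree (H17.Cfsg.IsIrrCharacter.isCharacter θ.2)).symm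
  have h3 := C.card_IB
  have h4 : f / e = (H20.TT P (H20.eA _ ε)).relIndex (H20.nrm P) := by
    rw [← hf, ← he, ← Subgroup.relIndex_mul_relIndex _ _ _ C.pair.cent_le_TT inf_le_left,
      Nat.mul_div_cancel_left _ C.e_pos]
  subst he hf
  rw [hP, H20.card_IB_top] at h3
  refine ⟨C.dvd, h3, H20.sI X, H20.sI Y, h.sI_union, h.sI_disj,
    (H20.card_sI fun _ => h.X_irr).trans h.cardX,
    (H20.card_sI fun _ => h.Y_irr).trans (by rw [h.cardY_eq, hP]), fun χ hχ => ?_,
    ⟨-δ₀, by rcases h.sgn₀ with h | h <;> simp [h], fun θ hθ => h.deg_Y_gen C hθ h1 h2⟩,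
    fun ψ hψ ψ' hψ' => h.regY _ hψ _ hψ'⟩
  have := h.deg_X_gen C hχ h1 h2
  rw [h4]
  rcases h.sgnX _ hχ with h5 | h5 <;> rw [h5] at this
  · exact Or.inl (by rwa [one_mul] at this)
  · exact Or.inr (by rwa [neg_one_mul] at this)

end Cfsg.Agent.S4442
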