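import Cfsg.Statements.S4443
import Cfsg.Agent.H20.Eq
-- import your own Cfsg.Agent.* helpers here

set_option autoImplicit false
open Cfsg

namespace Cfsg.Agent.S4443

section
open MonoidAlgebra Subgroup H10 H17 H20 Finset
open H19 (kk Blk irr eB fB lam OG red ZZ om ev classSum setSum cls)

theorem rank_map {F k ι : Type*} [Field F] [Field k] [Fintype ι] [DecidableEq ι] (φ : F →+* k)
    (M : Matrix ι ι F) : (M.map φ).rank = M.rank := by
  classical
  obtain ⟨L, L', D, rfl⟩ := Matrix.Pivot.exists_list_transvec_mul_diagonal_mul_list_transvec M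
  have h : ∀ L : List (Matrix.TransvectionStruct ι F), IsUnit (Matrix.map
      (L.map Matrix.TransvectionStruct.toMatrix).prod φ).det := fun L => by
    rw [← RingHom.mapMatrix_apply, ← RingHom.map_det]; simp
  rw [Matrix.map_mul, Matrix.map_mul, Matrix.rank_mul_eq_left_of_isUnit_det _ _ (h L'),
    Matrix.rank_mul_eq_right_of_isUnit_det _ _ (h L),
    Matrix.rank_mul_eq_left_of_isUnit_det _ _ (by simp),
    Matrix.rank_mul_eq_right_of_isUnit_det _ _ (by simp), Matrix.diagonal_map (map_zero φ),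
    Matrix.rank_diagonal, Matrix.rank_diagonal]
  simp

variable {O : ValuationSubring ℂ} {G : Type*} [Group G] [Finite G] {p : ℕ} [hp : Fact p.Prime]
  [CharP (kk O) p] {β : Blk O G}

omit hp [CharP (kk O) p] in
theorem res_sum_om [DecidablePred (· ∈ irr β)] (w : IrrCharacter G → ℂ) (hw : ∀ χ ∈ irr β, w χ ∈ O)
    (g : G) : ∑ χ with χ ∈ irr β, w χ * om (χ : G → ℂ) (classSum ℂ g) ∈ O ∧
      H19.res O (∑ χ with χ ∈ irr β, w χ * om (χ : G → ℂ) (classSum ℂ g)) =
        β (cls (kk O) g) * H19.res O (∑ χ with χ ∈ irr β, w χ) := by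
  have h1 := fun χ : IrrCharacter G =>
    H19.om_mem (O := O) χ.2 (H19.classSum_mem g) (H19.classSum_mem_OG g)
  have h2 := fun χ (h : χ ∈ univ.filter (· ∈ irr β)) => hw χ (mem_filter.1 h).2
  refine ⟨sum_mem fun χ h => mul_mem (h2 χ h) (h1 χ), ?_⟩
  rw [H19.res_sum _ fun χ h => mul_mem (h2 χ h) (h1 χ), H19.res_sum _ h2, mul_sum]
  refine sum_congr rfl fun χ h => ?_
  rw [H19.res_mul (h2 χ h) (h1 χ), ← show lam O χ = β from (mem_filter.1 h).2, H19.lam_cls,
    H19.om_classSum (H19.irr_class χ), mul_comm]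

omit hp [CharP (kk O) p] in
theorem ev_setSum_mem (O : ValuationSubring ℂ) (S : Subgroup G) (χ : IrrCharacter G) :
    ev (χ : G → ℂ) (setSum ℂ (S : Set G)) / Nat.card S ∈ O := by
  classical
  have := Fintype.ofFinite G
  obtain ⟨n, hn⟩ := (χ.2.isCharacter.restrict S).inner_nat isCharacter_one
  have : ev (χ : G → ℂ) (setSum ℂ (S : Set G)) / Nat.card S = n := by
    rw [← hn, H19.ev_setSum, classInner, sum_subtype (p := (· ∈ S)) (F := inferInstance) _ (by simp)]
    simp [div_eq_inv_mul]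
  exact this ▸ natCast_mem O n

theorem block_term {D S : Subgroup G} [D.Normal] (hD : IsPGroup p D) (hS : IsSylowIn p S ⊤)
    (β : Blk O G) : ∃ c : kk O, (IsDef p ⊤ (eG β) D → c ≠ 0) ∧ ∀ x y, IsSylowIn p D (centralizer {x}) →
      IsSylowIn p D (centralizer {y}) →
      (Nat.card D / Nat.card S : ℂ) *
        (fB (irr β) * (classSum ℂ x * classSum ℂ y * setSum ℂ (S : Set G))).coeff 1 ∈ O ∧
      H19.res O ((Nat.card D / Nat.card S : ℂ) *
        (fB (irr β) * (classSum ℂ x * classSum ℂ y * setSum ℂ (S : Set G))).coeff 1) =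
        β (cls (kk O) y) * c * β (cls (kk O) x) ∧
      (¬ IsDef p ⊤ (eG β) D → β (cls (kk O) x) = 0) := by
  classical
  have := Fintype.ofFinite G
  set w : IrrCharacter G → ℂ := fun χ => Nat.card D * (χ : G → ℂ) 1 / Nat.card G *
    (ev (χ : G → ℂ) (setSum ℂ (S : Set G)) / Nat.card S)
  have hG : (Nat.card G : ℂ) ≠ 0 := card_ne_zero_complex
  have h0 : ∑ χ with χ ∈ irr β, w χ = Nat.card D / Nat.card S * blockCoeff (irr β) 1 := by
    have h := sum_deg_ev_blk (β := β) (setSum ℂ (S : Set G))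
    rw [coeff_mul_apply_left, Finsupp.sum_fintype _ _ (by simp), sum_eq_single (1 : G) (fun g _ hg => by
      by_cases e : g ∈ S
      · rw [H19.coeff_fB, H19.blockCoeff_irr_eq_zero β (not_not.1 fun e' => hg
          (H19.IsPElt.eq_one (H19.isPElt_of_mem hS.isPGroup e) e')), zero_mul]
      · rw [H19.coeff_setSum_of_not_mem (by simpa using e), mul_zero]) (by simp),
      H19.coeff_setSum_of_mem (by simp), H19.coeff_fB, mul_one] at h
    rw [← mul_right_inj' hG, mul_left_comm, ← h, mul_sum, mul_sum]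
    exact sum_congr rfl fun χ _ => by simp only [w]; field_simp
  refine ⟨H19.res O (∑ χ with χ ∈ irr β, w χ), fun h => ?_, fun x y hx hy => ?_⟩
  · have : O.valuation (∑ χ with χ ∈ irr β, w χ) = 1 := by
      rw [h0, map_mul, val_blockCoeff_one, h.card_eq_pow, hS.card_eq_pow, card_top,
        ← defect_add_emin p (H19.irr_nonempty β)]
      have := val_p_ne_zero O p
      simp only [map_div₀, Nat.cast_pow, map_pow, pow_add, Nat.cast_mul, map_mul]
      field_simp
    exact (res_ne_zero_iff (mem_of_val_eq_one this)).2 this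
  have h1 : (Nat.card D / Nat.card S : ℂ) *
      (fB (irr β) * (classSum ℂ x * classSum ℂ y * setSum ℂ (S : Set G))).coeff 1 =
      ∑ χ with χ ∈ irr β, w χ * om (χ : G → ℂ) (classSum ℂ y) * om (χ : G → ℂ) (classSum ℂ x) := by
    rw [← mul_right_inj' hG, mul_left_comm, ← sum_deg_ev_blk, mul_sum, mul_sum]
    refine sum_congr rfl fun χ _ => ?_
    rw [mul_assoc (classSum ℂ x), H19.ev_central_mul χ.2 (H19.classSum_mem x),
      H19.ev_central_mul χ.2 (H19.classSum_mem y)]
    simp only [w]; field_simp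
  have h2 := res_sum_om (β := β) (fun χ => w χ * om (χ : G → ℂ) (classSum ℂ y)) (fun χ _ => by
    have e : w χ * om (χ : G → ℂ) (classSum ℂ y) = ((D.relIndex (centralizer {y}) : ℂ))⁻¹ *
        (χ : G → ℂ) y * (ev (χ : G → ℂ) (setSum ℂ (S : Set G)) / Nat.card S) := by
      have := H19.irr_one_ne_zero χ
      have h3 : (Nat.card D : ℂ) ≠ 0 := card_ne_zero_complex
      have h4 : (D.relIndex (centralizer {y}) : ℂ) ≠ 0 := by
        exact Nat.cast_ne_zero.2 fun h => hy.not_dvd_relIndex (h ▸ dvd_zero p)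
      rw [H19.om_classSum (H19.irr_class χ), centralChar, index_mul_div,
        ← card_mul_relIndex hy.le]
      simp only [w]; push_cast; field_simp
    exact e ▸ mul_mem (mul_mem (H19.inv_natCast_mem p hy.not_dvd_relIndex)
      (H19.irr_mem O χ y)) (ev_setSum_mem O S χ)) x
  have h3 : ¬ IsDef p ⊤ (eG β) D → β (cls (kk O) x) = 0 := fun h => by_contra fun e => h
    (isDef_of_card hD (H19.br_eB_ne_zero hD β) (hx.card_eq_pow ▸
      Nat.pow_le_pow_right hp.out.pos (le_fact_cent_of_cls e)))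
  refine ⟨h1 ▸ h2.1, ?_, h3⟩
  rw [h1, h2.2]
  by_cases h : IsDef p ⊤ (eG β) D
  · rw [(res_sum_om w (fun χ hχ => mul_mem ?_ (ev_setSum_mem O S χ)) y).2, mul_comm]
    rw [← O.valuation_le_one_iff, map_div₀, map_mul, val_deg, val_card (O := O) (p := p) G, h.card_eq_pow,
      Nat.cast_pow, map_pow, ← pow_add, add_comm, div_le_one₀ (pow_pos (zero_lt_iff.2
        (val_p_ne_zero O p)) _)]
    exact pow_le_pow_of_le_one zero_le (O.valuation_le_one ⟨_, natCast_mem O p⟩)
      (H19.le_vd_add hχ)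
  · rw [h3 h, zero_mul, mul_zero]

omit [Finite G] in
theorem conj_inv' {x y : G} (h : IsConj x y) : IsConj x⁻¹ y⁻¹ := by
  obtain ⟨c, rfl⟩ := isConj_iff.1 h
  exact isConj_iff.2 ⟨c, by group⟩

omit hp [CharP (kk O) p] in
theorem coeff_count (S : Subgroup G) (x y : G) :
    (classSum ℂ x * classSum ℂ y⁻¹ * setSum ℂ (S : Set G)).coeff 1 = Nat.card {yz : G × G //
      yz.1 ∈ (ConjClasses.mk y).carrier ∧ yz.2 ∈ (ConjClasses.mk x).carrier ∧ yz.2 * yz.1⁻¹ ∈ S} := by
  classical
  have := Fintype.ofFinite G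
  rw [Nat.card_eq_fintype_card, Fintype.card_subtype, card_filter, Fintype.sum_prod_type_right,
    mul_assoc, coeff_mul_apply_left, Finsupp.sum_fintype _ _ (by simp)]
  push_cast
  refine sum_congr rfl fun z _ => ?_
  rw [coeff_mul_apply_left, Finsupp.sum_fintype _ _ (by simp), mul_sum]
  refine Fintype.sum_equiv (Equiv.inv G) _ _ fun u => ?_
  simp only [H19.coeff_classSum, H19.coeff_setSum, ConjClasses.mem_carrier_iff_mk_eq,
    ConjClasses.mk_eq_mk_iff_isConj, Equiv.inv_apply, inv_inv, mul_one, ← mul_inv_rev,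
    SetLike.mem_coe, inv_mem_iff, isConj_comm (g := z), isConj_comm (g := u⁻¹)]
  simp only [show IsConj y⁻¹ u ↔ IsConj y u⁻¹ from ⟨fun h => by simpa using conj_inv' h, fun h => by
    simpa using conj_inv' h⟩]
  split_ifs <;> simp_all

end


/-- Let D be a normal p-subgroup of the finite group G, of order p^d, let p^a be the p-part of the order of G, and fix a Sylow p-subgroup S and a maximal ideal M of the algebraic integers containing p. Index by a finite type ι (via an injective map K) exactly the conjugacy classes of p-regular elements x of G for which D is a Sylow p-subgroup of C_G(x). For classes K_i, K_j let ω(i, j) be the number of pairs (y, z) ∈ K_i × K_j with z y⁻¹ ∈ S; this number is divisible by p^(a−d). Then the number of p-blocks of G having D as a defect group equals the rank over ℤ/pℤ of the matrix with (i, j) entry ω(i, j)/p^(a−d) reduced modulo p. -/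
theorem result {G : Type*} [Group G] [Finite G] (p : ℕ) [Fact p.Prime] (M : Ideal Cfsg.AlgInt) (hM : Cfsg.IsPModular p M) (D : Subgroup G) [D.Normal] (hD : IsPGroup p D) (S : Sylow p G) {ι : Type*} [Fintype ι] [DecidableEq ι] (K : ι → ConjClasses G) (hKinj : Function.Injective K) (hK : ∀ C : ConjClasses G, (∃ i, K i = C) ↔ ∃ x ∈ C.carrier, ¬ p ∣ orderOf x ∧ ∃ Q : Sylow p (Subgroup.centralizer ({x} : Set G)), (Q : Subgroup (Subgroup.centralizer ({x} : Set G))).map (Subgroup.centralizer ({x} : Set G)).subtype = D) : Nat.card {B : Set (Cfsg.IrrCharacter G) // Cfsg.IsPBlock M B ∧ Cfsg.IsDefectGroup p M B D} = (Matrix.of fun i j : ι => ((Nat.card {yz : G × G // yz.1 ∈ (K i).carrier ∧ yz.2 ∈ (K j).carrier ∧ yz.2 * yz.1⁻¹ ∈ (S : Subgroup G)} / p ^ ((Nat.card G).factorization p - (Nat.card D).factorization p) : ℕ) : ZMod p)).rank := by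
  classical
  obtain ⟨O, hO, _⟩ := H19.exists_over hM
  have := Fintype.ofFinite G
  choose x hx h1 Q hQ using fun i => (hK _).1 ⟨i, rfl⟩
  have hs : ∀ i, H10.IsSylowIn p D (Subgroup.centralizer {x i}) := fun i =>
    hQ i ▸ H10.isSylowIn_map_subtype (Q i)
  have hx' : ∀ i, K i = ConjClasses.mk (x i) := fun i => (ConjClasses.mem_carrier_iff_mk_eq.1 (hx i)).symm
  set T := {β : H19.Blk O G // H20.IsDef p ⊤ (H20.eG β) D}
  have e1 : Nat.card {B : Set (IrrCharacter G) // IsPBlock M B ∧ IsDefectGroup p M B D} = Fintype.card T := by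
    rw [← Nat.card_eq_fintype_card]
    refine (Nat.card_congr (Equiv.ofBijective (fun β : T => ⟨H19.irr β.1, hO.isPBlock_irr _,
      (H20.isDefectGroup_iff hO hM _ _).2 β.2⟩) ⟨fun a b h => Subtype.ext
        (H19.irr_injective (congrArg Subtype.val h)), fun B => ?_⟩)).symm
    obtain ⟨β, h⟩ := hO.exists_blk B.2.1
    exact ⟨⟨β, (H20.isDefectGroup_iff hO hM _ _).1 (h ▸ B.2.2)⟩, Subtype.ext h.symm⟩
  choose c hc h2 using fun β : H19.Blk O G => block_term (G := G) hD (H10.isSylowIn_top S) β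
  have hs' : ∀ i, H10.IsSylowIn p D (Subgroup.centralizer {(x i)⁻¹}) := fun i =>
    (H20.centralizer_inv (x i)).symm ▸ hs i
  let A : Matrix ι T (H19.kk O) := Matrix.of fun i β => β.1 (H19.cls _ (x i)⁻¹)
  let B : Matrix T ι (H19.kk O) := Matrix.of fun β i => β.1 (H19.cls _ (x i))
  have key : ∀ (y : ι → G), (Function.Injective fun i => ConjClasses.mk (y i)) → (∀ g, ¬ p ∣ orderOf g →
      H10.IsSylowIn p D (Subgroup.centralizer {g}) → ∃ i, ConjClasses.mk (y i) = ConjClasses.mk g) →
      ∀ β γ : T, ∑ i, β.1 (H19.cls _ (y i)) * (H20.eG γ.1).coeff (y i) =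
        (1 : Matrix T T (H19.kk O)) β γ := fun y hy hy' β γ => by
    have := Fintype.ofFinite (ConjClasses G)
    have h3 : β.1 (H19.eB γ.1) = (1 : Matrix T T _) β γ := by
      by_cases e : β = γ
      · rw [e, H19.blk_eB_self, Matrix.one_apply_eq]
      · rw [Matrix.one_apply_ne e, H19.blk_eB_of_ne fun h => e (Subtype.ext h)]
    rw [← h3, H19.eq_sum_cls (H19.eB γ.1), map_sum]
    refine Fintype.sum_of_injective _ hy _ _ (fun C hC => by_contra fun h => hC ?_) fun i => ?_
    · rw [map_smul, smul_eq_mul, ← Ne, mul_ne_zero_iff] at h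
      have h4 := H20.mem_cent_iff_le.1 (H19.mem_cent_of_coeff_eB hD h.1)
      obtain ⟨R, hR⟩ := H10.exists_isSylowIn p (Subgroup.centralizer {H19.rep C})
      obtain ⟨i, hi⟩ := hy' _ (H19.preg_of_coeff_eB h.1) (H10.isSylowIn_of_card_ge hR hD h4 (by
        rw [hR.card_eq_pow, γ.2.card_eq_pow]
        exact Nat.pow_le_pow_right (Fact.out : p.Prime).pos (H20.fact_cent_le_of_coeff h.1)))
      exact ⟨i, hi.trans (H19.mk_rep C)⟩
    · have h4 := (H19.isConj_rep_iff (ConjClasses.mk (y i)) (y i)).2 rfl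
      rw [map_smul, smul_eq_mul, mul_comm, H19.cls_eq_of_isConj h4,
        H19.coeff_eq_of_isConj (H19.eB γ.1).2 h4]
  have i1 : Function.Injective fun i => ConjClasses.mk (x i) := funext hx' ▸ hKinj
  have i2 : ∀ g, ¬ p ∣ orderOf g → H10.IsSylowIn p D (Subgroup.centralizer {g}) →
      ∃ i, ConjClasses.mk (x i) = ConjClasses.mk g := fun g h3 h4 => by
    simpa only [hx'] using (hK _).2 ⟨g, ConjClasses.mem_carrier_mk, h3, h4.exists_sylow⟩
  have k1 : B * (Matrix.of fun i (γ : T) => (H20.eG γ.1).coeff (x i)) = 1 :=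
    Matrix.ext fun β γ => key x i1 i2 β γ
  have k2 : (Matrix.of fun (γ : T) i => (H20.eG γ.1).coeff (x i)⁻¹) * A = 1 :=
    Matrix.ext fun γ β => by
      rw [Matrix.one_apply, if_congr eq_comm rfl rfl, ← Matrix.one_apply, ← key (fun i => (x i)⁻¹)
        (fun i j h => i1 (ConjClasses.mk_eq_mk_iff_isConj.2 (by
          simpa only [inv_inv] using conj_inv' (ConjClasses.mk_eq_mk_iff_isConj.1 h)))) (fun g h3 h4 => by
          obtain ⟨i, hi⟩ := i2 g⁻¹ (by rwa [orderOf_inv]) ((H20.centralizer_inv g).symm ▸ h4)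
          exact ⟨i, ConjClasses.mk_eq_mk_iff_isConj.2 (by
            simpa only [inv_inv] using conj_inv' (ConjClasses.mk_eq_mk_iff_isConj.1 hi))⟩)]
      exact Finset.sum_congr rfl fun i _ => mul_comm _ _
  rw [e1, ← rank_map (ZMod.castHom (dvd_refl p) (H19.kk O)), show Matrix.map _ _ =
    A * Matrix.diagonal (fun β : T => c β) * B from ?_]
  · refine le_antisymm ?_ ((Matrix.rank_mul_le_left _ _).trans ((Matrix.rank_mul_le_left _ _).trans
      (Matrix.rank_le_card_width _)))
    have := Matrix.rank_of_det_ne_zero (A := Matrix.diagonal fun β : T => c β)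
      (by rw [Matrix.det_diagonal]; exact Finset.prod_ne_zero_iff.2 fun β _ => hc _ β.2)
    rw [← this]
    conv_lhs => rw [← Matrix.one_mul (Matrix.diagonal _), ← k2, ← Matrix.mul_one (_ * _), ← k1]
    simp only [← Matrix.mul_assoc]
    refine (Matrix.rank_mul_le_left _ _).trans ?_
    simp only [Matrix.mul_assoc]
    exact Matrix.rank_mul_le_right _ _
  ext i j
  have hp : p.Prime := Fact.out
  have h3 := coeff_count S (x j) (x i)
  have h4 := fun β => h2 β _ _ (hs j) (hs' i)
  have h5 : ∑ β : H19.Blk O G, (Nat.card D / Nat.card S : ℂ) * (H19.fB (H19.irr β) *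
      (H19.classSum ℂ (x j) * H19.classSum ℂ (x i)⁻¹ * H19.setSum ℂ ((S : Subgroup G) : Set G))).coeff 1 =
      (Nat.card D / Nat.card S : ℂ) * (H19.classSum ℂ (x j) * H19.classSum ℂ (x i)⁻¹ *
        H19.setSum ℂ ((S : Subgroup G) : Set G)).coeff 1 := by
    rw [← Finset.mul_sum, ← H19.coeff_sum_apply, ← Finset.sum_mul, H19.sum_fB_irr, one_mul]
  obtain ⟨d, hd⟩ := IsPGroup.iff_card.1 hD
  have h6 : Nat.card S = p ^ ((Nat.card G).factorization p - d) * p ^ d := by
    rw [← pow_add, S.card_eq_multiplicity, Nat.sub_add_cancel ((hp.pow_dvd_iff_le_factorization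
      Nat.card_pos.ne').1 (hd ▸ Subgroup.card_subgroup_dvd_card D))]
  have h7 := sum_mem (S := O) fun β (_ : β ∈ Finset.univ) => (h4 β).1
  have h8 := H19.res_sum Finset.univ fun β _ => (h4 β).1
  rw [h5, h3] at h7 h8
  simp only [Matrix.map_apply, Matrix.of_apply, hx', map_natCast, hd, hp.factorization_pow,
    Finsupp.single_eq_same]
  generalize Nat.card {yz : G × G // _} = N at h7 h8
  have hq := H20.p_pow_ne_zero p
  have h9 : (p : ℂ) ^ ((Nat.card G).factorization p - d) * ((Nat.card D / Nat.card S : ℂ) * N) =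
      (N : ℤ) := by
    rw [hd, h6]; push_cast; field_simp [hq]
  obtain ⟨n, hn⟩ := H20.exists_int_of_pow_mul h7 h9
  rw [hn] at h8 h9
  obtain ⟨m, rfl⟩ : p ^ ((Nat.card G).factorization p - d) ∣ N :=
    Int.natCast_dvd_natCast.1 ⟨n, by exact_mod_cast h9.symm⟩
  obtain rfl : n = m := by
    push_cast at h9
    exact_mod_cast mul_left_cancel₀ (hq _) h9
  rw [Nat.mul_div_cancel_left _ (pow_pos hp.pos _), ← H19.res_natCast (O := O), ← Int.cast_natCast, h8,
    Matrix.mul_apply, Finset.sum_congr rfl fun β _ => (h4 β).2.1,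
    ← Finset.sum_filter_of_ne (p := fun β => H20.IsDef p ⊤ (H20.eG β) D) (fun β _ h => by_contra
      fun e => h (by rw [(h4 β).2.2 e, mul_zero])), Finset.sum_subtype (p := fun β =>
        H20.IsDef p ⊤ (H20.eG β) D) (F := inferInstance) _ (by simp)]
  exact Finset.sum_congr rfl fun β _ => by rw [Matrix.mul_diagonal]; rfl

end Cfsg.Agent.S4443
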