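import Cfsg.Statements.S4444
import Cfsg.Agent.H21.GBr

set_option autoImplicit false
open Cfsg

open H17 H15 CF H21

namespace Cfsg.Agent.S4444

/-- The Glauberman correspondence for a p-group of operators. Inside a finite group Γ let S normalise G with the orders of G and S coprime, S a p-group, and let C = G ⊓ C(S) be the fixed points. Call an irreducible character χ of G S-invariant when χ(s g s⁻¹) = χ(g) for s ∈ S, g ∈ G. Then: (i) for every S-invariant χ there is exactly one irreducible character β of C whose multiplicity [χ_C, β] in the restriction of χ is not divisible by p; (ii) that multiplicity is ≡ 1 or ≡ −1 (mod p); (iii) distinct S-invariant χ give distinct β; (iv) every irreducible character of C arises in this way. So χ ↦ β is a bijection from the S-invariant irreducible characters of G onto the irreducible characters of C. -/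
theorem result {Γ : Type*} [Group Γ] [Fintype Γ] (G S : Subgroup Γ) [Fintype G] (hnorm : ∀ s ∈ S, ∀ g ∈ G, s * g * s⁻¹ ∈ G) (hcop : (Nat.card G).Coprime (Nat.card S)) (p : ℕ) (hp : p.Prime) (hS : IsPGroup p S) (C : Subgroup Γ) [Fintype C] (hC : C = G ⊓ Subgroup.centralizer (S : Set Γ)) (hCG : C ≤ G) : (∀ χ : Cfsg.IrrCharacter G, (∀ s ∈ S, ∀ g g' : G, (g' : Γ) = s * g * s⁻¹ → (χ : G → ℂ) g' = (χ : G → ℂ) g) → ∃! β : Cfsg.IrrCharacter C, ∃ m : ℕ, Cfsg.classInner (fun c : C => (χ : G → ℂ) ⟨c, hCG c.2⟩) (β : C → ℂ) = (m : ℂ) ∧ ¬ p ∣ m) ∧ (∀ χ : Cfsg.IrrCharacter G, (∀ s ∈ S, ∀ g g' : G, (g' : Γ) = s * g * s⁻¹ → (χ : G → ℂ) g' = (χ : G → ℂ) g) → ∀ β : Cfsg.IrrCharacter C, ∀ m : ℕ, Cfsg.classInner (fun c : C => (χ : G → ℂ) ⟨c, hCG c.2⟩) (β : C → ℂ) = (m : ℂ) → ¬ p ∣ m → ((m : ℤ) ≡ 1 [ZMOD p] ∨ (m : ℤ) ≡ -1 [ZMOD p])) ∧ (∀ χ χ' : Cfsg.IrrCharacter G, (∀ s ∈ S,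 ∀ g g' : G, (g' : Γ) = s * g * s⁻¹ → (χ : G → ℂ) g' = (χ : G → ℂ) g) → (∀ s ∈ S, ∀ g g' : G, (g' : Γ) = s * g * s⁻¹ → (χ' : G → ℂ) g' = (χ' : G → ℂ) g) → ∀ β : Cfsg.IrrCharacter C, ∀ m m' : ℕ, Cfsg.classInner (fun c : C => (χ : G → ℂ) ⟨c, hCG c.2⟩) (β : C → ℂ) = (m : ℂ) → ¬ p ∣ m → Cfsg.classInner (fun c : C => (χ' : G → ℂ) ⟨c, hCG c.2⟩) (β : C → ℂ) = (m' : ℂ) → ¬ p ∣ m' → χ = χ') ∧ (∀ β : Cfsg.IrrCharacter C, ∃ χ : Cfsg.IrrCharacter G, (∀ s ∈ S, ∀ g g' : G, (g' : Γ) = s * g * s⁻¹ → (χ : G → ℂ) g' = (χ : G → ℂ) g) ∧ ∃ m : ℕ, Cfsg.classInner (fun c : C => (χ : G → ℂ) ⟨c, hCG c.2⟩) (β : C → ℂ) = (m : ℂ) ∧ ¬ p ∣ m) := by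
  have hn : S ≤ 𝒩(G) := H16.le_norm_iff.2 hnorm
  subst hC
  have gb := gb_pgroup hp S hS hn hcop
  simp only [ext0_mem_IrrS hn, inner_res_eq hCG]
  refine ⟨fun χ hχ => ?_, fun χ hχ β m hm hd => ?_, fun χ χ' hχ hχ' β m m' h1 h2 h3 h4 => ?_,
    fun β => ?_⟩
  · obtain ⟨β, h1, h2⟩ := gb.ex _ hχ
    obtain ⟨β, rfl⟩ := exists_ext0_eq h1
    refine ⟨β, h2.exists_nat hp hCG (ext0_irr χ), fun γ ⟨m, hm, hd⟩ => irr_ext0_inj ?_⟩
    exact (gb.gr_of hχ (ext0_irr γ) hm hd).unique hp h2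
  · obtain ⟨ε, n, h1, h2⟩ := (gb.gr_of hχ (ext0_irr β) hm hd).dot_self
    have h3 : (m : ℤ) = ε + p * n := by
      rw [hm] at h2
      exact_mod_cast h2
    rw [h3]
    rcases h1 with rfl | rfl
    · exact Or.inl (by simp [Int.ModEq])
    · exact Or.inr (by simp [Int.ModEq])
  · exact irr_ext0_inj (gb.inj _ hχ _ hχ' _ (gb.gr_of hχ (ext0_irr β) h1 h2)
      (gb.gr_of hχ' (ext0_irr β) h3 h4))
  · obtain ⟨χ, h1, h2⟩ := gb.surj _ (ext0_irr β)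
    obtain ⟨χ, rfl⟩ := exists_ext0_eq (IrrS_subset _ _ h1)
    exact ⟨χ, h1, h2.exists_nat hp hCG (ext0_irr χ)⟩

end Cfsg.Agent.S4444
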