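import Cfsg.Statements.S4446
import Cfsg.Agent.H21.Glau3

set_option autoImplicit false
open Cfsg

open H17 H15 CF H21

namespace Cfsg.Agent.S4446

/-- Let the finite group Γ be generated by a normal subgroup G and a cyclic subgroup S of coprime orders, C = G ⊓ C(S), and let χ be an S-invariant irreducible character of G with canonical extension χ̂ to Γ (the extension whose determinantal order is coprime to the order of S). Then there are exactly one irreducible character β of C and one sign ε such that χ̂(c s) = ε β(c) for every c ∈ C and every generator s of S; this β is a constituent of the restriction of χ to C; distinct S-invariant χ give distinct β; and every irreducible character of C arises in this way. -/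
theorem result {Γ : Type*} [Group Γ] [Fintype Γ] (G S : Subgroup Γ) [Fintype G] (hnorm : ∀ s ∈ S, ∀ g ∈ G, s * g * s⁻¹ ∈ G) (hcop : (Nat.card G).Coprime (Nat.card S)) (htop : G ⊔ S = ⊤) (hcyc : IsCyclic S) (C : Subgroup Γ) [Fintype C] (hC : C = G ⊓ Subgroup.centralizer (S : Set Γ)) (hCG : C ≤ G) : (∀ (χ : Cfsg.IrrCharacter G) (χh : Cfsg.IrrCharacter Γ), (∀ s ∈ S, ∀ g g' : G, (g' : Γ) = s * g * s⁻¹ → (χ : G → ℂ) g' = (χ : G → ℂ) g) → (∀ g : G, (χh : Γ → ℂ) g = (χ : G → ℂ) g) → (Cfsg.detOrder (χh : Γ → ℂ)).Coprime (Nat.card S) → (∃! βε : Cfsg.IrrCharacter C × ℤ, (βε.2 = 1 ∨ βε.2 = -1) ∧ ∀ c : C, ∀ s : Γ, Subgroup.zpowers s = S → (χh : Γ → ℂ) ((c : Γ) * s) = (βε.2 : ℂ) * (βε.1 : C → ℂ) c) ∧ ∀ β : Cfsg.IrrCharacter C, ∀ ε : ℤ, (ε = 1 ∨ ε = -1) → (∀ c : C, ∀ s : Γ, Subgroup.zpowers s = S → (χh : Γ → ℂ) ((c : Γ) * s) = (ε : ℂ) * (β : C → ℂ) c)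 → Cfsg.classInner (fun c : C => (χ : G → ℂ) ⟨c, hCG c.2⟩) (β : C → ℂ) ≠ 0) ∧ (∀ (χ χ' : Cfsg.IrrCharacter G) (χh χh' : Cfsg.IrrCharacter Γ), (∀ s ∈ S, ∀ g g' : G, (g' : Γ) = s * g * s⁻¹ → (χ : G → ℂ) g' = (χ : G → ℂ) g) → (∀ s ∈ S, ∀ g g' : G, (g' : Γ) = s * g * s⁻¹ → (χ' : G → ℂ) g' = (χ' : G → ℂ) g) → (∀ g : G, (χh : Γ → ℂ) g = (χ : G → ℂ) g) → (∀ g : G, (χh' : Γ → ℂ) g = (χ' : G → ℂ) g) → (Cfsg.detOrder (χh : Γ → ℂ)).Coprime (Nat.card S) → (Cfsg.detOrder (χh' : Γ → ℂ)).Coprime (Nat.card S) → ∀ β : Cfsg.IrrCharacter C, ∀ ε ε' : ℤ, (ε = 1 ∨ ε = -1) → (ε' = 1 ∨ ε' = -1) → (∀ c : C, ∀ s : Γ, Subgroup.zpowers s = S → (χh : Γ → ℂ) ((c : Γ) * s) = (ε : ℂ) * (β : C → ℂ) c) → (∀ c : C, ∀ s : Γ, Subgroup.zpowers s = S → (χh' : Γ → ℂ) ((c : Γ) * s) = (ε' : ℂ) * (β : C → ℂ) c) → χ = χ') ∧ (∀ β : Cfsg.IrrCharacter C, ∃ (χ : Cfsg.IrrCharacter G) (χh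 : Cfsg.IrrCharacter Γ) (ε : ℤ), (∀ s ∈ S, ∀ g g' : G, (g' : Γ) = s * g * s⁻¹ → (χ : G → ℂ) g' = (χ : G → ℂ) g) ∧ (∀ g : G, (χh : Γ → ℂ) g = (χ : G → ℂ) g) ∧ (Cfsg.detOrder (χh : Γ → ℂ)).Coprime (Nat.card S) ∧ (ε = 1 ∨ ε = -1) ∧ ∀ c : C, ∀ s : Γ, Subgroup.zpowers s = S → (χh : Γ → ℂ) ((c : Γ) * s) = (ε : ℂ) * (β : C → ℂ) c) := by
  have hn : S ≤ 𝒩(G) := H16.le_norm_iff.2 hnorm
  subst hC
  obtain ⟨s, hs⟩ := H16.exists_gen hcyc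
  have hsS : s ∈ S := hs ▸ Subgroup.mem_zpowers s
  simp only [ext0_mem_IrrS hn, inner_res_eq hCG, shf_eq_iff, Res_eq_ext0_iff]
  have key : ∀ (χ : IrrCharacter G) (ξ : IrrCharacter Γ), Res (G : Set Γ) ξ = extendByZero G χ →
      (detOrder (ξ : Γ → ℂ)).Coprime (Nat.card S) → Canon G (G ⊔ S) ξ := fun χ ξ h1 h2 =>
    (canon_top hn hcop htop).2 ⟨ξ.2, h1 ▸ ext0_irr χ, h2⟩
  have sw : ∀ (ξ : Γ → ℂ) (β : ↥(G ⊓ 𝒞(S)) → ℂ) (a : ℂ),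
      (∀ c : ↥(G ⊓ 𝒞(S)), ∀ s : Γ, Subgroup.zpowers s = S → ξ (c * s) = a * β c) ↔
      ∀ s : Γ, Subgroup.zpowers s = S → shf (G ⊓ 𝒞(S)) ξ s = a • extendByZero _ β := fun ξ β a => by
    simp only [← shf_eq_iff]
    exact ⟨fun h s hs c => h c s hs, fun h c s hs => h s hs c⟩
  simp only [sw]
  refine ⟨fun χ ξ _ h1 h2 => ⟨?_, fun β ε hε h => ?_⟩,
    fun χ χ' ξ η _ _ h1 h2 h3 h4 β ε ε' a1 a2 a3 a4 => ?_, fun β => ?_⟩
  · obtain ⟨ε, a1, β, a2, a3⟩ := (key χ ξ h1 h2).exists_sign_gen hn hcop hcyc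
    obtain ⟨β, rfl⟩ := exists_ext0_eq a2
    refine ⟨(β, ε), ⟨a1, a3⟩, ?_⟩
    rintro ⟨β', ε'⟩ ⟨b1, b2⟩
    have := sign_smul_inj b1 a1 (ext0_irr β') a2 ((b2 s hs).symm.trans (a3 s hs))
    exact Prod.ext (irr_ext0_inj this.1) this.2
  · rw [← h1, dot_Res_left_of_le hCG]
    refine (key χ ξ h1 h2).dot_ne hn hcop le_rfl (ext0_irr β) hsS ?_
    rw [h s hs, dot_smul_left, dot_irr_self (ext0_irr β)]
    rcases hε with rfl | rfl <;> simp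
  · by_contra hne
    have := dot_shf_ne le_sup_left (sup_le_norm hn) (Subgroup.mem_sup_right hsS)
      (hcop.coprime_dvd_right (H16.orderOf_dvd_card hsS)) (irr_char (key χ ξ h1 h3).1)
      (irr_char (key χ' η h2 h4).1) (key χ ξ h1 h3).2.1 (key χ' η h2 h4).2.1
      (by rw [h1, h2]; exact fun e => hne (irr_ext0_inj e))
    rw [← cent_zpowers, hs, a3 s hs, a4 s hs, dot_smul_left, dot_intCast_smul_right,
      dot_irr_self (ext0_irr β)] at this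
    rcases a1 with rfl | rfl <;> rcases a2 with rfl | rfl <;> simp at this
  · obtain ⟨ξ, h1, h2⟩ := exists_canon_dot_ne hs hn hcop le_rfl (ext0_irr β)
    obtain ⟨ε, a1, γ, a2, a3⟩ := h1.exists_sign_gen hn hcop hcyc
    rw [a3 s hs, dot_smul_left] at h2
    obtain rfl := irr_eq_of_dot_ne a2 (ext0_irr β) (right_ne_zero_of_mul h2)
    obtain ⟨χ, hχ⟩ := exists_ext0_eq h1.2.1
    obtain ⟨b1, -, b3⟩ := (canon_top hn hcop htop).1 h1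
    exact ⟨χ, ⟨ξ, b1⟩, ε, hχ ▸ mem_IrrS.2 ⟨h1.2.1,
      le_sup_right.trans (le_stab_Res (sup_le_norm hn) (irr_cf h1.1))⟩, hχ.symm, b3, a1, a3⟩

end Cfsg.Agent.S4446
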