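import Cfsg.Statements.S4447
import Cfsg.Agent.H21.Glau4

set_option autoImplicit false
open Cfsg

open H17 H15 CF H21

namespace Cfsg.Agent.S4447

/-- Inside a finite group Γ let S normalise G and also normalise a normal subgroup N of G, with the order of S coprime to the index of N in G and S or G/N solvable. Then for every S-invariant irreducible character χ of G, the restriction of χ to N has an S-invariant irreducible constituent. -/
theorem result {Γ : Type*} [Group Γ] [Fintype Γ] (G S N : Subgroup Γ) [Fintype G] [Fintype N] (hnorm : ∀ s ∈ S, ∀ g ∈ G, s * g * s⁻¹ ∈ G) (hNG : N ≤ G) [hNn : (N.subgroupOf G).Normal] (hNS : ∀ s ∈ S, ∀ n ∈ N, s * n * s⁻¹ ∈ N) (hcop : (N.relIndex G).Coprime (Nat.card S)) (hsolv : Group.IsSolvable S ∨ Group.IsSolvable (G ⧸ N.subgroupOf G)) (χ : Cfsg.IrrCharacter G) (hinv : (∀ s ∈ S, ∀ g g' : G, (g' : Γ) = s * g * s⁻¹ → (χ : G → ℂ) g' = (χ : G → ℂ) g)) : ∃ θ : Cfsg.IrrCharacter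 N, Cfsg.classInner (fun n : N => (χ : G → ℂ) ⟨n, hNG n.2⟩) (θ : N → ℂ) ≠ 0 ∧ (∀ s ∈ S, ∀ g g' : N, (g' : Γ) = s * g * s⁻¹ → (θ : N → ℂ) g' = (θ : N → ℂ) g) := by
  have hn : S ≤ 𝒩(G) := H16.le_norm_iff.2 hnorm
  have hn' : S ≤ 𝒩(N) := H16.le_norm_iff.2 hNS
  obtain ⟨θ, h1, h2⟩ := exists_IrrS_under hn hNG ((Subgroup.normal_subgroupOf_iff_le_normalizer hNG).1 hNn)
    hn' (hcop.symm.coprime_dvd_left (Subgroup.relIndex_dvd_card _ _))
    (hsolv.imp (fun h => qsol_of_sol h N) qsol_of_quot) ((ext0_mem_IrrS hn χ).1 hinv)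
  obtain ⟨θ, rfl⟩ := exists_ext0_eq (IrrS_subset _ _ h1)
  exact ⟨θ, by rwa [inner_res_eq hNG], (ext0_mem_IrrS hn' θ).2 h1⟩

end Cfsg.Agent.S4447
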