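import Cfsg.Statements.S4449
import Cfsg.Agent.H21.GBr

set_option autoImplicit false
open Cfsg

open H17 H15 CF H21

namespace Cfsg.Agent.S4449

/-- Inside a finite group Γ let the solvable subgroup S normalise G with the orders of G and S coprime, and let N be a normal subgroup of G normalised by S. Then for every S-invariant irreducible character ϑ of N, the induced character ϑ^G has an S-invariant irreducible constituent. -/
theorem result {Γ : Type*} [Group Γ] [Fintype Γ] (G S N : Subgroup Γ) [Fintype G] [Fintype N] (hnorm : ∀ s ∈ S, ∀ g ∈ G, s * g * s⁻¹ ∈ G) (hNG : N ≤ G) (hNnormal : ∀ g ∈ G, ∀ n ∈ N, g * n * g⁻¹ ∈ N) (hNS : ∀ s ∈ S, ∀ n ∈ N, s * n * s⁻¹ ∈ N) (hcop : (Nat.card G).Coprime (Nat.card S)) (hsolv : Group.IsSolvable S) (θ : Cfsg.IrrCharacter N) (hinv : (∀ s ∈ S, ∀ g g' : N, (g' : Γ) = s * g * s⁻¹ → (θ : N → ℂ) g' = (θ : N → ℂ) g)) : ∃ χ : Cfsg.IrrCharacter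 G, Cfsg.classInner (fun n : N => (χ : G → ℂ) ⟨n, hNG n.2⟩) (θ : N → ℂ) ≠ 0 ∧ (∀ s ∈ S, ∀ g g' : G, (g' : Γ) = s * g * s⁻¹ → (χ : G → ℂ) g' = (χ : G → ℂ) g) := by
  have hn : S ≤ 𝒩(G) := H16.le_norm_iff.2 hnorm
  have hn' : S ≤ 𝒩(N) := H16.le_norm_iff.2 hNS
  obtain ⟨χ, h1, h2⟩ := exists_IrrS_over hsolv G hn hcop N hNG (H16.le_norm_iff.2 hNnormal) hn' _
    ((ext0_mem_IrrS hn' θ).1 hinv)
  obtain ⟨χ, rfl⟩ := exists_ext0_eq (IrrS_subset _ _ h1)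
  exact ⟨χ, by rwa [inner_res_eq hNG], (ext0_mem_IrrS hn χ).2 h1⟩

end Cfsg.Agent.S4449
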