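import Cfsg.Statements.S4451
import Cfsg.Agent.H21.Glau3
import Cfsg.Agent.H21.Basic

set_option autoImplicit false
open Cfsg

open H17 H15 CF H21

namespace Cfsg.Agent.S4451

/-- Let the finite group Γ be generated by a normal subgroup G and a cyclic subgroup S of coprime orders such that every non-identity element of S has the same centraliser C = G ⊓ C(S) in G. Let χ be an S-invariant irreducible character of G, χ̂ its canonical extension to Γ (determinantal order coprime to the order of S), and β the irreducible character of C with χ̂(c s) = ε₀ β(c) for c ∈ C and generators s of S (ε₀ = ±1). Then there are a sign ε = ±1, which may differ from ε₀, and a linear character μ of S with μ² = 1, such that: (a) χ̂(c x) = ε β(c) μ(x) for all c ∈ C and all x ∈ S other than 1; (b) the restriction of χ to C equals |S|·ϑ + ε β for some character ϑ of C or ϑ = 0; (c) |S| divides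 χ(1) − ε β(1). -/
theorem result {Γ : Type*} [Group Γ] [Fintype Γ] (G S : Subgroup Γ) [Fintype G] (hnorm : ∀ s ∈ S, ∀ g ∈ G, s * g * s⁻¹ ∈ G) (hcop : (Nat.card G).Coprime (Nat.card S)) (htop : G ⊔ S = ⊤) (hcyc : IsCyclic S) (C : Subgroup Γ) [Fintype C] (hC : C = G ⊓ Subgroup.centralizer (S : Set Γ)) (hCG : C ≤ G) (hfpf : ∀ x ∈ S, x ≠ 1 → G ⊓ Subgroup.centralizer ({x} : Set Γ) = C) (χ : Cfsg.IrrCharacter G) (hinv : (∀ s ∈ S, ∀ g g' : G, (g' : Γ) = s * g * s⁻¹ → (χ : G → ℂ) g' = (χ : G → ℂ) g)) (χh : Cfsg.IrrCharacter Γ) (hext : (∀ g : G, (χh : Γ → ℂ) g = (χ : G → ℂ) g)) (hdet : (Cfsg.detOrder (χh : Γ → ℂ)).Coprime (Nat.card S)) (β : Cfsg.IrrCharacter C) (ε₀ : ℤ) (hε₀ : ε₀ = 1 ∨ ε₀ = -1) (hβ : ∀ c : C, ∀ s : Γ, Subgroup.zpowers s = S → (χh : Γ → ℂ) ((c : Γ) * s) = (ε₀ : ℂ) * (β : C → ℂ) c) : ∃ ε : ℤ, (ε = 1 ∨ ε = -1) ∧ (∃ μ : S → ℂ, Cfsg.IsCharacter S μ ∧ μ 1 = 1 ∧ (∀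 x : S, μ x * μ x = 1) ∧ ∀ c : C, ∀ x : S, x ≠ 1 → (χh : Γ → ℂ) ((c : Γ) * x) = (ε : ℂ) * (β : C → ℂ) c * μ x) ∧ (∃ ϑ : C → ℂ, Cfsg.IsCharacter C ϑ ∧ (fun c : C => (χ : G → ℂ) ⟨c, hCG c.2⟩) = fun c => (Nat.card S : ℂ) * ϑ c + (ε : ℂ) * (β : C → ℂ) c) ∧ (Nat.card S : ℤ) ∣ (Cfsg.charDegree (χ : G → ℂ) : ℤ) - ε * (Cfsg.charDegree (β : C → ℂ) : ℤ) := by
  have hn : S ≤ 𝒩(G) := H16.le_norm_iff.2 hnorm
  obtain ⟨s, hs⟩ := H16.exists_gen hcyc
  have hdeg : ∀ (ε : ℤ) (ϑ : C → ℂ), IsCharacter C ϑ → ((fun c : C => (χ : G → ℂ) ⟨c, hCG c.2⟩) =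
      fun c => (Nat.card S : ℂ) * ϑ c + (ε : ℂ) * (β : C → ℂ) c) → (Nat.card S : ℤ) ∣
      (charDegree (χ : G → ℂ) : ℤ) - ε * (charDegree (β : C → ℂ) : ℤ) := fun ε ϑ h e => by
    obtain ⟨d, hd⟩ := h.exists_nat_one
    have h1 : (χ : G → ℂ) 1 = _ := congrFun e 1
    rw [hd, ← irr_charDegree_cast, ← irr_charDegree_cast] at h1
    refine ⟨d, ?_⟩
    have h2 : (charDegree (χ : G → ℂ) : ℤ) = Nat.card S * d + ε * charDegree (β : C → ℂ) := by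
      exact_mod_cast h1
    linarith
  by_cases h1 : S = ⊥
  · have e : (fun c : C => (χ : G → ℂ) ⟨c, hCG c.2⟩) =
        fun c => (Nat.card S : ℂ) * (0 : C → ℂ) c + (ε₀ : ℂ) * (β : C → ℂ) c := funext fun c => by
      rw [← hβ c 1 (h1 ▸ Subgroup.zpowers_one_eq_bot), ← hext]
      simp
    refine ⟨ε₀, hε₀, ⟨fun _ => 1, isCharacter_one, rfl, by simp, fun c x hx => ?_⟩,
      ⟨0, isCharacter_zero, e⟩, hdeg _ _ isCharacter_zero e⟩
    exact absurd (Subtype.ext (H16.eq_one_of_mem_bot h1 x.2)) hx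
  have hc : Canon G (G ⊔ S) χh := (canon_top hn hcop htop).2
    ⟨χh.2, Res_eq_ext0_iff.1 hext ▸ ext0_irr χ, hdet⟩
  obtain ⟨ε, a1, ⟨μ, a2, a3, a4⟩, ϑ, a5, a6⟩ := hc.semiprime hn hcop hs h1 hfpf (ext0_irr β) (by
    rw [shf_eq_iff.1 fun c => hβ c s hs, dot_smul_left, dot_irr_self (ext0_irr β)]
    rcases hε₀ with rfl | rfl <;> simp)
  have e : (fun c : C => (χ : G → ℂ) ⟨c, hCG c.2⟩) =
      fun c => (Nat.card S : ℂ) * res C ϑ c + (ε : ℂ) * (β : C → ℂ) c := funext fun c => by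
    have := congrFun a6 c
    rw [Res_of_mem _ c.2] at this
    rw [← hext, this]
    simp [res_apply]
  refine ⟨ε, a1, ⟨res S μ, a2.char.2, a2.one_apply, fun x => a3 x x.2, fun c x hx => ?_⟩,
    ⟨_, a5.2, e⟩, hdeg _ _ a5.2 e⟩
  rw [shf_eq_iff.2 (a4 x x.2 fun e => hx (Subtype.ext e)) c, res_apply]
  ring

end Cfsg.Agent.S4451
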