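import Cfsg.Statements.S4452
import Cfsg.Agent.H21.Glau3
import Cfsg.Agent.H21.Basic

set_option autoImplicit false
open Cfsg

open H17 H15 CF H21

namespace Cfsg.Agent.S4452

/-- Let the finite group G be the product of a normal subgroup K and a solvable subgroup H of coprime orders, and let N = N_G(H). Then the number of irreducible characters of G of degree coprime to the order of H equals the number of irreducible characters of N of degree coprime to the order of H. (The two sets are in fact in a canonical bijection; only the equality of their sizes is stated here.) -/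
theorem result {G : Type*} [Group G] [Finite G] (K H : Subgroup G) [K.Normal] (hKH : K ⊔ H = ⊤) (hcop : (Nat.card K).Coprime (Nat.card H)) (hsolv : Group.IsSolvable H) : Nat.card {χ : Cfsg.IrrCharacter G // (Cfsg.charDegree (χ : G → ℂ)).Coprime (Nat.card H)} = Nat.card {η : Cfsg.IrrCharacter (Subgroup.normalizer (H : Set G)) // (Cfsg.charDegree (η : Subgroup.normalizer (H : Set G) → ℂ)).Coprime (Nat.card H)} := by
  classical
  have hn : H ≤ 𝒩(K) := le_top.trans (top_le_norm K)
  have hN : K ⊓ 𝒞(H) ⊔ H = 𝒩(H) := by
    rw [← H16.inf_norm_eq_cent hn (H16.inf_bot_of_coprime hcop), ← H16.modr (le_norm_self H) (Or.inr hn),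
      hKH, top_inf_eq]
  have h1 := card_coprime_degree hn hcop
  have h2 := card_coprime_degree (K := K ⊓ 𝒞(H)) (le_norm_of_le_cent (cent_comm inf_le_right))
    (hcop.coprime_dvd_left (H16.card_dvd inf_le_left))
  rw [hKH, card_IrrS hsolv K hn hcop] at h1
  rw [hN, IrrS_of_cent (cent_comm inf_le_right), ← h1] at h2
  have key : ∀ {X : Type _} [Group X] (χ : IrrCharacter X), (charDegree (χ : X → ℂ)).Coprime (Nat.card H) ↔
      ∃ d : ℕ, (χ : X → ℂ) 1 = d ∧ d.Coprime (Nat.card H) := fun χ =>
    ⟨fun h => ⟨_, (irr_charDegree_cast χ).symm, h⟩, fun ⟨d, a, b⟩ => (charDegree_eq_of_one a).symm ▸ b⟩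
  refine ((card_irr_subtype_top _ _ (Finset.filter_subset _ _) fun χ => ?_).trans h2.symm).trans
    (card_irr_subtype _ _ (Finset.filter_subset _ _) fun χ => ?_).symm
  · rw [key, Finset.mem_filter, and_iff_right (mem_Irr_top.2 χ.2)]
  · rw [key, Finset.mem_filter, and_iff_right (ext0_irr χ), ext0_of_mem _ (one_mem _)]
    rfl

end Cfsg.Agent.S4452
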