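import Cfsg.Statements.S4454
import Cfsg.Agent.H21.Trip4

set_option autoImplicit false
open Cfsg

open H17 H15 CF H21

namespace Cfsg.Agent.S4454

/-- Let N ≤ G be normal subgroups of the finite group Γ with Γ/G cyclic and Γ/N a Frobenius group with kernel G/N: G ≠ Γ, N ≠ G, and no element of Γ outside G fixes a non-identity coset of N in G under conjugation. Let ϑ be an irreducible character of N invariant under conjugation by Γ and suppose ϑ is fully ramified in G: the character of G induced from ϑ equals e·χ for an irreducible character χ of G and a natural number e. Then the index of G in Γ divides e − 1 or e + 1. -/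
theorem result {Γ : Type*} [Group Γ] [Fintype Γ] (G N : Subgroup Γ) [hG : G.Normal] [hN : N.Normal] [Fintype G] [Fintype N] (hNG : N ≤ G) (hGlt : G ≠ ⊤) (hNlt : N ≠ G) (hcyc : IsCyclic (Γ ⧸ G)) (hfrob : ∀ x : Γ, x ∉ G → ∀ g : Γ, g ∈ G → x * g * x⁻¹ * g⁻¹ ∈ N → g ∈ N) (θ : Cfsg.IrrCharacter N) (hinv : ∀ (x : Γ) (n : N), (θ : N → ℂ) ⟨x * n * x⁻¹, hN.conj_mem n n.2 x⟩ = (θ : N → ℂ) n) (χ : Cfsg.IrrCharacter G) (e : ℕ) (hram : Cfsg.indFun (N.subgroupOf G) (fun n : N.subgroupOf G => (θ : N → ℂ) ⟨(n : G), n.2⟩) = fun g => (e : ℂ) * (χ : G → ℂ) g) : (G.index : ℤ) ∣ (e : ℤ) - 1 ∨ (G.index : ℤ) ∣ (e : ℤ) + 1 := by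
  refine ram_frob (lt_of_le_of_ne hNG hNlt) hGlt hcyc hfrob
    (ext0_irr θ) ((inv_iff_stab (top_le_norm N) _).1 fun s _ g g' e => by
      rw [← hinv s g, show g' = ⟨s * g * s⁻¹, hN.conj_mem g g.2 s⟩ from Subtype.ext e]) (ext0_irr χ) ?_
  refine eq_of_res_eq (cf_le_supp _ (Ind_mem_cf hNG _)) (cf_le_supp _ ((cf G).smul_mem _
    (irr_cf (ext0_irr χ)))) ?_
  rw [res_Ind hNG, res_smul, res_ext0]
  refine Eq.trans ?_ hram
  congr 1
  exact funext fun n => ext0_of_mem (K := N) _ n.2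

end Cfsg.Agent.S4454
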