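import Cfsg.Statements.S4457
import Cfsg.Agent.H21.CD6

set_option autoImplicit false
open Cfsg

namespace Cfsg.Agent.S4457

/-- Let G be a finite group whose irreducible character degrees are exactly 1 and m (m ≠ 1). Then either G has an abelian normal subgroup of index m, or m is a power of a prime p and G is the direct product of a p-group and an abelian group: there are normal subgroups P and A with P a p-group, A abelian, P ⊓ A = 1 and P ⊔ A = G. -/
theorem result {G : Type*} [Group G] [Finite G] (m : ℕ) (hcd : ∀ χ : Cfsg.IrrCharacter G, Cfsg.charDegree (χ : G → ℂ) = 1 ∨ Cfsg.charDegree (χ : G → ℂ) = m) (hm : ∃ χ : Cfsg.IrrCharacter G, Cfsg.charDegree (χ : G → ℂ) = m) (hm1 : m ≠ 1) : (∃ A : Subgroup G, A.Normal ∧ (∀ a ∈ A, ∀ b ∈ A, a * b = b * a) ∧ A.index = m) ∨ ∃ p e : ℕ, p.Prime ∧ m = p ^ e ∧ ∃ P A : Subgroup G, P.Normal ∧ A.Normal ∧ IsPGroup p P ∧ (∀ a ∈ A, ∀ b ∈ A, a * b = b * a) ∧ P ⊓ A = ⊥ ∧ P ⊔ A =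 ⊤ := by
  simp only [← H1.isMulCommutative_iff']
  refine (H21.two_struct hm1 (fun χ h => hcd ⟨χ, h⟩) fun h => hm1 ?_).imp_right
    fun ⟨p, e, h1, h2, h3, _⟩ => ⟨p, e, h1, h2, h3⟩
  obtain ⟨χ, rfl⟩ := hm
  exact H21.deg_lin (CF.isLin_of_comm h (CF.mem_Irr_top.2 χ.2))

end Cfsg.Agent.S4457
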