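import Cfsg.Statements.S4459
import Cfsg.Agent.H21.CD6

set_option autoImplicit false
open Cfsg

namespace Cfsg.Agent.S4459

/-- Let G be a non-abelian finite group and p a prime. Then the irreducible character degrees of G are exactly 1 and p if and only if either G has an abelian normal subgroup of index p or the centre of G has index p³. -/
theorem result {G : Type*} [Group G] [Finite G] (hG : ∃ a b : G, a * b ≠ b * a) (p : ℕ) (hp : p.Prime) : ((∀ χ : Cfsg.IrrCharacter G, Cfsg.charDegree (χ : G → ℂ) = 1 ∨ Cfsg.charDegree (χ : G → ℂ) = p) ∧ ∃ χ : Cfsg.IrrCharacter G, Cfsg.charDegree (χ : G → ℂ) = p) ↔ ((∃ A : Subgroup G, A.Normal ∧ (∀ a ∈ A, ∀ b ∈ A, a * b = b * a) ∧ A.index = p) ∨ (Subgroup.center G).index = p ^ 3) := by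
  have h0 : ¬ IsMulCommutative (⊤ : Subgroup G) := fun h => by
    obtain ⟨a, b, h1⟩ := hG
    exact h1 (H1.isMulCommutative_iff'.1 h a trivial b trivial)
  simp only [← H1.isMulCommutative_iff', ← H21.cd_prime_iff h0 hp]
  refine ⟨fun h χ h1 => h.1 ⟨χ, h1⟩, fun h => ⟨fun χ => h χ χ.2, by_contra fun h1 =>
    h0 (H21.comm_of_deg fun χ hχ => (h.top hχ).resolve_right fun e =>
      h1 ⟨⟨χ, CF.mem_Irr_top.1 hχ⟩, e⟩)⟩⟩

end Cfsg.Agent.S4459
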