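import Cfsg.Statements.S4463
import Cfsg.Agent.H21.CD7

set_option autoImplicit false
open Cfsg

namespace Cfsg.Agent.S4463

/-- Let b be the largest irreducible character degree of the finite group G. Then G has an abelian subgroup of index at most (b!)². -/
theorem result {G : Type*} [Group G] [Finite G] (b : ℕ) (hb : IsGreatest {d : ℕ | ∃ χ : Cfsg.IrrCharacter G, Cfsg.charDegree (χ : G → ℂ) = d} b) : ∃ A : Subgroup G, (∀ x ∈ A, ∀ y ∈ A, x * y = y * x) ∧ A.index ≤ (Nat.factorial b) ^ 2 := by
  simp only [← H1.isMulCommutative_iff']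
  exact H21.exists_abelian_index b G fun χ h => hb.2 ⟨⟨χ, h⟩, rfl⟩

end Cfsg.Agent.S4463
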