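import Cfsg.Statements.S4471
import Cfsg.Agent.H21.Bl3

set_option autoImplicit false
open Cfsg

open H17 H21 Subgroup

namespace Cfsg.Agent.S4471

/-- Let p ≥ 7 be a prime and let the finite group G have a faithful irreducible character of degree n with n < 2p and n ≠ p. If the Sylow p-subgroups of G are non-abelian then p² does not divide the index of O_p(G) in G; consequently, in every case G/O_p(G) has abelian Sylow p-subgroups. -/
theorem result {G : Type*} [Group G] [Finite G] (χ : Cfsg.IrrCharacter G) (hfaith : ∀ g : G, (χ : G → ℂ) g = (χ : G → ℂ) 1 → g = 1) (n : ℕ) (hn : Cfsg.charDegree (χ : G → ℂ) = n) (p : ℕ) (hp : p.Prime) (h7 : 7 ≤ p) (hn2 : n < 2 * p) (hnp : n ≠ p) : ((∃ P : Sylow p G, ∃ x ∈ (P : Subgroup G), ∃ y ∈ (P : Subgroup G), x * y ≠ y * x) → ¬ p ^ 2 ∣ (Cfsg.pCore p G).index) ∧ ∀ Q : Sylow p (G ⧸ Cfsg.pCore p G), ∀ x ∈ (Q : Subgroup (G ⧸ Cfsg.pCore p G)), ∀ y ∈ (Q : Subgroup (G ⧸ Cfsg.pCore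 p G)), x * y = y * x := by
  haveI := Fact.mk hp
  have hχn : (χ : G → ℂ) 1 = n := by rw [← hn, irr_charDegree_cast]
  have h1 : (∃ P : Sylow p G, ∃ x ∈ (P : Subgroup G), ∃ y ∈ (P : Subgroup G), x * y ≠ y * x) →
      ¬ p ^ 2 ∣ (Cfsg.pCore p G).index := by
    rintro ⟨P, x, hx, y, hy, hxy⟩
    refine not_sq_dvd_index χ.2 hfaith hχn hp h7 hn2 hnp P fun e => hxy ?_
    have : (⟨x, hx⟩ : (P : Subgroup G)) * ⟨y, hy⟩ * (⟨x, hx⟩ : (P : Subgroup G))⁻¹ *
        (⟨y, hy⟩ : (P : Subgroup G))⁻¹ = 1 :=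
      mem_bot.1 (e ▸ commutator_mem_commutator (mem_top _) (mem_top _))
    have h2 : x * y * x⁻¹ * y⁻¹ = 1 := congrArg Subtype.val this
    calc x * y = x * y * x⁻¹ * y⁻¹ * (y * x) := by group
      _ = y * x := by rw [h2, one_mul]
  refine ⟨h1, fun Q x hx y hy => ?_⟩
  by_cases h : ∃ P : Sylow p G, ∃ x ∈ (P : Subgroup G), ∃ y ∈ (P : Subgroup G), x * y ≠ y * x
  · have h2 := h1 h
    obtain ⟨k, hk⟩ := IsPGroup.iff_card.1 Q.isPGroup'
    have h3 : k ≤ 1 := by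
      by_contra hlt
      apply h2
      rw [index_eq_card]
      have h4 := card_subgroup_dvd_card (Q : Subgroup (G ⧸ pCore p G))
      rw [hk] at h4
      exact (pow_dvd_pow p (show 2 ≤ k by omega)).trans h4
    haveI : IsCyclic (Q : Subgroup (G ⧸ pCore p G)) :=
      isCyclic_of_card_dvd_prime (p := p) (by rw [hk]; simpa using pow_dvd_pow p h3)
    exact congrArg Subtype.val ((IsMulCommutative.is_comm
      (M := (Q : Subgroup (G ⧸ pCore p G)))).1 ⟨x, hx⟩ ⟨y, hy⟩)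
  · push Not at h
    obtain ⟨P, rfl⟩ := Sylow.mapSurjective_surjective (QuotientGroup.mk'_surjective (pCore p G)) p Q
    obtain ⟨a, ha, rfl⟩ := hx
    obtain ⟨b, hb, rfl⟩ := hy
    rw [← map_mul, ← map_mul, h P a ha b hb]

end Cfsg.Agent.S4471
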