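import Cfsg.Statements.S4473
import Cfsg.Agent.H21.Dg2

set_option autoImplicit false
open Cfsg

open H17 H21

namespace Cfsg.Agent.S4473

/-- Let the finite group G have a faithful irreducible character χ of degree 2 that is primitive: χ is not induced from a character of any proper subgroup. Then the centre of G has index 12, 24 or 60. -/
theorem result {G : Type*} [Group G] [Fintype G] (χ : Cfsg.IrrCharacter G) (hfaith : ∀ g : G, (χ : G → ℂ) g = (χ : G → ℂ) 1 → g = 1) (h2 : Cfsg.charDegree (χ : G → ℂ) = 2) (hprim : ∀ H : Subgroup G, H ≠ ⊤ → ∀ θ : H → ℂ, Cfsg.IsCharacter H θ → (χ : G → ℂ) ≠ Cfsg.indFun H θ) : (Subgroup.center G).index = 12 ∨ (Subgroup.center G).index = 24 ∨ (Subgroup.center G).index = 60 := by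
  have h1 : (χ : G → ℂ) 1 = 2 := by
    obtain ⟨n, hn⟩ := χ.2.isCharacter.exists_nat_one
    rw [charDegree, hn] at h2
    rw [hn]
    exact_mod_cast (by simpa using h2 : n = 2)
  rw [Subgroup.index]
  refine (prim_deg_two χ.2 (eq_bot_iff.2 fun g hg => hfaith g (χ.2.mem_charKer.1 hg)) h1 hprim).imp
    (fun ⟨e⟩ => ?_) (Or.imp (fun ⟨e⟩ => ?_) fun ⟨e⟩ => ?_) <;> rw [Nat.card_congr e.toEquiv]
  · rw [nat_card_alternatingGroup]; simp [Nat.factorial]
  · rw [Nat.card_perm]; simp [Nat.factorial]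
  · rw [nat_card_alternatingGroup]; simp [Nat.factorial]

end Cfsg.Agent.S4473
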