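import Cfsg.Statements.S4476
import Cfsg.Agent.H21.FS

set_option autoImplicit false
open Cfsg

open H17

namespace Cfsg.Agent.S4476

/-- Let G be a finite group of even order g with exactly t involutions, and put α = (g − 1)/t (a rational number). Then (a) some non-identity element x of G has at most α² conjugates; and (b) some non-principal real-valued irreducible character of G has degree at most α. -/
theorem result {G : Type*} [Group G] [Fintype G] (heven : Even (Nat.card G)) (t : ℕ) (ht : Nat.card {x : G // orderOf x = 2} = t) : (∃ x : G, x ≠ 1 ∧ ((Subgroup.centralizer ({x} : Set G)).index : ℚ) ≤ (((Nat.card G : ℚ) - 1) / t) ^ 2) ∧ ∃ χ : Cfsg.IrrCharacter G, (χ : G → ℂ) ≠ (fun _ => 1) ∧ (∀ g : G, ((χ : G → ℂ) g).im = 0) ∧ (Cfsg.charDegree (χ : G → ℂ) : ℚ) ≤ ((Nat.card G : ℚ) - 1) / t := by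
  classical
  haveI : Fact (Nat.Prime 2) := ⟨Nat.prime_two⟩
  obtain ⟨s, hs⟩ := exists_prime_orderOf_dvd_card' (G := G) 2 heven.two_dvd
  have ht0 : (0 : ℚ) < t := by
    haveI : Nonempty {x : G // orderOf x = 2} := ⟨⟨s, hs⟩⟩
    exact_mod_cast ht ▸ Nat.card_pos
  have hs1 : s ≠ 1 := fun h => by simp [h] at hs
  have hG : (1 : ℚ) < Nat.card G := by
    exact_mod_cast Finite.one_lt_card_iff_nontrivial.2 ⟨s, 1, hs1⟩
  set S := (Finset.univ.erase (H21.trivIrr G)).filter
    (fun χ : IrrCharacter G => ∀ g, ((χ : G → ℂ) g).im = 0) with hS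
  have h1 : (t : ℚ) ≤ ∑ χ ∈ S, (charDegree (χ : G → ℂ) : ℚ) := by
    exact_mod_cast ht ▸ H21.invol_le_sum (G := G)
  have h2 : ∑ χ ∈ S, (charDegree (χ : G → ℂ) : ℚ) ^ 2 ≤ Nat.card G - 1 := by
    have h3 := congrArg (Nat.cast (R := ℚ)) (H21.sum_deg_sq (G := G))
    rw [← Finset.add_sum_erase _ _ (Finset.mem_univ (H21.trivIrr G)), H21.trivIrr_coe,
      H21.charDegree_const_one] at h3
    push_cast at h3
    have h4 : ∑ χ ∈ S, (charDegree (χ : G → ℂ) : ℚ) ^ 2 ≤
        ∑ χ ∈ Finset.univ.erase (H21.trivIrr G), (charDegree (χ : G → ℂ) : ℚ) ^ 2 :=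
      Finset.sum_le_sum_of_subset_of_nonneg (Finset.filter_subset _ _) fun _ _ _ => sq_nonneg _
    linarith
  constructor
  · by_contra hc
    push Not at hc
    have h3 : (S.card : ℚ) ≤ Nat.card (IrrCharacter G) - 1 := by
      have h4 := Finset.card_erase_add_one (Finset.mem_univ (H21.trivIrr G))
      rw [Finset.card_univ, ← Nat.card_eq_fintype_card] at h4
      have h5 : S.card ≤ _ := Finset.card_filter_le _ _
      rw [← h4]
      push_cast
      rw [add_sub_cancel_right]
      exact_mod_cast h5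
    have h4 := sq_sum_le_card_mul_sum_sq (s := S) (f := fun χ => (charDegree (χ : G → ℂ) : ℚ))
    have h5 : (t : ℚ) ^ 2 ≤ (Nat.card (IrrCharacter G) - 1) * (Nat.card G - 1) :=
      (pow_le_pow_left₀ ht0.le h1 2).trans (h4.trans (mul_le_mul h3 h2
        (Finset.sum_nonneg fun _ _ => sq_nonneg _) ((Nat.cast_nonneg _).trans h3)))
    have h6 := congrArg (Nat.cast (R := ℚ)) (H21.sum_card_cent (G := G))
    rw [← Finset.add_sum_erase _ _ (Finset.mem_univ 1),
      Subgroup.centralizer_eq_top_iff_subset.2 (by simp), Subgroup.card_top] at h6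
    push_cast at h6
    have h7 : ∑ x ∈ Finset.univ.erase (1 : G), (Nat.card (Subgroup.centralizer ({x} : Set G)) : ℚ) *
        ((Nat.card G - 1) / t) ^ 2 < ∑ x ∈ Finset.univ.erase (1 : G), (Nat.card G : ℚ) :=
      Finset.sum_lt_sum_of_nonempty ⟨s, by simp [hs1]⟩ fun x hx => by
        refine (mul_lt_mul_of_pos_left (hc x (Finset.ne_of_mem_erase hx))
          (Nat.cast_pos.2 Nat.card_pos)).trans_eq ?_
        rw [← Nat.cast_mul, (Subgroup.centralizer ({x} : Set G)).card_mul_index]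
    rw [← Finset.sum_mul, Finset.sum_const, Finset.card_erase_of_mem (Finset.mem_univ _),
      Finset.card_univ, ← Nat.card_eq_fintype_card, nsmul_eq_mul,
      Nat.cast_sub Nat.card_pos, eq_sub_of_add_eq' h6, div_pow, ← mul_div_assoc,
      div_lt_iff₀ (pow_pos ht0 2), Nat.cast_one] at h7
    have h8 := mul_le_mul_of_nonneg_left h5 (mul_pos (sub_pos.2 hG) (zero_lt_one.trans hG)).le
    nlinarith
  · by_contra hc
    push Not at hc
    have h3 : ∑ χ ∈ S, (Nat.card G - 1 : ℚ) / t * (charDegree (χ : G → ℂ) : ℚ) <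
        ∑ χ ∈ S, (charDegree (χ : G → ℂ) : ℚ) ^ 2 :=
      Finset.sum_lt_sum_of_nonempty (Finset.nonempty_of_sum_ne_zero (ht0.trans_le h1).ne')
        fun χ hχ => by
          obtain ⟨h4, h5⟩ := Finset.mem_filter.1 hχ
          rw [pow_two]
          exact mul_lt_mul_of_pos_right (hc χ (fun h => Finset.ne_of_mem_erase h4
            (H21.eq_trivIrr_iff.2 h)) h5) (Nat.cast_pos.2 (H21.charDegree_pos χ.2))
    rw [← Finset.mul_sum] at h3
    have h4 := mul_le_mul_of_nonneg_left h1 (div_pos (sub_pos.2 hG) ht0).le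
    rw [div_mul_cancel₀ _ ht0.ne'] at h4
    linarith

end Cfsg.Agent.S4476
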