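import Cfsg.Statements.S4478
import Cfsg.Agent.H21.FS
import Cfsg.Agent.H19.Ht3

set_option autoImplicit false
open Cfsg

open H17

namespace Cfsg.Agent.S4478

/-- Let G be a finite group of even order and χ an irreducible character of G whose degree x is divisible by the full power of 2 dividing the order of G and, for every odd prime p such that G has an element of order 2p, by the full power of p dividing the order of G. Then all involutions of G are conjugate, the centralizer of every involution has order exactly x with x coprime to its index, and the Frobenius–Schur indicator of χ equals 1. -/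
theorem result {G : Type*} [Group G] [Fintype G] (heven : Even (Nat.card G)) (χ : Cfsg.IrrCharacter G) (h2 : 2 ^ (Nat.card G).factorization 2 ∣ Cfsg.charDegree (χ : G → ℂ)) (hp : ∀ p : ℕ, p.Prime → p ≠ 2 → (∃ g : G, orderOf g = 2 * p) → p ^ (Nat.card G).factorization p ∣ Cfsg.charDegree (χ : G → ℂ)) : (∀ s t : G, orderOf s = 2 → orderOf t = 2 → IsConj s t) ∧ (∀ s : G, orderOf s = 2 → Nat.card (Subgroup.centralizer ({s} : Set G)) = Cfsg.charDegree (χ : G → ℂ) ∧ (Nat.card (Subgroup.centralizer ({s} : Set G))).Coprime (Subgroup.centralizer ({s} : Set G)).index) ∧ (Nat.card G : ℂ)⁻¹ * ∑ g : G, (χ : G → ℂ) (g * g) = 1 := by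
  classical
  haveI : Fact (Nat.Prime 2) := ⟨Nat.prime_two⟩
  have hx := H21.charDegree_pos χ.2
  have hv : ∀ p : ℕ, p.Prime → p ^ (Nat.card G).factorization p ∣ charDegree (χ : G → ℂ) →
      ∀ g, p ∣ orderOf g → (χ : G → ℂ) g = 0 := fun p hp h g hg => by
    haveI := Fact.mk hp
    exact H19.vanish_of_vd ((H20.vd_le p χ).antisymm
      ((hp.pow_dvd_iff_le_factorization hx.ne').1 h)) hg
  have hC : ∀ s : G, orderOf s = 2 → ∀ p : ℕ, p.Prime →
      p ∣ Nat.card (Subgroup.centralizer ({s} : Set G)) →
      p ^ (Nat.card G).factorization p ∣ charDegree (χ : G → ℂ) := fun s hs p hpp h => by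
    by_cases h3 : p = 2
    · exact h3 ▸ h2
    haveI := Fact.mk hpp
    obtain ⟨y, hy⟩ := exists_prime_orderOf_dvd_card' p h
    rw [← Subgroup.orderOf_coe] at hy
    refine hp p hpp h3 ⟨s * y, ?_⟩
    rw [Commute.orderOf_mul_eq_mul_orderOf_of_coprime (Subgroup.mem_centralizer_iff.1 y.2 s rfl)
      (by rw [hs, hy]; exact (Nat.coprime_primes Nat.prime_two hpp).2 (Ne.symm h3)), hs, hy]
  have hD : ∀ s : G, orderOf s = 2 →
      Nat.card (Subgroup.centralizer ({s} : Set G)) ∣ charDegree (χ : G → ℂ) := fun s hs =>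
    (Nat.dvd_iff_prime_pow_dvd_dvd _ _).2 fun p k hpp h => by
      rcases k.eq_zero_or_pos with rfl | hk
      · simp
      exact (pow_dvd_pow p ((hpp.pow_dvd_iff_le_factorization Nat.card_pos.ne').1
        (h.trans (Subgroup.card_subgroup_dvd_card _)))).trans
        (hC s hs p hpp ((dvd_pow_self p hk.ne').trans h))
  obtain ⟨s, hs⟩ := exists_prime_orderOf_dvd_card' (G := G) 2 heven.two_dvd
  have h0 : ∑ g, (χ : G → ℂ) g = 0 := by
    have h3 := χ.2.inner_of_ne isIrr_one fun h => by
      have h4 := hv 2 Nat.prime_two h2 s hs.symm.dvd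
      rw [h] at h4
      exact one_ne_zero h4
    rw [classInner_one_right] at h3
    exact (mul_eq_zero.1 h3).resolve_left (inv_ne_zero card_ne_zero_complex)
  have h3 : ∑ g with Odd (orderOf g), (χ : G → ℂ) (g * g) = 0 := by
    obtain ⟨a, m, hm, ham⟩ := Nat.exists_eq_two_pow_mul_odd (Nat.card_pos (α := G)).ne'
    have h4 : (2 + m).Coprime (Nat.card G) := by
      rw [ham]
      refine Nat.Coprime.mul_right (Nat.Coprime.pow_right _ (Nat.coprime_two_right.2
        (even_two.add_odd hm))) ?_
      rw [Nat.coprime_add_self_left]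
      exact Nat.coprime_two_left.2 hm
    have h5 := sum_pow_eq_of_stable (Finset.univ.filter fun g : G => Odd (orderOf g)) h4
      (fun g hg => Finset.mem_filter.2 ⟨Finset.mem_univ _,
        (Finset.mem_filter.1 hg).2.of_dvd_nat (orderOf_pow_dvd _)⟩) (χ : G → ℂ)
    rw [← h0, ← Finset.sum_subset (Finset.filter_subset (fun g : G => Odd (orderOf g)) _)
      fun g _ hg => hv 2 Nat.prime_two h2 g (by simpa [even_iff_two_dvd] using hg), ← h5]
    refine Finset.sum_congr rfl fun g hg => ?_
    have h6 : orderOf g ∣ m := ((Nat.coprime_two_right.2 (Finset.mem_filter.1 hg).2).pow_right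
      a).dvd_of_dvd_mul_left (ham ▸ orderOf_dvd_natCard g)
    rw [pow_add, orderOf_dvd_iff_pow_eq_one.1 h6, mul_one, pow_two]
  have h4 : ∑ g with ¬ Odd (orderOf g), (χ : G → ℂ) (g * g) =
      (Finset.univ.filter fun g : G => orderOf g = 2).card * charDegree (χ : G → ℂ) := by
    rw [← nsmul_eq_mul, ← Finset.sum_const, ← Finset.sum_subset (s₁ := Finset.univ.filter
      fun g : G => orderOf g = 2) (fun g hg => by simp_all)]
    · refine Finset.sum_congr rfl fun g hg => ?_
      rw [← pow_two, ← (Finset.mem_filter.1 hg).2, pow_orderOf_eq_one, H21.irr_charDegree_cast]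
    intro g hg h5
    simp only [Finset.mem_filter, Finset.mem_univ, true_and, Nat.not_odd_iff_even] at hg h5
    have h6 : orderOf (g * g) ≠ 1 := fun h => h5 (orderOf_eq_prime
      (by rw [pow_two, orderOf_eq_one_iff.1 h]) fun h => by simp [h] at hg)
    obtain ⟨p, hpp, h7⟩ := Nat.exists_prime_and_dvd h6
    by_cases h8 : p = 2
    · exact hv 2 Nat.prime_two h2 _ (h8 ▸ h7)
    have h9 : 2 * p ∣ orderOf g := ((Nat.coprime_primes Nat.prime_two hpp).2
      (Ne.symm h8)).mul_dvd_of_dvd_of_dvd hg.two_dvd (h7.trans (by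
        rw [← pow_two]; exact orderOf_pow_dvd _))
    exact hv p hpp (hp p hpp h8 ⟨_, orderOf_pow_orderOf_div (orderOf_pos g).ne' h9⟩) _ h7
  set t := (Finset.univ.filter fun g : G => orderOf g = 2).card with ht
  have h5 : ∑ g, (χ : G → ℂ) (g * g) = ((t * charDegree (χ : G → ℂ) : ℕ) : ℂ) := by
    rw [← Finset.sum_filter_add_sum_filter_not _ (fun g : G => Odd (orderOf g)), h3, h4, zero_add,
      Nat.cast_mul]
  obtain ⟨ν, h6, h7, -, -⟩ := H21.exists_nu (G := G)
  have h8 := h6 χ
  rw [h5, inv_mul_eq_iff_eq_mul₀ card_ne_zero_complex] at h8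
  have h9 : ((t * charDegree (χ : G → ℂ) : ℕ) : ℤ) = Nat.card G * ν χ := by exact_mod_cast h8
  have ht0 : 0 < t := Finset.card_pos.2 ⟨s, by simp [hs]⟩
  have h10 : ν χ = 1 := by
    have h11 : (0 : ℤ) < Nat.card G * ν χ := h9 ▸ Nat.cast_pos.2 (mul_pos ht0 hx)
    have h12 := (mul_pos_iff_of_pos_left (Nat.cast_pos.2 Nat.card_pos)).1 h11
    rcases h7 χ with h | h | h <;> omega
  rw [h10, mul_one, Nat.cast_inj] at h9
  have h11 : ∀ s : G, orderOf s = 2 → Finset.univ.filter (fun g => IsConj s g) =
      Finset.univ.filter (fun g : G => orderOf g = 2) ∧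
      Nat.card (Subgroup.centralizer ({s} : Set G)) = charDegree (χ : G → ℂ) := fun s hs => by
    have h12 : Finset.univ.filter (fun g => IsConj s g) ⊆
        Finset.univ.filter (fun g : G => orderOf g = 2) := fun g hg => by
      obtain ⟨c, rfl⟩ := isConj_iff.1 (Finset.mem_filter.1 hg).2
      exact Finset.mem_filter.2 ⟨Finset.mem_univ _, (SemiconjBy.orderOf_eq c
        (by simp [SemiconjBy])).symm.trans hs⟩
    have h13 := Finset.card_le_card h12
    have h14 := Nat.le_of_dvd hx (hD s hs)
    have h15 := (Subgroup.centralizer ({s} : Set G)).card_mul_index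
    have h16 := card_filter_isConj s
    rw [← h9] at h15
    have h17 : (Finset.univ.filter (fun g => IsConj s g)).card =
      (Subgroup.centralizer ({s} : Set G)).index := by convert h16
    rw [← h17] at h15
    have h18 : t ≤ (Finset.univ.filter (fun g => IsConj s g)).card := by
      by_contra h
      push Not at h
      have := Nat.mul_lt_mul_of_le_of_lt h14 h hx
      rw [h15, mul_comm] at this
      exact lt_irrefl _ this
    refine ⟨Finset.eq_of_subset_of_card_le h12 h18, ?_⟩
    rw [le_antisymm h13 h18, mul_comm] at h15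
    exact Nat.eq_of_mul_eq_mul_left ht0 h15
  refine ⟨fun a b ha hb => ?_, fun a ha => ⟨(h11 a ha).2, ?_⟩, by rw [h6, h10, Int.cast_one]⟩
  · have : b ∈ Finset.univ.filter (fun g => IsConj a g) := by
      rw [(h11 a ha).1]; simp [hb]
    exact (Finset.mem_filter.1 this).2
  · refine Nat.coprime_of_dvd fun p hpp h12 h13 => ?_
    have h14 := mul_dvd_mul (hC a ha p hpp h12) h13
    rw [← (h11 a ha).2, Subgroup.card_mul_index, ← pow_succ] at h14
    exact Nat.pow_succ_factorization_not_dvd Nat.card_pos.ne' hpp h14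

end Cfsg.Agent.S4478
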