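import Cfsg.Statements.S4479
import Cfsg.Agent.H19.Kl
import Cfsg.Agent.H19.Bridge

set_option autoImplicit false
open Cfsg

namespace Cfsg.Agent.S4479
open H17 H19
theorem aux {G : Type*} [Group G] [Finite G] {O : ValuationSubring ℂ} [CharP (kk O) 2]
    {P : Sylow 2 G} (hK : IsKleinFour (P : Subgroup G))
    (hc : ∀ s t : G, orderOf s = 2 → orderOf t = 2 → IsConj s t) {J : G}
    (hJ : J ∈ (P : Subgroup G)) (hJ2 : orderOf J = 2) {χ₁ χ₂ χ₃ : IrrCharacter G} {ε₁ ε₂ ε₃ : ℤ}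
    (hs : ∀ [DecidablePred (· ∈ irr (B0 O G))] (F : IrrCharacter G → ℂ),
      ∑ χ with χ ∈ irr (B0 O G), F χ = F (triv G) + F χ₁ + F χ₂ + F χ₃)
    (hε : (ε₁ = 1 ∨ ε₁ = -1) ∧ (ε₂ = 1 ∨ ε₂ = -1) ∧ (ε₃ = 1 ∨ ε₃ = -1))
    (hval : (χ₁ : G → ℂ) J = ε₁ ∧ (χ₂ : G → ℂ) J = ε₂ ∧ (χ₃ : G → ℂ) J = ε₃) :
    1 + ε₁ * charDegree (χ₁ : G → ℂ) + ε₂ * charDegree (χ₂ : G → ℂ) +
      ε₃ * charDegree (χ₃ : G → ℂ) = 0 ∧
    (Nat.card G : ℚ) * (Nat.card (Subgroup.centralizer ((P : Subgroup G) : Set G)) : ℚ) ^ 2 *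
      ((charDegree (χ₁ : G → ℂ) + ε₁) * (charDegree (χ₂ : G → ℂ) + ε₂) *
        (charDegree (χ₃ : G → ℂ) + ε₃)) =
      8 * (Nat.card (Subgroup.centralizer ({J} : Set G)) : ℚ) ^ 3 * (charDegree (χ₁ : G → ℂ) *
        charDegree (χ₂ : G → ℂ) * charDegree (χ₃ : G → ℂ)) := by
  classical
  have e1 := klein_order (O := O) (H10.isSylowIn_top P) hK hc hJ hJ2
  have e2 := Kr_weak' (p := 2) (B0 O G) (hJ2 ▸ dvd_rfl : 2 ∣ orderOf J) preg_one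
  rw [Kr_eq] at e2
  rw [hs] at e1 e2
  simp only [hval, triv_apply, inv_one, ← cast_deg] at e1 e2
  have d1 : (charDegree (χ₁ : G → ℂ) : ℂ) ≠ 0 := by exact_mod_cast deg_ne_zero χ₁
  have d2 : (charDegree (χ₂ : G → ℂ) : ℂ) ≠ 0 := by exact_mod_cast deg_ne_zero χ₂
  have d3 : (charDegree (χ₃ : G → ℂ) : ℂ) ≠ 0 := by exact_mod_cast deg_ne_zero χ₃
  refine ⟨by rw [one_mul] at e2; exact_mod_cast e2, ?_⟩
  apply Rat.cast_injective (α := ℂ)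
  push_cast
  field_simp at e1
  change (_ : ℂ) * (Nat.card (H20.cent (P : Subgroup G)) : ℂ) ^ 2 * _ = _
  obtain ⟨rfl | rfl, rfl | rfl, rfl | rfl⟩ := hε <;> push_cast at e1 e2 ⊢ <;>
    first
    | linear_combination e1 + Nat.card G * (Nat.card (H20.cent (P : Subgroup G)) : ℂ) ^ 2 * e2
    | linear_combination e1 - Nat.card G * (Nat.card (H20.cent (P : Subgroup G)) : ℂ) ^ 2 * e2

theorem sum_eq {G : Type*} [Group G] [Finite G] {B : Set (IrrCharacter G)}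
    {χ₁ χ₂ χ₃ : IrrCharacter G}
    (hB : B = {χ : IrrCharacter G | (χ : G → ℂ) = (fun _ => 1) ∨ χ = χ₁ ∨ χ = χ₂ ∨ χ = χ₃})
    (hdist : (χ₁ : G → ℂ) ≠ (fun _ => 1) ∧ (χ₂ : G → ℂ) ≠ (fun _ => 1) ∧
      (χ₃ : G → ℂ) ≠ (fun _ => 1) ∧ χ₁ ≠ χ₂ ∧ χ₁ ≠ χ₃ ∧ χ₂ ≠ χ₃) [DecidablePred (· ∈ B)]
    (F : IrrCharacter G → ℂ) : ∑ χ with χ ∈ B, F χ = F (triv G) + F χ₁ + F χ₂ + F χ₃ := by
  classical
  obtain ⟨a1, a2, a3, a4, a5, a6⟩ := hdist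
  have b : ∀ χ : IrrCharacter G, ((χ : G → ℂ) = fun _ => 1) ↔ χ = triv G := fun χ =>
    ⟨fun h => Subtype.ext h, fun h => h ▸ rfl⟩
  rw [Ne, b] at a1 a2 a3
  rw [show Finset.univ.filter (· ∈ B) = {triv G, χ₁, χ₂, χ₃} by ext χ; simp [hB, b],
    Finset.sum_insert (by simp [Ne.symm a1, Ne.symm a2, Ne.symm a3]),
    Finset.sum_insert (by simp [a4, a5]), Finset.sum_pair a6]
  ring

/-- An order formula from the principal 2-block. Let G be a finite group of order 4·g₀ with g₀ odd having no normal 2-complement (no normal subgroup of order g₀); let P be a Sylow 2-subgroup, J an involution of P, and fix a maximal ideal M of the algebraic integers containing 2. Suppose the principal 2-block consists of the principal character and three further distinct characters χ₁, χ₂, χ₃ of degrees x₁, x₂, x₃, with χ_i(J) = ε_i = ±1. Then, writing c(J)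 and c(P) for the orders of the centralizers of J and of P, the order of G equals 8·α·c(J)³/c(P)² with α = x₁x₂x₃ / ((x₁ + ε₁)(x₂ + ε₂)(x₃ + ε₃)). -/
theorem result {G : Type*} [Group G] [Finite G] (M : Ideal Cfsg.AlgInt) (hM : Cfsg.IsPModular 2 M) (g₀ : ℕ) (hg₀ : Odd g₀) (hG : Nat.card G = 4 * g₀) (hnc : ¬ ∃ N : Subgroup G, N.Normal ∧ Nat.card N = g₀) (P : Sylow 2 G) (J : G) (hJ : J ∈ (P : Subgroup G)) (hJ2 : orderOf J = 2) (χ₁ χ₂ χ₃ : Cfsg.IrrCharacter G) (ε₁ ε₂ ε₃ : ℤ) (hB : Cfsg.principalBlock M G = {χ : Cfsg.IrrCharacter G | (χ : G → ℂ) = (fun _ => 1) ∨ χ = χ₁ ∨ χ = χ₂ ∨ χ = χ₃}) (hdist : (χ₁ : G → ℂ) ≠ (fun _ => 1) ∧ (χ₂ : G → ℂ) ≠ (fun _ => 1) ∧ (χ₃ : G → ℂ) ≠ (fun _ => 1) ∧ χ₁ ≠ χ₂ ∧ χ₁ ≠ χ₃ ∧ χ₂ ≠ χ₃) (hε : (ε₁ = 1 ∨ ε₁ = -1) ∧ (ε₂ = 1 ∨ ε₂ = -1) ∧ (ε₃ = 1 ∨ ε₃ = -1)) (hval : (χ₁ : G → ℂ) J = ε₁ ∧ (χ₂ : G → ℂ) J = ε₂ ∧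 (χ₃ : G → ℂ) J = ε₃) : (Nat.card G : ℚ) = 8 * (((Cfsg.charDegree (χ₁ : G → ℂ) : ℚ) * Cfsg.charDegree (χ₂ : G → ℂ) * Cfsg.charDegree (χ₃ : G → ℂ)) / ((Cfsg.charDegree (χ₁ : G → ℂ) + ε₁) * (Cfsg.charDegree (χ₂ : G → ℂ) + ε₂) * (Cfsg.charDegree (χ₃ : G → ℂ) + ε₃))) * (Nat.card (Subgroup.centralizer ({J} : Set G)) : ℚ) ^ 3 / (Nat.card (Subgroup.centralizer ((P : Subgroup G) : Set G)) : ℚ) ^ 2 := by
  obtain ⟨O, hO, _⟩ := exists_over hM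
  obtain ⟨hK, hc⟩ := klein_of_not_compl hg₀ hG hnc P
  rw [hO.principalBlock_eq] at hB
  obtain ⟨-, e⟩ := aux (O := O) hK hc hJ hJ2 (fun F => sum_eq hB hdist F) hε hval
  have d1 : (charDegree (χ₁ : G → ℂ) : ℚ) ≠ 0 := by exact_mod_cast deg_ne_zero χ₁
  have d2 : (charDegree (χ₂ : G → ℂ) : ℚ) ≠ 0 := by exact_mod_cast deg_ne_zero χ₂
  have d3 : (charDegree (χ₃ : G → ℂ) : ℚ) ≠ 0 := by exact_mod_cast deg_ne_zero χ₃
  have c1 : (Nat.card (Subgroup.centralizer ({J} : Set G)) : ℚ) ≠ 0 := by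
    exact_mod_cast Nat.card_pos.ne'
  have c2 : (Nat.card (Subgroup.centralizer ((P : Subgroup G) : Set G)) : ℚ) ≠ 0 := by
    exact_mod_cast Nat.card_pos.ne'
  have c3 : ((charDegree (χ₁ : G → ℂ) : ℚ) + ε₁) * (charDegree (χ₂ : G → ℂ) + ε₂) *
      (charDegree (χ₃ : G → ℂ) + ε₃) ≠ 0 := fun h => by
    rw [h, mul_zero] at e
    exact absurd e.symm (by positivity)
  rw [eq_div_iff (pow_ne_zero 2 c2), mul_div_assoc', div_mul_eq_mul_div, eq_div_iff c3]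
  linear_combination e

end Cfsg.Agent.S4479
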