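import Cfsg.Statements.S4480
import Cfsg.Agent.S4479
import Cfsg.Agent.H20.Rk

set_option autoImplicit false
open Cfsg

namespace Cfsg.Agent.S4480
open H17 H19

/-- Same setting as the Klein-four order formula: G of order 4·g₀ (g₀ odd) with no normal 2-complement, P a Sylow 2-subgroup, J an involution of P, M over 2, principal 2-block {1, χ₁, χ₂, χ₃} with χ_i(J) = ε_i = ±1. Suppose ε₁ε₂ε₃ = −1 and ε₃ = −1, and put q = x₃ = χ₃(1). Then there is a natural number m with 4·c(J) = m·c(P)·(q + 1), and the order of G equals (m³·c(P)/4)·(q³ − q)/2, that is 8·#G = m³·c(P)·(q³ − q). -/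
theorem result {G : Type*} [Group G] [Finite G] (M : Ideal Cfsg.AlgInt) (hM : Cfsg.IsPModular 2 M) (g₀ : ℕ) (hg₀ : Odd g₀) (hG : Nat.card G = 4 * g₀) (hnc : ¬ ∃ N : Subgroup G, N.Normal ∧ Nat.card N = g₀) (P : Sylow 2 G) (J : G) (hJ : J ∈ (P : Subgroup G)) (hJ2 : orderOf J = 2) (χ₁ χ₂ χ₃ : Cfsg.IrrCharacter G) (ε₁ ε₂ ε₃ : ℤ) (hB : Cfsg.principalBlock M G = {χ : Cfsg.IrrCharacter G | (χ : G → ℂ) = (fun _ => 1) ∨ χ = χ₁ ∨ χ = χ₂ ∨ χ = χ₃}) (hdist : (χ₁ : G → ℂ) ≠ (fun _ => 1) ∧ (χ₂ : G → ℂ) ≠ (fun _ => 1) ∧ (χ₃ : G → ℂ) ≠ (fun _ => 1) ∧ χ₁ ≠ χ₂ ∧ χ₁ ≠ χ₃ ∧ χ₂ ≠ χ₃) (hε : (ε₁ = 1 ∨ ε₁ = -1) ∧ (ε₂ = 1 ∨ ε₂ = -1) ∧ (ε₃ = 1 ∨ ε₃ = -1)) (hval : (χ₁ : G → ℂ) J = ε₁ ∧ (χ₂ : G → ℂ) J = ε₂ ∧ (χ₃ : G → ℂ) J = ε₃) (hprod : ε₁ * ε₂ * ε₃ = -1) (hε₃ : ε₃ = -1) : ∃ m : ℕ, 4 * Nat.card (Subgroup.centralizer ({J} : Set G)) = m * Nat.card (Subgroup.centralizer ((P : Subgroup G) : Set G)) * (Cfsg.charDegree (χ₃ :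 G → ℂ) + 1) ∧ 8 * Nat.card G = m ^ 3 * Nat.card (Subgroup.centralizer ((P : Subgroup G) : Set G)) * (Cfsg.charDegree (χ₃ : G → ℂ) ^ 3 - Cfsg.charDegree (χ₃ : G → ℂ)) := by
  classical
  obtain ⟨O, hO, _⟩ := exists_over hM
  have := Fintype.ofFinite G
  obtain ⟨hK, hc⟩ := klein_of_not_compl hg₀ hG hnc P
  rw [hO.principalBlock_eq] at hB
  have hs := fun F => S4479.sum_eq hB hdist F
  obtain ⟨e1, e2⟩ := S4479.aux (O := O) hK hc hJ hJ2 (fun F => S4479.sum_eq hB hdist F) hε hval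
  have d1 := Nat.pos_of_ne_zero (deg_ne_zero χ₁)
  have d2 := Nat.pos_of_ne_zero (deg_ne_zero χ₂)
  have d3 := Nat.pos_of_ne_zero (deg_ne_zero χ₃)
  subst hε₃
  obtain ⟨rfl, rfl⟩ : ε₁ = 1 ∧ ε₂ = 1 := by
    obtain ⟨rfl | rfl, rfl | rfl, -⟩ := hε <;> omega
  have hp : IsPElt 2 J := ⟨1, hJ2⟩
  have hodd : ∀ (χ : IrrCharacter G) (ε : ℤ), (ε = 1 ∨ ε = -1) → (χ : G → ℂ) J = ε →
      Odd (charDegree (χ : G → ℂ)) := fun χ ε h1 h2 => by
    have := char_nat_modEq χ.2.isCharacter hp h2 (n := charDegree (χ : G → ℂ))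
      (by rw [Int.cast_natCast, cast_deg])
    rw [Nat.odd_iff]; omega
  -- the two characters with positive sign are complex conjugate
  have h12 : charDegree (χ₁ : G → ℂ) = charDegree (χ₂ : G → ℂ) := by
    have e3 := sum_indicator_klein (B0 O G) (H10.isSylowIn_top P)
      (fun v hv => H6.kleinFour_mul_self hK hv) (hJ2 ▸ dvd_rfl : 2 ∣ orderOf J)
    have hcj : ∀ χ ∈ irr (B0 O G), ∃ ψ ∈ irr (B0 O G), ∀ g, (ψ : G → ℂ) g = (χ : G → ℂ) g⁻¹ :=
      fun χ hχ => ⟨H20.powIrr H20.coprime_pred χ, (H20.lam_powIrr _ hχ).trans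
        (congrArg _ (Subtype.ext rfl)), fun g => by rw [H20.powIrr_apply, H20.pow_pred]⟩
    have hre : ∀ χ : IrrCharacter G, (∀ g, (χ : G → ℂ) g = (χ : G → ℂ) g⁻¹) →
        Odd (charDegree (χ : G → ℂ)) → (Nat.card G : ℂ)⁻¹ * ∑ s : G, (χ : G → ℂ) (s * s) = 1 :=
      fun χ h h' => indicator_eq_one_of_odd χ.2 (fun g => Complex.conj_eq_iff_im.1
        (by rw [irr_conj, ← h])) (cast_deg χ).symm h'
    have hJi := H6.ord2_inv hJ2
    have hne : ∀ χ ψ : IrrCharacter G, (∀ g, (ψ : G → ℂ) g = (χ : G → ℂ) g⁻¹) →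
        ((ψ : G → ℂ) = fun _ => 1) → (χ : G → ℂ) = fun _ => 1 := fun χ ψ h h' => funext fun g => by
      rw [← inv_inv g, ← h, h']
    obtain ⟨ψ₁, a1, b1⟩ := hcj χ₁ (by simp [hB])
    obtain ⟨ψ₂, a2, b2⟩ := hcj χ₂ (by simp [hB])
    obtain ⟨ψ₃, a3, b3⟩ := hcj χ₃ (by simp [hB])
    have v1 := b1 J
    have v2 := b2 J
    have v3 := b3 J
    rw [hJi] at v1 v2 v3
    rw [hB] at a1 a2 a3
    rcases a1 with h | rfl | rfl | rfl
    · exact absurd (hne _ _ b1 h) hdist.1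
    · rcases a2 with h | rfl | rfl | rfl
      · exact absurd (hne _ _ b2 h) hdist.2.1
      · exact absurd (Subtype.ext (funext fun g => by
          rw [← inv_inv g, ← b1, ← b2, b1, inv_inv])) hdist.2.2.2.1
      · rcases a3 with h | rfl | rfl | rfl
        · exact absurd (hne _ _ b3 h) hdist.2.2.1
        · rw [hval.1, hval.2.2] at v3; norm_num at v3
        · rw [hval.2.1, hval.2.2] at v3; norm_num at v3
        · rw [hs, hre _ b1 (hodd _ _ hε.1 hval.1), hre _ b2 (hodd _ _ hε.2.1 hval.2.1),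
            hre _ b3 (hodd _ _ hε.2.2 hval.2.2), hval.1, hval.2.1, hval.2.2] at e3
          simp at e3
      · rw [hval.2.1, hval.2.2] at v2; norm_num at v2
    · have := b1 1
      rw [inv_one, ← cast_deg, ← cast_deg] at this
      exact_mod_cast this.symm
    · rw [hval.1, hval.2.2] at v1; norm_num at v1
  have hint : ∀ (χ : IrrCharacter G) (ε : ℤ), (ε = 1 ∨ ε = -1) → (χ : G → ℂ) J = ε →
      charDegree (χ : G → ℂ) ∣ (Subgroup.centralizer ({J} : Set G)).index := fun χ ε h1 h2 => by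
    have h3 := χ.2.isIntegral_central J
    rw [h2, ← cast_deg] at h3
    have h4 : IsIntegral ℤ ((((Subgroup.centralizer ({J} : Set G)).index : ℚ) * ε /
        charDegree (χ : G → ℂ) : ℚ)) := by
      rw [← isIntegral_algebraMap_iff (B := ℂ) (algebraMap ℚ ℂ).injective]; simpa using h3
    obtain ⟨y, hy⟩ := IsIntegrallyClosed.isIntegral_iff.1 h4
    rw [eq_div_iff (by exact_mod_cast deg_ne_zero χ), eq_intCast] at hy
    have h5 : y * charDegree (χ : G → ℂ) = (Subgroup.centralizer ({J} : Set G)).index * ε := by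
      exact_mod_cast hy
    rw [← Int.natCast_dvd_natCast]
    rcases h1 with rfl | rfl
    · exact ⟨y, by linear_combination -h5⟩
    · exact ⟨-y, by linear_combination h5⟩
  obtain ⟨k1, hk1⟩ := hint _ _ hε.1 hval.1
  obtain ⟨k3, hk3⟩ := hint _ _ hε.2.2 hval.2.2
  have hi := (Subgroup.centralizer ({J} : Set G)).card_mul_index
  have c1 : 0 < Nat.card (Subgroup.centralizer ({J} : Set G)) := Nat.card_pos
  have c2 : 0 < Nat.card (Subgroup.centralizer ((P : Subgroup G) : Set G)) := Nat.card_pos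
  rw [← h12] at e1 e2
  generalize charDegree (χ₁ : G → ℂ) = x at *
  generalize charDegree (χ₃ : G → ℂ) = q at *
  generalize Nat.card (Subgroup.centralizer ({J} : Set G)) = c at *
  generalize Nat.card (Subgroup.centralizer ((P : Subgroup G) : Set G)) = cP at *
  generalize (Subgroup.centralizer ({J} : Set G)).index = i at *
  obtain rfl : q = 2 * x + 1 := by omega
  rw [← hi] at e2 ⊢
  set m : ℚ := 2 * c / (cP * (x + 1)) with hm
  have hx : (0 : ℚ) < x := by exact_mod_cast d1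
  have hc0 : (0 : ℚ) < c := by exact_mod_cast c1
  have hP0 : (0 : ℚ) < cP := by exact_mod_cast c2
  have e4 : (i : ℚ) = x * (2 * x + 1) * m ^ 2 := by
    rw [hm]; push_cast at e2; field_simp
    refine mul_left_cancel₀ (show (2 * c * x : ℚ) ≠ 0 by positivity) ?_
    linear_combination e2
  have e5 : m ^ 2 = ((k1 : ℤ) - 2 * k3 : ℤ) := by
    have a1 : (k1 : ℚ) = (2 * x + 1) * m ^ 2 :=
      mul_left_cancel₀ hx.ne' (by rw [← mul_assoc, ← e4, hk1]; push_cast; ring)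
    have a3 : (k3 : ℚ) = x * m ^ 2 :=
      mul_left_cancel₀ (show (2 * x + 1 : ℚ) ≠ 0 by positivity)
        (by rw [hk3] at e4; push_cast at e4; linear_combination e4)
    push_cast; rw [a1, a3]; ring
  obtain ⟨y, hy⟩ : ∃ y : ℤ, (y : ℚ) = m := IsIntegrallyClosed.isIntegral_iff.1
    (IsIntegral.of_pow two_pos (e5 ▸ isIntegral_algebraMap))
  have hm0 : 0 < m := by positivity
  obtain ⟨n, rfl⟩ := Int.eq_ofNat_of_zero_le (show 0 ≤ y by exact_mod_cast (hy ▸ hm0.le : (0 : ℚ) ≤ y))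
  have e6 : (2 * c : ℚ) = n * (cP * (x + 1)) := by
    rw [show (n : ℚ) = m from hy, hm]; field_simp
  refine ⟨n, ?_, ?_⟩
  · have : ((4 * c : ℕ) : ℚ) = (n * cP * (2 * x + 1 + 1) : ℕ) := by
      push_cast; linear_combination 2 * e6
    exact_mod_cast this
  · have : ((8 * (c * i) : ℕ) : ℚ) = (n ^ 3 * cP * ((2 * x + 1) ^ 3 - (2 * x + 1)) : ℕ) := by
      rw [Nat.cast_mul (n ^ 3 * cP), Nat.cast_sub (Nat.le_self_pow three_ne_zero _)]
      push_cast
      rw [e4, ← show (n : ℚ) = m from hy]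
      linear_combination 4 * x * (2 * x + 1) * n ^ 2 * e6
    exact_mod_cast this

end Cfsg.Agent.S4480
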