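import Cfsg.Statements.S4482
import Cfsg.Agent.H19.Dih2
import Cfsg.Agent.H19.Bridge

set_option autoImplicit false
open Cfsg

namespace Cfsg.Agent.S4482
open H17 H19

/-- An order formula for groups with dihedral Sylow 2-subgroups and one class of involutions. Let G be a finite group whose Sylow 2-subgroup P = ⟨σ, τ⟩ is dihedral of order 2^n ≥ 8 (σ of order 2^(n−1), τ an involution inverting σ), let J be the central involution σ^(2^(n−2)), and suppose J, τ and στ are conjugate in G. Fix M over 2 and let χ₁ be an irreducible character in the principal 2-block taking one constant value δ₁ = ±1 at every non-identity power of σ, with χ₁ ≠ 1. Then, with x₁ = χ₁(1) and c(·) denoting orders of centralizers, x₁ ≠ δ₁ and #G · (x₁ − δ₁)² = 2·x₁(x₁ + δ₁)·c(J)³·(1/c(J, τ) + 1/c(J, στ))², where c(J, y) is the order of the joint centralizer of J and y. -/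
theorem result {G : Type*} [Group G] [Finite G] (M : Ideal Cfsg.AlgInt) (hM : Cfsg.IsPModular 2 M) (n : ℕ) (hn : 3 ≤ n) (P : Sylow 2 G) (σ τ : G) (hσ : σ ∈ (P : Subgroup G)) (hτ : τ ∈ (P : Subgroup G)) (hσo : orderOf σ = 2 ^ (n - 1)) (hτo : orderOf τ = 2) (hrel : τ * σ * τ⁻¹ = σ⁻¹) (hgen : Subgroup.closure ({σ, τ} : Set G) = (P : Subgroup G)) (hconj : IsConj (σ ^ (2 ^ (n - 2))) τ ∧ IsConj (σ ^ (2 ^ (n - 2))) (σ * τ)) (χ₁ : Cfsg.IrrCharacter G) (hχ₁ : χ₁ ∈ Cfsg.principalBlock M G) (h1 : (χ₁ : G → ℂ) ≠ (fun _ => 1)) (δ₁ : ℤ) (hδ₁ : δ₁ = 1 ∨ δ₁ = -1) (hval : ∀ l : ℕ, 0 < l → l < 2 ^ (n - 1) → (χ₁ : G → ℂ) (σ ^ l) = δ₁) : (Cfsg.charDegree (χ₁ : G → ℂ) : ℤ) ≠ δ₁ ∧ (Nat.card G : ℚ) * ((Cfsg.charDegree (χ₁ : G → ℂ) : ℚ) - δ₁) ^ 2 = 2 * (Cfsg.charDegree (χ₁ : G → ℂ) : ℚ) * ((Cfsg.charDegree (χ₁ : G → ℂ) : ℚ) + δ₁) * (Nat.card (Subgroup.centralizer ({σ ^ (2 ^ (n - 2))} : Set G)) : ℚ) ^ 3 * (1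 / (Nat.card (Subgroup.centralizer ({σ ^ (2 ^ (n - 2)), τ} : Set G)) : ℚ) + 1 / (Nat.card (Subgroup.centralizer ({σ ^ (2 ^ (n - 2)), σ * τ} : Set G)) : ℚ)) ^ 2 := by
  classical
  obtain ⟨O, hO, _⟩ := exists_over hM
  obtain ⟨k, rfl⟩ : ∃ k, n = k + 2 := ⟨n - 2, by omega⟩
  change orderOf σ = 2 ^ (k + 1) at hσo
  change ∀ l : ℕ, 0 < l → l < 2 ^ (k + 1) → _ at hval
  rw [Nat.add_sub_cancel] at hconj ⊢
  have h4 : 2 < 2 ^ (k + 1) := Nat.pow_lt_pow_right one_lt_two (show 1 < k + 1 by omega)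
  have hk : 2 ≤ 2 ^ k := Nat.pow_le_pow_right two_pos (show 1 ≤ k by omega)
  have h : DS (P : Subgroup G) k σ τ := ⟨H10.isSylowIn_top P, ⟨hσo, H6.ord2_mul_self hτo, hrel, by
      rintro ⟨i, rfl⟩
      refine pow_ne_one_of_lt_orderOf two_ne_zero (hσo ▸ h4) ?_
      rw [pow_two, mul_eq_one_iff_eq_inv, ← hrel]; group,
    fun g => hgen ▸ H6.mem_closure_inverts (H6.ord2_mul_self hτo) hrel⟩, by omega⟩
  have hζ := Complex.isPrimitiveRoot_exp (2 ^ (k + 1)) (by positivity)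
  generalize Complex.exp _ = ζ at hζ
  obtain ⟨χ, χ₂, χ₃, χ', δ, δ₂, δ₃, hb⟩ := h.block (O := O) hζ
  rw [hO.principalBlock_eq, hb.mem] at hχ₁
  have hz : ζ ^ 2 ^ k = -1 := (hζ.pow (by positivity) (pow_succ 2 k)).eq_neg_one_of_two_right
  have vz : ∀ j, (χ' j : G → ℂ) (σ ^ 2 ^ k) * (χ' j : G → ℂ) (σ ^ 2 ^ k) = 4 := fun j => by
    rw [(hb.val _ (by omega) (by omega)).2.2.2 j, pow_mul', hz]
    rcases hb.d1 with e | e <;> rcases neg_one_pow_eq_or ℂ (j + 1) with e' | e' <;> rw [e, e'] <;>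
      norm_num
  have v1 := hb.val 1 one_pos (by omega)
  have v2 := hb.val 2 two_pos h4
  have w1 := hval 1 one_pos (by omega)
  have w2 := hval 2 two_pos h4
  obtain rfl : χ₁ = χ := by
    rcases hχ₁ with rfl | rfl | rfl | rfl | ⟨j, rfl⟩
    · exact absurd rfl h1
    · rfl
    · rw [v1.2.1] at w1; rw [v2.2.1, ← w1] at w2
      rcases hb.d2 with e | e <;> rw [e] at w2 <;> norm_num at w2
    · rw [v1.2.2.1] at w1; rw [v2.2.2.1, ← w1] at w2
      rcases hb.d3 with e | e <;> rw [e] at w2 <;> norm_num at w2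
    · have := vz j
      rw [hval _ (by omega) (by omega)] at this
      rcases hδ₁ with e | e <;> rw [e] at this <;> norm_num at this
  obtain rfl : δ₁ = δ := by exact_mod_cast w1.symm.trans v1.1
  have dd : (δ₁ : ℂ) * δ₁ = 1 := by rcases hδ₁ with e | e <;> simp [e]
  have dj : ∀ j, (χ' j : G → ℂ) 1 = charDegree (χ₁ : G → ℂ) + δ₁ := fun j => by
    have := (hb.odd 1 (by simp) j).2
    rw [← cast_deg χ₁] at this
    linear_combination -δ₁ * this + (charDegree (χ₁ : G → ℂ) - (χ' j : G → ℂ) 1) * dd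
  have d0 : (charDegree (χ₁ : G → ℂ) : ℂ) ≠ 0 := by exact_mod_cast deg_ne_zero χ₁
  have d1 : (charDegree (χ₁ : G → ℂ) : ℂ) + δ₁ ≠ 0 := by
    rw [← dj ⟨0, by omega⟩, ← cast_deg]; exact_mod_cast deg_ne_zero _
  have e1 := h.order (O := O) hconj.1 hconj.2
  have e2 : ∑ χ with χ ∈ irr (B0 O G), ((χ : G → ℂ) σ + (χ : G → ℂ) (σ ^ 2)) * (χ : G → ℂ) 1 = 0 := by
    simp only [add_mul, Finset.sum_add_distrib]
    rw [h.Kr_reg (Subgroup.mem_zpowers σ) (fun e => h.x_sq_ne (by rw [e, one_pow])) preg_one,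
      h.Kr_reg (Subgroup.npow_mem_zpowers σ 2) h.x_sq_ne preg_one, add_zero]
  rw [pow_one] at v1 w1
  rw [hb.sum_eq] at e1 e2
  simp only [vz, dj, ← Finset.sum_mul, v1.2.1, v1.2.2.1, v2.2.1, v2.2.2.1, w1, w2, triv_apply,
    hval _ (by omega : 0 < 2 ^ k) (by omega), ← cast_deg χ₁] at e1 e2
  generalize ∑ j, ((χ' j : G → ℂ) σ + (χ' j : G → ℂ) (σ ^ 2)) = T at e1 e2
  obtain rfl : T = -2 * δ₁ := mul_right_cancel₀ d1 (by linear_combination e2 + 2 * dd)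
  have c0 : (Nat.card (Subgroup.centralizer ({σ ^ 2 ^ k} : Set G)) : ℚ) ≠ 0 := by
    exact_mod_cast Nat.card_pos.ne'
  have c1 : (0 : ℚ) < Nat.card (Subgroup.centralizer ({σ ^ 2 ^ k, τ} : Set G)) := by
    exact_mod_cast Nat.card_pos
  have c2 : (0 : ℚ) < Nat.card (Subgroup.centralizer ({σ ^ 2 ^ k, σ * τ} : Set G)) := by
    exact_mod_cast Nat.card_pos
  refine (and_iff_right_of_imp fun e a => ?_).2 ?_
  · have a' : (charDegree (χ₁ : G → ℂ) : ℚ) = δ₁ := by exact_mod_cast a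
    have d0' : (δ₁ : ℚ) ≠ 0 := by rcases hδ₁ with e | e <;> simp [e]
    rw [a', sub_self, ← two_mul] at e
    exact absurd e (by rw [zero_pow two_ne_zero, mul_zero]; exact Ne.symm (by positivity))
  apply Rat.cast_injective (α := ℂ)
  push_cast
  generalize (1 / (Nat.card (Subgroup.centralizer ({σ ^ 2 ^ k, τ} : Set G)) : ℂ) +
    1 / (Nat.card (Subgroup.centralizer ({σ ^ 2 ^ k, σ * τ} : Set G)) : ℂ)) = R at e1 ⊢
  field_simp at e1
  rcases hδ₁ with rfl | rfl <;> push_cast at e1 ⊢ <;> linear_combination e1 / 2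

end Cfsg.Agent.S4482
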