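import Cfsg.Statements.S4483
import Cfsg.Agent.H20.Rk
-- import your own Cfsg.Agent.* helpers here

set_option autoImplicit false
open Cfsg

namespace Cfsg.Agent.S4483

/-- Let G be a finite group of order 2^n·g₀ with g₀ odd, and M a maximal ideal of the algebraic integers containing 2. Every real-valued irreducible character of G of odd degree lies in the principal 2-block; consequently G has at most 2^(2n) real-valued irreducible characters of odd degree. -/
theorem result {G : Type*} [Group G] [Finite G] (M : Ideal Cfsg.AlgInt) (hM : Cfsg.IsPModular 2 M) : (∀ χ : Cfsg.IrrCharacter G, (∀ g : G, ((χ : G → ℂ) g).im = 0) → Odd (Cfsg.charDegree (χ : G → ℂ)) → χ ∈ Cfsg.principalBlock M G) ∧ Nat.card {χ : Cfsg.IrrCharacter G // (∀ g : G, ((χ : G → ℂ) g).im = 0) ∧ Odd (Cfsg.charDegree (χ : G → ℂ))} ≤ 2 ^ (2 * (Nat.card G).factorization 2) := by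
  classical
  have : Fact (Nat.Prime 2) := ⟨Nat.prime_two⟩
  obtain ⟨O, hO, _⟩ := H19.exists_over hM
  have key : ∀ χ : IrrCharacter G, (∀ g : G, ((χ : G → ℂ) g).im = 0) →
      Odd (charDegree (χ : G → ℂ)) → χ ∈ H19.irr (H19.B0 O G) := fun χ h1 h2 => by
    have h3 := H20.emin_le (p := 2) (H19.mem_irr_lam (O := O) χ)
    rw [H20.vd, Nat.factorization_eq_zero_of_not_dvd h2.not_two_dvd_nat] at h3
    have h4 : H20.powIrr H20.coprime_pred χ = χ := Subtype.ext (funext fun g => by
      rw [H20.powIrr_apply, H20.pow_pred, ← H19.irr_conj, Complex.conj_eq_iff_im.2 (h1 g)])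
    refine H19.mem_irr.2 (H20.eq_B0_of_inv (by omega) H20.coprime_pred
      (fun g _ => H20.pow_pred g) fun ψ hψ => H19.mem_irr.2 ?_)
    rw [H20.lam_powIrr _ (H19.mem_irr.1 hψ), h4]
  rw [hO.principalBlock_eq]
  refine ⟨key, (Nat.card_mono (t := H19.irr (H19.B0 O G)) (Set.toFinite _)
    (s := {χ : IrrCharacter G | (∀ g : G, ((χ : G → ℂ) g).im = 0) ∧ Odd (charDegree (χ : G → ℂ))})
    fun χ hχ => key χ hχ.1 hχ.2).trans ?_⟩
  have h1 := H20.brauer_feit 2 (H19.B0 O G)
  have h2 := Finset.card_nsmul_le_sum (Finset.univ.filter (· ∈ H19.irr (H19.B0 O G)))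
    (fun ψ : IrrCharacter G => 2 ^ (2 * blockHeight 2 (H19.irr (H19.B0 O G)) ψ)) 1
    fun ψ _ => Nat.one_le_pow _ _ two_pos
  rw [smul_eq_mul, mul_one, ← H20.card_eq_filter] at h2
  rw [H20.defect_B0] at h1
  have h3 : 0 < 2 ^ (2 * (Nat.card G).factorization 2) := by positivity
  generalize 2 ^ (2 * (Nat.card G).factorization 2) = n at h1 h3 ⊢
  omega

end Cfsg.Agent.S4483
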