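import Cfsg.Statements.S4488
import Cfsg.Agent.H21.MS1

set_option autoImplicit false
open Cfsg

open H17 H15 CF H21

namespace Cfsg.Agent.S4488

/-- Let the finite group G have a faithful p-rational character χ of degree n (all values of χ lie in the field generated over ℚ by a root of unity of order prime to p), and let p^a be the order of a Sylow p-subgroup of G. Then a ≤ Σ_{i ≥ 0} ⌊n / ((p − 1)·p^i)⌋ (a finite sum; the terms vanish once (p − 1)p^i > n). -/
theorem result {G : Type*} [Group G] [Finite G] (p : ℕ) (hp : p.Prime) (χ : G → ℂ) (hχ : Cfsg.IsCharacter G χ) (hfaith : ∀ g : G, χ g = χ 1 → g = 1) (hrat : (∃ r : ℕ, 0 < r ∧ ¬ p ∣ r ∧ ∀ g : G, χ g ∈ IntermediateField.adjoin ℚ ({Complex.exp (2 * Real.pi * Complex.I / r)} : Set ℂ))) (n : ℕ) (hn : Cfsg.charDegree χ = n) : (Nat.card G).factorization p ≤ ∑ i ∈ Finset.range (n + 1), n / ((p - 1) * p ^ i) := by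
  have := Fact.mk hp
  obtain ⟨r, hr, hpr, hrat⟩ := hrat
  obtain ⟨P⟩ : Nonempty (Sylow p G) := inferInstance
  have hc : IsChar (P : Subgroup G) (Res (P : Subgroup G) χ) := (isChar_top.2 hχ).Res le_top
  have hk : cfker (Res (P : Subgroup G) χ) ⊓ P = ⊥ := by
    refine eq_bot_iff.2 fun x hx => hfaith x ?_
    have := cfker_apply hx.1
    rwa [Res_of_mem _ (Subgroup.mem_inf.1 hx).2, Res_one] at this
  have h := blich hp P.2 hc (n := n) (by rw [Res_one, ← hn, charDegree_cast hχ]) (by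
    intro x hx k hk
    obtain ⟨a, ha⟩ := IsPGroup.iff_card.1 P.2
    obtain ⟨j, h1, h2, h3⟩ := exists_exp hp a (hp.coprime_iff_not_dvd.2 hpr).symm hk
    obtain ⟨u, hu⟩ := exists_ringEquiv_pow (mul_ne_zero (pow_ne_zero a hp.ne_zero) hr.ne') h1
    have hx1 : orderOf x ∣ p ^ a := ha ▸ H16.orderOf_dvd_card hx
    rw [Res_of_mem _ (pow_mem hx k), Res_of_mem _ hx,
      ← pow_eq_pow_iff_modEq.2 (h2.of_dvd hx1),
      ← vchar_aut_apply (u : ℂ →+* ℂ) (isChar_top.2 hχ).vchar hu (Subgroup.mem_top x)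
        (orderOf_dvd_iff_pow_eq_one.1 (hx1.mul_right r))]
    have hζ := (Complex.isPrimitiveRoot_exp r hr.ne').pow_eq_one
    refine IntermediateField.adjoin_induction ℚ (p := fun z _ => (u : ℂ →+* ℂ) z = z) ?_ ?_ ?_ ?_ ?_
      (hrat x)
    · rintro z rfl
      change u _ = _
      rw [hu _ (by rw [pow_mul', hζ, one_pow]), pow_eq_pow_mod j hζ, h3,
        ← pow_eq_pow_mod 1 hζ, pow_one]
    · intro q; simp
    · intro a b _ _ ha hb; rw [map_add, ha, hb]
    · intro a _ ha; rw [map_inv₀, ha]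
    · intro a b _ _ ha hb; rw [map_mul, ha, hb])
  have e := H16.card_inf_mul_relIndex (cfker (Res (P : Subgroup G) χ)) P
  rw [hk, Subgroup.card_bot, one_mul] at e
  rwa [e, P.card_eq_multiplicity, hp.factorization_pow, Finsupp.single_eq_same] at h

end Cfsg.Agent.S4488
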