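import Cfsg.Statements.S4490
import Cfsg.Agent.H20.Rk
-- import your own Cfsg.Agent.* helpers here

set_option autoImplicit false
open Cfsg

namespace Cfsg.Agent.S4490

/-- Let G be a finite group and M a maximal ideal of the algebraic integers containing 2. Every 2-block B of G whose defect groups are the Sylow 2-subgroups of G (a block of full defect) and which is not the principal block is different from its complex-conjugate block, the block formed by the complex conjugates of the members of B. -/
theorem result {G : Type*} [Group G] [Finite G] (M : Ideal Cfsg.AlgInt) (hM : Cfsg.IsPModular 2 M) (B : Set (Cfsg.IrrCharacter G)) (hB : Cfsg.IsPBlock M B) (P : Sylow 2 G) (hfull : Cfsg.IsDefectGroup 2 M B (P : Subgroup G)) (hnp : B ≠ Cfsg.principalBlock M G) : {ψ : Cfsg.IrrCharacter G | ∃ χ ∈ B, (ψ : G → ℂ) = fun g => (starRingEnd ℂ) ((χ : G → ℂ) g)} ≠ B := by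
  have : Fact (Nat.Prime 2) := ⟨Nat.prime_two⟩
  obtain ⟨O, hO, _⟩ := H19.exists_over hM
  obtain ⟨β, rfl⟩ := hO.exists_blk hB
  intro h
  refine hnp ?_
  have h1 := ((H20.isDefectGroup_iff hO hM _ _).1 hfull).fact_card
  have h2 := H20.defect_add_emin 2 (H19.irr_nonempty β)
  rw [P.card_eq_multiplicity, Nat.prime_two.factorization_pow, Finsupp.single_eq_same] at h1
  rw [hO.principalBlock_eq, H20.eq_B0_of_inv (β := β) (by omega) H20.coprime_pred
    (fun g _ => H20.pow_pred g) fun χ hχ => ?_]
  rw [← h]
  refine ⟨χ, hχ, funext fun g => ?_⟩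
  rw [H20.powIrr_apply, H20.pow_pred, H19.irr_conj]

end Cfsg.Agent.S4490
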