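import Cfsg.Statements.S4491
import Cfsg.Agent.H20.Ht2
-- import your own Cfsg.Agent.* helpers here

set_option autoImplicit false
open Cfsg

namespace Cfsg.Agent.S4491

/-- Let B be a p-block of defect d of the finite group G (relative to a maximal ideal M of the algebraic integers containing p), and let p^a be the p-part of the order of G. Then the exact power of p dividing the sum of the squares of the degrees of the irreducible characters in B is p^(2a − d). -/
theorem result {G : Type*} [Group G] [Finite G] (p : ℕ) [Fact p.Prime] (M : Ideal Cfsg.AlgInt) (hM : Cfsg.IsPModular p M) (B : Set (Cfsg.IrrCharacter G)) (hB : Cfsg.IsPBlock M B) : (∑ᶠ χ ∈ B, Cfsg.charDegree (χ : G → ℂ) ^ 2).factorization p = 2 * (Nat.card G).factorization p - Cfsg.blockDefect p B := by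
  classical
  obtain ⟨O, hO, _⟩ := H19.exists_over hM
  obtain ⟨β, rfl⟩ := hO.exists_blk hB
  have h1 := H20.val_blockCoeff_one (p := p) β
  rw [H19.finsum_mem_irr]
  have h2 : (∑ χ with χ ∈ H19.irr β, charDegree (χ : G → ℂ) ^ 2 : ℕ) ≠ 0 := by
    obtain ⟨χ, hχ⟩ := H19.irr_nonempty β
    exact (Finset.sum_pos' (fun _ _ => Nat.zero_le _) ⟨χ, by simpa,
      pow_pos (Nat.pos_of_ne_zero (H19.deg_ne_zero χ)) 2⟩).ne'
  have h3 : ((∑ χ with χ ∈ H19.irr β, charDegree (χ : G → ℂ) ^ 2 : ℕ) : ℂ) =
      Nat.card G * blockCoeff (H19.irr β) 1 := by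
    rw [H19.blockCoeff_eq_sum, mul_inv_cancel_left₀ H17.card_ne_zero_complex]
    simp [H19.cast_deg, sq]
  have h4 := H19.val_natCast O p h2
  rw [h3, map_mul, h1, H20.val_card O p, ← pow_add, H20.val_p_pow_inj] at h4
  have := H20.defect_add_emin p (H19.irr_nonempty β)
  omega

end Cfsg.Agent.S4491
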