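import Cfsg.Statements.S4492
import Cfsg.Agent.H20.Fong
-- import your own Cfsg.Agent.* helpers here

set_option autoImplicit false
open Cfsg

namespace Cfsg.Agent.S4492

/-- Let G be a finite p-solvable group, N = O_{p'}(G) its largest normal subgroup of order prime to p, and θ an irreducible character of N invariant under conjugation by G; fix a maximal ideal M of the algebraic integers containing p. Then the irreducible characters of G lying over θ (those whose restriction to N contains θ) form a single p-block of G, and the defect groups of that block are exactly the Sylow p-subgroups of G. -/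
theorem result {G : Type*} [Group G] [Fintype G] (p : ℕ) [Fact p.Prime] (M : Ideal Cfsg.AlgInt) (hM : Cfsg.IsPModular p M) (hsolv : Cfsg.IsPSolvable p G) (N : Subgroup G) [hN : N.Normal] [Fintype N] (hNdef : N = Cfsg.pPrimeCore p G) (θ : Cfsg.IrrCharacter N) (hinv : ∀ (g : G) (n : N), (θ : N → ℂ) ⟨g * n * g⁻¹, hN.conj_mem n n.2 g⟩ = (θ : N → ℂ) n) : ∃ B : Set (Cfsg.IrrCharacter G), Cfsg.IsPBlock M B ∧ (∀ χ : Cfsg.IrrCharacter G, χ ∈ B ↔ Cfsg.classInner (fun n : N => (χ : G → ℂ) n) (θ : N → ℂ) ≠ 0) ∧ (∀ P : Sylow p G, Cfsg.IsDefectGroup p M B (P : Subgroup G)) ∧ ∀ D : Subgroup G, Cfsg.IsDefectGroup p M B D → ∃ P : Sylow p G, D = (P : Subgroup G) := by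
  obtain ⟨O, hO, _⟩ := H19.exists_over hM
  subst hNdef
  have hK := H1.not_dvd_card_pPrimeCore (G := G) hM.1
  have h1 := H20.eA_mem_fixed_of_inv (O := O) hK hinv
  have h2 := H20.isBlk_eA _ (H19.lam O θ)
  have h3 := H20.fong (QuotientGroup.mk' (pPrimeCore p G)) (QuotientGroup.mk'_surjective _)
    (by rwa [QuotientGroup.ker_mk']) (H1.isPGroup_pCore p)
    (H1.IsPSolvable.centralizer_pCore_le (H1.IsPSolvable.quotient hsolv _)
      (H1.pPrimeCore_quotient_pPrimeCore p)) (by rwa [QuotientGroup.ker_mk']) h1 IsPGroup.of_bot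
  rw [H20.cent_bot, H20.br_bot] at h3
  obtain ⟨β, h4, h5⟩ := H20.exists_blk_of_inv hK h3
  refine ⟨_, hO.isPBlock_irr β, h5, fun P => (H20.isDefectGroup_iff hO hM _ _).2 ?_, fun D hD => ?_⟩
  · exact h4 ▸ H20.isDef_of_coprime (H10.isSylowIn_top P) hK h2 (H20.top_le_nrm _) le_top h1
  · obtain ⟨P, hP⟩ := ((h4 ▸ (H20.isDefectGroup_iff hO hM _ _).1 hD).isSylowIn_of_coprime hK h2
      (H20.top_le_nrm _) le_top h1).exists_sylow_top
    exact ⟨P, hP.symm⟩

end Cfsg.Agent.S4492
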