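import Cfsg.Statements.S4493
import Cfsg.Agent.H21.CD3

set_option autoImplicit false
open Cfsg

open H17

namespace Cfsg.Agent.S4493

/-- Let G be a finite solvable group and p a prime. Then G has a normal abelian Sylow p-subgroup if and only if no irreducible character degree of G is divisible by p. -/
theorem result {G : Type*} [Group G] [Finite G] (hsolv : Group.IsSolvable G) (p : ℕ) (hp : p.Prime) : (∃ P : Subgroup G, P.Normal ∧ (∀ x ∈ P, ∀ y ∈ P, x * y = y * x) ∧ IsPGroup p P ∧ ¬ p ∣ P.index) ↔ ∀ χ : Cfsg.IrrCharacter G, ¬ p ∣ Cfsg.charDegree (χ : G → ℂ) := by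
  haveI := Fact.mk hp
  exact ⟨fun ⟨P, _, h1, _, h2⟩ χ h => h2 (h.trans (χ.2.degree_dvd_index_of_comm
    (H21.irr_charDegree_cast χ).symm P (H1.isMulCommutative_iff'.2 h1))),
    fun h => (H21.pc_of_solvable hsolv fun χ h1 => h ⟨χ, h1⟩).comm fun χ h1 => h ⟨χ, h1⟩⟩

end Cfsg.Agent.S4493
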