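import Cfsg.Statements.S4497
import Cfsg.Agent.H21.SC

set_option autoImplicit false
open Cfsg

namespace Cfsg.Agent.S4497

/-- Let the finite group G contain an element x of prime order p with C_G(x) = ⟨x⟩, let t be the number of conjugacy classes of elements of order p, and let S* = O_{p′}(G) be the largest normal subgroup of order prime to p. Then S* ≤ G′; if t ≠ p − 1 the quotient G′/S* is simple (in particular non-trivial); if t = p − 1 then G′ = S*. -/
theorem result {G : Type*} [Group G] [Finite G] (p : ℕ) (hp : p.Prime) (x : G) (hx : orderOf x = p) (hC : Subgroup.centralizer ({x} : Set G) = Subgroup.zpowers x) (t : ℕ) (ht : Nat.card {C : ConjClasses G // ∃ g ∈ C.carrier, orderOf g = p} = t) : Cfsg.pPrimeCore p G ≤ commutator G ∧ (t ≠ p - 1 → ∀ h : ((Cfsg.pPrimeCore p G).subgroupOf (commutator G)).Normal, IsSimpleGroup (↥(commutator G) ⧸ (Cfsg.pPrimeCore p G).subgroupOf (commutator G))) ∧ (t = p - 1 → commutator G = Cfsg.pPrimeCore p G) := by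
  have h : H21.SC p x := ⟨hp, hx, hC⟩
  have h1 := H1.not_dvd_card_pPrimeCore (G := G) hp
  have h2 := h.le_comm _ h1
  refine ⟨h2, fun e _ => ?_, fun e => le_antisymm (H1.le_pPrimeCore
    ((Nat.Prime.coprime_iff_not_dvd hp).2 (h.not_dvd_comm ((h.t_eq_iff ht).1 e))).symm) h2⟩
  have h3 := h.mem_comm (mt (h.t_eq_iff ht).2 e)
  have h4 := h.sub h3
  have h5 : (pPrimeCore p G).subgroupOf (commutator G) = pPrimeCore p (commutator G) := by
    refine le_antisymm (H1.pPrimeCore_subgroupOf_le p _) fun y hy => ?_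
    exact H1.map_pPrimeCore_subtype_le p _ ⟨y, hy, rfl⟩
  have h6 : ¬ p ∣ Nat.card ((pPrimeCore p G).subgroupOf (commutator G)) :=
    h5 ▸ H1.not_dvd_card_pPrimeCore hp
  have h7 := h4.quot _ h6
  haveI : Nontrivial (↥(commutator G) ⧸ (pPrimeCore p G).subgroupOf (commutator G)) :=
    ⟨_, 1, fun e => hp.ne_one (h7.ord.symm.trans (orderOf_eq_one_iff.2 e))⟩
  refine ⟨fun M hM => ?_⟩
  by_cases h8 : p ∣ Nat.card M
  · refine Or.inr (eq_top_iff.2 fun y _ => ?_)
    have h9 := h7.mem_of_dvd M h8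
    obtain ⟨y, rfl⟩ := QuotientGroup.mk_surjective y
    have h10 : ⁅commutator G, commutator G⁆.subgroupOf (commutator G) ≤
        M.comap (QuotientGroup.mk' _) := by
      rw [H15.subgroupOf_comm le_rfl le_rfl, Subgroup.subgroupOf_self]
      exact h4.comm_le _ h9
    by_cases h11 : ⁅commutator G, commutator G⁆ = commutator G
    · exact h10 (h11.ge y.2)
    · have h12 := (h.imperf h3 h11).2
      have h13 : commutator G ≤ (M.comap (QuotientGroup.mk' _)).map (commutator G).subtype :=
        h12.ge.trans (sup_le ((H15.subgroupOf_le_iff' (H16.der_le _)).1 h10)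
          (Subgroup.zpowers_le.2 ⟨_, h9, rfl⟩))
      obtain ⟨z, hz, e⟩ := h13 y.2
      exact (Subtype.ext e : z = y) ▸ hz
  · refine Or.inl (eq_bot_iff.2 ?_)
    have h9 := H1.le_pPrimeCore (N := M) ((Nat.Prime.coprime_iff_not_dvd hp).2 h8).symm
    rwa [← H1.map_pPrimeCore_mk' p _ ((Nat.Prime.coprime_iff_not_dvd hp).2 h6).symm, ← h5,
      QuotientGroup.map_mk'_self] at h9

end Cfsg.Agent.S4497
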