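import Cfsg.Statements.S4498
import Cfsg.Agent.H20.Rk
-- import your own Cfsg.Agent.* helpers here

set_option autoImplicit false
open Cfsg

namespace Cfsg.Agent.S4498

open H17


/-- Let p and q be distinct primes dividing the order of the finite group G, and suppose G has no element of order p·q. Fix maximal ideals M_p over p and M_q over q of the algebraic integers. Then the principal p-block and the principal q-block of G have a non-principal irreducible character in common. -/
theorem result {G : Type*} [Group G] [Finite G] (p q : ℕ) [Fact p.Prime] [Fact q.Prime] (hpq : p ≠ q) (hp : p ∣ Nat.card G) (hq : q ∣ Nat.card G) (hno : ∀ g : G, orderOf g ≠ p * q) (Mp Mq : Ideal Cfsg.AlgInt) (hMp : Cfsg.IsPModular p Mp) (hMq : Cfsg.IsPModular q Mq) : ∃ χ : Cfsg.IrrCharacter G, (χ : G → ℂ) ≠ (fun _ => 1) ∧ χ ∈ Cfsg.principalBlock Mp G ∧ χ ∈ Cfsg.principalBlock Mq G := by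
  classical
  obtain ⟨O, hO, _⟩ := H19.exists_over hMp
  obtain ⟨O', hO', _⟩ := H19.exists_over hMq
  rw [hO.principalBlock_eq, hO'.principalBlock_eq]
  by_contra h
  push Not at h
  obtain ⟨x, hx⟩ := exists_prime_orderOf_dvd_card' p hp
  obtain ⟨y, hy⟩ := exists_prime_orderOf_dvd_card' q hq
  have h1 := H19.blockPart_eq_zero_of_sing (p := q)
    (θ := ∑ χ with χ ∈ H19.irr (H19.B0 O G), (χ : G → ℂ) x⁻¹ • (χ : G → ℂ)) (fun g hg => by
      have h2 : ¬ p ∣ orderOf g := fun h3 => by
        have h4 := ((Nat.coprime_primes hMp.1 hMq.1).2 hpq).mul_dvd_of_dvd_of_dvd h3 hg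
        exact hno _ (orderOf_pow_orderOf_div (orderOf_pos g).ne' h4)
      rw [← H19.Kr_weak (H19.B0 O G) h2 hx.symm.dvd, H19.Kr_eq, Finset.sum_apply]
      exact Finset.sum_congr rfl fun _ _ => mul_comm _ _) (H19.B0 O' G) hy.symm.dvd
  rw [H20.blockPart_eq_bil, Finset.sum_apply, Finset.sum_eq_single_of_mem (H19.triv G)
    (Finset.mem_filter.2 ⟨Finset.mem_univ _, H19.triv_mem_B0⟩)] at h1
  · simp [-H19.mem_irr, H20.bil_irr, H19.triv_mem_B0, H19.triv_apply] at h1
  · intro ψ hψ hne
    have h2 : ψ ∉ H19.irr (H19.B0 O G) := fun h3 =>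
      h ψ (fun h4 => hne (Subtype.ext h4)) h3 (Finset.mem_filter.1 hψ).2
    simp [-H19.mem_irr, H20.bil_irr, h2]

end Cfsg.Agent.S4498
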