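import Cfsg.Statements.S4500
import Cfsg.Agent.H19.Sub

set_option autoImplicit false
open Cfsg

namespace Cfsg.Agent.S4500
open H17 H19
theorem aux {G : Type*} [Group G] [Finite G] [Nontrivial G] (p q r : ℕ) (hp : p.Prime) (hq : q.Prime)
    (hr : r.Prime) (ha : (Nat.card G).factorization p ≤ 2)
    (hG : ∀ s : ℕ, s.Prime → s ∣ Nat.card G → s = p ∨ s = q ∨ s = r) :
    ∃ χ : IrrCharacter G, (χ : G → ℂ) ≠ (fun _ => 1) ∧ ∃ k : ℕ, charDegree (χ : G → ℂ) = q ^ k := by
  classical
  by_contra! hn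
  have := Fact.mk hp
  have := Fact.mk hr
  by_cases h0 : p ∣ Nat.card G
  swap
  · have := isSolvable_of_two_primes hq hr fun s hs d => (hG s hs d).resolve_left fun e => h0 (e ▸ d)
    obtain ⟨g, hg⟩ := SetLike.exists_of_lt (IsSolvable.commutator_lt_top_of_nontrivial G)
    refine hg.2 (mem_of_forall_irr_ker _ fun χ hχ hk => ?_)
    by_contra hne
    refine hn ⟨χ, hχ⟩ (fun e => hne (by rw [show χ = fun _ => 1 from e])) 0 ?_
    exact charDegree_natCast ((hχ.one_eq_one_iff.2 hk).trans (by simp))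
  obtain ⟨O, _⟩ := exists_val p
  obtain ⟨y, hy⟩ := exists_prime_orderOf_dvd_card' p h0
  have h1 := weak_orth (p := p) (B0 O G) (g := 1) (h := y) (by rw [orderOf_one]; exact hp.not_dvd_one) hy.symm.dvd
  rw [← Finset.add_sum_erase _ _ (a := triv G) (Finset.mem_filter.2 ⟨Finset.mem_univ _, triv_mem_B0⟩),
    triv_apply, triv_apply, one_mul, add_eq_zero_iff_eq_neg] at h1
  refine hr.not_dvd_one (nat_dvd_of_isIntegral_div hr.ne_zero ?_)
  rw [Nat.cast_one, h1, neg_div, Finset.sum_div]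
  refine (IsIntegral.sum _ fun χ hχ => ?_).neg
  obtain ⟨h2, h3⟩ := Finset.mem_erase.1 hχ
  have h4 := (height_zero_iff_add (Finset.mem_filter.1 h3).2).1 (H20.height_eq_zero_of_le_two
    (p := p) (by rwa [H20.defect_B0]) (Finset.mem_filter.1 h3).2)
  rw [H20.defect_B0, Nat.add_eq_right, Nat.factorization_eq_zero_iff] at h4
  obtain ⟨n, e⟩ : r ∣ charDegree (χ : G → ℂ) := by
    by_contra h5
    refine hn χ (fun e => h2 (Subtype.ext e)) _ (Nat.eq_prime_pow_of_unique_prime_dvd (deg_ne_zero χ)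
      fun {s} hs d => ?_)
    rcases hG s hs (d.trans (H20.deg_dvd χ)) with rfl | rfl | rfl
    exacts [(h4.elim (· hs) (·.elim (· d) (deg_ne_zero χ))).elim, rfl, (h5 d).elim]
  rw [← cast_deg, e, Nat.cast_mul, mul_assoc, mul_div_cancel_left₀ _ (Nat.cast_ne_zero.2 hr.ne_zero)]
  exact (isIntegral_natCast n).mul (χ.2.isCharacter.isIntegral _)

/-- Let G be a non-trivial finite group of order p^a · q^b · r^c with p, q, r distinct primes and a ≤ 2. Then G has a non-principal irreducible character whose degree is a power of q, and a non-principal irreducible character whose degree is a power of r; the power may be the zeroth, so a non-principal linear character serves for both. -/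
theorem result {G : Type*} [Group G] [Finite G] [Nontrivial G] (p q r a b c : ℕ) (hp : p.Prime) (hq : q.Prime) (hr : r.Prime) (hpq : p ≠ q) (hpr : p ≠ r) (hqr : q ≠ r) (ha : a ≤ 2) (hG : Nat.card G = p ^ a * q ^ b * r ^ c) : (∃ χ : Cfsg.IrrCharacter G, (χ : G → ℂ) ≠ (fun _ => 1) ∧ ∃ k : ℕ, Cfsg.charDegree (χ : G → ℂ) = q ^ k) ∧ ∃ χ : Cfsg.IrrCharacter G, (χ : G → ℂ) ≠ (fun _ => 1) ∧ ∃ k : ℕ, Cfsg.charDegree (χ : G → ℂ) = r ^ k := by
  have h1 : (Nat.card G).factorization p ≤ 2 := by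
    rw [hG, mul_assoc, Nat.factorization_mul (by have := hp.pos; positivity)
      (by have := hq.pos; have := hr.pos; positivity), Finsupp.add_apply, hp.factorization_pow,
      Nat.factorization_eq_zero_of_not_dvd]
    · simpa using ha
    · intro d
      rcases (Nat.Prime.dvd_mul hp).1 d with d | d
      exacts [hpq ((Nat.prime_dvd_prime_iff_eq hp hq).1 (hp.dvd_of_dvd_pow d)),
        hpr ((Nat.prime_dvd_prime_iff_eq hp hr).1 (hp.dvd_of_dvd_pow d))]
  have h2 : ∀ s : ℕ, s.Prime → s ∣ Nat.card G → s = p ∨ s = q ∨ s = r := fun s hs d => by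
    rw [hG, hs.dvd_mul, hs.dvd_mul, or_assoc] at d
    exact d.imp (fun d => (Nat.prime_dvd_prime_iff_eq hs hp).1 (hs.dvd_of_dvd_pow d)) (.imp
      (fun d => (Nat.prime_dvd_prime_iff_eq hs hq).1 (hs.dvd_of_dvd_pow d))
      fun d => (Nat.prime_dvd_prime_iff_eq hs hr).1 (hs.dvd_of_dvd_pow d))
  exact ⟨aux p q r hp hq hr h1 h2, aux p r q hp hr hq h1 fun s hs d => by have := h2 s hs d; tauto⟩

end Cfsg.Agent.S4500
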