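import Cfsg.Statements.S4501
import Cfsg.Agent.H19.SC3
import Cfsg.Agent.S0998
import Cfsg.Agent.S4500
import Cfsg.Agent.Lead.GW
import Cfsg.Agent.S0494
import Cfsg.Agent.S0495
import Cfsg.Agent.S0144
import Cfsg.Agent.H4.Dk1
import Cfsg.Agent.H18.Small

set_option autoImplicit false
open Cfsg

namespace Cfsg.Agent.S4501
open H17 H19
theorem not_two {G : Type*} [Group G] [Finite G] [IsSimpleGroup G] (hna : ¬ IsMulCommutative G)
    {p q a b : ℕ} (hp : p.Prime) (hq : q.Prime) : Nat.card G ≠ p ^ a * q ^ b := fun h =>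
  hna ⟨⟨IsSimpleGroup.comm_iff_isSolvable.2 (S0144.result p q a b hp hq h)⟩⟩

theorem part1 {G : Type*} [Group G] [Finite G] [IsSimpleGroup G] (hna : ¬ IsMulCommutative G)
    {p q a b : ℕ} (hp : p.Prime) (hq : q.Prime) (h : Nat.card G = 4 * p ^ a * q ^ b) :
    Nonempty (G ≃* alternatingGroup (Fin 5)) := by
  have hp2 : p ≠ 2 := by
    rintro rfl
    exact not_two hna (a := a + 2) (b := b) hp hq (by rw [h]; ring)
  have hq2 : q ≠ 2 := by
    rintro rfl
    exact not_two hna (a := a) (b := b + 2) hp hq (by rw [h]; ring)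
  have ho : Odd (p ^ a * q ^ b) := (hp.odd_of_ne_two hp2).pow.mul (hq.odd_of_ne_two hq2).pow
  obtain ⟨T⟩ : Nonempty (Sylow 2 G) := inferInstance
  have hT := H2.sm_card_sylow_eq T (k := 2) (m := p ^ a * q ^ b) (by rw [h]; ring)
    (by rw [← even_iff_two_dvd]; exact Nat.not_even_iff_odd.2 ho)
  have hd : GW.Dih (⊤ : Subgroup G) := by
    by_cases hc : IsCyclic (T : Subgroup G)
    · exact GW.dih_of_gd (H10.isSylowIn_top T) (GW.gd_of (Or.inl hc))
    · have : IsKleinFour (T : Subgroup G) :=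
        ⟨hT, (not_isCyclic_iff_exponent_eq_prime Nat.prime_two hT).1 hc⟩
      obtain ⟨e⟩ := IsKleinFour.nonempty_mulEquiv (G₁ := (T : Subgroup G)) (G₂ := DihedralGroup 2)
      exact GW.dih_of_sylow T e
  rcases GW.known inferInstance hna hd with ⟨F, _, _, ⟨k, hk⟩, h2, ⟨e⟩⟩ | ⟨⟨e⟩⟩
  · have h3 := H4.card_psl (F := F)
    rw [← Nat.card_congr e.toEquiv, h, hk, Nat.add_sub_cancel, Nat.gcd_eq_left (dvd_mul_right _ _),
      show (2 * k + 1) ^ 2 - 1 = 4 * (k * (k + 1)) from Nat.sub_eq_of_eq_add (by ring)] at h3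
    have h4 : (2 * k + 1) * (k * (k + 1)) = 2 * (p ^ a * q ^ b) := by nlinarith
    have h5 : ∀ n, n ∣ 2 * (p ^ a * q ^ b) → 3 ≤ n → p ∣ n ∨ q ∣ n := fun n h6 h7 => by
      by_contra! h8
      have := Nat.le_of_dvd two_pos ((Nat.Coprime.mul_right
        (((Nat.Prime.coprime_iff_not_dvd hp).2 h8.1).symm.pow_right a)
        (((Nat.Prime.coprime_iff_not_dvd hq).2 h8.2).symm.pow_right b)).dvd_of_dvd_mul_right h6)
      omega
    obtain rfl : k = 2 := by
      by_contra h6
      have a1 := h5 k (h4 ▸ (dvd_mul_right _ _).mul_left _) (by omega)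
      have a2 := h5 (k + 1) (h4 ▸ (dvd_mul_left _ _).mul_left _) (by omega)
      have a3 := h5 (2 * k + 1) (h4 ▸ dvd_mul_right _ _) (by omega)
      have b1 : ∀ r, r.Prime → r ∣ k → ¬ r ∣ k + 1 := fun r hr c d =>
        hr.one_lt.ne' (Nat.dvd_one.1 ((Nat.dvd_add_right c).1 d))
      have b2 : ∀ r, r.Prime → r ∣ k → ¬ r ∣ 2 * k + 1 := fun r hr c d =>
        hr.one_lt.ne' (Nat.dvd_one.1 ((Nat.dvd_add_right (c.mul_left 2)).1 d))
      have b3 : ∀ r, r.Prime → r ∣ k + 1 → ¬ r ∣ 2 * k + 1 := fun r hr c d =>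
        b2 r hr ((Nat.dvd_add_right c).1 (show r ∣ k + 1 + k by convert d using 1; ring)) d
      have := b1 p hp; have := b1 q hq; have := b2 p hp; have := b2 q hq
      have := b3 p hp; have := b3 q hq
      tauto
    exact S0494.result (by rw [h]; omega)
  · have h3 := Nat.card_congr e.toEquiv
    rw [h, nat_card_alternatingGroup, mul_assoc] at h3
    simp [Nat.factorial] at h3
    obtain ⟨k, hk⟩ := ho
    omega

theorem no_sq {c : ℕ} {m : ℤ} {p b r s : ℕ} (hr : r.Prime) (h2 : r ≠ 2) (hs : ¬ r ∣ s) (hc : c ≠ 0)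
    (h : 3 * (c : ℤ) ^ 2 * (r * s : ℕ) = (3 * p ^ 2 * 2 ^ b : ℕ) * m ^ 2) : False := by
  have h1 : c ^ 2 * (r * s) = (p * m.natAbs) ^ 2 * 2 ^ b := by
    zify
    rw [mul_pow, sq_abs]
    push_cast at h
    linarith
  have s0 : s ≠ 0 := by rintro rfl; simp at hs
  have h3 : p * m.natAbs ≠ 0 := by
    intro e
    rw [e] at h1
    simp [hc, hr.ne_zero, s0] at h1
  have h4 := congrArg (fun n => n.factorization r) h1
  simp only [Nat.factorization_mul (pow_ne_zero 2 hc) (mul_ne_zero hr.ne_zero s0),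
    Nat.factorization_mul hr.ne_zero s0, Nat.factorization_mul (pow_ne_zero 2 h3)
    (pow_ne_zero b two_ne_zero), Nat.factorization_pow, Finsupp.add_apply, Finsupp.smul_apply,
    hr.factorization_self, Nat.factorization_eq_zero_of_not_dvd hs,
    Nat.factorization_eq_zero_of_not_dvd (fun e => h2
      ((Nat.prime_dvd_prime_iff_eq hr Nat.prime_two).1 e)), smul_eq_mul] at h4
  omega

/-- Let G be a non-abelian finite simple group and p, q distinct primes. If the order of G is 4·p^a·q^b with a ≤ 2, then G is isomorphic to the alternating group of degree 5. If the order of G is 3·p^a·q^b with a ≤ 2, then G is isomorphic to the alternating group of degree 5 or to PSL(2,7). -/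
theorem result {G : Type*} [Group G] [Finite G] [IsSimpleGroup G] (hna : ∃ x y : G, x * y ≠ y * x) (p q a b : ℕ) (hp : p.Prime) (hq : q.Prime) (hpq : p ≠ q) (ha : a ≤ 2) : (Nat.card G = 4 * p ^ a * q ^ b → Nonempty (G ≃* alternatingGroup (Fin 5))) ∧ (Nat.card G = 3 * p ^ a * q ^ b → Nonempty (G ≃* alternatingGroup (Fin 5)) ∨ Nonempty (G ≃* Matrix.ProjectiveSpecialLinearGroup (Fin 2) (ZMod 7))) := by
  have hc : ¬ IsMulCommutative G := fun h => by
    obtain ⟨x, y, e⟩ := hna
    exact e (mul_comm' x y)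
  refine ⟨part1 hc hp hq, fun h => ?_⟩
  have hp3 : p ≠ 3 := by
    rintro rfl
    exact not_two hc (a := a + 1) (b := b) hp hq (by rw [h]; ring)
  have hq3 : q ≠ 3 := by
    rintro rfl
    exact not_two hc (a := a) (b := b + 1) hp hq (by rw [h]; ring)
  have h4 := H2.sm_four_dvd hc
  by_cases hq2 : q = 2
  · subst hq2
    interval_cases a
    · exact (not_two hc (a := 1) (b := b) Nat.prime_three hq (by rw [h]; ring)).elim
    · rcases S0998.result (fun e => hc inferInstance) p 2 3 b hp hq Nat.prime_three hpq hp3 hq3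
        (by rw [h]; ring) with ⟨F, _, _, h1, ⟨e⟩⟩ | ⟨F, _, _, h1, ⟨e⟩⟩
      · obtain ⟨e'⟩ := H18.psl_a5 (Or.inr h1)
        exact Or.inl ⟨e.trans e'⟩
      · have h3 := H4.card_psl (F := F)
        rw [← Nat.card_congr e.toEquiv, h1] at h3
        have h5 : Nat.card G = 168 := by norm_num at h3; omega
        have : Fact (Nat.Prime 7) := ⟨by norm_num⟩
        exact Or.inr (S0495.result (F := ZMod 7) h5 (ZMod.card 7))
    · exfalso
      obtain ⟨-, χ, h1, k, hk⟩ := S4500.result (G := G) p 2 3 2 b 1 hp hq Nat.prime_three hpq hp3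
        hq3 le_rfl (by rw [h]; ring)
      have h9 : ¬ 9 ∣ Nat.card G := fun e => by
        rw [h, mul_assoc, show 9 = 3 * 3 from rfl, Nat.mul_dvd_mul_iff_left (by norm_num)] at e
        rcases (Nat.Prime.dvd_mul Nat.prime_three).1 e with e | e
        · exact hp3 ((Nat.prime_dvd_prime_iff_eq Nat.prime_three hp).1
            (Nat.prime_three.dvd_of_dvd_pow e)).symm
        · exact absurd (Nat.prime_three.dvd_of_dvd_pow e) (by norm_num)
      have h5 := H2.ch_deg_ne_one (H2.sm_commutator_eq_top hc) (χ := χ) fun e => h1 (by rw [e]; rfl)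
      have h6 := H20.deg_dvd χ
      rw [hk] at h5 h6
      obtain rfl : k = 1 := by
        rcases k with _ | _ | k
        · simp at h5
        · rfl
        · exact (h9 ((Dvd.intro_left (3 ^ k) (by ring)).trans h6)).elim
      obtain ⟨c, m, h7, h8 | h8⟩ := order_of_deg_three hc hk h9 <;> rw [h] at h8
      · exact no_sq (r := 5) (s := 4) (by norm_num) (by norm_num) (by norm_num) h7 h8
      · exact no_sq (r := 7) (s := 8) (by norm_num) (by norm_num) (by norm_num) h7 h8
  · have ho : Odd (3 * q ^ b) := Odd.mul (by decide) (hq.odd_of_ne_two hq2).pow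
    rw [h, mul_right_comm] at h4
    have h5 := (Nat.Coprime.pow_left 2 (Nat.coprime_two_left.2 ho)).dvd_of_dvd_mul_left h4
    obtain rfl : p = 2 := ((Nat.prime_dvd_prime_iff_eq Nat.prime_two hp).1
      (Nat.prime_two.dvd_of_dvd_pow ((dvd_pow_self 2 two_ne_zero).trans h5))).symm
    obtain rfl : a = 2 := le_antisymm ha ((Nat.pow_dvd_pow_iff_le_right one_lt_two).1 h5)
    exact Or.inl (part1 hc (a := 1) (b := b) Nat.prime_three hq (by rw [h]; ring))

end Cfsg.Agent.S4501
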