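import Cfsg.Statements.S4502
import Cfsg.Agent.H20.Cyc9
-- import your own Cfsg.Agent.* helpers here

set_option autoImplicit false
open Cfsg

namespace Cfsg.Agent.S4502

/-- Let G be a finite group whose order is divisible by the prime p exactly once, and let P be a Sylow p-subgroup. Then the number of irreducible characters of G of degree not divisible by p equals the number of conjugacy classes of the normalizer of P. -/
theorem result {G : Type*} [Group G] [Finite G] (p : ℕ) [Fact p.Prime] (hdiv : p ∣ Nat.card G) (hsq : ¬ p ^ 2 ∣ Nat.card G) (P : Sylow p G) : Nat.card {χ : Cfsg.IrrCharacter G // ¬ p ∣ Cfsg.charDegree (χ : G → ℂ)} = Nat.card (ConjClasses (Subgroup.normalizer ((P : Subgroup G) : Set G))) := by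
  obtain ⟨O, _⟩ := H19.exists_val p
  have hp : p.Prime := Fact.out
  have hG : (Nat.card G).factorization p = 1 := le_antisymm
    (Nat.le_of_lt_succ (lt_of_not_ge fun h =>
      hsq ((hp.pow_dvd_iff_le_factorization Nat.card_pos.ne').2 h)))
    ((hp.dvd_iff_one_le_factorization Nat.card_pos.ne').1 hdiv)
  have hP : Nat.card P = p := by rw [P.card_eq_multiplicity, hG, pow_one]
  have h1 := H20.le_nrm_self (P : Subgroup G)
  choose F hF using H19.exists_induces (O := O) P.isPGroup' h1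
    (Subgroup.centralizer_le_normalizer _) le_rfl
  have hN : ∀ γ : H19.Blk O (H20.nrm (P : Subgroup G)), H20.IsDef p _ (H20.eA _ γ) P := fun γ =>
    ⟨h1, P.isPGroup', by
      rw [(H20.isBlk_eA _ γ).br_eq_self_of_normal P.isPGroup' h1 le_rfl]
      exact (H20.isBlk_eA _ γ).ne_zero, fun Q hQ _ h _ => P.is_maximal' hQ h⟩
  have hD : ∀ γ, H20.IsDef p ⊤ (H20.eG (F γ)) P := fun γ => ⟨le_top, P.isPGroup',
    ((H20.induces_iff_ind _ _).1 (hF γ)).br_ne_zero le_top P.isPGroup' h1 (hN γ).ne,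
    fun Q hQ _ h _ => P.is_maximal' hQ h⟩
  have hinj : Function.Injective F := fun γ γ' h =>
    ((H20.isDef_iff _ _).2 (hD γ)).induces_unique (hF γ) (h ▸ hF γ')
  have key : ∀ χ : IrrCharacter G, ¬ p ∣ charDegree (χ : G → ℂ) ↔ ∃ γ, F γ = H19.lam O χ := by
    intro χ
    have h2 : χ ∈ H19.irr (H19.lam O χ) := rfl
    have h3 := H20.defect_add_emin p ⟨χ, h2⟩
    have h4 := H20.height_add_emin p h2
    have h5 : charDegree (χ : G → ℂ) ≠ 0 := fun h =>
      Nat.card_pos.ne' (zero_dvd_iff.1 (h ▸ H20.deg_dvd χ))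
    rw [H20.height_eq_zero_of_le_two (by omega) h2] at h4
    rw [hp.dvd_iff_one_le_factorization h5]
    refine ⟨fun h => ?_, fun ⟨γ, h⟩ => ?_⟩
    · obtain ⟨D, hD⟩ := H20.exists_isDef p ⊤ (H20.isBlk_eG (H19.lam O χ)).ne_zero
      obtain ⟨g, -, hg⟩ := (H10.isSylowIn_top P).exists_cj_le hD.pg le_top
      have h6 := hD.cj_of_mem (H20.isBlk_eG _).fixed (Subgroup.mem_top g)
      have h7 : H20.sc g D = P := Subgroup.eq_of_le_of_card_ge hg (by
        rw [hP, h6.card_eq_pow, show blockDefect p (H19.irr (H19.lam O χ)) = 1 by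
          unfold H20.vd at h4; omega, pow_one])
      obtain ⟨γ, h8, -⟩ := ((H20.isDef_iff _ _).2 (h7 ▸ h6)).exists_induces h1
        (Subgroup.centralizer_le_normalizer _) le_rfl
      exact ⟨γ, (hF γ).unique h8⟩
    · have h6 := (hD γ).fact_card
      rw [hP, hp.factorization_self, h] at h6
      unfold H20.vd at h4; omega
  classical
  rw [← H17.card_irr, Nat.card_congr (Equiv.subtypeEquivRight key),
    Nat.card_congr (Equiv.sigmaFiberEquiv (H19.lam O)).symm, Nat.card_sigma,
    Nat.card_congr (Equiv.sigmaFiberEquiv fun x : {χ // ∃ γ, F γ = H19.lam O χ} => x.2.choose).symm,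
    Nat.card_sigma]
  refine Finset.sum_congr rfl fun γ _ => Eq.trans (Nat.card_congr ?_) (H20.card_irr_eq_of_cy h1
    le_rfl (isCyclic_of_prime_card hP) (fun h => hp.ne_one (by rw [← hP, h, Subgroup.card_bot]))
    (hD γ) (hN γ) ((H20.induces_iff_ind _ _).1 (hF γ))).symm
  exact ⟨fun x => ⟨x.1.1, x.1.2.choose_spec.symm.trans (congrArg F x.2)⟩,
    fun x => ⟨⟨x.1, γ, x.2.symm⟩, hinj (Eq.trans (Exists.choose_spec
      (⟨γ, x.2.symm⟩ : ∃ γ', F γ' = H19.lam O x.1)) x.2)⟩,
    fun _ => rfl, fun _ => rfl⟩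

end Cfsg.Agent.S4502
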