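import Cfsg.Statements.S4503
import Cfsg.Agent.H20.Tu6
-- import your own Cfsg.Agent.* helpers here

set_option autoImplicit false
open Cfsg

namespace Cfsg.Agent.S4503

/-- Let G be a finite group whose order is divisible by the prime p exactly once and which has no normal subgroup of order p. Then every faithful character χ of G has degree at least (p − 1)/2: 2·χ(1) + 1 ≥ p. -/
theorem result {G : Type*} [Group G] [Finite G] (p : ℕ) (hp : p.Prime) (hdiv : p ∣ Nat.card G) (hsq : ¬ p ^ 2 ∣ Nat.card G) (hnn : ∀ H : Subgroup G, H.Normal → Nat.card H ≠ p) (χ : G → ℂ) (hχ : Cfsg.IsCharacter G χ) (hfaith : ∀ g : G, χ g = χ 1 → g = 1) : p ≤ 2 * Cfsg.charDegree χ + 1 := by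
  have := Fact.mk hp
  obtain ⟨x, h, hn⟩ := H20.Tu.exists_sy hdiv hsq hnn
  have h1 := (H19.cast_charDegree hχ).symm
  have h2 := h.two_le hn hχ hfaith h1
  by_contra h3
  have h4 := h.le_fc (by omega) hn hχ hfaith h1 (by omega)
  have h5 := (h.fc_le hχ hfaith h1).1
  omega

end Cfsg.Agent.S4503
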