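import Cfsg.Statements.S4505
import Cfsg.Agent.H20.Rk
-- import your own Cfsg.Agent.* helpers here

set_option autoImplicit false
open Cfsg

namespace Cfsg.Agent.S4505

/-- Let G be a finite group, p a prime and M a maximal ideal of the algebraic integers containing p. For every σ, the number of p-blocks of defect exactly σ is at most the number of conjugacy classes of p-regular elements whose centralizer has order divisible by p^σ but not by p^(σ+1). -/
theorem result {G : Type*} [Group G] [Finite G] (p : ℕ) [Fact p.Prime] (M : Ideal Cfsg.AlgInt) (hM : Cfsg.IsPModular p M) (σ : ℕ) : Nat.card {B : Set (Cfsg.IrrCharacter G) // Cfsg.IsPBlock M B ∧ Cfsg.blockDefect p B = σ} ≤ Nat.card {C : ConjClasses G // ∃ g : G, ConjClasses.mk g = C ∧ ¬ p ∣ orderOf g ∧ (Nat.card (Subgroup.centralizer ({g} : Set G))).factorization p = σ} := by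
  classical
  obtain ⟨O, hO, _⟩ := H19.exists_over hM
  have := Fintype.ofFinite (ConjClasses G)
  let X := {C : ConjClasses G // ∃ g : G, ConjClasses.mk g = C ∧ ¬ p ∣ orderOf g ∧
    (Nat.card (Subgroup.centralizer ({g} : Set G))).factorization p = σ}
  let Y := {β : H19.Blk O G // blockDefect p (H19.irr β) = σ}
  have h1 : Nat.card {B : Set (IrrCharacter G) // IsPBlock M B ∧ blockDefect p B = σ} =
      Nat.card Y := by
    symm
    refine Nat.card_congr (Equiv.ofBijective (fun β => ⟨H19.irr β.1, hO.isPBlock_irr _, β.2⟩)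
      ⟨fun β γ h => Subtype.ext (H19.irr_injective (congrArg (·.1) h)), fun ⟨B, hB, h⟩ => ?_⟩)
    obtain ⟨β, rfl⟩ := hO.exists_blk hB
    exact ⟨⟨β, h⟩, rfl⟩
  have h2 : LinearIndependent (H19.kk O) fun (β : Y) (C : X) =>
      β.1 (H19.cls (H19.kk O) (H19.rep C.1)) := by
    rw [Fintype.linearIndependent_iff]
    intro c hc γ
    have h3 : ∀ β : Y, β.1 (H19.eB γ.1) = ∑ C : X,
        (H20.eG γ.1).coeff (H19.rep C.1) * β.1 (H19.cls (H19.kk O) (H19.rep C.1)) := fun β => by
      rw [H19.blk_eq_sum]
      rw [← Finset.sum_subtype (Finset.univ.filter fun C : ConjClasses G => ∃ g : G,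
        ConjClasses.mk g = C ∧ ¬ p ∣ orderOf g ∧
          (Nat.card (Subgroup.centralizer ({g} : Set G))).factorization p = σ) (by simp)
        fun C => (H20.eG γ.1).coeff (H19.rep C) * β.1 (H19.cls (H19.kk O) (H19.rep C)),
        Finset.sum_filter_of_ne]
      intro C _ h
      have h4 := H20.fact_cent_le_of_coeff (p := p) (left_ne_zero_of_mul h)
      have h5 := H20.le_fact_cent_of_cls (p := p) (right_ne_zero_of_mul h)
      rw [γ.2] at h4
      rw [β.2] at h5
      exact ⟨_, H19.mk_rep C, H19.preg_of_coeff_eB (left_ne_zero_of_mul h), le_antisymm h4 h5⟩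
    have h4 : ∑ β : Y, c β * β.1 (H19.eB γ.1) = 0 := by
      simp only [h3, Finset.mul_sum]
      rw [Finset.sum_comm]
      refine Finset.sum_eq_zero fun C _ => ?_
      have h5 := congrFun hc C
      simp only [Finset.sum_apply, Pi.smul_apply, smul_eq_mul, Pi.zero_apply] at h5
      simp only [mul_left_comm (c _), ← Finset.mul_sum, h5, mul_zero]
    rwa [Finset.sum_eq_single γ (fun β _ h => by
      rw [H19.blk_eB_of_ne fun h5 => h (Subtype.ext h5), mul_zero]) (by simp), H19.blk_eB_self,
      mul_one] at h4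
  rw [h1, Nat.card_eq_fintype_card, Nat.card_eq_fintype_card]
  simpa using h2.fintype_card_le_finrank

end Cfsg.Agent.S4505
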