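import Cfsg.Statements.S4506
import Cfsg.Agent.H20.Ht2
-- import your own Cfsg.Agent.* helpers here

set_option autoImplicit false
open Cfsg

namespace Cfsg.Agent.S4506

open H17 Finset


/-- Let G be a finite group, p a prime, p^a the p-part of the order of G and g′ its p′-part. Call two irreducible characters p-conjugate when one is obtained from the other by applying a field automorphism of ℂ that fixes the g′-th roots of unity, and let r be the number of characters p-conjugate to the irreducible character χ (χ included). Then the exponent of p in r·χ(1) is at most a; and if p^a divides r·χ(1) then p^a already divides χ(1). -/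
theorem result {G : Type*} [Group G] [Finite G] (p : ℕ) (hp : p.Prime) (χ : Cfsg.IrrCharacter G) (r : ℕ) (hr : Nat.card {ψ : Cfsg.IrrCharacter G // ∃ σ : ℂ ≃+* ℂ, σ (Complex.exp (2 * Real.pi * Complex.I / ((Nat.card G / p ^ (Nat.card G).factorization p) : ℕ))) = Complex.exp (2 * Real.pi * Complex.I / ((Nat.card G / p ^ (Nat.card G).factorization p) : ℕ)) ∧ (ψ : G → ℂ) = fun g => σ ((χ : G → ℂ) g)} = r) : (r * Cfsg.charDegree (χ : G → ℂ)).factorization p ≤ (Nat.card G).factorization p ∧ (p ^ (Nat.card G).factorization p ∣ r * Cfsg.charDegree (χ : G → ℂ) → p ^ (Nat.card G).factorization p ∣ Cfsg.charDegree (χ : G → ℂ)) := by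
  classical
  have := Fintype.ofFinite G
  have := Fact.mk hp
  set a := (Nat.card G).factorization p
  set n := Nat.card G / p ^ a
  rw [Nat.card_eq_fintype_card, Fintype.card_subtype] at hr
  set A := Finset.univ.filter fun ψ : IrrCharacter G => ∃ σ : ℂ ≃+* ℂ,
    σ (Complex.exp (2 * Real.pi * Complex.I / n)) = Complex.exp (2 * Real.pi * Complex.I / n) ∧
      (ψ : G → ℂ) = fun g => σ ((χ : G → ℂ) g)
  have h0 : χ ∈ A := mem_filter.2 ⟨mem_univ _, RingEquiv.refl ℂ, rfl, rfl⟩
  have hn : p ^ a * n = Nat.card G := Nat.mul_div_cancel' (Nat.ordProj_dvd _ _)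
  have hn0 : n ≠ 0 := fun h => Nat.card_pos.ne (by rw [← hn, h, mul_zero])
  have h1 : ∀ ψ ∈ A, pRegularPart p (ψ : G → ℂ) = pRegularPart p (χ : G → ℂ) ∧
      ∃ k : ℕ, k.Coprime (Nat.card G) ∧ ∀ g, (ψ : G → ℂ) g = (χ : G → ℂ) (g ^ k) := fun ψ h => by
    obtain ⟨-, σ, h2, h3⟩ := mem_filter.1 h
    obtain ⟨k, h4, h5⟩ := ringHom_exists_pow_char (G := G) (σ : ℂ →+* ℂ)
    refine ⟨H19.pr_eq_iff.2 fun g hg => ?_, k, h4, fun g => h3 ▸ h5 _ χ.2.isGen g⟩
    have := χ.2.isCharacter.ringHom_apply (σ : ℂ →+* ℂ) (n := n) (k := 1) (g := g) (fun z hz => by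
      haveI := NeZero.mk hn0
      obtain ⟨i, -, rfl⟩ := (Complex.isPrimitiveRoot_exp n hn0).eq_pow_of_pow_eq_one hz
      simp only [map_pow, pow_one]
      exact congrArg (· ^ i) h2) (orderOf_dvd_iff_pow_eq_one.1 ((Nat.Coprime.pow_right a
        ((hp.coprime_iff_not_dvd.2 hg).symm)).dvd_of_dvd_mul_left (hn ▸ orderOf_dvd_natCard g)))
    rw [h3]; simpa using this
  clear_value A
  have hv : (charDegree (χ : G → ℂ)).factorization p ≤ a := H20.vd_le p χ
  set d := a - (charDegree (χ : G → ℂ)).factorization p with hd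
  obtain ⟨m, h2, h3⟩ := (H20.isGen_pow_pr p χ).exists_coeff
  have h4 := inner_eq_sum_coeff (H20.isGen_pow_pr p χ).isClassFunction h2 h2
  have h5 : ∀ ψ ∈ A, m ψ = m χ := fun ψ h => Int.cast_injective (α := ℂ) (by
    rw [← h2, ← h2, classInner_smul_left, classInner_smul_left, H19.classInner_pr_left,
      H19.classInner_pr_left, (h1 ψ h).1])
  have h6 : ∑ ψ, m ψ * m ψ = p ^ d * m χ := Int.cast_injective (α := ℂ) (by
    rw [← h4, classInner_smul_right, classInner_smul_left, ← H19.classInner_pr_left, H19.pr_pr]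
    push_cast
    rw [← h2, classInner_smul_left, map_pow, map_natCast])
  have h7 : ((p : ℂ) ^ d • pRegularPart p (χ : G → ℂ)) 1 = p ^ d * (χ : G → ℂ) 1 := by
    simp [H19.pr_of_reg _ H19.preg_one]
  have h8 : m χ ≠ 0 := fun h => by
    rw [h, mul_zero, sum_eq_zero_iff_of_nonneg fun _ _ => mul_self_nonneg _] at h6
    rw [h3, sum_eq_zero fun ψ _ => by rw [mul_self_eq_zero.1 (h6 ψ (mem_univ _))]; simp] at h7
    exact mul_ne_zero (H20.p_pow_ne_zero p d) (H19.irr_one_ne_zero χ) h7.symm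
  rw [← sum_add_sum_compl A, sum_congr rfl fun ψ h => by rw [h5 ψ h], sum_const, hr,
    nsmul_eq_mul] at h6
  have h9 := sum_nonneg fun ψ (_ : ψ ∈ Aᶜ) => mul_self_nonneg (m ψ)
  have hr0 : 0 < r := hr ▸ card_pos.2 ⟨χ, h0⟩
  have hq : (0 : ℤ) < p ^ d := pow_pos (by exact_mod_cast hp.pos) _
  have h10 : 0 < m χ := by
    have := mul_self_pos.2 h8
    exact pos_of_mul_pos_left (by nlinarith) hq.le
  have h11 : r * m χ ≤ p ^ d := le_of_mul_le_mul_right (by linarith) h10
  have h12 : r ≤ p ^ d := by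
    have : (r : ℤ) ≤ p ^ d := by nlinarith
    exact_mod_cast this
  have h13 := (Nat.pow_le_pow_iff_right hp.one_lt).1 ((Nat.ordProj_le p hr0.ne').trans h12)
  have h14 := Nat.factorization_mul hr0.ne' (H19.deg_ne_zero χ)
  refine ⟨by rw [h14, Finsupp.add_apply]; omega, fun h => ?_⟩
  rw [hp.pow_dvd_iff_le_factorization (mul_ne_zero hr0.ne' (H19.deg_ne_zero χ)), h14,
    Finsupp.add_apply] at h
  obtain rfl : p ^ d = r := le_antisymm ((Nat.pow_le_pow_right hp.pos (by omega)).trans
    (Nat.ordProj_le p hr0.ne')) h12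
  push_cast at h6 h11
  have h15 : m χ = 1 := by nlinarith
  rw [h15, mul_one, mul_one, add_eq_left,
    sum_eq_zero_iff_of_nonneg fun _ _ => mul_self_nonneg _] at h6
  rw [← sum_add_sum_compl A, sum_eq_zero (s := Aᶜ) fun ψ h => by
    rw [mul_self_eq_zero.1 (h6 ψ h)]; simp, add_zero] at h3
  obtain ⟨P, hP⟩ := H10.exists_isSylowIn p (⊤ : Subgroup G)
  obtain ⟨c, hc⟩ := (χ.2.isCharacter.restrict P).inner_nat isCharacter_one
  rw [classInner_one_right, ← sum_subtype (univ.filter (· ∈ P)) (by simp),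
    inv_mul_eq_iff_eq_mul₀ card_ne_zero_complex, hP.card_eq_pow, Subgroup.card_top] at hc
  have h16 := congrArg (fun f : G → ℂ => ∑ g with g ∈ P, f g) h3
  simp only [Finset.sum_apply] at h16
  rw [sum_eq_single (1 : G) (fun g hg e => by
    simp [H19.pr_of_sing _ ((H19.isPElt_of_mem hP.isPGroup (mem_filter.1 hg).2).dvd_orderOf e)])
    (by simp), h7, sum_comm, sum_congr rfl (g := fun _ => _) fun ψ h => by
      obtain ⟨k, e, e'⟩ := (h1 ψ h).2
      simp only [h5 ψ h, h15, Int.cast_one, one_smul, e']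
      exact (sum_pow_eq_of_stable _ e (by simpa using fun g hg => pow_mem hg k) _).trans hc,
    sum_const, hr, nsmul_eq_mul, Nat.cast_pow, mul_right_inj' (H20.p_pow_ne_zero p d),
    ← H19.cast_deg] at h16
  exact ⟨c, by exact_mod_cast h16⟩

end Cfsg.Agent.S4506
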