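import Cfsg.Statements.S4507
import Cfsg.Agent.H20.Cyc7
-- import your own Cfsg.Agent.* helpers here

set_option autoImplicit false
open Cfsg

namespace Cfsg.Agent.S4507

/-- Let G be a finite group whose order g is divisible by the prime p exactly once, g′ = g/p, and fix a maximal ideal M of the algebraic integers containing p. Call two irreducible characters p-conjugate when a field automorphism of ℂ fixing the g′-th roots of unity carries one to the other. Let B be a p-block of positive defect (its defect group is a Sylow p-subgroup). Then B contains a subset Y (the exceptional family) such that: Y is a full p-conjugacy class (its members are pairwise p-conjugate and every p-conjugate of a member of Y lies in Y); every member of B outside Y is p-conjugate only to itself; the size t of Y divides p − 1 and B has exactly t + (p − 1)/t members; and there are signs δ_χ = ±1 (χ ∈ B) such that for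 every p-regular element x and every θ ∈ Y, Σ_{χ ∈ B ∖ Y} δ_χ χ(x) + δ_θ θ(x) = 0. -/
theorem result {G : Type*} [Group G] [Finite G] (p : ℕ) [Fact p.Prime] (M : Ideal Cfsg.AlgInt) (hM : Cfsg.IsPModular p M) (hdiv : p ∣ Nat.card G) (hsq : ¬ p ^ 2 ∣ Nat.card G) (B : Set (Cfsg.IrrCharacter G)) (hB : Cfsg.IsPBlock M B) (hd : 0 < Cfsg.blockDefect p B) : ∃ Y : Set (Cfsg.IrrCharacter G), Y ⊆ B ∧ Y.Nonempty ∧ (∀ θ ∈ Y, ∀ ψ : Cfsg.IrrCharacter G, (∃ σ : ℂ ≃+* ℂ, σ (Complex.exp (2 * Real.pi * Complex.I / ((Nat.card G / p ^ (Nat.card G).factorization p) : ℕ))) = Complex.exp (2 * Real.pi * Complex.I / ((Nat.card G / p ^ (Nat.card G).factorization p) : ℕ)) ∧ (ψ : G → ℂ) = fun g => σ ((θ : G → ℂ) g)) ↔ ψ ∈ Y) ∧ (∀ χ ∈ B, χ ∉ Y → ∀ ψ : Cfsg.IrrCharacter G, (∃ σ : ℂ ≃+* ℂ, σ (Complex.exp (2 * Real.pi * Complex.I / ((Nat.card G / p ^ (Nat.card G).factorization p) : ℕ))) = Complex.exp (2 * Real.pi * Complex.I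 / ((Nat.card G / p ^ (Nat.card G).factorization p) : ℕ)) ∧ (ψ : G → ℂ) = fun g => σ ((χ : G → ℂ) g)) → ψ = χ) ∧ Nat.card Y ∣ p - 1 ∧ Nat.card B = Nat.card Y + (p - 1) / Nat.card Y ∧ ∃ δ : Cfsg.IrrCharacter G → ℤ, (∀ χ ∈ B, δ χ = 1 ∨ δ χ = -1) ∧ ∀ x : G, ¬ p ∣ orderOf x → ∀ θ ∈ Y, (∑ᶠ χ ∈ B \ Y, (δ χ : ℂ) * (χ : G → ℂ) x) + (δ θ : ℂ) * (θ : G → ℂ) x = 0 := by
  obtain ⟨O, hO, _⟩ := H19.exists_over hM
  obtain ⟨β, rfl⟩ := hO.exists_blk hB
  obtain ⟨D, hD⟩ := H20.exists_isDef p ⊤ (H20.isBlk_eG β).ne_zero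
  obtain ⟨e, he⟩ := H20.exists_max (H20.isBlk_eG β) hD
  have hp : p.Prime := Fact.out
  have hDp : Nat.card D = p := by
    have h1 := Subgroup.card_subgroup_dvd_card D
    rw [hD.card_eq_pow] at h1 ⊢
    rw [le_antisymm (Nat.le_of_lt_succ (lt_of_not_ge fun h => hsq ((pow_dvd_pow p h).trans h1))) hd,
      pow_one]
  have C := H20.cy_of_card he hDp
  obtain ⟨X, Y, ζ, δ, δ₀, s, h⟩ := C.dade
  have hX : ∀ χ ∈ X, χ ∈ CF.Irr (⊤ : Subgroup G) := fun _ => h.X_irr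
  have hY := (H20.card_sI fun _ => h.Y_irr).trans h.cardY_eq
  have hdf : H19.irr β \ H20.sI Y = H20.sI X := by
    rw [h.sI_union, Set.union_diff_right, h.sI_disj.sdiff_eq_left]
  obtain ⟨t, ht⟩ := C.dvd
  have ht0 : 0 < t := Nat.pos_of_ne_zero fun h0 => by
    have := hp.one_lt
    rw [h0, mul_zero] at ht; omega
  rw [hDp, ht, Nat.mul_div_cancel_left _ C.e_pos] at hY
  classical
  refine ⟨H20.sI Y, h.sI_union ▸ Set.subset_union_right, ?_, fun θ hθ ψ => ⟨?_, fun hψ => ?_⟩,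
    ?_, ?_, ?_, fun χ => if (χ : G → ℂ) ∈ X then δ χ else δ₀, fun χ _ => ?_, fun x hx θ hθ => ?_⟩
  · obtain ⟨z, hz⟩ := h.Y_nonempty C
    obtain ⟨χ, hχ, -⟩ := (H20.bijOn_sI fun _ => h.Y_irr).surjOn hz
    exact ⟨χ, hχ⟩
  · rintro ⟨σ, h1, h2⟩
    obtain ⟨l, hl, hl1, h3⟩ := h.surj _ hθ
    have := h.aut_Y C (H20.fix_reg_of_root (σ := (σ : ℂ →+* ℂ)) rfl h1) hl hl1
    rw [H20.mem_sI, h2, ← h3]
    have h4 := h.mem _ (CF.aut_mem_Irr _ hl) fun h => hl1 ((CF.aut_eq_one_iff σ).1 h)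
    rw [← this] at h4
    exact h4
  · obtain ⟨l, hl, hl1, h3⟩ := h.surj _ hθ
    obtain ⟨m, hm, hm1, h4⟩ := h.surj _ hψ
    have h5 := Nat.not_dvd_ordCompl hp (Nat.card_pos (α := G)).ne'
    obtain ⟨σ, h1, h2⟩ := H20.exists_aut_eq hDp hl hl1 hm hm1 h5
    have h6 := h1 _ (Complex.isPrimitiveRoot_exp _
      (Nat.ordCompl_pos p (Nat.card_pos (α := G)).ne').ne').pow_eq_one
    refine ⟨σ, h6, ?_⟩
    rw [← h3, ← h4, ← h2, ← h.aut_Y C (H20.fix_reg_of_root (σ := (σ : ℂ →+* ℂ)) rfl h6) hl hl1]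
    rfl
  · rintro χ hχ hχ' ψ ⟨σ, h1, h2⟩
    have h3 : χ ∈ H20.sI X := hdf ▸ ⟨hχ, hχ'⟩
    exact Subtype.ext (h2.trans
      (h.aut_X C (H20.fix_reg_of_root (σ := (σ : ℂ →+* ℂ)) rfl h1) h3))
  · rw [hY, ht]; exact dvd_mul_left _ _
  · rw [hY, ← H20.card_IB_top, C.card_IB, hDp, ht, Nat.mul_div_cancel_left _ C.e_pos,
      Nat.mul_div_cancel _ ht0, add_comm]
  · beta_reduce
    split_ifs with h1
    exacts [h.sgnX _ h1, h.sgn₀]
  · beta_reduce
    rw [hdf, H20.finsum_sI hX fun χ => ((if χ ∈ X then δ χ else δ₀ : ℤ) : ℂ) * χ x,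
      Finset.sum_congr rfl fun χ hχ => by rw [if_pos hχ],
      if_neg (Finset.disjoint_right.1 h.disj hθ), add_comm]
    exact h.rel _ hθ x hx

end Cfsg.Agent.S4507
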