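import Cfsg.Statements.S4508
import Cfsg.Agent.H21.SC
import Cfsg.Agent.H21.Glau1
import Cfsg.Agent.H2.D2
import Cfsg.Agent.H2.D1x

set_option autoImplicit false
open Cfsg

open H17 H19 H2 Subgroup
open scoped ComplexConjugate

namespace Cfsg.Agent.S4508

section
variable {G : Type*} [Group G] [Finite G]

theorem det_prod {χ : G → ℂ} (hχ : IsCharacter G χ) {H : Type*}
    [Group H] [Finite H] (f : H →* G) {n : ℕ} (l : Fin n → (H →* ℂˣ))
    (h : ∀ x, χ (f x) = ∑ i, (l i x : ℂ)) (x : H) :
    (∏ i, l i x) ^ (commutator G).index = 1 := by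
  have h1 : (diagRep l).character = fun x => χ (f x) := by
    funext y
    rw [h]
    simp [Representation.character, diagRep, Matrix.trace]
  have h2 := H21.detChar_character (diagRep l) x
  rw [h1, H21.detChar_comp hχ f] at h2
  obtain ⟨δ, hδ⟩ := H21.exists_detChar hχ
  rw [hδ] at h2
  simp only [diagRep, MonoidHom.coe_mk, OneHom.coe_mk,
    LinearMap.det_toLin', Matrix.det_diagonal] at h2
  rw [show ∏ i, l i x = δ (f x) from Units.ext (by simpa using h2.symm), ← map_pow]
  exact Abelianization.commutator_subset_ker δ ((commutator G).pow_index_mem _)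

theorem det_reg (hG : Odd (commutator G).index) {χ : G → ℂ} (hχ : IsCharacter G χ) {y : G} {t : ℕ}
    (hd : χ 1 = (orderOf y * t : ℕ)) (he : Even (orderOf y))
    (h : ∀ v ∈ zpowers y, v ≠ 1 → χ v = 0) : Even t := by
  classical
  haveI := Fintype.ofFinite (zpowers y)
  haveI := finite_monoidHom_units (G := zpowers y)
  haveI := Fintype.ofFinite (zpowers y →* ℂˣ)
  obtain ⟨n, l, hn, hl⟩ := (hχ.restrict (zpowers y)).exists_sum_linear (ch_comm_zpowers y)
  have hcnt : ∀ m : zpowers y →* ℂˣ, (Finset.univ.filter fun i => l i = m).card = t := by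
    intro m
    have h1 := ch_card_filter_lin l m
    have h2 : (fun x => ∑ i, (l i x : ℂ)) = fun x : zpowers y => χ x := by
      funext x; exact (hl x).symm
    rw [h2, classInner_def, ch_sum_const _ 0 (fun x hx => by
      rw [h x x.2 fun e => hx (Subtype.ext e), zero_mul])] at h1
    simp only [OneMemClass.coe_one, hd, map_one, Units.val_one, mul_one, mul_zero, add_zero,
      Nat.card_zpowers, Nat.cast_mul] at h1
    rw [inv_mul_cancel_left₀ (Nat.cast_ne_zero.2 (orderOf_pos y).ne')] at h1
    exact_mod_cast h1.symm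
  set v : zpowers y := ⟨y, mem_zpowers y⟩
  have h3 := det_prod hχ (zpowers y).subtype l hl v
  rw [← Finset.prod_fiberwise Finset.univ l] at h3
  have h4 : ∀ m : zpowers y →* ℂˣ, ∏ i ∈ Finset.univ.filter (fun i => l i = m), l i v = m v ^ t := by
    intro m
    rw [Finset.prod_congr rfl (g := fun _ => m v) (fun i hi => by rw [(Finset.mem_filter.1 hi).2]),
      Finset.prod_const, hcnt]
  simp only [h4, Finset.prod_pow] at h3
  -- the product of all `m v` is `-1`
  have hinj : Function.Injective fun m : zpowers y →* ℂˣ => m v := by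
    intro m m' hm
    ext ⟨w, k, rfl⟩
    have : (⟨y ^ k, k, rfl⟩ : zpowers y) = v ^ k := rfl
    rw [this, map_zpow, map_zpow]
    exact congrArg (fun u : ℂˣ => ((u ^ k : ℂˣ) : ℂ)) hm
  have h5 : ∏ m : zpowers y →* ℂˣ, m v = -1 := by
    obtain ⟨m0, hm0⟩ : ∃ m0 : zpowers y →* ℂˣ, m0 v = -1 := by
      have hov : orderOf v = orderOf y := (orderOf_coe v).symm
      have hv : ∀ w, w ∈ zpowers v := by
        rintro ⟨w, k, rfl⟩; exact ⟨k, rfl⟩
      refine ⟨monoidHomOfForallMemZpowers hv (g' := -1) ?_, monoidHomOfForallMemZpowers_apply_gen _ _⟩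
      rw [hov]
      exact orderOf_dvd_of_pow_eq_one he.neg_one_pow
    rw [← Finset.mul_prod_erase _ _ (Finset.mem_univ m0), hm0, Finset.prod_involution
      (fun m _ => m⁻¹), mul_one]
    · intro m _; simp
    · intro m hm hm1 e
      have h6 : m v * m v = 1 := by
        have := congrArg (fun u : zpowers y →* ℂˣ => u v) e
        simp only [MonoidHom.inv_apply] at this
        nth_rewrite 1 [← this]; simp
      have h7 : (m v : ℂ) * m v = 1 := by rw [← Units.val_mul, h6]; rfl
      rcases mul_self_eq_one_iff.1 h7 with h8 | h8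
      · exact hm1 (Units.ext h8)
      · exact (Finset.mem_erase.1 hm).1 (hinj (by
          change m v = m0 v
          rw [hm0]; exact Units.ext h8))
    · intro m hm
      refine Finset.mem_erase.2 ⟨fun e => (Finset.mem_erase.1 hm).1 (hinj ?_), Finset.mem_univ _⟩
      change m v = m0 v
      have := congrArg (fun u : zpowers y →* ℂˣ => u v) e
      simp only [MonoidHom.inv_apply, hm0] at this
      rw [hm0, ← inv_inv (m v), this]; simp
    · intro m _; exact inv_inv m
  rw [h5, ← pow_mul] at h3
  by_contra h6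
  rw [((Nat.not_even_iff_odd.1 h6).mul hG).neg_one_pow] at h3
  have := congrArg Units.val h3
  norm_num at this

end

/-- Let the finite group G contain an element x of prime order p with C_G(x) = ⟨x⟩, and let t be the number of conjugacy classes of elements of order p. If G has an irreducible character of degree p − 1, then t is even or the commutator subgroup has even index. -/
theorem result {G : Type*} [Group G] [Finite G] (p : ℕ) (hp : p.Prime) (x : G) (hx : orderOf x = p) (hC : Subgroup.centralizer ({x} : Set G) = Subgroup.zpowers x) (t : ℕ) (ht : Nat.card {C : ConjClasses G // ∃ g ∈ C.carrier, orderOf g = p} = t) (χ : Cfsg.IrrCharacter G) (hχ : Cfsg.charDegree (χ : G → ℂ) + 1 = p) : Even t ∨ Even (commutator G).index := by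
  have h : H21.SC p x := ⟨hp, hx, hC⟩
  haveI := Fact.mk hp
  by_contra hc
  push Not at hc
  rw [Nat.not_even_iff_odd, Nat.not_even_iff_odd] at hc
  have h1 := h.count ht
  by_cases h2 : p = 2
  · subst h2
    rw [h.index_comm ((h.t_eq_iff ht).1 (Nat.eq_one_of_mul_eq_one_right h1))] at hc
    exact absurd hc.2 (by decide)
  obtain ⟨P, hP⟩ := h.exists_sylow
  obtain ⟨O, _, hO⟩ := exists_ovp p
  obtain ⟨X, Y, s, ε, D⟩ := d1_exists hO h2 P (hP ▸ h.card_zp)
  rw [hP] at D
  have hCP : H20.cent (zpowers x) ≤ zpowers x := h.cent_zp.le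
  have he := D.he
  simp only [H20.cent, H20.nrm, h.cent_zp] at D he
  set e := (zpowers x).relIndex (normalizer (zpowers x : Set G))
  have h3 := D.three_le
  have h4 : Y.card = t := Nat.eq_of_mul_eq_mul_right D.e_pos (by have := D.cardY; omega)
  have h5 : Even e := by
    have := hp.even_sub_one h2
    rw [← h1, Nat.even_mul] at this
    exact this.resolve_left (Nat.not_even_iff_odd.2 hc.1)
  have h6 : (χ : G → ℂ) 1 = p - 1 := by rw [← cast_deg, ← hχ]; simp
  have h7 : χ ∈ irr (B0 O G) := by
    by_contra h7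
    have h8 := H21.vchar_mod_pelt (S := ⊤) (CF.mem_vchar_top.2 χ.2.isGen) (k := 1) hp
      (s := x) (c := 1) trivial trivial (by rw [pow_one, ← hx, pow_orderOf_eq_one]) (by simp)
      (n := 0) (d := p - 1) (by rw [mul_one, D.zero_of_not_mem hCP h7 hx.symm.dvd, Int.cast_zero])
      (by rw [h6]; simp)
    have h9 : (p : ℤ) ∣ 1 := by simpa using dvd_add h8 (dvd_refl (p : ℤ))
    have := Int.le_of_dvd one_pos h9
    omega
  have hχ' : (dg χ : ℤ) = p - 1 := by rw [dg]; omega
  have h8 : ∀ y ∈ zpowers x, y ≠ 1 → (χ : G → ℂ) y = -1 := fun y hy hy1 => by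
    rcases (D.mem χ).1 h7 with h8 | h8 | h8
    · rw [h8, ch_deg_triv] at hχ
      omega
    · obtain ⟨m, hm⟩ := D.degX h8
      rw [D.valX χ h8 y (D.sing hy hy1), (D.sgn χ h8).resolve_left fun h9 => ?_]
      · simp
      rw [h9, hχ'] at hm
      have h3 : (p : ℤ) ∣ 2 := ⟨2 - m, by linear_combination -hm⟩
      have := Int.le_of_dvd two_pos h3
      omega
    · obtain ⟨m, hm⟩ := D.degY h8
      have h9 := D.cardY
      have h10 := D.e_pos
      have h11 : e ≤ Y.card * e := Nat.le_mul_of_pos_left e D.Y_nonempty.card_pos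
      rw [hχ'] at hm
      rcases D.eps with h12 | h12
      · rw [h12] at hm
        have h13 : m = 0 := by
          by_contra h13
          have : (p : ℤ) * 1 ≤ p * m := mul_le_mul_of_nonneg_left (by omega) (by omega)
          omega
        have h14 : Y.card = 1 := by
          rw [h13] at hm
          exact Nat.eq_of_mul_eq_mul_right h10 (by omega)
        have := D.sumY (D.sing hy hy1)
        obtain ⟨a, ha⟩ := Finset.card_eq_one.1 h14
        rw [ha, Finset.mem_singleton] at h8
        rw [ha, Finset.sum_singleton, h12, ← h8] at this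
        simpa using this
      · rw [h12] at hm
        have h13 : (p : ℤ) ∣ e - 1 := ⟨m - 1, by linear_combination hm⟩
        have h14 : e ≠ 1 := by rintro h14; simp [h14] at h5
        have := Int.le_of_dvd (by omega) h13
        omega
  haveI := Fintype.ofFinite (zpowers x)
  obtain ⟨y, hy, ho, -⟩ := af_exists_gen D.card hCP D.he (by rintro h9; simp [h9] at h5)
  have h9 : ∑ z : zpowers x, (χ : G → ℂ) z = 0 := by
    rw [ch_sum_const (fun z : zpowers x => (χ : G → ℂ) z) (-1)
      fun z hz => h8 z z.2 fun e => hz (Subtype.ext e), D.card]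
    simp [h6]
  refine Nat.not_even_iff_odd.2 hc.1 (h4 ▸ det_reg hc.2 χ.2.isCharacter (y := y) ?_ (ho ▸ h5)
    fun v hv hv1 => ?_)
  · rw [h6, ho, mul_comm, ← D.cardY]; simp
  · refine ch_zero_of_fpf χ.2.isCharacter _ h9 (zpowers_le.2 hy hv)
      (af_fpf D.card hCP fun hvP => ?_)
    have h4 := (D.sing hvP hv1).trans (orderOf_dvd_of_mem_zpowers hv)
    rw [ho] at h4
    have h5 := Nat.le_of_dvd D.e_pos h4
    have h6 := D.cardY
    have h7 := D.Y_nonempty.card_pos
    nlinarith

end Cfsg.Agent.S4508
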