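import Cfsg.Statements.S4509
import Cfsg.Agent.H21.SC

set_option autoImplicit false
open Cfsg

namespace Cfsg.Agent.S4509

/-- Let the finite group G contain an element x of prime order p with C_G(x) = ⟨x⟩; let t be the number of conjugacy classes of elements of order p and 1 + n·p the number of subgroups of order p. Then G has a normal subgroup of order 1 + n·p if and only if either t = p − 1, or t < p − 1 and G″ ≠ G′. Moreover, if t = p − 1 then G′ has order 1 + n·p and G/G′ is cyclic of order p; and if t < p − 1 and G″ ≠ G′ then G″ has order 1 + n·p and G′ has order p·(1 + n·p). -/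
theorem result {G : Type*} [Group G] [Finite G] (p : ℕ) (hp : p.Prime) (x : G) (hx : orderOf x = p) (hC : Subgroup.centralizer ({x} : Set G) = Subgroup.zpowers x) (t : ℕ) (ht : Nat.card {C : ConjClasses G // ∃ g ∈ C.carrier, orderOf g = p} = t) (n : ℕ) (hn : Nat.card {H : Subgroup G // Nat.card H = p} = 1 + n * p) : ((∃ S : Subgroup G, S.Normal ∧ Nat.card S = 1 + n * p) ↔ (t = p - 1 ∨ (t < p - 1 ∧ derivedSeries G 2 ≠ derivedSeries G 1))) ∧ (t = p - 1 → Nat.card (commutator G) = 1 + n * p ∧ IsCyclic (G ⧸ commutator G) ∧ (commutator G).index = p) ∧ (t < p - 1 → derivedSeries G 2 ≠ derivedSeries G 1 → Nat.card (derivedSeries G 2) = 1 + n * p ∧ Nat.card (commutator G) = p * (1 + n * p)) := by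
  have h : H21.SC p x := ⟨hp, hx, hC⟩
  haveI := Fact.mk hp
  rw [h.card_sub] at hn
  have d1 : derivedSeries G 1 = commutator G := derivedSeries_one G
  have d2 : derivedSeries G 2 = ⁅commutator G, commutator G⁆ := by
    rw [derivedSeries_succ, d1]
  have h1 : t = p - 1 → Nat.card (commutator G) = 1 + n * p ∧ IsCyclic (G ⧸ commutator G) ∧
      (commutator G).index = p := fun e => by
    have h1 := (h.t_eq_iff ht).1 e
    have h2 := h.index_comm h1
    refine ⟨?_, isCyclic_of_prime_card h2, h2⟩
    have h3 := (commutator G).card_mul_index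
    rw [h2, h.card_eq, mul_comm, Nat.mul_right_inj hp.ne_zero] at h3
    rw [h3, ← hn, le_antisymm h1 Subgroup.le_normalizer]
  have h2 : t < p - 1 → derivedSeries G 2 ≠ derivedSeries G 1 →
      Nat.card (derivedSeries G 2) = 1 + n * p ∧ Nat.card (commutator G) = p * (1 + n * p) :=
    fun e e' => by
      rw [d1, d2] at e'
      have h2 := h.mem_comm (mt (h.t_eq_iff ht).2 e.ne)
      obtain ⟨h3, h4⟩ := h.imperf h2 e'
      have h5 := (h.card_eq_iff _ h3).2 (by
        rw [eq_top_iff, ← h.norm_sup _ h2]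
        exact sup_le le_sup_right (h4.ge.trans (sup_le_sup_left Subgroup.le_normalizer _)))
      rw [d2, h5, hn, ← h4, H16.card_sup_of_inf_bot (Or.inr Subgroup.le_normalizer_of_normal)
        (h.inf_zp h3), h5, hn, h.card_zp]
      exact ⟨rfl, mul_comm _ _⟩
  refine ⟨⟨fun ⟨S, _, hS⟩ => ?_, fun e => ?_⟩, h1, h2⟩
  · have h3 := h.count ht
    have h4 : t ≤ p - 1 := h3 ▸ Nat.le_mul_of_pos_right t (H16.relIndex_pos _ _)
    refine h4.eq_or_lt.imp id fun e => ⟨e, fun e' => ?_⟩
    have h5 : ¬ p ∣ Nat.card S := fun h5 =>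
      hp.not_dvd_one ((Nat.dvd_add_left (dvd_mul_left p n)).1 (hS ▸ h5))
    have h6 := (h.card_eq_iff S h5).1 (hS.trans hn.symm)
    have h7 := H16.der_sup_le (H := Subgroup.normalizer (Subgroup.zpowers x : Set G)) (K := S)
      Subgroup.le_normalizer_of_normal
    rw [h6] at h7
    have h8 := H16.der_sup_le (H := Subgroup.zpowers x) (K := S) Subgroup.le_normalizer_of_normal
    rw [H16.der_eq_bot.2 (H16.comm_of_cyclic (H16.cyclic_zpowers x)), sup_bot_eq] at h8
    have h9 := (H16.der_mono (h7.trans (sup_le_sup_left h.der_norm S))).trans h8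
    rw [d1, d2] at e'
    exact h5 (h.dvd_of_mem (h9 (e'.ge (h.mem_comm (mt (h.t_eq_iff ht).2 e.ne)))))
  · rcases e with e | ⟨e, e'⟩
    · exact ⟨_, inferInstance, (h1 e).1⟩
    · exact ⟨_, inferInstance, (h2 e e').1⟩

end Cfsg.Agent.S4509
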