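import Cfsg.Statements.S4510
import Cfsg.Agent.H20.Rk
-- import your own Cfsg.Agent.* helpers here

set_option autoImplicit false
open Cfsg

namespace Cfsg.Agent.S4510

/-- Let G be a finite group, p a prime, M a maximal ideal of the algebraic integers containing p, and call the defect of a conjugacy class the exponent of p in the order of the centralizer of its elements. Two irreducible characters lying in p-blocks of defect exactly d lie in the same block if and only if their central characters (class size times χ(x)/χ(1)) agree modulo the local ideal at M at every p-regular element x whose class has defect exactly d. -/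
theorem result {G : Type*} [Group G] [Finite G] (p : ℕ) [Fact p.Prime] (M : Ideal Cfsg.AlgInt) (hM : Cfsg.IsPModular p M) (d : ℕ) (χ ψ : Cfsg.IrrCharacter G) (hχ : Cfsg.blockDefect p (Cfsg.blockOf M (χ : G → ℂ)) = d) (hψ : Cfsg.blockDefect p (Cfsg.blockOf M (ψ : G → ℂ)) = d) : Cfsg.SameBlock M (χ : G → ℂ) (ψ : G → ℂ) ↔ ∀ x : G, ¬ p ∣ orderOf x → (Nat.card (Subgroup.centralizer ({x} : Set G))).factorization p = d → Cfsg.MemLocalIdeal M (Cfsg.centralChar (χ : G → ℂ) x - Cfsg.centralChar (ψ : G → ℂ) x) := by
  obtain ⟨O, hO, _⟩ := H19.exists_over hM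
  rw [hO.blockOf_eq] at hχ hψ
  rw [hO.sameBlock_iff]
  have h1 : ∀ x : G, MemLocalIdeal M (centralChar (χ : G → ℂ) x - centralChar (ψ : G → ℂ) x) ↔
      H19.lam O χ (H19.cls _ x) = H19.lam O ψ (H19.cls _ x) := fun x => by
    rw [hO.memLocalIdeal_iff_of_isIntegral ((H19.centralChar_isIntegral χ.2 x).sub
      (H19.centralChar_isIntegral ψ.2 x)), H19.lam_cls, H19.lam_cls,
      H19.res_eq_res_iff (H19.centralChar_mem O χ.2 x) (H19.centralChar_mem O ψ.2 x)]
  simp only [h1]
  exact ⟨fun h x _ _ => by rw [h], fun h => H20.blk_eq_of_defect (p := p) (by omega)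
    fun x h2 h3 => h x h2 (h3.trans hχ)⟩

end Cfsg.Agent.S4510
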