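import Cfsg.Statements.S4512
import Cfsg.Agent.H19.Kl
import Cfsg.Agent.H19.Bridge
import Cfsg.Agent.H20.Ht2

set_option autoImplicit false
open Cfsg

namespace Cfsg.Agent.S4512
open H17 H19

/-- If G is a finite group with a Sylow 2-subgroup that is a Klein four-group and a single conjugacy class of involutions, then its principal 2-block (relative to a maximal ideal M of the algebraic integers containing 2) has 2-regular rank 3: the restrictions of its irreducible characters to the elements of odd order span a space of dimension 3 (it has three irreducible Brauer characters). -/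
theorem result {G : Type*} [Group G] [Finite G] (M : Ideal Cfsg.AlgInt) (hM : Cfsg.IsPModular 2 M) (P : Sylow 2 G)
    (hP : Nat.card P = 4) (hexp : ∀ x : P, x * x = 1)
    (hone : ∀ s t : G, orderOf s = 2 → orderOf t = 2 → IsConj s t) :
    Cfsg.blockRank 2 (Cfsg.principalBlock M G) = 3 := by
  classical
  obtain ⟨O, hO, _⟩ := exists_over hM
  have := Fintype.ofFinite G
  have hK : IsKleinFour (P : Subgroup G) :=
    H6.isKleinFour_of_card hP fun x hx => congrArg Subtype.val (hexp ⟨x, hx⟩)
  obtain ⟨ψ, ε, n, h1, h2, h3, h4, h5, -, -, h6⟩ := klein_block O (H10.isSylowIn_top P) hK hone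
  rw [hO.principalBlock_eq]
  have hB : Finset.univ.filter (· ∈ irr (B0 O G)) = insert (triv G) (Finset.univ.image ψ) := by
    ext χ; simp only [Finset.mem_filter, Finset.mem_univ, true_and, h3, Finset.mem_insert,
      Finset.mem_image, eq_comm]
  have hs : ∀ F : IrrCharacter G → ℂ, ∑ χ with χ ∈ irr (B0 O G), F χ = F (triv G) + ∑ i, F (ψ i) :=
    fun F => by
      rw [hB, Finset.sum_insert (by simpa using h2), Finset.sum_image fun a _ b _ e => h1 e]
  have h4' : ∀ i, (ε i : ℂ) * ε i = 1 := fun i => by exact_mod_cast h4 i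
  have e1 := H20.sum_Kr_self (irr (B0 O G))
  have e2 := H20.sum_Kr_reg (p := 2) (B0 O G)
  have e3 : ∀ y : G, 2 ∣ orderOf y → Kr (irr (B0 O G)) y y = 4 := fun y hy => by
    rw [Kr_eq, hs]
    simp [h5 _ y hy, h5 _ y⁻¹ (by rwa [orderOf_inv]), h4']; norm_num
  have e4 : ∑ y : G, (1 + ∑ i, ε i * (ψ i : G → ℂ) y) = Nat.card G := by
    rw [Finset.sum_add_distrib, Finset.sum_comm]
    have : ∀ i, ∑ y : G, (ψ i : G → ℂ) y = 0 := fun i => by
      simpa [(h2 i).symm] using sum_irr_mul_inv (triv G) (ψ i)
    simp [← Finset.mul_sum, this]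
  have e5 : Nat.card (irr (B0 O G)) = 4 := by
    rw [H20.card_eq_filter, hB, Finset.card_insert_of_notMem (by simpa using h2),
      Finset.card_image_of_injective _ h1]; simp
  rw [← Finset.sum_filter_add_sum_filter_not _ fun y => 2 ∣ orderOf y] at e1 e4
  rw [e2, e5, Finset.sum_congr rfl fun y hy => e3 y (Finset.mem_filter.1 hy).2] at e1
  rw [Finset.sum_eq_zero (s := Finset.univ.filter fun y => ¬ 2 ∣ orderOf y)
    fun y hy => h6 y (Finset.mem_filter.1 hy).2, Finset.sum_congr rfl (g := fun _ => (4 : ℂ))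
    fun y hy => by simp [h5 _ y (Finset.mem_filter.1 hy).2, h4']; norm_num] at e4
  have c0 : (Nat.card G : ℂ) ≠ 0 := card_ne_zero_complex
  have : (blockRank 2 (irr (B0 O G)) : ℂ) = (3 : ℕ) := by
    refine mul_left_cancel₀ c0 ?_
    push_cast at e1 ⊢
    linear_combination e1 - e4
  exact_mod_cast this

end Cfsg.Agent.S4512
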