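import Cfsg.Statements.S4513
import Cfsg.Agent.H20.Cyc9
-- import your own Cfsg.Agent.* helpers here

set_option autoImplicit false
open Cfsg

namespace Cfsg.Agent.S4513

/-- Blocks of defect one for p = 2. Let M be a maximal ideal of the algebraic integers containing 2, B a 2-block of the finite group G whose defect group is the subgroup generated by an involution x, C = C_G(x), b a block of C inducing B and θ a member of b taking the same value at x as at 1 (there is exactly one). Then B consists of exactly two irreducible characters, which agree on every element of odd order, and they can be labelled χ₁, χ₂ with signs ε₁, ε₂ = ±1, ε₁ε₂ = −1, such that χᵢ(x y) = εᵢ θ(y) for every element y of C of odd order. -/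
theorem result {G : Type*} [Group G] [Finite G] (M : Ideal Cfsg.AlgInt) (hM : Cfsg.IsPModular 2 M) (x : G) (hx : orderOf x = 2)
    (B : Set (Cfsg.IrrCharacter G)) (hB : Cfsg.IsPBlock M B) (hBD : Cfsg.IsDefectGroup 2 M B (Subgroup.zpowers x))
    (b : Set (Cfsg.IrrCharacter ↥(Subgroup.centralizer ({x} : Set G)))) (hb : Cfsg.IsInducedBlock M (Subgroup.centralizer ({x} : Set G)) b B)
    (θ : Cfsg.IrrCharacter ↥(Subgroup.centralizer ({x} : Set G))) (hθ : θ ∈ b)
    (hθx : ∀ z : ↥(Subgroup.centralizer ({x} : Set G)), (z : G) = x → (θ : ↥(Subgroup.centralizer ({x} : Set G)) → ℂ) z = (θ : ↥(Subgroup.centralizer ({x} : Set G)) → ℂ) 1) :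
    Nat.card B = 2 ∧ (∀ χ ∈ B, ∀ ψ ∈ B, ∀ g : G, ¬ 2 ∣ orderOf g → (χ : G → ℂ) g = (ψ : G → ℂ) g) ∧
      ∃ χ₁ ∈ B, ∃ χ₂ ∈ B, χ₁ ≠ χ₂ ∧ ∃ ε₁ ε₂ : ℤ, (ε₁ = 1 ∨ ε₁ = -1) ∧ (ε₂ = 1 ∨ ε₂ = -1) ∧ ε₁ * ε₂ = -1 ∧
        ∀ y : ↥(Subgroup.centralizer ({x} : Set G)), ¬ 2 ∣ orderOf y →
          (χ₁ : G → ℂ) (x * y) = (ε₁ : ℂ) * (θ : ↥(Subgroup.centralizer ({x} : Set G)) → ℂ) y ∧ (χ₂ : G → ℂ) (x * y) = (ε₂ : ℂ) * (θ : ↥(Subgroup.centralizer ({x} : Set G)) → ℂ) y := by
  classical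
  have : Fact (Nat.Prime 2) := ⟨Nat.prime_two⟩
  revert b θ
  rw [← H20.cent_zpowers x]
  intro b hb θ hθ hθx
  obtain ⟨O, hO, _⟩ := H19.exists_over hM
  obtain ⟨β, rfl⟩ := hO.exists_blk hB
  obtain ⟨ε, rfl⟩ := hO.exists_blk hb.1
  have hD : Nat.card (Subgroup.zpowers x) = 2 := by rw [Nat.card_zpowers, hx]
  have C := H20.cy_of_card (H20.max_of_induced hO hM hBD hb) hD
  obtain ⟨X, Y, ζ, δ, δ₀, s, h⟩ := C.dade
  have he : (H20.cent (Subgroup.zpowers x)).relIndex (H20.TT (Subgroup.zpowers x) (H20.eA _ ε)) = 1 :=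
    Nat.dvd_one.1 C.dvd
  obtain ⟨χ, rfl⟩ := Finset.card_eq_one.1 (h.cardX.trans he)
  obtain ⟨z, rfl⟩ := Finset.card_eq_one.1 (h.cardY_eq.trans (by rw [he, hD]))
  have hχ := Finset.mem_singleton_self χ
  have hz := Finset.mem_singleton_self z
  have hne : χ ≠ z := Finset.disjoint_singleton.1 h.disj
  have hs := h.sign_of_one C he hχ
  have hreg : ∀ g, ¬ 2 ∣ orderOf g → z g = χ g := fun g hg => by
    have := h.rel z hz g hg
    rw [Finset.sum_singleton, hs] at this
    have h2 := h.sq₀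
    push_cast at this
    linear_combination (δ₀ : ℂ) * this - (z g - χ g) * h2
  have hIB : H20.IB ⊤ (H20.eG β) = {χ, z} := by
    ext w; rw [h.union]; simp
  have hχI := h.X_irr hχ
  have hzI := h.Y_irr hz
  have hmem : ∀ ψ ∈ H19.irr β, (ψ : G → ℂ) = χ ∨ (ψ : G → ℂ) = z := fun ψ hψ => by
    simpa [hIB] using H20.mem_IB_top.2 hψ
  have hN : H20.nrm (Subgroup.zpowers x) = H20.cent (Subgroup.zpowers x) := by
    refine le_antisymm (fun n hn => ?_) (H20.cent_le_nrm _)
    rw [H20.cent_zpowers, Subgroup.mem_centralizer_singleton_iff]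
    have h1 : n * x * n⁻¹ ∈ Subgroup.zpowers x :=
      (Subgroup.mem_normalizer_iff.1 hn x).1 (Subgroup.mem_zpowers x)
    have hx1 : x ≠ 1 := fun e => by rw [e, orderOf_one] at hx; exact absurd hx (by norm_num)
    rw [mem_zpowers_iff_mem_range_orderOf, hx] at h1
    obtain ⟨i, hi, h2⟩ := Finset.mem_image.1 h1
    have : i = 0 ∨ i = 1 := by have := Finset.mem_range.1 hi; omega
    rcases this with rfl | rfl
    · exact absurd (by simpa using h2.symm) hx1
    · rw [pow_one] at h2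
      rw [← mul_inv_eq_iff_eq_mul]; exact h2.symm
  have hT : H20.TT (Subgroup.zpowers x) (H20.eA _ ε) = H20.cent (Subgroup.zpowers x) :=
    le_antisymm (Subgroup.relIndex_eq_one.1 he) C.pair.cent_le_TT
  have h1 := H20.ext_mem_IB.2 hθ
  have hv : ∀ y : H20.cent (Subgroup.zpowers x), ¬ 2 ∣ orderOf y →
      χ (x * y) = δ χ * (θ : H20.cent (Subgroup.zpowers x) → ℂ) y := fun y hy => by
    have := h.X_gen C hχ rfl h1 y.2 (by rwa [Subgroup.orderOf_coe])
    rw [hT, hN, CF.sum_fs_congr fun n hn => CF.cf_conj (CF.irr_cf (H20.irr_of_IB h1)) _ hn,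
      CF.sum_sub_const, H20.ext_coe, mul_left_comm] at this
    exact mul_left_cancel₀ (CF.card_ne _) this
  refine ⟨by rw [← H20.card_IB_top, hIB, Finset.card_pair hne], fun a ha c hc g hg => ?_,
    ⟨χ, CF.mem_Irr_top.1 hχI⟩, H20.mem_IB_top.1 (by simp [hIB]),
    ⟨z, CF.mem_Irr_top.1 hzI⟩, H20.mem_IB_top.1 (by simp [hIB]),
    fun e => hne (congrArg Subtype.val e), δ χ, -δ χ, h.sgnX χ hχ,
    by rcases h.sgnX χ hχ with h | h <;> simp [h],
    by rcases h.sgnX χ hχ with h | h <;> simp [h], fun y hy => ⟨hv y hy, ?_⟩⟩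
  · rcases hmem a ha with e | e <;> rcases hmem c hc with e' | e' <;> rw [e, e'] <;>
      simp [hreg g hg]
  · have hc : Commute x y := H20.commute_of_cent (Subgroup.mem_zpowers x) y.2
    have h2 : 2 ∣ orderOf (x * y) := by
      rw [hc.orderOf_mul_eq_mul_orderOf_of_coprime, hx]
      · exact dvd_mul_right _ _
      · rw [hx, Subgroup.orderOf_coe]; exact (Nat.Prime.coprime_iff_not_dvd Nat.prime_two).2 hy
    have h3 := C.max.blk.sum_sing h2
    rw [hIB, Finset.sum_pair hne, hreg 1 (by simp), ← mul_add, hv y hy] at h3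
    have h4 := (mul_eq_zero.1 h3).resolve_left (CF.irr_one_ne hχI)
    show z (x * y) = _
    push_cast
    linear_combination h4

end Cfsg.Agent.S4513
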