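import Cfsg.Statements.S4633
import Cfsg.Agent.H20.Nil
-- import your own Cfsg.Agent.* helpers here

set_option autoImplicit false
open Cfsg

namespace Cfsg.Agent.S4633

/-- Let B be a block of the finite group G relative to a maximal ideal M of the algebraic integers containing the prime p, with a nontrivial cyclic defect group P. Let c be a block of C_G(P) inducing B and T the stabilizer of c in N_G(P) (the elements of N_G(P) conjugating c to itself); T contains C_G(P). Then T/C_G(P) is cyclic of order dividing p − 1, and it acts freely on the non-identity elements of P: an element of T fixing some non-identity element of P under conjugation lies in C_G(P). -/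
theorem result {G : Type*} [Group G] [Finite G] (p : ℕ) [Fact p.Prime] (M : Ideal Cfsg.AlgInt) (hM : Cfsg.IsPModular p M) (B : Set (Cfsg.IrrCharacter G)) (hB : Cfsg.IsPBlock M B) (P : Subgroup G) (hPD : Cfsg.IsDefectGroup p M B P) (hP1 : P ≠ ⊥) (hcyc : IsCyclic P) (c : Set (Cfsg.IrrCharacter (Subgroup.centralizer (P : Set G)))) (hc : Cfsg.IsInducedBlock M (Subgroup.centralizer (P : Set G)) c B) (T : Subgroup G) (hT : ∀ g : G, g ∈ T ↔ (g ∈ Subgroup.normalizer (P : Set G) ∧ Cfsg.StabilizesBlock (Subgroup.centralizer (P : Set G)) c g)) [hn : ((Subgroup.centralizer (P : Set G)).subgroupOf T).Normal] : IsCyclic (T ⧸ (Subgroup.centralizer (P : Set G)).subgroupOf T) ∧ (Subgroup.centralizer (P : Set G)).relIndex T ∣ p - 1 ∧ ∀ g ∈ T, ∀ x ∈ P, x ≠ 1 → g * x * g⁻¹ = x → g ∈ Subgroup.centralizer (P : Set G) := by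
  obtain ⟨O, hO, _⟩ := H19.exists_over hM
  obtain ⟨β, rfl⟩ := hO.exists_blk hB
  obtain ⟨ε, rfl⟩ := hO.exists_blk hc.1
  obtain rfl := H20.eq_of_forall_nrm_stab ε hT
  have h := H20.max_of_induced hO hM hPD hc
  have h1 := h.isDef_stab
  have h2 := h.isPair.cent_le_stab
  rw [top_inf_eq] at h1
  rw [top_inf_eq, top_inf_eq] at h2
  have h3 := h1.not_dvd_relIndex (H20.isBlk_eA _ ε) (inf_le_left.trans (H20.nrm_le_nrm_cent P)) h2
    (H20.mem_fixed_iff_le_stab.2 inf_le_right)
  rw [sup_eq_right.2 (H20.le_cent_of_cyclic hcyc)] at h3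
  exact H20.cyclic_quot h.pg hcyc hP1 inf_le_left h3

end Cfsg.Agent.S4633
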