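import Cfsg.Statements.S4634
import Cfsg.Agent.H20.Cyc9
-- import your own Cfsg.Agent.* helpers here

set_option autoImplicit false
open Cfsg

namespace Cfsg.Agent.S4634

/-- Let B be a block of the finite group G relative to a maximal ideal M of the algebraic integers containing the prime p, with a nontrivial cyclic defect group P, let c be a block of C_G(P) inducing B, T the stabilizer of c in N_G(P) and e the index of C_G(P) in T. Let F be any finite group of order #P · e having a cyclic subgroup Q of order #P that is its own centralizer (F is then the semidirect product of Q by a cyclic group of order e acting faithfully). Then there is a perfect isometry from the set of all irreducible characters of F onto B whose signs agree on all the characters of F that do not contain Q in their kernel. -/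
theorem result {G : Type*} [Group G] [Finite G] (p : ℕ) [Fact p.Prime] (M : Ideal Cfsg.AlgInt) (hM : Cfsg.IsPModular p M) (B : Set (Cfsg.IrrCharacter G)) (hB : Cfsg.IsPBlock M B) (P : Subgroup G) (hPD : Cfsg.IsDefectGroup p M B P) (hP1 : P ≠ ⊥) (hcyc : IsCyclic P) (c : Set (Cfsg.IrrCharacter (Subgroup.centralizer (P : Set G)))) (hc : Cfsg.IsInducedBlock M (Subgroup.centralizer (P : Set G)) c B) (T : Subgroup G) (hT : ∀ g : G, g ∈ T ↔ (g ∈ Subgroup.normalizer (P : Set G) ∧ Cfsg.StabilizesBlock (Subgroup.centralizer (P : Set G)) c g)) (e : ℕ) (he : (Subgroup.centralizer (P : Set G)).relIndex T = e) (F : Type*) [Group F] [Finite F] (hF : Nat.card F = Nat.card P * e) (Q : Subgroup F) (hQ : IsCyclic Q) (hQcard : Nat.card Q = Nat.card P) (hQC : Subgroup.centralizer (Q : Set F) = Q) : ∃ (I : Cfsg.IrrCharacter F → Cfsg.IrrCharacter G) (ε : Cfsg.IrrCharacter F → ℤ), Cfsg.IsPerfectIsometry p M (Set.univ : Set (Cfsg.IrrCharacter F)) B I ε ∧ ∀ η η' : Cfsg.IrrCharacter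 F, (∃ x ∈ Q, (η : F → ℂ) x ≠ (η : F → ℂ) 1) → (∃ x ∈ Q, (η' : F → ℂ) x ≠ (η' : F → ℂ) 1) → ε η = ε η' := by
  obtain ⟨O, hO, _⟩ := H19.exists_over hM
  obtain ⟨β, rfl⟩ := hO.exists_blk hB
  obtain ⟨ε, rfl⟩ := hO.exists_blk hc.1
  obtain rfl := H20.eq_of_forall_nrm_stab ε hT
  have C : H20.Cy p _ P _ := ⟨H20.max_of_induced hO hM hPD hc, hcyc, hP1⟩
  have hi : Q.index = e := Nat.eq_of_mul_eq_mul_left (Nat.card_pos (α := Q))
    (by rw [Q.card_mul_index, hF, hQcard])
  obtain ⟨a, ha⟩ := C.pg.exists_card_eq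
  have hQp : IsPGroup p Q := IsPGroup.of_card (hQcard.trans ha)
  have hN := H20.nrm_eq_top_of_index hQp (hi ▸ he ▸ C.dvd)
  have hS : H10.IsSylowIn p Q ⊤ := H10.isSylowIn_of_not_dvd le_top hQp
    (by rw [Subgroup.relIndex_top_right, hi, ← he]; exact C.max.not_dvd_TT C.ab)
  have C' : H20.Cy p _ Q _ := ⟨H20.max_B0 (O := O) hS, hQ, fun h => hP1 (by
    rw [← Subgroup.card_eq_one, ← hQcard, h, Subgroup.card_bot])⟩
  have hT' := (H20.TT_B0 (O := O) (D := Q)).trans hN
  have he' : (H20.cent Q).relIndex (H20.TT Q (H20.eA _ (H19.B0 O (H20.cent Q)))) = e := by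
    rw [hT', Subgroup.relIndex_top_right, H20.cent, hQC, hi]
  have : Q.Normal := Subgroup.normalizer_eq_top_iff.1 hN
  have := H19.subsingleton_blk_of_cent O hQp (by rwa [H20.cent, hQC])
  have hu : H19.irr (H19.B0 O F) = Set.univ :=
    Set.eq_univ_of_forall fun χ => H19.mem_irr.2 (Subsingleton.elim _ _)
  have hb : H20.IB ⊤ (H20.eG (H19.B0 O F)) = CF.Irr ⊤ :=
    (H20.IB_subset _ _).antisymm fun χ hχ =>
      (H20.mem_IB_top (ξ := ⟨χ, CF.mem_Irr_top.1 hχ⟩)).2 (hu ▸ Set.mem_univ _)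
  obtain ⟨X, Y, ζ, δ, δ₀, s, h⟩ := C.dade
  obtain ⟨X', Y', ζ', δ', δ₀', s', h'⟩ := C'.dade
  obtain ⟨I, ε, h1, h2, h3, h4, h5⟩ := h.perfect hO hM C h' C' hQcard.symm (he.trans he'.symm)
  obtain ⟨I', hI⟩ := H20.isPerfectIsometry_of h1 h4 h5
  refine ⟨I', _, hu ▸ hI, fun η η' hη hη' => ?_⟩
  have h6 := CF.mem_Irr_top.2 η.2
  have h7 := CF.mem_Irr_top.2 η'.2
  by_cases h8 : e = 1
  · have key : ∀ χ ∈ CF.Irr (⊤ : Subgroup F), ε χ = δ₀ * δ₀' := fun χ hχ => by
      rcases (h'.union χ).1 (hb ▸ hχ) with h9 | h9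
      · rw [(h2 χ h9).2, h.sign_of_one C (he.trans h8) (h2 χ h9).1,
          h'.sign_of_one C' (he'.trans h8) h9, neg_mul_neg]
      · exact h3 χ h9
    exact (key _ h6).trans (key _ h7).symm
  rcases h'.frob C' hS hT' hQC hb (he' ▸ h8) h6 h7 hη hη' with h9 | h9
  · exact congrArg ε h9
  · exact (h3 _ h9.1).trans (h3 _ h9.2).symm

end Cfsg.Agent.S4634
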