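import Cfsg.Statements.S4635
import Cfsg.Agent.H20.Cyc9
-- import your own Cfsg.Agent.* helpers here

set_option autoImplicit false
open Cfsg

namespace Cfsg.Agent.S4635

/-- Let B be a block of the finite group G relative to a maximal ideal M of the algebraic integers containing the prime p, with a nontrivial cyclic defect group P; let Z be the subgroup of order p of P and H = N_G(Z), which contains N_G(P). Let c be the block of H with defect group P that induces B. Then B and c contain the same number of irreducible characters, have the same p-regular rank, and there is a perfect isometry from c onto B. -/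
theorem result {G : Type*} [Group G] [Finite G] (p : ℕ) [Fact p.Prime] (M : Ideal Cfsg.AlgInt) (hM : Cfsg.IsPModular p M) (B : Set (Cfsg.IrrCharacter G)) (hB : Cfsg.IsPBlock M B) (P : Subgroup G) (hPD : Cfsg.IsDefectGroup p M B P) (hP1 : P ≠ ⊥) (hcyc : IsCyclic P) (Z : Subgroup G) (hZ : Z ≤ P) (hZcard : Nat.card Z = p) (H : Subgroup G) (hH : H = Subgroup.normalizer (Z : Set G)) (c : Set (Cfsg.IrrCharacter H)) (hcD : Cfsg.IsDefectGroup p M c (P.subgroupOf H)) (hc : Cfsg.IsInducedBlock M H c B) : Nat.card c = Nat.card B ∧ Cfsg.blockRank p c = Cfsg.blockRank p B ∧ ∃ (I : Cfsg.IrrCharacter H → Cfsg.IrrCharacter G) (ε : Cfsg.IrrCharacter H → ℤ), Cfsg.IsPerfectIsometry p M c B I ε := by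
  obtain ⟨O, hO, _⟩ := H19.exists_over hM
  obtain ⟨β, rfl⟩ := hO.exists_blk hB
  obtain ⟨γ, rfl⟩ := hO.exists_blk hc.1
  have hN : H20.nrm P ≤ H := hH ▸ H20.nrm_le_nrm_of_cyclic hcyc hZ
  have hP := (H20.le_nrm_self P).trans hN
  obtain ⟨e, e', C, C', h2, h3⟩ := H20.exists_cy_up hP hN hcyc hP1
    ((H20.isDefectGroup_iff hO hM _ _).1 hPD)
    ((H20.isDefectGroup_subgroupOf_iff_of_le hO hM _ hP).1 hcD)
    ((H20.isInducedBlock_iff hO _ _).1 hc)
  refine ⟨?_, by rw [C.blockRank, C'.blockRank, h3], C.perfect hO hM C' h2 h3⟩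
  rw [← H20.card_IB_top, ← H20.card_IB_top, C.card_IB, C'.card_IB, h2, h3]

end Cfsg.Agent.S4635
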