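import Cfsg.Statements.S4636
import Cfsg.Agent.H20.Nil
-- import your own Cfsg.Agent.* helpers here

set_option autoImplicit false
open scoped Pointwise
open Cfsg

namespace Cfsg.Agent.S4636

/-- Let P be a nontrivial cyclic p-subgroup of the finite group G and Z its subgroup of order p. For every x outside N_G(Z), P meets its conjugate xPx⁻¹ trivially; consequently N_G(Q) ≤ N_G(Z) for every nontrivial subgroup Q of P. -/
theorem result {G : Type*} [Group G] [Finite G] (p : ℕ) [Fact p.Prime] (P : Subgroup G) (hP : IsPGroup p P) (hP1 : P ≠ ⊥) (hcyc : IsCyclic P) (Z : Subgroup G) (hZ : Z ≤ P) (hZcard : Nat.card Z = p) : (∀ x : G, x ∉ Subgroup.normalizer (Z : Set G) → P ⊓ MulAut.conj x • P = ⊥) ∧ ∀ Q : Subgroup G, Q ≤ P → Q ≠ ⊥ → Subgroup.normalizer (Q : Set G) ≤ Subgroup.normalizer (Z : Set G) := by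
  refine ⟨fun x hx => ?_, fun Q hQ hQ1 => H20.nrm_le_nrm_of_cyclic (Subgroup.isCyclic_of_le hQ)
    (H20.le_of_cyclic_of_card hP hcyc hZ hZcard hQ hQ1)⟩
  by_contra h
  have h1 := H20.le_of_cyclic_of_card hP hcyc hZ hZcard inf_le_left h
  have h2 : Z ≤ H20.sc x P := h1.trans inf_le_right
  rw [H20.le_sc_iff] at h2
  exact hx ((Subgroup.inv_mem_iff _).1 (H20.mem_nrm.2
    (H20.eq_of_card_of_cyclic hcyc h2 hZ (H20.card_sc _ _))))

end Cfsg.Agent.S4636
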