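import Cfsg.Statements.S4638
import Cfsg.Agent.H20.KF
-- import your own Cfsg.Agent.* helpers here

set_option autoImplicit false
open Cfsg

namespace Cfsg.Agent.S4638

/-- Let B be a block of the finite group G relative to a maximal ideal M of the algebraic integers containing 2, with a Klein four defect group P, and let c be its Brauer correspondent: the block of N_G(P) with defect group P that induces B. Then there is a perfect isometry from c onto B. -/
theorem result {G : Type*} [Group G] [Finite G] (M : Ideal Cfsg.AlgInt) (hM : Cfsg.IsPModular 2 M) (B : Set (Cfsg.IrrCharacter G)) (hB : Cfsg.IsPBlock M B) (P : Subgroup G) (hPD : Cfsg.IsDefectGroup 2 M B P) (hV : IsKleinFour P) (c : Set (Cfsg.IrrCharacter (Subgroup.normalizer (P : Set G)))) (hcD : Cfsg.IsDefectGroup 2 M c (P.subgroupOf (Subgroup.normalizer (P : Set G)))) (hc : Cfsg.IsInducedBlock M (Subgroup.normalizer (P : Set G)) c B) : ∃ (I : Cfsg.IrrCharacter (Subgroup.normalizer (P : Set G)) → Cfsg.IrrCharacter G) (ε : Cfsg.IrrCharacter (Subgroup.normalizer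 (P : Set G)) → ℤ), Cfsg.IsPerfectIsometry 2 M c B I ε := by
  obtain ⟨O, hO, _⟩ := H19.exists_over hM
  obtain ⟨β, rfl⟩ := hO.exists_blk hB
  obtain ⟨γ, rfl⟩ := hO.exists_blk hc.1
  have hP := H20.le_nrm_self P
  have ι := Subgroup.subgroupOfEquivOfLe hP
  obtain ⟨e', he'⟩ := H20.exists_max (H20.isBlk_eG γ) ((H20.isDefectGroup_iff hO hM _ _).1 hcD)
  exact H20.kf_perfect hO hM (he'.up hP (Subgroup.centralizer_le_normalizer _)
    ((H20.isInducedBlock_iff hO _ _).1 hc) ((H20.isDefectGroup_iff hO hM _ _).1 hPD)) hV he'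
    ⟨(Nat.card_congr ι.toEquiv).trans hV.card_four,
      (Monoid.exponent_eq_of_mulEquiv ι).trans hV.exponent_two⟩ (H20.relIndex_TT_up hP le_rfl e')

end Cfsg.Agent.S4638
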