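import Cfsg.Statements.S4640
import Cfsg.Agent.H20.Res
-- import your own Cfsg.Agent.* helpers here

set_option autoImplicit false
open Cfsg

namespace Cfsg.Agent.S4640

/-- Let N be a normal subgroup of the finite group G of index a power of the prime p, M a maximal ideal of the algebraic integers containing p, b a block of N stabilized by every element of G, and B a block of G covering b (some member of B has a member of b as a constituent of its restriction to N). Suppose that B has a commutative defect group P. Then G = NP and P ∩ N is a defect group of b; every member of B restricts to a member of b; every member of b is the restriction of exactly [G : N] members of B; B contains exactly [G : N] times as many irreducible characters as b; and B and b have the same p-regular rank. -/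
theorem result {G : Type*} [Group G] [Fintype G] (p : ℕ) [Fact p.Prime] (M : Ideal Cfsg.AlgInt) (hM : Cfsg.IsPModular p M) (N : Subgroup G) [N.Normal] [Fintype N] (hNi : ∃ k : ℕ, N.index = p ^ k) (b : Set (Cfsg.IrrCharacter N)) (hb : Cfsg.IsPBlock M b) (hstab : ∀ g : G, Cfsg.StabilizesBlock N b g) (B : Set (Cfsg.IrrCharacter G)) (hB : Cfsg.IsPBlock M B) (hcov : ∃ χ ∈ B, ∃ θ ∈ b, Cfsg.classInner (fun n : N => (χ : G → ℂ) n) (θ : N → ℂ) ≠ 0) (P : Subgroup G) (hPD : Cfsg.IsDefectGroup p M B P) (hPab : ∀ x ∈ P, ∀ y ∈ P, x * y = y * x) : N ⊔ P = ⊤ ∧ Cfsg.IsDefectGroup p M b ((P ⊓ N).subgroupOf N) ∧ (∀ χ ∈ B, ∃ θ ∈ b, ∀ n : N, (χ : G → ℂ) n = (θ : N → ℂ) n) ∧ (∀ θ ∈ b, Nat.card {χ : Cfsg.IrrCharacter G // χ ∈ B ∧ ∀ n : N, (χ : G → ℂ) n = (θ : N → ℂ) n} = N.index) ∧ Nat.card B = N.index * Nat.card b ∧ Cfsg.blockRank p B = Cfsg.blockRank p b := by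
  obtain ⟨O, hO, _⟩ := H19.exists_over hM
  obtain ⟨β, rfl⟩ := hO.exists_blk hB
  obtain ⟨γ, rfl⟩ := hO.exists_blk hb
  obtain ⟨k, hk⟩ := hNi
  rw [H20.isDefectGroup_iff hO hM] at hPD
  have hf : H20.eA N γ ∈ H20.fixed (H19.kk O) ⊤ := fun g _ =>
    ((H20.stabilizesBlock_iff γ g).1 (hstab g)).2
  have hc := (H20.cover_iff N β γ).1 hcov
  have hk' : N.relIndex ⊤ = p ^ k := by rwa [Subgroup.relIndex_top_right]
  have hb := H20.isBlk_of_relIndex (H20.top_le_nrm N) le_top hk'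
    ((H20.isBlk_eA N γ).prim_of_fixed le_top hf)
  have he : H20.eG β = H20.eA N γ := hb.eq_of_mul_ne_zero' (H20.isBlk_eG β) hc
  have hs : N ⊔ P = ⊤ := by
    rw [sup_comm]
    exact (he ▸ hPD).sup_eq_of_relIndex (H20.isBlk_eA N γ) (H20.top_le_nrm N) le_top hf hk'
  have hr : ∀ y : G, ¬ p ∣ orderOf y → y ∈ N := fun y hy =>
    H20.mem_of_preg_of_relIndex (H20.top_le_nrm N) hk' (Subgroup.mem_top y) hy
  have hi := fun χ (hχ : χ ∈ H19.irr β) => H20.res_irr_of_abelian hPD hPab hs hr hχ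
  have h1 : ∀ χ ∈ H19.irr β, ∃ θ ∈ H19.irr γ, ∀ n : N, (χ : G → ℂ) n = (θ : N → ℂ) n :=
    fun χ hχ => by
      obtain ⟨θ, h⟩ := H20.exists_res (hi χ hχ)
      exact ⟨θ, H20.lam_eq_of_fixed hf hc hχ (H20.dot_ne_of_res h), h⟩
  have h2 : ∀ θ ∈ H19.irr γ, ∃ χ ∈ H19.irr β, ∀ n : N, (χ : G → ℂ) n = (θ : N → ℂ) n :=
    fun θ hθ => by
      obtain ⟨χ, hχ, h⟩ := H20.exists_over_of_cover hc hθ
      exact ⟨χ, hχ, H20.res_eq_of_dot (hi χ hχ) h⟩
  have h3 : ∀ θ ∈ H19.irr γ, Nat.card {χ : Cfsg.IrrCharacter G // χ ∈ H19.irr β ∧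
      ∀ n : N, (χ : G → ℂ) n = (θ : N → ℂ) n} = N.index := fun θ hθ => by
    obtain ⟨χ, hχ, h⟩ := h2 θ hθ
    rw [← H20.card_ext (H20.comm_le_of_sup hs hPab) h]
    refine Nat.card_congr (Equiv.subtypeEquivRight fun ψ => and_iff_right_of_imp fun h => ?_)
    have := H20.cover_of_dot (O := O) (H20.dot_ne_of_res h)
    rw [H19.mem_irr.1 hθ, ← he] at this
    exact H20.eG_injective ((H20.isBlk_eG β).eq_of_mul_ne_zero' (H20.isBlk_eG _) this)
  refine ⟨hs, ?_, h1, h3, ?_, H20.blockRank_eq_of_res hr h1 h2⟩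
  · rw [H20.isDefectGroup_subgroupOf_iff_of_le hO hM γ inf_le_right]
    exact (he ▸ hPD).inf_normal (H20.top_le_nrm N) le_top (H20.isBlk_eA N γ) hf
  · classical
    choose! r hr1 hr2 using h1
    have := Fintype.ofFinite (H19.irr γ)
    rw [Nat.card_congr (Equiv.sigmaFiberEquiv (fun χ : H19.irr β =>
      (⟨r χ, hr1 χ χ.2⟩ : H19.irr γ))).symm, Nat.card_sigma, Finset.sum_congr rfl
      (g := fun _ => N.index) fun θ _ => ?_, Finset.sum_const, smul_eq_mul, mul_comm,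
      Finset.card_univ, Nat.card_eq_fintype_card]
    rw [← h3 θ θ.2]
    refine Nat.card_congr ⟨fun χ => ⟨χ.1.1, χ.1.2, fun n => ?_⟩,
      fun χ => ⟨⟨χ.1, χ.2.1⟩, Subtype.ext (Subtype.ext (funext fun n => ?_))⟩,
      fun _ => rfl, fun _ => rfl⟩
    · exact (hr2 _ χ.1.2 n).trans (congrArg (fun t : H19.irr γ => (t.1 : N → ℂ) n) χ.2)
    · exact (hr2 _ χ.2.1 n).symm.trans (χ.2.2 n)

end Cfsg.Agent.S4640
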