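import Cfsg.Statements.S4641
import Cfsg.Agent.H19.Pim
import Cfsg.Agent.H19.Ht3

set_option autoImplicit false
open Cfsg

namespace Cfsg.Agent.S4641
open H17 H19

/-- Let B be a block of the finite group G relative to a maximal ideal M of the algebraic integers containing the prime p, let p^a be the p-part of the order of G and p^d the order of a defect group D of B, and let g be the greatest common divisor of the degrees of the members of B. Then the p-part of g is exactly p^(a−d), and writing g = p^(a−d)·u there is a positive integer v, prime to p and at least the p-regular rank of B (its number of irreducible Brauer characters), with Σ_{χ ∈ B} χ(1)² = p^(2a−d)·u²·v. -/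
theorem result {G : Type*} [Group G] [Finite G] (p : ℕ) [Fact p.Prime] (M : Ideal Cfsg.AlgInt) (hM : Cfsg.IsPModular p M) (B : Set (Cfsg.IrrCharacter G)) (hB : Cfsg.IsPBlock M B) (D : Subgroup G) (hD : Cfsg.IsDefectGroup p M B D) (a d : ℕ) (ha : (Nat.card G).factorization p = a) (hd : Nat.card D = p ^ d) (g : ℕ) (hg1 : ∀ χ ∈ B, g ∣ Cfsg.charDegree (χ : G → ℂ)) (hg2 : ∀ g' : ℕ, (∀ χ ∈ B, g' ∣ Cfsg.charDegree (χ : G → ℂ)) → g' ∣ g) : g.factorization p = a - d ∧ ∃ v : ℕ, 0 < v ∧ ¬ p ∣ v ∧ Cfsg.blockRank p B ≤ v ∧ ∑ᶠ χ ∈ B, Cfsg.charDegree (χ : G → ℂ) ^ 2 = p ^ (2 * a - d) * (g / p ^ (a - d)) ^ 2 * v := by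
  classical
  obtain ⟨O, hO, _⟩ := exists_over hM
  obtain ⟨β, rfl⟩ := hO.exists_blk hB
  rw [hO.isDefectGroup_iff hM] at hD
  have hp : p.Prime := Fact.out
  have h1 : d = blockDefect p (irr β) := Nat.pow_right_injective hp.two_le (hd.symm.trans hD.card_eq_pow)
  obtain ⟨χ₀, hχ₀, h2⟩ := H20.exists_vd_eq p (irr_nonempty β)
  have h3 : H20.emin p (irr β) ≤ a := h2 ▸ ha ▸ H20.vd_le p χ₀
  have h4 : a - d = H20.emin p (irr β) := by rw [h1, H20.blockDefect_eq, ha]; omega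
  have h5 : d ≤ a := by rw [h1, H20.blockDefect_eq, ha]; omega
  have hg0 : g ≠ 0 := fun h => deg_ne_zero χ₀ (zero_dvd_iff.1 (h ▸ hg1 χ₀ hχ₀))
  have h6 : p ^ (a - d) ∣ g := hg2 _ fun χ hχ => h4 ▸ ⟨_, (rd_mul hχ).symm⟩
  have h7 : g.factorization p = a - d := le_antisymm (by
    rw [h4, ← h2]
    exact (Nat.factorization_le_iff_dvd hg0 (deg_ne_zero χ₀)).2 (hg1 χ₀ hχ₀) p)
    ((hp.pow_dvd_iff_le_factorization hg0).1 h6)
  refine ⟨h7, ?_⟩
  obtain ⟨W⟩ := H20.nonempty_wed (kk O) (MonoidAlgebra (kk O) G)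
  have hu : ¬ p ∣ g / p ^ (a - d) := h7 ▸ Nat.not_dvd_ordCompl hp hg0
  have hgu : g = p ^ (a - d) * (g / p ^ (a - d)) := (Nat.mul_div_cancel' h6).symm
  set u := g / p ^ (a - d)
  have h8 : ∀ i, W.blk i = β → ∃ c, 0 < c ∧
      (W.d i + 1) * pdeg p W i = p ^ (2 * a - d) * u ^ 2 * c := fun i hi => by
    obtain ⟨c, hc⟩ := dvd_dim p W (i := i) (hi ▸ hg1)
    obtain ⟨e, he⟩ := ((hp.coprime_iff_not_dvd.2 hu).pow_left a).mul_dvd_of_dvd_of_dvd
      (ha ▸ pow_dvd_pdeg W i) ((Dvd.intro_left _ hgu.symm).trans (dvd_pdeg W (i := i) (hi ▸ hg1)))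
    refine ⟨c * e, Nat.pos_of_ne_zero (mul_ne_zero (by rintro rfl; simp at hc)
      (by rintro rfl; exact pdeg_ne_zero W i (by simpa using he))), ?_⟩
    rw [hc, he, hgu, show 2 * a - d = a - d + a by omega]
    ring
  choose! c hc0 hc using h8
  have h9 : ∑ χ with χ ∈ irr β, charDegree (χ : G → ℂ) ^ 2 =
      p ^ (2 * a - d) * u ^ 2 * ∑ i with W.blk i = β, c i := by
    rw [sum_sq_eq (p := p) W, Finset.mul_sum]
    exact Finset.sum_congr rfl fun i hi => hc i (Finset.mem_filter.1 hi).2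
  have h10 : blockRank p (irr β) ≤ ∑ i with W.blk i = β, c i := by
    rw [← W.card_blk (p := p), Finset.card_eq_sum_ones]
    exact Finset.sum_le_sum fun i hi => hc0 i (Finset.mem_filter.1 hi).2
  have h11 := (H20.blockRank_pos (p := p) β).trans_le h10
  refine ⟨_, h11, fun h => ?_, h10, (finsum_mem_irr _ _).trans h9⟩
  have h12 := factorization_sum_sq p β
  have h13 : p ^ (2 * a - d + 1) ∣ ∑ χ with χ ∈ irr β, charDegree (χ : G → ℂ) ^ 2 := by
    rw [h9, pow_succ, mul_assoc]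
    exact Nat.mul_dvd_mul_left _ (h.mul_left _)
  rw [hp.pow_dvd_iff_le_factorization (by
    rw [h9]
    exact mul_ne_zero (mul_ne_zero (pow_ne_zero _ hp.ne_zero)
      (pow_ne_zero _ fun e => hu (e ▸ dvd_zero p))) h11.ne'), h12] at h13
  omega

end Cfsg.Agent.S4641
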