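import Cfsg.Statements.S4642
import Cfsg.Agent.H20.Fong
-- import your own Cfsg.Agent.* helpers here

set_option autoImplicit false
open Cfsg

namespace Cfsg.Agent.S4642

/-- Let G be a finite group, p a prime, M a maximal ideal of the algebraic integers containing p, K the largest normal subgroup of G of order prime to p, and L the preimage in G of the largest normal p-subgroup of G/K. Let Q be a Sylow p-subgroup of L and suppose C_G(Q) ≤ L. Let θ be an irreducible character of K invariant under conjugation by every element of G, and let B be the set of irreducible characters of G whose restriction to K contains θ. Then B is a block of G, every Sylow p-subgroup of G is a defect group of B, and B is of principal type: for every p-subgroup R of G exactly one block of C_G(R) induces B. -/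
theorem result {G : Type*} [Group G] [Fintype G] (p : ℕ) [Fact p.Prime] (M : Ideal Cfsg.AlgInt) (hM : Cfsg.IsPModular p M) (K : Subgroup G) (hK : K = Cfsg.pPrimeCore p G) [Fintype K] (L : Subgroup G) (hL : L = Cfsg.pPrimePCore p G) (Q : Subgroup G) (hQL : Q ≤ L) (hQp : IsPGroup p Q) (hQS : ¬ p ∣ Q.relIndex L) (hCQ : Subgroup.centralizer (Q : Set G) ≤ L) (θ : Cfsg.IrrCharacter K) (hθ : ∀ g : G, Cfsg.IsConjCharOf K g (θ : K → ℂ) (θ : K → ℂ)) (B : Set (Cfsg.IrrCharacter G)) (hBdef : ∀ χ : Cfsg.IrrCharacter G, χ ∈ B ↔ Cfsg.classInner (fun k : K => (χ : G → ℂ) k) (θ : K → ℂ) ≠ 0) : Cfsg.IsPBlock M B ∧ (∀ S : Sylow p G, Cfsg.IsDefectGroup p M B S) ∧ ∀ R : Subgroup G, IsPGroup p R → ∃! f : Set (Cfsg.IrrCharacter (Subgroup.centralizer (R : Set G))), Cfsg.IsInducedBlock M (Subgroup.centralizer (R : Set G)) f B := by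
  obtain ⟨O, hO, _⟩ := H19.exists_over hM
  subst hK hL
  have hK := H1.not_dvd_card_pPrimeCore (G := G) hM.1
  have h1 := H20.eA_mem_fixed_of_inv (O := O) hK (θ := θ) fun g n => hθ g n _ rfl
  have h2 := H20.isBlk_eA _ (H19.lam O θ)
  have hQ := (H10.isSylowIn_of_not_dvd hQL hQp hQS).map (QuotientGroup.mk' (pPrimeCore p G))
  rw [H1.map_pPrimePCore_mk'] at hQ
  have hQ' := hQ.eq_of_le (H1.isPGroup_pCore p) hQ.le le_rfl
  have h0 := H5.map_inf_centralizer_of_isPGroup (QuotientGroup.mk' (pPrimeCore p G)) (K := ⊤) hQp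
    (H20.le_nrm_top _) (by rw [top_inf_eq, QuotientGroup.ker_mk']; exact H1.coprime_card_pPrimeCore p)
  rw [top_inf_eq, Subgroup.map_top_of_surjective _ (QuotientGroup.mk'_surjective _), top_inf_eq,
    ← hQ'] at h0
  have h3 := fun (R : Subgroup G) (hR : IsPGroup p R) => H20.fong (QuotientGroup.mk' (pPrimeCore p G))
    (QuotientGroup.mk'_surjective _) (by rwa [QuotientGroup.ker_mk']) (H1.isPGroup_pCore p)
    (h0.ge.trans ((Subgroup.map_mono hCQ).trans (H1.map_pPrimePCore_mk' p).le))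
    (by rwa [QuotientGroup.ker_mk']) h1 hR
  have h4 := h3 ⊥ IsPGroup.of_bot
  rw [H20.cent_bot, H20.br_bot] at h4
  obtain ⟨β, h4, h5⟩ := H20.exists_blk_of_inv hK h4
  obtain rfl : B = H19.irr β := Set.ext fun χ => (hBdef χ).trans (h5 χ).symm
  refine ⟨hO.isPBlock_irr β, fun P => (H20.isDefectGroup_iff hO hM _ _).2 ?_, fun R hR => ?_⟩
  · exact h4 ▸ H20.isDef_of_coprime (H10.isSylowIn_top P) hK h2 (H20.top_le_nrm _) le_top h1
  · have h6 := h4 ▸ h3 R hR
    obtain ⟨ε, hε⟩ := h6.exists_eA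
    refine ⟨H19.irr ε, (H20.isInducedBlock_cent_iff hO hR ε β).2
      ⟨H20.isPair_eA hR ε, le_top, by rw [hε, h6.idem.eq]⟩, fun f hf => ?_⟩
    obtain ⟨γ, rfl⟩ := hO.exists_blk hf.1
    have h7 := ((H20.isInducedBlock_cent_iff hO hR γ β).1 hf).br
    rw [H20.eA_inj.1 (hε.trans ((H20.isBlk_eA _ γ).eq_of_mul_ne_zero' h6
      (h7.symm ▸ (H20.isBlk_eA _ γ).ne_zero)))]

end Cfsg.Agent.S4642
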