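import Cfsg.Statements.S4644
import Cfsg.Agent.H19.Wat

set_option autoImplicit false
open Cfsg

namespace Cfsg.Agent.S4644
open H17 H19

/-- Let B be a block of the finite group G relative to a maximal ideal M of the algebraic integers containing the prime p, with a commutative defect group P; let c be a block of C_G(P) inducing B and T the stabilizer of c in N_G(P). Let u be an element of P fixed under conjugation by every element of T, H = C_G(u) (so C_G(P) ≤ H), and f the block of H induced by c inside H. Then B and f have the same p-regular rank and the same number of irreducible characters. -/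
theorem result {G : Type*} [Group G] [Finite G] (p : ℕ) [Fact p.Prime] (M : Ideal Cfsg.AlgInt) (hM : Cfsg.IsPModular p M) (B : Set (Cfsg.IrrCharacter G)) (hB : Cfsg.IsPBlock M B) (P : Subgroup G) (hPD : Cfsg.IsDefectGroup p M B P) (hPab : ∀ x ∈ P, ∀ y ∈ P, x * y = y * x) (c : Set (Cfsg.IrrCharacter (Subgroup.centralizer (P : Set G)))) (hc : Cfsg.IsInducedBlock M (Subgroup.centralizer (P : Set G)) c B) (T : Subgroup G) (hT : ∀ g : G, g ∈ T ↔ (g ∈ Subgroup.normalizer (P : Set G) ∧ Cfsg.StabilizesBlock (Subgroup.centralizer (P : Set G)) c g)) (u : G) (hu : u ∈ P) (huT : ∀ g ∈ T, g * u * g⁻¹ = u) (H : Subgroup G) (hH : H = Subgroup.centralizer ({u} : Set G)) (f : Set (Cfsg.IrrCharacter H)) (hf : Cfsg.IsInducedBlockIn M H (Subgroup.centralizer (P : Set G)) c f) : Cfsg.blockRank p B = Cfsg.blockRank p f ∧ Nat.card B = Nat.card f := by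
  obtain ⟨O, hO, _⟩ := exists_over hM
  obtain ⟨β, rfl⟩ := hO.exists_blk hB
  obtain ⟨ε, rfl⟩ := hO.exists_blk hc.1
  obtain ⟨γ, rfl⟩ := hO.exists_blk hf.2.1
  have h := H20.max_of_induced hO hM hPD hc
  have hab : P ≤ H20.cent P := fun x hx => Subgroup.mem_centralizer_iff.2 fun y hy => hPab y hy x hx
  obtain rfl := H20.eq_of_forall_nrm_stab ε hT
  have hV := Subgroup.zpowers_le.2 hu
  have h1 : H20.cent P ≤ H := by rw [hH, ← H20.cent_zpowers]; exact H20.cent_anti hV
  rw [H20.isInducedBlockIn_iff hO hM h1] at hf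
  have h2 := max_loc (H := H) h hV (by rw [hH, H20.cent_zpowers])
    (by rw [hH, ← H20.cent_zpowers]; exact (h.isPair.bl_pair hV).cent_le_TT) (hab.trans h1)
  have h3 := (H20.ind_cent_iff h.pg h2.le h2.isPair.blk h2.blk).2 h2.pair.br
  rw [inf_eq_right.2 h1] at h3
  have h4 := watanabe h hab hu (fun g hg => Subgroup.mem_centralizer_singleton_iff.2
    (mul_inv_eq_iff_eq_mul.1 (huT g hg))) hH (hf.unique h3)
  exact ⟨h4.1.symm, h4.2.symm⟩

end Cfsg.Agent.S4644
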