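import Cfsg.Statements.S4645
import Cfsg.Agent.H20.Cyc3
-- import your own Cfsg.Agent.* helpers here

set_option autoImplicit false
open Cfsg

namespace Cfsg.Agent.S4645

/-- Let B be a block of the finite group G relative to a maximal ideal M of the algebraic integers containing the prime p, with a nontrivial cyclic defect group P; let c be a block of C_G(P) inducing B and T the stabilizer of c in N_G(P). Let Q be a nontrivial subgroup of P (so C_G(P) ≤ C_G(Q)), f the block of C_G(Q) induced by c inside C_G(Q), and T' the stabilizer of f in N_G(Q). Then T' = T·C_G(Q), the index of C_G(Q) in T' equals the index of C_G(P) in T, f has p-regular rank 1, and f is a nilpotent block of C_G(Q). -/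
theorem result {G : Type*} [Group G] [Finite G] (p : ℕ) [Fact p.Prime] (M : Ideal Cfsg.AlgInt) (hM : Cfsg.IsPModular p M) (B : Set (Cfsg.IrrCharacter G)) (hB : Cfsg.IsPBlock M B) (P : Subgroup G) (hPD : Cfsg.IsDefectGroup p M B P) (hP1 : P ≠ ⊥) (hcyc : IsCyclic P) (c : Set (Cfsg.IrrCharacter (Subgroup.centralizer (P : Set G)))) (hc : Cfsg.IsInducedBlock M (Subgroup.centralizer (P : Set G)) c B) (T : Subgroup G) (hT : ∀ g : G, g ∈ T ↔ (g ∈ Subgroup.normalizer (P : Set G) ∧ Cfsg.StabilizesBlock (Subgroup.centralizer (P : Set G)) c g)) (Q : Subgroup G) (hQP : Q ≤ P) (hQ1 : Q ≠ ⊥) (f : Set (Cfsg.IrrCharacter (Subgroup.centralizer (Q : Set G)))) (hf : Cfsg.IsInducedBlockIn M (Subgroup.centralizer (Q : Set G)) (Subgroup.centralizer (P : Set G)) c f) (T' : Subgroup G) (hT' : ∀ g : G, g ∈ T' ↔ (g ∈ Subgroup.normalizer (Q : Set G) ∧ Cfsg.StabilizesBlock (Subgroup.centralizer (Q : Set G)) f g)) : T' = T ⊔ Subgroup.centralizer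 (Q : Set G) ∧ (Subgroup.centralizer (Q : Set G)).relIndex T' = (Subgroup.centralizer (P : Set G)).relIndex T ∧ Cfsg.blockRank p f = 1 ∧ Cfsg.IsNilpotentBlock p M f := by
  obtain ⟨O, hO, _⟩ := H19.exists_over hM
  obtain ⟨β, rfl⟩ := hO.exists_blk hB
  obtain ⟨ε, rfl⟩ := hO.exists_blk hc.1
  obtain ⟨φ, rfl⟩ := hO.exists_blk hf.2.1
  obtain rfl := H20.eq_of_forall_nrm_stab ε hT
  obtain rfl := H20.eq_of_forall_nrm_stab φ hT'
  have C : H20.Cy p _ P _ := ⟨H20.max_of_induced hO hM hPD hc, hcyc, hP1⟩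
  have h1 := C.pair.ind_bl C.ab hQP le_rfl
  rw [C.pair.bl_self] at h1
  have h2 := h1.unique ((H20.isInducedBlockIn_iff hO hM (H20.cent_anti hQP) ε φ).1 hf)
  have h3 := C.TT_eq hQP
  have h4 := C.inf_cent hQP hQ1
  have h5 := C.max.cent_bl C.ab hQP
  obtain ⟨ψ, s, N⟩ := C.exists_NV hQ1 hQP
  have h6 := fun ξ ξ' y => N.reg (ξ := ξ) (ξ' := ξ') (y := y)
  rw [H20.IC, h2] at h6
  rw [h2] at h3 h5
  refine ⟨h3, ?_, ?_, (H20.isNilpotentBlock_iff_up hO hM φ).2 ((h5.isNil_iff_of_abelian C.ab).2 ?_)⟩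
  · rw [H20.TT] at h3
    rw [h3, H10.relIndex_sup_of_NN ((C.le_nrm hQP).trans (H20.nrm_le_nrm_cent Q)),
      ← Subgroup.inf_relIndex_left]
    exact congrArg (Subgroup.relIndex · _) h4
  · obtain ⟨ξ, hξ⟩ := H19.irr_nonempty φ
    refine H20.blockRank_eq_one_of (φ := pRegularPart p (ξ : _ → ℂ)) fun χ hχ => ⟨1, ?_⟩
    rw [one_smul]
    funext y
    by_cases hy : p ∣ orderOf y
    · rw [H19.pr_of_sing _ hy, H19.pr_of_sing _ hy]
    · rw [H19.pr_of_reg _ hy, H19.pr_of_reg _ hy, ← H20.ext_coe (χ : _ → ℂ) y, ← H20.ext_coe (ξ : _ → ℂ) y]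
      exact h6 _ _ _ (H20.ext_mem_IB.2 hχ) (H20.ext_mem_IB.2 hξ) (by rwa [Subgroup.orderOf_coe])
  · exact fun x hx => h4.le ⟨⟨hx.1.2, hx.2⟩, hx.1.1⟩

end Cfsg.Agent.S4645
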