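import Cfsg.Statements.S4691
import Cfsg.Agent.H20.Fus
import Cfsg.Agent.H3.Alperin
-- import your own Cfsg.Agent.* helpers here

set_option autoImplicit false
open Cfsg

namespace Cfsg.Agent.S4691

/-- Fix a prime p and a maximal ideal M of the algebraic integers containing p. A finite group G has a normal p-complement if and only if its principal p-block is nilpotent. -/
theorem result {G : Type*} [Group G] [Fintype G] (p : ℕ) [Fact p.Prime] (M : Ideal Cfsg.AlgInt) (hM : Cfsg.IsPModular p M) : Cfsg.HasNormalPComplement p G ↔ Cfsg.IsNilpotentBlock p M (Cfsg.principalBlock M G) := by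
  obtain ⟨O, hO, hc⟩ := H19.exists_over hM
  rw [hO.principalBlock_eq, H20.isNilpotentBlock_iff hO hM]
  have hb := H20.isBlk_eG (H19.B0 O G)
  have hp : p.Prime := Fact.out
  constructor
  · intro h
    exact ⟨hb, fun Q e he x hx hx' => H3.mem_centralizer_of_hasNormalPComplement h he.pair.pg
      hx.1.2 ((Nat.Prime.coprime_iff_not_dvd hp).2 hx').symm⟩
  · intro h
    refine H3.frobenius default fun Q hQ g hg hg' => ?_
    have hQ' := (default : Sylow p G).2.to_le hQ
    have he := H20.isPair_eA hQ' (H19.B0 O _)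
    exact h.nil Q _ (H20.pairOf_of_aug hb.supp hb.fixed hb.idem le_rfl H20.aug_eG_B0 he le_top
      (H20.aug_eA_B0 _)) g ⟨⟨Subgroup.mem_top _, hg⟩,
        he.blk_top.cj_eq_of_aug (H20.aug_eA_B0 _) (H20.nrm_le_nrm_cent Q hg)⟩
      ((Nat.Prime.coprime_iff_not_dvd hp).1 hg'.symm)

end Cfsg.Agent.S4691
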