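import Cfsg.Statements.S4647
import Cfsg.Agent.H19.PP

set_option autoImplicit false
open Cfsg

namespace Cfsg.Agent.S4647
open H17 H19

/-- Let B be a block of the finite group G relative to a maximal ideal M of the algebraic integers containing the prime p, p^a the p-part of the order of G and p^d the order of a defect group D of B. If Σ_{χ ∈ B} χ(1)² = p^(2a−d) (the least possible value), then B is nilpotent. -/
theorem result {G : Type*} [Group G] [Finite G] (p : ℕ) [Fact p.Prime] (M : Ideal Cfsg.AlgInt) (hM : Cfsg.IsPModular p M) (B : Set (Cfsg.IrrCharacter G)) (hB : Cfsg.IsPBlock M B) (D : Subgroup G) (hD : Cfsg.IsDefectGroup p M B D) (a d : ℕ) (ha : (Nat.card G).factorization p = a) (hd : Nat.card D = p ^ d) (hmin : ∑ᶠ χ ∈ B, Cfsg.charDegree (χ : G → ℂ) ^ 2 = p ^ (2 * a - d)) : Cfsg.IsNilpotentBlock p M B := by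
  classical
  obtain ⟨O, hO, _⟩ := exists_over hM
  obtain ⟨β, rfl⟩ := hO.exists_blk hB
  rw [H20.isDefectGroup_iff hO hM] at hD
  rw [finsum_mem_irr] at hmin
  refine (H20.isNilpotentBlock_iff hO hM β).2 ⟨H20.isBlk_eG β, fun Q e he x hx hx' => ?_⟩
  have h0 : H20.br Q (H20.eG β) ≠ 0 := fun h => he.pair.blk.ne_zero (by rw [← he.br, h, zero_mul])
  obtain ⟨D', h1, h2⟩ := H20.exists_isDef_ge he.pair.pg le_top h0
  obtain ⟨S, h3⟩ := h1.pg.exists_le_sylow
  have hx1 : ∀ u ∈ Q, x⁻¹ * u * x ∈ Q := fun u hu => (Subgroup.mem_normalizer_iff''.1 hx.1.2 u).1 hu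
  have h4 : d ≤ a := by
    have := Subgroup.card_dvd_of_le h3
    rwa [h1.card_eq (H20.isPrim_eG β) hD, hd, S.card_eq_multiplicity, ha,
      Nat.pow_dvd_pow_iff_le_right (Fact.out : p.Prime).one_lt] at this
  obtain ⟨s, h5, h6⟩ := fusion_of_min h1 S.2 h3 (by
    rw [hmin, h1.card_eq (H20.isPrim_eG β) hD, hd, S.card_eq_multiplicity, ha, ← pow_add, ← pow_mul]
    exact (congrArg _ (by omega)).le) (h2.trans h3) h0 fun u hu => h3 (h2 (hx1 u hu))
  have h7 : ∀ n : ℕ, ∀ u ∈ Q, (x ^ n)⁻¹ * u * x ^ n ∈ Q ∧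
      (x ^ n)⁻¹ * u * x ^ n = (s ^ n)⁻¹ * u * s ^ n := fun n u hu => by
    induction n with
    | zero => simpa using hu
    | succ n ih =>
      have e1 : (x ^ (n + 1))⁻¹ * u * x ^ (n + 1) = x⁻¹ * ((x ^ n)⁻¹ * u * x ^ n) * x := by group
      refine ⟨e1 ▸ hx1 _ ih.1, ?_⟩
      rw [e1, h6 _ ih.1, ih.2]; group
  obtain ⟨k, hk⟩ := S.2 ⟨s, h5⟩
  have h8 : x ^ p ^ k ∈ H20.cent Q := fun u hu => by
    have := (h7 (p ^ k) u hu).2
    rw [show s ^ p ^ k = 1 from congrArg Subtype.val hk, inv_one, one_mul, mul_one, mul_assoc,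
      inv_mul_eq_iff_eq_mul] at this
    exact this
  exact Subgroup.zpowers_le.2 h8 (mem_zpowers_pow_iff.2 (Nat.Coprime.pow_left k
    ((Fact.out : p.Prime).coprime_iff_not_dvd.2 hx')))

end Cfsg.Agent.S4647
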