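import Cfsg.Statements.S4648
import Cfsg.Agent.H20.Eq
-- import your own Cfsg.Agent.* helpers here

set_option autoImplicit false
open Cfsg

namespace Cfsg.Agent.S4648

/-- Let B be a block of the finite group G relative to a maximal ideal M of the algebraic integers containing the prime p, with a nontrivial defect group D. If B has p-regular rank 1 and at most four irreducible characters, then B is nilpotent, D has exactly as many elements as B has irreducible characters, and p is 2 or 3. -/
theorem result {G : Type*} [Group G] [Finite G] (p : ℕ) [Fact p.Prime] (M : Ideal Cfsg.AlgInt) (hM : Cfsg.IsPModular p M) (B : Set (Cfsg.IrrCharacter G)) (hB : Cfsg.IsPBlock M B) (D : Subgroup G) (hD : Cfsg.IsDefectGroup p M B D) (hD1 : D ≠ ⊥) (hl : Cfsg.blockRank p B = 1) (hk : Nat.card B ≤ 4) : Cfsg.IsNilpotentBlock p M B ∧ Nat.card D = Nat.card B ∧ (p = 2 ∨ p = 3) := by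
  obtain ⟨O, hO, _⟩ := H19.exists_over hM
  obtain ⟨β, rfl⟩ := hO.exists_blk hB
  have hD := (H20.isDefectGroup_iff hO hM _ _).1 hD
  obtain ⟨h1, h2⟩ := H20.card_eq_of_le_four hl hk
  have hp : p.Prime := Fact.out
  have h3 := hD.card_eq_pow
  have h4 : blockDefect p (H19.irr β) ≠ 0 := mt hD.eq_bot_iff.2 hD1
  have h5 : p ≤ 4 := (Nat.le_self_pow h4 p).trans (h1 ▸ hk)
  have h6 : blockDefect p (H19.irr β) ≤ 2 := by
    by_contra! h
    have := (Nat.pow_le_pow_left hp.two_le 3).trans (Nat.pow_le_pow_right hp.pos h)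
    omega
  have h7 : IsMulCommutative D := by
    obtain h | h : blockDefect p (H19.irr β) = 1 ∨ blockDefect p (H19.irr β) = 2 := by omega
    · rw [h, pow_one] at h3
      have := isCyclic_of_prime_card h3
      infer_instance
    · exact ⟨⟨IsPGroup.commutative_of_card_eq_prime_sq (h ▸ h3)⟩⟩
  refine ⟨(H20.isNilpotentBlock_iff hO hM β).2 (H20.isNil_of_Kr hD
    (Subgroup.le_centralizer D) h2 (h1.trans h3.symm)), h3.trans h1.symm, ?_⟩
  have := hp.two_le
  interval_cases p
  exacts [.inl rfl, .inr rfl, absurd hp (by decide)]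

end Cfsg.Agent.S4648
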