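import Cfsg.Statements.S4649
import Cfsg.Agent.H20.Cyc6
-- import your own Cfsg.Agent.* helpers here

set_option autoImplicit false
open Cfsg

namespace Cfsg.Agent.S4649

/-- A block with cyclic defect group, of a finite group relative to a maximal ideal M of the algebraic integers containing the prime p, is nilpotent if and only if its p-regular rank is 1 (it has a unique irreducible Brauer character). -/
theorem result {G : Type*} [Group G] [Finite G] (p : ℕ) [Fact p.Prime] (M : Ideal Cfsg.AlgInt) (hM : Cfsg.IsPModular p M) (B : Set (Cfsg.IrrCharacter G)) (hB : Cfsg.IsPBlock M B) (P : Subgroup G) (hPD : Cfsg.IsDefectGroup p M B P) (hcyc : IsCyclic P) : Cfsg.IsNilpotentBlock p M B ↔ Cfsg.blockRank p B = 1 := by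
  obtain ⟨O, hO, _⟩ := H19.exists_over hM
  obtain ⟨β, rfl⟩ := hO.exists_blk hB
  rw [H20.isDefectGroup_iff hO hM] at hPD
  obtain ⟨e, h⟩ := H20.exists_max (H20.isBlk_eG β) hPD
  rw [H20.isNilpotentBlock_iff hO hM, h.isNil_iff_of_abelian (H20.le_cent_of_cyclic hcyc)]
  by_cases h1 : P = ⊥
  · refine iff_of_true ?_ (H20.blockRank_of_defect (hPD.eq_bot_iff.1 h1))
    rw [h1, H20.cent_bot]; exact le_top
  · have C : H20.Cy p _ P e := ⟨h, hcyc, h1⟩
    rw [C.blockRank, Subgroup.relIndex_eq_one, top_inf_eq]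

end Cfsg.Agent.S4649
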