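import Cfsg.Statements.S4650
import Cfsg.Agent.H20.Fus
-- import your own Cfsg.Agent.* helpers here

set_option autoImplicit false
open Cfsg

namespace Cfsg.Agent.S4650

/-- Let B be a block of the finite group G relative to a maximal ideal M of the algebraic integers containing the prime p, with a nontrivial commutative defect group P; let c be a block of C_G(P) inducing B and T the stabilizer of c in N_G(P). Then T/C_G(P) acts freely on the non-identity elements of P (an element of T fixing a non-identity element of P under conjugation lies in C_G(P)) if and only if, for every nontrivial subgroup Q of P, the block of C_G(Q) induced by c inside C_G(Q) is a nilpotent block of C_G(Q). -/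
theorem result {G : Type*} [Group G] [Finite G] (p : ℕ) [Fact p.Prime] (M : Ideal Cfsg.AlgInt) (hM : Cfsg.IsPModular p M) (B : Set (Cfsg.IrrCharacter G)) (hB : Cfsg.IsPBlock M B) (P : Subgroup G) (hPD : Cfsg.IsDefectGroup p M B P) (hPab : ∀ x ∈ P, ∀ y ∈ P, x * y = y * x) (hP1 : P ≠ ⊥) (c : Set (Cfsg.IrrCharacter (Subgroup.centralizer (P : Set G)))) (hc : Cfsg.IsInducedBlock M (Subgroup.centralizer (P : Set G)) c B) (T : Subgroup G) (hT : ∀ g : G, g ∈ T ↔ (g ∈ Subgroup.normalizer (P : Set G) ∧ Cfsg.StabilizesBlock (Subgroup.centralizer (P : Set G)) c g)) : (∀ g ∈ T, ∀ x ∈ P, x ≠ 1 → g * x * g⁻¹ = x → g ∈ Subgroup.centralizer (P : Set G)) ↔ ∀ Q : Subgroup G, Q ≤ P → Q ≠ ⊥ → ∀ f : Set (Cfsg.IrrCharacter (Subgroup.centralizer (Q : Set G))), Cfsg.IsInducedBlockIn M (Subgroup.centralizer (Q : Set G)) (Subgroup.centralizer (P : Set G)) c f → Cfsg.IsNilpotentBlock p M f := by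
  obtain ⟨O, hO, _⟩ := H19.exists_over hM
  obtain ⟨β, rfl⟩ := hO.exists_blk hB
  obtain ⟨ε, rfl⟩ := hO.exists_blk hc.1
  obtain rfl := H20.eq_of_forall_nrm_stab ε hT
  have h := H20.max_of_induced hO hM hPD hc
  have hab : P ≤ H20.cent P := fun x hx => Subgroup.mem_centralizer_iff.2 fun y hy => hPab y hy x hx
  have key : ∀ Q ≤ P, ∀ φ : H19.Blk O (H20.cent Q),
      IsInducedBlockIn M (H20.cent Q) (H20.cent P) (H19.irr ε) (H19.irr φ) ↔
        H20.PSub p ⊤ Q (H20.eA _ φ) P (H20.eA _ ε) := by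
    intro Q hQ φ
    have h1 : P ≤ H20.cent Q := hab.trans (H20.cent_anti hQ)
    rw [H20.isInducedBlockIn_iff hO hM (H20.cent_anti hQ), H20.ind_iff_br h.pg h1
      ((H20.le_nrm_self P).trans (H20.nrm_le_nrm_cent P))
      inf_le_right (H20.cent_anti hQ) (H20.cent_le_nrm P) (H20.isBlk_eA _ _) (H20.isBlk_eA _ _)]
    exact ⟨fun h2 => H20.NSub.psub ⟨H20.isPair_eA (h.pg.to_le hQ) φ, h.isPair, hQ,
      h1.trans (H20.cent_le_nrm Q), H20.fixed_anti h1 (H20.isBlk_eA _ _).fixed, h2⟩,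
      fun h2 => (h2.nsub h.isPair (h1.trans (H20.cent_le_nrm Q))).br⟩
  have key2 : ∀ Q ≤ P, ∀ φ : H19.Blk O (H20.cent Q), H20.PSub p ⊤ Q (H20.eA _ φ) P (H20.eA _ ε) →
      (IsNilpotentBlock p M (H19.irr φ) ↔
        H20.cent Q ⊓ H20.nrm P ⊓ H20.stab (H20.eA _ ε) ≤ H20.cent P) := by
    intro Q hQ φ hs
    have := (h.cent_of_le hs (hab.trans (H20.cent_anti hQ))).isNil_iff_of_abelian hab
    rwa [top_inf_eq, ← H20.isNilpotentBlock_iff_up hO hM] at this
  constructor
  · intro h1 Q hQ hQ1 f hf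
    obtain ⟨φ, rfl⟩ := hO.exists_blk hf.2.1
    refine (key2 Q hQ φ ((key Q hQ φ).1 hf)).2 fun g hg => ?_
    obtain ⟨x, hx, hx1⟩ := (Subgroup.bot_or_exists_ne_one Q).resolve_left hQ1
    refine h1 g ⟨hg.1.2, hg.2⟩ x (hQ hx) hx1 ?_
    rw [← Subgroup.mem_centralizer_iff.1 hg.1.1 x hx, mul_inv_cancel_right]
  · intro h1 g hg x hx hx1 hgx
    have hQ : Subgroup.zpowers x ≤ P := (Subgroup.zpowers_le).2 hx
    obtain ⟨f, hs⟩ := H20.exists_psub h.isPair hQ
    obtain ⟨φ, rfl⟩ := (hs.left h.isPair).blk_top.exists_eA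
    refine (key2 _ hQ φ hs).1 (h1 _ hQ (by simpa using hx1) _ ((key _ hQ φ).2 hs))
      ⟨⟨?_, hg.1⟩, hg.2⟩
    show g ∈ H20.cent (Subgroup.zpowers x)
    rw [H20.cent_zpowers, Subgroup.mem_centralizer_singleton_iff, ← mul_inv_eq_iff_eq_mul, hgx]

end Cfsg.Agent.S4650
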