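import Cfsg.Statements.S4653
import Cfsg.Agent.H20.Dict2
-- import your own Cfsg.Agent.* helpers here

set_option autoImplicit false
open Cfsg

namespace Cfsg.Agent.S4653

/-- Fix a prime p and a maximal ideal M of the algebraic integers containing p. Let P be a normal p-subgroup of the finite group G and B a p-block of G. Then the idempotent of B is supported on C_G(P): its coefficient at every element of G outside C_G(P) is zero. -/
theorem result {G : Type*} [Group G] [Fintype G] (p : ℕ) [Fact p.Prime] (M : Ideal Cfsg.AlgInt) (hM : Cfsg.IsPModular p M) (P : Subgroup G) [P.Normal] (hP : IsPGroup p P) (B : Set (Cfsg.IrrCharacter G)) (hB : Cfsg.IsPBlock M B) (g : G) (hg : g ∉ Subgroup.centralizer (P : Set G)) : Cfsg.blockCoeff B g = 0 := by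
  obtain ⟨O, hO, hc⟩ := H19.exists_over hM
  obtain ⟨β, rfl⟩ := hO.exists_blk hB
  have hN : (⊤ : Subgroup G) ≤ H20.nrm P := by rw [H20.nrm, Subgroup.normalizer_eq_top]
  have h1 := (H20.isBlk_eG β).supp_cent_of_normal hP le_top hN
  rw [top_inf_eq] at h1
  have h2 := H20.lift_mem_supp (O := O) le_top (hN.trans (H20.nrm_le_nrm_cent P)) (H20.fB_mem_cen _)
    (H20.fB_idem _) (H19.fB_irr_mem_OG β) (by rw [H20.red_fB]; exact h1)
  rw [← H19.coeff_fB]
  exact H20.mem_supp.1 h2 g hg

end Cfsg.Agent.S4653
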