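import Cfsg.Statements.S4654
import Cfsg.Agent.H20.Dict3
-- import your own Cfsg.Agent.* helpers here

set_option autoImplicit false
open Cfsg

namespace Cfsg.Agent.S4654

/-- Fix a prime p and a maximal ideal M of the algebraic integers containing p. Let P be a normal p-subgroup of the finite group G, B a p-block of G and e a p-block of C_G(P) such that (P, e) is a Brauer pair of B (as P is normal, this says that e occurs in the idempotent of B, which is supported on C_G(P)). Let T be the stabilizer of e in G under conjugation. Then the idempotent of e is a block idempotent of T: some block E of T has, at every element of T, the same idempotent coefficient as e (zero off C_G(P)); and the idempotent of B is the sum of the distinct G-conjugates of the idempotent of e: its coefficient at g is the sum over all x in G of the coefficient of e at x⁻¹ g x, divided by the order of T. -/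
theorem result {G : Type*} [Group G] [Fintype G] (p : ℕ) [Fact p.Prime] (M : Ideal Cfsg.AlgInt) (hM : Cfsg.IsPModular p M) (P : Subgroup G) [P.Normal] (hP : IsPGroup p P) (B : Set (Cfsg.IrrCharacter G)) (e : Set (Cfsg.IrrCharacter (Subgroup.centralizer (P : Set G)))) (hBe : Cfsg.IsBrauerPairOf p M B P e) (T : Subgroup G) (hT : ∀ x : G, x ∈ T ↔ Cfsg.StabilizesBlock (Subgroup.centralizer (P : Set G)) e x) : (∃ E : Set (Cfsg.IrrCharacter T), Cfsg.IsPBlock M E ∧ ∀ t : T, Cfsg.blockCoeff E t = Cfsg.subgroupBlockCoeff (Subgroup.centralizer (P : Set G)) e (t : G)) ∧ ∀ g : G, Cfsg.blockCoeff B g = (Nat.card T : ℂ)⁻¹ * ∑ x : G, Cfsg.subgroupBlockCoeff (Subgroup.centralizer (P : Set G)) e (x⁻¹ * g * x) := by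
  obtain ⟨O, hO, hc⟩ := H19.exists_over hM
  obtain ⟨β, ε, rfl, rfl, h⟩ := H20.exists_of_pairOf hO hM hBe
  have hN : (⊤ : Subgroup G) ≤ H20.nrm P := by rw [H20.nrm, Subgroup.normalizer_eq_top]
  have hC := hN.trans (H20.nrm_le_nrm_cent P)
  have he := H20.isBlk_eA _ ε
  obtain rfl := H20.eq_of_forall_stab ε hT
  have hCT : H20.cent P ≤ H20.stab (H20.eA _ ε) := H20.mem_fixed_iff_le_stab.1 he.fixed
  constructor
  · have h1 : H20.IsBlk (H20.stab (H20.eA _ ε)) (H20.eA _ ε) :=
      H20.isBlk_of_prim_cent hP (H20.mem_fixed_iff_le_stab.1 h.pair.fixed_self) (le_top.trans hN)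
        inf_le_right hCT (he.prim_of_fixed hCT (H20.mem_fixed_stab _))
    obtain ⟨E, hE⟩ := h1.exists_eA
    exact ⟨_, hO.isPBlock_irr E, (H20.blockCoeff_eq_iff hCT (le_top.trans hC)).2 hE⟩
  · intro g
    have hb := H20.isBlk_eG β
    have h1 := hb.supp_cent_of_normal hP le_top hN
    rw [top_inf_eq] at h1
    have h2 : H20.eG β = H20.osum ⊤ (H20.eA _ ε) :=
      (hb.prim_of_supp le_top h1).eq_osum hC le_top he (by
        have := h.br
        rw [H20.br_eq_self h1] at this
        rw [this]; exact he.ne_zero)
    have h3 := congrArg (fun a => a.coeff g) (H20.sum_cj_eq (H20.fA _ (H19.irr ε)))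
    rw [← H20.fB_eq_osum hC h2, H20.stab_fA hC] at h3
    simp only [MonoidAlgebra.coeff_sum, Finset.sum_apply', H20.coeff_cj, H20.coeff_fA] at h3
    rw [h3, ← Nat.cast_smul_eq_nsmul ℂ, H19.coeff_smul', H19.coeff_fB, ← mul_assoc,
      inv_mul_cancel₀ H17.card_ne_zero_complex, one_mul]

end Cfsg.Agent.S4654
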