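import Cfsg.Statements.S4656
import Cfsg.Agent.H20.Dict2
-- import your own Cfsg.Agent.* helpers here

set_option autoImplicit false
open Cfsg

namespace Cfsg.Agent.S4656

/-- Fix a prime p and a maximal ideal M of the algebraic integers containing p. Let (P, e) be a Brauer pair of the finite group G and Q a normal subgroup of P. Then there is exactly one p-block f of C_G(Q) that is stable under conjugation by P and such that e occurs in the Brauer-map image at P of the idempotent of f; that is, exactly one f with (Q, f) normally below (P, e). -/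
theorem result {G : Type*} [Group G] [Fintype G] (p : ℕ) [Fact p.Prime] (M : Ideal Cfsg.AlgInt) (hM : Cfsg.IsPModular p M) (P Q : Subgroup G) (e : Set (Cfsg.IrrCharacter (Subgroup.centralizer (P : Set G)))) (hPe : Cfsg.IsBrauerPair p M P e) (hQP : Q ≤ P) (hPN : P ≤ Subgroup.normalizer (Q : Set G)) : ∃! f : Set (Cfsg.IrrCharacter (Subgroup.centralizer (Q : Set G))), Cfsg.IsNormalSubpair p M Q f P e := by
  obtain ⟨O, hO, hc⟩ := H19.exists_over hM
  obtain ⟨ε, rfl⟩ := hO.exists_blk hPe.2
  have he := (H20.isBrauerPair_iff hO ε).1 hPe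
  obtain ⟨f, hf⟩ := H20.exists_nsub he hQP hPN
  obtain ⟨φ, rfl⟩ := hf.left.blk_top.exists_eA
  refine ⟨_, (H20.isNormalSubpair_iff hO hM φ ε).2 hf, fun f' hf' => ?_⟩
  obtain ⟨φ', rfl⟩ := hO.exists_blk hf'.1.2
  rw [H20.eA_inj.1 (H20.NSub.unique ((H20.isNormalSubpair_iff hO hM φ' ε).1 hf') hf)]

end Cfsg.Agent.S4656
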