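import Cfsg.Statements.S4657
import Cfsg.Agent.H20.Dict2
-- import your own Cfsg.Agent.* helpers here

set_option autoImplicit false
open Cfsg

namespace Cfsg.Agent.S4657

/-- Fix a prime p and a maximal ideal M of the algebraic integers containing p. Every Brauer pair (P, e) of the finite group G is a Brauer pair of exactly one p-block B of G. -/
theorem result {G : Type*} [Group G] [Fintype G] (p : ℕ) [Fact p.Prime] (M : Ideal Cfsg.AlgInt) (hM : Cfsg.IsPModular p M) (P : Subgroup G) (e : Set (Cfsg.IrrCharacter (Subgroup.centralizer (P : Set G)))) (hPe : Cfsg.IsBrauerPair p M P e) : ∃! B : Set (Cfsg.IrrCharacter G), Cfsg.IsBrauerPairOf p M B P e := by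
  obtain ⟨O, hO, hc⟩ := H19.exists_over hM
  obtain ⟨ε, rfl⟩ := hO.exists_blk hPe.2
  obtain ⟨b, hb⟩ := H20.exists_ind (H := ⊤) hPe.1 le_top
    ((H20.le_nrm_self P).trans (H20.nrm_le_nrm_cent P)) inf_le_right le_top (H20.cent_le_nrm P)
    (H20.isBlk_eA _ ε)
  obtain ⟨β, rfl⟩ := hb.right.exists_eG
  have key : ∀ β : H19.Blk O G, IsBrauerPairOf p M (H19.irr β) P (H19.irr ε) ↔
      H20.Ind ⊤ (H20.cent P) (H20.eA _ ε) (H20.eG β) := fun β => by
    rw [H20.isBrauerPairOf_iff hO hM, ← H20.isInducedBlock_cent_iff hO hPe.1,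
      H20.isInducedBlock_iff hO]
  refine ⟨_, (key β).2 hb, fun B hB => ?_⟩
  obtain ⟨β', rfl⟩ := hO.exists_blk hB.2.1
  rw [H20.eG_injective (((key β').1 hB).unique hb)]

end Cfsg.Agent.S4657
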