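import Cfsg.Statements.S4660
import Cfsg.Agent.H20.Dict2
-- import your own Cfsg.Agent.* helpers here

set_option autoImplicit false
open Cfsg

namespace Cfsg.Agent.S4660

/-- Fix a prime p and a maximal ideal M of the algebraic integers containing p. Let (P, e) be a maximal Brauer pair of the p-block B of the finite group G and (Q, f) any Brauer pair of B. Then some conjugate of (Q, f) lies below (P, e): there is x in G such that (x Q x⁻¹, conjugate of f by x) ≤ (P, e). -/
theorem result {G : Type*} [Group G] [Fintype G] (p : ℕ) [Fact p.Prime] (M : Ideal Cfsg.AlgInt) (hM : Cfsg.IsPModular p M) (B : Set (Cfsg.IrrCharacter G)) (P Q : Subgroup G) (e : Set (Cfsg.IrrCharacter (Subgroup.centralizer (P : Set G)))) (f : Set (Cfsg.IrrCharacter (Subgroup.centralizer (Q : Set G)))) (hmax : Cfsg.IsMaximalBrauerPair p M B P e) (hQf : Cfsg.IsBrauerPairOf p M B Q f) : ∃ x : G, Cfsg.SubpairLE p M (Q.map (MulAut.conj x).toMonoidHom) (Cfsg.conjBlock Q x f) P e := by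
  obtain ⟨O, hO, hc⟩ := H19.exists_over hM
  obtain ⟨β, ε, rfl, rfl, h1, h2⟩ := H20.exists_of_max hO hM hmax
  obtain ⟨φ, rfl⟩ := hO.exists_blk hQf.1.2
  rw [H20.isBrauerPairOf_iff hO hM] at hQf
  obtain ⟨x, -, hx⟩ := h1.exists_conj_psub (H20.isPrim_eG β) (H20.le_nrm_top _) le_rfl h2 hQf
  exact ⟨x, (H20.subpairLE_conj_iff hO hM x φ ε).2 hx⟩

end Cfsg.Agent.S4660
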