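import Cfsg.Statements.S4661
import Cfsg.Agent.H20.Dict2
-- import your own Cfsg.Agent.* helpers here

set_option autoImplicit false
open Cfsg

namespace Cfsg.Agent.S4661

/-- Fix a prime p and a maximal ideal M of the algebraic integers containing p. Let (P, e) be a maximal Brauer pair of the p-block B of the finite group G, Q ≤ P, and f the p-block of C_G(Q) with (Q, f) ≤ (P, e). Then C_P(Q) is contained in a defect group of f (as a block of the group C_G(Q)); and for some x in G the conjugate pair (x Q x⁻¹, conjugate of f) again lies below (P, e) and C_P(x Q x⁻¹) is a defect group of the conjugate of f in C_G(x Q x⁻¹). -/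
theorem result {G : Type*} [Group G] [Fintype G] (p : ℕ) [Fact p.Prime] (M : Ideal Cfsg.AlgInt) (hM : Cfsg.IsPModular p M) (B : Set (Cfsg.IrrCharacter G)) (P Q : Subgroup G) (e : Set (Cfsg.IrrCharacter (Subgroup.centralizer (P : Set G)))) (f : Set (Cfsg.IrrCharacter (Subgroup.centralizer (Q : Set G)))) (hmax : Cfsg.IsMaximalBrauerPair p M B P e) (hQP : Q ≤ P) (hf : Cfsg.IsPBlock M f) (hle : Cfsg.SubpairLE p M Q f P e) : (∃ D : Subgroup (Subgroup.centralizer (Q : Set G)), Cfsg.IsDefectGroup p M f D ∧ (P ⊓ Subgroup.centralizer (Q : Set G)).subgroupOf (Subgroup.centralizer (Q : Set G)) ≤ D) ∧ ∃ x : G, Cfsg.SubpairLE p M (Q.map (MulAut.conj x).toMonoidHom) (Cfsg.conjBlock Q x f) P e ∧ Cfsg.IsDefectGroup p M (Cfsg.conjBlock Q x f) ((P ⊓ Subgroup.centralizer ((Q.map (MulAut.conj x).toMonoidHom) : Set G)).subgroupOf (Subgroup.centralizer ((Q.map (MulAut.conj x).toMonoidHom) : Set G))) := by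
  obtain ⟨O, hO, hc⟩ := H19.exists_over hM
  obtain ⟨β, ε, rfl, rfl, h1, h2⟩ := H20.exists_of_max hO hM hmax
  obtain ⟨φ, rfl⟩ := hO.exists_blk hf
  rw [H20.subpairLE_iff hO hM] at hle
  have hb := H20.isBlk_eG β
  have hφ := H20.isBlk_eA _ φ
  constructor
  · obtain ⟨D, hD, hD'⟩ := H20.exists_isDef_ge (H := H20.cent Q) (h1.pair.pg.to_inf_left)
      inf_le_right (hle.br_ne_zero h1.pair (inf_le_inf_left P (H20.cent_le_nrm Q)))
    refine ⟨D.subgroupOf _, (H20.isDefectGroup_subgroupOf_iff_of_le hO hM φ hD.le).2 hD, ?_⟩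
    exact Subgroup.comap_mono hD'
  · obtain ⟨D, hD⟩ := H20.exists_isDef p (H20.cent Q) hφ.ne_zero
    obtain ⟨x, -, h3, -, h5⟩ := h1.exists_conj_isDef (H20.isPrim_eG β) (H20.le_nrm_top _) le_rfl h2
      (hle.pairOf_left hb.supp hb.idem hb.fixed le_rfl h1)
      (le_inf (le_inf le_top (H20.cent_le_nrm Q)) (H20.mem_fixed_iff_le_stab.1 hφ.fixed)) hD
    refine ⟨x, (H20.subpairLE_conj_iff hO hM x φ ε).2 h3, ?_⟩
    rw [H20.conjBlock_irr, H20.isDefectGroup_subgroupOf_iff_of_le hO hM _ inf_le_right,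
      H20.eA_cjB, H20.cent_sc]
    exact h5

end Cfsg.Agent.S4661
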