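import Cfsg.Statements.S4662
import Cfsg.Agent.H20.Fus
-- import your own Cfsg.Agent.* helpers here

set_option autoImplicit false
open Cfsg

namespace Cfsg.Agent.S4662

/-- Fix a prime p and a maximal ideal M of the algebraic integers containing p. Let (P, e) be a maximal Brauer pair of the p-block B of the finite group G, Q ≤ P, and f the p-block of C_G(Q) with (Q, f) ≤ (P, e). Let T be the stabilizer of f in N_G(Q). Then the idempotent of f is a block idempotent of T, and N_P(Q) is contained in a defect group of that block of T; moreover for some x in G the conjugate pair (x Q x⁻¹, conjugate of f) again lies below (P, e) and, with T' the stabilizer of the conjugate of f in N_G(x Q x⁻¹), N_P(x Q x⁻¹) is a defect group of the block of T' whose idempotent is that of the conjugate of f. -/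
theorem result {G : Type*} [Group G] [Fintype G] (p : ℕ) [Fact p.Prime] (M : Ideal Cfsg.AlgInt) (hM : Cfsg.IsPModular p M) (B : Set (Cfsg.IrrCharacter G)) (P Q : Subgroup G) (e : Set (Cfsg.IrrCharacter (Subgroup.centralizer (P : Set G)))) (f : Set (Cfsg.IrrCharacter (Subgroup.centralizer (Q : Set G)))) (hmax : Cfsg.IsMaximalBrauerPair p M B P e) (hQP : Q ≤ P) (hf : Cfsg.IsPBlock M f) (hle : Cfsg.SubpairLE p M Q f P e) (T : Subgroup G) (hT : ∀ y : G, y ∈ T ↔ y ∈ Subgroup.normalizer (Q : Set G) ∧ Cfsg.StabilizesBlock (Subgroup.centralizer (Q : Set G)) f y) : (∃ F : Set (Cfsg.IrrCharacter T), Cfsg.IsPBlock M F ∧ (∀ t : T, Cfsg.blockCoeff F t = Cfsg.subgroupBlockCoeff (Subgroup.centralizer (Q : Set G)) f (t : G)) ∧ ∃ D : Subgroup T, Cfsg.IsDefectGroup p M F D ∧ (P ⊓ Subgroup.normalizer (Q : Set G)).subgroupOf T ≤ D) ∧ ∃ x : G, Cfsg.SubpairLE p M (Q.map (MulAut.conj x).toMonoidHom) (Cfsg.conjBlock Q x f) P e ∧ ∀ (T' :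 Subgroup G), (∀ y : G, y ∈ T' ↔ y ∈ Subgroup.normalizer ((Q.map (MulAut.conj x).toMonoidHom) : Set G) ∧ Cfsg.StabilizesBlock (Subgroup.centralizer ((Q.map (MulAut.conj x).toMonoidHom) : Set G)) (Cfsg.conjBlock Q x f) y) → ∃ F' : Set (Cfsg.IrrCharacter T'), Cfsg.IsPBlock M F' ∧ (∀ t : T', Cfsg.blockCoeff F' t = Cfsg.subgroupBlockCoeff (Subgroup.centralizer ((Q.map (MulAut.conj x).toMonoidHom) : Set G)) (Cfsg.conjBlock Q x f) (t : G)) ∧ Cfsg.IsDefectGroup p M F' ((P ⊓ Subgroup.normalizer ((Q.map (MulAut.conj x).toMonoidHom) : Set G)).subgroupOf T') := by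
  obtain ⟨O, hO, hc⟩ := H19.exists_over hM
  obtain ⟨β, ε, rfl, rfl, h⟩ := H20.exists_max_of hO hM hmax
  obtain ⟨φ, rfl, hs⟩ := H20.exists_of_subpairLE hO hM ε hle
  obtain rfl := H20.eq_of_forall_nrm_stab φ hT
  have key : ∀ (Q : Subgroup G) (φ : H19.Blk O (H20.cent Q)),
      H20.PSub p ⊤ Q (H20.eA _ φ) P (H20.eA _ ε) →
      P ⊓ H20.nrm Q ≤ H20.nrm Q ⊓ H20.stab (H20.eA _ φ) ∧
      ∃ γ : H19.Blk O (H20.nrm Q ⊓ H20.stab (H20.eA _ φ) : Subgroup G), H20.eA _ γ = H20.eA _ φ ∧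
      IsPBlock M (H19.irr γ) ∧ ∀ t, blockCoeff (H19.irr γ) t =
        subgroupBlockCoeff (H20.cent Q) (H19.irr φ) (t : G) := by
    intro Q φ hs
    have h1 := (h.pairOf hs).isBlk_stab
    have h2 := (hs.left h.isPair).cent_le_stab
    have h3 := hs.inf_stab h.isPair h.le
    rw [top_inf_eq] at h1 h3
    rw [top_inf_eq, top_inf_eq] at h2
    exact ⟨h3.symm.le.trans inf_le_right,
      H20.exists_blk_coeff hO h2 (inf_le_left.trans (H20.nrm_le_nrm_cent Q)) φ h1⟩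
  obtain ⟨h1, γ, h2, h3, h4⟩ := key Q φ hs
  obtain ⟨D, hD, h5⟩ := H20.exists_isDef_ge (h.pg.to_le inf_le_left) h1
    (hs.br_ne_zero h.isPair le_rfl)
  refine ⟨⟨_, h3, h4, D.subgroupOf _, (H20.isDefectGroup_subgroupOf_iff_of_le hO hM γ hD.le).2
    (by rwa [h2]), Subgroup.subgroupOf_mono _ h5⟩, ?_⟩
  obtain ⟨x, -, h6, -, h7⟩ := H20.PairOf.exists_conj_isDef h.blk (H20.le_nrm_self _) le_rfl
    h.pair h.df (h.pairOf hs) (by rw [top_inf_eq]) hD
  refine ⟨x, (H20.subpairLE_conj_iff hO hM x φ ε).2 h6, fun T' hT' => ?_⟩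
  rw [H20.conjBlock_irr] at hT' ⊢
  obtain rfl := H20.eq_of_forall_nrm_stab _ hT'
  rw [← H20.eA_cjB] at h6
  obtain ⟨h8, γ', h9, h10, h11⟩ := key _ _ h6
  refine ⟨_, h10, h11, (H20.isDefectGroup_subgroupOf_iff_of_le hO hM γ' h8).2 ?_⟩
  have h12 := h6.inf_stab h.isPair h.le
  rw [top_inf_eq] at h12
  rw [H20.sc_inf, ← H20.nrm_sc, ← H20.stab_cj, ← H20.eA_cjB, h12] at h7
  rwa [h9]

end Cfsg.Agent.S4662
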