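import Cfsg.Statements.S4663
import Cfsg.Agent.H20.Dict2
-- import your own Cfsg.Agent.* helpers here

set_option autoImplicit false
open Cfsg

namespace Cfsg.Agent.S4663

/-- Fix a prime p and a maximal ideal M of the algebraic integers containing p. Brauer's Third Main Theorem in the language of Brauer pairs: for the principal p-block B₀ of the finite group G and any p-subgroup Q, a p-block e of C_G(Q) makes (Q, e) a Brauer pair of B₀ if and only if e is the principal p-block of C_G(Q). Equivalently, modulo M the truncation to C_G(Q) of the idempotent of B₀ is the idempotent of the principal block of C_G(Q). -/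
theorem result {G : Type*} [Group G] [Fintype G] (p : ℕ) [Fact p.Prime] (M : Ideal Cfsg.AlgInt) (hM : Cfsg.IsPModular p M) (Q : Subgroup G) (hQ : IsPGroup p Q) (e : Set (Cfsg.IrrCharacter (Subgroup.centralizer (Q : Set G)))) (he : Cfsg.IsPBlock M e) : Cfsg.IsBrauerPairOf p M (Cfsg.principalBlock M G) Q e ↔ e = Cfsg.principalBlock M (Subgroup.centralizer (Q : Set G)) := by
  obtain ⟨O, hO, hc⟩ := H19.exists_over hM
  obtain ⟨ε, rfl⟩ := hO.exists_blk he
  rw [hO.principalBlock_eq, hO.principalBlock_eq, H20.isBrauerPairOf_iff hO hM, H19.irr_inj,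
    ← H20.aug_eA_iff]
  have hb := H20.isBlk_eG (H19.B0 O G)
  exact ⟨fun h => h.aug_eq_one (H20.isPrim_eG _) (H20.le_nrm_top _) le_rfl H20.aug_eG_B0,
    fun h => H20.pairOf_of_aug hb.supp hb.fixed hb.idem le_rfl H20.aug_eG_B0
      (H20.isPair_eA hQ ε) le_top h⟩

end Cfsg.Agent.S4663
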