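import Cfsg.Statements.S4664
import Cfsg.Agent.H20.Rk
-- import your own Cfsg.Agent.* helpers here

set_option autoImplicit false
open Cfsg

namespace Cfsg.Agent.S4664

open H17


/-- Fix a prime p and a maximal ideal M of the algebraic integers containing p, and let B be a p-block of the finite group G. Let m be the p'-part of the order of G and η = exp(2πi/m). Then every coefficient of the idempotent of B lies in the cyclotomic field ℚ(η). -/
theorem result {G : Type*} [Group G] [Fintype G] (p : ℕ) [Fact p.Prime] (M : Ideal Cfsg.AlgInt) (hM : Cfsg.IsPModular p M) (B : Set (Cfsg.IrrCharacter G)) (hB : Cfsg.IsPBlock M B) (g : G) : Cfsg.blockCoeff B g ∈ IntermediateField.adjoin ℚ ({Complex.exp (2 * Real.pi * Complex.I / ((Nat.card G / p ^ (Nat.card G).factorization p : ℕ) : ℂ))} : Set ℂ) := by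
  classical
  obtain ⟨O, hO, _⟩ := H19.exists_over hM
  obtain ⟨β, rfl⟩ := hO.exists_blk hB
  by_cases hg : p ∣ orderOf g
  · rw [H19.blockCoeff_irr_eq_zero β hg]; exact zero_mem _
  rw [H19.blockCoeff_eq_sum]
  have h0 := (Nat.ordCompl_pos p (Nat.card_pos (α := G)).ne').ne'
  refine mul_mem (inv_mem (natCast_mem _ _)) (sum_mem fun χ _ => mul_mem
    (H20.char_mem_adjoin χ.2.isCharacter h0 (one_pow _)) (H20.char_mem_adjoin χ.2.isCharacter h0 ?_))
  rw [inv_pow, inv_eq_one, ← orderOf_dvd_iff_pow_eq_one]
  refine (((Nat.Prime.coprime_iff_not_dvd hM.1).2 hg).symm.pow_right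
    ((Nat.card G).factorization p)).dvd_of_dvd_mul_left ?_
  rw [Nat.ordProj_mul_ordCompl_eq_self]
  exact orderOf_dvd_natCard g

end Cfsg.Agent.S4664
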