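import Cfsg.Statements.S4665
import Cfsg.Agent.H20.Ht2
-- import your own Cfsg.Agent.* helpers here

set_option autoImplicit false
open Cfsg

namespace Cfsg.Agent.S4665
open H17

/-- Fix a prime p, a maximal ideal M of the algebraic integers containing p, and a p-block B of the finite group G, and let p^a be the p-part of the order of G. Let χ be an integer combination of the irreducible characters in B. If the function that agrees with χ on p-regular elements and vanishes on p-singular elements is again an integer combination of the irreducible characters in B, then p^a divides χ(1). -/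
theorem result {G : Type*} [Group G] [Fintype G] (p : ℕ) [Fact p.Prime] (M : Ideal Cfsg.AlgInt) (hM : Cfsg.IsPModular p M) (B : Set (Cfsg.IrrCharacter G)) (hB : Cfsg.IsPBlock M B) (χ : G → ℂ) (hχ : (∃ n : Cfsg.IrrCharacter G → ℤ, ∀ g : G, χ g = ∑ᶠ ψ ∈ B, (n ψ : ℂ) * (ψ : G → ℂ) g)) (h0 : (∃ n : Cfsg.IrrCharacter G → ℤ, ∀ g : G, Cfsg.pRegularPart p χ g = ∑ᶠ ψ ∈ B, (n ψ : ℂ) * (ψ : G → ℂ) g)) : ∃ k : ℤ, χ 1 = (p ^ (Nat.card G).factorization p : ℂ) * k := by
  classical
  obtain ⟨O, hO, _⟩ := H19.exists_over hM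
  have key : ∀ θ : G → ℂ, (∃ n : IrrCharacter G → ℤ, ∀ g : G,
      θ g = ∑ᶠ ψ ∈ B, (n ψ : ℂ) * (ψ : G → ℂ) g) → IsGeneralizedCharacter G θ := by
    rintro θ ⟨n, hn⟩
    have : θ = ∑ ψ with ψ ∈ B, (n ψ : ℂ) • (ψ : G → ℂ) := by
      funext g; rw [hn, H19.finsum_mem_irr]; simp
    rw [this]
    exact H17.isGen_sum _ _ fun ψ _ => ψ.2.isGen.intCast_smul _
  have h1 := key _ h0
  have h2 := H19.GC_one_div_card p (H19.gen_mem_GC (A := O.toSubring) h1) fun g hg =>
    H19.pr_of_sing _ hg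
  obtain ⟨m, hm⟩ := h1.exists_int_one
  rw [H19.pr_of_reg _ H19.preg_one] at hm h2
  rw [hm, H19.div_mem_iff_val H17.card_ne_zero_complex, H20.val_card O p, ← map_pow,
    ← H19.div_mem_iff_val (H20.p_pow_ne_zero p _), H19.intCast_div_pow_mem_iff p] at h2
  obtain ⟨k, hk⟩ := h2
  exact ⟨k, by rw [hm, hk]; push_cast; rfl⟩

end Cfsg.Agent.S4665
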