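import Cfsg.Statements.S4666
import Cfsg.Agent.H20.Ht2
-- import your own Cfsg.Agent.* helpers here

set_option autoImplicit false
open Cfsg

namespace Cfsg.Agent.S4666
open H17

/-- Fix a prime p and a maximal ideal M of the algebraic integers containing p, and a p-block B of the finite group G of defect d. For every integer combination χ of the irreducible characters in B, p^d times the function that agrees with χ on p-regular elements and vanishes elsewhere is again an integer combination of the irreducible characters in B. -/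
theorem result {G : Type*} [Group G] [Fintype G] (p : ℕ) [Fact p.Prime] (M : Ideal Cfsg.AlgInt) (hM : Cfsg.IsPModular p M) (B : Set (Cfsg.IrrCharacter G)) (hB : Cfsg.IsPBlock M B) (χ : G → ℂ) (hχ : (∃ n : Cfsg.IrrCharacter G → ℤ, ∀ g : G, χ g = ∑ᶠ ψ ∈ B, (n ψ : ℂ) * (ψ : G → ℂ) g)) : (∃ n : Cfsg.IrrCharacter G → ℤ, ∀ g : G, (p ^ Cfsg.blockDefect p B : ℂ) * Cfsg.pRegularPart p χ g = ∑ᶠ ψ ∈ B, (n ψ : ℂ) * (ψ : G → ℂ) g) := by
  classical
  obtain ⟨O, hO, _⟩ := H19.exists_over hM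
  obtain ⟨β, rfl⟩ := hO.exists_blk hB
  obtain ⟨n, hn⟩ := hχ
  have h0 : χ = ∑ ψ with ψ ∈ H19.irr β, (n ψ : ℂ) • (ψ : G → ℂ) := by
    funext g; rw [hn, H19.finsum_mem_irr]; simp
  have h1 : IsGeneralizedCharacter G χ :=
    h0 ▸ H17.isGen_sum _ _ fun ψ _ => ψ.2.isGen.intCast_smul _
  have h2 : χ ∈ H20.LB O (H19.irr β) := h0 ▸ sum_mem fun ψ hψ =>
    H20.smul_mem_LB (intCast_mem O _) (H20.irr_mem_LB (Finset.mem_filter.1 hψ).2)
  choose m hm using fun ψ : IrrCharacter G => H20.exists_int_ctr (p := p) h1 h2 ψ.2.isGen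
  refine ⟨m, fun g => ?_⟩
  rw [H19.finsum_mem_irr, ← H20.blockPart_eq_self_of_bil (H19.pr_class h1.isClassFunction)
    fun ψ hψ => H20.bil_pr_eq_zero h2 hψ, H20.blockPart_eq_bil, Finset.sum_apply, Finset.mul_sum]
  refine Finset.sum_congr rfl fun ψ _ => ?_
  rw [← hm, Pi.smul_apply, smul_eq_mul, mul_assoc]

end Cfsg.Agent.S4666
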