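import Cfsg.Statements.S4668
import Cfsg.Agent.H20.Dict3
import Cfsg.Agent.H11.CharP
-- import your own Cfsg.Agent.* helpers here

set_option autoImplicit false
open Cfsg

namespace Cfsg.Agent.S4668

/-- Fix a prime p and a maximal ideal M of the algebraic integers containing p. Let Q₀ < Q₁ < ⋯ < Q_m be a strictly increasing chain of p-subgroups of the finite group G and N the intersection of their normalizers. Then every block idempotent of N is supported on C_G(Q_m): for every p-block E of N, the idempotent coefficient of E vanishes at every element of N outside C_G(Q_m). -/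
theorem result {G : Type*} [Group G] [Fintype G] (p : ℕ) [Fact p.Prime] (M : Ideal Cfsg.AlgInt) (hM : Cfsg.IsPModular p M) (m : ℕ) (Q : Fin (m + 1) → Subgroup G) (hQ : StrictMono Q) (hQp : ∀ i, IsPGroup p (Q i)) (N : Subgroup G) (hN : ∀ g : G, g ∈ N ↔ ∀ i, g ∈ Subgroup.normalizer (Q i : Set G)) (E : Set (Cfsg.IrrCharacter N)) (hE : Cfsg.IsPBlock M E) (n : N) (hn : (n : G) ∉ Subgroup.centralizer (Q (Fin.last m) : Set G)) : Cfsg.blockCoeff E n = 0 := by
  obtain ⟨O, hO, hc⟩ := H19.exists_over hM
  obtain ⟨β, rfl⟩ := hO.exists_blk hE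
  have hNn : ∀ i, N ≤ H20.nrm (Q i) := fun i g hg => (hN g).1 hg i
  have hb := H20.isBlk_eA N β
  have hp : p.Prime := Fact.out
  have h0 : H20.eA N β ∈ H20.supp (H19.kk O) (H20.cent (Q (Fin.last m))) := by
    refine H20.mem_supp.2 fun x hx => ?_
    by_contra h
    apply hx
    have hreg := hb.preg h
    have hxN := H20.mem_of_coeff_ne_zero hb.supp h
    have hR : x ∈ H20.cent (Q (Fin.last m) ⊓ N) :=
      (H20.mem_of_coeff_ne_zero (hb.supp_cent_of_normal (Q := Q (Fin.last m) ⊓ N)
        (hQp _).to_inf_left inf_le_right fun g hg => by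
          rw [H20.mem_nrm, H20.sc_inf, H20.sc_eq_of_nrm (hNn _ hg), H20.sc_eq_of_mem hg]) h).2
    have key : ∀ i : Fin (m + 1), ∀ V : Subgroup G, IsPGroup p V → x ∈ H20.nrm V → Q i ≤ V →
        V ≤ Q (Fin.last m) → (∀ j, i < j → V ≤ H20.nrm (Q j)) → x ∈ H20.cent V := by
      intro i
      induction i using Fin.induction with
      | zero =>
        intro V hV hxV h1 h2 h3
        have h4 : x ∈ H20.cent (Q 0) := by
          refine H20.cent_anti (le_inf (h1.trans h2) fun g hg => (hN g).2 fun j => ?_) hR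
          exact H20.le_nrm_self _ (hQ.monotone (Fin.zero_le j) hg)
        refine H11.mem_centralizer_of_AxB hV (hQp 0) (h1.trans (H20.le_nrm_self V))
          ((Nat.Prime.coprime_iff_not_dvd hp).2 hreg).symm hxV h4 ?_
        refine H20.cent_anti (le_inf (inf_le_left.trans h2) fun g hg => (hN g).2 fun j => ?_) hR
        rcases (Fin.zero_le j).eq_or_lt with rfl | hj
        · exact H20.cent_le_nrm _ hg.2
        · exact h3 j hj hg.1
      | succ i ih =>
        intro V hV hxV h1 h2 h3
        have h4 : x ∈ H20.cent (Q i.succ) := by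
          refine ih _ (hQp _) (hNn _ hxN) (hQ.monotone (Fin.castSucc_lt_succ).le) (h1.trans h2)
            fun j hj => ?_
          exact (hQ.monotone (Fin.castSucc_lt_iff_succ_le.1 hj)).trans (H20.le_nrm_self _)
        refine H11.mem_centralizer_of_AxB hV (hQp i.succ) (h1.trans (H20.le_nrm_self V))
          ((Nat.Prime.coprime_iff_not_dvd hp).2 hreg).symm hxV h4 ?_
        refine H20.cent_anti (le_inf (inf_le_left.trans h2) fun g hg => (hN g).2 fun j => ?_) hR
        rcases le_or_gt j i.succ with hj | hj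
        · exact H20.cent_le_nrm _ (H20.cent_anti (hQ.monotone hj) hg.2)
        · exact h3 j hj hg.1
    exact key (Fin.last m) _ (hQp _) (hNn _ hxN) le_rfl le_rfl
      fun j hj => absurd hj (Fin.le_last j).not_gt
  have h2 := H20.lift_mem_supp (O := O) (H := N) (K := N ⊓ H20.cent (Q (Fin.last m))) inf_le_left
    (H20.le_nrm_inf_cent (H20.le_nrm_self N) (hNn _)) (H20.fA_mem_cen _ _)
    (H20.fA_idem _ _) (H20.fA_mem_OG N β) (by
      rw [H20.red_fA]
      exact H20.mem_supp_inf.2 ⟨hb.supp, h0⟩)
  rw [← H20.coeff_fA_coe]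
  exact H20.mem_supp.1 h2 _ fun h => hn h.2

end Cfsg.Agent.S4668
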