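import Cfsg.Statements.S4670
import Cfsg.Agent.H20.Dict3
-- import your own Cfsg.Agent.* helpers here

set_option autoImplicit false
open Cfsg

namespace Cfsg.Agent.S4670

/-- Fix a prime p and a maximal ideal M of the algebraic integers containing p. Let P be a p-subgroup of the finite group G and H a subgroup containing N_G(P). For every p-block B of G with defect group P there is exactly one p-block c of H with defect group P whose idempotent agrees with that of B, modulo the local ideal at M, at every element of C_G(P) (their Brauer-map images at P coincide); and every p-block c of H with defect group P arises in this way from exactly one such B. This is the Brauer correspondence over H. -/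
theorem result {G : Type*} [Group G] [Fintype G] (p : ℕ) [Fact p.Prime] (M : Ideal Cfsg.AlgInt) (hM : Cfsg.IsPModular p M) (P H : Subgroup G) (hP : IsPGroup p P) (hH : Subgroup.normalizer (P : Set G) ≤ H) : (∀ B : Set (Cfsg.IrrCharacter G), Cfsg.IsPBlock M B → Cfsg.IsDefectGroup p M B P → ∃! c : Set (Cfsg.IrrCharacter H), Cfsg.IsPBlock M c ∧ Cfsg.IsDefectGroup p M c (P.subgroupOf H) ∧ ∀ x : G, x ∈ Subgroup.centralizer (P : Set G) → Cfsg.MemLocalIdeal M (Cfsg.blockCoeff B x - Cfsg.subgroupBlockCoeff H c x)) ∧ (∀ c : Set (Cfsg.IrrCharacter H), Cfsg.IsPBlock M c → Cfsg.IsDefectGroup p M c (P.subgroupOf H) → ∃! B : Set (Cfsg.IrrCharacter G), Cfsg.IsPBlock M B ∧ Cfsg.IsDefectGroup p M B P ∧ ∀ x : G, x ∈ Subgroup.centralizer (P : Set G) → Cfsg.MemLocalIdeal M (Cfsg.blockCoeff B x - Cfsg.subgroupBlockCoeff H c x)) := by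
  obtain ⟨O, hO, hc⟩ := H19.exists_over hM
  have hPH : P ≤ H := (H20.le_nrm_self P).trans hH
  have hn : ⊤ ⊓ H20.nrm P = H ⊓ H20.nrm P := by rw [top_inf_eq, inf_eq_right.2 hH]
  have key : ∀ (β : H19.Blk O G) (γ : H19.Blk O H),
      (∀ x : G, x ∈ Subgroup.centralizer (P : Set G) → MemLocalIdeal M
        (blockCoeff (H19.irr β) x - subgroupBlockCoeff H (H19.irr γ) x)) ↔
      H20.br P (H20.eG β) = H20.br P (H20.eA H γ) := by
    intro β γ
    rw [H20.br_eq_br_iff]
    refine forall₂_congr fun x _ => ?_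
    rw [H20.memLocalIdeal_sub_iff hO hM (H19.blockCoeff_isAlgebraic _ _)
      (H20.subgroupBlockCoeff_isAlgebraic _ _ _) (H19.blockCoeff_irr_mem β x)
      (by rw [← H20.coeff_fA]; exact H19.mem_OG.1 (H20.fA_mem_OG H γ) x), H20.coeff_eA,
      H19.coeff_eB]
  constructor
  · intro B hB hD
    obtain ⟨β, rfl⟩ := hO.exists_blk hB
    rw [H20.isDefectGroup_iff hO hM] at hD
    obtain ⟨c, ⟨h1, h2, h3⟩, hu⟩ := H20.first_main hn hPH (H20.isBlk_eG β) hD
    obtain ⟨γ, rfl⟩ := h1.exists_eA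
    refine ⟨H19.irr γ, ⟨hO.isPBlock_irr γ,
      (H20.isDefectGroup_subgroupOf_iff_of_le hO hM γ hPH).2 h2, (key β γ).2 h3.symm⟩, ?_⟩
    rintro c ⟨h4, h5, h6⟩
    obtain ⟨γ', rfl⟩ := hO.exists_blk h4
    rw [H20.eA_inj.1 (hu _ ⟨H20.isBlk_eA H γ',
      (H20.isDefectGroup_subgroupOf_iff_of_le hO hM γ' hPH).1 h5, ((key β γ').1 h6).symm⟩)]
  · intro c hc' hD
    obtain ⟨γ, rfl⟩ := hO.exists_blk hc'
    rw [H20.isDefectGroup_subgroupOf_iff_of_le hO hM γ hPH] at hD
    obtain ⟨b, ⟨h1, h2, h3⟩, hu⟩ := H20.first_main hn.symm le_top (H20.isBlk_eA H γ) hD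
    obtain ⟨β, rfl⟩ := h1.exists_eG
    refine ⟨H19.irr β, ⟨hO.isPBlock_irr β,
      (H20.isDefectGroup_iff hO hM β P).2 h2, (key β γ).2 h3⟩, ?_⟩
    rintro B ⟨h4, h5, h6⟩
    obtain ⟨β', rfl⟩ := hO.exists_blk h4
    rw [H20.eG_injective (hu _ ⟨H20.isBlk_eG β',
      (H20.isDefectGroup_iff hO hM β' P).1 h5, (key β' γ).1 h6⟩)]

end Cfsg.Agent.S4670
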