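import Cfsg.Statements.S4671
import Cfsg.Agent.H20.Dict3
-- import your own Cfsg.Agent.* helpers here

set_option autoImplicit false
open Cfsg

namespace Cfsg.Agent.S4671

/-- Fix a prime p and a maximal ideal M of the algebraic integers containing p. Let N be a normal subgroup of the finite group G, B a p-block of G and P a defect group of B. Then there is a p-block c of N, stable under conjugation by P and covered by B (some member of B has a constituent in c on restriction to N), such that P ∩ N is a defect group of c. -/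
theorem result {G : Type*} [Group G] [Fintype G] (p : ℕ) [Fact p.Prime] (M : Ideal Cfsg.AlgInt) (hM : Cfsg.IsPModular p M) (N : Subgroup G) [N.Normal] [Fintype N] (B : Set (Cfsg.IrrCharacter G)) (hB : Cfsg.IsPBlock M B) (P : Subgroup G) (hP : Cfsg.IsDefectGroup p M B P) : ∃ c : Set (Cfsg.IrrCharacter N), Cfsg.IsPBlock M c ∧ (∀ x ∈ P, Cfsg.StabilizesBlock N c x) ∧ (∃ χ ∈ B, ∃ θ ∈ c, Cfsg.classInner (fun n : N => (χ : G → ℂ) n) (θ : N → ℂ) ≠ 0) ∧ Cfsg.IsDefectGroup p M c ((P ⊓ N).subgroupOf N) := by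
  obtain ⟨O, hO, hc⟩ := H19.exists_over hM
  obtain ⟨β, rfl⟩ := hO.exists_blk hB
  rw [H20.isDefectGroup_iff hO hM] at hP
  have hN : (⊤ : Subgroup G) ≤ H20.nrm N := by rw [H20.nrm, Subgroup.normalizer_eq_top]
  have hb := H20.isBlk_eG β
  obtain ⟨c, h1, h2, h3⟩ := H20.exists_stable_cover hN (H20.fixed_anti le_top hb.fixed) hP.pg le_top
    hP.ne
  obtain ⟨γ, rfl⟩ := h1.exists_eA
  have h4 : H20.eG β * H20.eA N γ ≠ 0 := fun h => h3 (by rw [h, map_zero])
  refine ⟨_, hO.isPBlock_irr γ, fun x hx => (H20.stabilizesBlock_iff γ x).2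
    ⟨hN (Subgroup.mem_top x), h2 x hx⟩, (H20.cover_iff N β γ).2 h4, ?_⟩
  rw [H20.isDefectGroup_subgroupOf_iff_of_le hO hM γ inf_le_right]
  refine hP.inf_of_cover hN le_top hb h1 h4 (H20.br_ne_zero_of_le inf_le_left ?_)
  rw [H20.br_mul hP.pg (H20.fixed_anti le_top hb.fixed) h2] at h3
  exact right_ne_zero_of_mul h3

end Cfsg.Agent.S4671
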