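import Cfsg.Statements.S4672
import Cfsg.Agent.H20.Dict3
-- import your own Cfsg.Agent.* helpers here

set_option autoImplicit false
open Cfsg

namespace Cfsg.Agent.S4672

/-- Fix a prime p and a maximal ideal M of the algebraic integers containing p. Let N be a normal subgroup of the finite group G of p-power index and c a p-block of N stable under conjugation by G. Then the idempotent of c is a block idempotent of G: there is a p-block B of G whose idempotent coefficients agree with those of c on N and vanish off N; and for every defect group P of such a block B, G = NP and P ∩ N is a defect group of c. -/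
theorem result {G : Type*} [Group G] [Fintype G] (p : ℕ) [Fact p.Prime] (M : Ideal Cfsg.AlgInt) (hM : Cfsg.IsPModular p M) (N : Subgroup G) [N.Normal] (hN : ∃ k : ℕ, N.index = p ^ k) (c : Set (Cfsg.IrrCharacter N)) (hc : Cfsg.IsPBlock M c) (hst : ∀ x : G, Cfsg.StabilizesBlock N c x) : (∃ B : Set (Cfsg.IrrCharacter G), Cfsg.IsPBlock M B ∧ ∀ g : G, Cfsg.blockCoeff B g = Cfsg.subgroupBlockCoeff N c g) ∧ ∀ B : Set (Cfsg.IrrCharacter G), Cfsg.IsPBlock M B → (∀ g : G, Cfsg.blockCoeff B g = Cfsg.subgroupBlockCoeff N c g) → ∀ P : Subgroup G, Cfsg.IsDefectGroup p M B P → N ⊔ P = ⊤ ∧ Cfsg.IsDefectGroup p M c ((P ⊓ N).subgroupOf N) := by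
  obtain ⟨O, hO, hc'⟩ := H19.exists_over hM
  obtain ⟨γ, rfl⟩ := hO.exists_blk hc
  have hN' : (⊤ : Subgroup G) ≤ H20.nrm N := by rw [H20.nrm, Subgroup.normalizer_eq_top]
  obtain ⟨n, hn⟩ := hN
  rw [← Subgroup.relIndex_top_right] at hn
  have h1 := H20.isBlk_eA N γ
  have hf : H20.eA N γ ∈ H20.fixed (H19.kk O) ⊤ :=
    fun x _ => ((H20.stabilizesBlock_iff γ x).1 (hst x)).2
  constructor
  · obtain ⟨β, hβ⟩ := (H20.isBlk_of_relIndex hN' le_top hn (h1.prim_of_fixed le_top hf)).exists_eG
    exact ⟨_, hO.isPBlock_irr β, (H20.blockCoeff_eq_iff_top hN').2 hβ⟩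
  · intro B hB h2 P hP
    obtain ⟨β, rfl⟩ := hO.exists_blk hB
    rw [H20.blockCoeff_eq_iff_top hN'] at h2
    rw [H20.isDefectGroup_iff hO hM, h2] at hP
    rw [H20.isDefectGroup_subgroupOf_iff_of_le hO hM γ inf_le_right, sup_comm]
    exact ⟨hP.sup_eq_of_relIndex h1 hN' le_top hf hn, hP.inf_normal hN' le_top h1 hf⟩

end Cfsg.Agent.S4672
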