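import Cfsg.Statements.S4673
import Cfsg.Agent.H20.Dict3
-- import your own Cfsg.Agent.* helpers here

set_option autoImplicit false
open Cfsg

namespace Cfsg.Agent.S4673

/-- Fix a prime p and a maximal ideal M of the algebraic integers containing p. Let N ≤ L be normal subgroups of the finite group G with L/N a p-group, let B be a p-block of G covering the p-block c of N (some member of B has a constituent in c on restriction to N), and suppose that N contains a defect group of B. Then the stabilizer T of c in G satisfies T ∩ L = N. -/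
theorem result {G : Type*} [Group G] [Fintype G] (p : ℕ) [Fact p.Prime] (M : Ideal Cfsg.AlgInt) (hM : Cfsg.IsPModular p M) (N L : Subgroup G) [N.Normal] [L.Normal] [Fintype N] (hNL : N ≤ L) (hLN : ∃ k : ℕ, (N.subgroupOf L).index = p ^ k) (B : Set (Cfsg.IrrCharacter G)) (hB : Cfsg.IsPBlock M B) (c : Set (Cfsg.IrrCharacter N)) (hc : Cfsg.IsPBlock M c) (hcov : (∃ χ ∈ B, ∃ θ ∈ c, Cfsg.classInner (fun n : N => (χ : G → ℂ) n) (θ : N → ℂ) ≠ 0)) (hD : ∃ D : Subgroup G, Cfsg.IsDefectGroup p M B D ∧ D ≤ N) (T : Subgroup G) (hT : ∀ x : G, x ∈ T ↔ Cfsg.StabilizesBlock N c x) : T ⊓ L = N := by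
  obtain ⟨O, hO, hc'⟩ := H19.exists_over hM
  obtain ⟨γ, rfl⟩ := hO.exists_blk hc
  obtain ⟨β, rfl⟩ := hO.exists_blk hB
  have hN' : (⊤ : Subgroup G) ≤ H20.nrm N := by rw [H20.nrm, Subgroup.normalizer_eq_top]
  have hL' : (⊤ : Subgroup G) ≤ H20.nrm L := by rw [H20.nrm, Subgroup.normalizer_eq_top]
  obtain ⟨n, hn⟩ := hLN
  obtain ⟨D, hD, hDN⟩ := hD
  rw [H20.isDefectGroup_iff hO hM] at hD
  rw [H20.cover_iff] at hcov
  obtain rfl := H20.eq_of_forall_stab γ hT
  have h1 := H20.isBlk_eA N γ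
  have hb := H20.isBlk_eG β
  set c := H20.eA N γ with hcdef
  have hNT : N ≤ H20.stab c ⊓ L := le_inf (H20.mem_fixed_iff_le_stab.1 h1.fixed) hNL
  have hf : c ∈ H20.fixed (H19.kk O) (H20.stab c ⊓ L) := H20.mem_fixed_iff_le_stab.2 inf_le_left
  obtain ⟨S, hS⟩ := H20.exists_isDef p (H20.stab c ⊓ L) h1.ne_zero
  have h2 : N.relIndex (H20.stab c ⊓ L) ∣ p ^ n := by
    rw [← hn]
    exact Dvd.intro _ (Subgroup.relIndex_mul_relIndex N _ L hNT inf_le_right)
  obtain ⟨m, -, hm⟩ := (Nat.dvd_prime_pow Fact.out).1 h2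
  have h3 := hS.sup_eq_of_relIndex h1 (le_top.trans hN') hNT hf hm
  have h4 : H20.IsBlk L (H20.osum L c) :=
    H20.isBlk_of_relIndex (le_top.trans hN') hNL hn (h1.osum_prim (le_top.trans hN') hNL)
  have h5 : H20.br S (H20.osum L c) ≠ 0 := fun h => hS.ne (by
    rw [← h1.osum_mul (K := L) (le_top.trans hN'), H20.br_mul hS.pg
      (H20.fixed_anti (hS.le.trans inf_le_right) h4.fixed) (H20.fixed_anti hS.le hf), h, zero_mul])
  have h6 := H20.knorr' hL' le_top h4 hb.mem hb.idem (fun h => hcov (by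
    rw [← h1.osum_mul (K := L) (le_top.trans hN'), ← mul_assoc, h, zero_mul])) hS.pg
    (hS.le.trans inf_le_right) h5
  obtain ⟨g, hg, h7⟩ := hD.exists_conj_le hb hS.pg le_top h6
  have h8 : S ≤ N := by
    have := H20.sc_le_of_nrm (inv_mem (hN' hg)) (h7.trans hDN)
    rwa [H20.sc_inv_sc] at this
  rw [← h3, sup_eq_right.2 h8]

end Cfsg.Agent.S4673
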