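import Cfsg.Statements.S4674
import Cfsg.Agent.H20.Dict3
-- import your own Cfsg.Agent.* helpers here

set_option autoImplicit false
open Cfsg

namespace Cfsg.Agent.S4674

/-- Fix a prime p and a maximal ideal M of the algebraic integers containing p. Let N be a normal subgroup of the finite group G, Q a p-subgroup of N, H = N_G(Q) and L = H ∩ N = N_N(Q). Let d be a p-block of N with defect group Q and e the p-block of L with defect group Q that induces d inside N (its Brauer correspondent). Then block induction from H to G is a bijection from the p-blocks of H covering e onto the p-blocks of G covering d: every block of H covering e induces exactly one block of G, and that block covers d; and every block of G covering d is induced by exactly one block of H covering e. -/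
theorem result {G : Type*} [Group G] [Fintype G] (p : ℕ) [Fact p.Prime] (M : Ideal Cfsg.AlgInt) (hM : Cfsg.IsPModular p M) (N : Subgroup G) [N.Normal] [Fintype N] (Q : Subgroup G) (hQ : IsPGroup p Q) (hQN : Q ≤ N) [Fintype ↥(Subgroup.normalizer (Q : Set G) ⊓ N)] (d : Set (Cfsg.IrrCharacter N)) (hd : Cfsg.IsPBlock M d) (hdQ : Cfsg.IsDefectGroup p M d (Q.subgroupOf N)) (e : Set (Cfsg.IrrCharacter ↥(Subgroup.normalizer (Q : Set G) ⊓ N))) (he : Cfsg.IsPBlock M e) (heQ : Cfsg.IsDefectGroup p M e (Q.subgroupOf (Subgroup.normalizer (Q : Set G) ⊓ N))) (hed : Cfsg.IsInducedBlockIn M N (Subgroup.normalizer (Q : Set G) ⊓ N) e d) : (∀ c : Set (Cfsg.IrrCharacter ↥(Subgroup.normalizer (Q : Set G))), Cfsg.IsPBlock M c → (∃ ψ ∈ c, ∃ ξ ∈ e, Cfsg.classInner (fun l : ↥(Subgroup.normalizer (Q : Set G) ⊓ N) => (ψ : ↥(Subgroup.normalizer (Q : Set G)) → ℂ) (Subgroup.inclusion inf_le_left l)) (ξ : ↥(Subgroup.normalizer (Q : Set G) ⊓ N) → ℂ)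 ≠ 0) → ∃! B : Set (Cfsg.IrrCharacter G), Cfsg.IsInducedBlock M (Subgroup.normalizer (Q : Set G)) c B ∧ (∃ χ ∈ B, ∃ θ ∈ d, Cfsg.classInner (fun n : N => (χ : G → ℂ) n) (θ : N → ℂ) ≠ 0)) ∧ (∀ B : Set (Cfsg.IrrCharacter G), Cfsg.IsPBlock M B → (∃ χ ∈ B, ∃ θ ∈ d, Cfsg.classInner (fun n : N => (χ : G → ℂ) n) (θ : N → ℂ) ≠ 0) → ∃! c : Set (Cfsg.IrrCharacter ↥(Subgroup.normalizer (Q : Set G))), (Cfsg.IsPBlock M c ∧ ∃ ψ ∈ c, ∃ ξ ∈ e, Cfsg.classInner (fun l : ↥(Subgroup.normalizer (Q : Set G) ⊓ N) => (ψ : ↥(Subgroup.normalizer (Q : Set G)) → ℂ) (Subgroup.inclusion inf_le_left l)) (ξ : ↥(Subgroup.normalizer (Q : Set G) ⊓ N) → ℂ) ≠ 0) ∧ Cfsg.IsInducedBlock M (Subgroup.normalizer (Q : Set G)) c B) := by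
  obtain ⟨O, hO, hc'⟩ := H19.exists_over hM
  obtain ⟨δ, rfl⟩ := hO.exists_blk hd
  obtain ⟨ε, rfl⟩ := hO.exists_blk he
  have hN' : (⊤ : Subgroup G) ≤ H20.nrm N := by rw [H20.nrm, Subgroup.normalizer_eq_top]
  rw [H20.isDefectGroup_subgroupOf_iff_of_le hO hM δ hQN] at hdQ
  have hd' := H20.isBlk_eA N δ
  have he' := H20.isBlk_eA _ ε
  have hK : H20.nrm Q ≤ H20.nrm (H20.nrm Q ⊓ N) := fun g hg => by
    rw [H20.mem_nrm, H20.sc_inf, H20.sc_eq_of_mem hg, H20.sc_eq_of_nrm (hN' (Subgroup.mem_top g))]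
  rw [H20.isInducedBlockIn_iff hO hM inf_le_right, H20.ind_iff_br hQ hQN
    ((H20.le_nrm_self Q).trans hK) (le_inf (inf_le_right.trans (H20.cent_le_nrm Q)) inf_le_left)
    inf_le_right inf_le_left he' hd'] at hed
  have h1 : H20.br Q (H20.eA N δ) = H20.eA _ ε :=
    hdQ.eq_br hd' (inf_comm (H20.nrm Q) N ▸ he') (by rw [hed]; exact he'.ne_zero)
  have h2 := H20.br_osum hN' le_top hd' hdQ
  rw [h1, top_inf_eq] at h2
  have hind : ∀ (γ : H19.Blk O (H20.nrm Q)) (β : H19.Blk O G),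
      IsInducedBlock M (H20.nrm Q) (H19.irr γ) (H19.irr β) ↔
        H20.br Q (H20.eG β) * H20.eA _ γ = H20.eA _ γ := fun γ β => by
    rw [H20.isInducedBlock_iff hO, H20.ind_iff_br hQ le_top
      ((H20.le_nrm_self Q).trans (H20.le_nrm_self _)) (inf_le_right.trans (H20.cent_le_nrm Q))
      le_top le_rfl (H20.isBlk_eA _ γ) (H20.isBlk_eG β)]
  constructor
  · intro c hc hcov
    obtain ⟨γ, rfl⟩ := hO.exists_blk hc
    rw [H20.cover_iff_le] at hcov
    have hγ := H20.isBlk_eA _ γ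
    obtain ⟨b, hb⟩ := H20.exists_ind (H := ⊤) hQ le_top
      ((H20.le_nrm_self Q).trans (H20.le_nrm_self _)) (inf_le_right.trans (H20.cent_le_nrm Q))
      le_top le_rfl hγ
    obtain ⟨β, rfl⟩ := hb.right.exists_eG
    have hb' := (H20.isInducedBlock_iff hO γ β).2 hb
    refine ⟨_, ⟨hb', (H20.cover_iff N β δ).2 ?_⟩, ?_⟩
    · refine H20.mul_ne_zero_of_mul_osum hb.right.fixed fun h => hγ.ne_zero ?_
      have h3 := hγ.mul_osum_eq he' hK inf_le_left hcov
      rw [← h3, ← h2, ← (hind γ β).1 hb', ← mul_assoc, ← H20.br_mul hQ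
        (H20.fixed_anti le_top (H20.osum_mem_fixed _ _)) (H20.fixed_anti le_top hb.right.fixed),
        ← (hb.right.commute (H20.mem_supp_top _)).eq, h, map_zero, zero_mul]
    · rintro B ⟨h3, -⟩
      obtain ⟨β', rfl⟩ := hO.exists_blk h3.2.1
      rw [H20.eG_injective (((H20.isInducedBlock_iff hO γ β').1 h3).unique hb)]
  · intro B hB hcov
    obtain ⟨β, rfl⟩ := hO.exists_blk hB
    rw [H20.cover_iff] at hcov
    have hb := H20.isBlk_eG β
    have h3 := H20.harris_knorr hN' le_top hb hd' hdQ hcov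
    rw [top_inf_eq] at h3
    obtain ⟨γ, hγ⟩ := h3.exists_eA
    refine ⟨H19.irr γ, ⟨⟨hO.isPBlock_irr γ, (H20.cover_iff_le _ γ ε).2 ?_⟩,
      (hind γ β).2 (by rw [hγ, h3.idem.eq])⟩, ?_⟩
    · rw [hγ, ← h1, ← H20.br_mul hQ (H20.fixed_anti le_top hb.fixed) (H20.fixed_anti hQN hd'.fixed)]
      exact H20.knorr hN' le_top hd' hb.mem hb.idem hcov hQ hQN hdQ.ne
    · rintro c ⟨⟨h4, -⟩, h5⟩
      obtain ⟨γ', rfl⟩ := hO.exists_blk h4
      rw [hind, ← hγ] at h5
      rw [H20.eA_inj.1 ((H20.isBlk_eA _ γ').eq_of_mul_ne_zero' (H20.isBlk_eA _ γ)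
        (by rw [h5]; exact (H20.isBlk_eA _ γ').ne_zero))]

end Cfsg.Agent.S4674
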