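import Cfsg.Statements.S4679
import Cfsg.Agent.H20.Fus
-- import your own Cfsg.Agent.* helpers here

set_option autoImplicit false
open Cfsg

namespace Cfsg.Agent.S4679

/-- Fix a prime p and a maximal ideal M of the algebraic integers containing p, a p-block B of the finite group G with maximal Brauer pair (P, e), its fusion system F on P, a Brauer pair (Q, f) ≤ (P, e), and let T be the stabilizer of f in N_G(Q). Then Q is fully normalized in F if and only if N_P(Q) is a defect group of the block of T whose idempotent is that of f. -/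
theorem result {G : Type*} [Group G] [Fintype G] (p : ℕ) [Fact p.Prime] (M : Ideal Cfsg.AlgInt) (hM : Cfsg.IsPModular p M) (B : Set (Cfsg.IrrCharacter G)) (P : Subgroup G) (e : Set (Cfsg.IrrCharacter (Subgroup.centralizer (P : Set G)))) (hmax : Cfsg.IsMaximalBrauerPair p M B P e) (F : Cfsg.FusionSystem P) (hF : Cfsg.IsBlockFusionSystemOn p M B P e F) (Q : Subgroup G) (f : Set (Cfsg.IrrCharacter (Subgroup.centralizer (Q : Set G)))) (hQP : Q ≤ P) (hf : Cfsg.IsPBlock M f) (hle : Cfsg.SubpairLE p M Q f P e) (T : Subgroup G) (hT : ∀ y : G, y ∈ T ↔ y ∈ Subgroup.normalizer (Q : Set G) ∧ Cfsg.StabilizesBlock (Subgroup.centralizer (Q : Set G)) f y) : F.IsFullyNormalized Q ↔ ∃ F' : Set (Cfsg.IrrCharacter T), Cfsg.IsPBlock M F' ∧ (∀ t : T, Cfsg.blockCoeff F' t = Cfsg.subgroupBlockCoeff (Subgroup.centralizer (Q : Set G)) f (t : G)) ∧ Cfsg.IsDefectGroup p M F' ((P ⊓ Subgroup.normalizer (Q : Set G)).subgroupOf T) := by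
  obtain ⟨O, hO, hc⟩ := H19.exists_over hM
  obtain ⟨β, ε, rfl, rfl, h, hF'⟩ := H20.exists_of_bfs hO hM hF
  obtain ⟨φ, rfl, hs⟩ := H20.exists_of_subpairLE hO hM ε hle
  obtain rfl := H20.eq_of_forall_nrm_stab φ hT
  have h1 := (h.pairOf hs).isBlk_stab
  have h2 := (hs.left h.isPair).cent_le_stab
  have h3 := hs.inf_stab h.isPair h.le
  rw [top_inf_eq] at h1 h3
  rw [top_inf_eq, top_inf_eq] at h2
  have h4 : H20.nrm Q ⊓ H20.stab (H20.eA _ φ) ≤ H20.nrm (H20.cent Q) :=
    inf_le_left.trans (H20.nrm_le_nrm_cent Q)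
  have h5 : P ⊓ H20.nrm Q ≤ H20.nrm Q ⊓ H20.stab (H20.eA _ φ) := h3.symm.le.trans inf_le_right
  rw [hF'.fullyNormalized_iff h hs, top_inf_eq]
  constructor
  · intro hD
    obtain ⟨γ, h6, h7, h8⟩ := H20.exists_blk_coeff hO h2 h4 φ h1
    exact ⟨_, h7, h8, (H20.isDefectGroup_subgroupOf_iff_of_le hO hM γ h5).2 (by rwa [h6])⟩
  · rintro ⟨F', h6, h7, h8⟩
    obtain ⟨γ, rfl⟩ := hO.exists_blk h6
    rw [H20.isDefectGroup_subgroupOf_iff_of_le hO hM γ h5,
      (H20.blockCoeff_eq_iff h2 h4).1 h7] at h8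
    exact h8

end Cfsg.Agent.S4679
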