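import Cfsg.Statements.S4681
import Cfsg.Agent.H20.Fus
-- import your own Cfsg.Agent.* helpers here

set_option autoImplicit false
open Cfsg

namespace Cfsg.Agent.S4681

/-- Fix a prime p and a maximal ideal M of the algebraic integers containing p. Let B₀ be the principal p-block of the finite group G, P a Sylow p-subgroup and e₀ the principal p-block of C_G(P). Then (P, e₀) is a maximal Brauer pair of B₀, and the fusion system of B₀ on (P, e₀) is the fusion system of G on P: its maps from each subgroup of P are exactly the conjugation maps into P by elements of G. -/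
theorem result {G : Type*} [Group G] [Fintype G] (p : ℕ) [Fact p.Prime] (M : Ideal Cfsg.AlgInt) (hM : Cfsg.IsPModular p M) (S : Sylow p G) : Cfsg.IsMaximalBrauerPair p M (Cfsg.principalBlock M G) (S : Subgroup G) (Cfsg.principalBlock M (Subgroup.centralizer ((S : Subgroup G) : Set G))) ∧ ∀ F : Cfsg.FusionSystem (S : Subgroup G), Cfsg.IsBlockFusionSystemOn p M (Cfsg.principalBlock M G) (S : Subgroup G) (Cfsg.principalBlock M (Subgroup.centralizer ((S : Subgroup G) : Set G))) F → ∀ Q : Subgroup G, F.Hom Q = (Cfsg.groupFusionSystem (S : Subgroup G)).Hom Q := by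
  obtain ⟨O, hO, hc⟩ := H19.exists_over hM
  rw [hO.principalBlock_eq, hO.principalBlock_eq]
  have hb := H20.isBlk_eG (H19.B0 O G)
  have he := H20.isPair_eA S.2 (H19.B0 O _)
  have h : H20.Max p ⊤ (H20.eG (H19.B0 O G)) S (H20.eA _ (H19.B0 O _)) :=
    ⟨hb, H20.pairOf_of_aug hb.supp hb.fixed hb.idem le_rfl H20.aug_eG_B0 he le_top
      (H20.aug_eA_B0 _), (H20.isDef_iff_of_aug hb.fixed H20.aug_eG_B0).2
        ⟨le_top, S.2, fun R h1 h2 _ => S.3 h1 h2⟩⟩
  refine ⟨(H20.isMaximalBrauerPair_iff hO hM _ _).2 ⟨h.pair, h.df⟩, fun F hF Q => ?_⟩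
  obtain ⟨-, hF'⟩ := (H20.isBlockFusionSystemOn_iff hO hM _ _ F).1 hF
  refine Set.Subset.antisymm (H13.hom_subset_iff.2 fun φ hφ => ?_)
    (H13.hom_subset_iff.2 fun φ hφ => ?_)
  · obtain ⟨g, -, h2⟩ := (hF' _ _).1 hφ
    exact H13.mor_group_iff.2 ⟨hφ.le, fun x hx => hφ.mem hx, g, h2⟩
  · obtain ⟨h1, h2, g, h3⟩ := H13.mor_group_iff.1 hφ
    have h4 : H20.sc g Q ≤ S := by
      rintro _ ⟨x, hx, rfl⟩
      have := h2 x hx
      rwa [h3 x hx] at this
    obtain ⟨f, h5⟩ := H20.exists_psub he h1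
    obtain ⟨f', h6⟩ := H20.exists_psub he h4
    refine (hF' _ _).2 ⟨g, ⟨Subgroup.mem_top _, f, h5, ?_⟩, h3⟩
    have h7 := (h5.left he).cj_of_nrm (H20.le_nrm_top _ (Subgroup.mem_top g))
    rwa [h7.blk.principal_unique (h6.left he).blk
      (by rw [H20.aug_cj]; exact h5.aug_left (H20.aug_eA_B0 _)) (h6.aug_left (H20.aug_eA_B0 _))]

end Cfsg.Agent.S4681
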