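import Cfsg.Statements.S4682
import Cfsg.Agent.H20.Fus
-- import your own Cfsg.Agent.* helpers here

set_option autoImplicit false
open Cfsg

namespace Cfsg.Agent.S4682

/-- Fix a prime p and a maximal ideal M of the algebraic integers containing p, a p-block B of the finite group G with maximal Brauer pair (P, e), P abelian, and a Brauer pair (Q, f) ≤ (P, e). Let T_Q be the stabilizer of f in N_G(Q) and T_P the stabilizer of e in N_G(P). Then every element of T_Q is a product of an element of T_P and an element of C_G(Q); and the index of C_G(Q) in T_Q equals the index of T_P ∩ C_G(Q) in T_P ∩ N_G(Q). -/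
theorem result {G : Type*} [Group G] [Fintype G] (p : ℕ) [Fact p.Prime] (M : Ideal Cfsg.AlgInt) (hM : Cfsg.IsPModular p M) (B : Set (Cfsg.IrrCharacter G)) (P : Subgroup G) (e : Set (Cfsg.IrrCharacter (Subgroup.centralizer (P : Set G)))) (hmax : Cfsg.IsMaximalBrauerPair p M B P e) (hab : ∀ x ∈ P, ∀ y ∈ P, x * y = y * x) (Q : Subgroup G) (f : Set (Cfsg.IrrCharacter (Subgroup.centralizer (Q : Set G)))) (hQP : Q ≤ P) (hf : Cfsg.IsPBlock M f) (hle : Cfsg.SubpairLE p M Q f P e) (TQ : Subgroup G) (hTQ : ∀ y : G, y ∈ TQ ↔ y ∈ Subgroup.normalizer (Q : Set G) ∧ Cfsg.StabilizesBlock (Subgroup.centralizer (Q : Set G)) f y) (TP : Subgroup G) (hTP : ∀ y : G, y ∈ TP ↔ y ∈ Subgroup.normalizer (P : Set G) ∧ Cfsg.StabilizesBlock (Subgroup.centralizer (P : Set G)) e y) : (∀ x ∈ TQ, ∃ y ∈ TP, ∃ c ∈ Subgroup.centralizer (Q : Set G), x = y * c) ∧ ((Subgroup.centralizer (Q : Set G)).subgroupOf TQ).index = ((TP ⊓ Subgroup.centralizer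 (Q : Set G)).subgroupOf (TP ⊓ Subgroup.normalizer (Q : Set G))).index := by
  obtain ⟨O, hO, hc⟩ := H19.exists_over hM
  obtain ⟨β, ε, rfl, rfl, h⟩ := H20.exists_max_of hO hM hmax
  obtain ⟨φ, rfl, hs⟩ := H20.exists_of_subpairLE hO hM ε hle
  obtain rfl := H20.eq_of_forall_nrm_stab φ hTQ
  obtain rfl := H20.eq_of_forall_nrm_stab ε hTP
  have hab' : P ≤ H20.cent P := fun x hx => Subgroup.mem_centralizer_iff.2 fun y hy => hab y hy x hx
  have key : ∀ x ∈ H20.nrm Q ⊓ H20.stab (H20.eA _ φ), ∃ y ∈ H20.nrm P ⊓ H20.stab (H20.eA _ ε),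
      ∃ c ∈ H20.cent Q, x = y * c := fun x hx => by
    obtain ⟨n, hn, c, h1, h2⟩ := h.exists_of_abelian hab'
      ((H20.fus_iff_stab h.isPair hs hx.1).2 ⟨Subgroup.mem_top _, hx.2⟩)
    exact ⟨n, ⟨hn.1.2, hn.2⟩, c, h1.2, h2⟩
  refine ⟨key, ?_⟩
  have h1 : H20.nrm P ⊓ H20.stab (H20.eA _ ε) ⊓ H20.nrm Q ≤ H20.nrm Q ⊓ H20.stab (H20.eA _ φ) :=
    fun x hx => ⟨hx.2, hs.cj_eq h.isPair (H20.le_nrm_top _ (Subgroup.mem_top x)) hx.1.1 hx.1.2 hx.2⟩
  have h2 := H10.relIndex_eq_of_mul (K := H20.cent Q) h1 fun x hx => by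
    obtain ⟨y, hy, c, h2, rfl⟩ := key x hx
    refine ⟨y, ⟨hy, ?_⟩, c, h2, rfl⟩
    have h3 : y * c ∈ H20.nrm Q := hx.1
    simpa using mul_mem h3 (inv_mem (H20.cent_le_nrm Q h2))
  refine h2.trans ?_
  show Subgroup.relIndex _ _ = Subgroup.relIndex _ _
  rw [← Subgroup.inf_relIndex_right (H20.cent Q), ← Subgroup.inf_relIndex_right (_ ⊓ H20.cent Q)]
  congr 1
  ext x
  simp only [Subgroup.mem_inf]
  tauto

end Cfsg.Agent.S4682
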