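import Cfsg.Statements.S4685
import Cfsg.Agent.H20.BP
-- import your own Cfsg.Agent.* helpers here

set_option autoImplicit false
open Cfsg

namespace Cfsg.Agent.S4685

/-- Fix a prime p and a maximal ideal M of the algebraic integers containing p, a p-block B of the finite group G with maximal Brauer pair (P, e) and fusion system F on P. Then for every h the number of irreducible characters of height h in B is divisible by the index of Z(P) ∩ foc(F) in Z(P), where foc(F) is the focal subgroup of F. -/
theorem result {G : Type*} [Group G] [Fintype G] (p : ℕ) [Fact p.Prime] (M : Ideal Cfsg.AlgInt) (hM : Cfsg.IsPModular p M) (B : Set (Cfsg.IrrCharacter G)) (P : Subgroup G) (e : Set (Cfsg.IrrCharacter (Subgroup.centralizer (P : Set G)))) (hmax : Cfsg.IsMaximalBrauerPair p M B P e) (F : Cfsg.FusionSystem P) (hF : Cfsg.IsBlockFusionSystemOn p M B P e F) (h : ℕ) : ((P ⊓ Subgroup.centralizer (P : Set G) ⊓ F.focalSubgroup).subgroupOf (P ⊓ Subgroup.centralizer (P : Set G))).index ∣ Nat.card {χ : Cfsg.IrrCharacter G // χ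 ∈ B ∧ Cfsg.blockHeight p B (χ : G → ℂ) = h} := by
  obtain ⟨O, hO, _⟩ := H19.exists_over hM
  obtain ⟨β, ε, rfl, rfl, h1, hF⟩ := H20.exists_of_bfs hO hM hF
  obtain ⟨b, hb⟩ := H19.exists_SB h1
  rw [Subgroup.inf_subgroupOf_left]
  exact H20.BP.relIndex_dvd_card hb hF inf_le_left h fun χ h1 _ u hu =>
    H20.BP.dc_ne_zero_of_major hb h1 hu.1 fun w hw =>
      Subgroup.mem_centralizer_singleton_iff.2 (hu.2 w hw)

end Cfsg.Agent.S4685
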