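import Cfsg.Statements.S4688
import Cfsg.Agent.H20.Fus
-- import your own Cfsg.Agent.* helpers here

set_option autoImplicit false
open Cfsg

namespace Cfsg.Agent.S4688

/-- Fix a prime p and a maximal ideal M of the algebraic integers containing p, and a nilpotent p-block B of the finite group G with maximal Brauer pair (P, e). Then for every Brauer pair (Q, f) of B, f is a nilpotent block of C_G(Q); and if moreover (Q, f) ≤ (P, e), then C_P(Q) is a defect group of f as a block of C_G(Q). -/
theorem result {G : Type*} [Group G] [Fintype G] (p : ℕ) [Fact p.Prime] (M : Ideal Cfsg.AlgInt) (hM : Cfsg.IsPModular p M) (B : Set (Cfsg.IrrCharacter G)) (P : Subgroup G) (e : Set (Cfsg.IrrCharacter (Subgroup.centralizer (P : Set G)))) (hmax : Cfsg.IsMaximalBrauerPair p M B P e) (hnil : Cfsg.IsNilpotentBlock p M B) (Q : Subgroup G) (f : Set (Cfsg.IrrCharacter (Subgroup.centralizer (Q : Set G)))) (hQf : Cfsg.IsBrauerPairOf p M B Q f) : Cfsg.IsNilpotentBlock p M f ∧ (Cfsg.SubpairLE p M Q f P e → Cfsg.IsDefectGroup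 p M f ((P ⊓ Subgroup.centralizer (Q : Set G)).subgroupOf (Subgroup.centralizer (Q : Set G)))) := by
  obtain ⟨O, hO, hc⟩ := H19.exists_over hM
  obtain ⟨β, ε, rfl, rfl, h⟩ := H20.exists_max_of hO hM hmax
  obtain ⟨β', φ, h1, rfl, hf⟩ := H20.exists_of_pairOf hO hM hQf
  obtain rfl := H19.irr_inj.1 h1
  rw [H20.isNilpotentBlock_iff hO hM] at hnil
  refine ⟨?_, fun hle => ?_⟩
  · have := hnil.cent hf
    rwa [top_inf_eq, ← H20.isNilpotentBlock_iff_up hO hM] at this
  · have := (h.isNil_iff.1 hnil).isDef_cent h ((H20.subpairLE_iff hO hM φ ε).1 hle)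
    rwa [top_inf_eq, ← H20.isDefectGroup_subgroupOf_iff_of_le hO hM φ inf_le_right] at this

end Cfsg.Agent.S4688
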