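import Cfsg.Statements.S4689
import Cfsg.Agent.H20.BP
-- import your own Cfsg.Agent.* helpers here

set_option autoImplicit false
open Cfsg

namespace Cfsg.Agent.S4689

/-- Fix a prime p and a maximal ideal M of the algebraic integers containing p, and a nilpotent p-block B of the finite group G. Then B has p-regular rank one (a single irreducible Brauer character), and some χ₀ ∈ B restricts to that Brauer character: every χ ∈ B agrees on the p-regular elements with a natural-number multiple of χ₀. -/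
theorem result {G : Type*} [Group G] [Fintype G] (p : ℕ) [Fact p.Prime] (M : Ideal Cfsg.AlgInt) (hM : Cfsg.IsPModular p M) (B : Set (Cfsg.IrrCharacter G)) (hnil : Cfsg.IsNilpotentBlock p M B) : Cfsg.blockRank p B = 1 ∧ ∃ χ₀ ∈ B, ∀ χ ∈ B, ∃ d : ℕ, ∀ x : G, Cfsg.pRegularPart p (χ : G → ℂ) x = (d : ℂ) * Cfsg.pRegularPart p (χ₀ : G → ℂ) x := by
  obtain ⟨O, hO, _⟩ := H19.exists_over hM
  obtain ⟨β, rfl⟩ := hO.exists_blk hnil.1
  obtain ⟨D, hD⟩ := H20.exists_isDef p ⊤ (H20.isBlk_eG β).ne_zero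
  obtain ⟨e, he⟩ := H20.exists_max (H20.isBlk_eG β) hD
  obtain ⟨b, hb⟩ := H19.exists_SB he
  obtain ⟨χ, h1, h2⟩ := H20.exists_height_zero p (H19.irr_nonempty β)
  obtain ⟨Φ, hΦ⟩ := H20.BP.exists_equiv hb
    (he.isNil_iff.1 ((H20.isNilpotentBlock_iff hO hM β).1 hnil)) h1 h2
  have key : ∀ ψ ∈ H19.irr β, ∃ d : ℕ, ∀ x : G,
      pRegularPart p (ψ : G → ℂ) x = (d : ℂ) * pRegularPart p (χ : G → ℂ) x := fun ψ hψ => by
    obtain ⟨l, hl⟩ := Φ.surjective ⟨ψ, hψ⟩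
    refine ⟨charDegree (l : D → ℂ), fun x => ?_⟩
    by_cases hx : p ∣ orderOf x
    · rw [H19.pr_of_sing _ hx, H19.pr_of_sing _ hx, mul_zero]
    · rw [H19.pr_of_reg _ hx, H19.pr_of_reg _ hx, H19.cast_deg, ← (hΦ l).2.2 x hx, hl]
  exact ⟨H20.blockRank_eq_one_of fun ψ hψ => let ⟨d, hd⟩ := key ψ hψ; ⟨d, funext hd⟩, χ, h1, key⟩

end Cfsg.Agent.S4689
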