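import Cfsg.Statements.S4690
import Cfsg.Agent.H20.BP
-- import your own Cfsg.Agent.* helpers here

set_option autoImplicit false
open Cfsg

namespace Cfsg.Agent.S4690

/-- Fix a prime p and a maximal ideal M of the algebraic integers containing p, and a nilpotent p-block B of the finite group G with defect group P. Then there is a bijection from B onto the irreducible characters of P carrying the height of each χ ∈ B to the exponent of p in the degree of its image. -/
theorem result {G : Type*} [Group G] [Fintype G] (p : ℕ) [Fact p.Prime] (M : Ideal Cfsg.AlgInt) (hM : Cfsg.IsPModular p M) (B : Set (Cfsg.IrrCharacter G)) (hnil : Cfsg.IsNilpotentBlock p M B) (P : Subgroup G) (hP : Cfsg.IsDefectGroup p M B P) : ∃ Φ : B ≃ Cfsg.IrrCharacter P, ∀ χ : B, Cfsg.blockHeight p B ((χ : Cfsg.IrrCharacter G) : G → ℂ) = (Cfsg.charDegree ((Φ χ : Cfsg.IrrCharacter P) : P → ℂ)).factorization p := by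
  obtain ⟨O, hO, _⟩ := H19.exists_over hM
  obtain ⟨β, rfl⟩ := hO.exists_blk hnil.1
  obtain ⟨e, he⟩ := H20.exists_max (H20.isBlk_eG β) ((H20.isDefectGroup_iff hO hM _ _).1 hP)
  obtain ⟨b, hb⟩ := H19.exists_SB he
  obtain ⟨χ, h1, h2⟩ := H20.exists_height_zero p (H19.irr_nonempty β)
  obtain ⟨Φ, hΦ⟩ := H20.BP.exists_equiv hb
    (he.isNil_iff.1 ((H20.isNilpotentBlock_iff hO hM β).1 hnil)) h1 h2
  refine ⟨Φ.symm, fun ψ => ?_⟩
  obtain ⟨l, rfl⟩ := Φ.surjective ψ
  rw [Φ.symm_apply_apply, H20.blockHeight_eq, H20.vd, (hΦ l).2.1,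
    Nat.factorization_mul (H19.deg_ne_zero l) (H19.deg_ne_zero χ), Finsupp.add_apply,
    ← (H20.height_eq_zero_iff h1).1 h2, Nat.add_sub_cancel]

end Cfsg.Agent.S4690
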