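import Cfsg.Statements.S4693
import Cfsg.Agent.H20.Nil
-- import your own Cfsg.Agent.* helpers here

set_option autoImplicit false
open Cfsg

namespace Cfsg.Agent.S4693

/-- Fix a prime p and a maximal ideal M of the algebraic integers containing p, a p-block B of the finite group G with maximal Brauer pair (P, e) and fusion system F on P, and a Brauer pair (Q, f) ≤ (P, e) with Q centric in F. Suppose every element of G normalizes Q and stabilizes f. Then the idempotent of B agrees with that of f modulo M at every element of G, and f is the idempotent of a nilpotent block of Q·C_G(Q): some p-block of Q·C_G(Q) has the idempotent coefficients of f and is nilpotent. -/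
theorem result {G : Type*} [Group G] [Fintype G] (p : ℕ) [Fact p.Prime] (M : Ideal Cfsg.AlgInt) (hM : Cfsg.IsPModular p M) (B : Set (Cfsg.IrrCharacter G)) (P : Subgroup G) (e : Set (Cfsg.IrrCharacter (Subgroup.centralizer (P : Set G)))) (hmax : Cfsg.IsMaximalBrauerPair p M B P e) (F : Cfsg.FusionSystem P) (hF : Cfsg.IsBlockFusionSystemOn p M B P e F) (Q : Subgroup G) (f : Set (Cfsg.IrrCharacter (Subgroup.centralizer (Q : Set G)))) (hQP : Q ≤ P) (hf : Cfsg.IsPBlock M f) (hle : Cfsg.SubpairLE p M Q f P e) (hcen : F.IsCentric Q) (hG : ∀ x : G, x ∈ Subgroup.normalizer (Q : Set G) ∧ Cfsg.StabilizesBlock (Subgroup.centralizer (Q : Set G)) f x) : (∀ g : G, Cfsg.MemLocalIdeal M (Cfsg.blockCoeff B g - Cfsg.subgroupBlockCoeff (Subgroup.centralizer (Q : Set G)) f g)) ∧ ∃ F' : Set (Cfsg.IrrCharacter ↥(Q ⊔ Subgroup.centralizer (Q : Set G))), Cfsg.IsPBlock M F' ∧ (∀ t : ↥(Q ⊔ Subgroup.centralizer (Q : Set G)), Cfsg.blockCoeff F' t = Cfsg.subgroupBlockCoeff (Subgroup.centralizer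 (Q : Set G)) f (t : G)) ∧ Cfsg.IsNilpotentBlock p M F' := by
  obtain ⟨O, hO, hc⟩ := H19.exists_over hM
  obtain ⟨β, ε, rfl, rfl, h, hF'⟩ := H20.exists_of_bfs hO hM hF
  obtain ⟨φ, rfl, hs⟩ := H20.exists_of_subpairLE hO hM ε hle
  have h1 := h.pairOf hs
  have h2 : (⊤ : Subgroup G) ⊓ H20.nrm Q ⊓ H20.stab (H20.eA _ φ) = ⊤ := by
    rw [top_inf_eq, eq_top_iff]
    exact fun x _ => (H20.nrm_stabilizes_iff φ x).1 (hG x)
  have h3 := h1.isBlk_stab
  rw [h2] at h3
  have h4 : H20.eG β = H20.eA _ φ := by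
    have h5 := h1.br
    rw [h.blk.br_eq_self_of_normal h1.pair.pg le_top fun x _ => (hG x).1] at h5
    exact h3.eq_of_mul_ne_zero' h.blk (by rw [h5]; exact h3.ne_zero)
  have h5 : ⊤ ≤ H20.nrm (H20.cent Q) := fun x _ => H20.nrm_le_nrm_cent Q (hG x).1
  refine ⟨fun g => ?_, ?_⟩
  · rw [(H20.blockCoeff_eq_iff_top h5).2 h4 g, sub_self]
    exact ⟨0, 1, M.zero_mem, fun h => hM.2.1.ne_top ((Ideal.eq_top_iff_one _).2 h), by simp⟩
  · have h6 := h1.pair.isNil_of_centric le_top ((hF'.centric_iff h hs).1 hcen)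
    rw [top_inf_eq] at h6
    obtain ⟨γ, h7, h8, h9⟩ := H20.exists_blk_coeff hO le_sup_right (le_top.trans h5) φ h6.blk
    exact ⟨_, h8, h9, (H20.isNilpotentBlock_iff_up hO hM γ).2 (by rwa [h7])⟩

end Cfsg.Agent.S4693
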