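import Cfsg.Statements.S4694
import Cfsg.Agent.H19.Ht5
import Cfsg.Agent.H20.Frat
-- import your own Cfsg.Agent.* helpers here

set_option autoImplicit false
open Cfsg

namespace Cfsg.Agent.S4694

open H17 H20


/-- Fix a prime p and a maximal ideal M of the algebraic integers containing p, a p-block B of the finite group G and a Brauer pair (Q, e) of B. Let T be the stabilizer of e in N_G(Q) and suppose that (Q, e) carries a weight: the block of T whose idempotent is that of e contains an irreducible character χ that is constant on the cosets of Q and whose degree has p-part equal to the p-part of the index of Q in T. Then Z(Q) is a defect group of e as a block of C_G(Q), and Q is the largest normal p-subgroup of T: every p-subgroup of T normalized by T lies in Q. -/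
theorem result {G : Type*} [Group G] [Fintype G] (p : ℕ) [Fact p.Prime] (M : Ideal Cfsg.AlgInt) (hM : Cfsg.IsPModular p M) (B : Set (Cfsg.IrrCharacter G)) (Q : Subgroup G) (e : Set (Cfsg.IrrCharacter (Subgroup.centralizer (Q : Set G)))) (hQe : Cfsg.IsBrauerPairOf p M B Q e) (T : Subgroup G) (hT : ∀ y : G, y ∈ T ↔ y ∈ Subgroup.normalizer (Q : Set G) ∧ Cfsg.StabilizesBlock (Subgroup.centralizer (Q : Set G)) e y) (F' : Set (Cfsg.IrrCharacter T)) (hF' : Cfsg.IsPBlock M F') (hF'e : ∀ t : T, Cfsg.blockCoeff F' t = Cfsg.subgroupBlockCoeff (Subgroup.centralizer (Q : Set G)) e (t : G)) (χ : Cfsg.IrrCharacter T) (hχ : χ ∈ F') (hχQ : ∀ q : G, q ∈ Q → ∀ t : T, ∀ t' : T, (t' : G) = q * (t : G) → (χ : T → ℂ) t' = (χ : T → ℂ) t) (hdeg : (Cfsg.charDegree (χ : T → ℂ)).factorization p + (Nat.card Q).factorization p = (Nat.card T).factorization p) : Cfsg.IsDefectGroup p M e ((Q ⊓ Subgroup.centralizer (Q : Set G)).subgroupOf (Subgroup.centralizer (Q : Set G))) ∧ ∀ R : Subgroup G, R ≤ T → IsPGroup p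 R → (∀ t ∈ T, t ∈ Subgroup.normalizer (R : Set G)) → R ≤ Q := by
  classical
  obtain ⟨O, hO, _⟩ := H19.exists_over hM
  obtain ⟨β, ε, rfl, rfl, h⟩ := exists_of_pairOf hO hM hQe
  obtain ⟨φ, rfl⟩ := hO.exists_blk hF'
  have hT' := eq_of_forall_nrm_stab ε hT
  have hC : cent Q ≤ T := fun g hg => hT' ▸ (h.pair.cent_le_stab ⟨trivial, hg⟩).imp (·.2) id
  have hQ : Q ≤ T := hT' ▸ le_inf (le_nrm_self Q) (mem_fixed_iff_le_stab.1 h.pair.fixed_self)
  have hN : T ≤ nrm Q := hT' ▸ inf_le_left
  have he := (blockCoeff_eq_iff hC (hN.trans (nrm_le_nrm_cent Q))).1 hF'e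
  have := normal_subgroupOf_of_le_nrm hN
  let π := QuotientGroup.mk' (Q.subgroupOf T)
  have hπ : Function.Surjective π := QuotientGroup.mk'_surjective _
  obtain ⟨ψ, rfl⟩ := H19.exists_infl π hπ (χ := χ) fun q hq =>
    mem_charKer_def.2 fun t => hχQ q ((QuotientGroup.eq_one_iff q).1 hq) t _ rfl
  have h1 : vd p ψ = (Nat.card (T ⧸ Q.subgroupOf T)).factorization p := by
    have := H19.fact_card_add_index (p := p) (Q.subgroupOf T)
    rw [Nat.card_congr (Subgroup.subgroupOfEquivOfLe hQ).toEquiv, Subgroup.index] at this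
    rw [H19.charDegree_infl] at hdeg
    unfold vd; omega
  have h2 := H19.isDef_bot_iff.2 (H19.defect_zero_of_vd (O := O) h1)
  refine ⟨?_, fun R hR hp hn r hr => ?_⟩
  · let g := π.comp (Subgroup.inclusion hC)
    have : g.range.Normal := by
      rw [MonoidHom.range_comp, Subgroup.inclusion_range]
      exact (normal_subgroupOf_of_le_nrm (hN.trans (nrm_le_nrm_cent Q))).map π hπ
    have := Fintype.ofFinite g.range
    have := Fintype.ofFinite (cent Q)
    obtain ⟨ξ, h3, h4⟩ := (ψ.2.isCharacter.restrict g.range).isClassFunction.exists_inner_ne_zero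
      fun e => H19.irr_one_ne_zero ψ (congrFun e 1)
    obtain ⟨D, hD⟩ := H19.exists_isDef p (H19.lam O ⟨ξ, h3⟩)
    obtain ⟨x, -, hx⟩ := ((isDef_iff _ _).1 h2).exists_conj_of_cover (top_le_nrm _) le_top
      (isBlk_eG _) (isBlk_eA _ _) (H19.cover_of_inner (θ := ⟨ξ, h3⟩) h4)
      (H19.isDef_map_iff_H20.1 hD)
    rw [bot_inf_eq, sc_le_iff, sc_bot, le_bot_iff, Subgroup.map_eq_bot_iff_of_injective _
      (Subgroup.subtype_injective _)] at hx
    have h5 := H19.vd_of_defect_zero (hD.eq_bot_iff.1 hx) rfl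
    let η := H19.infl g.rangeRestrict g.rangeRestrict_surjective ⟨ξ, h3⟩
    have h6 := (cover_iff_le hC φ (H19.lam O η)).1 ⟨_, hχ, η, rfl, by
      rwa [← classInner_comp_of_surjective g.rangeRestrict g.rangeRestrict_surjective] at h4⟩
    rw [he] at h6
    obtain rfl := eA_inj.1 ((isBlk_eA _ _).eq_of_mul_ne_zero' (isBlk_eA _ _) h6)
    have h7 : (Q ⊓ cent Q).subgroupOf (cent Q) = g.ker := by
      ext c
      simp [g, π, Subgroup.mem_subgroupOf]
    refine (isDefectGroup_iff hO hM _ _).2 ((isDef_iff _ _).1 (H19.central_defect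
      ((h.pair.pg.to_le inf_le_left).comap_subtype) (fun z hz => Subgroup.mem_center_iff.2
        fun c => Subtype.ext (c.2 z hz.1).symm) ?_).1)
    rw [vd_infl, h5, ← Subgroup.index_ker, ← h7]; rfl
  · have := normal_subgroupOf_of_le_nrm (N := R) hn
    have := this.map π hπ
    exact (QuotientGroup.eq_one_iff (⟨r, hR hr⟩ : T)).1
      (h2.normal_le (P := (R.subgroupOf T).map π) (hp.comap_subtype.map π) ⟨_, hr, rfl⟩)

end Cfsg.Agent.S4694
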