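import Cfsg.Statements.S4697
import Cfsg.Agent.H20.Kb
-- import your own Cfsg.Agent.* helpers here

set_option autoImplicit false
open Cfsg

namespace Cfsg.Agent.S4697

/-- Let p be a prime, M a maximal ideal of the algebraic integers containing p, and B a p-block of the finite group G with an abelian defect group D of order p^d. If D has rank 2 (its least number of generators is 2) then B contains at most p^d irreducible characters; if D has rank 3 then the number k of irreducible characters in B satisfies k^3 ≤ p^(5d). -/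
theorem result {G : Type*} [Group G] [Finite G] (p : ℕ) [Fact p.Prime] (M : Ideal Cfsg.AlgInt) (hM : Cfsg.IsPModular p M) (B : Set (Cfsg.IrrCharacter G)) (hB : Cfsg.IsPBlock M B) (D : Subgroup G) (hBD : Cfsg.IsDefectGroup p M B D) (hab : IsMulCommutative D) (d : ℕ) (hDd : Nat.card D = p ^ d) : (Group.rank D = 2 → Nat.card B ≤ p ^ d) ∧ (Group.rank D = 3 → Nat.card B ^ 3 ≤ p ^ (5 * d)) := by
  obtain ⟨O, hO, _⟩ := H19.exists_over hM
  obtain ⟨β, rfl⟩ := hO.exists_blk hB
  have hD := (H20.isDefectGroup_iff hO hM _ _).1 hBD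
  have hc : ∀ x ∈ D, ∀ y ∈ D, Commute x y := fun x hx y hy =>
    congrArg Subtype.val (hab.is_comm.comm ⟨x, hx⟩ ⟨y, hy⟩)
  classical
  constructor <;> intro h <;> obtain ⟨S, h1, h2⟩ := H20.exists_closure_of_rank h
  · obtain ⟨u, v, -, rfl⟩ := Finset.card_eq_two.1 h1
    rw [Finset.coe_pair] at h2
    exact hDd ▸ H20.card_irr_le_of_two hD h2 (hc _ (h2 ▸ Subgroup.subset_closure (by simp)) _
      (h2 ▸ Subgroup.subset_closure (by simp)))
  · obtain ⟨u, v, w, -, -, -, rfl⟩ := Finset.card_eq_three.1 h1
    rw [Finset.coe_insert, Finset.coe_pair] at h2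
    have hu : u ∈ D := h2 ▸ Subgroup.subset_closure (by simp)
    have hv : v ∈ D := h2 ▸ Subgroup.subset_closure (by simp)
    have hw : w ∈ D := h2 ▸ Subgroup.subset_closure (by simp)
    rw [mul_comm, pow_mul, ← hDd]
    exact H20.card_irr_le_of_three hD h2 (hc _ hu _ hv) (hc _ hu _ hw) (hc _ hv _ hw)

end Cfsg.Agent.S4697
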