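import Cfsg.Statements.S4710
import Cfsg.Agent.H20.Ht2
-- import your own Cfsg.Agent.* helpers here

set_option autoImplicit false
open Cfsg

namespace Cfsg.Agent.S4710

/-- Let p be a prime, M a maximal ideal of the algebraic integers containing p, and B a p-block of defect d of the finite group G containing k irreducible characters. If B contains a character of positive height then 2k ≤ p^(2d − 2); and every character in B has height 0 when d ≤ 1 and height at most d − 2 when d ≥ 2. -/
theorem result {G : Type*} [Group G] [Finite G] (p : ℕ) [Fact p.Prime] (M : Ideal Cfsg.AlgInt) (hM : Cfsg.IsPModular p M) (B : Set (Cfsg.IrrCharacter G)) (hB : Cfsg.IsPBlock M B) (d : ℕ) (hd : Cfsg.blockDefect p B = d) : ((∃ χ ∈ B, 0 < Cfsg.blockHeight p B (χ : G → ℂ)) → 2 * Nat.card B ≤ p ^ (2 * d - 2)) ∧ ∀ χ ∈ B, (d ≤ 1 → Cfsg.blockHeight p B (χ : G → ℂ) = 0) ∧ (2 ≤ d → Cfsg.blockHeight p B (χ : G → ℂ) ≤ d - 2) := by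
  classical
  obtain ⟨O, hO, _⟩ := H19.exists_over hM
  obtain ⟨β, rfl⟩ := hO.exists_blk hB
  subst hd
  constructor
  · rintro ⟨χ, hχ, h0⟩
    obtain ⟨h1, h2⟩ := H20.height_zero_bound p hχ h0.ne'
    have h3 := H20.brauer_feit p β
    rw [← Finset.sum_filter_add_sum_filter_not _ fun ψ : IrrCharacter G =>
      blockHeight p (H19.irr β) ψ = 0, Finset.filter_filter] at h3
    rw [H20.card_eq_filter, ← Finset.card_filter_add_card_filter_not fun ψ : IrrCharacter G =>
      blockHeight p (H19.irr β) ψ = 0, Finset.filter_filter]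
    have h4 : 1 ≤ ∑ ψ with ψ ∈ H19.irr β ∧ blockHeight p (H19.irr β) ψ = 0,
        p ^ (2 * blockHeight p (H19.irr β) ψ) := by
      obtain ⟨ψ, h5, h6⟩ := H20.exists_height_zero p (H19.irr_nonempty β)
      exact (Nat.one_le_pow _ _ hM.1.pos).trans (Finset.single_le_sum (f := fun ψ : IrrCharacter G =>
        p ^ (2 * blockHeight p (H19.irr β) ψ)) (fun _ _ => Nat.zero_le _)
        (Finset.mem_filter.2 ⟨Finset.mem_univ ψ, h5, h6⟩))
    have h5 := Finset.card_nsmul_le_sum ((Finset.univ.filter (· ∈ H19.irr β)).filter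
      fun ψ : IrrCharacter G => ¬ blockHeight p (H19.irr β) ψ = 0)
      (fun ψ : IrrCharacter G => p ^ (2 * blockHeight p (H19.irr β) ψ)) (p ^ 2) fun ψ hψ =>
        Nat.pow_le_pow_right hM.1.pos (by have := (Finset.mem_filter.1 hψ).2; omega)
    have h6 : p ^ 2 ≤ p ^ (2 * blockHeight p (H19.irr β) χ) :=
      Nat.pow_le_pow_right hM.1.pos (by omega)
    have h7 : p ^ (2 * blockDefect p (H19.irr β)) =
        p ^ (2 * blockDefect p (H19.irr β) - 2) * p ^ 2 := by
      rw [← pow_add]; congr 1; omega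
    rw [smul_eq_mul] at h5
    have h8 := Nat.mul_le_mul_left (Finset.univ.filter fun ψ : IrrCharacter G =>
      ψ ∈ H19.irr β ∧ blockHeight p (H19.irr β) ψ = 0).card h6
    refine Nat.le_of_mul_le_mul_right ?_ (pow_pos hM.1.pos 2)
    nlinarith
  · intro χ hχ
    by_cases h0 : blockHeight p (H19.irr β) χ = 0
    · exact ⟨fun _ => h0, fun _ => by omega⟩
    · have := (H20.height_zero_bound p hχ h0).1
      omega

end Cfsg.Agent.S4710
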