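import Cfsg.Statements.S4716
import Cfsg.Agent.H20.Sec
-- import your own Cfsg.Agent.* helpers here

set_option autoImplicit false
open Cfsg

namespace Cfsg.Agent.S4716

open H17


/-- Let p be a prime, M a maximal ideal of the algebraic integers containing p, and B a p-block of defect d of the finite group G all of whose irreducible characters have height zero. Let y be a p-element, C = C_G(y), and b a block of C inducing B and having the same defect d (a major subsection). Then k(B)^2 ≤ p^(2d)·l(b), where k(B) is the number of irreducible characters in B and l(b) the p-regular rank of b (its number of irreducible Brauer characters); in particular (y = 1) k(B)^2 ≤ p^(2d)·l(B). -/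
theorem result {G : Type*} [Group G] [Finite G] (p : ℕ) [Fact p.Prime] (M : Ideal Cfsg.AlgInt) (hM : Cfsg.IsPModular p M) (B : Set (Cfsg.IrrCharacter G)) (hB : Cfsg.IsPBlock M B) (d : ℕ) (hd : Cfsg.blockDefect p B = d) (hh : ∀ χ ∈ B, Cfsg.blockHeight p B (χ : G → ℂ) = 0) (y : G) (hy : ∃ k : ℕ, orderOf y = p ^ k) (b : Set (Cfsg.IrrCharacter ↥(Subgroup.centralizer ({y} : Set G)))) (hind : Cfsg.IsInducedBlock M (Subgroup.centralizer ({y} : Set G)) b B) (hbd : Cfsg.blockDefect p b = d) : Nat.card B ^ 2 ≤ p ^ (2 * d) * Cfsg.blockRank p b := by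
  classical
  obtain ⟨O, hO, _⟩ := H19.exists_over hM
  obtain ⟨γ, β, rfl, rfl, hi⟩ := hO.exists_of_isInducedBlock hind
  have h1 := H20.sum_le_of_cm ((Finset.univ.filter (· ∈ H19.irr β)) ×ˢ
      (Finset.univ.filter (· ∈ H19.irr β)))
    (fun i => (p : ℂ) ^ blockDefect p (H19.irr γ) * H20.ctr p y γ i.1 i.2)
    (fun i _ => H20.isIntegral_ctr le_rfl γ (H19.irr_mem_GC _) (H19.irr_mem_GC _))
    (fun i hi' h0 => by
      obtain ⟨h2, h3⟩ := Finset.mem_product.1 hi'
      have h4 := (H20.val_ctr_iff le_rfl hy hi (Finset.mem_filter.1 h2).2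
        (Finset.mem_filter.1 h3).2).2 ⟨hh _ (Finset.mem_filter.1 h2).2, hh _ (Finset.mem_filter.1 h3).2⟩
      rw [h0, map_zero] at h4
      exact zero_ne_one h4) (fun _ => 1) (fun _ _ => zero_le_one)
    (N := ((p ^ (2 * d) * blockRank p (H19.irr γ) : ℕ) : ℝ)) (fun σ => by
      apply le_of_eq
      apply Complex.ofReal_injective
      push_cast
      simp only [one_mul, ← Complex.ofReal_pow]
      rw [Finset.sum_congr rfl fun i _ => H20.norm_sq_of_CM (mul_mem (pow_mem (natCast_mem _ p) _)
        (H20.ctr_mem_CM γ i.1.2.isGen i.2.2.isGen)) σ, ← map_sum, Finset.sum_product]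
      have h2 : ∀ χ ψ : IrrCharacter G, (p : ℂ) ^ blockDefect p (H19.irr γ) * H20.ctr p y γ χ ψ *
          (starRingEnd ℂ) ((p : ℂ) ^ blockDefect p (H19.irr γ) * H20.ctr p y γ χ ψ) =
          (p : ℂ) ^ (2 * d) * (H20.ctr p y γ χ ψ * H20.ctr p y γ ψ χ) := fun χ ψ => by
        rw [map_mul, H20.conj_ctr le_rfl γ χ.2.isGen ψ.2.isGen, map_pow, map_natCast, hbd]; ring
      simp only [h2, ← Finset.mul_sum, H20.sum_ctr_mul rfl hy hi (H19.irr_class _)]
      rw [H20.sum_ctr_self rfl hy hi]
      simp)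
  rw [Finset.sum_const, Finset.card_product, ← H20.card_eq_filter, nsmul_eq_mul, mul_one] at h1
  rw [sq]
  exact_mod_cast h1

end Cfsg.Agent.S4716
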