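import Cfsg.Statements.S4698
import Cfsg.Agent.H20.Kb
import Cfsg.Agent.S4716
import Cfsg.Agent.S4710
-- import your own Cfsg.Agent.* helpers here

set_option autoImplicit false
open Cfsg

namespace Cfsg.Agent.S4698

theorem aux.{u} (p : ℕ) [hp : Fact p.Prime] {M : Ideal AlgInt} (hM : IsPModular p M)
    {O : ValuationSubring ℂ} (hO : H19.Over O M) [CharP (H19.kk O) p] (d : ℕ) :
    ∀ {G : Type u} [Group G] [Finite G] (β : H19.Blk O G), blockDefect p (H19.irr β) = d + 3 →
      Nat.card (H19.irr β) ≤ p ^ (2 * d + 4) := by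
  induction d using Nat.strong_induction_on with
  | _ d ih =>
  intro G _ _ β hd
  by_cases hh : ∃ χ ∈ H19.irr β, 0 < blockHeight p (H19.irr β) χ
  · have := (S4710.result p M hM _ (hO.isPBlock_irr β) _ hd).1 hh
    rw [show 2 * (d + 3) - 2 = 2 * d + 4 by omega] at this
    omega
  have := Fintype.ofFinite G
  obtain ⟨D, hD⟩ := H20.exists_isDef p ⊤ (H20.isBlk_eG β).ne_zero
  obtain ⟨u, hu, h1, h2⟩ := H19.exists_center_of_ne_bot hD.pg fun e => by
    have := hD.eq_bot_iff.1 e; omega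
  obtain ⟨b, Q, _, _, f, hf, c, h4, h5, rfl, -, -, h7, h8, h9, h10⟩ := H20.exists_red hD hu
    fun w hw => Subgroup.mem_centralizer_singleton_iff.2 (h2 w hw).symm
  have h11 := S4716.result p M hM _ (hO.isPBlock_irr β) _ hd
    (fun χ hχ => by_contra fun h => hh ⟨χ, hχ, Nat.pos_of_ne_zero h⟩) u ⟨1, by rw [h1, pow_one]⟩ _
    ((hO.isInducedBlock_iff _ _ _).2 h4) (h5.trans hd)
  rw [h1, h9.card_eq_pow, hD.card_eq_pow, hd, ← pow_succ', Nat.pow_right_inj hp.out.one_lt] at h10
  have h12 : Nat.card (H19.irr c) ≤ p ^ (2 * d + 2) := by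
    rcases d with _ | d
    · exact (H20.card_irr_le_of_defect (by omega)).trans (Nat.pow_le_pow_right hp.out.pos (by omega))
    · exact ih d (by omega) c (by omega)
  rw [H20.blockRank_dom h7 h8] at h11
  refine (Nat.pow_le_pow_iff_left two_ne_zero).1 (h11.trans ?_)
  calc _ ≤ p ^ (2 * (d + 3)) * p ^ (2 * d + 2) := by gcongr; exact (H19.rank_le_card p c).trans h12
    _ = _ := by ring


/-- Let p be a prime, M a maximal ideal of the algebraic integers containing p, and B a p-block of defect d of the finite group G, containing k irreducible characters. Then k ≤ p^d when d ≤ 2, and k ≤ p^(2d − 2) when d ≥ 3. -/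
theorem result {G : Type*} [Group G] [Finite G] (p : ℕ) [Fact p.Prime] (M : Ideal Cfsg.AlgInt) (hM : Cfsg.IsPModular p M) (B : Set (Cfsg.IrrCharacter G)) (hB : Cfsg.IsPBlock M B) (d : ℕ) (hd : Cfsg.blockDefect p B = d) : (d ≤ 2 → Nat.card B ≤ p ^ d) ∧ (3 ≤ d → Nat.card B ≤ p ^ (2 * d - 2)) := by
  obtain ⟨O, hO, _⟩ := H19.exists_over hM
  obtain ⟨β, rfl⟩ := hO.exists_blk hB
  refine ⟨fun h => hd ▸ H20.card_irr_le_of_defect (hd ▸ h), fun h => ?_⟩
  obtain ⟨d, rfl⟩ := Nat.exists_eq_add_of_le' h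
  rw [show 2 * (d + 3) - 2 = 2 * d + 4 by omega]
  exact aux p hM hO d β hd

end Cfsg.Agent.S4698
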