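import Cfsg.Statements.S4699
import Mathlib
-- import your own Cfsg.Agent.* helpers here

set_option autoImplicit false
open Cfsg

namespace Cfsg.Agent.S4699

open Finset Polynomial

theorem geom_eq {F A : Type*} [Field F] [Ring A] [Algebra F A] (p : ℕ) [Fact p.Prime] [CharP F p]
    (n : ℕ) (T : A) : ∑ i ∈ range (p ^ n), T ^ i = (T - 1) ^ (p ^ n - 1) := by
  have hq : 0 < p ^ n := pow_pos (Fact.out : p.Prime).pos n
  have h : ∑ i ∈ range (p ^ n), (X : F[X]) ^ i = (X - 1) ^ (p ^ n - 1) := by
    have h0 : (X - 1 : F[X]) ≠ 0 := by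
      have := X_sub_C_ne_zero (1 : F)
      simpa using this
    apply mul_right_cancel₀ h0
    rw [geom_sum_mul, ← pow_succ, Nat.sub_add_cancel hq, sub_pow_char_pow, one_pow]
  have := congrArg (aeval T) h
  simpa [map_sum] using this

theorem tr_mem {F A : Type*} [Field F] [Ring A] [Algebra F A] (p : ℕ) [Fact p.Prime] [CharP F p]
    (n m : ℕ) (Y u : A) (h1 : Y * (1 + u) = 1) (hc : u * Y = Y * u) (hu : u ^ m = 0) (ψ : A) :
    ∃ S : A, ∑ i ∈ range (p ^ n), (1 + u) ^ i * ψ * Y ^ i = u ^ (p ^ n - m) * S := by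
  set T : Module.End F A := LinearMap.mulLeft F (1 + u) * LinearMap.mulRight F Y with hT
  have hTa : ∀ a, T a = (1 + u) * a * Y := fun a => by simp [hT, mul_assoc]
  have hTi : ∀ i a, (T ^ i) a = (1 + u) ^ i * a * Y ^ i := by
    intro i
    induction i with
    | zero => simp
    | succ i ih =>
      intro a
      rw [pow_succ', Module.End.mul_apply, ih, hTa, pow_succ', pow_succ]
      simp only [mul_assoc]
  have key : ∀ j, ((T - 1) ^ j) ψ ∈
      Submodule.span F {z : A | ∃ a b S, a + b = j ∧ z = u ^ a * S * u ^ b} := by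
    intro j
    induction j with
    | zero => exact Submodule.subset_span ⟨0, 0, ψ, rfl, by simp⟩
    | succ j ih =>
      rw [pow_succ', Module.End.mul_apply]
      refine Submodule.span_induction (p := fun z _ => (T - 1) z ∈
        Submodule.span F {z : A | ∃ a b S, a + b = j + 1 ∧ z = u ^ a * S * u ^ b}) ?_ ?_ ?_ ?_ ih
      · rintro z ⟨a, b, S, hab, rfl⟩
        have hcb : u ^ b * Y = Y * u ^ b := (Commute.pow_left hc b)
        have : (T - 1) (u ^ a * S * u ^ b) =
            u ^ (a + 1) * (S * Y) * u ^ b - u ^ a * (S * Y) * u ^ (b + 1) := by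
          rw [LinearMap.sub_apply, hTa, Module.End.one_apply]
          have e1 : u ^ a * S * u ^ b = u ^ a * S * (Y * (1 + u)) * u ^ b := by rw [h1, mul_one]
          have e2 : (1 + u) * (u ^ a * S * u ^ b) * Y = (1 + u) * (u ^ a * S * Y * u ^ b) := by
            simp only [mul_assoc, hcb]
          rw [e2]
          conv_lhs => rw [e1]
          rw [pow_succ' u a, pow_succ' u b]
          noncomm_ring
        rw [this]
        exact Submodule.sub_mem _ (Submodule.subset_span ⟨a + 1, b, _, by omega, rfl⟩)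
          (Submodule.subset_span ⟨a, b + 1, _, by omega, rfl⟩)
      · simp
      · intro x y _ _ hx hy
        rw [map_add]
        exact Submodule.add_mem _ hx hy
      · intro c x _ hx
        rw [map_smul]
        exact Submodule.smul_mem _ _ hx
  have h2 : ∑ i ∈ range (p ^ n), (1 + u) ^ i * ψ * Y ^ i = ((T - 1) ^ (p ^ n - 1)) ψ := by
    rw [← geom_eq (F := F) p n T, LinearMap.sum_apply]
    exact sum_congr rfl fun i _ => (hTi i ψ).symm
  rw [h2]
  have hle : Submodule.span F {z : A | ∃ a b S, a + b = p ^ n - 1 ∧ z = u ^ a * S * u ^ b} ≤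
      LinearMap.range (LinearMap.mulLeft F (u ^ (p ^ n - m))) := by
    rw [Submodule.span_le]
    rintro z ⟨a, b, S, hab, rfl⟩
    by_cases hb : m ≤ b
    · have : u ^ b = 0 := pow_eq_zero_of_le hb hu
      rw [this, mul_zero]
      exact Submodule.zero_mem _
    · refine ⟨u ^ (a - (p ^ n - m)) * S * u ^ b, ?_⟩
      rw [LinearMap.mulLeft_apply, ← mul_assoc, ← mul_assoc, ← pow_add]
      congr 3
      omega
  obtain ⟨S, hS⟩ := hle (key (p ^ n - 1))
  exact ⟨S, hS.symm⟩

theorem sum_free {H α M : Type*} [Group H] [Fintype H] [MulAction H α] [AddCommMonoid M]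
    (f : α → M) (I : AddSubmonoid M) (S : Finset α) (hS : ∀ h : H, ∀ y ∈ S, h • y ∈ S)
    (hfree : ∀ h : H, ∀ y ∈ S, h • y = y → h = 1) (hI : ∀ y ∈ S, ∑ h : H, f (h • y) ∈ I) :
    ∑ y ∈ S, f y ∈ I := by
  classical
  induction S using Finset.strongInduction with
  | H S ih =>
    rcases S.eq_empty_or_nonempty with rfl | ⟨y, hy⟩
    · simp
    set O : Finset α := univ.image (fun h : H => h • y) with hO
    have hOS : O ⊆ S := by
      intro z hz
      obtain ⟨h, -, rfl⟩ := mem_image.1 hz
      exact hS h y hy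
    have hyO : y ∈ O := mem_image.2 ⟨1, mem_univ _, one_smul _ _⟩
    rw [← sum_sdiff hOS]
    refine I.add_mem (ih (S \ O) ?_ ?_ ?_ ?_) ?_
    · exact sdiff_ssubset hOS ⟨y, hyO⟩
    · intro h z hz
      rw [mem_sdiff] at hz ⊢
      refine ⟨hS h z hz.1, fun hh => hz.2 ?_⟩
      obtain ⟨k, -, hk⟩ := mem_image.1 hh
      exact mem_image.2 ⟨h⁻¹ * k, mem_univ _, by rw [mul_smul, hk, inv_smul_smul]⟩
    · exact fun h z hz => hfree h z (mem_sdiff.1 hz).1
    · exact fun z hz => hI z (mem_sdiff.1 hz).1
    · rw [hO, sum_image]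
      · exact hI y hy
      · intro h _ k _ hhk
        have : (k⁻¹ * h) • y = y := by
          rw [mul_smul]
          simp only at hhk
          rw [hhk, inv_smul_smul]
        have := hfree _ y hy this
        rw [inv_mul_eq_one] at this
        exact this.symm

theorem pow_form {F A : Type*} [Field F] [Ring A] [Algebra F A] (p : ℕ) [Fact p.Prime] [CharP F p]
    (u : A) (a : ℕ) (ha : ¬ p ∣ a) :
    ∃ S : A, ((1 + u) ^ a - 1) ^ (p - 1) = u ^ (p - 1) + u ^ p * S := by
  have hp : p.Prime := Fact.out
  set g : F[X] := ∑ i ∈ range a, (1 + X) ^ i with hg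
  have h1 : (1 + X : F[X]) ^ a - 1 = X * g := by
    rw [← mul_geom_sum, hg]
    ring
  have h2 : (X : F[X]) ∣ g ^ (p - 1) - 1 := by
    rw [X_dvd_iff, coeff_zero_eq_eval_zero]
    have : g.eval 0 = (a : F) := by simp [hg, eval_finset_sum]
    rw [eval_sub, eval_pow, this, eval_one, sub_eq_zero]
    have h3 : a ^ (p - 1) ≡ 1 [MOD p] := by
      have := Nat.ModEq.pow_totient (n := p) (x := a)
        ((Nat.coprime_comm.1 ((Nat.Prime.coprime_iff_not_dvd hp).2 ha)))
      rwa [Nat.totient_prime hp] at this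
    have := (CharP.natCast_eq_natCast F p).2 h3
    simpa using this
  obtain ⟨w, hw⟩ := h2
  refine ⟨aeval u w, ?_⟩
  have h4 : ((1 + X : F[X]) ^ a - 1) ^ (p - 1) = X ^ (p - 1) + X ^ p * w := by
    rw [h1, mul_pow, sub_eq_iff_eq_add.1 hw]
    have : (X : F[X]) ^ p = X ^ (p - 1) * X := by rw [← pow_succ, Nat.sub_add_cancel hp.pos]
    rw [this]
    ring
  have := congrArg (aeval u) h4
  simpa using this


/-- Let p be a prime and G a finite group whose Sylow p-subgroup P is cyclic of order p^n with n ≥ 2 and meets every other Sylow p-subgroup trivially. Then every faithful irreducible representation of G on a finite-dimensional space over a finite field of characteristic p has dimension at least p^n − (p − 1). -/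
theorem result {G : Type*} [Group G] [Finite G] (p : ℕ) [Fact p.Prime] (P : Sylow p G) (hcyc : IsCyclic P) (n : ℕ) (hn : 2 ≤ n) (hPn : Nat.card P = p ^ n) (hTI : ∀ Q : Sylow p G, Q ≠ P → (P : Subgroup G) ⊓ (Q : Subgroup G) = ⊥) (F : Type*) [Field F] [Finite F] [CharP F p] (V : Type*) [AddCommGroup V] [Module F V] [FiniteDimensional F V] (ρ : Representation F G V) (hfaith : Function.Injective ρ) (hirr : ρ.IsIrreducible) : p ^ n - (p - 1) ≤ Module.finrank F V := by
  classical
  have hp : p.Prime := Fact.out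
  by_contra hlt
  push Not at hlt
  haveI := Fintype.ofFinite G
  obtain ⟨x, hx⟩ := hcyc.exists_generator
  have hox : orderOf x = p ^ n := by rw [orderOf_eq_card_of_forall_mem_zpowers hx, hPn]
  have hox' : orderOf (x : G) = p ^ n := by rw [Subgroup.orderOf_coe, hox]
  have hV : Nontrivial V := by
    by_contra h
    rw [not_nontrivial_iff_subsingleton] at h
    have : (⊥ : Subrepresentation ρ) = ⊤ := by
      apply Subrepresentation.toSubmodule_injective
      exact Subsingleton.elim _ _
    exact bot_ne_top this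
  haveI : CharP (Module.End F V) p := charP_of_injective_algebraMap (algebraMap F (Module.End F V)).injective p
  set u : Module.End F V := ρ x - 1 with hu
  have hX : ρ x = 1 + u := by rw [hu]; abel
  have hun : u ^ (p ^ n) = 0 := by
    rw [hu, sub_pow_char_pow_of_commute _ _ (Commute.one_right _), ← map_pow, ← hox',
      pow_orderOf_eq_one, map_one, one_pow, sub_self]
  set m := Module.finrank F V with hm
  have hum : u ^ m = 0 := by
    have h1 : IsNilpotent u := ⟨_, hun⟩
    have h2 := (LinearMap.isNilpotent_iff_charpoly u).1 h1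
    have h3 := LinearMap.aeval_self_charpoly u
    rw [h2] at h3
    simpa using h3
  have hup : u ^ p ≠ 0 := by
    intro h
    rw [hu, sub_pow_char_of_commute _ (Commute.one_right _), ← map_pow, one_pow, sub_eq_zero,
      ← map_one ρ] at h
    have h1 := orderOf_dvd_of_pow_eq_one (hfaith h)
    rw [hox'] at h1
    have h2 := Nat.le_of_dvd hp.pos h1
    have h3 : p ^ 1 < p ^ n := Nat.pow_lt_pow_right hp.one_lt (by omega)
    rw [pow_one] at h3
    omega
  have hcomm : ∀ t ∈ (P : Subgroup G), t * x * t⁻¹ = x := by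
    intro t ht
    obtain ⟨k, hk⟩ := hx ⟨t, ht⟩
    have : t = (x : G) ^ k := by
      have := congrArg Subtype.val hk
      simpa using this.symm
    rw [this]
    group
  let Y : G ⧸ (P : Subgroup G) → G := Quotient.lift (fun g => g * x * g⁻¹) (by
    intro a b hab
    have h1 : a⁻¹ * b ∈ (P : Subgroup G) := QuotientGroup.leftRel_apply.1 hab
    have h2 := hcomm _ h1
    calc a * x * a⁻¹ = a * ((a⁻¹ * b) * x * (a⁻¹ * b)⁻¹) * a⁻¹ := by rw [h2]
      _ = b * x * b⁻¹ := by group)
  have hY : ∀ g : G, Y (g : G ⧸ (P : Subgroup G)) = g * x * g⁻¹ := fun g => rfl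
  have hYs : ∀ (g : G) (c : G ⧸ (P : Subgroup G)), Y (g • c) = g * Y c * g⁻¹ := by
    intro g c
    induction c using QuotientGroup.induction_on with
    | H a =>
      rw [MulAction.Quotient.smul_mk, hY, hY, smul_eq_mul]
      group
  let f : G ⧸ (P : Subgroup G) → Module.End F V := fun c => (ρ (Y c) - 1) ^ (p - 1)
  have hfs : ∀ (g : G) (c : G ⧸ (P : Subgroup G)), f (g • c) = ρ g * f c * ρ g⁻¹ := by
    intro g c
    have h1 : ρ g * ρ g⁻¹ = 1 := by rw [← map_mul, mul_inv_cancel, map_one]
    have h2 : ρ g⁻¹ * ρ g = 1 := by rw [← map_mul, inv_mul_cancel, map_one]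
    have h3 : ρ (Y (g • c)) - 1 = ρ g * (ρ (Y c) - 1) * ρ g⁻¹ := by
      rw [hYs, map_mul, map_mul, mul_sub, sub_mul, mul_one, h1]
    have h4 : ∀ (k : ℕ) (z : Module.End F V), (ρ g * z * ρ g⁻¹) ^ k = ρ g * z ^ k * ρ g⁻¹ := by
      intro k z
      induction k with
      | zero => simp [h1]
      | succ k ih =>
        rw [pow_succ, ih, pow_succ]
        calc ρ g * z ^ k * ρ g⁻¹ * (ρ g * z * ρ g⁻¹) = ρ g * z ^ k * (ρ g⁻¹ * ρ g) * z * ρ g⁻¹ := by
              simp only [mul_assoc]
          _ = _ := by rw [h2, mul_one]; simp only [mul_assoc]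
    simp only [f]
    rw [h3, h4]
  set φ : Module.End F V := ∑ c, f c with hφ
  have hφg : ∀ g : G, ρ g * φ = φ * ρ g := by
    intro g
    have h2 : ρ g⁻¹ * ρ g = 1 := by rw [← map_mul, inv_mul_cancel, map_one]
    have h5 : φ = ρ g * φ * ρ g⁻¹ := by
      rw [hφ, mul_sum, sum_mul]
      simp_rw [← hfs]
      exact (Equiv.sum_comp (MulAction.toPerm g) f).symm
    conv_rhs => rw [h5]
    rw [mul_assoc, h2, mul_one]
  have hsm : ∀ (h : (P : Subgroup G)) (c : G ⧸ (P : Subgroup G)), h • c = (h : G) • c := by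
    intro h c
    induction c using QuotientGroup.induction_on with
    | H a => rfl
  set S1 := univ.filter (fun c => Y c ∈ (P : Subgroup G)) with hS1
  set S2 := univ.filter (fun c => ¬ Y c ∈ (P : Subgroup G)) with hS2
  have hS : ∀ h : (P : Subgroup G), ∀ y ∈ S2, h • y ∈ S2 := by
    intro h y hy
    rw [hS2, mem_filter] at hy ⊢
    refine ⟨mem_univ _, fun hh => hy.2 ?_⟩
    rw [hsm, hYs] at hh
    have := (P : Subgroup G).mul_mem ((P : Subgroup G).mul_mem ((P : Subgroup G).inv_mem h.2) hh) h.2
    simpa [mul_assoc] using this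
  have hfree : ∀ h : (P : Subgroup G), ∀ y ∈ S2, h • y = y → h = 1 := by
    intro h y hy hh
    rw [hS2, mem_filter] at hy
    induction y using QuotientGroup.induction_on with
    | H a =>
      rw [hsm, MulAction.Quotient.smul_mk, QuotientGroup.eq, smul_eq_mul] at hh
      have hmem : ∀ z : G, a⁻¹ * z * a ∈ (P : Subgroup G) → z ∈ ((a • P : Sylow p G) : Subgroup G) := by
        intro z hz
        rw [Sylow.coe_subgroup_smul, Subgroup.mem_pointwise_smul_iff_inv_smul_mem]
        simpa using hz
      have hne : a • P ≠ P := by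
        intro he
        apply hy.2
        rw [hY]
        have := hmem (a * x * a⁻¹) (by simpa [mul_assoc] using x.2)
        rwa [he] at this
      have h1 : (h : G) ∈ (P : Subgroup G) ⊓ ((a • P : Sylow p G) : Subgroup G) := by
        refine ⟨h.2, hmem _ ?_⟩
        have := (P : Subgroup G).inv_mem hh
        simpa [mul_assoc] using this
      rw [hTI _ hne, Subgroup.mem_bot] at h1
      exact Subtype.ext h1
  have hcard2 : (S2.card : F) = 0 := by
    have := sum_free (H := (P : Subgroup G)) (fun _ => (1 : F)) ⊥ S2 hS hfree (by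
      intro y _
      rw [sum_const, card_univ, ← Nat.card_eq_fintype_card, hPn, AddSubmonoid.mem_bot, nsmul_eq_mul,
        mul_one, Nat.cast_pow, CharP.cast_eq_zero F p, zero_pow (by omega)])
    simpa using this
  have hcard1 : (S1.card : F) ≠ 0 := by
    intro h
    have h1 : S1.card + S2.card = (P : Subgroup G).index := by
      rw [hS1, hS2, card_filter_add_card_filter_not, card_univ, Subgroup.index,
        Nat.card_eq_fintype_card]
    have h2 : (((P : Subgroup G).index : ℕ) : F) = 0 := by
      rw [← h1, Nat.cast_add, h, hcard2, add_zero]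
    rw [CharP.cast_eq_zero_iff F p] at h2
    exact P.not_dvd_index h2
  have hk : p ≤ p ^ n - m := by omega
  obtain ⟨W2, hW2⟩ : ∃ W : Module.End F V, u ^ p * W = ∑ c ∈ S2, f c := by
    have := sum_free (H := (P : Subgroup G)) f
      (LinearMap.range (LinearMap.mulLeft F (u ^ p))).toAddSubmonoid S2 hS hfree (by
      intro y _
      have e1 : ∑ h : (P : Subgroup G), f (h • y) =
          ∑ i ∈ range (p ^ n), (1 + u) ^ i * f y * (ρ (x : G)⁻¹) ^ i := by
        rw [← IsCyclic.image_range_card hx, sum_image, hPn]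
        · refine sum_congr rfl fun i _ => ?_
          rw [hsm, hfs, ← hX, ← map_pow, ← map_pow, inv_pow, Subgroup.coe_pow]
        · intro i hi j hj hij
          rw [hPn, ← hox] at hi hj
          exact pow_injOn_Iio_orderOf (by simpa using hi) (by simpa using hj) hij
      obtain ⟨S, hS⟩ := tr_mem (F := F) p n m (ρ (x : G)⁻¹) u
        (by rw [← hX, ← map_mul, inv_mul_cancel, map_one])
        (by rw [hu, sub_mul, mul_sub, ← map_mul, ← map_mul, mul_inv_cancel, inv_mul_cancel,
          one_mul, mul_one]) hum (f y)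
      rw [e1, hS]
      refine ⟨u ^ (p ^ n - m - p) * S, ?_⟩
      rw [LinearMap.mulLeft_apply, ← mul_assoc, ← pow_add]
      congr 2
      omega)
    exact this
  obtain ⟨W1, hW1⟩ : ∃ W : Module.End F V,
      ∑ c ∈ S1, f c = (S1.card : F) • u ^ (p - 1) + u ^ p * W := by
    have h1 : ∀ c ∈ S1, ∃ S : Module.End F V, f c = u ^ (p - 1) + u ^ p * S := by
      intro c hc
      rw [hS1, mem_filter] at hc
      obtain ⟨a, ha⟩ := (mem_powers_iff_mem_zpowers.2 (hx ⟨_, hc.2⟩))
      have ha' : (x : G) ^ a = Y c := by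
        have := congrArg Subtype.val ha
        simpa using this
      have hpa : ¬ p ∣ a := by
        rintro ⟨b, rfl⟩
        have h2 : Y c ^ (p ^ (n - 1)) = 1 := by
          rw [← ha', ← pow_mul, mul_comm p b, mul_assoc, ← pow_succ', Nat.sub_add_cancel (by omega),
            mul_comm, pow_mul, ← hox', pow_orderOf_eq_one, one_pow]
        induction c using QuotientGroup.induction_on with
        | H g =>
          rw [hY, conj_pow, conj_eq_one_iff] at h2
          have h3 := orderOf_dvd_of_pow_eq_one h2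
          rw [hox'] at h3
          have h4 := Nat.le_of_dvd (pow_pos hp.pos _) h3
          have h5 : p ^ (n - 1) < p ^ n := Nat.pow_lt_pow_right hp.one_lt (by omega)
          omega
      obtain ⟨S, hS⟩ := pow_form (F := F) p u a hpa
      refine ⟨S, ?_⟩
      simp only [f]
      rw [← ha', map_pow, hX, hS]
    choose! S hS using h1
    refine ⟨∑ c ∈ S1, S c, ?_⟩
    rw [sum_congr rfl hS, sum_add_distrib, sum_const, mul_sum, Nat.cast_smul_eq_nsmul]
  have hφ2 : φ = (S1.card : F) • u ^ (p - 1) + u ^ p * (W1 + W2) := by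
    rw [hφ, ← sum_filter_add_sum_filter_not univ (fun c => Y c ∈ (P : Subgroup G)), ← hS1, ← hS2,
      hW1, ← hW2, mul_add, add_assoc]
  let R : Subrepresentation ρ := ⟨LinearMap.range φ, by
    rintro g v ⟨w, rfl⟩
    exact ⟨ρ g w, by rw [← Module.End.mul_apply, ← hφg, Module.End.mul_apply]⟩⟩
  have hp2 := hp.two_le
  rcases hirr.eq_bot_or_eq_top R with h | h
  · have h0 : φ = 0 := by
      rw [← LinearMap.range_eq_bot]
      exact congrArg Subrepresentation.toSubmodule h
    rw [h0] at hφ2
    have h1 : u ^ (p - 1) = u ^ p * (-((S1.card : F)⁻¹ • (W1 + W2))) := by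
      have h2 : (S1.card : F) • u ^ (p - 1) = -(u ^ p * (W1 + W2)) :=
        eq_neg_of_add_eq_zero_left hφ2.symm
      rw [mul_neg, mul_smul_comm, ← smul_neg, ← h2, smul_smul, inv_mul_cancel₀ hcard1, one_smul]
    set W := -((S1.card : F)⁻¹ • (W1 + W2))
    have h3 : ∀ j, u ^ (p - 1) = u ^ (p - 1 + j) * W ^ j := by
      intro j
      induction j with
      | zero => simp
      | succ j ih =>
        have e : u ^ (p - 1 + j) = u ^ (p - 1 + (j + 1)) * W := by
          rw [add_comm (p - 1) j, pow_add, h1, ← mul_assoc, ← pow_add]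
          congr 2
          omega
        rw [ih, e, mul_assoc, ← pow_succ']
    apply hup
    have h4 := h3 m
    rw [pow_add, hum, mul_zero, zero_mul] at h4
    exact pow_eq_zero_of_le (by omega) h4
  · have h0 : LinearMap.range φ = ⊤ := congrArg Subrepresentation.toSubmodule h
    have h1 : Function.Surjective u := by
      intro v
      obtain ⟨w, hw⟩ := LinearMap.range_eq_top.1 h0 v
      refine ⟨((S1.card : F) • u ^ (p - 2) + u ^ (p - 1) * (W1 + W2)) w, ?_⟩
      rw [← hw, ← Module.End.mul_apply, hφ2, mul_add, mul_smul_comm, ← mul_assoc, ← pow_succ',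
        ← pow_succ']
      congr 4 <;> omega
    have h2 : Function.Surjective (u ^ m) := Module.End.iterate_surjective h1 m
    rw [hum] at h2
    obtain ⟨v, hv⟩ := exists_ne (0 : V)
    obtain ⟨w, hw⟩ := h2 v
    exact hv (by simpa using hw.symm)

end Cfsg.Agent.S4699
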