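import Cfsg.Statements.S4701
import Cfsg.Agent.H2.Br4

set_option autoImplicit false
open Cfsg

namespace Cfsg.Agent.S4701

/-- Let G be a finite perfect group and p a prime dividing the order of G with p^3 larger than the order of G. Suppose a Sylow p-subgroup of G is not normal and G has no normal subgroup of order 2. Then p > 3 and G is isomorphic to PSL(2, p), or to SL(2, 2^m) with p = 2^m + 1. -/
theorem result {G : Type*} [Group G] [Finite G] (hperf : commutator G = ⊤) (p : ℕ) [Fact p.Prime] (hdvd : p ∣ Nat.card G) (hbig : Nat.card G < p ^ 3) (P : Sylow p G) (hP : ¬ (P : Subgroup G).Normal) (h2 : ∀ N : Subgroup G, N.Normal → Nat.card N ≠ 2) : (∃ (F : Type) (_ : Field F) (_ : Fintype F), Fintype.card F = p ∧ 3 < p ∧ Nonempty (G ≃* Matrix.ProjectiveSpecialLinearGroup (Fin 2) F)) ∨ (∃ (m : ℕ) (F : Type) (_ : Field F) (_ : Fintype F), Fintype.card F = 2 ^ m ∧ p = 2 ^ m + 1 ∧ 3 < p ∧ Nonempty (G ≃* Matrix.SpecialLinearGroup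 (Fin 2) F)) := by
  have hPc := H2.br_card_of_cube hdvd hbig P fun h => hP (H2.sm_normal_of_card_sylow P h)
  obtain ⟨n, hn⟩ := H2.exists_card_sylow p G
  have hr := H2.br_not_rep_of_cube hperf hbig P hPc hn
  have hc := H2.br_core hperf P hPc hn hr
  have hb : Cfsg.pPrimeCore p G = ⊥ := by
    have h1 := (Cfsg.pPrimeCore p G).card_eq_card_quotient_mul_card_subgroup
    have h3 := h2 (Cfsg.pPrimeCore p G) inferInstance
    have h4 := Nat.card_pos (α := Cfsg.pPrimeCore p G)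
    rw [← Subgroup.card_eq_one]
    by_contra h5
    have h6 := Nat.mul_le_mul_left (Nat.card (G ⧸ Cfsg.pPrimeCore p G))
      (show 3 ≤ Nat.card (Cfsg.pPrimeCore p G) by omega)
    obtain ⟨h7, ⟨h8, -⟩ | ⟨h8, -⟩⟩ := hc
    · obtain ⟨k, rfl⟩ : ∃ k, p = k + 4 := ⟨p - 4, by omega⟩
      rw [show (k + 4) ^ 2 - 1 = k ^ 2 + 8 * k + 15 from Nat.sub_eq_of_eq_add (by ring)] at h8
      nlinarith [Nat.zero_le (k ^ 3), Nat.zero_le (k ^ 2)]
    · have h9 : p ≠ 4 := by rintro rfl; exact absurd (Fact.out : Nat.Prime 4) (by norm_num)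
      obtain ⟨k, rfl⟩ : ∃ k, p = k + 5 := ⟨p - 5, by omega⟩
      rw [show k + 5 - 1 = k + 4 from rfl, show k + 5 - 2 = k + 3 from rfl] at h8
      nlinarith [Nat.zero_le (k ^ 3), Nat.zero_le (k ^ 2)]
  have hO : ∀ N : Subgroup G, N.Normal → ¬ p ∣ Nat.card N → N = ⊥ := fun N hN h =>
    H1.pPrimeCore_eq_bot_iff.1 hb N hN ((Nat.Prime.coprime_iff_not_dvd Fact.out).2 h).symm
  obtain ⟨h3, ⟨-, F, _, _, h1, h2⟩ | ⟨-, m, F, _, _, h1, h2, h4⟩⟩ := H2.br_main hperf hO P hPc hn hr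
  · exact Or.inl ⟨F, _, _, h1, h3, h2⟩
  · exact Or.inr ⟨m, F, _, _, h1, h2, h3, h4⟩

end Cfsg.Agent.S4701
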