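import Cfsg.Statements.S4706
import Cfsg.Agent.H2.Br6
import Cfsg.Agent.S0157
import Cfsg.Agent.S0676

set_option autoImplicit false
open Cfsg

namespace Cfsg.Agent.S4706

open H2 H17 H19 MulAction Subgroup in
theorem aux {α : Type*} [Fintype α] [DecidableEq α] {p : ℕ} [hp' : Fact p.Prime] (hp : 2 < p)
    (hα : Fintype.card α = p) (G : Subgroup (Equiv.Perm α)) (P : Sylow p G)
    (hN : Nat.card (normalizer ((P : Subgroup G) : Set G)) = 2 * p)
    (hn : ¬ (P : Subgroup G).Normal) :
    H26.Z3 G α ∧ IsMultiplyPretransitive G α 3 := by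
  have hα' : Nat.card α = p := by rw [Nat.card_eq_fintype_card, hα]
  have hP := card_of_two_p (by omega) P hN
  obtain ⟨x, hx, hx1⟩ := sm_exists_ne_one hP
  obtain ⟨e, he⟩ := H25.exists_equiv_zmod hα' (x : Equiv.Perm α)
    (by rw [orderOf_coe, sm_orderOf_eq hP hx hx1])
  haveI : IsPretransitive G α := ⟨fun a b => by
    have h1 : ∀ (k : ℕ) (j : ZMod p), x ^ k • e j = e (j + k) := fun k j => by
      induction k with
      | zero => simp
      | succ k ih => rw [pow_succ', mul_smul, ih, Nat.cast_succ, ← add_assoc]; exact he _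
    exact ⟨x ^ (e.symm b - e.symm a).val, by simpa using h1 (e.symm b - e.symm a).val (e.symm a)⟩⟩
  haveI := H25.prim_of_prime_degree (G := G) hα'
  haveI := sm_simple_of_prime_index P hP (fun K hK hne => by
    haveI := H25.normal_transitive_of_primitive (α := α) K hne
    obtain ⟨c, hc⟩ := H25.exists_orderOf_eq_prime_of_transitive (G := K) hα'
    exact hc ▸ orderOf_dvd_natCard c) hn (by rw [relIndex_of_two_p hP hN]; exact Nat.prime_two)
  have hG : ¬ IsMulCommutative G := fun h => hn inferInstance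
  have h3 := Cfsg.Agent.S0676.result hα G (sm_not_solvable hG) P ⟨p, by omega⟩
  have h2 : IsMultiplyPretransitive G α 2 :=
    isMultiplyPretransitive_of_le (n := 3) (by omega) (by omega)
  have hp3 : p ≠ 3 := by
    rintro rfl
    have := (sm_four_dvd hG).trans G.card_subgroup_dvd_card
    rw [Nat.card_perm, hα'] at this
    norm_num [Nat.factorial] at this
  obtain ⟨hC, he2⟩ := two_p_setup (sm_commutator_eq_top hG) P hP hN
  obtain ⟨O, _, hO⟩ := exists_ovp p
  obtain ⟨X, Y, s, ε, h⟩ := d1_exists hO (by omega) P hP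
  rw [he2] at h
  set χ : IrrCharacter G := ⟨_, (Cfsg.Agent.S0157.result α (by omega)).2 h2⟩
  have hχ : ∀ g, (χ : G → ℂ) g = (Nat.card (fixedBy α g) : ℂ) - 1 := fun _ => rfl
  have hd : dg χ + 1 = p := by
    have : (dg χ : ℂ) + 1 = p := by rw [cast_deg, hχ, ← hα']; simp
    exact_mod_cast this
  have hz := fun g => fix_zero_of_sing (α := α) P hP (hα' ▸ dvd_rfl) (g := g)
  have hX : χ ∈ X := by
    have h4 : χ ∈ irr (B0 O G) := by
      by_contra h5
      have := h.zero_of_not_mem hC h5 (h.sing hx hx1)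
      rw [hχ, hz x (h.sing hx hx1)] at this
      simp at this
    rcases (h.mem χ).1 h4 with h5 | h5 | h5
    · rw [h5, show dg (triv G) = 1 from ch_deg_triv] at hd; omega
    · exact h5
    obtain ⟨m, hm⟩ := h.degY h5
    have h6 : (p : ℤ) ∣ 1 + ε * 2 := ⟨1 - m, by push_cast at hm; rw [mul_sub]; omega⟩
    rcases h.eps with h7 | h7 <;> rw [h7] at h6
    · have := Int.le_of_dvd (by omega) h6; omega
    · have := Int.le_of_dvd (by omega) (dvd_neg.2 h6); omega
  obtain ⟨θ, hθ⟩ := h.Y_nonempty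
  refine ⟨⟨inferInstance, h2, fun g a b c hab hbc hac ha hb hc => ?_⟩, h3⟩
  by_contra hg
  have h4 : 3 ≤ Nat.card (fixedBy α g) := by
    rw [Nat.card_coe_set_eq, ← Set.ncard_eq_three.2 ⟨a, b, c, hab, hac, hbc, rfl⟩]
    refine Set.ncard_le_ncard fun y hy => ?_
    rcases hy with rfl | rfl | rfl <;> assumption
  have h5 := ((h.e_two hC hN hX hd hθ).2.2 g fun h5 => by have := hz g h5; omega).2
  have h6 : Nat.card (fixedBy α g) ≤ Nat.card (fixedBy α (g * g)) :=
    Set.ncard_le_ncard fun y hy => by rw [mem_fixedBy] at hy ⊢; rw [mul_smul, hy, hy]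
  have h7 : Nat.card (fixedBy α g) < p := by
    rw [← hα', Nat.card_coe_set_eq, ← Set.ncard_univ]
    refine Set.ncard_lt_ncard (Set.ssubset_univ_iff.2 fun h8 => hg ?_)
    exact eq_of_smul_eq_smul fun y : α => by rw [one_smul]; exact (h8 ▸ Set.mem_univ y :)
  rw [hχ, hχ] at h5
  have h8 : (Nat.card (fixedBy α (g * g)) : ℤ) - 1 = (Nat.card (fixedBy α g) - 1) ^ 2 -
      (p - 1) * (Nat.card (fixedBy α g) - 1 - 1) := by exact_mod_cast h5
  nlinarith

/-- Let p > 2 be a prime and G a permutation group on p letters whose Sylow p-subgroup P has normalizer of order 2p. Then either P is normal in G, or p − 1 = 2^a for some a and G is isomorphic to SL(2, 2^a). -/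
theorem result {α : Type*} [Fintype α] [DecidableEq α] {p : ℕ} [Fact p.Prime] (hp : 2 < p) (hα : Fintype.card α = p) (G : Subgroup (Equiv.Perm α)) (P : Sylow p G) (hN : Nat.card (Subgroup.normalizer ((P : Subgroup G) : Set G)) = 2 * p) : (P : Subgroup G).Normal ∨ ∃ (a : ℕ) (F : Type) (_ : Field F) (_ : Fintype F), p = 2 ^ a + 1 ∧ Fintype.card F = 2 ^ a ∧ Nonempty (G ≃* Matrix.SpecialLinearGroup (Fin 2) F) := by
  refine or_iff_not_imp_left.2 fun hn => ?_
  obtain ⟨h1, h2⟩ := aux hp hα G P hN hn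
  have hα' : Nat.card α = p := by rw [Nat.card_eq_fintype_card, hα]
  obtain ⟨a, -, ha, F, _, _, h3, h4⟩ := H2.z_sl_of_three h1 h2 (by omega)
    (hα' ▸ (Fact.out : p.Prime).odd_of_ne_two (by omega))
  exact ⟨a, F, _, _, hα' ▸ ha, h3, h4⟩

end Cfsg.Agent.S4706
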