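import Cfsg.Statements.S4707
import Cfsg.Agent.H2.Br6
import Cfsg.Agent.S0157
import Cfsg.Agent.S0494
import Cfsg.Agent.H25.PrimeSyl

set_option autoImplicit false
open Cfsg

namespace Cfsg.Agent.S4707

open H2 H17 H19 MulAction Subgroup in
theorem aux {α : Type*} [Fintype α] {p : ℕ} [hp' : Fact p.Prime] (hp : 3 < p)
    (hα : Nat.card α = 2 * p) {G : Type*} [Group G] [Finite G] [MulAction G α] [IsSimpleGroup G]
    (hG : ¬ IsMulCommutative G) [IsPretransitive G α]
    (hnot2 : ¬ IsMultiplyPretransitive G α 2) (P : Sylow p G)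
    (hN : Nat.card (normalizer ((P : Subgroup G) : Set G)) = 2 * p) : BrConc G p := by
  classical
  haveI := Fintype.ofFinite G
  have hP := card_of_two_p (by omega) P hN
  have hperf := sm_commutator_eq_top hG
  obtain ⟨hC, he2⟩ := two_p_setup hperf P hP hN
  obtain ⟨O, _, hO⟩ := exists_ovp p
  obtain ⟨X, Y, s, ε, h⟩ := d1_exists hO (by omega) P hP
  rw [he2] at h
  obtain ⟨θ, hθ⟩ := h.Y_nonempty
  obtain ⟨χ, hχ⟩ := Finset.card_pos.1 (show 0 < X.card by have := h.cardX; omega)
  obtain ⟨c, hc1, hc2, hc3, hc4⟩ := h.coeff_const hC (isCharacter_perm α) (a := 0) (fun g hg => by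
    simp only [fix_zero_of_sing (α := α) P hP ⟨2, by omega⟩ hg]; simp) hθ
  have hct : c (triv G) = 1 := by
    haveI : Nonempty α := (Nat.card_pos_iff.1 (by omega)).1
    haveI := (pretransitive_iff_unique_quotient_of_nonempty G α).1 inferInstance |>.some
    have := hc1 (triv G)
    rw [coe_triv, classInner_perm_one, Nat.card_unique] at this
    exact_mod_cast this.symm
  have h1 := ch_deg_of_coeff hc2 (d := 2 * p) (by simp [← hα])
  obtain ⟨u, hu, -⟩ := h.split hperf hθ
  obtain ⟨hu1, hu⟩ := hu χ hχ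
  have h2 := h.eqn_deg hθ
  have ht := h.cardY
  have hθ0 := dg_pos θ
  have hX := h.X_eq hχ
  rw [h.sum_all, Finset.sum_congr rfl (s₁ := Y) (g := fun _ => c θ * dg θ) fun ψ hψ => by
    rw [hc3 ψ hψ, h.degY_eq hψ hθ], Finset.sum_const, smul_eq_mul, hct,
    show dg (triv G) = 1 from ch_deg_triv, hX, Finset.sum_singleton] at h1
  rw [hX, Finset.sum_singleton] at h2 hc4
  rw [hct] at hc4
  have hup := Nat.le_mul_of_pos_left p hu1
  rcases hu with ⟨h3, h4⟩ | ⟨h3, h4⟩ <;> rw [h3] at h2 hc4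
  · have h5 : ε = 1 := h.eps.resolve_right fun h5 => by rw [h5] at h2; omega
    rw [h5] at h2 hc4
    have := Nat.mul_le_mul (show 2 ≤ Y.card by have := hp'.out.eq_two_or_odd; omega)
      (Nat.mul_le_mul (show 1 ≤ c θ by omega) (le_refl (dg θ)))
    omega
  have h5 : ε = -1 := h.eps.resolve_left fun h5 => by rw [h5] at h2; omega
  rw [h5] at hc4
  refine h.e_two_conc hG hp hC hN hχ (by_contra fun h6 => hnot2 ?_)
  have h7 := Nat.mul_le_mul_right p (show 2 ≤ u χ by
    by_contra h7; rw [show u χ = 1 by omega] at h4; omega)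
  have h8 : c χ = c θ + 1 := by omega
  rw [h8, add_mul, one_mul] at h1
  have h9 : c θ = 0 := (Nat.mul_eq_zero.1 (by omega)).resolve_right (dg_pos χ).ne'
  rw [← Cfsg.Agent.S0157.result α (by omega)]
  convert χ.2 using 1
  ext g
  have h10 := congrFun hc2 g
  simp only [Finset.sum_apply, Pi.smul_apply, smul_eq_mul] at h10
  rw [h10, h.sum_all, hX, Finset.sum_singleton, h8, hct, h9, Finset.sum_eq_zero (s := Y)
    fun ψ hψ => by rw [hc3 ψ hψ, h9]; simp, Finset.sum_eq_zero (s := Finset.univ.filter _)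
    fun ψ hψ => by
      rw [(Nat.mul_eq_zero.1 (Finset.sum_eq_zero_iff.1 (show ∑ ψ ∈ _, c ψ * dg ψ = 0 by omega)
        ψ hψ)).resolve_right (dg_pos ψ).ne']; simp]
  simp

/-- Let p > 3 be a prime and G a primitive permutation group of degree 2p that is not doubly transitive. If a Sylow p-subgroup of G has normalizer of order 2p, then p = 5 and G is isomorphic to the alternating group of degree 5. -/
theorem result {α : Type*} [Fintype α] [DecidableEq α] {p : ℕ} [Fact p.Prime] (hp : 3 < p) (hα : Fintype.card α = 2 * p) (G : Subgroup (Equiv.Perm α)) (hprim : MulAction.IsPreprimitive G α) (hnot2 : ¬ MulAction.IsMultiplyPretransitive G α 2) (P : Sylow p G) (hN : Nat.card (Subgroup.normalizer ((P : Subgroup G) : Set G)) = 2 * p) : p = 5 ∧ Nonempty (G ≃* alternatingGroup (Fin 5)) := by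
  have hp' : p.Prime := Fact.out
  have hα' : Nat.card α = 2 * p := by rw [Nat.card_eq_fintype_card, hα]
  haveI : Nontrivial α := Finite.one_lt_card_iff_nontrivial.1 (by omega)
  obtain ⟨a⟩ : Nonempty α := inferInstance
  have hP := H2.card_of_two_p (by omega) P hN
  have hdvd : ∀ K : Subgroup G, K.Normal → K ≠ ⊥ → 2 * p ∣ Nat.card K := fun K hK hne => by
    haveI := H25.normal_transitive_of_primitive (α := α) K hne
    exact ⟨_, hα' ▸ H25.card_eq_card_mul_card_stabilizer (G := K) a⟩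
  have hn : ¬ (P : Subgroup G).Normal := fun h => by
    have := Nat.le_of_dvd hp'.pos (hP ▸ hdvd _ h fun h1 => by
      rw [h1, Subgroup.card_bot] at hP; omega)
    omega
  haveI := H2.sm_simple_of_prime_index P hP (fun K hK hne => (Dvd.intro_left _ rfl).trans
    (hdvd K hK hne)) hn (by rw [H2.relIndex_of_two_p hP hN]; exact Nat.prime_two)
  have hG : ¬ IsMulCommutative G := fun h => hn inferInstance
  suffices H : p = 5 ∧ Nat.card G = 60 from ⟨H.1, Cfsg.Agent.S0494.result H.2⟩
  obtain ⟨-, ⟨h1, -⟩ | ⟨h1, m, F, _, _, h2, h3, ⟨e⟩⟩⟩ := aux hp hα' hG hnot2 P hN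
  · obtain ⟨n, hn⟩ := H2.exists_card_sylow p G
    have h2 := H2.sm_sylow_mul P
    rw [hN, hn] at h2
    have h3 : 4 * (1 + n * p) = p ^ 2 - 1 := Nat.eq_of_mul_eq_mul_left hp'.pos (by linarith)
    have h4 : p ∣ 5 := (Nat.dvd_add_right (Dvd.intro_left (4 * n) rfl)).1 ⟨p, by
      have : 0 < p ^ 2 := by positivity
      rw [← sq]; linarith [Nat.sub_add_cancel this]⟩
    obtain rfl := (Nat.prime_dvd_prime_iff_eq hp' (by norm_num)).1 h4
    exact ⟨rfl, by omega⟩
  suffices H : p = 5 by subst H; exact ⟨rfl, h1⟩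
  have hcent := fun {u g : G} => H2.sl2_even_cent (u := u) (g := g)
    (by rw [h2]; exact even_two.pow_of_ne_zero (by rintro rfl; omega)) e
  have hsq : ∀ T : Subgroup G, IsPGroup 2 T → ∀ x ∈ T, x * x = 1 := fun T hT x hx => by
    by_cases h4 : x = 1
    · simp [h4]
    obtain ⟨k, hk⟩ := IsPGroup.iff_orderOf.1 hT ⟨x, hx⟩
    rw [Subgroup.orderOf_mk] at hk
    have h5 := orderOf_pow_orderOf_div (x := x) (n := 2) (orderOf_pos x).ne' (hk ▸ dvd_pow_self _
      (by rintro rfl; exact h4 (orderOf_eq_one_iff.1 hk)))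
    exact hcent (by rw [← sq, ← h5, pow_orderOf_eq_one]) (by intro h6; simp [h6] at h5)
      (Commute.self_pow x _)
  have hab : ∀ T : Subgroup G, IsPGroup 2 T → ∀ x ∈ T, ∀ y ∈ T, x * y = y * x := fun T hT x hx y hy => by
    rw [eq_inv_of_mul_eq_one_left (hsq T hT _ (mul_mem hx hy)), mul_inv_rev,
      ← eq_inv_of_mul_eq_one_left (hsq T hT x hx), ← eq_inv_of_mul_eq_one_left (hsq T hT y hy)]
  set H := MulAction.stabilizer G a
  obtain ⟨k, rfl⟩ : ∃ k, m = k + 2 := ⟨m - 2, by
    rcases m with _ | _ | m <;> simp at h3 ⊢ <;> omega⟩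
  have hk : 0 < 2 ^ k := by positivity
  have h3' : p = 4 * 2 ^ k + 1 := by rw [h3]; ring
  have hH : Nat.card H = 2 ^ (k + 1) * (p - 2) := by
    have h4 := H25.card_eq_card_mul_card_stabilizer (G := G) a
    rw [hα', h1, show p - 1 = 2 * 2 ^ (k + 1) by omega] at h4
    exact Nat.eq_of_mul_eq_mul_left (show 0 < 2 * p by omega) (by linarith)
  obtain ⟨T⟩ : Nonempty (Sylow 2 H) := inferInstance
  have hT := H2.sm_card_sylow_eq T hH (by omega)
  have hTp := T.isPGroup'.map H.subtype
  have h4 := H2.card_sylow_modEq_of_TI (H2.sylow_TI_of_cent (T := T)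
    (fun x hx y hy => Subtype.ext (hab _ hTp _ ⟨x, hx, rfl⟩ _ ⟨y, hy, rfl⟩)) fun u hu h5 g hg => by
      rw [← T.is_maximal' (Q := Subgroup.centralizer {u}) (fun y => ⟨1, Subtype.ext (Subtype.ext (by
        simpa [sq] using hcent (hsq _ hTp _ ⟨u, hu, rfl⟩) (fun h => h5 (Subtype.ext h))
          (congrArg Subtype.val (Subgroup.mem_centralizer_singleton_iff.1 y.2))))⟩)
        fun y hy => Subgroup.mem_centralizer_singleton_iff.2
          (Subtype.ext (hab _ hTp _ ⟨y, hy, rfl⟩ _ ⟨u, hu, rfl⟩))]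
      exact Subgroup.mem_centralizer_singleton_iff.2 hg)
  have h5 := T.card_dvd_index
  rw [H2.sm_index_sylow_eq T hH (by omega)] at h5
  rw [hT] at h4
  by_cases h6 : Nat.card (Sylow 2 H) = 1
  · exfalso
    haveI := H2.sm_normal_of_card_sylow T h6
    set D := (T : Subgroup H).map H.subtype
    have hD : Nat.card D = 2 ^ (k + 1) := by
      rw [Subgroup.card_map_of_injective H.subtype_injective, hT]
    obtain ⟨S, hS⟩ := hTp.exists_le_sylow
    have hSc := H2.sm_card_sylow_eq S (k := k + 2) (m := p * (p - 2)) (by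
      rw [h1, show p - 1 = 2 ^ (k + 2) by omega]; ring) (by
        rw [Nat.prime_two.dvd_mul]; omega)
    have h7 : H ≤ Subgroup.normalizer (D : Set G) := by
      have := Subgroup.le_normalizer_map (H := (T : Subgroup H)) H.subtype
      rwa [Subgroup.normalizer_eq_top, ← MonoidHom.range_eq_map, Subgroup.range_subtype] at this
    have h8 : (S : Subgroup G) ≤ Subgroup.normalizer (D : Set G) := fun y hy =>
      Subgroup.centralizer_le_normalizer _ fun x hx => hab _ S.isPGroup' x (hS hx) y hy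
    refine H2.sm_normalizer_ne_top (H := D) (fun h => ?_) (H2.sm_pgroup_ne_top hG hTp)
      (((MulAction.isCoatom_stabilizer_iff_preprimitive G a).2 hprim).2 _ (h7.lt_of_ne fun h => ?_))
    · rw [h, Subgroup.card_bot] at hD; omega
    · have := Subgroup.card_dvd_of_le (h ▸ h8)
      rw [hSc, hH, pow_succ _ (k + 1), Nat.mul_dvd_mul_iff_left (by positivity)] at this
      omega
  obtain ⟨j, hj⟩ := (Nat.modEq_iff_dvd' Nat.card_pos).1 h4.symm
  have h7 := Nat.le_of_dvd (by omega) h5
  have h8 := Nat.card_pos (α := Sylow 2 H)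
  rcases j with _ | _ | j
  · omega
  · have h9 : Nat.card (Sylow 2 H) ∣ 3 := (Nat.dvd_add_right h5).1 ⟨2, by omega⟩
    have := Nat.le_of_dvd (by omega) h9
    omega
  · rw [mul_add, mul_add] at hj; omega

end Cfsg.Agent.S4707
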