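import Cfsg.Statements.S4708
import Cfsg.Agent.H20.Rk
-- import your own Cfsg.Agent.* helpers here

set_option autoImplicit false
open Cfsg

namespace Cfsg.Agent.S4708

open H17


/-- Let p be a prime, M a maximal ideal of the algebraic integers containing p, G a finite group and H a normal subgroup. Write λ(X) for the sum of the squares of the degrees of the irreducible characters in the principal p-block of a group X. Then λ(H) ≤ λ(G) ≤ [G : H]·λ(H). -/
theorem result {G : Type*} [Group G] [Finite G] (p : ℕ) [Fact p.Prime] (M : Ideal Cfsg.AlgInt) (hM : Cfsg.IsPModular p M) (H : Subgroup G) [H.Normal] : (∑ᶠ θ ∈ Cfsg.principalBlock M H, Cfsg.charDegree (θ : H → ℂ) ^ 2) ≤ (∑ᶠ χ ∈ Cfsg.principalBlock M G, Cfsg.charDegree (χ : G → ℂ) ^ 2) ∧ (∑ᶠ χ ∈ Cfsg.principalBlock M G, Cfsg.charDegree (χ : G → ℂ) ^ 2) ≤ H.index * ∑ᶠ θ ∈ Cfsg.principalBlock M H, Cfsg.charDegree (θ : H → ℂ) ^ 2 := by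
  classical
  have := Fintype.ofFinite G
  have := Fintype.ofFinite H
  obtain ⟨O, hO, _⟩ := H19.exists_over hM
  rw [hO.principalBlock_eq, hO.principalBlock_eq, H19.finsum_mem_irr, H19.finsum_mem_irr]
  have h0 : H20.eG (H19.B0 O G) * H20.eA H (H19.B0 O H) ≠ 0 := fun h => by
    have := congrArg H20.aug h
    rw [map_mul, H20.aug_eG_B0, H20.aug_eA_B0, map_zero, mul_one] at this
    exact one_ne_zero this
  have h1 : ∀ χ : IrrCharacter G, ∃ m : IrrCharacter H → ℕ,
      (∀ θ : IrrCharacter H, classInner (fun h : H => (χ : G → ℂ) h) θ = m θ) ∧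
      charDegree (χ : G → ℂ) = ∑ θ, m θ * charDegree (θ : H → ℂ) := fun χ => by
    obtain ⟨m, h2, h3⟩ := (χ.2.isCharacter.restrict H).exists_coeff
    refine ⟨m, h2, Nat.cast_injective (R := ℂ) ?_⟩
    have := congrFun h3 1
    push_cast
    simpa [H19.cast_deg] using this
  choose m hm hm' using h1
  constructor
  · have h2 : ∀ θ : IrrCharacter H, ∃ χ : IrrCharacter G, θ ∈ H19.irr (H19.B0 O H) →
        χ ∈ H19.irr (H19.B0 O G) ∧ m χ θ ≠ 0 := fun θ => by
      by_cases hθ : θ ∈ H19.irr (H19.B0 O H)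
      · obtain ⟨χ, h3, h4⟩ := H20.fB_mul_ne_zero_iff.1 (H20.exists_irr_over_of_cover h0 hθ)
        rw [← H20.inner_ne_zero_iff, hm] at h4
        exact ⟨χ, fun _ => ⟨h3, by exact_mod_cast h4⟩⟩
      · exact ⟨H19.triv G, fun h => absurd h hθ⟩
    choose c hc using h2
    rw [← Finset.sum_fiberwise_of_maps_to (t := Finset.univ.filter (· ∈ H19.irr (H19.B0 O G)))
      (g := c) fun θ hθ => Finset.mem_filter.2 ⟨Finset.mem_univ _, (hc θ (Finset.mem_filter.1 hθ).2).1⟩]
    refine Finset.sum_le_sum fun χ _ => (Finset.sum_sq_le_sq_sum_of_nonneg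
      fun _ _ => Nat.zero_le _).trans (Nat.pow_le_pow_left ?_ 2)
    rw [hm']
    refine (Finset.sum_le_sum fun θ hθ => ?_).trans
      (Finset.sum_le_sum_of_subset (Finset.subset_univ _))
    obtain ⟨h3, rfl⟩ := Finset.mem_filter.1 hθ
    exact Nat.le_mul_of_pos_left _ (Nat.pos_of_ne_zero (hc θ (Finset.mem_filter.1 h3).2).2)
  · have h2 : ∀ θ : IrrCharacter H, H.index * charDegree (θ : H → ℂ) =
        ∑ χ, m χ θ * charDegree (χ : G → ℂ) := fun θ => by
      apply Nat.cast_injective (R := ℂ)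
      push_cast
      rw [H19.cast_deg, ← indFun_one, (isClassFunction_indFun _).apply_eq_sum]
      refine Finset.sum_congr rfl fun χ _ => ?_
      rw [frobenius_reciprocity _ (H19.irr_class χ), θ.2.isCharacter.inner_comm
        (χ.2.isCharacter.restrict H), hm, H19.cast_deg]
    have h3 : ∀ χ ∈ H19.irr (H19.B0 O G), ∀ θ, m χ θ ≠ 0 → θ ∈ H19.irr (H19.B0 O H) := by
      intro χ hχ θ h
      have h4 := (H20.cover_iff H (H19.B0 O G) (H19.lam O θ)).1
        ⟨χ, hχ, θ, H19.mem_irr_lam θ, by rw [hm]; exact_mod_cast h⟩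
      obtain ⟨g, -, h5⟩ := H20.exists_conj_of_cover (H20.top_le_nrm H) le_top (H20.isBlk_eG _)
        (H20.isBlk_eA _ _) (H20.isBlk_eA _ _) h0 h4
      rw [H19.mem_irr, ← H20.aug_eA_iff, ← h5, H20.aug_cj, H20.aug_eA_B0]
    simp only [Finset.mul_sum, sq, ← mul_assoc, h2, Finset.sum_mul]
    rw [Finset.sum_comm]
    refine (Finset.sum_le_sum fun χ hχ => le_of_eq ?_).trans
      (Finset.sum_le_sum_of_subset (Finset.subset_univ _))
    nth_rw 1 [hm']
    rw [Finset.sum_mul, Finset.sum_filter_of_ne fun θ _ h => h3 χ (Finset.mem_filter.1 hχ).2 θ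
      (left_ne_zero_of_mul (left_ne_zero_of_mul h))]
    exact Finset.sum_congr rfl fun _ _ => by ring

end Cfsg.Agent.S4708
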