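import Cfsg.Statements.S4711
import Cfsg.Agent.H19.Npc
import Cfsg.Agent.H16.PL1

set_option autoImplicit false
open Cfsg

namespace Cfsg.Agent.S4711
open H17 H19

/-- Let p be a prime, M a maximal ideal of the algebraic integers containing p, G a finite group, P a Sylow p-subgroup and N = N_G(P). Then G has p-length 1 (G = O_{p',p,p'}(G)) if and only if every irreducible character in the principal p-block of G restricts to an irreducible character of N. -/
theorem result {G : Type*} [Group G] [Finite G] (p : ℕ) [Fact p.Prime] (M : Ideal Cfsg.AlgInt) (hM : Cfsg.IsPModular p M) (P : Sylow p G) : Cfsg.PLengthLE p 1 G ↔ ∀ χ ∈ Cfsg.principalBlock M G, Cfsg.IsIrrCharacter ↥(Subgroup.normalizer ((P : Subgroup G) : Set G)) (fun n : ↥(Subgroup.normalizer ((P : Subgroup G) : Set G)) => (χ : G → ℂ) n) := by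
  classical
  obtain ⟨O, hO, _⟩ := exists_over hM
  rw [hO.principalBlock_eq]
  have hp : p.Prime := Fact.out
  constructor
  · intro h χ hχ
    rw [H16.pl1_iff_index, pPrimePCore,
      Subgroup.index_comap_of_surjective _ (QuotientGroup.mk'_surjective _)] at h
    have h1 := (P.mapSurjective (QuotientGroup.mk'_surjective (pPrimeCore p G))).2
    have h2 := ((H1.isPGroup_pCore p).toSylow (hp.coprime_iff_not_dvd.1 h.symm)).3 h1
      (H1.pCore_le_sylow _)
    obtain ⟨ψ, hψ, e⟩ := χ.2.exists_quotient (pPrimeCore p G)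
      (le_charKer_of_B0 (H1.not_dvd_card_pPrimeCore hp) hχ)
    rw [e]
    refine hψ.comp_of_surjective ((QuotientGroup.mk' _).comp (Subgroup.subtype _)) fun q => ?_
    have h3 : (P : Subgroup G) ≤ pPrimePCore p G := fun x hx => by
      have : QuotientGroup.mk' _ x ∈ pCore p (G ⧸ pPrimeCore p G) :=
        h2.le (Subgroup.mem_map_of_mem _ hx)
      exact this
    have h4 := P.normalizer_sup_eq_top' h3
    have h5 : pPrimePCore p G ≤ Subgroup.normalizer ((P : Subgroup G) : Set G) ⊔ pPrimeCore p G := by
      intro x hx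
      obtain ⟨y, hy, e⟩ : QuotientGroup.mk' _ x ∈ (P : Subgroup G).map
        (QuotientGroup.mk' (pPrimeCore p G)) := h2.ge hx
      rw [← mul_inv_cancel_left y x]
      exact Subgroup.mul_mem_sup (Subgroup.le_normalizer hy) (QuotientGroup.eq.1 e)
    obtain ⟨x, rfl⟩ := QuotientGroup.mk'_surjective _ q
    have h6 : x ∈ Subgroup.normalizer ((P : Subgroup G) : Set G) ⊔ pPrimeCore p G :=
      (h4.ge.trans (sup_le le_sup_left h5)) (Subgroup.mem_top x)
    rw [← SetLike.mem_coe, Subgroup.mul_normal] at h6
    obtain ⟨y, hy, z, hz, rfl⟩ := h6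
    exact ⟨⟨y, hy⟩, QuotientGroup.eq.2 (by simpa using hz)⟩
  · intro h
    have := Fintype.ofFinite (P : Subgroup G)
    have := Fintype.ofFinite (Subgroup.normalizer ((P : Subgroup G) : Set G))
    have h1 := npc_normalClosure O P.2 fun χ hχ h0 x hx => by
      have := Fintype.ofFinite
        ((P : Subgroup G).subgroupOf (Subgroup.normalizer ((P : Subgroup G) : Set G)))
      by_contra h2
      have h3 := H21.sum_normal_eq_zero (h χ hχ) ((P : Subgroup G).subgroupOf _)
        ⟨⟨x, Subgroup.le_normalizer hx⟩, hx, fun e => h2 (χ.2.mem_charKer.2 e)⟩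
      rw [← (Subgroup.subgroupOfEquivOfLe Subgroup.le_normalizer).symm.sum_comp] at h3
      exact h0 h3
    rw [H3.hasNormalPComplement_iff_coprime] at h1
    have h2 : (P : Subgroup G) ≤ Subgroup.normalClosure ((P : Subgroup G) : Set G) :=
      Subgroup.le_normalClosure
    set K := Subgroup.normalClosure ((P : Subgroup G) : Set G)
    refine H16.pl1_of_normal_series ((pResidual p K).map K.subtype) K ?_ ?_
      fun h3 => P.not_dvd_index (h3.trans (Subgroup.index_dvd_of_le h2))
    · rw [Subgroup.card_subtype]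
      exact hp.coprime_iff_not_dvd.1 h1.symm
    · obtain ⟨k, hk⟩ := H3.index_pResidual (G := K) (p := p)
      rw [H16.relIndex_map_subtype_top, hk]
      exact fun q hq h => (Nat.prime_dvd_prime_iff_eq hq hp).1 (hq.dvd_of_dvd_pow h)

end Cfsg.Agent.S4711
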