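import Cfsg.Statements.S4712
import Cfsg.Agent.H19.Pim

set_option autoImplicit false
open Cfsg

namespace Cfsg.Agent.S4712
open H17 H19

/-- Let p be an odd prime, M a maximal ideal of the algebraic integers containing p, G a finite group of order n with p-part p^a, and B a p-block of G. Call an irreducible character χ p-rational when χ(g^k) = χ(g) for every g and every k coprime to n with k ≡ 1 modulo n/p^a (χ is fixed by the Galois automorphisms fixing the roots of unity of order prime to p). Then the number of p-rational irreducible characters in B is at least the p-regular rank of B (the number of irreducible Brauer characters in B). -/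
theorem result {G : Type*} [Group G] [Finite G] (p : ℕ) [Fact p.Prime] (hodd : p ≠ 2) (M : Ideal Cfsg.AlgInt) (hM : Cfsg.IsPModular p M) (B : Set (Cfsg.IrrCharacter G)) (hB : Cfsg.IsPBlock M B) : Cfsg.blockRank p B ≤ Nat.card {χ : Cfsg.IrrCharacter G // χ ∈ B ∧ ∀ k : ℕ, Nat.Coprime k (Nat.card G) → k ≡ 1 [MOD Nat.card G / p ^ (Nat.card G).factorization p] → ∀ g : G, (χ : G → ℂ) (g ^ k) = (χ : G → ℂ) g} := by
  obtain ⟨O, hO, _⟩ := exists_over hM
  obtain ⟨β, rfl⟩ := hO.exists_blk hB
  have hp : p.Prime := Fact.out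
  have h0 : Nat.card G ≠ 0 := Nat.card_pos.ne'
  set a := (Nat.card G).factorization p
  set m := Nat.card G / p ^ a with hm
  have hn : p ^ a * m = Nat.card G := Nat.ordProj_mul_ordCompl_eq_self _ _
  have hc : (p ^ a).Coprime m := (Nat.coprime_ordCompl hp h0).pow_left a
  have : NeZero (p ^ a) := ⟨pow_ne_zero _ hp.ne_zero⟩
  obtain ⟨u, hu⟩ := (ZMod.isCyclic_units_of_prime_pow p hp hodd a).exists_monoid_generator
  obtain ⟨k, hk1, hk2⟩ := Nat.chineseRemainder hc (u : ZMod (p ^ a)).val 1
  have hk : k.Coprime (Nat.card G) := by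
    rw [← hn]
    refine Nat.Coprime.mul_right ?_ ?_
    · rw [Nat.Coprime, hk1.gcd_eq]; exact ZMod.val_coe_unit_coprime u
    · rw [Nat.Coprime, hk2.gcd_eq, Nat.gcd_one_left]
  refine (rank_le_card_fixed p β hk fun y hy => ?_).trans
    (Nat.card_le_card_of_injective (Subtype.map id fun χ h => ⟨h.1, fun l hl1 hl2 g => ?_⟩)
      (Subtype.map_injective _ Function.injective_id))
  · conv_rhs => rw [← pow_one y]
    refine pow_eq_pow_iff_modEq.2 (hk2.of_dvd ?_)
    exact ((hp.coprime_iff_not_dvd.2 hy).pow_left a).symm.dvd_of_dvd_mul_left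
      (hn ▸ orderOf_dvd_natCard y)
  · obtain ⟨j, hj⟩ := hu (ZMod.unitOfCoprime l (hl1.coprime_dvd_right ⟨m, hn.symm⟩))
    have h1 : l ≡ k ^ j [MOD Nat.card G] := by
      rw [← hn, ← Nat.modEq_and_modEq_iff_modEq_mul hc]
      refine ⟨?_, hl2.trans (by simpa using (hk2.pow j).symm)⟩
      rw [← ZMod.natCast_eq_natCast_iff, Nat.cast_pow, (ZMod.natCast_eq_natCast_iff _ _ _).2 hk1,
        ZMod.natCast_zmod_val, ← Units.val_pow_eq_pow_val]
      exact (congrArg Units.val hj).symm
    rw [pow_eq_pow_iff_modEq.2 (h1.of_dvd (orderOf_dvd_natCard g))]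
    clear hj h1
    induction j with
    | zero => rw [pow_zero, pow_one]
    | succ j ih => rw [pow_succ, pow_mul]; exact (h.2 _).trans ih

end Cfsg.Agent.S4712
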