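import Cfsg.Statements.S4713
import Cfsg.Agent.H21.CD8

set_option autoImplicit false
open Cfsg

open H17

namespace Cfsg.Agent.S4713

/-- Let p be a prime and G a finite p-solvable group. Then G has a normal abelian Sylow p-subgroup if and only if the degree of every irreducible character of G is prime to p. -/
theorem result {G : Type*} [Group G] [Finite G] (p : ℕ) [Fact p.Prime] (hsolv : Cfsg.IsPSolvable p G) (P : Sylow p G) : ((P : Subgroup G).Normal ∧ IsMulCommutative P) ↔ ∀ χ : Cfsg.IrrCharacter G, ¬ p ∣ Cfsg.charDegree (χ : G → ℂ) := by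
  refine ⟨fun ⟨_, h1⟩ χ h => P.not_dvd_index (h.trans (χ.2.degree_dvd_index_of_comm
    (H21.irr_charDegree_cast χ).symm P h1)), fun h => ?_⟩
  obtain ⟨R, _, h1, h2, h3⟩ :=
    (H21.pc_of_psolvable hsolv fun χ h1 => h ⟨χ, h1⟩).comm fun χ h1 => h ⟨χ, h1⟩
  obtain rfl : R = P := (h2.toSylow h3).is_maximal' P.isPGroup' (h2.le_sylow_of_normal P) |>.symm
  exact ⟨‹_›, H1.isMulCommutative_iff'.2 h1⟩

end Cfsg.Agent.S4713
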