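import Cfsg.Statements.S4714
import Cfsg.Agent.H20.BP
import Cfsg.Agent.H19.Ht5
import Cfsg.Agent.H20.Amb
-- import your own Cfsg.Agent.* helpers here

set_option autoImplicit false
open Cfsg

namespace Cfsg.Agent.S4714

open H17


/-- Let p be a prime, M a maximal ideal of the algebraic integers containing p, D a p-subgroup of the finite group G with G = D·C_G(D), and B a p-block with defect group D. Let χ be a member of B having D in its kernel (there is exactly one, the canonical character of B). Then the irreducible characters in B are exactly the functions θ on G for which there is an irreducible character ζ of D such that θ(yx) = ζ(y)χ(x) whenever y ∈ D, x has order prime to p and x commutes with y, and θ(z) = 0 whenever the p-part of z does not lie in D. -/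
theorem result {G : Type*} [Group G] [Finite G] (p : ℕ) [Fact p.Prime] (M : Ideal Cfsg.AlgInt) (hM : Cfsg.IsPModular p M) (D : Subgroup G) (hD : IsPGroup p D) (hG : D ⊔ Subgroup.centralizer (D : Set G) = ⊤) (B : Set (Cfsg.IrrCharacter G)) (hB : Cfsg.IsPBlock M B) (hBD : Cfsg.IsDefectGroup p M B D) (χ : Cfsg.IrrCharacter G) (hχ : χ ∈ B) (hχD : ∀ y ∈ D, (χ : G → ℂ) y = (χ : G → ℂ) 1) : (∀ θ : Cfsg.IrrCharacter G, θ ∈ B ↔ ∃ ζ : Cfsg.IrrCharacter D, (∀ (y : D) (x : G), ¬ p ∣ orderOf x → Commute (y : G) x → (θ : G → ℂ) ((y : G) * x) = (ζ : D → ℂ) y * (χ : G → ℂ) x) ∧ (∀ z : G, (∀ y : G, Cfsg.IsPPart p z y → y ∉ D) → (θ : G → ℂ) z = 0)) ∧ ∀ ζ : Cfsg.IrrCharacter D, ∃ θ ∈ B, (∀ (y : D) (x : G), ¬ p ∣ orderOf x → Commute (y : G) x → (θ : G → ℂ) ((y : G) * x) = (ζ : D → ℂ) y * (χ : G → ℂ) x) ∧ (∀ z : G, (∀ y : G, Cfsg.IsPPart p z y → y ∉ D) → (θ : G → ℂ) z = 0) := by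
  classical
  obtain ⟨O, hO, _⟩ := H19.exists_over hM
  obtain ⟨β, rfl⟩ := hO.exists_blk hB
  have hd := (H20.isDefectGroup_iff hO hM _ _).1 hBD
  have hd' := (H20.isDef_iff _ _).2 hd
  have := H19.normal_of_sup_cent hG
  obtain ⟨e, hm⟩ := H20.exists_max (H20.isBlk_eG β) hd
  obtain ⟨b, hb⟩ := H19.exists_SB hm
  have hi : H20.Inner p ⊤ D e := fun Q g h => by
    obtain ⟨u, hu, c, hc, rfl⟩ := H19.exists_mul_of_sup_cent hG g
    exact ⟨u, hu, by simpa using H20.cent_anti h.le hc⟩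
  have hk : D ≤ charKer (χ : G → ℂ) := fun y hy => χ.2.mem_charKer.2 (hχD y hy)
  have h0 : blockHeight p (H19.irr β) χ = 0 := by
    obtain ⟨θ, -, -, h1, h2, -⟩ := hd'.irr_of_sup_cent hG
    rw [H19.height_zero_iff_add hχ, h2 χ hχ hk, h1, ← hd'.fact_card, add_comm,
      H19.fact_card_add_index]
  obtain ⟨Φ, hΦ⟩ := H20.BP.exists_equiv hb hi hχ h0
  have key : ∀ ζ : IrrCharacter D, (∀ (y : D) (x : G), ¬ p ∣ orderOf x → Commute (y : G) x →
      ((Φ ζ).1 : G → ℂ) ((y : G) * x) = (ζ : D → ℂ) y * (χ : G → ℂ) x) ∧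
      ∀ z : G, (∀ y : G, IsPPart p z y → y ∉ D) → ((Φ ζ).1 : G → ℂ) z = 0 := fun ζ => by
    refine ⟨fun y x hx hc => ?_, fun z hz => by_contra fun h => ?_⟩
    · have hy := H19.isPElt_of_mem hD y.2
      let c : Subgroup.centralizer ({(y : G)} : Set G) :=
        ⟨x, Subgroup.mem_centralizer_singleton_iff.2 hc.symm.eq⟩
      have hc' : ¬ p ∣ orderOf c := by rwa [← Subgroup.orderOf_coe]
      have h1 := H19.pr_sh_star (p := p) (Λ := H19.lamF p D e (extendByZero D ζ))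
        (H19.irr_class χ) rfl hy
      rw [Finset.sum_congr rfl (g := fun γ => (ζ : D → ℂ) y • H19.dc p (y : G) γ χ) fun γ _ => by
        by_cases h : H19.Induces _ γ β
        · obtain ⟨u, hu, h2, h3⟩ := H20.BP.exists_lamF hb hy h
          obtain ⟨g, rfl⟩ := isConj_iff.1 h2.symm
          obtain ⟨v, hv, w, hw, rfl⟩ := H19.exists_mul_of_sup_cent hG g
          rw [(h3 _ (H20.BP.st_of_inner hb hi (by
            simpa only [H20.ext_coe] using H19.irr_class ζ))).1, H20.conj_eq_of_cent (u := v)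
              (by simpa using hw) y.2, ← H19.irr_class ζ y ⟨v, hv⟩, ← H20.ext_coe ζ.1]
          rfl
        · rw [← H19.dc_apply, H19.dc_eq_zero rfl hy (H20.irr_mem_LB hχ) h, smul_zero, smul_zero],
        ← Finset.smul_sum, H19.sum_dc le_rfl (H19.irr_class χ)] at h1
      have h2 := congrFun h1 c
      rw [Pi.smul_apply, H19.pr_of_reg _ hc', H19.pr_of_reg _ hc'] at h2
      rw [(hΦ ζ).1, ← mem_charKer_def.1 (hk y.2) x]
      exact h2
    · obtain ⟨c, hc⟩ := H19.IsDef.exists_conj_mem_of_irr_ne_zero ((show H19.lam O (Φ ζ).1 = β from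
        (Φ ζ).2).symm ▸ hd') (H19.isPPart_ppart z) h
      exact hz _ (H19.isPPart_ppart z) (by simpa [mul_assoc] using this.conj_mem _ hc c⁻¹)
  refine ⟨fun θ => ⟨fun h => ⟨Φ.symm ⟨θ, h⟩, by simpa using key (Φ.symm ⟨θ, h⟩)⟩,
    fun ⟨ζ, h1, h2⟩ => ?_⟩, fun ζ => ⟨_, (Φ ζ).2, key ζ⟩⟩
  refine (show (Φ ζ).1 = θ from Subtype.ext (funext fun g => ?_)) ▸ (Φ ζ).2
  by_cases h : H19.ppart p g ∈ D
  · rw [← H19.ppart_mul_rpart (p := p) g]
    exact ((key ζ).1 ⟨_, h⟩ _ (H19.rpart_reg g) (H19.commute_ppart_rpart g)).trans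
      (h1 ⟨_, h⟩ _ (H19.rpart_reg g) (H19.commute_ppart_rpart g)).symm
  · have := fun y (hy : IsPPart p g y) => H19.ppart_eq hy ▸ h
    rw [(key ζ).2 g this, h2 g this]

end Cfsg.Agent.S4714
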