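import Cfsg.Statements.S4715
import Cfsg.Agent.H20.K0
-- import your own Cfsg.Agent.* helpers here

set_option autoImplicit false
open Cfsg

namespace Cfsg.Agent.S4715

/-- Let p be a prime, M a maximal ideal of the algebraic integers containing p, B a p-block of the finite group G with defect group D of order p^d, H = D·C_G(D), b a block of H inducing B, T the stabilizer of b in N_G(D) and e = [T : H] the inertial index of B; let n be the integer with p^n ≤ e < p^(n+1) and p^c the order of the centre of D. Then every irreducible character in B has height h with h + c ≤ n + d. -/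
theorem result {G : Type*} [Group G] [Finite G] (p : ℕ) [Fact p.Prime] (M : Ideal Cfsg.AlgInt) (hM : Cfsg.IsPModular p M) (B : Set (Cfsg.IrrCharacter G)) (hB : Cfsg.IsPBlock M B) (D : Subgroup G) (hBD : Cfsg.IsDefectGroup p M B D) (d : ℕ) (hDd : Nat.card D = p ^ d) (H : Subgroup G) (hH : H = D ⊔ Subgroup.centralizer (D : Set G)) (b : Set (Cfsg.IrrCharacter H)) (hind : Cfsg.IsInducedBlock M H b B) (T : Subgroup G) (hT : ∀ g : G, g ∈ T ↔ (g ∈ Subgroup.normalizer (D : Set G) ∧ ∀ θ ∈ b, ∀ θ' : Cfsg.IrrCharacter H, (∀ h h' : H, (h' : G) = g * h * g⁻¹ → (θ' : H → ℂ) h' = (θ : H → ℂ) h) → θ' ∈ b)) (e : ℕ) (he : H.relIndex T = e) (n : ℕ) (hn : p ^ n ≤ e ∧ e < p ^ (n + 1)) (c : ℕ) (hc : Nat.card (Subgroup.center D) = p ^ c) : ∀ χ ∈ B, Cfsg.blockHeight p B (χ : G → ℂ) + c ≤ n + d := by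
  obtain ⟨O, hO, _⟩ := H19.exists_over hM
  have hp : p.Prime := Fact.out
  have := Fintype.ofFinite G
  obtain ⟨β, rfl⟩ := hO.exists_blk hB
  obtain ⟨γ, rfl⟩ := hO.exists_blk hind.1
  rw [H20.isDefectGroup_iff hO hM] at hBD
  rw [H20.isInducedBlock_iff hO] at hind
  subst hH
  have hn' : D ⊔ H20.cent D ≤ H20.nrm D := sup_le (H20.le_nrm_self D) (H20.cent_le_nrm D)
  have hγ := H20.isBlk_eA _ γ
  have h1 := (H20.ind_iff_br hBD.pg le_top (le_sup_left.trans (H20.le_nrm_self _))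
    (inf_le_right.trans le_sup_right) le_top hn' hγ (H20.isBlk_eG β)).1 hind
  have h2 : H20.IsBlk (H20.cent D) (H20.eA _ γ) := by
    obtain ⟨f, hf, h3⟩ := (H20.pidx_sup hBD.pg ((H20.le_nrm_self D).trans
      (H20.nrm_le_nrm_cent D))).exists_osum (hn'.trans (H20.nrm_le_nrm_cent D)) le_sup_right hγ
    rwa [h3, H20.osum_eq_self (H20.mem_fixed_sup.2 ⟨H20.supp_cent_le_fixed D hf.supp, hf.fixed⟩)]
  have hm : H20.Max p ⊤ (H20.eG β) D (H20.eA _ γ) :=
    ⟨H20.isBlk_eG β, ⟨H20.isPair_top.2 ⟨hBD.pg, h2⟩, le_top, h1⟩, hBD⟩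
  have hTT : T = H20.TT D (H20.eA _ γ) := Subgroup.ext fun g => by
    rw [hT, Subgroup.mem_inf]
    refine and_congr_right fun hg => H20.inv_iff_cj ?_
    rw [H20.mem_nrm, H20.sc_sup, H20.sc_eq_of_nrm hg, H20.sc_eq_of_nrm (H20.nrm_le_nrm_cent D hg)]
  intro χ hχ
  have h4 := H20.pow_height_le hm hχ
  have h5 : Nat.card (D ⊓ H20.cent D : Subgroup G) = p ^ c := by
    rw [← hc]
    refine Nat.card_congr ⟨fun x => ⟨⟨x.1, x.2.1⟩, Subgroup.mem_center_iff.2 fun g =>
      Subtype.ext (Subgroup.mem_centralizer_iff.1 x.2.2 g g.2)⟩, fun x => ⟨x.1.1, x.1.2,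
      Subgroup.mem_centralizer_iff.2 fun g hg => congrArg Subtype.val
        (Subgroup.mem_center_iff.1 x.2 ⟨g, hg⟩)⟩, fun _ => rfl, fun _ => rfl⟩
  rw [← hTT, he, h5, hDd, ← pow_add] at h4
  have h6 := h4.trans_lt (Nat.mul_lt_mul_of_pos_left hn.2 (pow_pos hp.pos d))
  rw [← pow_add, Nat.pow_lt_pow_iff_right hp.one_lt] at h6
  omega

end Cfsg.Agent.S4715
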