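import Cfsg.Statements.S4717
import Cfsg.Agent.H20.Rk
-- import your own Cfsg.Agent.* helpers here

set_option autoImplicit false
open Cfsg

namespace Cfsg.Agent.S4717

/-- Let p be a prime, M a maximal ideal of the algebraic integers containing p, and r a natural number; say that a finite group X has deficiency class r when X has no non-principal p-block of defect ≥ r. If G has deficiency class r then so does the centralizer of every p-element of G; conversely, if r > 0 and the centralizer of every element of order p has deficiency class r, then G has deficiency class r. -/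
theorem result {G : Type*} [Group G] [Finite G] (p : ℕ) [Fact p.Prime] (M : Ideal Cfsg.AlgInt) (hM : Cfsg.IsPModular p M) (r : ℕ) : ((∀ B' : Set (Cfsg.IrrCharacter G), Cfsg.IsPBlock M B' → B' ≠ Cfsg.principalBlock M G → Cfsg.blockDefect p B' < r) → ∀ y : G, (∃ k : ℕ, orderOf y = p ^ k) → (∀ B' : Set (Cfsg.IrrCharacter ↥(Subgroup.centralizer ({y} : Set G))), Cfsg.IsPBlock M B' → B' ≠ Cfsg.principalBlock M ↥(Subgroup.centralizer ({y} : Set G)) → Cfsg.blockDefect p B' < r)) ∧ (0 < r → (∀ y : G, orderOf y = p → (∀ B' : Set (Cfsg.IrrCharacter ↥(Subgroup.centralizer ({y} : Set G))), Cfsg.IsPBlock M B' → B' ≠ Cfsg.principalBlock M ↥(Subgroup.centralizer ({y} : Set G)) → Cfsg.blockDefect p B' < r)) → (∀ B' : Set (Cfsg.IrrCharacter G), Cfsg.IsPBlock M B' → B' ≠ Cfsg.principalBlock M G → Cfsg.blockDefect p B' < r)) := by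
  obtain ⟨O, hO, _⟩ := H19.exists_over hM
  simp only [hO.principalBlock_eq]
  constructor
  · intro h y hy B hB hne
    obtain ⟨b, rfl⟩ := hO.exists_blk hB
    obtain ⟨β, hi⟩ := H19.exists_induces_centralizer hy b
    refine (H20.Induces.defect_le hi).trans_lt (h _ (hO.isPBlock_irr β) fun h1 => hne ?_)
    rw [(H19.induces_B0_iff hy b).1 (H19.irr_injective h1 ▸ hi)]
  · intro hr h B hB hne
    obtain ⟨β, rfl⟩ := hO.exists_blk hB
    by_contra h1
    obtain ⟨D, hD⟩ := H20.exists_isDef p ⊤ (H20.isBlk_eG β).ne_zero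
    have h2 : Nontrivial D := (Subgroup.nontrivial_iff_ne_bot D).2 fun h3 => by
      have := hD.eq_bot_iff.1 h3
      omega
    have h3 := hD.pg.center_nontrivial
    obtain ⟨y, hy⟩ := exists_prime_orderOf_dvd_card' (G := Subgroup.center D) p
      ((hD.pg.to_subgroup _).card_eq_or_dvd.resolve_left Finite.one_lt_card.ne')
    have h4 : orderOf ((y : D) : G) = p := by rw [Subgroup.orderOf_coe, Subgroup.orderOf_coe, hy]
    obtain ⟨b, hi, -, h5⟩ := H20.exists_major hD (y : D).2 fun x hx =>
      Subgroup.mem_centralizer_singleton_iff.2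
        (congrArg Subtype.val (Subgroup.mem_center_iff.1 y.2 ⟨x, hx⟩))
    refine h1 (h5 ▸ h _ h4 _ (hO.isPBlock_irr b) fun h6 => hne ?_)
    rw [hi.unique ((H19.induces_B0_iff ⟨1, by rw [h4, pow_one]⟩ b).2 (H19.irr_injective h6))]

end Cfsg.Agent.S4717
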