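import Cfsg.Statements.S4718
import Cfsg.Agent.H20.Rk
-- import your own Cfsg.Agent.* helpers here

set_option autoImplicit false
universe u
open Cfsg

namespace Cfsg.Agent.S4718

theorem landau (k : ℕ) : ∀ r : ℚ, ∃ N : ℕ, ∀ s : Multiset ℕ, s.card ≤ k → (∀ n ∈ s, 0 < n) →
    (s.map fun n : ℕ => (n : ℚ)⁻¹).sum = r → ∀ n ∈ s, n ≤ N := by
  induction k with
  | zero =>
    refine fun r => ⟨0, fun s hs _ _ n hn => ?_⟩
    rw [Multiset.card_eq_zero.1 (Nat.le_zero.1 hs)] at hn
    exact absurd hn (Multiset.notMem_zero n)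
  | succ k ih =>
    intro r
    choose N hN using ih
    let b := ⌈((k + 1 : ℕ) : ℚ) / r⌉₊
    refine ⟨b + (Finset.range (b + 1)).sup fun m => N (r - (m : ℚ)⁻¹), fun s hs hp hr n hn => ?_⟩
    obtain ⟨m, hm, h1⟩ := Finset.exists_min_image s.toFinset id ⟨n, Multiset.mem_toFinset.2 hn⟩
    have hm' := Multiset.mem_toFinset.1 hm
    have hm0 : (0 : ℚ) < m := by exact_mod_cast hp m hm'
    obtain ⟨t, rfl⟩ := Multiset.exists_cons_of_mem hm'
    have h2 : r ≤ ((k + 1 : ℕ) : ℚ) * (m : ℚ)⁻¹ := by
      rw [← hr]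
      refine (Multiset.sum_le_card_nsmul _ (m : ℚ)⁻¹ fun x hx => ?_).trans ?_
      · obtain ⟨y, hy, rfl⟩ := Multiset.mem_map.1 hx
        exact inv_anti₀ hm0 (by exact_mod_cast h1 y (Multiset.mem_toFinset.2 hy))
      · rw [Multiset.card_map, nsmul_eq_mul]
        exact mul_le_mul_of_nonneg_right (by exact_mod_cast hs) (inv_nonneg.2 hm0.le)
    rw [Multiset.map_cons, Multiset.sum_cons] at hr
    have h3 : 0 < r := by
      rw [← hr]
      exact add_pos_of_pos_of_nonneg (inv_pos.2 hm0) (Multiset.sum_nonneg fun x hx => by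
        obtain ⟨y, -, rfl⟩ := Multiset.mem_map.1 hx
        positivity)
    have h4 : m ≤ b := by
      have : (m : ℚ) ≤ ((k + 1 : ℕ) : ℚ) / r := by
        rw [le_div_iff₀ h3]
        rwa [← div_eq_mul_inv, le_div_iff₀' hm0] at h2
      exact_mod_cast this.trans (Nat.le_ceil _)
    rcases Multiset.mem_cons.1 hn with rfl | hn'
    · omega
    · refine (hN (r - (m : ℚ)⁻¹) t (by rw [Multiset.card_cons] at hs; omega)
        (fun x hx => hp x (Multiset.mem_cons_of_mem hx)) (by rw [← hr]; ring) n hn').trans ?_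
      exact (Finset.le_sup (f := fun m : ℕ => N (r - (m : ℚ)⁻¹))
        (Finset.mem_range.2 (Nat.lt_succ_of_le h4))).trans (Nat.le_add_left _ _)


/-- Let p be a prime and a a natural number. There is a bound N such that every finite group whose Sylow p-subgroups have order p^a and whose only p-block (relative to a maximal ideal of the algebraic integers containing p) is the principal block has order at most N. -/
theorem result (p : ℕ) [Fact p.Prime] (a : ℕ) : ∃ N : ℕ, ∀ (G : Type u) [Group G] [Finite G] (M : Ideal Cfsg.AlgInt), Cfsg.IsPModular p M → (Nat.card G).factorization p = a → (∀ B : Set (Cfsg.IrrCharacter G), Cfsg.IsPBlock M B → B = Cfsg.principalBlock M G) → Nat.card G ≤ N := by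
  classical
  obtain ⟨N, hN⟩ := landau (p ^ (2 * a) + 4) 1
  refine ⟨N, fun G _ _ M hM ha h => ?_⟩
  obtain ⟨O, hO, _⟩ := H19.exists_over hM
  have := Fintype.ofFinite G
  have := Fintype.ofFinite (ConjClasses G)
  have h1 := H20.brauer_feit p (H19.B0 O G)
  have h2 := Finset.card_nsmul_le_sum (Finset.univ.filter (· ∈ H19.irr (H19.B0 O G)))
    (fun ψ : IrrCharacter G => p ^ (2 * blockHeight p (H19.irr (H19.B0 O G)) ψ)) 1
    fun ψ _ => Nat.one_le_pow _ _ hM.1.pos
  have h0 : (Finset.univ.filter (· ∈ H19.irr (H19.B0 O G))).card =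
      (Finset.univ : Finset (IrrCharacter G)).card := by
    rw [Finset.filter_true_of_mem fun χ _ => by
      rw [← hO.principalBlock_eq, ← h _ (hO.isPBlock_irr (H19.lam O χ))]
      exact H19.mem_irr_lam χ]
  rw [smul_eq_mul, mul_one, h0, Finset.card_univ, ← Nat.card_eq_fintype_card, H17.card_irr] at h2
  rw [H20.defect_B0, ha] at h1
  refine hN (Finset.univ.val.map fun K : ConjClasses G =>
    Nat.card (Subgroup.centralizer ({H19.rep K} : Set G))) ?_ ?_ ?_ _ ?_
  · rw [Multiset.card_map, Finset.card_val, Finset.card_univ, ← Nat.card_eq_fintype_card]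
    omega
  · intro n hn
    obtain ⟨K, -, rfl⟩ := Multiset.mem_map.1 hn
    exact Nat.card_pos
  · rw [Multiset.map_map, ← Finset.sum_eq_multiset_sum]
    have h3 := H17.sum_card_centralizer_mul (G := G) fun K =>
      (Nat.card (Subgroup.centralizer ({H19.rep K} : Set G)) : ℂ)⁻¹
    rw [Finset.sum_congr rfl (g := fun _ => 1) fun g _ => by
      rw [H17.card_centralizer_of_isConj (H19.isConj_rep_mk g),
        mul_inv_cancel₀ H17.card_ne_zero_complex], Finset.sum_const, Finset.card_univ,
      ← Nat.card_eq_fintype_card, nsmul_eq_mul] at h3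
    have h4 := mul_left_cancel₀ H17.card_ne_zero_complex h3
    apply Rat.cast_injective (α := ℂ)
    simpa using h4.symm
  · refine Multiset.mem_map.2 ⟨ConjClasses.mk 1, Finset.mem_univ _, ?_⟩
    rw [isConj_one_left.1 (H19.isConj_rep_mk (1 : G)), Subgroup.centralizer_eq_top_iff_subset.2
      (by simp), Subgroup.card_top]

end Cfsg.Agent.S4718
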