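import Cfsg.Statements.S4719
import Cfsg.Agent.H19.BF
import Cfsg.Agent.H19.Ker
import Cfsg.Agent.S4718

set_option autoImplicit false
universe u
open Cfsg

namespace Cfsg.Agent.S4719
open H17 H19

/-- For every natural number a there is a bound N with the following property. Let G be a finite group with Sylow 2-subgroups of order 2^a and r ≥ 0 such that G has no non-principal 2-block (relative to a maximal ideal of the algebraic integers containing 2) of defect ≥ r, and suppose a Sylow 2-subgroup of G contains an elementary abelian subgroup of order 2^(r+1). Then the order of G is at most N. -/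
theorem result (a : ℕ) : ∃ N : ℕ, ∀ (G : Type u) [Group G] [Finite G] (M : Ideal Cfsg.AlgInt) (r : ℕ) (P : Sylow 2 G), Cfsg.IsPModular 2 M → Nat.card P = 2 ^ a → (∀ B : Set (Cfsg.IrrCharacter G), Cfsg.IsPBlock M B → B ≠ Cfsg.principalBlock M G → Cfsg.blockDefect 2 B < r) → (∃ E : Subgroup G, E ≤ (P : Subgroup G) ∧ IsMulCommutative E ∧ (∀ x ∈ E, x * x = 1) ∧ Nat.card E = 2 ^ (r + 1)) → Nat.card G ≤ N := by
  choose N₀ h₀ using Cfsg.Agent.S4718.result.{u} 2
  have key : ∀ i : ℕ, ∃ N : ℕ, ∀ (G : Type u) [Group G] [Finite G] (M : Ideal Cfsg.AlgInt) (r : ℕ)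
      (E : Subgroup G), Cfsg.IsPModular 2 M → (∀ T : Subgroup G, IsPGroup 2 T → Nat.card T ≤ 2 ^ a) →
      (∀ B : Set (Cfsg.IrrCharacter G), Cfsg.IsPBlock M B → B ≠ Cfsg.principalBlock M G →
        Cfsg.blockDefect 2 B < r) → IsMulCommutative E → (∀ x ∈ E, x * x = 1) →
      Nat.card E = 2 ^ (r + 1) → ∀ U ≤ E, Nat.card E ≤ 2 ^ (i + 1) * Nat.card U →
      Nat.card (H20.cent U) ≤ N := by
    intro i
    induction i with
    | zero =>
      refine ⟨∑ j ∈ Finset.range (a + 1), N₀ j, fun G _ _ M r E hM hT hB _ h2 hE U hU hc => ?_⟩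
      have hU2 : IsPGroup 2 U := fun x => ⟨1, Subtype.ext (by simpa [sq] using h2 x (hU x.2))⟩
      obtain ⟨O, hO, _⟩ := exists_over hM
      refine (h₀ _ _ M hM rfl fun B hB' => ?_).trans (Finset.single_le_sum (f := N₀)
        (fun _ _ => Nat.zero_le _) (Finset.mem_range.2 (Nat.lt_succ_of_le ?_)))
      · obtain ⟨ε, rfl⟩ := hO.exists_blk hB'
        obtain ⟨f, hf⟩ := H20.exists_ind (H := ⊤) hU2 le_top
          (Subgroup.le_normalizer.trans (H20.nrm_le_nrm_cent U)) inf_le_right le_top
          (H20.cent_le_nrm U) (H20.isBlk_eA _ ε)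
        obtain ⟨β, rfl⟩ := hf.right.exists_eG
        have hp := (H20.isInducedBlock_cent_iff hO hU2 ε β).1 ((H20.isInducedBlock_iff hO _ _).2 hf)
        obtain ⟨D, hD, hUD⟩ := H20.exists_isDef_ge hU2 le_top hp.br_ne_zero
        have h3 := Subgroup.card_le_of_le hUD
        rw [((H20.isDef_iff β D).2 hD).card_eq_pow] at h3
        have h4 : irr β = principalBlock M G := by
          by_contra hn
          have := Nat.pow_le_pow_right two_pos (hB _ (hO.isPBlock_irr β) hn)
          rw [hE, pow_succ, pow_succ] at hc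
          rw [pow_succ] at this
          have := Nat.two_pow_pos (blockDefect 2 (irr β))
          omega
        rw [hO.principalBlock_eq, irr_injective.eq_iff] at h4 ⊢
        exact H20.aug_eA_iff.1 (hp.aug_eq_one hf.right H20.nrm_top.ge le_rfl (H20.aug_eG_iff.2 h4))
      · obtain ⟨T, hT'⟩ := H10.exists_isSylowIn 2 (H20.cent U)
        exact (Nat.pow_le_pow_iff_right one_lt_two).1 (hT'.card_eq_pow ▸ hT T hT'.isPGroup)
    | succ i ih =>
      obtain ⟨c, ih⟩ := ih
      obtain ⟨N, hN⟩ := BF.bound.{u} (2 ^ a) c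
      refine ⟨c + N, fun G _ _ M r E hM hT hB hab h2 hE U hU hc => ?_⟩
      by_cases h : Nat.card E ≤ 2 * Nat.card U
      · exact (ih G M r E hM hT hB hab h2 hE U hU (h.trans (Nat.mul_le_mul_right _
          (Nat.le_self_pow i.succ_ne_zero 2)))).trans (Nat.le_add_right _ _)
      have l1 : E ≤ H20.cent U := (Subgroup.le_centralizer E).trans (H20.cent_anti hU)
      refine (hN _ (E.subgroupOf (H20.cent U)) (U.subgroupOf (H20.cent U)) (fun T hT' => ?_)
        inferInstance (fun x hx => Subtype.ext (h2 x hx)) ?_ fun v hv hvU => ?_).trans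
        (Nat.le_add_left _ _)
      · rw [← Subgroup.card_map_of_injective (H20.cent U).subtype_injective]
        exact hT _ (hT'.map _)
      · rw [Nat.card_congr (Subgroup.subgroupOfEquivOfLe l1).toEquiv,
          Nat.card_congr (Subgroup.subgroupOfEquivOfLe (hU.trans l1)).toEquiv]
        exact not_le.1 h
      · have l2 : U ⊔ Subgroup.zpowers (v : G) ≤ E := sup_le hU (Subgroup.zpowers_le.2 hv)
        have h3 := ih G M r E hM hT hB hab h2 hE _ l2 (hc.trans (by
          rw [pow_succ, mul_assoc]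
          refine Nat.mul_le_mul_left _ ?_
          obtain ⟨k, hk⟩ := Subgroup.card_dvd_of_le (le_sup_left : U ≤ U ⊔ Subgroup.zpowers (v : G))
          have := H10.card_lt_of_lt (lt_of_le_of_ne (le_sup_left : U ≤ U ⊔ Subgroup.zpowers (v : G))
            fun e => hvU (e.ge (Subgroup.mem_sup_right (Subgroup.mem_zpowers _))))
          rw [hk] at this ⊢
          rw [mul_comm]
          exact Nat.mul_le_mul_left _ ((Nat.lt_mul_iff_one_lt_right Nat.card_pos).1 this)))
        rw [← Subgroup.card_map_of_injective (H20.cent U).subtype_injective, ← H20.cent_zpowers]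
        rwa [H20.cent_sup, ← Subgroup.coe_subtype, ← MonoidHom.map_zpowers, ← H20.up_cent] at h3
  obtain ⟨N, hN⟩ := key a
  refine ⟨N, fun G _ _ M r P hM hP hB ⟨E, hEP, hab, h2, hE⟩ => ?_⟩
  have hT : ∀ T : Subgroup G, IsPGroup 2 T → Nat.card T ≤ 2 ^ a := fun T hT =>
    hP ▸ (H10.isSylowIn_top P).card_le hT le_top
  have := hN G M r E hM hT hB hab h2 hE ⊥ bot_le (by
    rw [Subgroup.card_bot, mul_one]
    exact ((Subgroup.card_le_of_le hEP).trans_eq hP).trans (Nat.pow_le_pow_right two_pos a.le_succ))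
  rwa [H20.cent_bot, Subgroup.card_top] at this

end Cfsg.Agent.S4719
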