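import Cfsg.Statements.S4720
import Cfsg.Agent.H20.Amb
-- import your own Cfsg.Agent.* helpers here

set_option autoImplicit false
open Cfsg

namespace Cfsg.Agent.S4720

/-- Let p be a prime, M a maximal ideal of the algebraic integers containing p, P a p-subgroup of the finite group G, N a subgroup with P ≤ N ≤ N_G(P), and U a nonempty subset of P normalized by N such that an element of U and an element of P that are conjugate in G are already conjugate in N, and such that λ(C_G(y)) = w·#C_N(y) for every y ∈ U with one rational number w, where λ(X) denotes the sum of the squares of the degrees of the irreducible characters in the principal p-block of X. For a complex function θ on P and χ in the principal block of G put a_χ(θ) = #P⁻¹ Σ_{y ∈ P} χ(y) θ(y⁻¹). Then for generalized characters θ, η of P with θ vanishing outside U, Σ_χ a_χ(θ)·conj(a_χ(η)) = (w/#P²)·Σ_{y ∈ P} θ(y)·conj(Σ_{x ∈ N} η(x y x⁻¹)) (η extended by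 zero off P; the conjugates lie in P), the first sum over the principal p-block of G. -/
theorem result {G : Type*} [Group G] [Finite G] (p : ℕ) [Fact p.Prime] (M : Ideal Cfsg.AlgInt) (hM : Cfsg.IsPModular p M) (P : Subgroup G) (hP : IsPGroup p P) (N : Subgroup G) (hPN : P ≤ N) (hNN : N ≤ Subgroup.normalizer (P : Set G)) (U : Set G) (hUne : U.Nonempty) (hUP : U ⊆ (P : Set G)) (hUN : ∀ n ∈ N, ∀ u ∈ U, n * u * n⁻¹ ∈ U) (hfus : ∀ u ∈ U, ∀ g : G, g * u * g⁻¹ ∈ (P : Set G) → ∃ n ∈ N, n * u * n⁻¹ = g * u * g⁻¹) (w : ℚ) (hw : ∀ y ∈ U, ((∑ᶠ ψ ∈ Cfsg.principalBlock M ↥(Subgroup.centralizer ({y} : Set G)), Cfsg.charDegree (ψ : ↥(Subgroup.centralizer ({y} : Set G)) → ℂ) ^ 2) : ℚ) = w * Nat.card ↥(N ⊓ Subgroup.centralizer ({y} : Set G))) (θ η : ↥P → ℂ) (hθ : Cfsg.IsGeneralizedCharacter ↥P θ) (hη : Cfsg.IsGeneralizedCharacter ↥P η) (hθU : ∀ y : ↥P, (y : G) ∉ U → θ y = 0) : ∑ᶠ χ ∈ Cfsg.principalBlock M G, ((Nat.card ↥P : ℂ)⁻¹ *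 ∑ᶠ y : ↥P, (χ : G → ℂ) (y : G) * θ y⁻¹) * (starRingEnd ℂ) ((Nat.card ↥P : ℂ)⁻¹ * ∑ᶠ y : ↥P, (χ : G → ℂ) (y : G) * η y⁻¹) = ((w : ℂ) / ((Nat.card ↥P : ℂ) ^ 2)) * ∑ᶠ y : ↥P, θ y * (starRingEnd ℂ) (∑ᶠ x : ↥N, Cfsg.extendByZero P η ((x : G) * (y : G) * (x : G)⁻¹)) := by
  classical
  obtain ⟨O, hO, _⟩ := H19.exists_over hM
  have := Fintype.ofFinite G
  have h1 : ∀ y ∈ U, H19.Kr (H19.irr (H19.B0 O G)) y y =
      w * Nat.card ↥(N ⊓ Subgroup.centralizer ({y} : Set G)) := fun y hy => by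
    have h2 := H19.Kr_shift_B0 (O := O) (H19.isPElt_of_mem hP (hUP hy)) (y := 1) (z := 1)
      H19.preg_one H19.preg_one
    have h3 := congrArg (fun q : ℚ => (q : ℂ)) (hw y hy)
    rw [hO.principalBlock_eq, H19.finsum_mem_irr] at h3
    simp only [OneMemClass.coe_one, mul_one] at h2
    push_cast at h3
    rw [h2, H19.Kr_eq, ← h3]
    simp [H19.cast_deg, sq]
  have h2 : ∀ y : P, (y : G) ∈ U → ∑ x : N, extendByZero P η ((x : G) * y * (x : G)⁻¹) =
      Nat.card ↥(N ⊓ Subgroup.centralizer ({(y : G)} : Set G)) *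
        ∑ z ∈ Finset.univ.filter fun z : P => IsConj (y : G) z, η z := fun y hy => by
    have h3 : ∀ x : N, (x : G) * y * (x : G)⁻¹ ∈ P := fun x =>
      (Subgroup.mem_normalizer_iff.1 (hNN x.2) y).1 y.2
    rw [← Finset.sum_fiberwise_of_maps_to (t := Finset.univ.filter fun z : P => IsConj (y : G) z)
      (g := fun x : N => (⟨_, h3 x⟩ : P)) fun x _ =>
        Finset.mem_filter.2 ⟨Finset.mem_univ _, isConj_iff.2 ⟨x, rfl⟩⟩, Finset.mul_sum]
    refine Finset.sum_congr rfl fun z hz => ?_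
    rw [Finset.sum_congr rfl (g := fun _ => η z) fun x hx => by
      rw [← (Finset.mem_filter.1 hx).2]; exact H20.ext_coe η ⟨_, h3 x⟩,
      Finset.sum_const, nsmul_eq_mul, ← Fintype.card_subtype, ← Nat.card_eq_fintype_card]
    obtain ⟨g, hg⟩ := isConj_iff.1 (Finset.mem_filter.1 hz).2
    obtain ⟨n, hn, h4⟩ := hfus y hy g (hg ▸ z.2)
    rw [hg] at h4
    congr 2
    refine Nat.card_congr ⟨fun m => ⟨n⁻¹ * m, N.mul_mem (N.inv_mem hn) m.1.2, ?_⟩,
      fun c => ⟨⟨n * c, mul_mem hn c.2.1⟩, Subtype.ext ?_⟩, fun m => by simp, fun c => by simp⟩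
    · refine Subgroup.mem_centralizer_singleton_iff.2 ?_
      have : (m.1 : G) * y * (m.1 : G)⁻¹ = n * y * n⁻¹ := h4 ▸ Subtype.ext_iff.1 m.2
      calc n⁻¹ * m * y = n⁻¹ * ((m.1 : G) * y * (m.1 : G)⁻¹) * m := by group
        _ = _ := by rw [this]; group
    · have := Subgroup.mem_centralizer_singleton_iff.1 c.2.2
      change n * c * y * (n * c)⁻¹ = z
      rw [← h4, mul_assoc n, this]; group
  rw [hO.principalBlock_eq, H19.finsum_mem_irr]
  simp only [finsum_eq_sum_of_fintype]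
  have h3 : ∀ (χ : IrrCharacter G) (φ : P → ℂ), ∑ y : P, (χ : G → ℂ) y * φ y⁻¹ =
      ∑ y : P, (χ : G → ℂ) (y : G)⁻¹ * φ y := fun χ φ =>
    Fintype.sum_equiv (Equiv.inv P) _ _ fun y => by simp
  simp only [h3, map_mul, map_sum, map_inv₀, map_natCast, H19.irr_conj, inv_inv]
  rw [Finset.sum_congr rfl fun (χ : IrrCharacter G) _ => show ((Nat.card P : ℂ)⁻¹ * ∑ y : P,
      (χ : G → ℂ) (y : G)⁻¹ * θ y) * ((Nat.card P : ℂ)⁻¹ * ∑ z : P, (χ : G → ℂ) z *
      (starRingEnd ℂ) (η z)) = ((Nat.card P : ℂ) ^ 2)⁻¹ * ∑ y : P, ∑ z : P,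
    θ y * (starRingEnd ℂ) (η z) * ((χ : G → ℂ) z * (χ : G → ℂ) (y : G)⁻¹) by
      rw [mul_mul_mul_comm, Finset.sum_mul_sum, sq, mul_inv]
      exact congrArg _ (Finset.sum_congr rfl fun _ _ => Finset.sum_congr rfl fun _ _ => by ring),
    ← Finset.mul_sum, Finset.sum_comm, div_eq_inv_mul, mul_assoc, Finset.mul_sum _ _ (w : ℂ)]
  refine congrArg _ (Finset.sum_congr rfl fun y _ => ?_)
  by_cases hy : (y : G) ∈ U
  swap
  · simp [hθU y hy]
  rw [← map_sum, h2 y hy, map_mul, map_natCast, map_sum, Finset.sum_comm, Finset.sum_filter,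
    Finset.mul_sum, Finset.mul_sum, Finset.mul_sum]
  refine Finset.sum_congr rfl fun z _ => ?_
  rw [← Finset.mul_sum, ← H19.Kr_eq]
  split_ifs with hc
  · rw [H19.Kr_isConj _ hc.symm (IsConj.refl _), h1 y hy]; ring
  · rw [H19.Kr_eq_zero _ (H19.isPPart_self (H19.isPElt_of_mem hP z.2))
      (H19.isPPart_self (H19.isPElt_of_mem hP y.2)) fun h => hc h.symm]
    simp

end Cfsg.Agent.S4720
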