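import Cfsg.Statements.S4721
import Cfsg.Agent.H19.Exc3
import Cfsg.Agent.H19.Bridge

set_option autoImplicit false
open Cfsg

namespace Cfsg.Agent.S4721
open H17 H19

/-- Let p be a prime, M a maximal ideal of the algebraic integers containing p, and G a finite group with a nontrivial abelian Sylow p-subgroup P, N = N_G(P), C = C_G(P), such that N/C is cyclic of order 3, #P > 4, and C_G(y) ∩ N = C for every non-identity y ∈ P. Then the principal p-block is the disjoint union of a set X of exactly 3 characters containing the principal character and a set Y of (#P − 1)/3 characters, with signs a_χ = ±1 (χ ∈ X, a = 1 at the principal character) and δ = ±1 such that every χ ∈ X takes the value a_χ at every element whose p-part is a non-identity element of P, and there is a map ζ from the non-principal linear characters of P onto Y, constant on N-conjugacy classes, with ζ_ψ(z) = δ·Σ ψ'(y) over the N-orbit of ψ,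 for z with p-part y ≠ 1 in P. If moreover G has an involution lying in no proper normal subgroup of G, then exactly two of the three numbers −δ and a_χ (χ ∈ X non-principal) equal −1, and the product of the degrees of the two non-principal members of X and of any member of Y is a perfect square. -/
theorem result {G : Type*} [Group G] [Finite G] (p : ℕ) [Fact p.Prime] (M : Ideal Cfsg.AlgInt) (hM : Cfsg.IsPModular p M) (P : Sylow p G) (hab : IsMulCommutative P) (hP1 : Nat.card P ≠ 1) (hCN : (Subgroup.centralizer ((P : Subgroup G) : Set G)).relIndex (Subgroup.normalizer ((P : Subgroup G) : Set G)) = 3) (hcyc : ∃ g : G, g ∈ Subgroup.normalizer ((P : Subgroup G) : Set G) ∧ Subgroup.centralizer ((P : Subgroup G) : Set G) ⊔ Subgroup.zpowers g = Subgroup.normalizer ((P : Subgroup G) : Set G)) (hm2 : 3 + 1 < Nat.card P) (hfrob : ∀ y : G, y ∈ (P : Subgroup G) → y ≠ 1 → Subgroup.centralizer ({y} : Set G) ⊓ Subgroup.normalizer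 ((P : Subgroup G) : Set G) = Subgroup.centralizer ((P : Subgroup G) : Set G)) : ∃ (X Y : Set (Cfsg.IrrCharacter G)), Cfsg.principalBlock M G = X ∪ Y ∧ Disjoint X Y ∧ Nat.card X = 3 ∧ Nat.card Y = (Nat.card P - 1) / 3 ∧ (∃ χ₁ ∈ X, (χ₁ : G → ℂ) = fun _ => 1) ∧ ∃ (a : Cfsg.IrrCharacter G → ℤ) (δ : ℤ) (ζ : (↥(P : Subgroup G) →* ℂˣ) → Cfsg.IrrCharacter G), (δ = 1 ∨ δ = -1) ∧ (∀ χ ∈ X, (a χ = 1 ∨ a χ = -1) ∧ ∀ z y : G, Cfsg.IsPPart p z y → y ∈ (P : Subgroup G) → y ≠ 1 → (χ : G → ℂ) z = (a χ : ℂ)) ∧ (∀ ψ : ↥(P : Subgroup G) →* ℂˣ, ψ ≠ 1 → ζ ψ ∈ Y) ∧ (∀ η ∈ Y, ∃ ψ : ↥(P : Subgroup G) →* ℂˣ, ψ ≠ 1 ∧ ζ ψ = η) ∧ (∀ ψ ψ' : ↥(P : Subgroup G) →* ℂˣ, ψ ≠ 1 → (∃ n : G, n ∈ Subgroup.normalizer ((P : Subgroup G) : Set G) ∧ ∀ w w' : ↥(P : Subgroup G), (w' : G) = n * w * n⁻¹ → ψ' w' = ψ w) → ζ ψ' = ζ ψ) ∧ (∀ ψ : ↥(P : Subgroup G) →* ℂˣ, ψ ≠ 1 → ∀ (z : G) (y : ↥(P : Subgroup G)), Cfsg.IsPPart p z (y : G) → (y : G) ≠ 1 → (ζ ψ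 : G → ℂ) z = (δ : ℂ) * ∑ᶠ ψ' ∈ {ψ' : ↥(P : Subgroup G) →* ℂˣ | ∃ n : G, n ∈ Subgroup.normalizer ((P : Subgroup G) : Set G) ∧ ∀ w w' : ↥(P : Subgroup G), (w' : G) = n * w * n⁻¹ → ψ' w' = ψ w}, ((ψ' y : ℂˣ) : ℂ)) ∧ ((∃ t : G, orderOf t = 2 ∧ ∀ K : Subgroup G, K.Normal → t ∈ K → K = ⊤) → Nat.card {χ : Cfsg.IrrCharacter G // χ ∈ X ∧ (χ : G → ℂ) ≠ (fun _ => 1) ∧ a χ = -1} + (if δ = 1 then 1 else 0) = 2 ∧ ∀ η ∈ Y, IsSquare (Cfsg.charDegree (η : G → ℂ) * ∏ᶠ χ ∈ {χ : Cfsg.IrrCharacter G | χ ∈ X ∧ (χ : G → ℂ) ≠ fun _ => 1}, Cfsg.charDegree (χ : G → ℂ))) := by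
  classical
  obtain ⟨O, hO, _⟩ := exists_over hM
  have h : AF p (P : Subgroup G) :=
    ⟨H10.isSylowIn_top P, P.le_centralizer, fun y hy h1 => (hfrob y hy h1).le⟩
  obtain ⟨δ, ζ, a, χ₁, χ₂, X, Y, E, h1, h2, h12, hX, ha⟩ := h.exists_three O hCN hm2
  have hm' : (H20.cent (P : Subgroup G)).relIndex (H20.nrm P) + 1 < Nat.card P := hCN ▸ hm2
  have := finite_monoidHom_units (G := (P : Subgroup G))
  have := Fintype.ofFinite ((P : Subgroup G) →* ℂˣ)
  have hY : Y.card = (Nat.card P - 1) / 3 := by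
    rw [← E.card_Y h, show (H20.cent (P : Subgroup G)).relIndex (H20.nrm P) = 3 from hCN,
      Nat.mul_div_cancel _ (by norm_num)]
  have hX' : X = {triv G, χ₁, χ₂} := by ext χ; simp [hX]
  have b : ∀ χ : IrrCharacter G, ((χ : G → ℂ) = fun _ => 1) ↔ χ = triv G := fun χ =>
    ⟨fun h => Subtype.ext h, fun h => h ▸ rfl⟩
  refine ⟨X, Y, ?_, by exact_mod_cast E.disj, ?_, (Nat.card_eq_finsetCard Y).trans hY,
    ⟨_, E.triv_mem h hm', rfl⟩, a, δ, ζ, E.sign,
    fun χ hχ => ⟨ha χ hχ, fun z y hz hy h1 => E.val_X h hχ hz hy h1⟩,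
    fun l hl => E.ζ_mem hl, fun η hη => (E.memY η).1 hη,
    fun l l' hl e => ((E.eq_iff _ _ hl (LConj.ne_one e hl)).2 e).symm, fun l hl z y hz h1 => ?_,
    fun ⟨t, ht, hK⟩ => ?_⟩
  · rw [hO.principalBlock_eq]; ext χ; simpa using E.mem χ
  · exact (Nat.card_eq_finsetCard X).trans (Finset.card_eq_three.2 ⟨_, _, _, h1.symm, h2.symm, h12, hX'⟩)
  · rw [E.val_Y h hl hz h1, ← finsum_mem_coe_finset, Int.cast_zero, zero_add]
    simp only [Finset.coe_filter, Finset.mem_univ, true_and]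
    rfl
  obtain ⟨l, x, hl, -, hx, e1, e2, e3⟩ := E.three_rel h hCN hm2 h1 h2 h12 hX ht
  have hne : ∀ χ, χ ≠ triv G → (x χ : ℚ) ≠ charDegree (χ : G → ℂ) := fun χ hχ e =>
    hχ (Subtype.ext (χ.2.eq_one_of_charKer_eq_top (hK _ χ.2.isCharacter.charKer_normal
      (χ.2.mem_charKer.2 (by
        have : x χ = charDegree (χ : G → ℂ) := by exact_mod_cast e
        rw [hx, this, Int.cast_natCast, cast_deg])))))
  have m1 : χ₁ ∈ X := (hX _).2 (by simp)
  have m2 : χ₂ ∈ X := (hX _).2 (by simp)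
  obtain ⟨e4, e5⟩ := four_arith (ha _ m1) (ha _ m2) (c3 := -δ)
    (by rcases E.sign with e | e <;> simp [e]) (Nat.pos_of_ne_zero (deg_ne_zero _))
    (Nat.pos_of_ne_zero (deg_ne_zero _)) (Nat.pos_of_ne_zero (deg_ne_zero _)) e1
    (by exact_mod_cast e2) e3 (hne _ h1) (hne _ h2) (hne _ fun e =>
      Finset.disjoint_left.1 E.disj (E.triv_mem h hm') (e ▸ E.ζ_mem hl))
  refine ⟨?_, fun η hη => ?_⟩
  · rw [Nat.card_eq_fintype_card, Fintype.card_subtype, show (Finset.univ.filter fun χ : IrrCharacter G =>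
      χ ∈ (X : Set (IrrCharacter G)) ∧ ((χ : G → ℂ) ≠ fun _ => 1) ∧ a χ = -1) =
        ({χ₁, χ₂} : Finset _).filter fun χ => a χ = -1 by
          ext χ; simp only [Finset.mem_filter, Finset.mem_univ, Finset.mem_coe, hX, Ne, b,
            Finset.mem_insert, Finset.mem_singleton]; grind,
      Finset.card_filter, Finset.sum_pair h12]
    rcases ha _ m1 with a1 | a1 <;> rcases ha _ m2 with a2 | a2 <;> rcases E.sign with a3 | a3 <;>
      simp only [a1, a2, a3] at e4 ⊢ <;> simp at e4 ⊢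
  · rw [show {χ : IrrCharacter G | χ ∈ (X : Set (IrrCharacter G)) ∧ (χ : G → ℂ) ≠ fun _ => 1} =
      {χ₁, χ₂} by ext χ; simp only [Set.mem_setOf_eq, Finset.mem_coe, hX, Ne, b, Set.mem_insert_iff,
        Set.mem_singleton_iff]; grind, finprod_mem_pair h12]
    have := E.reg_eq h hη (E.ζ_mem hl) preg_one
    rw [← cast_deg, ← cast_deg, Nat.cast_inj] at this
    rw [this, mul_comm]; exact e5

end Cfsg.Agent.S4721
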