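import Cfsg.Statements.S4722
import Cfsg.Agent.H19.Cm
import Cfsg.Agent.H19.Bridge
import Cfsg.Agent.H1.Cores

set_option autoImplicit false
open Cfsg

namespace Cfsg.Agent.S4722
open H17 H19

/-- Let M be a maximal ideal of the algebraic integers containing 2, P a 2-subgroup of the finite group G, U a subset of P, and t an involution of G such that no element of U is inverted by any conjugate of t. Let θ be a generalized character of P vanishing outside U, and for χ in the principal 2-block B₀ put a_χ = #P⁻¹ Σ_{y ∈ P} χ(y) θ(y⁻¹). Then Σ_{χ ∈ B₀} a_χ χ(t)^2/χ(1) = 0, Σ_{χ ∈ B₀} a_χ χ(1) = 0 and Σ_{χ ∈ B₀} a_χ χ(t) = 0. If moreover #P⁻¹ Σ_{y ∈ P} θ(y) ≠ 0, then either at least two of the a_χ have positive real part and at least two have negative real part, or G has a proper normal subgroup containing O_2'(G) and t. -/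
theorem result {G : Type*} [Group G] [Finite G] (M : Ideal Cfsg.AlgInt) (hM : Cfsg.IsPModular 2 M) (P : Subgroup G) (hP : IsPGroup 2 P) (U : Set G) (hUP : U ⊆ (P : Set G)) (t : G) (ht : orderOf t = 2) (hinv : ∀ u ∈ U, ∀ g : G, (g * t * g⁻¹) * u * (g * t * g⁻¹)⁻¹ ≠ u⁻¹) (θ : ↥P → ℂ) (hθ : Cfsg.IsGeneralizedCharacter ↥P θ) (hθU : ∀ y : ↥P, (y : G) ∉ U → θ y = 0) : (∑ᶠ χ ∈ Cfsg.principalBlock M G, ((Nat.card ↥P : ℂ)⁻¹ * ∑ᶠ y : ↥P, (χ : G → ℂ) (y : G) * θ y⁻¹) * (χ : G → ℂ) t ^ 2 / (χ : G → ℂ) 1 = 0) ∧ (∑ᶠ χ ∈ Cfsg.principalBlock M G, ((Nat.card ↥P : ℂ)⁻¹ * ∑ᶠ y : ↥P, (χ : G → ℂ) (y : G) * θ y⁻¹) * (χ : G → ℂ) 1 = 0) ∧ (∑ᶠ χ ∈ Cfsg.principalBlock M G, ((Nat.card ↥P : ℂ)⁻¹ * ∑ᶠ y : ↥P, (χ : G → ℂ) (y : G) * θ y⁻¹) * (χ : G → ℂ) t = 0) ∧ ((Nat.card ↥P : ℂ)⁻¹ * ∑ᶠ y : ↥P, θ y ≠ 0 → (2 ≤ Nat.card {χ : Cfsg.IrrCharacter G // χ ∈ Cfsg.principalBlock M G ∧ 0 < (((Nat.card ↥P : ℂ)⁻¹ * ∑ᶠ y : ↥P, (χ : G →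 ℂ) (y : G) * θ y⁻¹)).re} ∧ 2 ≤ Nat.card {χ : Cfsg.IrrCharacter G // χ ∈ Cfsg.principalBlock M G ∧ (((Nat.card ↥P : ℂ)⁻¹ * ∑ᶠ y : ↥P, (χ : G → ℂ) (y : G) * θ y⁻¹)).re < 0}) ∨ ∃ K : Subgroup G, K.Normal ∧ K ≠ ⊤ ∧ Cfsg.pPrimeCore 2 G ≤ K ∧ t ∈ K) := by
  classical
  obtain ⟨O, hO, _⟩ := exists_over hM
  have := Fintype.ofFinite P
  rw [hO.principalBlock_eq]
  choose a ha using fun χ : IrrCharacter G => (χ.2.isGen.restrict P).inner_int hθ
  have ha' : ∀ χ : IrrCharacter G, (Nat.card P : ℂ)⁻¹ * ∑ᶠ y : P, (χ : G → ℂ) y * θ y⁻¹ = a χ :=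
    fun χ => by rw [← ha, classInner_def, finsum_eq_sum_of_fintype]; simp only [hθ.conj_apply]
  have ha2 : ∀ χ : IrrCharacter G, (a χ : ℂ) =
      ∑ y : P, ((Nat.card P : ℂ)⁻¹ * θ y⁻¹) * (χ : G → ℂ) y := fun χ => by
    rw [← ha', finsum_eq_sum_of_fintype, Finset.mul_sum]
    exact Finset.sum_congr rfl fun _ _ => by ring
  have hni : ∀ y : P, (Nat.card P : ℂ)⁻¹ * θ y⁻¹ ≠ 0 → ∀ s, IsConj t s → s * y * s⁻¹ ≠ (y : G)⁻¹ :=
    fun y hy s hs e => by
      obtain ⟨c, rfl⟩ := isConj_iff.1 hs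
      refine hinv (y : G)⁻¹ (by_contra fun h => hy (by rw [hθU y⁻¹ h, mul_zero])) c ?_
      rw [inv_inv, ← inv_inj]
      exact Eq.trans (by group) e
  have hp : ∀ y : P, IsPElt 2 (y : G) := fun y => isPElt_of_mem hP y.2
  have hti := H6.ord2_inv ht
  simp only [ha', finsum_mem_irr]
  set B := Finset.univ.filter (· ∈ irr (B0 O G)) with hB
  have e1 : ∑ χ ∈ B, (a χ : ℂ) * ((χ : G → ℂ) t * (χ : G → ℂ) t / (χ : G → ℂ) 1) = 0 := by
    simp only [ha2]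
    refine sum_col_eq_zero _ _ _ _ fun y hy => ?_
    have := sum_mul_div_eq_zero_sec (B0 O G) (s := t) (t := t) (hp y) fun s s' h1 h2 h3 => by
      obtain ⟨k, hk⟩ := isPPart_mem_zpowers h3
      refine hni y hy s h1 ?_
      rw [← hk]
      exact H6.conj_zpow_of_inverts (H6.inv_conj_mul (H6.ord2_mul_self ((orderOf_isConj h1).trans ht))
        (H6.ord2_mul_self ((orderOf_isConj h2).trans ht))) k
    rwa [hti] at this
  have e2 : ∑ χ ∈ B, (a χ : ℂ) * (χ : G → ℂ) 1 = 0 := by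
    simp only [ha2]
    refine sum_col_eq_zero _ _ _ _ fun y hy => ?_
    have := Kr_weak' (B0 O G) ((hp y).dvd_orderOf fun e => hni y hy t (IsConj.refl t) (by simp [e]))
      preg_one
    rwa [Kr_eq, inv_one] at this
  have e3 : ∑ χ ∈ B, (a χ : ℂ) * (χ : G → ℂ) t = 0 := by
    simp only [ha2]
    refine sum_col_eq_zero _ _ _ _ fun y hy => ?_
    have := Kr_eq_zero (B0 O G) (isPPart_self (hp y)) (isPPart_self (show IsPElt 2 t from ⟨1, ht⟩))
      fun hc => hni y hy y hc.symm (by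
        rw [mul_inv_cancel_right, H6.ord2_inv ((orderOf_isConj hc.symm).trans ht)])
    rwa [Kr_eq, hti] at this
  refine ⟨by simpa only [mul_div_assoc, pow_two] using e1, e2, e3, fun h0 => ?_⟩
  choose x hx using fun χ : IrrCharacter G =>
    exists_int_of_sq_eq_one χ.2.isGen (H6.ord2_mul_self ht)
  have hx0 : x (triv G) = charDegree (triv G : G → ℂ) := by
    have := hx (triv G)
    rw [triv_apply, ← triv_apply (1 : G), ← cast_deg] at this
    exact_mod_cast this.symm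
  simp only [hx, ← cast_deg] at e1 e2 e3
  rcases cs_lemma (B := B) (a := a) (x := x) (D := fun χ => charDegree (χ : G → ℂ))
    (fun χ => by exact_mod_cast Nat.pos_of_ne_zero (deg_ne_zero χ)) (by exact_mod_cast e2)
    (by exact_mod_cast e3) (by apply Rat.cast_injective (α := ℂ); push_cast; exact e1)
    (o := triv G) (by simp [hB, B0]) (fun e => h0 (by
      have := ha' (triv G)
      rw [e, finsum_eq_sum_of_fintype, ← Equiv.sum_comp (Equiv.inv P)] at this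
      simpa [finsum_eq_sum_of_fintype] using this)) hx0 with h | ⟨χ, hχ, h1, -, h2⟩
  · left
    simp only [Complex.intCast_re, Int.cast_pos, Int.cast_lt_zero, Nat.card_eq_fintype_card,
      Fintype.card_subtype]
    simpa only [hB, Finset.filter_filter] using h
  · right
    refine ⟨charKer χ, χ.2.isCharacter.charKer_normal,
      fun e => h1 (Subtype.ext (χ.2.eq_one_of_charKer_eq_top e)),
      le_charKer_of_B0 (p := 2) (O := O) (H1.not_dvd_card_pPrimeCore Nat.prime_two) (by simpa [hB] using hχ),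
      χ.2.mem_charKer.2 (by rw [hx, h2, Int.cast_natCast, cast_deg])⟩

end Cfsg.Agent.S4722
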