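import Cfsg.Statements.S4723
import Cfsg.Agent.H19.Ker
import Cfsg.Agent.H20.Amb
import Cfsg.Agent.H20.Nil

set_option autoImplicit false
open Cfsg

namespace Cfsg.Agent.S4723
open H17 H19

/-- Let p be a prime, M a maximal ideal of the algebraic integers containing p, H a normal subgroup of the finite group G and b a p-block of H. Let T be the stabilizer of b in G. Then b contains a character θ of height zero whose own stabilizer in G (the elements g with θ(g h g⁻¹) = θ(h) for all h ∈ H) has index prime to p in T, i.e. contains a Sylow p-subgroup of T. -/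
theorem result {G : Type*} [Group G] [Finite G] (p : ℕ) [Fact p.Prime] (M : Ideal Cfsg.AlgInt) (hM : Cfsg.IsPModular p M) (H : Subgroup G) [H.Normal] (b : Set (Cfsg.IrrCharacter ↥H)) (hb : Cfsg.IsPBlock M b) (T : Subgroup G) (hT : (∀ g : G, g ∈ T ↔ ∀ θ ∈ b, ∀ θ' : Cfsg.IrrCharacter ↥H, (∀ h h' : ↥H, (h' : G) = g * h * g⁻¹ → (θ' : ↥H → ℂ) h' = (θ : ↥H → ℂ) h) → θ' ∈ b)) : ∃ θ ∈ b, Cfsg.blockHeight p b (θ : ↥H → ℂ) = 0 ∧ ∃ S : Subgroup G, S ≤ T ∧ (∀ g : G, g ∈ S ↔ (g ∈ T ∧ ∀ h h' : ↥H, (h' : G) = g * h * g⁻¹ → (θ : ↥H → ℂ) h' = (θ : ↥H → ℂ) h)) ∧ ¬ p ∣ S.relIndex T := by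
  obtain ⟨O, hO, _⟩ := exists_over hM
  obtain ⟨β, rfl⟩ := hO.exists_blk hb
  classical
  have hb' := H20.isBlk_eA H β
  have hN : ∀ K : Subgroup G, K ≤ H20.nrm H := fun K => le_top.trans (Subgroup.normalizer_eq_top H).ge
  have hT1 : T ≤ H20.stab (H20.eA H β) := fun g hg => by
    obtain ⟨θ, rfl⟩ := irr_nonempty β
    have e := H20.sc_eq_of_nrm (hN ⊤ (Subgroup.mem_top g))
    rw [H20.mem_stab, ← H20.eA_lam_cjIrr g e,
      mem_irr.1 ((hT g).1 hg θ rfl (H20.cjIrr g e θ) (H20.cjIrr_spec g e θ))]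
  have hHT : H ≤ T := fun g hg => (hT g).2 fun θ hθ θ' h => by
    rwa [show θ' = θ from Subtype.ext (funext fun x => (h (⟨g, hg⟩⁻¹ * x * ⟨g, hg⟩) x (by simp [mul_assoc])).trans
      (by simpa using irr_class θ x ⟨g, hg⟩⁻¹))]
  obtain ⟨P, hP⟩ := H10.exists_isSylowIn p T
  have hi := H20.pidx_sup hP.isPGroup (hN P)
  have hf : H20.eA H β ∈ H20.fixed _ (P ⊔ H) := (sup_le hP.le hHT).trans hT1
  obtain ⟨χ, hχ, h0⟩ := (hi.isBlk le_sup_right (hb'.prim_of_fixed le_sup_right hf)).exists_hz p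
  have i := H20.irr_of_IB hχ
  obtain ⟨θ, hθ, hd⟩ := CF.exists_under le_sup_right i
  have e := CF.clifford le_sup_right (hN _) i hθ hd
  obtain ⟨n, hn⟩ := (CF.irr_char i).dot_nat_of_le le_sup_right (CF.irr_char hθ)
  have io := fun ψ h => CF.orb_subset_Irr (hN (P ⊔ H)) hθ (x := ψ) h
  have o : ∀ ψ ∈ CF.orb (P ⊔ H) θ, H20.Zr p ψ ∈ OG O G := fun ψ h => H20.Zr_OG (H20.irr_mem O (io ψ h))
  have e1 : H20.Zr p χ = (n : ℂ) • ∑ ψ ∈ CF.orb (P ⊔ H) θ, H20.Zr p ψ := by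
    rw [H20.Zr_congr (ψ := CF.Res (H : Set G) χ) fun y hy => by
      by_cases m : y ∈ H
      · rw [CF.Res_of_mem _ m]
      · rw [CF.Res_of_not_mem _ m, (CF.irr_cf i).1 y fun m' => m (hi.mem m' hy)], e, hn]
    refine H20.ext_coeff fun g => ?_
    simp only [MonoidAlgebra.coeff_smul, MonoidAlgebra.coeff_sum, H20.coeff_Zr, Finsupp.smul_apply,
      Finset.sum_apply', Pi.smul_apply, Finset.sum_apply]
    split_ifs <;> simp
  have c : ∀ ψ ∈ CF.orb (P ⊔ H) θ, red O (H20.Zr p ψ) ∈ H20.cen (kk O) H := fun ψ h =>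
    H20.red_mem_cen (H20.Zr_cen (CF.irr_cf (io ψ h)))
  rw [e1, red_smul (natCast_mem O n) (sum_mem o), red_sum _ o, H20.chr_smul hb' (sum_mem c),
    H20.chr_sum hb' _ c, Finset.sum_congr rfl (g := fun _ => H20.chr (H20.eA H β) (red O (H20.Zr p θ)))
    fun ψ h => by
      obtain ⟨g, hg, rfl⟩ := CF.mem_orb.1 h
      rw [← H20.chr_cj g _ (red O (H20.Zr p θ)), hf g hg, ← H20.red_cj]
      congr 2
      refine H20.ext_coeff fun x => ?_
      rw [H20.coeff_cj, H20.coeff_Zr, H20.coeff_Zr, CF.cfj_apply,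
        show g⁻¹ * x * g = MulAut.conj g⁻¹ x by simp, MulEquiv.orderOf_eq]
      simp [mul_assoc], Finset.sum_const, nsmul_eq_mul, CF.card_orb] at h0
  have h1 := mt (CharP.cast_eq_zero_iff _ p _).2 (left_ne_zero_of_mul (right_ne_zero_of_mul h0))
  have h2 := right_ne_zero_of_mul (right_ne_zero_of_mul h0)
  obtain ⟨ξ, rfl⟩ := H20.irr_ext hθ
  have h4 : H20.Zr p (extendByZero H (ξ : H → ℂ)) = H20.emb ℂ H (H20.Zr p (ξ : H → ℂ)) := by
    refine H20.ext_coeff fun g => ?_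
    by_cases hg : g ∈ H
    · lift g to H using hg
      rw [H20.coeff_emb, H20.coeff_Zr, H20.coeff_Zr, ← Subgroup.coe_inv, H20.ext_coe, Subgroup.orderOf_coe]
    · rw [H20.coeff_emb_of_not_mem _ hg, H20.mem_supp.1 (H20.Zr_cen (CF.irr_cf hθ)).1 g hg]
  rw [h4, H20.red_emb, H20.eA, H20.chr_emb] at h2
  have h5 : ξ ∈ irr β := by_contra fun h5 => h2 (H20.lamZ_of_not_mem h5)
  refine ⟨ξ, h5, (H20.lamZ_irr_ne_zero_iff h5).1 h2, T ⊓ CF.stab (extendByZero H ξ), inf_le_left,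
    fun g => and_congr_right fun _ => (mem_stab_ext0 inferInstance _ g).trans ⟨fun h x y e => ?_,
      fun h x => h x _ rfl⟩, fun d => hP.not_dvd_relIndex (d.trans
        (Subgroup.relIndex_dvd_of_le_left _ (le_inf hP.le (le_sup_left.trans (b := P ⊔ H) ?_))))⟩
  · rw [← h x]; exact congrArg _ (Subtype.ext e)
  · obtain ⟨m, hm⟩ := hi.exists_relIndex (hN _)
    obtain ⟨j, -, hj⟩ := (Nat.dvd_prime_pow Fact.out).1
      (hm ▸ Subgroup.relIndex_dvd_of_le_left (P ⊔ H) (CF.le_stab (CF.irr_cf hθ)))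
    rcases j with _ | j
    · exact Subgroup.relIndex_eq_one.1 hj
    · exact (h1 (hj ▸ dvd_pow_self p j.succ_ne_zero)).elim

end Cfsg.Agent.S4723
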