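import Cfsg.Statements.S4725
import Cfsg.Agent.H19.Maj

set_option autoImplicit false
open Cfsg

namespace Cfsg.Agent.S4725
open H17 H19

/-- Let p be a prime, M a maximal ideal of the algebraic integers containing p, H a subgroup of the finite group G, and b a p-block of H inducing the p-block B of G, with b and B of the same defect. Then for every height-zero ζ ∈ b there is a height-zero χ ∈ B whose multiplicity in the character induced from ζ is not divisible by p. -/
theorem result {G : Type*} [Group G] [Fintype G] (p : ℕ) [Fact p.Prime] (M : Ideal Cfsg.AlgInt) (hM : Cfsg.IsPModular p M) (H : Subgroup G) (b : Set (Cfsg.IrrCharacter ↥H)) (B : Set (Cfsg.IrrCharacter G)) (hind : Cfsg.IsInducedBlock M H b B) (hdef : Cfsg.blockDefect p b = Cfsg.blockDefect p B) (ζ : Cfsg.IrrCharacter ↥H) (hζ : ζ ∈ b) (hζ0 : Cfsg.blockHeight p b (ζ : ↥H → ℂ) = 0) : ∃ χ ∈ B, Cfsg.blockHeight p B (χ : G → ℂ) = 0 ∧ ∃ a : ℕ, Cfsg.classInner (Cfsg.indFun H (ζ : ↥H → ℂ)) (χ : G → ℂ)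 = (a : ℂ) ∧ ¬ p ∣ a := by
  obtain ⟨O, hO, _⟩ := exists_over hM
  obtain ⟨b, β, rfl, rfl, hi⟩ := hO.exists_of_isInducedBlock hind
  refine exists_of_lamZ_ne_zero ζ.2.isCharacter.ind fun h2 => ?_
  obtain ⟨χ, hχ, h0⟩ := H20.exists_height_zero p (irr_nonempty β)
  have c := pr_class (p := p) (irr_class χ)
  have h1 := H20.val_ctr_of_lamZ (p := p) (β := b) (c.restrict H) (fun y => H20.pr_irr_mem χ y)
    (by rw [hi.lamZ_restrict c]; exact (H20.lamZ_irr_ne_zero_iff hχ).2 h0) hζ
  have h3 := H20.val_ctr_lt (p := p) (pr_class (isClassFunction_indFun _))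
    (H20.pr_mem fun y _ => char_mem O ζ.2.isCharacter.ind y) h2 hχ
  rw [H20.bil_pr, bil_indFun _ c, H20.bil_comm, ← hdef, h1, h0, hζ0] at h3
  exact h3.false

end Cfsg.Agent.S4725
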