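import Cfsg.Statements.S4726
import Cfsg.Agent.H19.Ker

set_option autoImplicit false
open Cfsg

namespace Cfsg.Agent.S4726
open H17 H19

/-- Let p be a prime, M a maximal ideal of the algebraic integers containing p, H a subgroup of the finite group G and b a p-block of H with defect group D₀ such that C_G(D₀) ≤ H. Then b induces a block of G, and for every block B of G induced by b there is a defect group D of B with Z(D) ≤ Z(D₀) ≤ D₀ ≤ D (as subgroups of G). In particular, if the defect groups of B are abelian then D₀ is a defect group of B. -/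
theorem result {G : Type*} [Group G] [Finite G] (p : ℕ) [Fact p.Prime] (M : Ideal Cfsg.AlgInt) (hM : Cfsg.IsPModular p M) (H : Subgroup G) (b : Set (Cfsg.IrrCharacter ↥H)) (hb : Cfsg.IsPBlock M b) (D₀ : Subgroup ↥H) (hD₀ : Cfsg.IsDefectGroup p M b D₀) (hC : Subgroup.centralizer ((D₀.map H.subtype : Subgroup G) : Set G) ≤ H) : Cfsg.InducedBlockDefined M H b ∧ ∀ B : Set (Cfsg.IrrCharacter G), Cfsg.IsInducedBlock M H b B → (∃ D : Subgroup G, Cfsg.IsDefectGroup p M B D ∧ (Subgroup.center ↥D).map D.subtype ≤ ((Subgroup.center ↥D₀).map D₀.subtype).map H.subtype ∧ ((Subgroup.center ↥D₀).map D₀.subtype).map H.subtype ≤ D₀.map H.subtype ∧ D₀.map H.subtype ≤ D) ∧ (∀ D : Subgroup G, Cfsg.IsDefectGroup p M B D → IsMulCommutative ↥D → Cfsg.IsDefectGroup p M B (D₀.map H.subtype)) := by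
  obtain ⟨O, hO, _⟩ := exists_over hM
  obtain ⟨γ, rfl⟩ := hO.exists_blk hb
  rw [H20.isDefectGroup_iff_up hO hM] at hD₀
  have hC' : H20.cent (H20.up D₀) ≤ H := hC
  have eZ : ((Subgroup.center D₀).map D₀.subtype).map H.subtype = H20.up D₀ ⊓ H20.cent (H20.up D₀) := by
    rw [H15.map_center_subtype, ← H20.up_inf_cent]
  rw [eZ, show Subgroup.map H.subtype D₀ = H20.up D₀ from rfl]
  generalize H20.up D₀ = Q at hD₀ hC' ⊢
  have e1 : H ⊓ H20.cent Q = H20.cent Q := inf_eq_right.2 hC'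
  constructor
  · obtain ⟨e, hm⟩ := H20.exists_max (H20.isBlk_eA H γ) hD₀
    have h1 := (H20.ind_cent_iff hD₀.pg hD₀.le hm.isPair.blk hm.blk).2 hm.pair.br
    rw [e1] at h1
    obtain ⟨f, hf⟩ := H20.exists_ind (H := ⊤) hD₀.pg le_top
      (Subgroup.le_normalizer.trans (H20.nrm_le_nrm_cent Q)) inf_le_right le_top (H20.cent_le_nrm Q) h1.left
    obtain ⟨β, rfl⟩ := hf.right.exists_eG
    refine ⟨irr β, (H20.isInducedBlock_iff hO γ β).2 ⟨hm.blk, hf.right, fun z hz => ?_⟩⟩
    rw [← hf.eq z hz, ← h1.eq _ (H20.trunc_mem_cen le_top hz.2), H20.trunc_trunc,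
      Set.inter_eq_left.2 (SetLike.coe_subset_coe.2 hC')]
  intro B hB
  obtain ⟨β, rfl⟩ := hO.exists_blk hB.2.1
  rw [H20.isInducedBlock_iff hO] at hB
  obtain ⟨e, hm, hp⟩ := exists_pair_of_ind hB hD₀ hC'
  obtain ⟨D, f, hD, hs⟩ := hp.exists_psub_def hB.right (H20.nrm_top.ge) le_rfl
  have h1 := (hm.isDef_centric_iff (H20.PSub.refl _ _ _)).2 fun g hg => by
    rw [Subgroup.eq_of_le_of_card_ge hg.sc_le (H20.card_sc g Q).ge]; exact inf_le_left
  rw [e1] at h1
  have h2 : Q ⊓ H20.cent Q = D ⊓ H20.cent Q := Subgroup.eq_of_le_of_card_ge (inf_le_inf_right _ hs.le)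
    (hs.card_le_of_isDef (hs.right hp.pair) inf_le_right (H20.cent_le_nrm Q)
      (fun g hg => H20.mem_stab.2 (hp.pair.blk_top.fixed g hg)) h1)
  refine ⟨⟨D, (H20.isDefectGroup_iff hO hM _ _).2 hD, ?_, inf_le_left, hs.le⟩, fun D' hD' hab => ?_⟩
  · rw [H15.map_center_subtype, h2]
    exact inf_le_inf_left _ (H20.cent_anti hs.le)
  · rw [H20.isDefectGroup_iff hO hM] at hD' ⊢
    obtain ⟨x, -, rfl⟩ := hD'.exists_conj hB.right hD
    have a : D' ≤ H20.cent D' := Subgroup.le_centralizer D'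
    have h3 : H20.sc x D' ≤ H20.cent Q :=
      ((H20.sc_mono x a).trans (H20.cent_sc x D').ge).trans (H20.cent_anti hs.le)
    rw [inf_eq_left.2 h3] at h2
    rwa [le_antisymm hs.le (h2.ge.trans inf_le_left)]

end Cfsg.Agent.S4726
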