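import Cfsg.Statements.S4727
import Cfsg.Agent.H19.Ker

set_option autoImplicit false
open Cfsg

namespace Cfsg.Agent.S4727
open H17 H19

/-- Let p be a prime, π a set of primes containing p, M a maximal ideal of the algebraic integers containing p, and B a p-block of the finite group G with defect group D; let B₁ be the block of N_G(D) with defect group D that induces B (the Brauer correspondent of B). Suppose every element of O_π'(N_G(D)), the largest normal subgroup of N_G(D) whose order has no prime divisor in π, lies in the kernel of every member of B₁. If y is a p-element whose centralizer C has a normal Hall π'-subgroup (every element of C whose order has no prime divisor in π lies in O_π'(C)), then χ(y x) = χ(y) for every χ ∈ B and every x ∈ C whose order has no prime divisor in π. -/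
theorem result {G : Type*} [Group G] [Finite G] (p : ℕ) [Fact p.Prime] (M : Ideal Cfsg.AlgInt) (hM : Cfsg.IsPModular p M) (π : Set ℕ) (hpπ : p ∈ π) (B : Set (Cfsg.IrrCharacter G)) (hB : Cfsg.IsPBlock M B) (D : Subgroup G) (hBD : Cfsg.IsDefectGroup p M B D) (B₁ : Set (Cfsg.IrrCharacter ↥(Subgroup.normalizer (D : Set G)))) (hB₁ : Cfsg.IsInducedBlock M (Subgroup.normalizer (D : Set G)) B₁ B) (hB₁D : Cfsg.IsDefectGroup p M B₁ (D.subgroupOf (Subgroup.normalizer (D : Set G)))) (hker : ∀ n : ↥(Subgroup.normalizer (D : Set G)), n ∈ Cfsg.piCore {q | q ∉ π} ↥(Subgroup.normalizer (D : Set G)) → n ∈ Cfsg.blockKer B₁) (y : G) (hy : ∃ k : ℕ, orderOf y = p ^ k) (hC : ∀ x : ↥(Subgroup.centralizer ({y} : Set G)), (∀ q : ℕ, q.Prime → q ∣ orderOf x → q ∉ π) → x ∈ Cfsg.piCore {q | q ∉ π} ↥(Subgroup.centralizer ({y} : Set G))) : ∀ χ ∈ B, ∀ x : G, x ∈ Subgroup.centralizer ({y} : Set G) → (∀ q : ℕ, q.Prime → q ∣ orderOf x → q ∉ π) → (χ : G → ℂ) (y * x) = (χ : G → ℂ) y := by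
  obtain ⟨O, hO, _⟩ := exists_over hM
  obtain ⟨β, rfl⟩ := hO.exists_blk hB
  obtain ⟨β₁, rfl⟩ := hO.exists_blk hB₁.1
  rw [H20.isInducedBlock_iff hO] at hB₁
  rw [H20.isDefectGroup_iff hO hM] at hBD
  obtain ⟨e, hm⟩ := H20.exists_max (H20.isBlk_eG β) hBD
  have h0 := fx_core_max hm hB₁ ((fx_core_iff hpπ β₁).2 hker)
  have hy' : IsPElt p y := hy
  have hQ := hy'.isPGroup_zpowers
  have hb := H20.isBlk_eG β
  have hc : H20.br (Subgroup.zpowers y) (H20.eG β) ∈ H20.cen (kk O) (H20.cent (Subgroup.zpowers y)) :=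
    H20.br_mem_cen_of_le inf_le_right le_top (H20.cent_le_nrm _) hb.mem
  have hi := H20.br_idem hQ (H20.fixed_anti le_top hb.fixed) hb.idem
  have h1 : Fx (piCoreOf {q | q ∉ π} (H20.cent (Subgroup.zpowers y))) (H20.br (Subgroup.zpowers y) (H20.eG β)) :=
    fx_of_blocks hc hi fun f hf h => fx_core_pair hpπ hm h0 ⟨H20.isPair_top.2 ⟨hQ, hf⟩, le_top, h⟩
  obtain ⟨J, J1, J2, J3, J4⟩ := H20.exists_idem_lift hc hi
  have h2 := Fx.of_red (not_dvd_core hpπ _) (H15.piCoreOf_le _ _) (H15.le_norm_piCoreOf_self _ _) J1 J2 J3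
    (J4 ▸ h1)
  rw [H20.cent_zpowers] at h2 J1
  intro χ hχ
  have key : ∀ x ∈ Subgroup.centralizer {y}, ¬ p ∣ orderOf x →
      (χ : G → ℂ) (y * x) = ev (χ : G → ℂ) (MonoidAlgebra.single (y * x) 1 * J) := fun x hx hxp => by
    have m : y * x ∈ Subgroup.centralizer {y} :=
      mul_mem (Subgroup.mem_centralizer_singleton_iff.2 rfl) hx
    rw [← ev_congr_br (p := p) (O := O) (F := H20.lf ⊤ (H20.eG β)) (irr_class χ) hb.lf_OG hb.lf_idem
      (hb.lf_cen.2 _ (Subgroup.mem_top _)) J3 J2 (J1.2 _ m) (by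
        rw [ppart_mul hy' hxp (Subgroup.mem_centralizer_singleton_iff.1 hx).symm, J4, hb.red_lf,
          H20.br_br_of_le le_rfl]), hb.ev_mul_lf (H20.mem_IB_top.2 hχ), H20.ev_single_one]
  intro x hx hxπ
  have e1 := key 1 (one_mem _) (by rw [orderOf_one]; exact (Fact.out : p.Prime).not_dvd_one)
  rw [mul_one] at e1
  have e2 := h2 x ⟨⟨x, hx⟩, hC _ (by simpa using hxπ), rfl⟩
  rw [key x hx fun d => hxπ p Fact.out d hpπ, e1]
  conv_rhs => rw [← e2, ← mul_assoc, MonoidAlgebra.single_mul_single, one_mul]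

end Cfsg.Agent.S4727
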