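import Cfsg.Statements.S4728
import Cfsg.Agent.H19.Ker

set_option autoImplicit false
open Cfsg

namespace Cfsg.Agent.S4728
open H17 H19

/-- Let p be a prime, π a set of primes containing p, M a maximal ideal of the algebraic integers containing p, B a p-block of the finite group G with defect group D, and B₁ the block of N_G(D) with defect group D inducing B. Let D₀ be a p-subgroup, H₀ = D₀·C_G(D₀), and b a block of H₀ inducing B. Write O_π'(X) for the largest normal subgroup of X whose order has no prime divisor in π. Suppose that O_π'(C_G(D₀)) is a normal Hall π'-subgroup of C_G(D₀) (it contains every element of C_G(D₀) whose order has no prime divisor in π) and that every element of it lies in the kernel of every member of b. Then every element of O_π'(N_G(D)) lies in the kernel of every member of B₁. -/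
theorem result {G : Type*} [Group G] [Finite G] (p : ℕ) [Fact p.Prime] (M : Ideal Cfsg.AlgInt) (hM : Cfsg.IsPModular p M) (π : Set ℕ) (hpπ : p ∈ π) (B : Set (Cfsg.IrrCharacter G)) (hB : Cfsg.IsPBlock M B) (D : Subgroup G) (hBD : Cfsg.IsDefectGroup p M B D) (B₁ : Set (Cfsg.IrrCharacter ↥(Subgroup.normalizer (D : Set G)))) (hB₁ : Cfsg.IsInducedBlock M (Subgroup.normalizer (D : Set G)) B₁ B) (hB₁D : Cfsg.IsDefectGroup p M B₁ (D.subgroupOf (Subgroup.normalizer (D : Set G)))) (D₀ : Subgroup G) (hD₀ : IsPGroup p D₀) (H₀ : Subgroup G) (hH₀ : H₀ = D₀ ⊔ Subgroup.centralizer (D₀ : Set G)) (b : Set (Cfsg.IrrCharacter ↥H₀)) (hb : Cfsg.IsInducedBlock M H₀ b B) (hcompl : ∀ x : ↥(Subgroup.centralizer (D₀ : Set G)), (∀ q : ℕ, q.Prime → q ∣ orderOf x → q ∉ π) → x ∈ Cfsg.piCore {q | q ∉ π} ↥(Subgroup.centralizer (D₀ : Set G))) (hkerb : ∀ x : ↥(Subgroup.centralizer (D₀ : Set G)), x ∈ Cfsg.piCore {q | q ∉ π}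 ↥(Subgroup.centralizer (D₀ : Set G)) → ∀ θ ∈ b, ∀ h : ↥H₀, (h : G) = (x : G) → (θ : ↥H₀ → ℂ) h = (θ : ↥H₀ → ℂ) 1) : ∀ n : ↥(Subgroup.normalizer (D : Set G)), n ∈ Cfsg.piCore {q | q ∉ π} ↥(Subgroup.normalizer (D : Set G)) → n ∈ Cfsg.blockKer B₁ := by
  obtain ⟨O, hO, _⟩ := exists_over hM
  obtain ⟨β, rfl⟩ := hO.exists_blk hB
  obtain ⟨β₁, rfl⟩ := hO.exists_blk hB₁.1
  obtain ⟨β₀, rfl⟩ := hO.exists_blk hb.1
  rw [H20.isInducedBlock_iff hO] at hB₁ hb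
  rw [H20.isDefectGroup_iff hO hM] at hBD
  obtain ⟨e, hm⟩ := H20.exists_max (H20.isBlk_eG β) hBD
  have l1 : D₀ ≤ H₀ := hH₀ ▸ le_sup_left
  have l2 : H20.cent D₀ ≤ H₀ := hH₀ ▸ le_sup_right
  have l3 : H₀ ≤ H20.nrm D₀ := hH₀ ▸ sup_le Subgroup.le_normalizer (H20.cent_le_nrm D₀)
  have c := hb.left
  have h1 : Fx (piCoreOf {q | q ∉ π} (H20.cent D₀)) (H20.eA H₀ β₀) := by
    refine (fx_iff_IB (not_dvd_core hpπ _) ((H15.piCoreOf_le _ _).trans l2)
      (H15.le_norm_piCoreOf _ (l3.trans (H20.nrm_le_nrm_cent _))) c).2 fun χ hχ x hx => ?_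
    obtain ⟨ξ, hξ, rfl⟩ := H20.exists_of_IB hχ
    obtain ⟨x, hx, rfl⟩ := hx
    exact (H20.ext_coe (ξ : H₀ → ℂ) ⟨x, l2 x.2⟩).trans ((hkerb x hx ξ hξ ⟨x, l2 x.2⟩ rfl).trans (H20.ext_one _).symm)
  have e0 := H20.br_eq_self_of_normal hD₀ l3 c.mem (H20.fixed_anti l1 c.fixed) c.idem
  obtain ⟨f, hf, hf'⟩ := H20.exists_blk_br (N := ⊤) hD₀ (H20.supp_mono le_top c.supp) c.idem
    (H20.fixed_anti l1 c.fixed) (H20.fixed_anti (inf_le_right.trans l2) c.fixed) (e0.symm ▸ c.ne_zero)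
  rw [top_inf_eq] at hf
  obtain ⟨x, -, hs⟩ := hm.exists_conj
    ⟨H20.isPair_top.2 ⟨hD₀, hf⟩, le_top, br_of_ind hb hD₀ l1 l2 hf hf'⟩
  have h2 := fx_up hs ((h1.of_eq (e0 ▸ hf')).cj x)
  have hL := not_dvd_core hpπ (H20.nrm D)
  have l4 : piCoreOf {q | q ∉ π} (H20.nrm D) ≤ H20.cent D :=
    H15.le_cent_of_coprime (H15.le_norm_piCoreOf_of_le _ Subgroup.le_normalizer) (H15.piCoreOf_le _ _) (by
      obtain ⟨n, hn⟩ := hBD.pg.exists_card_eq
      rw [hn]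
      exact Nat.Coprime.pow_right _ ((Nat.Prime.coprime_iff_not_dvd Fact.out).2 hL).symm)
  rw [← fx_core_iff hpπ]
  have e1 := eq_br_of_ind hBD hB₁
  refine Fx.of_br hB₁.left hL (H15.piCoreOf_le _ _) (H15.le_norm_piCoreOf_self _ _) hBD.pg
    (H15.le_norm_piCoreOf_of_le _ Subgroup.le_normalizer)
    (H20.fixed_anti Subgroup.le_normalizer hB₁.left.fixed)
    (by rw [← e1, H20.br_br_of_le le_rfl]; exact hm.pair.br) hm.isPair.blk.ne_zero
    (h2.mono (inf_le_inf_right _ fun y hy => ?_))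
  have m : y ∈ H20.sc x (H20.cent D₀) := H20.cent_sc x D₀ ▸ H20.cent_anti hs.le (l4 hy)
  obtain ⟨z, hz, rfl⟩ := m
  refine ⟨z, ⟨⟨z, hz⟩, hcompl _ fun q hq d => ?_, rfl⟩, rfl⟩
  refine H15.isPi_piCoreOf _ _ q hq (d.trans (Dvd.dvd.trans ?_ (Subgroup.orderOf_dvd_natCard _ hy)))
  rw [Subgroup.orderOf_mk, MulEquiv.coe_toMonoidHom, MulEquiv.orderOf_eq]

end Cfsg.Agent.S4728
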