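import Cfsg.Statements.S4729
import Cfsg.Agent.H19.Kern
import Cfsg.Agent.H2.Ch1

set_option autoImplicit false
open Cfsg

namespace Cfsg.Agent.S4729
open H17 H19

/-- Let p be a prime, M a maximal ideal of the algebraic integers containing p, G a finite perfect group and P a Sylow p-subgroup. If the principal p-block of G contains a faithful irreducible character of degree less than 2p, then the centralizer of P is a p-group. -/
theorem result {G : Type*} [Group G] [Finite G] (p : ℕ) [Fact p.Prime] (M : Ideal Cfsg.AlgInt) (hM : Cfsg.IsPModular p M) (hperf : commutator G = ⊤) (P : Sylow p G) (χ : Cfsg.IrrCharacter G) (hχ : χ ∈ Cfsg.principalBlock M G) (hfaith : ∀ g : G, (χ : G → ℂ) g = (χ : G → ℂ) 1 → g = 1) (hdeg : Cfsg.charDegree (χ : G → ℂ) < 2 * p) : IsPGroup p ↥(Subgroup.centralizer ((P : Subgroup G) : Set G)) := by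
  classical
  obtain ⟨O, hO, _⟩ := exists_over hM
  have hp : p.Prime := Fact.out
  rw [hO.principalBlock_eq, mem_irr, B0, lam_eq_iff] at hχ
  have h1 : ∀ v ∈ Subgroup.centralizer ((P : Subgroup G) : Set G),
      (χ : G → ℂ) v - (χ : G → ℂ) 1 ∈ O.nonunits := fun v hv => by
    have h2 : ¬ p ∣ (Subgroup.centralizer ({v} : Set G)).index := fun h =>
      P.not_dvd_index (h.trans (Subgroup.index_dvd_of_le fun g hg _ e => e ▸ (hv g hg).symm))
    have h3 : ((Subgroup.centralizer ({v} : Set G)).index : ℂ) ≠ 0 := fun e =>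
      h2 (by rw [Nat.cast_eq_zero.1 e]; exact dvd_zero p)
    have := nonunits_mul_left (mul_mem (inv_natCast_mem p h2)
      (mem_of_isIntegral O (χ.2.isCharacter.isIntegral 1))) (hχ v)
    convert this using 1
    have := irr_one_ne_zero χ
    simp only [centralChar, triv_apply]
    field_simp
  have key : ∀ y ∈ Subgroup.centralizer ((P : Subgroup G) : Set G), ¬ p ∣ orderOf y → y = 1 :=
    fun y hy hr => by
    have := Fintype.ofFinite (Subgroup.zpowers y)
    obtain ⟨n, l, hn, hl⟩ := (χ.2.isCharacter.restrict (Subgroup.zpowers y)).exists_sum_linear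
      (H2.ch_comm_zpowers y)
    rw [OneMemClass.coe_one] at hn
    rw [charDegree_natCast hn] at hdeg
    have h2 : ∀ i, l i ≠ 1 → p ∣ (Finset.univ.filter fun j => l j = l i).card := fun i hi => by
      rw [← natCast_mem_nonunits_iff (O := O), ← H2.ch_card_filter_lin, classInner_def]
      simp only [← hl]
      rw [show ∑ g : Subgroup.zpowers y, (χ : G → ℂ) g * (starRingEnd ℂ) (l i g : ℂ) =
          ∑ g : Subgroup.zpowers y, ((χ : G → ℂ) g - (χ : G → ℂ) 1) * (starRingEnd ℂ) (l i g : ℂ) by
        simp only [sub_mul, Finset.sum_sub_distrib, ← Finset.mul_sum, ← map_sum, H2.ch_sum_lin hi,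
          map_zero, mul_zero, sub_zero]]
      refine nonunits_mul_left (inv_natCast_mem p (by rwa [Nat.card_zpowers])) (sum_mem fun g _ =>
        nonunits_mul_right (h1 _ (Subgroup.zpowers_le.2 hy g.2)) ?_)
      rw [linear_conj]
      exact mem_of_isIntegral O (linear_isIntegral _ _)
    have h3 : ∀ i, l i ≠ 1 → p ≤ (Finset.univ.filter fun j => l j = l i).card := fun i hi =>
      Nat.le_of_dvd (Finset.card_pos.2 ⟨i, by simp⟩) (h2 i hi)
    have h4 : ∀ s : Finset (Fin n), s.card ≤ n := fun s => by simpa using Finset.card_le_univ s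
    have h5 : ∀ i, l i = 1 := fun i => by_contra fun hi => hi (MonoidHom.ext fun v => by
      have h6 := H2.ch_det_prod hperf χ.2.isCharacter (Subgroup.zpowers y).subtype l hl v
      have h7 : (Finset.univ.filter fun j => l j = l i).card = p := by
        obtain ⟨k, hk⟩ := h2 i hi
        have := h3 i hi
        have := h4 (Finset.univ.filter fun j => l j = l i)
        rw [hk] at *
        rw [show k = 1 by nlinarith [hp.pos], mul_one]
      rw [← Finset.prod_filter_mul_prod_filter_not Finset.univ (fun j => l j = l i),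
        Finset.prod_congr rfl (g := fun _ => l i v) (fun j hj => by rw [(Finset.mem_filter.1 hj).2]),
        Finset.prod_const, h7, Finset.prod_eq_one fun j hj => ?_, mul_one] at h6
      · exact orderOf_eq_one_iff.1 (Nat.Coprime.eq_one_of_dvd ((Nat.coprime_comm.1
          ((Nat.Prime.coprime_iff_not_dvd hp).2 hr)).coprime_dvd_left ((orderOf_map_dvd _ _).trans
            (Nat.card_zpowers y ▸ orderOf_dvd_natCard v))) (orderOf_dvd_of_pow_eq_one h6))
      suffices l j = 1 by rw [this]; rfl
      by_contra hj'
      have h8 := h4 (Finset.univ.filter (fun a => l a = l j) ∪ Finset.univ.filter fun a => l a = l i)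
      rw [Finset.card_union_of_disjoint (Finset.disjoint_filter.2 fun a _ h h' =>
        (Finset.mem_filter.1 hj).2 (h.symm.trans h'))] at h8
      have := h3 j hj'
      omega)
    exact hfaith y (by rw [hn, hl ⟨y, Subgroup.mem_zpowers y⟩]; simp [h5])
  intro g
  obtain ⟨x, hx⟩ := exists_isPPart p g
  have := key _ (x⁻¹ * g).2 (by rw [Subgroup.orderOf_coe]; exact isPPart_preg hx)
  rw [OneMemClass.coe_eq_one, inv_mul_eq_one] at this
  exact isPElt_iff.1 (this ▸ isPPart_isPElt hx)

end Cfsg.Agent.S4729
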