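import Cfsg.Statements.S4730
import Cfsg.Agent.H19.Ht3
import Cfsg.Agent.H15.Amb

set_option autoImplicit false
open Cfsg

namespace Cfsg.Agent.S4730
open H17 H19

/-- Let p be a prime, M a maximal ideal of the algebraic integers containing p, and G a finite group with trivial centre, Sylow p-subgroup P of order p^a and centre Z(P) of order p^b. If χ is a faithful irreducible character of G whose degree is a power of p, then the p-block of χ has defect at most a − b; in particular, if P is abelian then χ lies in a block of defect zero. -/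
theorem result {G : Type*} [Group G] [Finite G] (p : ℕ) [Fact p.Prime] (M : Ideal Cfsg.AlgInt) (hM : Cfsg.IsPModular p M) (hZ : Subgroup.center G = ⊥) (P : Sylow p G) (a b : ℕ) (ha : Nat.card P = p ^ a) (hb : Nat.card (Subgroup.center ↥(P : Subgroup G)) = p ^ b) (χ : Cfsg.IrrCharacter G) (hfaith : ∀ g : G, (χ : G → ℂ) g = (χ : G → ℂ) 1 → g = 1) (n : ℕ) (hdeg : Cfsg.charDegree (χ : G → ℂ) = p ^ n) : Cfsg.blockDefect p (Cfsg.blockOf M (χ : G → ℂ)) ≤ a - b ∧ (IsMulCommutative ↥(P : Subgroup G) → Cfsg.blockDefect p (Cfsg.blockOf M (χ : G → ℂ)) = 0) := by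
  obtain ⟨O, hO, _⟩ := exists_over hM
  rw [hO.blockOf_eq]
  classical
  have hp : p.Prime := Fact.out
  have key : blockDefect p (irr (lam O χ)) ≤ a - b := by
    obtain ⟨ψ, hψ, e⟩ := H20.exists_vd_eq p (irr_nonempty (lam O χ))
    rw [H20.blockDefect_eq, ← e, Nat.pow_right_injective hp.two_le (P.card_eq_multiplicity.symm.trans ha)]
    refine Nat.sub_le_sub_left (not_lt.1 fun hlt => ?_) _
    set Z := (Subgroup.center P).map (P : Subgroup G).subtype with hZ'
    have hc : Nat.card Z = p ^ b := (Subgroup.card_map_of_injective (Subgroup.subtype_injective _)).trans hb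
    have := Fintype.ofFinite Z
    obtain ⟨m, hm⟩ := (ψ.2.isCharacter.restrict Z).inner_nat isCharacter_one
    rw [classInner_one_right, inv_mul_eq_iff_eq_mul₀ card_ne_zero_complex, hc] at hm
    have h1 : ∀ z ∈ Finset.univ.erase (1 : Z), (ψ : G → ℂ) z / (ψ : G → ℂ) 1 ∈ O.nonunits := fun z hz => by
      have hi : ¬ p ∣ (Subgroup.centralizer {(z : G)}).index := fun d => P.not_dvd_index (d.trans
        (Subgroup.index_dvd_of_le fun y hy => Subgroup.mem_centralizer_singleton_iff.2
          (((H15.map_center_subtype (P : Subgroup G)).le z.2).2 y hy)))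
      have h2 : (χ : G → ℂ) z = 0 := by
        refine (χ.2.eq_zero_or_norm_eq (cast_deg χ).symm z (hdeg ▸ Nat.Coprime.pow_left _
          ((Nat.Prime.coprime_iff_not_dvd hp).2 hi))).resolve_right fun h => (Finset.mem_erase.1 hz).1 ?_
        rw [← χ.2.isCharacter.mem_charCenter' (cast_deg χ).symm, χ.2.charCenter_eq_center
          (eq_bot_iff.2 fun g hg => hfaith g (apply_eq_of_mem_charKer hg)), hZ] at h
        exact Subtype.ext h
      have h3 := mt (H20.blk_cls_ne_zero_iff (O := O) (mem_irr_lam χ) z).1 (by simp [centralChar, h2])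
      rw [H20.blk_cls_ne_zero_iff hψ, ← H20.not_nonunits_iff (centralChar_mem O ψ.2 _), not_not] at h3
      have h4 := nonunits_mul_left (inv_natCast_mem p hi) h3
      rwa [centralChar, mul_div_assoc, inv_mul_cancel_left₀
        (Nat.cast_ne_zero.2 Subgroup.FiniteIndex.index_ne_zero)] at h4
    have h5 : (∑ z : Z, (ψ : G → ℂ) z) / (ψ : G → ℂ) 1 ∈ O.nonunits := by
      rw [hm, ← cast_deg, ← Nat.cast_mul]
      rcases eq_or_ne m 0 with rfl | m0
      · simp
      rw [natCast_div_mem_nonunits_iff p (mul_ne_zero (pow_ne_zero _ hp.ne_zero) m0) (deg_ne_zero ψ),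
        Nat.factorization_mul (pow_ne_zero _ hp.ne_zero) m0, hp.factorization_pow]
      simpa using hlt.trans_le (Nat.le_add_right _ _)
    rw [Finset.sum_div, ← Finset.add_sum_erase _ _ (Finset.mem_univ 1), Subgroup.coe_one,
      div_self ψ.2.one_ne_zero] at h5
    exact one_not_mem_nonunits (by simpa using sub_mem h5 (sum_mem h1))
  refine ⟨key, fun h => ?_⟩
  rw [Subgroup.center_eq_top, Subgroup.card_top, ha, Nat.pow_right_inj hp.one_lt] at hb
  omega

end Cfsg.Agent.S4730
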