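import Cfsg.Statements.S4731
import Cfsg.Agent.H19.Kern

set_option autoImplicit false
open Cfsg

namespace Cfsg.Agent.S4731
open H17 H19

/-- Let p ≠ q be primes, M_p and M_q maximal ideals of the algebraic integers containing p and q respectively, and G a finite group with no element of order pq; let q^b be the q-part of the order of G. For a p-block B_p (relative to M_p), a q-block B_q (relative to M_q) and a p-singular element y, the sum of χ(1)χ(y) over the irreducible characters χ lying in both B_p and B_q is q^b times an algebraic integer. -/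
theorem result {G : Type*} [Group G] [Finite G] (p q : ℕ) [Fact p.Prime] [Fact q.Prime] (hpq : p ≠ q) (Mp Mq : Ideal Cfsg.AlgInt) (hMp : Cfsg.IsPModular p Mp) (hMq : Cfsg.IsPModular q Mq) (hno : ∀ g : G, orderOf g ≠ p * q) (b : ℕ) (hb : (Nat.card G).factorization q = b) (Bp : Set (Cfsg.IrrCharacter G)) (hBp : Cfsg.IsPBlock Mp Bp) (Bq : Set (Cfsg.IrrCharacter G)) (hBq : Cfsg.IsPBlock Mq Bq) (y : G) (hy : p ∣ orderOf y) : ∃ ω : Cfsg.AlgInt, ∑ᶠ χ ∈ Bp ∩ Bq, (Cfsg.charDegree (χ : G → ℂ) : ℂ) * (χ : G → ℂ) y = (q : ℂ) ^ b * (ω : ℂ) := by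
  classical
  have := Fintype.ofFinite G
  obtain ⟨O, hO, _⟩ := exists_over hMp
  obtain ⟨O', hO', _⟩ := exists_over hMq
  obtain ⟨β, rfl⟩ := hO.exists_blk hBp
  obtain ⟨γ, rfl⟩ := hO'.exists_blk hBq
  set θ : G → ℂ := ∑ χ with χ ∈ irr β, (χ : G → ℂ) y • (χ : G → ℂ) with hθ
  have h1 : ∀ g, q ∣ orderOf g → θ g = 0 := fun g hg => by
    have h2 : ¬ p ∣ orderOf g⁻¹ := fun h => by
      rw [orderOf_inv] at h
      obtain ⟨c, hc⟩ := ((Nat.coprime_primes Fact.out Fact.out).2 hpq).mul_dvd_of_dvd_of_dvd h hg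
      have h0 : c ≠ 0 := fun e => (orderOf_pos g).ne' (by rw [hc, e, mul_zero])
      exact hno (g ^ c) (by rw [orderOf_pow_of_dvd h0 (Dvd.intro_left _ hc.symm), hc,
        Nat.mul_div_cancel _ (Nat.pos_of_ne_zero h0)])
    have := Kr_weak' β hy h2
    rw [Kr_eq, inv_inv] at this
    simpa [hθ] using this
  have h2 : blockPart (irr γ) θ = ∑ χ with χ ∈ irr β ∩ irr γ, (χ : G → ℂ) y • (χ : G → ℂ) := by
    rw [blockPart_eq_sum', Finset.sum_filter, Finset.sum_filter]
    refine Finset.sum_congr rfl fun χ _ => ?_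
    simp only [hθ, classInner_sum_left, classInner_smul_left, irr_inner, mul_ite, mul_one, mul_zero,
      Finset.sum_ite_eq', Finset.mem_filter, Finset.mem_univ, true_and, Set.mem_inter_iff]
    by_cases c : χ ∈ irr β <;> by_cases c' : χ ∈ irr γ <;> simp only [c, c'] <;> simp
  obtain ⟨Q⟩ : Nonempty (Sylow q G) := inferInstance
  have := Fintype.ofFinite (Q : Subgroup G)
  have h3 : blockPart (irr γ) θ ∈ GC ZB G := h2 ▸ Submodule.sum_mem _ fun χ _ =>
    smul_mem_GC (mem_ZB.2 (χ.2.isCharacter.isIntegral y)) (irr_mem_GC χ)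
  have h4 := GC_sum_div (GC_restrict h3 Q)
  rw [Finset.sum_eq_single 1 (fun u _ hu => blockPart_eq_zero_of_sing h1 γ
    ((isPElt_of_mem Q.isPGroup' u.2).dvd_orderOf fun e => hu (Subtype.ext e))) (by simp),
    Q.card_eq_multiplicity, hb] at h4
  refine ⟨⟨_, mem_ZB.1 h4⟩, ?_⟩
  change _ = _ * (_ / _)
  rw [finsum_mem_irr, Nat.cast_pow, mul_div_cancel₀ _ (pow_ne_zero _ (by
    exact_mod_cast (Fact.out : q.Prime).ne_zero)), h2]
  simp [cast_deg, mul_comm]

end Cfsg.Agent.S4731
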