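import Cfsg.Statements.S4732
import Cfsg.Agent.H21.BF3

set_option autoImplicit false
universe u v
open Cfsg

open H17 H15 CF H21 Subgroup

namespace Cfsg.Agent.S4732

/-- Let p be a prime. There is a function f of two natural-number arguments such that every finite group G admitting a faithful representation of degree n over a field of characteristic p, with Sylow p-subgroups of order p^m, has a normal abelian subgroup A with [G : A] < f(m, n). -/
theorem result (p : ℕ) [Fact p.Prime] : ∃ f : ℕ → ℕ → ℕ, ∀ (G : Type u) [Group G] [Finite G] (F : Type v) [Field F] [CharP F p] (n : ℕ) (ρ : Representation F G (Fin n → F)), Function.Injective ρ → ∀ m : ℕ, (Nat.card G).factorization p = m → ∃ A : Subgroup G, A.Normal ∧ IsMulCommutative A ∧ A.index < f m n := by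
  choose c hc using fun m n => BF.bfs_all.{u, v} p m n
  refine ⟨fun m n => (c m n).factorial + 1, fun G _ _ F _ _ n ρ hρ m hm => ?_⟩
  obtain ⟨A, a1, a2⟩ := hc m n G (AlgebraicClosure F) (Fin n → AlgebraicClosure F)
    ((Matrix.toLinAlgEquiv' (R := AlgebraicClosure F) (n := Fin n)).toAlgHom.toMonoidHom.comp
      ((algebraMap F (AlgebraicClosure F)).mapMatrix.toMonoidHom.comp
        ((LinearMap.toMatrixAlgEquiv' (R := F) (n := Fin n)).toAlgHom.toMonoidHom.comp ρ)))
    (by simp) (Matrix.toLinAlgEquiv'.injective.comp ((Matrix.map_injective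
      (algebraMap F (AlgebraicClosure F)).injective).comp
        (LinearMap.toMatrixAlgEquiv'.injective.comp hρ))) hm.le
  refine ⟨A.normalCore, inferInstance, comm_of_le (comm_of_le_cent a1.1) A.normalCore_le,
    Nat.lt_succ_of_le (le_trans ?_ (Nat.factorial_le a2))⟩
  rw [normalCore_eq_ker, index_ker, index, ← Nat.card_perm]
  exact card_le_card_group _

end Cfsg.Agent.S4732
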