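import Cfsg.Statements.S4733
import Cfsg.Agent.H19.Sub

set_option autoImplicit false
open Cfsg

namespace Cfsg.Agent.S4733
open H17 H19

/-- Let p be a prime, M a maximal ideal of the algebraic integers containing p, and B a p-block of the finite group G with k irreducible characters and p-regular rank l (the number of irreducible Brauer characters). Then l ≤ k, and the following are equivalent: B has defect 0; k = l = 1; k = l. -/
theorem result {G : Type*} [Group G] [Finite G] (p : ℕ) [Fact p.Prime] (M : Ideal Cfsg.AlgInt) (hM : Cfsg.IsPModular p M) (B : Set (Cfsg.IrrCharacter G)) (hB : Cfsg.IsPBlock M B) : Cfsg.blockRank p B ≤ Nat.card B ∧ (Cfsg.blockDefect p B = 0 ↔ (Nat.card B = 1 ∧ Cfsg.blockRank p B = 1)) ∧ (Cfsg.blockDefect p B = 0 ↔ Nat.card B = Cfsg.blockRank p B) := by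
  obtain ⟨O, hO, _⟩ := exists_over hM
  obtain ⟨β, rfl⟩ := hO.exists_blk hB
  have h1 : Cfsg.blockDefect p (irr β) = 0 → Nat.card (irr β) = 1 ∧ Cfsg.blockRank p (irr β) = 1 :=
    fun h => by
      have h2 := H20.blockRank_of_defect h
      obtain ⟨χ, hχ⟩ := irr_nonempty β
      rw [h2]
      refine ⟨?_, rfl⟩
      rw [H20.irr_eq_singleton_of_defect h hχ]; simp
  refine ⟨rank_le_card p β, ⟨h1, fun h => ?_⟩, fun h => (h1 h).1.trans (h1 h).2.symm, fun h => ?_⟩
  · by_contra h0
    have := rank_lt_card h0
    omega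
  · by_contra h0
    have := rank_lt_card h0
    omega

end Cfsg.Agent.S4733
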