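import Cfsg.Statements.S4734
import Cfsg.Agent.H19.Ker

set_option autoImplicit false
open Cfsg

namespace Cfsg.Agent.S4734
open H17 H19

/-- Let p be a prime, π a set of primes containing p, M a maximal ideal of the algebraic integers containing p, B a p-block of the finite group G with defect group D, and B₁ the block of N_G(D) with defect group D inducing B. Write O_π'(X) for the largest normal subgroup of X whose order has no prime divisor in π, and suppose every element of O_π'(N_G(D)) lies in the kernel of every member of B₁. Let G₀ be a subgroup and B₀ a block of G₀ with defect group D₀ such that C_G(D₀) ≤ G₀ and B₀ induces B. Then every element of O_π'(G₀) lies in the kernel of every member of B₀. -/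
theorem result {G : Type*} [Group G] [Finite G] (p : ℕ) [Fact p.Prime] (M : Ideal Cfsg.AlgInt) (hM : Cfsg.IsPModular p M) (π : Set ℕ) (hpπ : p ∈ π) (B : Set (Cfsg.IrrCharacter G)) (hB : Cfsg.IsPBlock M B) (D : Subgroup G) (hBD : Cfsg.IsDefectGroup p M B D) (B₁ : Set (Cfsg.IrrCharacter ↥(Subgroup.normalizer (D : Set G)))) (hB₁ : Cfsg.IsInducedBlock M (Subgroup.normalizer (D : Set G)) B₁ B) (hB₁D : Cfsg.IsDefectGroup p M B₁ (D.subgroupOf (Subgroup.normalizer (D : Set G)))) (hker : ∀ n : ↥(Subgroup.normalizer (D : Set G)), n ∈ Cfsg.piCore {q | q ∉ π} ↥(Subgroup.normalizer (D : Set G)) → n ∈ Cfsg.blockKer B₁) (G₀ : Subgroup G) (B₀ : Set (Cfsg.IrrCharacter ↥G₀)) (hB₀ : Cfsg.IsInducedBlock M G₀ B₀ B) (D₀ : Subgroup ↥G₀) (hD₀ : Cfsg.IsDefectGroup p M B₀ D₀) (hC : Subgroup.centralizer ((D₀.map G₀.subtype : Subgroup G) : Set G) ≤ G₀) : ∀ x : ↥G₀, x ∈ Cfsg.piCore {q | q ∉ π} ↥G₀ → x ∈ Cfsg.blockKer B₀ := by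
  obtain ⟨O, hO, _⟩ := exists_over hM
  obtain ⟨β, rfl⟩ := hO.exists_blk hB
  obtain ⟨β₁, rfl⟩ := hO.exists_blk hB₁.1
  obtain ⟨β₀, rfl⟩ := hO.exists_blk hB₀.1
  rw [H20.isInducedBlock_iff hO] at hB₁ hB₀
  rw [H20.isDefectGroup_iff hO hM] at hBD
  rw [H20.isDefectGroup_iff_up hO hM] at hD₀
  obtain ⟨e, hm⟩ := H20.exists_max (H20.isBlk_eG β) hBD
  obtain ⟨f, hf, hp⟩ := exists_pair_of_ind hB₀ hD₀ hC
  have h1 := fx_core_pair hpπ hm (fx_core_max hm hB₁ ((fx_core_iff hpπ β₁).2 hker)) hp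
  rw [← fx_core_iff hpπ]
  exact Fx.of_br hf.blk (not_dvd_core hpπ _) (H15.piCoreOf_le _ _) (H15.le_norm_piCoreOf_self _ _)
    hD₀.pg (H15.le_norm_piCoreOf_of_le _ hD₀.le) (H20.fixed_anti hD₀.le hf.blk.fixed) hf.pair.br
    hf.isPair.blk.ne_zero (h1.mono (core_inf_le _ hC))

end Cfsg.Agent.S4734
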