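import Cfsg.Statements.S4735
import Cfsg.Agent.H19.Kern
import Cfsg.Agent.Lead.Ly5

set_option autoImplicit false
open Cfsg

namespace Cfsg.Agent.S4735
open H17 H19

/-- Let p be a prime, M a maximal ideal of the algebraic integers containing p, G a finite group, H = O_p'(G) and Ḡ = G/H. For x ∈ G write λ(G, x) for the sum of |χ(x)|^2 over the irreducible characters χ in the principal p-block of G. Then λ(G, x) is a positive integer, λ(G, x) = λ(Ḡ, x̄) where x̄ is the image of x, and λ(G, x) ≤ #C_Ḡ(x̄). Moreover λ(G, 1) = [G : H] if and only if the principal block is the only p-block of Ḡ. -/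
theorem result {G : Type*} [Group G] [Finite G] (p : ℕ) [Fact p.Prime] (M : Ideal Cfsg.AlgInt) (hM : Cfsg.IsPModular p M) (x : G) : (∃ n : ℕ, 0 < n ∧ ∑ᶠ χ ∈ Cfsg.principalBlock M G, Complex.normSq ((χ : G → ℂ) x) = n) ∧ ∑ᶠ χ ∈ Cfsg.principalBlock M G, Complex.normSq ((χ : G → ℂ) x) = ∑ᶠ ψ ∈ Cfsg.principalBlock M (G ⧸ Cfsg.pPrimeCore p G), Complex.normSq ((ψ : G ⧸ Cfsg.pPrimeCore p G → ℂ) (QuotientGroup.mk x)) ∧ ∑ᶠ χ ∈ Cfsg.principalBlock M G, Complex.normSq ((χ : G → ℂ) x) ≤ (Nat.card ↥(Subgroup.centralizer ({(QuotientGroup.mk x : G ⧸ Cfsg.pPrimeCore p G)} : Set (G ⧸ Cfsg.pPrimeCore p G))) : ℝ) ∧ ((∑ᶠ χ ∈ Cfsg.principalBlock M G, Cfsg.charDegree (χ : G → ℂ) ^ 2) = (Cfsg.pPrimeCore p G).index ↔ ∀ B : Set (Cfsg.IrrCharacter (G ⧸ Cfsg.pPrimeCore p G)), Cfsg.IsPBlock M B → B = Cfsg.principalBlock M (G ⧸ Cfsg.pPrimeCore p G)) := by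
  classical
  have := Fintype.ofFinite G
  obtain ⟨O, hO, _⟩ := exists_over hM
  have hK : ¬ p ∣ Nat.card (QuotientGroup.mk' (pPrimeCore p G)).ker := by
    rw [QuotientGroup.ker_mk']; exact H1.not_dvd_card_pPrimeCore hM.1
  simp only [hO.principalBlock_eq, Complex.normSq_eq_norm_sq]
  have h1 : ∀ x : G, ∑ᶠ χ ∈ irr (B0 O G), ‖(χ : G → ℂ) x‖ ^ 2 = ∑ᶠ ψ ∈ irr (B0 O (G ⧸ pPrimeCore p G)),
      ‖(ψ : G ⧸ pPrimeCore p G → ℂ) (QuotientGroup.mk x)‖ ^ 2 := fun x => Complex.ofReal_injective (by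
    rw [Kr_self_finsum, Kr_self_finsum, irr_B0_of_coprime _ (QuotientGroup.mk'_surjective _) hK,
      Kr_image]; rfl)
  have h2 : ∀ x : G ⧸ pPrimeCore p G, ∑ᶠ ψ ∈ irr (B0 O (G ⧸ pPrimeCore p G)),
      ‖(ψ : G ⧸ pPrimeCore p G → ℂ) x‖ ^ 2 + ∑ ψ with ψ ∉ irr (B0 O (G ⧸ pPrimeCore p G)),
      ‖(ψ : G ⧸ pPrimeCore p G → ℂ) x‖ ^ 2 = Nat.card (Subgroup.centralizer {x}) := fun x => by
    rw [finsum_mem_irr, Finset.sum_filter_add_sum_filter_not, sum_normSq_irr]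
  refine ⟨?_, h1 x, ?_, ?_⟩
  · obtain ⟨n, hn⟩ := (isCharacter_sum (Finset.univ.filter (· ∈ irr (B0 O G)))
      (fun χ => (χ : G → ℂ) * fun g => (χ : G → ℂ) g⁻¹) fun χ _ => χ.2.isCharacter.mul
        χ.2.isCharacter.comp_inv).isGen.exists_int_of_pow (g := x) fun k hk => by
      simp only [Finset.sum_apply, Pi.mul_apply, ← inv_pow, ← Lead.Ly.gal_apply hk]
      exact Finset.sum_equiv (Lead.Ly.gal hk) (fun χ => by simpa using Lead.Ly.gal_mem hk χ)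
        fun _ _ => rfl
    simp only [Finset.sum_apply, Pi.mul_apply] at hn
    rw [← Kr_eq, ← Kr_self_finsum, ← Complex.ofReal_intCast, Complex.ofReal_inj] at hn
    have h3 : (1 : ℝ) ≤ n := by
      rw [← hn, finsum_mem_irr]
      simpa using Finset.single_le_sum (f := fun χ : IrrCharacter G => ‖(χ : G → ℂ) x‖ ^ 2)
        (fun _ _ => sq_nonneg _) (Finset.mem_filter.2 ⟨Finset.mem_univ _, triv_mem_B0 (O := O)⟩)
    lift n to ℕ using (by exact_mod_cast zero_le_one.trans h3)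
    exact ⟨n, by exact_mod_cast h3, by exact_mod_cast hn⟩
  · rw [h1, ← h2]
    exact le_add_of_nonneg_right (Finset.sum_nonneg fun _ _ => sq_nonneg _)
  have h3 := h2 1
  rw [← QuotientGroup.mk_one, ← h1, QuotientGroup.mk_one, Subgroup.centralizer_eq_top_iff_subset.2
    (by simp), Subgroup.card_top, finsum_mem_irr] at h3
  simp only [← cast_deg, Complex.norm_natCast] at h3
  rw [finsum_mem_irr, Subgroup.index, ← Nat.cast_inj (R := ℝ), ← h3, Nat.cast_sum]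
  simp only [Nat.cast_pow, left_eq_add, Finset.sum_eq_zero_iff_of_nonneg fun _ _ => sq_nonneg _,
    Finset.mem_filter, Finset.mem_univ, true_and, pow_eq_zero_iff two_ne_zero, Nat.cast_eq_zero,
    deg_ne_zero, imp_false, not_not]
  refine ⟨fun h B hB => ?_, fun h ψ => h _ (hO.isPBlock_irr (lam O ψ)) ▸ mem_irr_lam ψ⟩
  obtain ⟨β, rfl⟩ := hO.exists_blk hB
  obtain ⟨ψ, rfl⟩ := lam_surjective β
  rw [mem_irr.1 (h ψ)]

end Cfsg.Agent.S4735
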