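import Cfsg.Statements.S4736
import Cfsg.Agent.H20.PSol
import Cfsg.Agent.H20.Cyc6
-- import your own Cfsg.Agent.* helpers here

set_option autoImplicit false
open Cfsg

namespace Cfsg.Agent.S4736

open H17 H20 Subgroup


/-- Let p be a prime, M a maximal ideal of the algebraic integers containing p, and G a finite p-solvable group with Sylow p-subgroup P. Then P is abelian if and only if every irreducible character in the principal p-block of G has height zero. -/
theorem result {G : Type*} [Group G] [Finite G] (p : ℕ) [Fact p.Prime] (M : Ideal Cfsg.AlgInt) (hM : Cfsg.IsPModular p M) (hsolv : Cfsg.IsPSolvable p G) (P : Sylow p G) : IsMulCommutative P ↔ ∀ χ ∈ Cfsg.principalBlock M G, Cfsg.blockHeight p (Cfsg.principalBlock M G) (χ : G → ℂ) = 0 := by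
  classical
  obtain ⟨O, hO, _⟩ := H19.exists_over hM
  rw [hO.principalBlock_eq]
  constructor
  · intro hP χ hχ
    have := height_le_of_psolv G hsolv (H19.B0 O G) P (max_B0 (O := O) (H10.isSylowIn_top P)).df χ hχ
    rw [center_eq_top_iff.2 hP, index_top, Nat.factorization_one] at this
    exact Nat.le_zero.1 this
  · intro h
    have := Fintype.ofFinite G
    let K := pPrimeCore p G
    have hK : ¬ p ∣ Nat.card K := H1.not_dvd_card_pPrimeCore hM.1
    have h1 := eA_mem_fixed_of_inv (O := O) hK (θ := H19.triv K) fun _ _ => rfl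
    have h3 := fong (QuotientGroup.mk' K) (QuotientGroup.mk'_surjective _)
      (by rwa [QuotientGroup.ker_mk']) (H1.isPGroup_pCore p)
      (H1.IsPSolvable.centralizer_pCore_le (H1.IsPSolvable.quotient hsolv _)
        (H1.pPrimeCore_quotient_pPrimeCore p)) (by rw [QuotientGroup.ker_mk']; exact isBlk_eA _ _) h1
      IsPGroup.of_bot
    rw [cent_bot, br_bot] at h3
    obtain ⟨β, -, h5⟩ := exists_blk_of_inv hK h3
    have h6 : ∀ ψ : IrrCharacter (G ⧸ K),
        H19.infl (QuotientGroup.mk' K) (QuotientGroup.mk'_surjective _) ψ ∈ H19.irr β := by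
      intro ψ
      rw [h5, classInner_def]
      simp only [H19.infl_apply, QuotientGroup.mk'_apply, (QuotientGroup.eq_one_iff _).2 (Subtype.prop _),
        H19.triv_apply, map_one, mul_one, Finset.sum_const, nsmul_eq_mul]
      exact mul_ne_zero (inv_ne_zero (Nat.cast_ne_zero.2 Nat.card_pos.ne'))
        (mul_ne_zero (Nat.cast_ne_zero.2 Fintype.card_ne_zero) (H19.irr_one_ne_zero ψ))
    have h7 : β = H19.B0 O G := by
      have := h6 (H19.triv _)
      rw [H19.infl_triv] at this
      exact this.symm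
    subst h7
    have h8 : H21.DegP (¬ p ∣ ·) (G ⧸ K) := by
      intro ψ hψ hd
      have h9 := (height_eq_zero_iff (h6 ⟨ψ, hψ⟩)).1 (h _ (h6 ⟨ψ, hψ⟩))
      have h10 := emin_le (p := p) (H19.triv_mem_B0 (O := O) (G := G))
      rw [H19.vd_triv, ← h9, vd, H19.charDegree_infl, Nat.le_zero] at h10
      exact ((Nat.Prime.dvd_iff_one_le_factorization hM.1 (H19.deg_ne_zero ⟨ψ, hψ⟩)).1 hd).not_gt
        (h10 ▸ Nat.zero_lt_one)
    obtain ⟨Q, hQn, hQc, hQp, hQi⟩ :=
      (H21.pc_of_psolvable (H1.IsPSolvable.quotient hsolv K) h8).comm h8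
    have h9 : (P : Subgroup G).map (QuotientGroup.mk' K) ≤ Q :=
      (H10.isSylowIn_of_not_dvd le_top hQp (by rwa [relIndex_top_right])).le_of_le_NN
        (P.isPGroup'.map _) le_top (le_top.trans (top_le_nrm _))
    refine ⟨⟨fun x y => ?_⟩⟩
    have h10 := hQc _ (h9 (mem_map_of_mem _ x.2)) _ (h9 (mem_map_of_mem _ y.2))
    have h11 : ((x * y * (y * x)⁻¹ : P) : G) ∈ K := by
      rw [← QuotientGroup.eq_one_iff, ← QuotientGroup.mk'_apply]
      simp only [Subgroup.coe_mul, Subgroup.coe_inv, map_mul, map_inv, h10, mul_inv_cancel]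
    by_contra h12
    exact hK (((H19.isPElt_of_mem P.isPGroup' (x * y * (y * x)⁻¹).2).dvd_orderOf
      fun h => h12 (mul_inv_eq_one.1 (Subtype.ext h))).trans (K.orderOf_dvd_natCard h11))

end Cfsg.Agent.S4736
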