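import Cfsg.Statements.S4955
import Cfsg.Agent.H21.Glau1
import Cfsg.Agent.H21.Basic
import Cfsg.Agent.H21.Count
import Cfsg.Agent.H17.Deg
import Cfsg.Agent.H17.Galois

set_option autoImplicit false
open Cfsg

open H17

namespace Cfsg.Agent.S4955

theorem card_le_sum {X : Type*} [Group X] [Finite X] (B : Finset (IrrCharacter X))
    (hB : ∀ k : ℕ, k.Coprime (Nat.card X) → ∀ χ ψ : IrrCharacter X,
      (∀ g, (ψ : X → ℂ) g = (χ : X → ℂ) (g ^ k)) → (χ ∈ B ↔ ψ ∈ B))
    {v : X} (h0 : ∀ χ ∈ B, (χ : X → ℂ) v ≠ 0) :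
    (B.card : ℝ) ≤ ∑ χ ∈ B, ‖(χ : X → ℂ) v‖ ^ 2 := by
  have h1 : IsCharacter X (∏ χ ∈ B, (χ : X → ℂ)) :=
    isCharacter_prod _ _ fun χ _ => χ.2.isCharacter
  obtain ⟨n, hn⟩ := h1.isGen.exists_int_of_pow (g := v) fun k hk => by
    let e : IrrCharacter X → IrrCharacter X := fun χ => ⟨_, χ.2.comp_pow hk⟩
    have he : Function.Injective e := fun χ ψ h => Subtype.ext (funext fun g => by
      obtain ⟨y, rfl⟩ := (Nat.Coprime.pow_left_bijective hk.symm).2 g
      exact congrFun (congrArg Subtype.val h) y)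
    simp only [Finset.prod_apply]
    exact Finset.prod_bijective e (Finite.injective_iff_bijective.1 he)
      (fun χ => hB k hk χ (e χ) fun _ => rfl) fun _ _ => rfl
  refine card_le_sum_of_one_le_prod B _ (fun χ hχ => pow_pos (norm_pos_iff.2 (h0 χ hχ)) 2) ?_
  rw [Finset.prod_apply] at hn
  have h2 : n ≠ 0 := fun h => by
    rw [h, Int.cast_zero, Finset.prod_eq_zero_iff] at hn
    obtain ⟨χ, hχ, h3⟩ := hn
    exact h0 χ hχ h3
  rw [Finset.prod_pow, ← norm_prod, hn, Complex.norm_intCast]
  exact one_le_pow₀ (by exact_mod_cast Int.one_le_abs h2)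

/-- Let X be a finite group with an abelian normal Sylow p-subgroup V (a normal p-subgroup of index prime to p in which any two elements commute), and let G be a complement to V in X. Then for every v in V, writing C for the centralizer of v in G, the number k(X) of conjugacy classes of X satisfies k(X) ≤ (order of C)·(order of V) − ((order of G) − k(G)); the statement is written with the subtracted term moved to the left. In particular, if some v in V is centralized by no nonidentity element of G, then k(X) is at most the order of V. -/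
theorem result {X : Type*} [Group X] [Finite X] (p : ℕ) [Fact p.Prime] (V : Subgroup X) [V.Normal] (hVp : IsPGroup p V) (hidx : ¬ p ∣ V.index) (hab : ∀ a ∈ V, ∀ b ∈ V, a * b = b * a) (G : Subgroup X) (hGV : Subgroup.IsComplement' V G) (v : X) (hv : v ∈ V) : Nat.card (ConjClasses X) + Nat.card G ≤ Nat.card ↥(G ⊓ Subgroup.centralizer ({v} : Set X)) * Nat.card V + Nat.card (ConjClasses G) := by
  classical
  have hp : p.Prime := Fact.out
  have hA : IsMulCommutative V := ⟨⟨fun a b => Subtype.ext (hab _ a.2 _ b.2)⟩⟩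
  obtain ⟨j, hj⟩ := hVp ⟨v, hv⟩
  have h0 : ∀ χ : IrrCharacter X, (χ : X → ℂ) v ≠ 0 := fun χ h0 => by
    obtain ⟨d, hd⟩ := χ.2.isCharacter.exists_nat_one
    have h := H21.vchar_mod_pelt (S := ⊤) (CF.mem_vchar_top.2 χ.2.isGen) (k := j) hp
      (s := v) (c := 1) trivial trivial (congrArg Subtype.val hj) (by simp) (n := 0)
      (d := d) (by rw [mul_one, h0, Int.cast_zero]) (by rw [Int.cast_natCast, hd])
    rw [zero_sub, dvd_neg] at h
    exact hidx ((Int.natCast_dvd_natCast.1 h).trans (χ.2.degree_dvd_index_of_comm hd V hA))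
  have h1 := card_le_sum (Finset.univ.filter fun χ : IrrCharacter X => ¬ V ≤ charKer (χ : X → ℂ))
    (fun k hk χ ψ h => by
      simp only [Finset.mem_filter, Finset.mem_univ, true_and]
      refine not_congr ⟨fun h1 x hx => ?_, fun h1 x hx => ?_⟩
      · rw [ψ.2.mem_charKer, h, h, one_pow]
        exact χ.2.mem_charKer.1 (h1 (V.pow_mem hx k))
      · obtain ⟨m, hm⟩ := exists_pow_eq_self_of_coprime
          (hk.coprime_dvd_right (orderOf_dvd_natCard x))
        have h2 := ψ.2.mem_charKer.1 (h1 (V.pow_mem hx m))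
        rw [h, h, one_pow, ← pow_mul, mul_comm, pow_mul, hm] at h2
        exact χ.2.mem_charKer.2 h2) (v := v) fun χ _ => h0 χ
  have h2 := sum_normSq_irr v
  rw [← Finset.sum_filter_add_sum_filter_not Finset.univ
    (fun χ : IrrCharacter X => V ≤ charKer (χ : X → ℂ))] at h2
  have e : X ⧸ V ≃* G := hGV.symm.QuotientMulEquiv
  have h3 : ∑ χ ∈ Finset.univ.filter (fun χ : IrrCharacter X => V ≤ charKer (χ : X → ℂ)),
      ‖(χ : X → ℂ) v‖ ^ 2 = Nat.card G := by
    have h4 := sum_irr_ker_eq V (fun χ => ‖χ v‖ ^ 2)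
    have h5 := sum_normSq_irr (1 : X ⧸ V)
    rw [Subgroup.centralizer_eq_top_iff_subset.2 (by simp), Subgroup.card_top,
      Nat.card_congr e.toEquiv] at h5
    simp only [(QuotientGroup.eq_one_iff v).2 hv] at h4
    convert h4.trans h5
  have h4 : (Finset.univ.filter (fun χ : IrrCharacter X => V ≤ charKer (χ : X → ℂ))).card =
      Nat.card (ConjClasses G) := by
    rw [← H21.card_conjClasses_congr e, ← card_irr, Nat.card_congr (irrQuotientEquiv V),
      Nat.card_eq_fintype_card, Fintype.card_subtype]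
  have h5 := Finset.card_filter_add_card_filter_not (s := Finset.univ)
    (fun χ : IrrCharacter X => V ≤ charKer (χ : X → ℂ))
  rw [h4, Finset.card_univ, ← Nat.card_eq_fintype_card, card_irr] at h5
  have h6 : Nat.card (Subgroup.centralizer ({v} : Set X)) ≤
      Nat.card ↥(G ⊓ Subgroup.centralizer ({v} : Set X)) * Nat.card V := by
    have hVC : V ≤ Subgroup.centralizer ({v} : Set X) := fun x hx =>
      Subgroup.mem_centralizer_iff.2 (by rintro _ rfl; exact hab _ hv _ hx)
    rw [mul_comm, ← Nat.card_prod]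
    refine Nat.card_le_card_of_surjective (fun y : V × ↥(G ⊓ Subgroup.centralizer ({v} : Set X)) =>
      (⟨y.1 * y.2, Subgroup.mul_mem _ (hVC y.1.2) y.2.2.2⟩ : Subgroup.centralizer ({v} : Set X)))
      fun c => ?_
    obtain ⟨⟨a, b⟩, hab'⟩ := hGV.2 c
    refine ⟨(a, ⟨b, b.2, ?_⟩), Subtype.ext hab'⟩
    have h7 : (b : X) = (a : X)⁻¹ * c := by rw [← hab']; simp
    rw [h7]
    exact Subgroup.mul_mem _ (Subgroup.inv_mem _ (hVC a.2)) c.2
  have h7 : (Nat.card (ConjClasses X) : ℝ) + Nat.card G ≤
      Nat.card (Subgroup.centralizer ({v} : Set X)) + Nat.card (ConjClasses G) := by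
    rw [← h5]
    push_cast
    linarith
  have h8 : Nat.card (ConjClasses X) + Nat.card G ≤
      Nat.card (Subgroup.centralizer ({v} : Set X)) + Nat.card (ConjClasses G) := by
    exact_mod_cast h7
  omega

end Cfsg.Agent.S4955
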