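import Cfsg.Statements.S4956
import Cfsg.Agent.H21.Count
import Cfsg.Agent.H1.Basic
import Cfsg.Agent.S0055

set_option autoImplicit false
open Cfsg

open H21
open scoped commutatorElement

namespace Cfsg.Agent.S4956

/-- Number of commuting lifts of a commuting pair. -/
theorem card_lifts {X : Type*} [Group X] [Finite X] (V : Subgroup X) [hV : V.Normal]
    (hab : ∀ a ∈ V, ∀ b ∈ V, a * b = b * a) (G : Subgroup X)
    (hcop : (Nat.card V).Coprime (Nat.card G)) (g h : X) (hg : g ∈ G) (hh : h ∈ G)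
    (hgh : Commute g h) :
    Nat.card {q : V × V // Commute ((q.1 : X) * g) ((q.2 : X) * h)} =
      Nat.card V * Nat.card {v : V // Commute (v : X) g ∧ Commute (v : X) h} := by
  have : IsMulCommutative V := ⟨⟨fun a b => Subtype.ext (hab _ a.2 _ b.2)⟩⟩
  let A := Subgroup.closure ({g, h} : Set X)
  have hAG : A ≤ G := by
    rw [Subgroup.closure_le]; rintro x (rfl | rfl) <;> assumption
  obtain ⟨h1, h2⟩ := Cfsg.Agent.S0055.result A V Subgroup.le_normalizer_of_normal
    (hcop.symm.coprime_dvd_left (Subgroup.card_dvd_of_le hAG))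
  have hc : ∀ (x : X) (a : V), x * a * x⁻¹ ∈ V := fun x a => hV.conj_mem _ a.2 x
  let f : V × V →* X := MonoidHom.mk' (fun q => q.1 * (g * q.2 * g⁻¹) * (h * q.1 * h⁻¹)⁻¹ *
      (q.2 : X)⁻¹) (by
    rintro ⟨a, b⟩ ⟨c, d⟩
    let _ : CommGroup V :=
      { (inferInstance : Group V) with mul_comm := fun a b => Subtype.ext (hab _ a.2 _ b.2) }
    have key : ∀ a b c d ga gc ha hc : V, a * c * (ga * gc) * (ha * hc)⁻¹ * (b * d)⁻¹ =
        a * ga * ha⁻¹ * b⁻¹ * (c * gc * hc⁻¹ * d⁻¹) := by
      intros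
      simp only [mul_inv, mul_comm, mul_left_comm, mul_assoc]
    have := congrArg Subtype.val (key a b c d ⟨_, hc g b⟩ ⟨_, hc g d⟩ ⟨_, hc h a⟩ ⟨_, hc h c⟩)
    simp only [Subgroup.coe_mul, Subgroup.coe_inv] at this
    simp only [Prod.fst_mul, Prod.snd_mul, Subgroup.coe_mul]
    rw [← this]
    congr 2
    · congr 1; group
    · congr 1; group)
  have hf : ∀ q : V × V, f q = q.1 * (g * q.2 * g⁻¹) * (h * q.1 * h⁻¹)⁻¹ * (q.2 : X)⁻¹ :=
    fun q => rfl
  have hker : Nat.card {q : V × V // Commute ((q.1 : X) * g) ((q.2 : X) * h)} =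
      Nat.card f.ker := by
    refine Nat.card_congr (Equiv.subtypeEquivRight fun q => ?_)
    rw [MonoidHom.mem_ker, hf, Commute, SemiconjBy]
    have e : (q.1 : X) * (g * q.2 * g⁻¹) * (h * q.1 * h⁻¹)⁻¹ * (q.2 : X)⁻¹ =
        (q.1 * g * (q.2 * h)) * (h⁻¹ * g⁻¹ * h * g) * (q.2 * h * (q.1 * g))⁻¹ := by group
    have e2 : h⁻¹ * g⁻¹ * h * g = 1 := by
      rw [mul_assoc, mul_assoc, ← hgh.eq]; group
    rw [e, e2, mul_one, mul_inv_eq_one]
  have hrange : f.range = ⁅V, A⁆ := by
    apply le_antisymm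
    · rintro _ ⟨⟨a, b⟩, rfl⟩
      rw [hf]
      have e : (a : X) * (g * b * g⁻¹) * (h * a * h⁻¹)⁻¹ * (b : X)⁻¹ =
          ⁅(a : X), h⁆ * ⁅(b : X), g⁆⁻¹ := by
        simp only [commutatorElement_def]
        have e1 := hab _ (hc g b) _ (V.inv_mem (hc h a))
        have e2 := hab _ (hc g b) _ (V.inv_mem b.2)
        calc _ = (a : X) * ((g * b * g⁻¹) * (h * a * h⁻¹)⁻¹) * (b : X)⁻¹ := by group
          _ = (a : X) * (h * a * h⁻¹)⁻¹ * ((g * b * g⁻¹) * (b : X)⁻¹) := by rw [e1]; group
          _ = _ := by group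
      rw [e]
      exact Subgroup.mul_mem _
        (Subgroup.commutator_mem_commutator a.2 (Subgroup.subset_closure (by simp)))
        (Subgroup.inv_mem _
          (Subgroup.commutator_mem_commutator b.2 (Subgroup.subset_closure (by simp))))
    · rw [Subgroup.commutator_le]
      intro v hv x hx
      induction hx using Subgroup.closure_induction generalizing v with
      | mem x hx =>
        rcases hx with rfl | rfl
        · refine (Subgroup.inv_mem_iff _).1 ⟨(1, ⟨v, hv⟩), ?_⟩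
          rw [hf]; simp [commutatorElement_def, mul_assoc]
        · refine ⟨(⟨v, hv⟩, 1), ?_⟩
          rw [hf]; simp [commutatorElement_def, mul_assoc]
      | one => simp
      | mul x y _ _ ihx ihy =>
        have e : ⁅v, x * y⁆ = ⁅v, y⁆ * ⁅y * v * y⁻¹, x⁆ := by
          simp only [commutatorElement_def]; group
        rw [e]
        exact Subgroup.mul_mem _ (ihy v hv) (ihx _ (hV.conj_mem _ hv y))
      | inv x _ ih =>
        have e : ⁅v, x⁻¹⁆ = ⁅x⁻¹ * v⁻¹ * x, x⁆ := by
          simp only [commutatorElement_def]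
          have := hab v hv _ (hV.conj_mem _ (V.inv_mem hv) x⁻¹)
          calc _ = v * (x⁻¹ * v⁻¹ * x⁻¹⁻¹) := by group
            _ = _ := by rw [this]; group
        rw [e]
        exact ih _ (by simpa using hV.conj_mem _ (V.inv_mem hv) x⁻¹)
  have hC : Nat.card {v : V // Commute (v : X) g ∧ Commute (v : X) h} =
      Nat.card ↥(V ⊓ Subgroup.centralizer (A : Set X)) := by
    refine Nat.card_congr ⟨fun v => ⟨v.1, v.1.2, ?_⟩, fun v => ⟨⟨v.1, v.2.1⟩, ?_, ?_⟩,
      fun _ => rfl, fun _ => rfl⟩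
    · show (v.1 : X) ∈ Subgroup.centralizer (A : Set X)
      rw [Subgroup.centralizer_closure, Subgroup.mem_centralizer_iff]
      rintro x (rfl | rfl)
      exacts [v.2.1.eq.symm, v.2.2.eq.symm]
    · exact (v.2.2 g (Subgroup.subset_closure (by simp))).symm
    · exact (v.2.2 h (Subgroup.subset_closure (by simp))).symm
  have hV2 : Nat.card V = Nat.card ↥(V ⊓ Subgroup.centralizer (A : Set X)) *
      Nat.card ↥(⁅V, A⁆) := by
    rw [← H1.card_sup_of_disjoint _ h1, h2]
    intro x hx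
    rw [Subgroup.mem_normalizer_iff]
    intro y
    have hle : ⁅V, A⁆ ≤ V := Subgroup.commutator_le_left _ _
    constructor
    · intro hy
      rw [hab x hx.1 y (hle hy)]; simpa using hy
    · intro hy
      have := hab x⁻¹ (V.inv_mem hx.1) _ (hle hy)
      have e : y = x * y * x⁻¹ := by
        calc y = x⁻¹ * (x * y * x⁻¹) * x := by group
          _ = _ := by rw [this]; group
      rw [e]; exact hy
  have h3 : Nat.card f.ker * Nat.card f.range = Nat.card V * Nat.card V := by
    rw [← Subgroup.index_ker, Subgroup.card_mul_index, Nat.card_prod]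
  rw [hker, hC]
  rw [hrange] at h3
  have hpos : 0 < Nat.card ↥(⁅V, A⁆) := Nat.card_pos
  apply Nat.eq_of_mul_eq_mul_right hpos
  rw [h3, mul_assoc, ← hV2]

/-- Let X be a finite group, V an abelian normal subgroup of X (any two elements of V commute) and G a complement to V in X whose order is coprime to that of V. Let S be a set of representatives of the orbits of G on V under conjugation: S lies in V and every element of V is conjugate under G to exactly one member of S. Then the number of conjugacy classes of X equals the sum, over s in S, of the number of conjugacy classes of the centralizer of s in G. -/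
theorem result {X : Type*} [Group X] [Finite X] (V : Subgroup X) [V.Normal] (hab : ∀ a ∈ V, ∀ b ∈ V, a * b = b * a) (G : Subgroup X) (hGV : Subgroup.IsComplement' V G) (hcop : (Nat.card V).Coprime (Nat.card G)) (S : Finset X) (hSV : ∀ s ∈ S, s ∈ V) (hrep : ∀ v ∈ V, ∃! s, s ∈ S ∧ ∃ g ∈ G, g * v * g⁻¹ = s) : Nat.card (ConjClasses X) = ∑ s ∈ S, Nat.card (ConjClasses ↥(G ⊓ Subgroup.centralizer ({s} : Set X))) := by
  classical
  have := Fintype.ofFinite X
  let k : X → ℕ := fun v => Nat.card (ConjClasses ↥(G ⊓ Subgroup.centralizer ({v} : Set X)))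
  have hA : Nat.card {p : X × X // Commute p.1 p.2} =
      ∑ gh : G × G, Nat.card {q : V × V // Commute ((q.1 : X) * gh.1) ((q.2 : X) * gh.2)} := by
    rw [← card_subtype_prod (fun (gh : G × G) (q : V × V) =>
      Commute ((q.1 : X) * gh.1) ((q.2 : X) * gh.2))]
    have hb : Function.Bijective (fun r : (G × G) × (V × V) =>
        (((r.2.1 : X) * r.1.1, (r.2.2 : X) * r.1.2) : X × X)) := by
      constructor
      · rintro ⟨⟨g, h⟩, a, b⟩ ⟨⟨g', h'⟩, a', b'⟩ he
        simp only [Prod.mk.injEq] at he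
        have e1 := hGV.1 (a₁ := (a, g)) (a₂ := (a', g')) he.1
        have e2 := hGV.1 (a₁ := (b, h)) (a₂ := (b', h')) he.2
        simp only [Prod.mk.injEq] at e1 e2
        simp only [Prod.mk.injEq]
        exact ⟨⟨e1.2, e2.2⟩, e1.1, e2.1⟩
      · rintro ⟨x, y⟩
        obtain ⟨⟨a, g⟩, e1⟩ := hGV.2 x
        obtain ⟨⟨b, h⟩, e2⟩ := hGV.2 y
        exact ⟨((g, h), (a, b)), Prod.ext e1 e2⟩
    exact (Nat.card_congr ((Equiv.ofBijective _ hb).subtypeEquiv (fun r => Iff.rfl))).symm
  have hB : ∀ gh : G × G,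
      Nat.card {q : V × V // Commute ((q.1 : X) * gh.1) ((q.2 : X) * gh.2)} = Nat.card V *
      Nat.card {v : V // Commute (gh.1 : X) gh.2 ∧ Commute (v : X) gh.1 ∧ Commute (v : X) gh.2} := by
    rintro ⟨g, h⟩
    by_cases hgh : Commute (g : X) h
    · rw [card_lifts V hab G hcop g h g.2 h.2 hgh]
      simp only [hgh, true_and]
    · simp only [hgh, false_and]
      have : IsEmpty {q : V × V // Commute ((q.1 : X) * g) ((q.2 : X) * h)} := by
        refine ⟨fun ⟨⟨a, b⟩, hq⟩ => hgh ?_⟩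
        have hq' := congrArg (QuotientGroup.mk' V) hq.eq
        simp only [map_mul, QuotientGroup.mk'_apply, (QuotientGroup.eq_one_iff _).2 a.2,
          (QuotientGroup.eq_one_iff _).2 b.2, one_mul] at hq'
        rw [← QuotientGroup.mk_mul, ← QuotientGroup.mk_mul, QuotientGroup.eq] at hq'
        have hm : ((g : X) * h)⁻¹ * (h * g) ∈ V ⊓ G :=
          ⟨hq', G.mul_mem (G.inv_mem (G.mul_mem g.2 h.2)) (G.mul_mem h.2 g.2)⟩
        rw [hGV.disjoint.eq_bot, Subgroup.mem_bot, inv_mul_eq_one] at hm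
        exact hm
      simp
  have hC : ∀ v : V, Nat.card {gh : G × G // Commute (gh.1 : X) gh.2 ∧ Commute (v : X) gh.1 ∧
      Commute (v : X) gh.2} =
      k v * Nat.card ↥(G ⊓ Subgroup.centralizer ({(v : X)} : Set X)) := by
    intro v
    rw [← card_comm_subgroup]
    refine Nat.card_congr ⟨fun p => ⟨(p.1.1, p.1.2), ⟨p.1.1.2, ?_⟩, ⟨p.1.2.2, ?_⟩, p.2.1⟩,
      fun p => ⟨(⟨p.1.1, p.2.1.1⟩, ⟨p.1.2, p.2.2.1.1⟩), p.2.2.2, ?_, ?_⟩,
      fun _ => rfl, fun _ => rfl⟩
    · exact Subgroup.mem_centralizer_singleton_iff.2 p.2.2.1.eq.symm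
    · exact Subgroup.mem_centralizer_singleton_iff.2 p.2.2.2.eq.symm
    · exact (Subgroup.mem_centralizer_singleton_iff.1 p.2.1.2).symm
    · exact (Subgroup.mem_centralizer_singleton_iff.1 p.2.2.1.2).symm
  have hD : ∀ v : V, Nat.card ↥(G ⊓ Subgroup.centralizer ({(v : X)} : Set X)) =
      Nat.card {g : G // (g : X) * v * (g : X)⁻¹ ∈ S} := by
    intro v
    obtain ⟨s, ⟨hs, g0, hg0, e0⟩, hu⟩ := hrep v v.2
    refine Nat.card_congr ⟨fun c => ⟨⟨g0 * c, G.mul_mem hg0 c.2.1⟩, ?_⟩,
      fun g => ⟨g0⁻¹ * g.1, G.mul_mem (G.inv_mem hg0) g.1.2, ?_⟩, fun c => ?_, fun g => ?_⟩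
    · have := Subgroup.mem_centralizer_singleton_iff.1 c.2.2
      have e : g0 * c * v * (g0 * c)⁻¹ = s := by
        rw [← e0, mul_assoc g0, this]; group
      simp only [e, hs]
    · have := hu _ ⟨g.2, g.1, g.1.2, rfl⟩
      apply Subgroup.mem_centralizer_singleton_iff.2
      rw [← e0] at this
      calc g0⁻¹ * g.1 * v = g0⁻¹ * (g.1 * v * (g.1 : X)⁻¹) * g.1 := by group
        _ = _ := by rw [this]; group
    · apply Subtype.ext; simp
    · apply Subtype.ext; apply Subtype.ext; simp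
  have hk : ∀ (g : G) (v : X), k (g * v * (g : X)⁻¹) = k v := by
    intro g v
    simp only [k]
    rw [← map_conj_inf_centralizer G g.2, card_conjClasses_map_conj]
  have hE : ∑ v : V, k v * Nat.card ↥(G ⊓ Subgroup.centralizer ({(v : X)} : Set X)) =
      Nat.card G * ∑ s ∈ S, k s := by
    rw [Nat.card_eq_fintype_card (α := G), ← smul_eq_mul,
      ← Finset.card_univ, ← Finset.sum_const]
    simp only [hD, card_subtype_eq_sum (fun g : G => (g : X) * _ * (g : X)⁻¹ ∈ S),
      Finset.mul_sum, mul_ite, mul_one, mul_zero]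
    rw [Finset.sum_comm]
    refine Finset.sum_congr rfl fun g _ => ?_
    rw [← Finset.sum_filter]
    refine Finset.sum_bij (fun v _ => (g : X) * v * (g : X)⁻¹) (fun v hv => by simpa using hv)
      (fun v _ w _ h => Subtype.ext (by simpa using h)) (fun s hs => ?_)
      (fun v _ => (hk g v).symm)
    refine ⟨⟨(g : X)⁻¹ * s * g, by
      simpa using Subgroup.Normal.conj_mem inferInstance _ (hSV s hs) (g : X)⁻¹⟩, ?_, ?_⟩
    · simpa [mul_assoc] using hs
    · simp [mul_assoc]
  rw [card_comm_eq_card_conjClasses_mul_card] at hA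
  simp only [hB] at hA
  rw [← Finset.mul_sum, sum_card_subtype_comm (fun (gh : G × G) (v : V) =>
    Commute (gh.1 : X) gh.2 ∧ Commute (v : X) gh.1 ∧ Commute (v : X) gh.2)] at hA
  simp only [hC] at hA
  rw [hE, ← hGV.card_mul_card, mul_comm, ← mul_assoc] at hA
  exact Nat.eq_of_mul_eq_mul_left (Nat.mul_pos Nat.card_pos Nat.card_pos) hA

end Cfsg.Agent.S4956
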