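import Cfsg.Statements.S4965
import Mathlib.GroupTheory.GroupAction.CardCommute
import Mathlib.Tactic.Group

set_option autoImplicit false
open Cfsg

namespace Cfsg.Agent.S4965

/-- Let X be a finite group with an abelian normal subgroup V (any two elements of V commute), and let φ be the action of X ⧸ V on V induced by conjugation (well defined because V is abelian; the hypothesis hφ says that the class of x acts as conjugation by x). Then X has at most as many conjugacy classes as the semidirect product of V by X ⧸ V formed with this action: the split extension has the largest class number among extensions with the given action. -/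
theorem result {X : Type*} [Group X] [Finite X] (V : Subgroup X) [V.Normal] (hab : ∀ a ∈ V, ∀ b ∈ V, a * b = b * a) (φ : X ⧸ V →* MulAut ↥V) (hφ : ∀ (x : X) (v : ↥V), ((φ (QuotientGroup.mk x) v : ↥V) : X) = x * v * x⁻¹) : Nat.card (ConjClasses X) ≤ Nat.card (ConjClasses (SemidirectProduct ↥V (X ⧸ V) φ)) := by
  classical
  let Y := SemidirectProduct ↥V (X ⧸ V) φ
  have hfin : Finite Y := Finite.of_equiv _ (SemidirectProduct.equivProd).symm
  have hcard : Nat.card Y = Nat.card X := by
    rw [SemidirectProduct.card, mul_comm]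
    exact (Subgroup.card_eq_card_quotient_mul_card_subgroup V).symm
  -- chosen commuting pair above a pair of cosets
  let ch : (X ⧸ V) × (X ⧸ V) → X × X := fun q =>
    if h : ∃ p : X × X, Commute p.1 p.2 ∧ (p.1 : X ⧸ V) = q.1 ∧ (p.2 : X ⧸ V) = q.2
    then h.choose else (1, 1)
  have hch : ∀ p : X × X, Commute p.1 p.2 →
      Commute (ch (p.1, p.2)).1 (ch (p.1, p.2)).2 ∧ ((ch (p.1, p.2)).1 : X ⧸ V) = p.1 ∧
        ((ch (p.1, p.2)).2 : X ⧸ V) = p.2 := by
    intro p hp
    have h : ∃ r : X × X, Commute r.1 r.2 ∧ (r.1 : X ⧸ V) = p.1 ∧ (r.2 : X ⧸ V) = p.2 :=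
      ⟨p, hp, rfl, rfl⟩
    simp only [ch, dif_pos h]
    exact h.choose_spec
  have hmem : ∀ {x y : X}, (y : X ⧸ V) = x → x * y⁻¹ ∈ V := by
    intro x y h
    have := QuotientGroup.eq.1 h
    have h2 := Subgroup.Normal.conj_mem inferInstance _ this y
    simpa [mul_assoc] using h2
  let F : {p : X × X // Commute p.1 p.2} → {p : Y × Y // Commute p.1 p.2} := fun p =>
    ⟨(⟨⟨p.1.1 * (ch (p.1.1, p.1.2)).1⁻¹, hmem (hch p.1 p.2).2.1⟩, p.1.1⟩,
      ⟨⟨p.1.2 * (ch (p.1.1, p.1.2)).2⁻¹, hmem (hch p.1 p.2).2.2⟩, p.1.2⟩), by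
      obtain ⟨⟨x, y⟩, hxy⟩ := p
      obtain ⟨hc, h1, h2⟩ := hch (x, y) hxy
      simp only at hc h1 h2 hxy ⊢
      apply SemidirectProduct.ext
      · apply Subtype.ext
        rw [SemidirectProduct.mul_left, SemidirectProduct.mul_left, Subgroup.coe_mul,
          Subgroup.coe_mul]
        simp only
        have k1 := fun v => hφ (ch (x, y)).1 v
        have k2 := fun v => hφ (ch (x, y)).2 v
        rw [h1] at k1
        rw [h2] at k2
        rw [k1, k2]
        simp only
        generalize (ch (x, y)).1 = a at *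
        generalize (ch (x, y)).2 = b at *
        have e1 : x * a⁻¹ * (a * (y * b⁻¹) * a⁻¹) = x * y * (a * b)⁻¹ := by group
        have e2 : y * b⁻¹ * (b * (x * a⁻¹) * b⁻¹) = y * x * (b * a)⁻¹ := by group
        rw [e1, e2, hxy.eq, hc.eq]
      · rw [SemidirectProduct.mul_right, SemidirectProduct.mul_right]
        simp only
        rw [← QuotientGroup.mk_mul, ← QuotientGroup.mk_mul, hxy.eq]⟩
  have hF : Function.Injective F := by
    rintro ⟨⟨x, y⟩, hxy⟩ ⟨⟨x', y'⟩, hxy'⟩ h
    simp only [F, Subtype.mk.injEq, Prod.mk.injEq] at h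
    obtain ⟨ha, hb⟩ := h
    have h1 := congrArg (fun z : Y => (z.left : X)) ha
    have h2 := congrArg (fun z : Y => z.right) ha
    have h3 := congrArg (fun z : Y => (z.left : X)) hb
    have h4 := congrArg (fun z : Y => z.right) hb
    simp only at h1 h2 h3 h4
    rw [h2, h4] at h1 h3
    apply Subtype.ext
    exact Prod.ext (mul_right_cancel h1) (mul_right_cancel h3)
  have := Nat.card_le_card_of_injective F hF
  rw [card_comm_eq_card_conjClasses_mul_card, card_comm_eq_card_conjClasses_mul_card,
    hcard] at this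
  exact Nat.le_of_mul_le_mul_right this Nat.card_pos

end Cfsg.Agent.S4965
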