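import Cfsg.Statements.S4967
import Cfsg.Agent.H25.IrrField

set_option autoImplicit false
open Cfsg

namespace Cfsg.Agent.S4967

/-- Let F be a finite field with r elements and of characteristic p, H a finite abelian group of order prime to p, and V a faithful irreducible representation of H over F of dimension n (faithful: distinct elements act differently; irreducible: the only H-invariant subspaces are 0 and V). Call V self-dual when it carries a nondegenerate H-invariant bilinear form. If n = 1 and V is self-dual then H has order at most 2. If n ≥ 2 then V is self-dual if and only if n is even and the order of H divides r^(n/2) + 1. -/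
theorem result {F : Type*} [Field F] [Fintype F] (p : ℕ) [Fact p.Prime] [CharP F p] {H : Type*} [CommGroup H] [Finite H] (hcop : ¬ p ∣ Nat.card H) {V : Type*} [AddCommGroup V] [Module F V] [FiniteDimensional F V] (ρ : Representation F H V) (hfaith : Function.Injective ρ) (hirr : ∀ U : Submodule F V, (∀ h : H, ∀ u ∈ U, ρ h u ∈ U) → U = ⊥ ∨ U = ⊤) : (Module.finrank F V = 1 → (∃ B : LinearMap.BilinForm F V, B.Nondegenerate ∧ ∀ h : H, ∀ x y : V, B (ρ h x) (ρ h y) = B x y) → Nat.card H ≤ 2) ∧ (2 ≤ Module.finrank F V → ((∃ B : LinearMap.BilinForm F V, B.Nondegenerate ∧ ∀ h : H, ∀ x y : V, B (ρ h x) (ρ h y) = B x y) ↔ (Even (Module.finrank F V) ∧ Nat.card H ∣ Fintype.card F ^ (Module.finrank F V / 2) + 1))) := by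
  by_cases h0 : Module.finrank F V = 0
  · exact ⟨fun h => by omega, fun h => by omega⟩
  haveI : Nontrivial V := Module.nontrivial_of_finrank_pos (R := F) (by omega)
  haveI : Finite V := Module.finite_of_finite F
  obtain ⟨K, _, _, e, a, h1, h2⟩ := H25.exists_field_of_irr (Set.range ρ)
    (by rintro _ ⟨x, rfl⟩ _ ⟨y, rfl⟩; rw [← map_mul, ← map_mul, mul_comm])
    fun W hW => hirr W fun h => hW _ ⟨h, rfl⟩
  have h3 : ∀ h v, e (ρ h v) = a (ρ h) * e v := fun h => h1 _ ⟨h, rfl⟩
  have h4 : ∀ h, a (ρ h) = e (ρ h (e.symm 1)) := fun h => by simp [h3]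
  let α : H →* K :=
    { toFun := fun h => a (ρ h)
      map_one' := by rw [h4]; simp
      map_mul' := fun x y => by rw [h4, map_mul, Module.End.mul_apply, h3, ← h4] }
  have hα : ∀ h v, e (ρ h v) = α h * e v := h3
  have hinj : Function.Injective α := fun x y h => hfaith (LinearMap.ext fun v => e.injective
    (by rw [hα, hα, h]))
  haveI : Finite K := Finite.of_equiv _ e.toEquiv
  haveI : FiniteDimensional F K := Module.Finite.equiv e
  haveI := isCyclic_of_injective_ringHom α hinj
  have hn := e.finrank_eq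
  have hd : ∀ m, Nat.card H ∣ m ↔ ∀ h, α h ^ m = 1 := fun m => by
    rw [← IsCyclic.exponent_eq_card, Monoid.exponent_dvd_iff_forall_pow_eq_one]
    exact forall_congr' fun h => by rw [← map_pow, map_eq_one_iff α hinj]
  have hne : ∀ h, α h ≠ 0 := fun h => ((Group.isUnit h).map α).ne_zero
  have hT := traceForm_nondegenerate F K
  have key : ∀ B : LinearMap.BilinForm F V, B.Nondegenerate →
      (∀ h x y, B (ρ h x) (ρ h y) = B x y) → ∃ σ : K ≃ₐ[F] K, ∀ h, σ (α h) * α h = 1 := by
    intro B hB hi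
    let g := e.symm.trans ((B.toDual hB).trans (e.symm.dualMap.trans
      ((Algebra.traceForm F K).toDual hT).symm))
    have hg : ∀ x y, Algebra.trace F K (g x * y) = B (e.symm x) (e.symm y) := fun x y =>
      LinearMap.BilinForm.apply_toDual_symm_apply (hB := hT) _ y
    have hs : ∀ h x, e.symm (α h * x) = ρ h (e.symm x) := fun h x => by
      rw [e.symm_apply_eq, hα, e.apply_symm_apply]
    have hg' : ∀ h x, g (α h * x) = (α h)⁻¹ * g x := fun h x => by
      refine sub_eq_zero.1 (hT.1 _ fun y => ?_)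
      obtain ⟨y, rfl⟩ := mul_left_surjective₀ (hne h) y
      rw [Algebra.traceForm_apply, sub_mul, map_sub, hg, hs, hs, hi, ← hg, sub_eq_zero]
      congr 1
      have := hne h
      field_simp
    obtain ⟨σ, hσ⟩ := H25.exists_algEquiv_of_normalizes _ h2 g (by
      rintro _ ⟨_, ⟨h, rfl⟩, rfl⟩
      exact ⟨_, hg' h⟩)
    refine ⟨σ, fun h => ?_⟩
    have := (hσ (α h) 1).symm.trans (hg' h 1)
    rw [mul_right_cancel₀ (by simp) this, inv_mul_cancel₀ (hne h)]
  let φ := FiniteField.frobeniusAlgEquivOfAlgebraic F K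
  have hφ : ∀ k x, (φ ^ k) x = x ^ Fintype.card F ^ k := fun k x => by
    rw [AlgEquiv.coe_pow, FiniteField.coe_frobeniusAlgEquivOfAlgebraic_iterate]
  have ho := FiniteField.orderOf_frobeniusAlgEquivOfAlgebraic F K
  rw [hn]
  refine ⟨fun h ⟨B, hB, hi⟩ => ?_, fun h => ⟨fun ⟨B, hB, hi⟩ => ?_, fun ⟨⟨m, hm⟩, h5⟩ => ?_⟩⟩
  · obtain ⟨σ, hσ⟩ := key B hB hi
    have := H25.algEquiv_pow_finrank σ
    rw [h, pow_one] at this
    exact Nat.le_of_dvd two_pos ((hd 2).2 fun x => by simpa [this, sq] using hσ x)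
  · obtain ⟨σ, hσ⟩ := key B hB hi
    obtain ⟨⟨k, hk⟩, rfl⟩ := (FiniteField.bijective_frobeniusAlgEquivOfAlgebraic_pow F K).2 σ
    change ∀ h, (φ ^ k) (α h) * α h = 1 at hσ
    have h5 : φ ^ (k + k) = 1 := by
      have := AlgHom.ext_of_adjoin_eq_top h2 (φ₁ := (φ ^ (k + k) : K ≃ₐ[F] K)) (φ₂ := AlgHom.id F K)
        (by
          rintro _ ⟨_, ⟨x, rfl⟩, rfl⟩
          change (φ ^ (k + k)) (α x) = α x
          rw [pow_add, AlgEquiv.mul_apply, eq_inv_of_mul_eq_one_left (hσ x), map_inv₀,
            eq_inv_of_mul_eq_one_left (hσ x), inv_inv])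
      exact AlgEquiv.ext fun x => DFunLike.congr_fun this x
    obtain ⟨c, hc⟩ := ho ▸ orderOf_dvd_of_pow_eq_one h5
    have h6 : k ≠ 0 := by
      rintro rfl
      have : (⊤ : Subalgebra F K) = ⊥ := by
        rw [← h2, eq_bot_iff, Algebra.adjoin_le_iff]
        rintro _ ⟨_, ⟨x, rfl⟩, rfl⟩
        change α x ∈ (⊥ : Subalgebra F K)
        rcases mul_self_eq_one_iff.1 (show α x * α x = 1 from hσ x) with h | h <;> rw [h]
        · exact one_mem _
        · exact neg_mem (one_mem _)
      have := Subalgebra.bot_eq_top_iff_finrank_eq_one.1 this.symm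
      omega
    have h7 : Module.finrank F K = k + k := by
      rcases c with _ | _ | c
      · omega
      · omega
      · nlinarith
    refine ⟨⟨k, h7⟩, (hd _).2 fun x => ?_⟩
    rw [pow_succ, show Module.finrank F K / 2 = k by omega, ← hφ, hσ]
  · rw [show Module.finrank F K / 2 = m by omega] at h5
    refine ⟨(Algebra.traceForm F K).compl₁₂ ((φ ^ m).toLinearEquiv.toLinearMap ∘ₗ e.toLinearMap)
      e.toLinearMap, LinearMap.BilinForm.Nondegenerate.ofSeparatingLeft fun x hx => ?_,
      fun x u v => ?_⟩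
    · have := hT.1 ((φ ^ m) (e x)) fun y => by simpa using hx (e.symm y)
      rwa [map_eq_zero, map_eq_zero_iff e e.injective] at this
    · have := (hd _).1 h5 x
      rw [pow_succ, ← hφ] at this
      simp only [LinearMap.compl₁₂_apply, LinearMap.comp_apply, LinearEquiv.coe_coe,
        AlgEquiv.toLinearEquiv_apply, Algebra.traceForm_apply, hα, map_mul]
      rw [mul_mul_mul_comm, this, one_mul]

end Cfsg.Agent.S4967
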