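import Cfsg.Statements.S5005
import Cfsg.Agent.H18.OneM

set_option autoImplicit false
open Cfsg

namespace Cfsg.Agent.S5005



/-- All irreducible complex characters of the Mathieu group `M₂₂` lie in a single 2-block: any two of them lie in the same block relative to every maximal ideal of the algebraic integers containing 2. -/
theorem result (M : Ideal Cfsg.AlgInt) (hM : Cfsg.IsPModular 2 M)
    (χ ψ : Cfsg.IrrCharacter ↥Cfsg.Spor.M22) : Cfsg.SameBlock M (χ : ↥Cfsg.Spor.M22 → ℂ) (ψ : ↥Cfsg.Spor.M22 → ℂ) := by
  have := Fact.mk Nat.prime_two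
  let f : Cfsg.Spor.M22 →* H27.MM := H27.H22.subtype.comp H27.m22Equiv.symm.toMonoidHom
  have hf : Function.Injective f := H27.H22.subtype_injective.comp H27.m22Equiv.symm.injective
  have h : f.range = H27.H22 := by
    rw [MonoidHom.range_comp, MonoidHom.range_eq_top.2 H27.m22Equiv.symm.surjective,
      ← MonoidHom.range_eq_map, Subgroup.range_subtype]
  exact (H18.czp22 f hf h).sameBlock
    (fun χ h' => H18.nodz22 f hf h χ.2 fun _ => H19.vanish_of_vd h') hM χ ψ

end Cfsg.Agent.S5005
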