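import Cfsg.Statements.S5014
import Cfsg.Agent.H11.R1a

set_option autoImplicit false
open Cfsg

namespace Cfsg.Agent.S5014

open Subgroup H16 Cfsg.IsRankOnePair
open scoped commutatorElement


/-- Let X = ⟨A, B⟩ be a rank one group with unipotent subgroups A and B and let Ω be the set of conjugates of A under X. Then Ω has at least three members, X acts doubly transitively on Ω by conjugation (any two ordered pairs of distinct members are carried to one another by a single element of X), and A acts regularly on Ω with A removed: for C, D in Ω different from A there is exactly one element of A conjugating C to D. -/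
theorem result {G : Type*} [Group G] {A B : Subgroup G} (h : Cfsg.IsRankOnePair A B) :
    (∃ C₁ ∈ Cfsg.unipotentSubgroups A B, ∃ C₂ ∈ Cfsg.unipotentSubgroups A B, ∃ C₃ ∈ Cfsg.unipotentSubgroups A B,
      C₁ ≠ C₂ ∧ C₁ ≠ C₃ ∧ C₂ ≠ C₃) ∧
    (∀ C₁ ∈ Cfsg.unipotentSubgroups A B, ∀ C₂ ∈ Cfsg.unipotentSubgroups A B, ∀ D₁ ∈ Cfsg.unipotentSubgroups A B,
      ∀ D₂ ∈ Cfsg.unipotentSubgroups A B, C₁ ≠ C₂ → D₁ ≠ D₂ →
        ∃ x ∈ A ⊔ B, Cfsg.conjBy C₁ x = D₁ ∧ Cfsg.conjBy C₂ x = D₂) ∧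
    (∀ C ∈ Cfsg.unipotentSubgroups A B, ∀ D ∈ Cfsg.unipotentSubgroups A B, C ≠ A → D ≠ A →
      ∃! a : G, a ∈ A ∧ Cfsg.conjBy C a = D) := by
  refine ⟨?_, fun C₁ h1 C₂ h2 D₁ h3 D₂ h4 hC hD => ?_, fun C hC D hD hCA hDA => ?_⟩
  · obtain ⟨a, ha, h1⟩ := exists_ne_one h.ne_bot
    refine ⟨A, left_mem A B, B, h.right_mem, B :^ a, unip_cj (mem_sup_left ha) h.right_mem, h.ne,
      (h.cj_ne ha).symm, fun e => h1 (h.eq_one ha (cj_eq_self_iff.1 e.symm))⟩
  · obtain ⟨x, hx, rfl, rfl⟩ := h.two h1 h2 hC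
    obtain ⟨y, hy, rfl, rfl⟩ := h.two h3 h4 hD
    refine ⟨y * x⁻¹, mul_mem hy (inv_mem hx), ?_, ?_⟩
    · rw [conjBy, cj_cj, inv_mul_cancel_right]
    · rw [conjBy, cj_cj, inv_mul_cancel_right]
  · obtain ⟨a, ha, rfl⟩ := (h.unip_cases hC).resolve_left hCA
    obtain ⟨a', ha', rfl⟩ := (h.unip_cases hD).resolve_left hDA
    refine ⟨a' * a⁻¹, ⟨mul_mem ha' (inv_mem ha), ?_⟩, fun c ⟨hc, e⟩ => ?_⟩
    · rw [conjBy, cj_cj, inv_mul_cancel_right]
    · rw [conjBy, cj_cj] at e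
      rw [← h.cj_inj (mul_mem hc ha) ha' e, mul_inv_cancel_right]

end Cfsg.Agent.S5014
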