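import Cfsg.Statements.S5015
import Cfsg.Agent.H11.R1a

set_option autoImplicit false
open Cfsg

namespace Cfsg.Agent.S5015

open Subgroup H16 Cfsg.IsRankOnePair
open scoped commutatorElement


/-- Let a group Y act doubly transitively on a set Ω with at least three points, and suppose that the stabilizer of a point α contains a nilpotent subgroup A, normalized by that stabilizer, which acts regularly on the points other than α. Then for any y in Y moving α, the subgroups A and y A y⁻¹ are the unipotent subgroups of a rank one group, and the normal closure of A in Y (the subgroup generated by all conjugates of A) is generated by A and y A y⁻¹ alone. -/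
theorem result {Y Ω : Type*} [Group Y] [MulAction Y Ω]
    (h2 : MulAction.IsMultiplyPretransitive Y Ω 2) (hΩ : 3 ≤ ENat.card Ω) (α : Ω) (A : Subgroup Y)
    (hA : A ≤ MulAction.stabilizer Y α) (hAn : ∀ y ∈ MulAction.stabilizer Y α, Cfsg.conjBy A y = A)
    (hnil : Group.IsNilpotent A) (hreg : ∀ β γ : Ω, β ≠ α → γ ≠ α → ∃! a : Y, a ∈ A ∧ a • β = γ)
    (y : Y) (hy : y ∉ MulAction.stabilizer Y α) :
    Cfsg.IsRankOnePair A (Cfsg.conjBy A y) ∧ Subgroup.normalClosure (A : Set Y) = A ⊔ Cfsg.conjBy A y := by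
  have hy' : y • α ≠ α := hy
  have hst : ∀ {g : Y}, g • α = α → A :^ g = A := fun hg => hAn _ hg
  -- conjugates of `A` are indexed by points
  have hcj : ∀ {g g' : Y}, g • α = g' • α → A :^ g = A :^ g' := by
    intro g g' e
    have : A :^ (g'⁻¹ * g) = A := hst (by rw [mul_smul, e, inv_smul_smul])
    rw [← mul_inv_cancel_left g' g, ← cj_cj, this]
  have hfix : ∀ a ∈ A, ∀ β, β ≠ α → a • β = β → a = 1 := fun a ha β hβ e =>
    (hreg β β hβ hβ).unique ⟨ha, e⟩ ⟨one_mem _, one_smul _ _⟩
  obtain ⟨γ, hγ1, hγ2⟩ : ∃ γ : Ω, γ ≠ α ∧ γ ≠ y • α := by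
    by_contra hc
    push Not at hc
    have : (Set.univ : Set Ω) ⊆ {α, y • α} := fun γ _ => by
      by_cases h : γ = α
      · exact Or.inl h
      · exact Or.inr (hc γ h)
    have h1 := Set.encard_le_encard this
    rw [Set.encard_univ] at h1
    have h2 := hΩ.trans (h1.trans (Set.encard_insert_le _ _))
    rw [Set.encard_singleton] at h2
    exact absurd h2 (by decide)
  have hne : ∀ {g : Y}, g • α ≠ α → A ≠ A :^ g := by
    intro g hg e
    obtain ⟨δ, h1, h2⟩ : ∃ δ : Ω, δ ≠ α ∧ δ ≠ g • α := by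
      by_cases h : γ = g • α
      · exact ⟨y • α, hy', h ▸ hγ2.symm⟩
      · exact ⟨γ, hγ1, h⟩
    obtain ⟨a, ⟨ha, e2⟩, -⟩ := hreg (g • α) δ hg h1
    have h3 : g⁻¹ * a * g ∈ A := mem_cj.1 (e ▸ ha)
    have h4 : (g⁻¹ * a * g) • α = α := hA h3
    rw [mul_smul, mul_smul, inv_smul_eq_iff] at h4
    exact h2 (e2.symm.trans h4)
  have hp : IsRankOnePair A (A :^ y) := by
    refine of_ex (hne hy') hnil ((nil_cj y).2 hnil) (fun a ha h1 => ?_) fun b hb h1 => ?_
    · have h2 : y⁻¹ • α ≠ α := fun e => hy' (by rw [inv_smul_eq_iff] at e; exact e.symm)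
      have h3 : y⁻¹ • a • y • α ≠ α := fun e => h1 (hfix a ha _ hy' (inv_smul_eq_iff.1 e))
      obtain ⟨c, ⟨hc, e⟩, -⟩ := hreg _ _ h2 h3
      refine ⟨y * c * y⁻¹, cj_mem hc, fun e1 => ?_, ?_⟩
      · rw [H16.conj_eq_one_iff] at e1
        rw [e1, one_smul, smul_left_cancel_iff, ← inv_smul_eq_iff] at e
        exact hy' (e.symm.trans (hA (inv_mem ha)))
      · rw [cj_cj]
        exact hcj (by simp only [mul_smul, e, smul_inv_smul])
    · have hb' := mem_cj.1 hb
      have h2 : y⁻¹ • α ≠ α := fun e => hy' (by rw [inv_smul_eq_iff] at e; exact e.symm)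
      have h3 : b • α ≠ α := fun e => by
        have := hfix _ hb' _ h2 (by simp only [mul_smul, smul_inv_smul, e])
        exact h1 (by simpa [mul_assoc, mul_eq_one_iff_eq_inv] using this)
      obtain ⟨c, ⟨hc, e⟩, -⟩ := hreg _ _ hy' h3
      refine ⟨c, hc, fun e1 => ?_, ?_⟩
      · rw [e1, one_smul] at e
        have h4 : (y⁻¹ * b * y) • α = α := hA hb'
        rw [mul_smul, mul_smul, inv_smul_eq_iff] at h4
        exact hy' (smul_left_cancel b (h4.trans e))
      · rw [cj_cj]
        exact hcj (by rw [mul_smul, e])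
  refine ⟨hp, le_antisymm ?_ (sup_le le_normalClosure ?_)⟩
  · refine (closure_le _).2 fun x hx => ?_
    obtain ⟨a, ha, hx⟩ := Group.mem_conjugatesOfSet_iff.1 hx
    obtain ⟨g, rfl⟩ := isConj_iff.1 hx
    have h1 : g * a * g⁻¹ ∈ A :^ g := cj_mem ha
    by_cases hg : g • α = α
    · exact mem_sup_left (hst hg ▸ h1)
    · obtain ⟨c, ⟨hc, e⟩, -⟩ := hreg _ _ hy' hg
      rw [← mul_smul] at e
      rw [← hcj e, ← cj_cj] at h1
      exact cj_le_of_mem (mem_sup_left hc) le_sup_right h1
  · exact cj_le_of_norm (le_normalizer_of_normal (mem_top y)) le_normalClosure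

end Cfsg.Agent.S5015
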