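import Cfsg.Statements.S5017
import Cfsg.Agent.H11.R1a
import Cfsg.Agent.H5.Component

set_option autoImplicit false
open Cfsg

namespace Cfsg.Agent.S5017

open Subgroup H16 Cfsg.IsRankOnePair
open scoped commutatorElement


/-- Let X be a rank one group with unipotent subgroups A and B and N a normal subgroup of X. Then either X = N A or N lies in the centre of X. Consequently a perfect rank one group is quasisimple. -/
theorem result {X : Type*} [Group X] {A B : Subgroup X} (h : Cfsg.IsRankOneGroup X A B) :
    (∀ N : Subgroup X, N.Normal → N ⊔ A = ⊤ ∨ N ≤ Subgroup.center X) ∧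
    (Group.IsPerfect X → Cfsg.IsQuasisimple X) := by
  obtain ⟨e, h⟩ := h
  have key : ∀ N : Subgroup X, N.Normal → N ⊔ A = ⊤ ∨ N ≤ Subgroup.center X := by
    intro N hN
    have := h.normal_cases (N := N) le_normalizer_of_normal (e ▸ le_top)
    rwa [e, coe_top, centralizer_univ] at this
  refine ⟨key, fun hp => H5.isQuasisimple_iff_top.2 ⟨hp.commutator_eq_top, ?_, fun N hN => ?_⟩⟩
  · obtain ⟨a, -, h1⟩ := exists_ne_one h.ne_bot
    exact ⟨a, 1, h1⟩
  · refine (key N hN).imp (fun hN' => ?_) id
    have := h.nilpotent_left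
    have hs : Function.Surjective ((QuotientGroup.mk' N).comp A.subtype) := by
      intro q
      obtain ⟨x, rfl⟩ := QuotientGroup.mk'_surjective N q
      obtain ⟨n, hn, a, ha, rfl⟩ := (mem_sup_l le_normalizer_of_normal).1 (hN' ▸ mem_top x)
      exact ⟨⟨a, ha⟩, by simp [(QuotientGroup.eq_one_iff n).2 hn]⟩
    have h1 : Group.IsNilpotent (X ⧸ N) := Group.nilpotent_of_surjective _ hs
    have h2 : Group.IsPerfect (X ⧸ N) := inferInstance
    have h3 : Subsingleton (X ⧸ N) := by
      by_contra hc
      rw [not_subsingleton_iff_nontrivial] at hc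
      exact Group.IsPerfect.not_isNilpotent _ h1
    exact QuotientGroup.subsingleton_iff.1 h3

end Cfsg.Agent.S5017
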