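import Cfsg.Statements.S5018
import Cfsg.Agent.H11.R1a

set_option autoImplicit false
open Cfsg

namespace Cfsg.Agent.S5018

open Subgroup H16 Cfsg.IsRankOnePair
open scoped commutatorElement


/-- A rank one group is not nilpotent, and its second centre equals its centre. -/
theorem result {X : Type*} [Group X] {A B : Subgroup X} (h : Cfsg.IsRankOneGroup X A B) :
    Subgroup.upperCentralSeries X 2 = Subgroup.center X ∧ ¬ Group.IsNilpotent X := by
  obtain ⟨e, h⟩ := h
  refine ⟨le_antisymm (fun x hx => ?_) ?_, fun hn => h.not_nil (by infer_instance)⟩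
  · have := h.cent_of_comm (x := x) (e ▸ mem_top _) fun y _ => ?_
    · rwa [e, coe_top, centralizer_univ] at this
    · rw [e, coe_top, centralizer_univ, ← Subgroup.upperCentralSeries_one]
      exact Subgroup.mem_upperCentralSeries_succ_iff.1 hx y
  · rw [← Subgroup.upperCentralSeries_one]
    exact Subgroup.upperCentralSeries_mono _ (by norm_num)

end Cfsg.Agent.S5018
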