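import Cfsg.Statements.S5019
import Cfsg.Agent.H11.R1b

set_option autoImplicit false
open Cfsg

namespace Cfsg.Agent.S5019

open Subgroup H16 H16.H11 Cfsg.IsRankOnePair
open scoped commutatorElement


/-- Let X be a rank one group with abelian unipotent subgroups A and B, and suppose X acts on an abelian group N (written additively) in such a way that A acts quadratically, meaning a' • (a • n − n) = a • n − n for all a, a' in A and n in N, while X as a whole does not: y • (x • n − n) ≠ x • n − n for some x, y in X and n in N. Then X is a special rank one group. -/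
theorem result {X : Type*} [Group X] {A B : Subgroup X} (h : Cfsg.IsRankOneGroup X A B)
    (hab : Cfsg.HasAbelianUnipotents A B) {N : Type*} [AddCommGroup N] [DistribMulAction X N]
    (hq : ∀ a ∈ A, ∀ a' ∈ A, ∀ n : N, a' • (a • n - n) = a • n - n)
    (hX : ∃ x y : X, ∃ n : N, y • (x • n - n) ≠ x • n - n) : Cfsg.IsSpecialRankOnePair A B := by
  obtain ⟨e, h⟩ := h
  let ρ : X →* AddMonoid.End N := DistribMulAction.toAddMonoidEnd X N
  have hρ : ∀ x y : X, (ρ y - 1) * (ρ x - 1) = 0 ↔ ∀ n : N, y • (x • n - n) = x • n - n := by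
    intro x y
    rw [DFunLike.ext_iff]
    exact forall_congr' fun n => sub_eq_zero
  refine sp_of_quad ρ h (fun a ha a' ha' => (hρ _ _).2 (hq a' ha' a ha)) fun x _ hx => ?_
  rcases h.normal_cases (N := ρ.toHomUnits.ker) le_normalizer_of_normal (e ▸ le_top) with h1 | h1
  · exfalso
    obtain ⟨x, y, n, hn⟩ := hX
    have key : ∀ x : X, ∃ a ∈ A, ρ x = ρ a := fun x => by
      obtain ⟨k, hk, a, ha, rfl⟩ := (mem_sup_l le_normalizer_of_normal).1 (h1.trans e ▸ mem_top x)
      exact ⟨a, ha, by rw [map_mul, show ρ k = 1 from congrArg Units.val hk, one_mul]⟩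
    obtain ⟨a, ha, e1⟩ := key x
    obtain ⟨a', ha', e2⟩ := key y
    exact hn ((hρ _ _).1 (by rw [e1, e2]; exact (hρ _ _).2 (hq a ha a' ha')) n)
  · exact h1 (Units.ext hx)

end Cfsg.Agent.S5019
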