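import Cfsg.Statements.S5020
import Cfsg.Agent.H11.R1c
import Cfsg.Agent.H5.Component
import Cfsg.Agent.S5017

set_option autoImplicit false
open Cfsg

namespace Cfsg.Agent.S5020

open Subgroup H16 H16.H11 Cfsg.IsRankOnePair
open scoped commutatorElement


/-- Let X be a special rank one group with abelian unipotent subgroups A and B, and H = N(A) ∩ N(B) its diagonal subgroup. Then either A has at most three elements and X is isomorphic to SL₂(2), SL₂(3) or PSL₂(3); or X = X' A with the commutator subgroup X' quasisimple and the commutator subgroup ⁅A, H⁆ having more than three elements. -/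
theorem result {X : Type*} [Group X] {A B : Subgroup X} (h : Cfsg.IsRankOneGroup X A B)
    (hs : Cfsg.IsSpecialRankOnePair A B) (hab : Cfsg.HasAbelianUnipotents A B) :
    (ENat.card A ≤ 3 ∧ (Nonempty (X ≃* Matrix.SpecialLinearGroup (Fin 2) (ZMod 2)) ∨
        Nonempty (X ≃* Matrix.SpecialLinearGroup (Fin 2) (ZMod 3)) ∨
        Nonempty (X ≃* Matrix.ProjectiveSpecialLinearGroup (Fin 2) (ZMod 3)))) ∨
    (commutator X ⊔ A = ⊤ ∧ Cfsg.IsQuasisimple (commutator X) ∧
      3 < ENat.card ↥(⁅A, Cfsg.rankOneDiagonal A B⁆ : Subgroup X)) := by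
  by_cases h3 : ∀ a ∈ A, ∃ x ∈ A, x ≠ 1 ∧ x ≠ a ∧ x ≠ a⁻¹
  · right
    have e := sp_comm_diag hs hab.1 hab.2 h3
    have hA : A ≤ commutator X := e.ge.trans (commutator_mono le_top le_top)
    have hB : B ≤ commutator X := by
      obtain ⟨x, -, e⟩ := h.2.right_mem
      exact e.le.trans (cj_le_of_norm (le_normalizer_of_normal (mem_top x)) hA)
    have hp : commutator X = ⊤ := top_le_iff.1 (h.1.ge.trans (sup_le hA hB))
    refine ⟨by rw [hp, top_sup_eq], ?_, ?_⟩
    · rw [hp, H5.qs_top_iff]
      exact (S5017.result h).2 ⟨hp⟩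
    · rw [e]
      obtain ⟨a, ha, a1⟩ := exists_ne_one h.2.ne_bot
      obtain ⟨x, hx, x1, h1, h2⟩ := h3 a ha
      obtain ⟨y, hy, h4⟩ : ∃ y ∈ A, y ≠ 1 ∧ y ≠ a ∧ y ≠ x := by
        by_cases h5 : a⁻¹ = a
        · refine ⟨a * x, mul_mem ha hx, fun e => h2 (eq_inv_of_mul_eq_one_right e), by simpa, by simpa⟩
        · exact ⟨a⁻¹, inv_mem ha, inv_ne_one.2 a1, h5, h2.symm⟩
      have : ({y, x, a, 1} : Set X).encard ≤ (A : Set X).encard := Set.encard_le_encard (by
        rintro _ (rfl | rfl | rfl | rfl)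
        exacts [hy, hx, ha, one_mem A])
      rw [Set.encard_insert_of_notMem (by simp [h4]), Set.encard_insert_of_notMem (by simp [x1, h1]),
        Set.encard_pair a1] at this
      exact lt_of_lt_of_le (by decide) this
  · left
    push Not at h3
    obtain ⟨a, ha, h3⟩ := h3
    have hsub : (A : Set X) ⊆ {1, a, a⁻¹} := fun x hx => by
      by_cases h1 : x = 1
      · exact Or.inl h1
      by_cases h2 : x = a
      · exact Or.inr (Or.inl h2)
      · exact Or.inr (Or.inr (h3 x hx h1 h2))
    have a1 : a ≠ 1 := by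
      rintro rfl
      exact h.2.ne_bot ((eq_bot_iff_forall _).2 fun x hx => by simpa using hsub hx)
    refine ⟨(Set.encard_le_encard hsub).trans ((Set.encard_insert_le _ _).trans ?_), ?_⟩
    · refine (add_le_add_left (Set.encard_insert_le _ _) _).trans ?_
      rw [Set.encard_singleton]; decide
    obtain ⟨b, r⟩ := RP.ex h.2 ha a1
    have hA : zpowers a = A := (zpowers_le.2 ha).antisymm fun x hx => by
      rcases hsub hx with rfl | rfl | rfl
      exacts [one_mem _, mem_zpowers _, inv_mem (mem_zpowers _)]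
    have hB : zpowers b = B := by
      rw [← zpowers_inv, ← r.m_a hs, zpowers_cj, hA, r.A_m hs]
    have key : ∀ (p : ℕ) [Fact p.Prime], a ^ p = 1 → Nonempty (X ≃* Matrix.SpecialLinearGroup (Fin 2) (ZMod p)) ∨
        Nonempty (X ≃* Matrix.ProjectiveSpecialLinearGroup (Fin 2) (ZMod p)) := by
      intro p _ hp
      have := psl2_iso (r.psl2 hs hp)
      rw [hA, hB, h.1] at this
      exact this.imp (fun ⟨e⟩ => ⟨topEquiv.symm.trans e⟩) fun ⟨e⟩ => ⟨topEquiv.symm.trans e⟩
    rcases hsub (mul_mem ha ha) with h1 | h1 | h1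
    · left
      rcases key 2 (by rwa [sq]) with h2 | ⟨⟨e⟩⟩
      · exact h2
      · have : center (Matrix.SpecialLinearGroup (Fin 2) (ZMod 2)) = ⊥ := by
          refine (eq_bot_iff_forall _).2 fun z hz => ?_
          obtain ⟨s, hs, e'⟩ := Matrix.SpecialLinearGroup.mem_center_iff.1 hz
          have : s = 1 := (by decide : ∀ s : ZMod 2, s ^ 2 = 1 → s = 1) s hs
          exact Subtype.ext (by rw [← e', this]; simp)
        exact ⟨e.trans ((QuotientGroup.quotientMulEquivOfEq this).trans QuotientGroup.quotientBot)⟩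
    · exact absurd (by simpa using h1) a1
    · haveI : Fact (Nat.Prime 3) := ⟨Nat.prime_three⟩
      exact Or.inr (key 3 (by rw [pow_succ, sq, show a * a = a⁻¹ from h1, inv_mul_cancel]))

end Cfsg.Agent.S5020
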