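import Cfsg.Statements.S5021
import Cfsg.Agent.H11.R1b

set_option autoImplicit false
open Cfsg

namespace Cfsg.Agent.S5021

open Subgroup H16 H16.H11 Cfsg.IsRankOnePair
open scoped commutatorElement


/-- In a special rank one group with abelian unipotent subgroups A and B, either A is an elementary abelian p-group for some prime p, or A is torsion-free and divisible (every element of A has an n-th root in A for every positive n). -/
theorem result {X : Type*} [Group X] {A B : Subgroup X} (h : Cfsg.IsRankOneGroup X A B)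
    (hs : Cfsg.IsSpecialRankOnePair A B) (hab : Cfsg.HasAbelianUnipotents A B) :
    (∃ p : ℕ, p.Prime ∧ Cfsg.IsElementaryAbelian p A) ∨
    ((∀ a ∈ A, a ≠ 1 → ¬ IsOfFinOrder a) ∧ ∀ a ∈ A, ∀ n : ℕ, 0 < n → ∃ c ∈ A, c ^ n = a) := by
  by_cases h1 : ∀ a ∈ A, a ≠ 1 → ¬ IsOfFinOrder a
  · refine Or.inr ⟨h1, fun a ha n hn => ?_⟩
    by_cases a1 : a = 1
    · exact ⟨1, one_mem _, by rw [a1, one_pow]⟩
    · exact sp_div hs ha fun e => h1 a ha a1 (isOfFinOrder_iff_pow_eq_one.2 ⟨n, hn, e⟩)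
  · push Not at h1
    obtain ⟨a, ha, a1, hf⟩ := h1
    obtain ⟨p, hp, n, h1, h2⟩ := exists_prime_pow_eq_one a1 hf
    exact Or.inl ⟨p, hp, hab.1, fun c hc => sp_exp hs hab.1 (pow_mem ha n) h1 h2 hc⟩

end Cfsg.Agent.S5021
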