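import Cfsg.Statements.S5023
import Cfsg.Agent.H11.R1b

set_option autoImplicit false
open Cfsg

namespace Cfsg.Agent.S5023

open Subgroup H16 H16.H11 Cfsg.IsRankOnePair
open scoped commutatorElement


/-- Let X be a rank one group with unipotent subgroups A and B that acts faithfully on an abelian group V (written additively) with A acting quadratically: a' • (a • v − v) = a • v − v for all a, a' in A and v in V. Then A is either torsion-free or an elementary abelian p-group for some prime p. -/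
theorem result {X : Type*} [Group X] {A B : Subgroup X} (h : Cfsg.IsRankOneGroup X A B)
    {V : Type*} [AddCommGroup V] [DistribMulAction X V] (hf : ∀ x : X, (∀ v : V, x • v = v) → x = 1)
    (hq : ∀ a ∈ A, ∀ a' ∈ A, ∀ v : V, a' • (a • v - v) = a • v - v) :
    (∀ a ∈ A, a ≠ 1 → ¬ IsOfFinOrder a) ∨ ∃ p : ℕ, p.Prime ∧ Cfsg.IsElementaryAbelian p A := by
  obtain ⟨e, h⟩ := h
  let ρ : X →* AddMonoid.End V := DistribMulAction.toAddMonoidEnd X V
  have hρ : ∀ a ∈ A, ∀ a' ∈ A, (ρ a - 1) * (ρ a' - 1) = 0 := fun a ha a' ha' =>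
    DFunLike.ext _ _ fun n => sub_eq_zero.2 (hq a' ha' a ha n)
  have hk : ∀ x, ρ x = 1 → x = 1 := fun x hx => hf x fun v => DFunLike.congr_fun hx v
  have hs := sp_of_quad ρ h hρ fun x _ hx => hk x hx ▸ one_mem _
  have hA : IsMulCommutative A := comm_iff.2 fun a ha => mem_cent.2 fun a' ha' => by
    have := hk _ (quad_comm ρ (A := A) (B := A) (z := a') (fun c hc => ⟨hρ _ ha' _ hc, hρ _ hc _ ha'⟩)
      (fun c hc => ⟨hρ _ ha' _ hc, hρ _ hc _ ha'⟩) (mem_sup_left ha))
    exact commutatorElement_eq_one_iff_mul_comm.1 this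
  by_cases h1 : ∀ a ∈ A, a ≠ 1 → ¬ IsOfFinOrder a
  · exact Or.inl h1
  · push Not at h1
    obtain ⟨a, ha, a1, hf⟩ := h1
    obtain ⟨p, hp, n, h1, h2⟩ := exists_prime_pow_eq_one a1 hf
    exact Or.inr ⟨p, hp, hA, fun c hc => sp_exp hs hA (pow_mem ha n) h1 h2 hc⟩

end Cfsg.Agent.S5023
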