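import Cfsg.Statements.S5024
import Cfsg.Agent.H11.R2a

set_option autoImplicit false
open Cfsg

namespace Cfsg.Agent.S5024

open Subgroup H16 H16.H11 Cfsg.IsRankOnePair
open scoped commutatorElement


/-- Let S be a set of abstract root subgroups of G, A and C members of S, B a rank one partner of A in S and D a rank one partner of C in S. If the rank one group ⟨A, B⟩ is contained in ⟨C, D⟩ then the two coincide, and C and D are conjugates of A inside ⟨A, B⟩. -/
theorem result {G : Type*} [Group G] {S : Set (Subgroup G)} (hS : Cfsg.IsRootSubgroupSet S)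
    {A B C D : Subgroup G} (hA : A ∈ S) (hC : C ∈ S) (hB : B ∈ Cfsg.rankOnePartners S A) (hD : D ∈ Cfsg.rankOnePartners S C)
    (hle : A ⊔ B ≤ C ⊔ D) : A ⊔ B = C ⊔ D ∧ C ∈ Cfsg.unipotentSubgroups A B ∧ D ∈ Cfsg.unipotentSubgroups A B := by
  have h1 : A ∈ unipotentSubgroups C D :=
    (hS.unip_or_cent hC hD.1 hD.2 hA (le_sup_left.trans hle)).resolve_right fun h =>
      hB.2.not_cent (h.trans (cent_anti (le_sup_right.trans hle)))
  have h2 : B ∈ unipotentSubgroups C D :=
    (hS.unip_or_cent hC hD.1 hD.2 hB.1 (le_sup_right.trans hle)).resolve_right fun h =>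
      hB.2.symm'.not_cent (h.trans (cent_anti (le_sup_left.trans hle)))
  rw [hD.2.unip_unip h1 h2 hB.2.ne]
  exact ⟨(hD.2.unip_pair h1 h2 hB.2.ne).2, left_mem C D, hD.2.right_mem⟩

end Cfsg.Agent.S5024
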