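import Cfsg.Statements.S5026
import Cfsg.Agent.H11.R2a

set_option autoImplicit false
open Cfsg

namespace Cfsg.Agent.S5026

open Subgroup H16 H16.H11 Cfsg.IsRankOnePair
open scoped commutatorElement


/-- Let S be a degenerate set of abstract root subgroups of G (a set of abstract transvection groups) and let a, b be commuting non-identity elements of members of S with a b ≠ 1. Then the members of S centralizing a b are exactly those centralizing both a and b. -/
theorem result {G : Type*} [Group G] {S : Set (Subgroup G)} (hS : Cfsg.IsRootSubgroupSet S) (hdeg : Cfsg.IsDegenerateRootSet S)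
    {a b : G} (ha : a ∈ Cfsg.rootElements S) (hb : b ∈ Cfsg.rootElements S) (hab : a * b = b * a) (hab1 : a * b ≠ 1) :
    Cfsg.centralizingMembers S (Subgroup.zpowers (a * b)) =
      Cfsg.centralizingMembers S (Subgroup.zpowers a) ∩ Cfsg.centralizingMembers S (Subgroup.zpowers b) := by
  have key : ∀ {a b : G}, a ∈ rootElements S → b ∈ rootElements S → a * b = b * a → a * b ≠ 1 →
      ∀ C ∈ S, a * b ∈ C[C] → a ∈ C[C] := by
    rintro a b ⟨a1, A, hA, ha⟩ ⟨b1, B, hB, hb⟩ hab hab1 C hC hc
    rcases hS.cases hA hC with h | h | h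
    · exact h ha
    · exfalso
      have e : C :^ b⁻¹ = C :^ a := by
        rw [cj_eq_cj_iff, ← mul_inv_rev, ← hab]; exact inv_mem (cent_le_norm _ hc)
      have h1 := (hS.mem_unip hB hC h ha a1 (inv_mem hb) e).2
      have h2 : B = A := h.unip_eq_of_mem h1 (left_mem A C) hb
        (hS.norm_of_commute hA ⟨C, hC, h⟩ ha a1 hab.symm) b1
      exact hab1 (h.eq_one (mul_mem ha (h2 ▸ hb)) (cent_le_norm _ hc))
    · exact absurd (cc_iff.2 h) (hdeg A hA C hC)
  have hz : ∀ (x : G) (C : Subgroup G), C ∈ centralizingMembers S (zpowers x) ↔ C ∈ S ∧ x ∈ C[C] := fun x C => by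
    rw [← zpowers_le, cent_comm]; rfl
  ext C
  simp only [Set.mem_inter_iff, hz]
  exact ⟨fun h => ⟨⟨h.1, key ha hb hab hab1 C h.1 h.2⟩, h.1, key hb ha hab.symm (hab ▸ hab1) C h.1 (hab ▸ h.2)⟩,
    fun h => ⟨h.1.1, mul_mem h.1.2 h.2.2⟩⟩

end Cfsg.Agent.S5026
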