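import Cfsg.Statements.S5027
import Cfsg.Agent.H11.R2a

set_option autoImplicit false
open Cfsg

namespace Cfsg.Agent.S5027

open Subgroup H16 H16.H11 Cfsg.IsRankOnePair
open scoped commutatorElement


/-- Let S be a set of abstract root subgroups of G such that every member of S has a rank one partner in S (the graph of rank one pairs on S has no isolated vertex). Then the second centre of G equals its centre. -/
theorem result {G : Type*} [Group G] {S : Set (Subgroup G)} (hS : Cfsg.IsRootSubgroupSet S)
    (hF : ∀ A ∈ S, ¬ Cfsg.IsIsolatedIn (Cfsg.FAdj S) S A) : Subgroup.upperCentralSeries G 2 = Subgroup.center G := by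
  refine le_antisymm (fun x hx => ?_) ?_
  · have : C1[x] = ⊤ := hS.eq_top fun A hA a ha => by
      obtain ⟨B, hB, h⟩ := (ni_iff hA).1 (hF A hA)
      by_cases a1 : a = 1
      · rw [a1]; exact one_mem _
      have h1 : ⁅x, a⁆ ∈ center G := by
        rw [← Subgroup.upperCentralSeries_one]; exact Subgroup.mem_upperCentralSeries_succ_iff.1 hx a
      have h2 : ⁅x, a⁆ * a = x * a * x⁻¹ := by rw [commutatorElement_def]; group
      have := hS.cent_mul hA hB h (center_le_centralizer _ h1) ha a1 (hS.cj hA x) (h2 ▸ cj_mem ha)
        (by rw [h2]; simpa using a1)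
      exact mem_cent1.2 (commutatorElement_eq_one_iff_mul_comm.1 this).symm
    exact mem_center_iff.2 fun g => mem_cent1.1 (this ▸ mem_top g)
  · rw [← Subgroup.upperCentralSeries_one]
    exact Subgroup.upperCentralSeries_mono _ (by norm_num)

end Cfsg.Agent.S5027
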