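import Cfsg.Statements.S5029
import Cfsg.Agent.H11.R2a

set_option autoImplicit false
open Cfsg

namespace Cfsg.Agent.S5029

open Subgroup H16 H16.H11 Cfsg.IsRankOnePair
open scoped commutatorElement


/-- Let S be a set of abstract root subgroups of G, A ∈ S having a rank one partner in S, and B ∈ S with C = ⁅A, B⁆ ∈ S. Then the members of S contained in AC are the conjugates of A by elements of B together with C, they partition AC, the members of S inside AC partition AC so that A is a line partner of C, and for every non-identity a ∈ A the map b ↦ a⁻¹ b⁻¹ a b is an isomorphism from B onto C. -/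
theorem result {G : Type*} [Group G] {S : Set (Subgroup G)} (hS : Cfsg.IsRootSubgroupSet S)
    {A B : Subgroup G} (hA : ¬ Cfsg.IsIsolatedIn (Cfsg.FAdj S) S A) (hAS : A ∈ S) (hB : B ∈ S) (hC : ⁅A, B⁆ ∈ S) :
    Cfsg.membersIn S (A ⊔ ⁅A, B⁆) = (fun b : G => Cfsg.conjBy A b) '' (B : Set G) ∪ {⁅A, B⁆} ∧
    Cfsg.IsSubgroupPartition (A ⊔ ⁅A, B⁆) (Cfsg.membersIn S (A ⊔ ⁅A, B⁆)) ∧
    A ∈ Cfsg.linePartners S ⁅A, B⁆ ∧
    ∀ a ∈ A, a ≠ 1 → ∃ φ : ↥B ≃* ↥⁅A, B⁆, ∀ b : ↥B, (φ b : G) = a⁻¹ * (b : G)⁻¹ * a * b := by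
  have hn := (ni_iff hAS).1 hA
  have h := hS.cc_of_mem hAS hB hC
  refine ⟨?_, hS.cc_partition hAS hn h, hS.cc_line hAS hn h, fun a ha a1 => ?_⟩
  · ext E
    constructor
    · rintro ⟨hE, hle⟩
      rcases hS.cc_members hAS hn h hE hle with e | ⟨b, hb, e⟩
      · exact Or.inr e
      · exact Or.inl ⟨b, hb, e.symm⟩
    · rintro (⟨b, hb, rfl⟩ | rfl)
      · exact ⟨hS.cj hAS b, h.cj_le (mem_sup_right hb)⟩
      · exact ⟨hC, le_sup_right⟩
  · let f : B →* ↥⁅A, B⁆ := MonoidHom.mk' (fun b => ⟨⁅a⁻¹, (b : G)⁻¹⁆, commutator_mem_commutator (inv_mem ha) (inv_mem b.2)⟩)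
      fun b b' => Subtype.ext (by
        simp only [coe_mul]
        rw [← h.mul_right (inv_mem ha) (inv_mem b.2) (inv_mem b'.2), mul_inv_rev,
          (hS.commute hB (inv_mem b.2) (inv_mem b'.2)).eq])
    refine ⟨MulEquiv.ofBijective f ⟨(injective_iff_map_eq_one f).2 fun b hb => ?_, fun c => ?_⟩,
      fun b => by simp [f, commutatorElement_def]⟩
    · have := hS.cc_inj hAS hn h (inv_mem ha) (inv_ne_one.2 a1) (inv_mem b.2)
        (commutatorElement_eq_one_iff_commute.1 (congrArg Subtype.val hb))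
      exact Subtype.ext (inv_eq_one.1 this)
    · obtain ⟨b, hb, e⟩ := h.exr a⁻¹ (inv_mem ha) (inv_ne_one.2 a1) c c.2
      exact ⟨⟨b⁻¹, inv_mem hb⟩, Subtype.ext (by simpa [f] using e)⟩

end Cfsg.Agent.S5029
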