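import Cfsg.Statements.S5030
import Cfsg.Agent.H11.R2b

set_option autoImplicit false
open Cfsg

namespace Cfsg.Agent.S5030

open Subgroup H16 H16.H11 Cfsg.IsRankOnePair
open scoped commutatorElement


/-- Let S be a set of abstract root subgroups of G and A, B, C ∈ S with ⁅A, B⁆ ∈ S and ⁅B, C⁆ ∈ S, where A and C are different and commute. For a non-identity b ∈ B put X = ⟨A, b⁻¹ C b⟩ and Y = ⟨b⁻¹ A b, C⟩ and R = ⟨A, B, C⟩. Then X and Y are either both abelian or both nilpotent of class exactly two; X and Y commute elementwise; XY is normal in R with R = (XY) B; and R is nilpotent. -/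
theorem result {G : Type*} [Group G] {S : Set (Subgroup G)} (hS : Cfsg.IsRootSubgroupSet S)
    {A B C : Subgroup G} (hA : A ∈ S) (hB : B ∈ S) (hC : C ∈ S) (hAB : ⁅A, B⁆ ∈ S) (hBC : ⁅B, C⁆ ∈ S)
    (hAC : C ∈ Cfsg.commutingPartners S A)
    {b : G} (hb : b ∈ B) (hb1 : b ≠ 1) :
    ((IsMulCommutative ↥(A ⊔ Cfsg.conjBy C b⁻¹) ∧ IsMulCommutative ↥(Cfsg.conjBy A b⁻¹ ⊔ C)) ∨
      ((¬ IsMulCommutative ↥(A ⊔ Cfsg.conjBy C b⁻¹) ∧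
          ⁅⁅A ⊔ Cfsg.conjBy C b⁻¹, A ⊔ Cfsg.conjBy C b⁻¹⁆, A ⊔ Cfsg.conjBy C b⁻¹⁆ = ⊥) ∧
        (¬ IsMulCommutative ↥(Cfsg.conjBy A b⁻¹ ⊔ C) ∧
          ⁅⁅Cfsg.conjBy A b⁻¹ ⊔ C, Cfsg.conjBy A b⁻¹ ⊔ C⁆, Cfsg.conjBy A b⁻¹ ⊔ C⁆ = ⊥))) ∧
    ⁅A ⊔ Cfsg.conjBy C b⁻¹, Cfsg.conjBy A b⁻¹ ⊔ C⁆ = ⊥ ∧
    (∀ r ∈ A ⊔ B ⊔ C, Cfsg.conjBy ((A ⊔ Cfsg.conjBy C b⁻¹) ⊔ (Cfsg.conjBy A b⁻¹ ⊔ C)) r =
      (A ⊔ Cfsg.conjBy C b⁻¹) ⊔ (Cfsg.conjBy A b⁻¹ ⊔ C)) ∧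
    ((A ⊔ Cfsg.conjBy C b⁻¹) ⊔ (Cfsg.conjBy A b⁻¹ ⊔ C)) ⊔ B = A ⊔ B ⊔ C ∧
    Group.IsNilpotent ↥(A ⊔ B ⊔ C) := by
  have h1 := hS.cc_of_mem hA hB hAB
  have h2 := (hS.cc_of_mem hB hC hBC).symm
  have h3 : A ≤ C[C] := comm_eq_bot.1 hAC.2.2
  have hb' := inv_mem hb
  have b1 := inv_ne_one.2 hb1
  have hX := hS.cc_der hA (hS.cj hC _) (hS.tri_cases hA hB hC h1 h2 h3 hb' b1)
  have hY := hS.cc_der hC (hS.cj hA _) (hS.tri_cases hC hB hA h2 h1 (cent_symm h3) hb' b1)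
  rw [sup_comm C] at hY
  have key : ∀ {A C : Subgroup G}, A ∈ S → C ∈ S → CC S C B → A ≤ C[C] → IsMulCommutative ↥(A ⊔ C :^ b⁻¹) →
      IsMulCommutative ↥(C ⊔ A :^ b⁻¹) := by
    intro A C hA hC h2 h3 h4
    have h5 : A ≤ C[C ⊔ C :^ b⁻¹] := le_cent_sup h3 (comm_cent h4 le_sup_left le_sup_right)
    rw [h2.sup_cj hb' b1] at h5
    have h6 := cent_cj_le (h5.trans (cent_anti (h2.cj_le (mem_sup_right hb)))) b⁻¹
    rw [cj_cj_inv] at h6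
    exact comm_sup (hS.commutative C hC) (hS.commutative _ (hS.cj hA _)) (cent_symm h6)
  have hn : A ⊔ B ⊔ C ≤ N[(A ⊔ C :^ b⁻¹) ⊔ (A :^ b⁻¹ ⊔ C)] := by
    refine sup_le (sup_le (norm_of_le (le_sup_left.trans le_sup_left)) ?_) (norm_of_le (le_sup_right.trans le_sup_right))
    rw [hS.tri_sup hA hB hC h1 h2 h3 hb' b1]
    exact norm_sup h1.norm h2.norm
  refine ⟨?_, comm_eq_bot.2 (hS.tri_cent hA hB hC h1 h2 h3 hb'), fun r hr => cj_norm (hn hr), ?_,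
    hS.tri_nil hA hB hC h1 h2 h3⟩
  · by_cases h4 : IsMulCommutative ↥(A ⊔ C :^ b⁻¹)
    · exact Or.inl ⟨h4, sup_comm C _ ▸ key hA hC h2 h3 h4⟩
    · exact Or.inr ⟨⟨h4, comm_eq_bot.2 hX⟩, fun h5 => h4 (by
        have := key hC hA h1 (cent_symm h3) (sup_comm _ C ▸ h5); exact this), comm_eq_bot.2 hY⟩
  · refine le_antisymm (sup_le (sup_le (sup_le (le_sup_left.trans le_sup_left) ?_) (sup_le ?_ le_sup_right))
      (le_sup_right.trans le_sup_left)) (sup_le (sup_le ?_ le_sup_right) ?_)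
    · exact cj_le_of_mem (mem_sup_left (mem_sup_right hb')) le_sup_right
    · exact cj_le_of_mem (mem_sup_left (mem_sup_right hb')) (le_sup_left.trans le_sup_left)
    · exact le_sup_left.trans (le_sup_left.trans le_sup_left)
    · exact le_sup_right.trans (le_sup_right.trans le_sup_left)

end Cfsg.Agent.S5030
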