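import Cfsg.Statements.S5033
import Cfsg.Agent.H11.R2c
import Cfsg.Agent.H5.Component

set_option autoImplicit false
open Cfsg

namespace Cfsg.Agent.S5033

open Subgroup H16 H16.H11 Cfsg.IsRankOnePair
open scoped commutatorElement


/-- Quasisimplicity criterion for groups generated by abstract root subgroups. Let S be a set of abstract root subgroups of G with more than one member such that: the graph of rank one pairs on S is connected; no two different members of S have the same set of commuting members of S; if S is degenerate then every member of S has more than three elements; and every rank one pair in S is special. Then for every A ∈ S one has G = G' A with A ∩ G' ≠ 1, and the commutator subgroup G' is quasisimple. Moreover G is perfect if S is non-degenerate, or if some rank one pair A, B in S generates a perfect group. -/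
theorem result {G : Type*} [Group G] {S : Set (Subgroup G)} (hS : Cfsg.IsRootSubgroupSet S) (h2 : ∃ A ∈ S, ∃ B ∈ S, A ≠ B)
    (h1 : Cfsg.IsConnectedFamily (Cfsg.FAdj S) S)
    (h2' : ∀ A ∈ S, ∀ C ∈ S, A ≠ C → Cfsg.centralizingMembers S A ≠ Cfsg.centralizingMembers S C)
    (h3 : Cfsg.IsDegenerateRootSet S → ∀ A ∈ S, 3 < ENat.card A)
    (h4 : ∀ A ∈ S, ∀ B ∈ Cfsg.rankOnePartners S A, Cfsg.IsSpecialRankOnePair A B) :
    (∀ A ∈ S, commutator G ⊔ A = ⊤ ∧ A ⊓ commutator G ≠ ⊥) ∧ Cfsg.IsQuasisimple ↥(commutator G) ∧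
    (Cfsg.IsNondegenerateRootSet S → commutator G = ⊤) ∧
    ((∃ A ∈ S, ∃ B ∈ Cfsg.rankOnePartners S A, Group.IsPerfect ↥(A ⊔ B)) → commutator G = ⊤) := by
  obtain ⟨hc, A₀, hA₀, hn₀⟩ := ((show IsConnectedFamily (FAdj S) S →
      (IsConjClassOfSubgroups S ∧ ∃ A ∈ S, NI S A) from fun h => by
    obtain ⟨A, hA, B, hB, hne⟩ := h2
    exact ⟨⟨⟨A, hA⟩, fun C hC D hD => IsRootSubgroupSet.conj_of_conn (h C hC D hD)⟩, A, hA,
      IsRootSubgroupSet.ni_of_conn (h A hA B hB) hne.symm⟩) h1)
  have hF := hS.ni_of_class hc ⟨A₀, hA₀, hn₀⟩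
  have k1 : ∀ N : Subgroup G, N.Normal → ∀ A ∈ S, A ≤ N → N = ⊤ := fun N hN A hA hle => hS.eq_top fun C hC => by
    obtain ⟨g, rfl⟩ := hc.2 A hA C hC
    exact cj_le_of_norm (le_normalizer_of_normal (mem_top g)) hle
  have k2 : ∀ N : Subgroup G, N.Normal → ∀ A ∈ S, ∀ B ∈ S, ⁅A, B⁆ ≤ N → A ≤ C[B] ∨ N = ⊤ := by
    intro N hN A hA B hB hle
    rcases hS.cases hA hB with h | h | h
    · exact Or.inl h
    swap
    · exact Or.inr (k1 N hN _ h.mem hle)
    right
    by_cases hd : IsDegenerateRootSet S
    · refine k1 N hN A hA (le_trans ?_ hle)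
      have e := sp_comm_diag (h4 A hA B ⟨hB, h⟩) (hS.commutative A hA) (hS.commutative B hB) fun a ha => by
        by_contra hcon
        push Not at hcon
        have hsub : (A : Set G) ⊆ {1, a, a⁻¹} := fun x hx => by
          by_cases h1 : x = 1
          · exact Or.inl h1
          by_cases h2 : x = a
          · exact Or.inr (Or.inl h2)
          · exact Or.inr (Or.inr (hcon x hx h1 h2))
        refine absurd (h3 hd A hA) (not_lt.2 ((Set.encard_le_encard hsub).trans ((Set.encard_insert_le _ _).trans ?_)))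
        refine (add_le_add_left (Set.encard_insert_le _ _) _).trans ?_
        rw [Set.encard_singleton]; decide
      refine e.ge.trans ((commutator_mono le_rfl (inf_le_left.trans inf_le_left)).trans ?_)
      exact comm_sup_le (by rw [comm_eq_bot.2 (hS.cent hA)]; exact bot_le) le_rfl
        (normalizer_commutator_ge_left A B) (normalizer_commutator_ge_right A B)
    · simp only [IsDegenerateRootSet, not_forall, not_not, exists_prop] at hd
      obtain ⟨C, hC, h5, h6, -⟩ := hS.ex_tri hc hF hd hA hB h
      refine k1 N hN _ h5.mem ?_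
      have hn : A ⊔ B ≤ N[⁅A, B⁆] := sup_le (normalizer_commutator_ge_left A B) (normalizer_commutator_ge_right A B)
      rcases h.normal_cases hn (comm_le le_sup_left le_sup_right) with h7 | h7
      · have hCA : C ≤ C[A] := by have := (hS.mod_cc hC hB hA h5 h6).cB; rwa [commutator_comm, h6] at this
        refine (commutator_mono le_rfl (le_sup_right.trans (h7.ge.trans (sup_le_sup_right hle A)))).trans ?_
        exact comm_sup_le (commutator_le_right _ _) (by rw [comm_eq_bot.2 hCA]; exact bot_le)
          le_normalizer_of_normal le_normalizer_of_normal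
      · exfalso
        refine h.not_cent fun a ha => cent_anti le_sup_right (h.cent_of_comm (mem_sup_left ha) fun y hy => h7 ?_)
        exact comm_sup_le (by rw [comm_eq_bot.2 (hS.cent hA)]; exact bot_le) le_rfl (le_sup_left.trans hn)
          (le_sup_right.trans hn) (commutator_mem_commutator ha hy)
  have hp : commutator G = ⊤ := by
    obtain ⟨B, hB, h⟩ := hn₀
    exact (k2 _ inferInstance A₀ hA₀ B hB (commutator_mono le_top le_top)).resolve_left h.not_cent
  refine ⟨fun A hA => ⟨by rw [hp, top_sup_eq], by rw [hp, inf_top_eq]; exact hS.ne_bot A hA⟩, ?_, fun _ => hp,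
    fun _ => hp⟩
  rw [hp, H5.qs_top_iff]
  refine H5.isQuasisimple_iff_top.2 ⟨hp, ?_, fun N hN => ?_⟩
  · obtain ⟨a, -, a1⟩ := hS.ex_ne hA₀
    exact ⟨a, 1, a1⟩
  by_cases hN' : N = ⊤
  · exact Or.inl hN'
  right
  have k3 : ∀ A ∈ S, ∀ n ∈ N, centralizingMembers S A ⊆ centralizingMembers S (A :^ n) := by
    intro A hA n hn E hE
    refine ⟨hE.1, (k2 N hN E hE.1 _ (hS.cj hA n) ?_).resolve_right hN'⟩
    refine (commutator_mono le_rfl (cj_le_of_mem (mem_sup_left hn) (le_sup_right : A ≤ N ⊔ A))).trans ?_
    exact comm_sup_le (commutator_le_right _ _) (by rw [comm_eq_bot.2 hE.2]; exact bot_le)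
      le_normalizer_of_normal le_normalizer_of_normal
  have k4 : ∀ A ∈ S, N ≤ N[A] := fun A hA n hn => cj_eq_self_iff.1 (by
    by_contra hne
    refine h2' _ (hS.cj hA n) A hA hne ((k3 A hA n hn).antisymm' ?_)
    simpa only [cj_cj_inv] using k3 _ (hS.cj hA n) n⁻¹ (inv_mem hn))
  have : C[N] = ⊤ := hS.eq_top fun A hA => by
    obtain ⟨B, hB, h⟩ := hF A hA
    exact cent_symm ((h.cent_of_norm le_normalizer_of_normal (k4 A hA)).trans (cent_anti le_sup_left))
  exact fun n hn => mem_center_iff.2 fun g => (mem_cent.1 (this ▸ mem_top g : g ∈ C[N]) n hn).symm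

end Cfsg.Agent.S5033
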