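import Cfsg.Statements.S5035
import Cfsg.Agent.H11.R2b

set_option autoImplicit false
open Cfsg

namespace Cfsg.Agent.S5035

open Subgroup H16 H16.H11 Cfsg.IsRankOnePair
open scoped commutatorElement


/-- Let S be a set of abstract root subgroups of G whose graph of rank one pairs is connected, and f a homomorphism from G onto a group H. Then either the images of the members of S form a set of abstract root subgroups of H whose graph of rank one pairs is again connected, or H equals the image of a member of S. -/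
theorem result {G H : Type*} [Group G] [Group H] {S : Set (Subgroup G)} (hS : Cfsg.IsRootSubgroupSet S)
    (hc : Cfsg.IsConnectedFamily (Cfsg.FAdj S) S) (f : G →* H) (hf : Function.Surjective f) :
    (Cfsg.IsRootSubgroupSet ((fun A : Subgroup G => A.map f) '' S) ∧
      Cfsg.IsConnectedFamily (Cfsg.FAdj ((fun A : Subgroup G => A.map f) '' S)) ((fun A : Subgroup G => A.map f) '' S)) ∨
    ∃ A ∈ S, A.map f = ⊤ := by
  by_cases h0 : ∃ A ∈ S, A.map f = ⊥
  · obtain ⟨A, hA, h0⟩ := h0
    refine Or.inr ⟨A, hA, ?_⟩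
    have : f.ker = ⊤ := hS.eq_top fun B hB => by
      obtain ⟨g, rfl⟩ := IsRootSubgroupSet.conj_of_conn (hc A hA B hB)
      exact cj_le_of_norm (le_normalizer_of_normal (mem_top g)) ((Subgroup.map_eq_bot_iff _).1 h0)
    rw [h0, eq_comm, eq_bot_iff_forall]
    intro y _
    obtain ⟨x, rfl⟩ := hf y
    exact (this ▸ mem_top x : x ∈ f.ker)
  push Not at h0
  refine Or.inl ⟨⟨?_, ?_, ?_, ?_, ?_⟩, ?_⟩
  · rintro _ ⟨A, hA, rfl⟩
    exact comm_iff.2 (comm_eq_bot.1 (by rw [← map_commutator, comm_eq_bot.2 (hS.cent hA), Subgroup.map_bot]))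
  · rintro _ ⟨A, hA, rfl⟩; exact h0 A hA
  · rw [iSup_image]
    simp only [← Subgroup.map_iSup]
    rw [hS.generates, map_top_of_surjective f hf]
  · rintro _ ⟨A, hA, rfl⟩ y
    obtain ⟨g, rfl⟩ := hf y
    refine ⟨_, hS.cj hA g, ?_⟩
    simp only [conjBy, map_map]; congr 1; ext; simp
  · rintro _ ⟨A, hA, rfl⟩ _ ⟨B, hB, rfl⟩
    rcases hS.cases hA hB with h | h | h
    · left; rw [← map_commutator, comm_eq_bot.2 h, Subgroup.map_bot]
    · by_cases e : A.map f = B.map f
      · left; simp only; rw [← e, ← map_commutator, comm_eq_bot.2 (hS.cent hA), Subgroup.map_bot]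
      · exact Or.inr (Or.inl (h.map f e))
    · refine Or.inr (Or.inr (cc_iff.2 ⟨⟨_, h.mem, map_commutator _ _ _⟩, ?_, ?_, ?_, ?_⟩))
      · rw [← comm_eq_bot, ← map_commutator, ← map_commutator, comm_eq_bot.2 h.cA, Subgroup.map_bot]
      · rw [← comm_eq_bot, ← map_commutator, ← map_commutator, comm_eq_bot.2 h.cB, Subgroup.map_bot]
      · rintro _ ⟨a, ha, rfl⟩ a1 c hc
        obtain ⟨c, hc', rfl⟩ : c ∈ ⁅A, B⁆.map f := by rwa [map_commutator]
        obtain ⟨b, hb, rfl⟩ := h.exr a ha (by rintro rfl; simp at a1) c hc'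
        exact ⟨_, mem_map_of_mem f hb, (map_commutatorElement f a b).symm⟩
      · rintro _ ⟨b, hb, rfl⟩ b1 c hc
        obtain ⟨c, hc', rfl⟩ : c ∈ ⁅A, B⁆.map f := by rwa [map_commutator]
        obtain ⟨a, ha, rfl⟩ := h.exl b hb (by rintro rfl; simp at b1) c hc'
        exact ⟨_, mem_map_of_mem f ha, (map_commutatorElement f a b).symm⟩
  · rintro _ ⟨A, hA, rfl⟩ _ ⟨B, hB, rfl⟩
    refine rtg_lift' (fun A : Subgroup G => A.map f) (fun A B h => ?_) (hc A hA B hB)
    by_cases e : A.map f = B.map f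
    · rw [e]
    · exact .single ⟨⟨A, h.1, rfl⟩, ⟨B, h.2.1, rfl⟩, h.2.2.map f e⟩

end Cfsg.Agent.S5035
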