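import Cfsg.Statements.S5036
import Cfsg.Agent.H11.R2b

set_option autoImplicit false
open Cfsg

namespace Cfsg.Agent.S5036

open Subgroup H16 H16.H11 Cfsg.IsRankOnePair
open scoped commutatorElement


/-- Let S be a set of abstract root subgroups of G, A, B ∈ S with C = ⁅A, B⁆ ∈ S, and D ∈ S with ⁅D, C⁆ = A. Put X = ⟨B, D⟩ and N = AC. Then B, D form a rank one pair; the conjugates of A under X are the conjugates of C under X, namely the conjugates of A by elements of B together with C, equally the conjugates of C by elements of D together with A, and they partition N; and the centralizer of N in X is central in X. -/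
theorem result {G : Type*} [Group G] {S : Set (Subgroup G)} (hS : Cfsg.IsRootSubgroupSet S)
    {A B D : Subgroup G} (hA : A ∈ S) (hB : B ∈ S) (hC : ⁅A, B⁆ ∈ S) (hD : D ∈ S) (hDC : ⁅D, ⁅A, B⁆⁆ = A) :
    Cfsg.IsRankOnePair B D ∧
    {E | ∃ x ∈ B ⊔ D, E = Cfsg.conjBy A x} = {E | ∃ x ∈ B ⊔ D, E = Cfsg.conjBy ⁅A, B⁆ x} ∧
    {E | ∃ x ∈ B ⊔ D, E = Cfsg.conjBy A x} = (fun b : G => Cfsg.conjBy A b) '' (B : Set G) ∪ {⁅A, B⁆} ∧
    {E | ∃ x ∈ B ⊔ D, E = Cfsg.conjBy A x} = (fun d : G => Cfsg.conjBy ⁅A, B⁆ d) '' (D : Set G) ∪ {A} ∧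
    Cfsg.IsSubgroupPartition (A ⊔ ⁅A, B⁆) {E | ∃ x ∈ B ⊔ D, E = Cfsg.conjBy A x} ∧
    ∀ x ∈ (B ⊔ D) ⊓ Subgroup.centralizer ((A ⊔ ⁅A, B⁆ : Subgroup G) : Set G), ∀ y ∈ B ⊔ D, x * y = y * x := by
  have h1 := hS.cc_of_mem hA hB hC
  have h := hS.mod_rank hA hB hD h1 hDC
  have h2 := hS.mod_cc hA hB hD h1 hDC
  have e1 : ⁅⁅A, B⁆, D⁆ = A := by rw [commutator_comm, hDC]
  have hn := hS.mod_norm hA hB hD h1 hDC
  have c1 := hS.mod_cent hA hB hD h1 hDC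
  have c2 : (A ⊔ ⁅A, B⁆) ⊓ C[D] = A := by
    have := hS.mod_cent hC hD hB h2 (by rw [e1, commutator_comm])
    rwa [e1, sup_comm] at this
  have hAD : A ≤ C[D] := c2.ge.trans inf_le_right
  have cx : ∀ {K L : Subgroup G}, (A ⊔ ⁅A, B⁆) ⊓ C[K] = L → ∀ x ∈ B ⊔ D, (A ⊔ ⁅A, B⁆) ⊓ C[K :^ x] = L :^ x := by
    intro K L e x hx
    rw [← e, cj_inf, cj_norm (hn hx), cent_cj]
  have k1 : ∀ E, (∃ x ∈ B ⊔ D, E = A :^ x) ↔ ∃ P ∈ unipotentSubgroups B D, E = (A ⊔ ⁅A, B⁆) ⊓ C[P] := by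
    intro E
    rw [h.unip_comm]
    constructor
    · rintro ⟨x, hx, rfl⟩; exact ⟨_, ⟨x, sup_comm B D ▸ hx, rfl⟩, (cx c2 x hx).symm⟩
    · rintro ⟨_, ⟨x, hx, rfl⟩, rfl⟩; exact ⟨x, sup_comm D B ▸ hx, cx c2 x (sup_comm D B ▸ hx)⟩
  have k2 : ∀ E, (∃ x ∈ B ⊔ D, E = ⁅A, B⁆ :^ x) ↔ ∃ P ∈ unipotentSubgroups B D, E = (A ⊔ ⁅A, B⁆) ⊓ C[P] := by
    intro E
    constructor
    · rintro ⟨x, hx, rfl⟩; exact ⟨_, ⟨x, hx, rfl⟩, (cx c1 x hx).symm⟩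
    · rintro ⟨_, ⟨x, hx, rfl⟩, rfl⟩; exact ⟨x, hx, cx c1 x hx⟩
  have k3 : {E | ∃ x ∈ B ⊔ D, E = conjBy A x} = (fun b : G => conjBy A b) '' (B : Set G) ∪ {⁅A, B⁆} := by
    ext E
    constructor
    · intro hE
      obtain ⟨P, hP, rfl⟩ := (k1 E).1 hE
      rcases h.unip_cases hP with rfl | ⟨b, hb, rfl⟩
      · exact Or.inr c1
      · exact Or.inl ⟨b, hb, (cx c2 b (mem_sup_left hb)).symm⟩
    · rintro (⟨b, hb, rfl⟩ | rfl)
      · exact ⟨b, mem_sup_left hb, rfl⟩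
      · exact (k1 _).2 ⟨B, left_mem B D, c1.symm⟩
  refine ⟨h, Set.ext fun E => (k1 E).trans (k2 E).symm, k3, ?_, ⟨?_, fun x hx _ => ?_, ?_⟩, ?_⟩
  · ext E
    constructor
    · intro hE
      obtain ⟨P, hP, rfl⟩ := (k1 E).1 hE
      rcases h.unip_cases' hP with rfl | ⟨d, hd, rfl⟩
      · exact Or.inr c2
      · exact Or.inl ⟨d, hd, (cx c1 d (mem_sup_right hd)).symm⟩
    · rintro (⟨d, hd, rfl⟩ | rfl)
      · exact (k1 _).2 ((k2 _).1 ⟨d, mem_sup_right hd, rfl⟩)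
      · exact ⟨1, one_mem _, (cj_one _).symm⟩
  · rintro _ ⟨x, hx, rfl⟩
    exact cj_le_of_norm (hn hx) le_sup_left
  · rw [k3]
    rcases IsRootSubgroupSet.cc_cover h1 hx with h3 | ⟨b, hb, h3⟩
    · exact ⟨_, Or.inr rfl, h3⟩
    · exact ⟨_, Or.inl ⟨b, hb, rfl⟩, h3⟩
  · intro E hE F hF hne
    obtain ⟨P, hP, rfl⟩ := (k1 E).1 hE
    obtain ⟨Q, hQ, rfl⟩ := (k1 F).1 hF
    have h3 := (h.unip_pair hP hQ fun e => hne (e ▸ rfl)).2
    rw [← inf_inf_distrib_left, ← cent_sup, h3, cent_sup, inf_inf_distrib_left, c1, c2, inf_comm]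
    exact hS.mod_inf hA hB hD h1 hDC
  · intro x hx y hy
    rcases h.normal_cases (N := (B ⊔ D) ⊓ C[A ⊔ ⁅A, B⁆]) (norm_inf (le_norm _) (norm_cent hn)) inf_le_left with h3 | h3
    · exfalso
      refine hS.cc_not_cent h2 (cent_symm (le_sup_right.trans (h3.ge.trans (sup_le ?_ (cent_symm h1.cB)))))
      exact inf_le_right.trans (cent_anti le_sup_right)
    · exact (mem_cent.1 (h3 hx) y hy).symm

end Cfsg.Agent.S5036
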