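import Cfsg.Statements.S5037
import Cfsg.Agent.H11.R2c

set_option autoImplicit false
open Cfsg

namespace Cfsg.Agent.S5037

open Subgroup H16 H16.H11 Cfsg.IsRankOnePair
open scoped commutatorElement


/-- Let S be a class of abstract root subgroups of G that is either degenerate or non-degenerate (so either the commutator case never occurs, or all three cases occur), and A ≠ C members of S. If every member of S commuting with A commutes with C, then A and C have the same commuting members of S; and if every rank one partner of A is a rank one partner of C, then A and C commute and have the same rank one partners. -/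
theorem result {G : Type*} [Group G] {S : Set (Subgroup G)} (hS : Cfsg.IsRootSubgroupClass S)
    (hdn : Cfsg.IsDegenerateRootSet S ∨ Cfsg.IsNondegenerateRootSet S)
    {A C : Subgroup G} (hA : A ∈ S) (hC : C ∈ S) (hAC : A ≠ C) :
    (Cfsg.centralizingMembers S A ⊆ Cfsg.centralizingMembers S C →
      Cfsg.centralizingMembers S A = Cfsg.centralizingMembers S C) ∧
    (Cfsg.rankOnePartners S A ⊆ Cfsg.rankOnePartners S C →
      ⁅A, C⁆ = ⊥ ∧ Cfsg.rankOnePartners S A = Cfsg.rankOnePartners S C) := by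
  obtain ⟨hS, hc⟩ := hS
  have hF : ∀ A ∈ S, NI S A := by
    refine hS.ni_of_class hc (hdn.elim (fun hd => ?_) fun h => h.2.1)
    by_contra hn
    push Not at hn
    obtain ⟨g, rfl⟩ := hc.2 A hA C hC
    have : C[A] = ⊤ := hS.eq_top fun B hB => ((hS.cases hB hA).resolve_right fun h =>
      h.elim (hn B hB A hA) fun h => hd B hB A hA (cc_iff.2 h))
    exact hAC (cj_cent (this ▸ mem_top g)).symm
  have key : ∀ (r : Subgroup G → Subgroup G → Prop), (∀ {P Q R}, r P Q → r Q R → r P R) →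
      (∀ {P Q} g, r P Q → r (P :^ g) (Q :^ g)) → (∀ P ∈ S, ∀ Q ∈ S, r P Q → ¬ IsRankOnePair P Q) →
      A ≤ C[C] → r A C → ∀ D ∈ S, IsRankOnePair A D → IsRankOnePair C D → r C A := by
    intro r tr cj nr hAC' h D hD h1 h2
    have k : ∀ {a c d : G}, RP A D a d → RP C D c d → r D (D :^ (a⁻¹ * c)) := fun {a c d} ra rc => by
      have := cj a⁻¹ (cj d h)
      rwa [ra.eq, rc.eq, cj_cj_inv, cj_cj] at this
    obtain ⟨a, ha, a1⟩ := hS.ex_ne hA
    obtain ⟨d, ra⟩ := RP.ex h1 ha a1
    obtain ⟨c, rc⟩ := RP.ex' h2 ra.mb ra.b1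
    obtain ⟨d', ra'⟩ := RP.ex h1 (inv_mem ha) (inv_ne_one.2 a1)
    obtain ⟨c', rc'⟩ := RP.ex' h2 ra'.mb ra'.b1
    have k1 := k ra rc
    have k2 := k ra' rc'
    have ac := commute_of_le hAC' ha rc.ma
    have k3 := tr k1 (cj (a⁻¹ * c) k2)
    rw [cj_cj, show a⁻¹ * c * (a⁻¹⁻¹ * c') = c * c' by rw [ac.inv_left.eq]; group] at k3
    have h3 : c * c' = 1 := by
      by_contra h3
      have hm := mul_mem rc.ma rc'.ma
      exact nr D hD _ (hS.cj hD _) k3 (h2.symm'.sup_cj (mem_sup_right hm) fun hn => h3 (h2.eq_one hm hn)).1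
    have k4 := cj d⁻¹ (cj c k2)
    rwa [cj_cj D (a⁻¹⁻¹ * c') c, show c * (a⁻¹⁻¹ * c') = a by rw [inv_inv, ← mul_assoc, ← ac.eq, mul_assoc, h3, mul_one],
      ← ra.eq, ← rc.eq, cj_cj_inv, cj_cj_inv] at k4
  constructor
  · intro h
    have hAC' : A ≤ C[C] := (h ⟨hA, hS.cent hA⟩).2
    obtain ⟨D, hD, h2⟩ := hF C hC
    refine h.antisymm (key (fun P Q => centralizingMembers S P ⊆ centralizingMembers S Q) Set.Subset.trans
      (fun {P Q} g h E hE => ?_) (fun P hP Q _ h h' => h'.not_cent (h ⟨hP, hS.cent hP⟩).2) hAC' h D hD ?_ h2)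
    · have := cent_cj_le (h ⟨hS.cj hE.1 g⁻¹, by simpa only [cj_cj_inv] using cent_cj_le hE.2 g⁻¹⟩).2 g
      exact ⟨hE.1, by simpa only [cj_inv_cj] using this⟩
    · rcases hS.cases hA hD with h3 | h3 | h3
      · exact absurd (cent_symm (h ⟨hD, cent_symm h3⟩).2) h2.not_cent
      · exact h3
      · exfalso
        have h4 := hS.cc_partition hD (hF D hD) h3.symm
        obtain ⟨d, hd, d1⟩ := hS.ex_ne hD
        obtain ⟨f, hf, f1⟩ := hS.ex_ne h3.symm.mem
        have h5 : f * d ≠ 1 := fun e => d1 (eq_one_of_mem_bot (hS.cc_inf hD (hF D hD) h3.symm)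
          ⟨hd, eq_inv_of_mul_eq_one_right e ▸ Subgroup.inv_mem _ hf⟩)
        obtain ⟨E, hE, he⟩ := h4.2.1 _ (mul_mem (mem_sup_right hf) (mem_sup_left hd)) h5
        exact f1 (hS.cent_mul hD hC h2.symm' (le_cent_sup h3.symm.cA (h ⟨h3.symm.mem, h3.symm.cB⟩).2 hf) hd d1
          hE.1 he h5)
  · intro h
    have cjr : ∀ {P Q : Subgroup G} g, rankOnePartners S P ⊆ rankOnePartners S Q →
        rankOnePartners S (P :^ g) ⊆ rankOnePartners S (Q :^ g) := fun {P Q} g h E hE => by
      have := (h ⟨hS.cj hE.1 g⁻¹, by simpa only [cj_cj_inv] using hE.2.cj g⁻¹⟩).2.cj g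
      exact ⟨hE.1, by simpa only [cj_inv_cj] using this⟩
    have hAC' : A ≤ C[C] := by
      rcases hS.cases hA hC with h3 | h3 | h3
      · exact h3
      · exact absurd rfl (h ⟨hC, h3⟩).2.ne
      exfalso
      -- no rank one partner of `A` is a rank one partner of `E = ⁅A, C⁆`
      have k : ∀ D ∈ S, IsRankOnePair A D → ¬ IsRankOnePair ⁅C, A⁆ D := by
        intro D hD h4 h5
        have hne := hS.cc_ne h3.symm
        have hN : Ln S (C ⊔ ⁅C, A⁆) := by
          rw [sup_comm]; exact line_ln hS h3.symm.mem (hS.cc_line hC (hF C hC) h3.symm)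
        obtain ⟨P, hP, hPN, h6⟩ := hS.ln_ex_cc hN hC le_sup_left hD (h ⟨hD, h4⟩).2 h3.symm.mem le_sup_right hne
        refine hS.not_cc_rank hP hD h6 ?_
        rcases hS.cc_members hC (hF C hC) h3.symm hP hPN with rfl | ⟨a, ha, rfl⟩
        · exact h5
        · have := cjr a h
          rw [cj_self ha] at this
          exact (this ⟨hD, h4⟩).2
      obtain ⟨D, hD, h4⟩ := hF A hA
      have hne := hS.cc_ne h3
      have hN : Ln S (A ⊔ ⁅A, C⁆) := by rw [sup_comm]; exact line_ln hS h3.mem (hS.cc_line hA (hF A hA) h3)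
      obtain ⟨F, hF', k1, k2, k3⟩ := hS.ln_pt hF hA h3.mem hne hN hA le_sup_left h3.mem le_sup_right hne
      obtain ⟨f, hf, f1⟩ := hS.ex_ne hF'
      have hfA : A :^ f⁻¹ = A := cj_cent (inv_mem (cent_symm (by simpa only [k2] using k1.cB) hf))
      have h5 := k D hD h4
      have h6 := k _ (hS.cj hD f⁻¹) (by simpa only [hfA] using h4.cj f⁻¹)
      rw [commutator_comm] at h5 h6
      have cc : ∀ P ∈ S, P ≤ A ⊔ ⁅A, C⁆ → ¬ IsRankOnePair P D → CC S P D := fun P hP hPN hn =>
        ((hS.cases hP hD).resolve_left (hS.ln_not_cent hN hA le_sup_left hD h4 hP hPN)).resolve_left hn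
      have hle : ⁅A, C⁆ :^ f ≤ A ⊔ ⁅A, C⁆ := by
        have := k1.cj_le (mem_sup_right hf)
        rwa [k2, k3] at this
      have h7 := hS.tri_nil h3.mem hD (hS.cj h3.mem f) (cc _ h3.mem le_sup_right h5)
        (cc _ (hS.cj h3.mem f) hle fun h7 => h6 (by simpa only [cj_cj_inv] using h7.cj f⁻¹))
        (comm_cent hN.1 le_sup_right hle)
      refine h4.not_nil (nil_of_le h7 (sup_le ?_ (le_sup_right.trans le_sup_left)))
      have := k1.sup_cj hf f1
      rw [k2] at this
      exact le_sup_right.trans (this.ge.trans (sup_le (le_sup_left.trans le_sup_left) le_sup_right))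
    obtain ⟨D, hD, h2⟩ := hF A hA
    exact ⟨comm_eq_bot.2 hAC', h.antisymm (key (fun P Q => rankOnePartners S P ⊆ rankOnePartners S Q)
      Set.Subset.trans cjr (fun P _ Q hQ h h' => (h ⟨hQ, h'⟩).2.ne rfl) hAC' h D hD h2 (h ⟨hD, h2⟩).2)⟩

end Cfsg.Agent.S5037
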