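import Cfsg.Statements.S5038
import Cfsg.Agent.H11.R2c

set_option autoImplicit false
open Cfsg

namespace Cfsg.Agent.S5038

open Subgroup H16 H16.H11 Cfsg.IsRankOnePair
open scoped commutatorElement


/-- Let S be a set of abstract root subgroups of G in which every member has a rank one partner, A ∈ S and B a line partner of A. Then the subgroup generated by the members of S normalizing AB permutes the members of S inside AB doubly transitively by conjugation. -/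
theorem result {G : Type*} [Group G] {S : Set (Subgroup G)} (hS : Cfsg.IsRootSubgroupSet S)
    (hF : ∀ A ∈ S, ¬ Cfsg.IsIsolatedIn (Cfsg.FAdj S) S A) {A B : Subgroup G} (hA : A ∈ S) (hB : B ∈ Cfsg.linePartners S A) :
    ∀ C₁ ∈ Cfsg.membersIn S (A ⊔ B), ∀ C₂ ∈ Cfsg.membersIn S (A ⊔ B), ∀ D₁ ∈ Cfsg.membersIn S (A ⊔ B),
      ∀ D₂ ∈ Cfsg.membersIn S (A ⊔ B), C₁ ≠ C₂ → D₁ ≠ D₂ →
        ∃ x ∈ ⨆ E ∈ Cfsg.normalizingMembers S (A ⊔ B), E, Cfsg.conjBy C₁ x = D₁ ∧ Cfsg.conjBy C₂ x = D₂ := by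
  intro C₁ h1 C₂ h2 D₁ h3 D₂ h4 hC hD
  obtain ⟨C, -, F, -, -, -, -, h⟩ := hS.ln_two0 (fun A hA => (ni_iff hA).1 (hF A hA)) hA hB.1.1 hB.1.2.1.symm
    (line_ln hS hA hB)
  obtain ⟨t, ht, e1, e2⟩ := h C₁ h1.1 h1.2 C₂ h2.1 h2.2 hC
  obtain ⟨u, hu, e3, e4⟩ := h D₁ h3.1 h3.2 D₂ h4.1 h4.2 hD
  exact ⟨u⁻¹ * t, mul_mem (inv_mem hu) ht, by rw [conjBy, ← cj_cj, e1, ← e3, cj_cj_inv],
    by rw [conjBy, ← cj_cj, e2, ← e4, cj_cj_inv]⟩

end Cfsg.Agent.S5038
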