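import Cfsg.Statements.S5039
import Cfsg.Agent.H11.R2c
import Cfsg.Agent.H11.R1c

set_option autoImplicit false
universe u
open Cfsg

namespace Cfsg.Agent.S5039

open Subgroup H16 H16.H11 Cfsg.IsRankOnePair
open scoped commutatorElement

/-- in a triangle, `A` meets the group generated by the other points -/
theorem key {G : Type*} [Group G] {S : Set (Subgroup G)} (hS : IsRootSubgroupSet S) {A B C E : Subgroup G}
    (hA : A ∈ S) (hE : E ∈ S) (hAE : IsRankOnePair A E) (hCE : IsRankOnePair C E) (hAC : A ≤ C[C])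
    (hne : A ≠ C) (hB : ∀ P ∈ S, P ≠ A → P ≤ C[A] → P ≤ C[B]) {e₁ e₂ e₃ : G} (h1 : e₁ ∈ E) (h2 : e₂ ∈ E)
    (h3 : e₃ ∈ E) (n1 : e₁ ≠ 1) (n2 : e₂ ≠ 1) (n3 : e₃ ≠ 1) (n12 : e₂ * e₁ ≠ 1) (n13 : e₃ * e₁ ≠ 1)
    (n23 : e₃ * e₂ ≠ 1) (n123 : e₃ * (e₂ * e₁) ≠ 1) : A ≤ C[B] := by
  obtain ⟨a₀, r⟩ := RP.ex' hAE h1 n1
  obtain ⟨c₀, r'⟩ := RP.ex' hCE h1 n1
  obtain ⟨hD, -, -⟩ := hS.tri_y hA hE hAE hCE hAC r r'
  obtain ⟨x, hx⟩ : ∃ x, x = a₀⁻¹ * c₀ := ⟨_, rfl⟩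
  rw [← hx] at hD
  have hxA : x ∈ C[A] := hx ▸ mul_mem (hS.cent hA (inv_mem r.ma)) (cent_symm hAC r'.ma)
  have hDE : E :^ x ≠ E := fun e => by
    have h4 : E :^ c₀ = E :^ a₀ := by rw [cj_eq_cj_iff, ← hx, ← cj_eq_self_iff, e]
    rw [← r.eq, ← r'.eq] at h4
    exact hne (H16.cj_inj.1 h4).symm
  have hW : IsMulCommutative ↥(E ⊔ E :^ x) := comm_sup (hS.commutative E hE) (hS.commutative _ (hS.cj hE x))
    (cent_symm hD)
  have cW : ∀ {u v}, u ∈ E ⊔ E :^ x → v ∈ E ⊔ E :^ x → Commute u v := fun hu hv =>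
    commute_of_le (comm_iff.1 hW) hu hv
  let y : G → G := fun e => e⁻¹ * (x * e * x⁻¹)
  have yW : ∀ {e}, e ∈ E → y e ∈ E ⊔ E :^ x := fun he => mul_mem (mem_sup_left (inv_mem he)) (mem_sup_right (cj_mem he))
  have ymul : ∀ {e e'}, e ∈ E → e' ∈ E → y (e * e') = y e * y e' := fun {e e'} he he' => by
    have k1 := (cW (mem_sup_left (inv_mem he')) (mem_sup_right (cj_mem he))).eq
    have k2 := (hS.commute hE (inv_mem he) (inv_mem he')).eq
    simp only [y]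
    rw [mul_inv_rev, ← k2, mul_assoc _ _ (e'⁻¹ * _), ← mul_assoc _ e'⁻¹, ← k1]; group
  -- partners
  have rp : ∀ {a e}, RP A E a e → RP A (E :^ x) a (x * e * x⁻¹) := fun {a e} r => by
    have := r.cj x
    rwa [cj_cent hxA, ← mem_cent.1 hxA a r.ma, mul_inv_cancel_right] at this
  have yA : ∀ {e}, e ∈ E → A :^ (y e) ≤ C[A] ∧ (e ≠ 1 → A :^ (y e) ≠ A) := fun {e} he => by
    by_cases e1 : e = 1
    · simp only [y, e1, inv_one, mul_one, mul_inv_cancel, cj_one]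
      exact ⟨hS.cent hA, fun h => absurd rfl h⟩
    obtain ⟨a, r⟩ := RP.ex' hAE he e1
    constructor
    · have := cent_cj_le (cent_cj_le hD a) e⁻¹
      rwa [← r.eq, ← (rp r).eq, cj_cj_inv, cj_cj] at this
    · intro _ e2
      have : A :^ (x * e * x⁻¹) = A :^ e := by rw [cj_eq_cj_iff, ← cj_eq_self_iff, e2]
      rw [r.eq, (rp r).eq] at this
      exact hDE (H16.cj_inj.1 this)
  have cube : ∀ a ∈ A, ∀ e ∈ E, (E ⊔ E :^ x) :^ (a * (y e * a⁻¹ * (y e)⁻¹)) ≤ C[E ⊔ E :^ x] := by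
    intro a ha e he
    by_cases a1 : a = 1
    · simp only [a1, inv_one, mul_one, mul_inv_cancel, cj_one]; exact comm_iff.1 hW
    obtain ⟨ε, r⟩ := RP.ex hAE (inv_mem ha) (inv_ne_one.2 a1)
    have gen : ∀ {P Q : Subgroup G} {u v : G}, P ≤ E ⊔ E :^ x → A :^ u = P :^ a⁻¹ → A :^ v = Q :^ a⁻¹ →
        A :^ (v⁻¹ * y e * u) ≤ C[A] → P :^ (a * (y e * a⁻¹ * (y e)⁻¹)) ≤ C[Q] := by
      intro P Q u v hP hu hv h
      have := cent_cj_le (cent_cj_le h v) a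
      rw [cj_cj A (v⁻¹ * y e * u), show v * (v⁻¹ * y e * u) = y e * u by group, ← cj_cj A u, hu, hv, cj_inv_cj,
        cj_cj, cj_cj] at this
      rwa [← mul_assoc, ← cj_cj, cj_cent (cent_anti hP (comm_iff.1 hW (inv_mem (yW he)))), ← mul_assoc]
    have hε : ε ∈ E ⊔ E :^ x := mem_sup_left r.mb
    have hδ : x * ε * x⁻¹ ∈ E ⊔ E :^ x := mem_sup_right (cj_mem r.mb)
    rw [cj_sup]
    refine sup_le (le_cent_sup (gen le_sup_left r.eq r.eq ?_) (gen le_sup_left r.eq (rp r).eq ?_))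
      (le_cent_sup (gen le_sup_right (rp r).eq r.eq ?_) (gen le_sup_right (rp r).eq (rp r).eq ?_))
    · rw [mul_assoc, (cW (yW he) hε).eq, inv_mul_cancel_left]; exact (yA he).1
    · have : (x * ε * x⁻¹)⁻¹ * y e * ε = y (e * ε⁻¹) := by
        rw [ymul he (inv_mem r.mb), (cW (inv_mem hδ) (yW he)).eq, mul_assoc, (cW (inv_mem hδ) hε).eq]
        simp [y, mul_assoc]
      rw [this]; exact (yA (mul_mem he (inv_mem r.mb))).1
    · have : ε⁻¹ * y e * (x * ε * x⁻¹) = y (e * ε) := by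
        rw [ymul he r.mb, (cW (inv_mem hε) (yW he)).eq, mul_assoc]
      rw [this]; exact (yA (mul_mem he r.mb)).1
    · rw [mul_assoc, (cW (yW he) hδ).eq, inv_mul_cancel_left]; exact (yA he).1
  intro a ha
  have φ : ∀ {e}, e ∈ E → e ≠ 1 → y e * a * (y e)⁻¹ ∈ C[B] := fun he e1 =>
    hB _ (hS.cj hA _) ((yA he).2 e1) (yA he).1 (cj_mem ha)
  obtain ⟨w, hw⟩ : ∃ w, w = a * (y e₁ * a⁻¹ * (y e₁)⁻¹) := ⟨_, rfl⟩
  have hz : Commute ⁅w, y e₂⁆ (y e₃) := by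
    rw [commutatorElement_def]
    exact (commute_of_le (cube a ha e₁ h1) (hw ▸ cj_mem (yW h2)) (yW h3)).mul_left (cW (inv_mem (yW h2)) (yW h3))
  have p1 := φ h1 n1
  have p2 := φ h2 n2
  have p3 := φ h3 n3
  have p12 := φ (mul_mem h2 h1) n12
  have p13 := φ (mul_mem h3 h1) n13
  have p23 := φ (mul_mem h3 h2) n23
  have p123 := φ (mul_mem h3 (mul_mem h2 h1)) n123
  rw [ymul h3 (mul_mem h2 h1)] at p123
  rw [ymul h2 h1] at p12 p123
  rw [ymul h3 h1] at p13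
  rw [ymul h3 h2] at p23
  generalize y e₁ = y₁ at *
  generalize y e₂ = y₂ at *
  generalize y e₃ = y₃ at *
  have h4 := mul_mem (mul_mem (mul_mem (mul_mem p3 (inv_mem p13)) p123) (inv_mem p23))
    (inv_mem (mul_mem (mul_mem (inv_mem p1) p12) (inv_mem p2)))
  convert h4 using 1
  calc a = ⁅w, y₂⁆ * ((y₁ * a * y₁⁻¹)⁻¹ * (y₂ * y₁ * a * (y₂ * y₁)⁻¹) * (y₂ * a * y₂⁻¹)⁻¹)⁻¹ := by
        rw [hw, commutatorElement_def]; group
    _ = y₃ * ⁅w, y₂⁆ * y₃⁻¹ * ((y₁ * a * y₁⁻¹)⁻¹ * (y₂ * y₁ * a * (y₂ * y₁)⁻¹) * (y₂ * a * y₂⁻¹)⁻¹)⁻¹ := by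
        rw [← hz.eq, mul_inv_cancel_right]
    _ = _ := by rw [hw, commutatorElement_def]; group

theorem eq_of_card {G : Type*} [Group G] {A A₀ : Subgroup G} (h : A₀ ≤ A) (h3 : 3 < ENat.card A₀) {a b c d : G}
    (hA : (A : Set G) ⊆ {a, b, c, d}) : A₀ = A := by
  have h1 : (A : Set G).encard ≤ 4 := by
    refine (Set.encard_le_encard hA).trans ((Set.encard_insert_le _ _).trans ?_)
    refine (add_le_add_left ((Set.encard_insert_le _ _).trans (add_le_add_left (Set.encard_insert_le _ _) _)) _).trans ?_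
    rw [Set.encard_singleton]; decide
  exact SetLike.coe_injective (Set.Finite.eq_of_subset_of_encard_le' (Set.finite_of_encard_le_coe h1) h
    (h1.trans (Order.add_one_le_of_lt h3)))


/-- Let S be a class of abstract root subgroups of G containing two different commuting members. Suppose that, in case S is degenerate and every element of every member of S has order at most 3, the following holds: for every A ∈ S and every rank one partner B of A there are subgroups A₀ ≤ A and B₀ ≤ B generating an image of SL₂(k) with central kernel, k a field with at least four elements, A₀ and B₀ being the images of the unitriangular subgroups. Then every rank one pair A, B in S is special. -/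
theorem result {G : Type u} [Group G] {S : Set (Subgroup G)} (hS : Cfsg.IsRootSubgroupClass S)
    (hcomm : ∃ A ∈ S, ∃ C ∈ S, A ≠ C ∧ ⁅A, C⁆ = ⊥)
    (hH : Cfsg.IsDegenerateRootSet S → (∀ A ∈ S, ∀ a ∈ A, 0 < orderOf a ∧ orderOf a ≤ 3) →
      ∀ A ∈ S, ∀ B ∈ Cfsg.rankOnePartners S A, ∃ A₀ B₀ : Subgroup G, A₀ ≤ A ∧ B₀ ≤ B ∧
        ∃ (k : Type u) (_ : Field k), 3 < ENat.card k ∧ Cfsg.IsPSL2PairOver k A₀ B₀)
    {A B : Subgroup G} (hA : A ∈ S) (hB : B ∈ Cfsg.rankOnePartners S A) : Cfsg.IsSpecialRankOnePair A B := by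
  obtain ⟨hS, hc⟩ := hS
  have hF := hS.ni_of_class hc ⟨A, hA, B, hB⟩
  by_cases hd : IsDegenerateRootSet S
  swap
  · simp only [IsDegenerateRootSet, not_forall, not_not, exists_prop] at hd
    exact hS.nd_special hc hF hd hA hB.1 hB.2
  have cs : ∀ P ∈ S, ∀ Q ∈ S, P ≤ C[Q] ∨ IsRankOnePair P Q := fun P hP Q hQ =>
    (hS.cases hP hQ).imp id fun h => h.resolve_right fun h => hd P hP Q hQ (cc_iff.2 h)
  by_cases ht : ∃ P ∈ S, P ≠ A ∧ P ≤ C[A] ∧ IsRankOnePair P B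
  · obtain ⟨P, hP, h1, h2, h3⟩ := ht
    exact hS.tri_special hA hB.1 hP hB.2 h3 (cent_symm h2) h1.symm
  push Not at ht
  obtain ⟨C, hC, E, hE, hne, hAC, hAE, hCE⟩ : ∃ C ∈ S, ∃ E ∈ S, A ≠ C ∧ A ≤ C[C] ∧ IsRankOnePair A E ∧
      IsRankOnePair C E := by
    by_contra hn
    push Not at hn
    obtain ⟨A', hA', C', hC', h1, h2⟩ := hcomm
    obtain ⟨g, rfl⟩ := hc.2 A' hA' A hA
    have key : ∀ P, Relation.ReflTransGen (FAdj S) (A' :^ g) P → P = A' :^ g ∨ IsRankOnePair (A' :^ g) P := by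
      intro P hP
      induction hP with
      | refl => exact Or.inl rfl
      | tail _ h ih =>
        rcases ih with rfl | ih
        · exact Or.inr h.2.2
        · by_contra hcon
          push Not at hcon
          exact hn _ h.2.1 _ h.1 (Ne.symm hcon.1) ((cs _ hA _ h.2.1).resolve_right hcon.2) ih h.2.2.symm'
    obtain ⟨x, e⟩ := hc.2 _ hA _ (hS.cj hC' g)
    rcases key (C' :^ g) (e ▸ hS.conn_cj hA (hF _ hA) x) with h | h
    · exact h1 (H16.cj_inj.1 h).symm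
    · exact h.not_cent (cent_cj_le (comm_eq_bot.1 h2) g)
  have hk := fun e₁ e₂ e₃ h1 h2 h3 n1 n2 n3 n12 n13 n23 n123 => hB.2.not_cent (key hS hA hE hAE hCE hAC hne
    (fun P hP h1 h2 => (cs P hP B hB.1).resolve_right (ht P hP h1 h2)) (e₁ := e₁) (e₂ := e₂) (e₃ := e₃)
    h1 h2 h3 n1 n2 n3 n12 n13 n23 n123)
  have hord : ∀ P ∈ S, ∀ a ∈ P, 0 < orderOf a ∧ orderOf a ≤ 3 := by
    intro P hP a ha
    obtain ⟨g, rfl⟩ := hc.2 E hE P hP
    obtain ⟨e, he, rfl⟩ := ha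
    change 0 < orderOf (g * e * g⁻¹) ∧ orderOf (g * e * g⁻¹) ≤ 3
    rw [orderOf_cj]
    have : ∃ n, 0 < n ∧ n ≤ 3 ∧ e ^ n = 1 := by
      by_contra hn
      push Not at hn
      have h2 : e * e ≠ 1 := by simpa [sq] using hn 2 (by norm_num) (by norm_num)
      have h1 : e ≠ 1 := by simpa using hn 1 (by norm_num) (by norm_num)
      exact hk e e e he he he h1 h1 h1 h2 h2 h2 (by simpa [pow_succ, mul_assoc] using hn 3 (by norm_num) le_rfl)
    obtain ⟨n, h0, h3, hn⟩ := this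
    exact ⟨(isOfFinOrder_iff_pow_eq_one.2 ⟨n, h0, hn⟩).orderOf_pos, (orderOf_le_of_pow_eq_one h0 hn).trans h3⟩
  have h4 : ∀ P ∈ S, ∃ a b c d, (P : Set G) ⊆ {a, b, c, d} := by
    have : ∃ a b c d, (E : Set G) ⊆ {a, b, c, d} := by
      by_contra hn
      push Not at hn
      obtain ⟨e₁, h1, n1⟩ := hS.ex_ne hE
      obtain ⟨e₂, h2, n2⟩ := Set.not_subset.1 (hn 1 e₁⁻¹ 1 1)
      obtain ⟨e₃, h3, n3⟩ := Set.not_subset.1 (hn 1 e₁⁻¹ e₂⁻¹ (e₂ * e₁)⁻¹)
      simp only [Set.mem_insert_iff, Set.mem_singleton_iff, not_or] at n2 n3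
      exact hk e₁ e₂ e₃ h1 h2 h3 n1 n2.1 n3.1 (fun e => n2.2.1 (eq_inv_of_mul_eq_one_left e))
        (fun e => n3.2.1 (eq_inv_of_mul_eq_one_left e)) (fun e => n3.2.2.1 (eq_inv_of_mul_eq_one_left e))
        fun e => n3.2.2.2 (eq_inv_of_mul_eq_one_left e)
    obtain ⟨a, b, c, d, h⟩ := this
    intro P hP
    obtain ⟨g, rfl⟩ := hc.2 E hE P hP
    refine ⟨g * a * g⁻¹, g * b * g⁻¹, g * c * g⁻¹, g * d * g⁻¹, ?_⟩
    rintro _ ⟨e, he, rfl⟩
    rcases h he with rfl | rfl | rfl | rfl <;> simp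
  obtain ⟨A₀, B₀, h1, h2, k, _, h3, h5⟩ := hH hd hord A hA B hB
  obtain ⟨a, b, c, d, h6⟩ := h4 A hA
  obtain ⟨a', b', c', d', h7⟩ := h4 B hB.1
  obtain ⟨e⟩ := psl2_card h5
  have hs := psl2_special h5
  have h8 : 3 < ENat.card A₀ := by rwa [← ENat.card_congr e]
  have h9 : 3 < ENat.card B₀ := by
    obtain ⟨x, -, e'⟩ := hs.1.right_mem
    rwa [e', ← ENat.card_congr (A₀.equivMapOfInjective _ (MulAut.conj x).injective).toEquiv]
  rwa [eq_of_card h1 h8 h6, eq_of_card h2 h9 h7] at hs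

end Cfsg.Agent.S5039
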