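import Cfsg.Statements.S5040
import Cfsg.Agent.H11.R2c

set_option autoImplicit false
open Cfsg

namespace Cfsg.Agent.S5040

open Subgroup H16 H16.H11 Cfsg.IsRankOnePair
open scoped commutatorElement


/-- Let S be a non-degenerate class of abstract root subgroups of G and Δ a weak TI-subset of S. Then the members of Δ commute with one another elementwise. -/
theorem result {G : Type*} [Group G] {S : Set (Subgroup G)} (hS : Cfsg.IsRootSubgroupClass S) (hnd : Cfsg.IsNondegenerateRootSet S)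
    {Δ : Set (Subgroup G)} (hΔ : Cfsg.IsWeakTISubset S Δ) : Cfsg.IsAbelianFamily Δ := by
  obtain ⟨hS, hc⟩ := hS
  have hF := hS.ni_of_class hc hnd.2.1
  obtain ⟨hsub, -, hne, hti⟩ := hΔ
  have h1 : ∀ A ∈ Δ, ∀ E ∈ S, E ≤ C[A] → E ≤ stabF Δ := fun A hA E hE hc => le_stabF fun e he C hC => by
    by_cases e1 : e = 1
    · rwa [e1, cj_one]
    rcases hti e ⟨e1, E, hE, he⟩ with h | h
    · exact h ▸ ⟨C, hC, rfl⟩
    · exact absurd hA (Set.disjoint_left.1 h ⟨A, hA, cj_cent (hc he)⟩)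
  have h2 : ∀ A ∈ Δ, ∀ B ∈ Δ, ¬ IsRankOnePair A B := fun A hA B hB h => hne (hsub.antisymm fun C hC => by
    have := hS.gen_line hc hF hnd.2.2 (hsub hA) (hsub hB) h
      (fun C hC => h1 A hA C hC.1.1 (cent_symm (comm_eq_bot.1 hC.1.2.2))) (h1 B hB B (hsub hB) (hS.cent (hsub hB)))
    obtain ⟨g, rfl⟩ := hc.2 A (hsub hA) C hC
    exact stabF_cj (this ▸ mem_top g) hA)
  intro A hA B hB a ha b hb
  rcases hS.cases (hsub hA) (hsub hB) with h | h | h
  · exact (commute_of_le h ha hb).eq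
  · exact absurd h (h2 A hA B hB)
  · exfalso
    have hne := hS.cc_ne h
    obtain ⟨F, hF', k1, k2, -⟩ := hS.ln_pt hF (hsub hA) h.mem hne
      (by rw [sup_comm]; exact line_ln hS h.mem (hS.cc_line (hsub hA) (hF A (hsub hA)) h)) (hsub hA) le_sup_left h.mem
      le_sup_right hne
    have h3 := hS.mod_rank (hsub hA) (hsub hB) hF' h (by rw [commutator_comm, k2])
    obtain ⟨f, hf, f1⟩ := hS.ex_ne hF'
    exact h2 B hB _ (stabF_cj (h1 A hA F hF' (cent_symm (by simpa only [k2] using k1.cB)) hf) hB)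
      (h3.sup_cj (mem_sup_right hf) fun hn => f1 (h3.eq_one' hf hn)).1

end Cfsg.Agent.S5040
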