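import Cfsg.Statements.S5043
import Cfsg.Agent.H11.ExL

set_option autoImplicit false
open Matrix
open Cfsg

namespace Cfsg.Agent.S5043

open Subgroup H16 H16.H11 Cfsg.IsRankOnePair
open scoped commutatorElement

open Matrix

/-- Let k be a field and n a natural number. In SL_{n+3}(k) (so in every dimension at least 3) the conjugates of the root subgroup of elementary transvections 1 + c E₁₂ (c ∈ k) — that is, the groups of transvections attached to an incident point–hyperplane pair — form a non-degenerate class of abstract k-root subgroups of SL_{n+3}(k) whose graph of rank one pairs is connected. -/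
theorem result (k : Type*) [Field k] (n : ℕ) :
    Cfsg.IsRootSubgroupClass {A : Subgroup (Matrix.SpecialLinearGroup (Fin (n + 3)) k) |
        ∃ g : Matrix.SpecialLinearGroup (Fin (n + 3)) k,
          A = Cfsg.conjBy (Subgroup.closure {t : Matrix.SpecialLinearGroup (Fin (n + 3)) k |
            ∃ c : k, (t : Matrix (Fin (n + 3)) (Fin (n + 3)) k) = Matrix.transvection 0 1 c}) g} ∧
    Cfsg.IsNondegenerateRootSet {A : Subgroup (Matrix.SpecialLinearGroup (Fin (n + 3)) k) |
        ∃ g : Matrix.SpecialLinearGroup (Fin (n + 3)) k,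
          A = Cfsg.conjBy (Subgroup.closure {t : Matrix.SpecialLinearGroup (Fin (n + 3)) k |
            ∃ c : k, (t : Matrix (Fin (n + 3)) (Fin (n + 3)) k) = Matrix.transvection 0 1 c}) g} ∧
    Cfsg.IsKRootSubgroupSet k {A : Subgroup (Matrix.SpecialLinearGroup (Fin (n + 3)) k) |
        ∃ g : Matrix.SpecialLinearGroup (Fin (n + 3)) k,
          A = Cfsg.conjBy (Subgroup.closure {t : Matrix.SpecialLinearGroup (Fin (n + 3)) k |
            ∃ c : k, (t : Matrix (Fin (n + 3)) (Fin (n + 3)) k) = Matrix.transvection 0 1 c}) g} ∧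
    Cfsg.IsConnectedFamily (Cfsg.FAdj {A : Subgroup (Matrix.SpecialLinearGroup (Fin (n + 3)) k) |
        ∃ g : Matrix.SpecialLinearGroup (Fin (n + 3)) k,
          A = Cfsg.conjBy (Subgroup.closure {t : Matrix.SpecialLinearGroup (Fin (n + 3)) k |
            ∃ c : k, (t : Matrix (Fin (n + 3)) (Fin (n + 3)) k) = Matrix.transvection 0 1 c}) g})
      {A : Subgroup (Matrix.SpecialLinearGroup (Fin (n + 3)) k) |
        ∃ g : Matrix.SpecialLinearGroup (Fin (n + 3)) k,
          A = Cfsg.conjBy (Subgroup.closure {t : Matrix.SpecialLinearGroup (Fin (n + 3)) k |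
            ∃ c : k, (t : Matrix (Fin (n + 3)) (Fin (n + 3)) k) = Matrix.transvection 0 1 c}) g} := by
  have h2 : 2 % (n + 3) = 2 := Nat.mod_eq_of_lt (by omega)
  have m01 := single_mem (F := k) (n := n + 3) (i := 0) (j := 1) zero_ne_one
  have m12 := single_mem (F := k) (n := n + 3) (i := 1) (j := 2) (by simp [Fin.ext_iff, h2])
  have m02 := single_mem (F := k) (n := n + 3) (i := 0) (j := 2) (by simp [Fin.ext_iff, h2])
  have hS : {A : Subgroup (Matrix.SpecialLinearGroup (Fin (n + 3)) k) |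
        ∃ g : Matrix.SpecialLinearGroup (Fin (n + 3)) k,
          A = conjBy (Subgroup.closure {t : Matrix.SpecialLinearGroup (Fin (n + 3)) k |
            ∃ c : k, (t : Matrix (Fin (n + 3)) (Fin (n + 3)) k) = Matrix.transvection 0 1 c}) g} =
      TK k (slToMat (n + 3) k) '' XL (n + 3) k := by
    have e : Subgroup.closure {t : Matrix.SpecialLinearGroup (Fin (n + 3)) k |
        ∃ c : k, (t : Matrix (Fin (n + 3)) (Fin (n + 3)) k) = Matrix.transvection 0 1 c} =
        TK k (slToMat (n + 3) k) (single 0 1 1) := by simp [TK, transvection]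
    rw [e]
    ext A
    exact ⟨by rintro ⟨g, rfl⟩; exact famL.cj_mem _ ⟨_, m01, rfl⟩ g, by rintro ⟨x, hx, rfl⟩; exact conjL m01 hx⟩
  rw [hS]
  have h20 : (2 : Fin (n + 3)) ≠ 0 := by simp [Fin.ext_iff, h2]
  have h21 : (2 : Fin (n + 3)) ≠ 1 := by simp [Fin.ext_iff, h2]
  have hc := (famL.cc m01 m12 (by simp [h20]) (by simp [h21, single_mul_single_of_ne _ _ _ _ h20]) (by simpa [h20] using m02)).2
  obtain ⟨y, hy, l, l0, h1, h3⟩ := niL _ m01
  exact ⟨class_of_conn krootL.1 ⟨_, _, m01, rfl⟩ connL, ⟨⟨_, ⟨_, m01, rfl⟩, _, hc.mem, krootL.1.cc_ne hc,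
    comm_eq_bot.2 (cent_symm hc.cA)⟩, ⟨_, ⟨_, m01, rfl⟩, _, (famL.fadj m01 hy l0 h1 h3).2⟩,
    _, ⟨_, m01, rfl⟩, _, ⟨_, m12, rfl⟩, cc_iff.2 hc⟩, krootL, connL⟩

end Cfsg.Agent.S5043
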