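import Cfsg.Statements.S5045
import Cfsg.Agent.H11.RIa

set_option autoImplicit false
open Cfsg

namespace Cfsg.Agent.S5045

open Subgroup H16 H16.H11 Cfsg.IsRankOnePair
open scoped commutatorElement


/-- Let G be a finite group generated by a set D of root involutions, and W the set of members of D whose product with every other member of D has even order or is trivial (the isolated vertices of the odd-order-product graph on D). Then W is conjugation-invariant and generates a normal 2-subgroup of G meeting D in exactly W; the commutator of two members of D lying in different connected components of that graph, each with more than one member, lies in the subgroup generated by W; and for a in such a component, every member of D commuting with a, different from a and with product with a in D, lies in that component or in W. -/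
theorem result {G : Type*} [Group G] [Finite G] {D : Set G} (hD : Cfsg.IsRootInvolutionSet D) :
    (∀ w ∈ {w | Cfsg.IsIsolatedElem (Cfsg.OddAdj D) D w}, ∀ g : G, g * w * g⁻¹ ∈ {w | Cfsg.IsIsolatedElem (Cfsg.OddAdj D) D w}) ∧
    (Subgroup.closure {w | Cfsg.IsIsolatedElem (Cfsg.OddAdj D) D w}).Normal ∧
    IsPGroup 2 ↥(Subgroup.closure {w | Cfsg.IsIsolatedElem (Cfsg.OddAdj D) D w}) ∧
    (Subgroup.closure {w | Cfsg.IsIsolatedElem (Cfsg.OddAdj D) D w} : Set G) ∩ D = {w | Cfsg.IsIsolatedElem (Cfsg.OddAdj D) D w} ∧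
    (∀ a ∈ D, ∀ b ∈ D, (∃ a' ∈ Cfsg.elemComponentOf (Cfsg.OddAdj D) D a, a' ≠ a) →
      (∃ b' ∈ Cfsg.elemComponentOf (Cfsg.OddAdj D) D b, b' ≠ b) →
      Cfsg.elemComponentOf (Cfsg.OddAdj D) D a ≠ Cfsg.elemComponentOf (Cfsg.OddAdj D) D b →
        a * b * a⁻¹ * b⁻¹ ∈ Subgroup.closure {w | Cfsg.IsIsolatedElem (Cfsg.OddAdj D) D w}) ∧
    (∀ a ∈ D, (∃ a' ∈ Cfsg.elemComponentOf (Cfsg.OddAdj D) D a, a' ≠ a) →
      Cfsg.productPartners D a ⊆ Cfsg.elemComponentOf (Cfsg.OddAdj D) D a ∪ {w | Cfsg.IsIsolatedElem (Cfsg.OddAdj D) D w}) := by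
  have h := ri_of hD
  have hG : ∀ g : G, g ∈ closure D := fun g => hD.generates ▸ mem_top g
  set W : Set G := {w | IsIsolatedElem (OddAdj D) D w} with hW
  have iso : ∀ {w}, w ∈ W ↔ w ∈ D ∧ ∀ x ∈ D, ¬ Od w x := fun {w} => and_congr_right fun hw =>
    ⟨fun h1 x hx ho => (h1 x).1 ⟨hw, hx, ho⟩,
      fun h1 x => ⟨fun h2 => h1 x h2.2.1 h2.2.2, fun h2 => h1 x h2.1 (Od.symm h2.2.2)⟩⟩
  have h1 : ∀ w ∈ W, ∀ g : G, g * w * g⁻¹ ∈ W := fun w hw g =>
    iso.2 ⟨h.conj (hG g) (iso.1 hw).1, fun x hx ho => (iso.1 hw).2 _ (h.conj (hG g⁻¹) hx)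
      (by simpa [mul_assoc] using ho.cj g⁻¹)⟩
  have h2 : (closure W).Normal := ⟨fun n hn g => by
    induction hn using closure_induction with
    | mem s hs => exact subset_closure (h1 s hs g)
    | one => simp
    | mul s t _ _ hs ht => rw [← conj_mul']; exact mul_mem hs ht
    | inv s _ hs => simpa [mul_assoc] using inv_mem hs⟩
  have h3 : IsPGroup 2 (closure W) := h.pgroup_closure (fun w hw => (iso.1 hw).1) (fun a ha b _ => h1 a ha b)
    fun a ha b hb => (iso.1 ha).2 b (iso.1 hb).1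
  have nb : ∀ {a}, (∃ a' ∈ elemComponentOf (OddAdj D) D a, a' ≠ a) → ∃ x ∈ D, Od a x := by
    rintro a ⟨a', h1, h2⟩
    rcases h1.2.cases_head with h3 | ⟨x, h3, -⟩
    · exact absurd h3.symm h2
    · exact ⟨x, h3.2.1, h3.2.2⟩
  have sy : ∀ {a b : G}, Relation.ReflTransGen (OddAdj D) a b → Relation.ReflTransGen (OddAdj D) b a :=
    rtg_symm fun _ _ => RI.adj_symm
  have six : ∀ a ∈ D, (∃ x ∈ D, Od a x) → ∀ b ∈ D, Commute a b → a * b ∈ D →
      Relation.ReflTransGen (OddAdj D) a b ∨ b ∈ W := by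
    rintro a ha ⟨x, hx, ho⟩ b hb hab he
    by_cases hbW : ∀ y ∈ D, ¬ Od b y
    · exact Or.inr (iso.2 ⟨hb, hbW⟩)
    push Not at hbW
    obtain ⟨y, hy, ho'⟩ := hbW
    exact Or.inl (h.conn_line ha hb hab he hx ho hy ho')
  refine ⟨h1, h2, h3, ?_, fun a ha b hb h4 h5 h6 => ?_, fun a ha h4 b hb => ?_⟩
  · ext w
    refine ⟨fun hw => iso.2 ⟨hw.2, fun x hx => ?_⟩, fun hw => ⟨subset_closure hw, (iso.1 hw).1⟩⟩
    refine h.not_od_of_pgroup (P := closure W ⊔ zpowers x) (h3.to_sup_of_normal_left ?_) (mem_sup_left hw.1)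
      (mem_sup_right (mem_zpowers x)) hx
    exact IsPGroup.of_card (n := 1) (by rw [Nat.card_zpowers, hD.orderOf_eq x hx]; rfl)
  · have ne : ¬ Relation.ReflTransGen (OddAdj D) a b := fun h7 => h6 (by
      ext z
      exact and_congr_right fun _ => ⟨(sy h7).trans, h7.trans⟩)
    rcases h.cases ha hb with h7 | h7 | h7
    · rw [h7.eq]; simp
    · exact absurd (.single ⟨ha, hb, h7⟩) ne
    have hc := h.v4_mem ha hb h7
    rcases six a ha (nb h4) _ hc (h.v4_left ha hb h7).symm (h.v4_mul ha hb h7) with h8 | h8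
    · rcases six b hb (nb h5) _ hc (h.v4_right ha hb h7).symm (h.v4_swap ha hb h7 ▸ h.v4_mul hb ha h7.symm) with h9 | h9
      · exact absurd (h8.trans (sy h9)) ne
      · exact subset_closure h9
    · exact subset_closure h8
  · rcases six a ha (nb h4) b hb.1.1 hb.1.2.1.symm (hb.1.2.1 ▸ hb.2) with h5 | h5
    · exact Or.inl ⟨hb.1.1, h5⟩
    · exact Or.inr h5

end Cfsg.Agent.S5045
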