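import Cfsg.Statements.S5046
import Cfsg.Agent.H11.RIb

set_option autoImplicit false
open Cfsg

namespace Cfsg.Agent.S5046

open Subgroup H16 H16.H11 Cfsg.IsRankOnePair
open scoped commutatorElement


/-- Let G be a finite group generated by a set D of root involutions whose odd-order-product graph is connected, and d ∈ D. Then the members e of D with the same commuting members as d are exactly those for which the union of the commuting members of d and the members whose product with d has order 4 equals the corresponding union for e. -/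
theorem result {G : Type*} [Group G] [Finite G] {D : Set G} (hD : Cfsg.IsRootInvolutionSet D)
    (hc : Cfsg.IsConnectedSet (Cfsg.OddAdj D) D) {d : G} (hd : d ∈ D) :
    Cfsg.sameCommutingClass D d =
      {e | e ∈ D ∧ Cfsg.commutingMembers D d ∪ Cfsg.fourPartners D d = Cfsg.commutingMembers D e ∪ Cfsg.fourPartners D e} := by
  have h := ri_of hD
  ext e
  rw [h.same_iff (h.cls_of_conn hc) hd]
  refine and_congr_right fun he => ?_
  have key : ∀ {a x : G}, a ∈ D → (x ∈ commutingMembers D a ∪ fourPartners D a ↔ x ∈ D ∧ x ∉ OdS D a) := by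
    intro a x ha
    constructor
    · rintro (h1 | h1)
      · exact ⟨h1.1, fun h2 => h.od_not_comm ha h1.1 h2.2 h1.2.symm⟩
      · exact ⟨h1.1, fun h2 => h2.2.not_v4 h1.2⟩
    · rintro ⟨h1, h2⟩
      rcases h.cases ha h1 with h3 | h3 | h3
      · exact Or.inl ⟨h1, h3.symm⟩
      · exact absurd ⟨h1, h3⟩ h2
      · exact Or.inr ⟨h1, h3⟩
  constructor
  · intro h1
    ext x
    rw [key hd, key he, h1]
  · intro h1
    ext x
    have h2 := Set.ext_iff.1 h1 x
    rw [key hd, key he] at h2
    constructor
    · intro h3; by_contra h4; exact (h2.1 ⟨h3.1, h4⟩).2 h3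
    · intro h3; by_contra h4; exact (h2.2 ⟨h3.1, h4⟩).2 h3

end Cfsg.Agent.S5046
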