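import Cfsg.Statements.S5048
import Cfsg.Agent.H11.RIc

set_option autoImplicit false
open Cfsg

namespace Cfsg.Agent.S5048

open Subgroup H16 H16.H11 Cfsg.IsRankOnePair
open scoped commutatorElement


/-- Let G be a finite group generated by a set D of root involutions whose odd-order-product graph is connected, with some product of two different commuting members of D again in D. Then the largest solvable normal subgroup of G is the preimage of the centre of G/O₂(G), and the quotient of G by it is a simple group. -/
theorem result {G : Type*} [Group G] [Finite G] {D : Set G} (hD : Cfsg.IsRootInvolutionSet D)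
    (hc : Cfsg.IsConnectedSet (Cfsg.OddAdj D) D) (hDD : (D ∩ Cfsg.commutingProducts D).Nonempty) :
    Cfsg.solvableRadical G = Cfsg.twoZCore G ∧ IsSimpleGroup (G ⧸ Cfsg.twoZCore G) := by
  have h := ri_of hD
  have hcl := h.cls_of_conn hc
  have hl := h.lined hcl hDD
  obtain ⟨d, hd, -⟩ := hDD
  refine ⟨le_antisymm (sSup_le fun N hN => ?_) (le_sSup ⟨inferInstance, twoZCore_solvable⟩), simple_quot hD hcl hl hd⟩
  have := hN.1
  rcases H16.H11.normal_cases hD hcl hl N with h1 | h1
  · exact absurd (h1 ▸ hN.2) (not_solvable_top hD hcl hl hd)
  · exact h1

end Cfsg.Agent.S5048
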