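import Cfsg.Statements.S5049
import Cfsg.Agent.H11.RIa
import Cfsg.Agent.H1.Cores

set_option autoImplicit false
open Cfsg

namespace Cfsg.Agent.S5049

open Subgroup H16 H16.H11 Cfsg.IsRankOnePair
open scoped commutatorElement


/-- Let G be a finite group generated by a set D of odd transpositions (root involutions with no product of order 4), Q = O₂(G), and for a ∈ D let Q_a be the commutator subgroup of Q with a. Then every member of D commuting with a centralizes Q_a; and for b ∈ D with ab of odd order greater than 1, the centralizer of ab in Q is the intersection of the centralizers of a and b in Q. -/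
theorem result {G : Type*} [Group G] [Finite G] {D : Set G} (hD : Cfsg.IsOddTranspositionSet D) {a : G} (ha : a ∈ D) :
    (∀ e ∈ Cfsg.commutingMembers D a, ∀ q ∈ ⁅Cfsg.pCore 2 G, Subgroup.zpowers a⁆, e * q = q * e) ∧
    (∀ b ∈ Cfsg.oddPartners D a,
      Cfsg.pCore 2 G ⊓ Subgroup.centralizer {a * b} = Cfsg.pCore 2 G ⊓ Subgroup.centralizer {a} ⊓ Subgroup.centralizer {b}) := by
  have h := ri_of hD.1
  have cm : ∀ {a e q : G}, a ∈ D → e ∈ D → Commute e a → q ∈ pCore 2 G → Commute e (q * a * q⁻¹) := by
    intro a e q ha he hc hq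
    have ha' := hD.1.conj_mem a ha q
    rcases h.cases he ha' with h1 | h1 | h1
    · exact h1
    · refine absurd h1 (h.not_od_of_pgroup (P := pCore 2 G ⊔ closure {e, a})
        (IsPGroup.to_sup_of_normal_left (H1.isPGroup_pCore 2) (h.pgroup_pair he ha fun ho => h.od_not_comm he ha ho hc))
        (mem_sup_right (subset_closure (Or.inl rfl))) ?_ ha')
      exact mul_mem (mul_mem (mem_sup_left hq) (mem_sup_right (subset_closure (Or.inr rfl)))) (mem_sup_left (inv_mem hq))
    · exact absurd h1 (hD.2 _ he _ ha')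
  refine ⟨fun e he q hq => ?_, fun b hb => le_antisymm (fun q hq => ?_) fun q hq => ⟨hq.1.1, ?_⟩⟩
  · have : ⁅pCore 2 G, zpowers a⁆ ≤ centralizer {e} := by
      rw [commutator_le]
      rintro q hq _ ⟨k, rfl⟩
      rw [mem_centralizer_singleton_iff, commutatorElement_def, mul_assoc (q * _), ← mul_assoc (q * _)]
      have h1 : Commute e a := he.2
      have h2 := (cm ha he.1 he.2 hq).zpow_right k
      rw [conj_zpow] at h2
      exact (h2.mul_right (h1.zpow_right k).inv_right).symm
    exact (mem_centralizer_singleton_iff.1 (this hq)).symm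
  · have h1 : Commute q (a * b) := mem_centralizer_singleton_iff.1 hq.2
    have ca := cm ha ha rfl hq.1
    have cb := cm hb.1 hb.1 rfl hq.1
    have e : a * (q * a * q⁻¹) = b * (q * b * q⁻¹) := by
      have h2 := cj_eq h1
      rw [← conj_mul'] at h2
      rw [eq_mul_inv_of_mul_eq h2, h.inv (hD.1.conj_mem b hb.1 q), mul_assoc a b, h.mul_mul ha]
    have h3 := h.cent_mul ha hb.1 ⟨Ne.symm hb.2.1, hb.2.2⟩ ((Commute.refl a).mul_left ca.symm)
      (e ▸ (Commute.refl b).mul_left cb.symm) (by
        rw [ca.eq, mul_assoc, h.sq a ha, mul_one]; exact hD.1.conj_mem a ha q)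
    refine ⟨⟨hq.1, mem_centralizer_singleton_iff.2 ?_⟩, mem_centralizer_singleton_iff.2 ?_⟩
    · exact H6.conj_eq_iff_commute.1 (by rw [eq_inv_of_mul_eq_one_right h3, h.inv ha])
    · exact H6.conj_eq_iff_commute.1 (by rw [eq_inv_of_mul_eq_one_right (e.symm.trans h3), h.inv hb.1])
  · exact mem_centralizer_singleton_iff.2 (Commute.mul_right (mem_centralizer_singleton_iff.1 hq.1.2)
      (mem_centralizer_singleton_iff.1 hq.2))

end Cfsg.Agent.S5049
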