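import Cfsg.Statements.S5057
import Cfsg.Agent.H11.RIa
import Cfsg.Agent.H18.Small

set_option autoImplicit false
open Cfsg

namespace Cfsg.Agent.S5057

open Subgroup H16 H16.H11 Cfsg.IsRankOnePair
open scoped commutatorElement

theorem key : ∀ g : Equiv.Perm (Fin 6), Equiv.Perm.sign g = 1 → g * g = 1 →
    (H18.t6.1 * g) ^ 2 = 1 ∨ (H18.t6.1 * g) ^ 3 = 1 ∨ (H18.t6.1 * g) ^ 4 = 1 ∨ (H18.t6.1 * g) ^ 5 = 1 := by
  decide +kernel

theorem cls {t : alternatingGroup (Fin 6)} (ht : orderOf t = 2) : ∃ g, t = g * H18.t6 * g⁻¹ := by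
  obtain ⟨g, rfl⟩ := (H18.dh_bsw H18.a6_dh le_rfl H18.ord_t6 H18.a6_no_two).cls t ht
  exact ⟨g, rfl⟩

theorem key2 {d e : alternatingGroup (Fin 6)} (hd : orderOf d = 2) (he : orderOf e = 2) :
    orderOf (d * e) ∣ 4 ∨ orderOf (d * e) ∣ 3 ∨ orderOf (d * e) ∣ 5 := by
  obtain ⟨g, rfl⟩ := cls hd
  have h1 : orderOf (g⁻¹ * e * g⁻¹⁻¹) = 2 := by rw [orderOf_cj, he]
  have h2 := key (g⁻¹ * e * g⁻¹⁻¹).1 (g⁻¹ * e * g⁻¹⁻¹).2 (congrArg Subtype.val (H6.ord2_mul_self h1))
  rw [show g * H18.t6 * g⁻¹ * e = g * (H18.t6 * (g⁻¹ * e * g⁻¹⁻¹)) * g⁻¹ by group, orderOf_cj]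
  simp only [orderOf_dvd_iff_pow_eq_one]
  rcases h2 with h2 | h2 | h2 | h2
  · refine Or.inl ?_
    rw [show 4 = 2 * 2 from rfl, pow_mul, show (H18.t6 * (g⁻¹ * e * g⁻¹⁻¹)) ^ 2 = 1 from Subtype.ext h2, one_pow]
  · exact Or.inr (Or.inl (Subtype.ext h2))
  · exact Or.inl (Subtype.ext h2)
  · exact Or.inr (Or.inr (Subtype.ext h2))


/-- The involutions of the alternating group of degree 6 form a class of root involutions (a single conjugacy class of involutions generating the group, any two of which commute, have product of odd order, or have product of order 4 whose square is again an involution of the class), and the product of any two of them has order at most 5. -/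
theorem result :
    Cfsg.IsRootInvolutionClass {g : ↥(alternatingGroup (Fin 6)) | orderOf g = 2} ∧
    ∀ d ∈ {g : ↥(alternatingGroup (Fin 6)) | orderOf g = 2}, ∀ e ∈ {g : ↥(alternatingGroup (Fin 6)) | orderOf g = 2},
      orderOf (d * e) ≤ 5 := by
  refine ⟨⟨⟨fun d hd => hd, ?_, fun d hd g => (orderOf_cj d g).trans hd, fun a ha b hb => ?_⟩, ⟨_, H18.ord_t6⟩,
    fun a ha b hb => ?_⟩, fun d hd e he => ?_⟩
  · have : (closure {g : alternatingGroup (Fin 6) | orderOf g = 2}).Normal := ⟨fun n hn g => by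
      induction hn using closure_induction with
      | mem s hs => exact subset_closure ((orderOf_cj s g).trans hs)
      | one => simp
      | mul s t _ _ hs ht => rw [← conj_mul']; exact mul_mem hs ht
      | inv s _ hs => simpa [mul_assoc] using inv_mem hs⟩
    refine (this.eq_bot_or_eq_top).resolve_left fun e => H6.ord2_ne_one H18.ord_t6 ?_
    exact (e ▸ subset_closure H18.ord_t6 : H18.t6 ∈ (⊥ : Subgroup _))
  · rcases key2 ha hb with h | h | h
    · by_cases h4 : orderOf (a * b) = 4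
      · exact Or.inr (Or.inr ⟨h4, show orderOf _ = 2 by rw [orderOf_pow, h4]; rfl⟩)
      · have : orderOf (a * b) ∣ 2 := by
          rcases (Nat.dvd_prime_pow (p := 2) (m := 2) Nat.prime_two).1 h with ⟨k, hk, e⟩
          interval_cases k <;> simp_all
        rw [orderOf_dvd_iff_pow_eq_one, pow_two] at this
        left
        rw [eq_inv_of_mul_eq_one_left this, mul_inv_rev, inv_eq_of_mul_eq_one_right (H6.ord2_mul_self ha),
          inv_eq_of_mul_eq_one_right (H6.ord2_mul_self hb)]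
    · exact Or.inr (Or.inl (Odd.of_dvd_nat (by decide) h))
    · exact Or.inr (Or.inl (Odd.of_dvd_nat (by decide) h))
  · obtain ⟨g, rfl⟩ := cls ha
    obtain ⟨k, rfl⟩ := cls hb
    exact ⟨k * g⁻¹, by group⟩
  · rcases key2 hd he with h | h | h <;> exact (Nat.le_of_dvd (by norm_num) h).trans (by norm_num)

end Cfsg.Agent.S5057
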