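import Cfsg.Statements.S5058
import Cfsg.Agent.H11.ExL
import Cfsg.Agent.H6.Inv

set_option autoImplicit false
open Matrix
open Cfsg

namespace Cfsg.Agent.S5058

open Subgroup H16 H16.H11 Cfsg.IsRankOnePair
open scoped commutatorElement

open Matrix H4
open scoped MatrixGroups

theorem odd_sl2 {F : Type*} [Field F] [Finite F] [CharP F 2] {a b : F} (ha : a ≠ 0) (hb : b ≠ 0) :
    Odd (orderOf (upT a * loT b)) := by
  have h2 : ∀ c : F, c + c = 0 := CharTwo.add_self_eq_zero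
  refine Nat.not_even_iff_odd.1 fun he => ?_
  obtain ⟨h1, h3, h4⟩ := H6.exists_central_inv (x := upT a) (y := loT b) (by rw [← upT_add, h2]; exact sl2_ext rfl rfl rfl rfl)
    (by rw [← loT_add, h2]; exact sl2_ext rfl rfl rfl rfl) he
  generalize (upT a * loT b) ^ (orderOf (upT a * loT b) / 2) = w at h1 h3 h4
  have e1 := congrArg (·.1 0 0) h3.eq
  have e2 := congrArg (·.1 0 1) h3.eq
  have e3 := congrArg (·.1 0 0) h4.eq
  have e4 := w.2
  simp only [sl2_mul_apply, coe_upT, coe_loT, det_fin_two] at e1 e2 e3 e4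
  simp [ha, hb, mul_comm, add_comm] at e1 e2 e3
  have e6 : w.1 0 0 = w.1 1 1 := mul_left_cancel₀ ha (by linear_combination e2)
  have e5 : w.1 0 0 = 1 := by
    have : (w.1 0 0 - 1) ^ 2 = 0 := by rw [e1, e3, ← e6] at e4; linear_combination e4 + h2 1 - h2 (w.1 0 0)
    exact sub_eq_zero.1 (pow_eq_zero_iff two_ne_zero |>.1 this)
  exact H6.ord2_ne_one h1 (sl2_ext e5 e3 e1 (e6 ▸ e5))


/-- Let F be a finite field of characteristic 2 and n a natural number. Then the transvections of SL_{n+3}(F) (so in every dimension at least 3) (the conjugates of the elementary matrices 1 + c E₁₂, c ≠ 0) form a class of root involutions of SL_{n+3}(F); when F has two elements they form a class of {3,4}⁺-transpositions (every product of odd order has order 1 or 3). -/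
theorem result (F : Type*) [Field F] [Fintype F] [CharP F 2] (n : ℕ) :
    Cfsg.IsRootInvolutionClass {t : Matrix.SpecialLinearGroup (Fin (n + 3)) F | ∃ c : F, c ≠ 0 ∧
        ∃ g : Matrix.SpecialLinearGroup (Fin (n + 3)) F, ((g⁻¹ * t * g : Matrix.SpecialLinearGroup (Fin (n + 3)) F) :
          Matrix (Fin (n + 3)) (Fin (n + 3)) F) = Matrix.transvection 0 1 c} ∧
    (Fintype.card F = 2 → Cfsg.IsThreeFourPlusTranspositionSet {t : Matrix.SpecialLinearGroup (Fin (n + 3)) F | ∃ c : F, c ≠ 0 ∧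
        ∃ g : Matrix.SpecialLinearGroup (Fin (n + 3)) F, ((g⁻¹ * t * g : Matrix.SpecialLinearGroup (Fin (n + 3)) F) :
          Matrix (Fin (n + 3)) (Fin (n + 3)) F) = Matrix.transvection 0 1 c}) := by
  have m01 := single_mem (F := F) (n := n + 3) (i := 0) (j := 1) zero_ne_one
  have h := famL (F := F) (n := n + 3)
  have h2 : ∀ x : Matrix (Fin (n + 3)) (Fin (n + 3)) F, x + x = 0 := fun x => by ext; exact CharTwo.add_self_eq_zero _
  have cj : ∀ t g : SL(n + 3, F), ∀ x, slToMat _ F t = 1 + x →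
      slToMat _ F (g * t * g⁻¹) = 1 + slToMat _ F g * x * slToMat _ F g⁻¹ := fun t g x e => by
    rw [map_mul, map_mul, e, mul_add, add_mul, mul_one, ← map_mul, mul_inv_cancel, map_one]
  have hD : ∀ t : SL(n + 3, F), (∃ c : F, c ≠ 0 ∧ ∃ g : SL(n + 3, F), ((g⁻¹ * t * g : SL(n + 3, F)) :
      Matrix (Fin (n + 3)) (Fin (n + 3)) F) = Matrix.transvection 0 1 c) ↔ ∃ x ∈ XL (n + 3) F, slToMat _ F t = 1 + x := by
    refine fun t => ⟨fun ⟨c, c0, g, e⟩ => ⟨_, h.cj _ (XL_smul m01 c0) g, ?_⟩, fun ⟨x, hx, e⟩ => ?_⟩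
    · rw [← cj (g⁻¹ * t * g) g _ (e.trans (by simp [transvection]))]; congr 1; group
    · obtain ⟨g, hg⟩ := conjL m01 hx
      have ht : t ∈ TK F (slToMat _ F) x := Subgroup.subset_closure ⟨1, by simpa using e⟩
      obtain ⟨c, hc⟩ := (mem_TK (h.sq _ m01)).1 (mem_cj.1 (hg ▸ ht))
      exact ⟨c, h.ne_zero m01 hc fun e1 => h.ne_one hx (c := 1) (by simpa using e) one_ne_zero (by
        rw [← conj_eq_one_iff (g := g⁻¹), inv_inv, e1]), g, hc.trans (by simp [transvection])⟩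
  simp only [hD]
  have o2 : ∀ t : SL(n + 3, F), ∀ x ∈ XL (n + 3) F, slToMat _ F t = 1 + x → orderOf t = 2 := fun t x hx e =>
    H6.ord2_of (h.inj (by rw [map_mul, e, map_one, mul_add, add_mul, add_mul, h.sq x hx]; simp [add_assoc, h2]))
      (h.ne_one hx (c := 1) (by simpa using e) one_ne_zero)
  have pr : ∀ a b : SL(n + 3, F), ∀ x ∈ XL (n + 3) F, ∀ y ∈ XL (n + 3) F, slToMat _ F a = 1 + x → slToMat _ F b = 1 + y →
      a * b = b * a ∨ (∃ c d : F, c ≠ 0 ∧ d ≠ 0 ∧ orderOf (a * b) ∣ orderOf (upT c * loT d)) ∨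
        (orderOf (a * b) = 4 ∧ ∃ z ∈ XL (n + 3) F, slToMat _ F ((a * b) ^ 2) = 1 + z) := by
    intro a b x hx y hy ea eb
    have ha : a ∈ TK F (slToMat _ F) x := Subgroup.subset_closure ⟨1, by simpa using ea⟩
    have hb : b ∈ TK F (slToMat _ F) y := Subgroup.subset_closure ⟨1, by simpa using eb⟩
    rcases h.tri x hx y hy with e | ⟨l, l0, h3, h4⟩ | ⟨h3, h4, h5⟩
    · exact .inl (commute_of_le ((h.cent_iff hx hy).2 e) ha hb).eq
    · obtain ⟨φ, -, -, h5, h6⟩ := h.psl2 hx hy l0 h3 h4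
      obtain ⟨_, h7, rfl⟩ := h5.ge ha
      obtain ⟨_, h8, rfl⟩ := h6.ge hb
      obtain ⟨c, rfl⟩ := mem_upper.1 h7
      obtain ⟨d, rfl⟩ := mem_lower.1 h8
      refine .inr (.inl ⟨c, d, ?_, ?_, map_mul φ _ _ ▸ orderOf_map_dvd φ _⟩)
      · rintro rfl; exact H6.ord2_ne_one (o2 _ x hx ea) (by rw [← map_one φ]; exact congrArg φ (sl2_ext rfl rfl rfl rfl))
      · rintro rfl; exact H6.ord2_ne_one (o2 _ y hy eb) (by rw [← map_one φ]; exact congrArg φ (sl2_ext rfl rfl rfl rfl))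
    · have e := h.comm_val hx hy h3 h4 (a := a) (b := b) (c := 1) (d := 1) (by simpa using ea) (by simpa using eb)
      rw [commutatorElement_def, H6.ord2_inv (o2 a x hx ea), H6.ord2_inv (o2 b y hy eb), mul_assoc, ← sq, mul_one,
        one_smul] at e
      have h6 := o2 _ _ h5 e
      exact .inr (.inr ⟨orderOf_eq_prime_pow (p := 2) (n := 1) (by simpa using H6.ord2_ne_one h6) (by
        rw [show 2 ^ (1 + 1) = 2 + 2 from rfl, pow_add]; exact H6.ord2_mul_self h6), _, h5, e⟩)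
  have hR : IsRootInvolutionSet {t : SL(n + 3, F) | ∃ x ∈ XL (n + 3) F, slToMat _ F t = 1 + x} := by
    refine ⟨fun t ⟨x, hx, e⟩ => o2 t x hx e, H22.eq_top_of_transvection_mem _ fun i j hij c => ?_,
      fun t ⟨x, hx, e⟩ g => ⟨_, h.cj x hx g, cj t g x e⟩, fun a ⟨x, hx, ea⟩ b ⟨y, hy, eb⟩ => (pr a b x hx y hy ea eb).imp_right
        (Or.imp_left fun ⟨c, d, c0, d0, h⟩ => (odd_sl2 c0 d0).of_dvd_nat h)⟩
    by_cases c0 : c = 0
    · rw [c0, SpecialLinearGroup.transvection_coeff_zero]; exact one_mem _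
    · exact Subgroup.subset_closure ⟨_, XL_smul (single_mem hij) c0, by simp [SpecialLinearGroup.transvection_coe]⟩
  refine ⟨⟨hR, ⟨SpecialLinearGroup.transvection zero_ne_one 1, _, m01, by simp [SpecialLinearGroup.transvection_coe]⟩,
    fun a ha b hb => ?_⟩, fun hF => ⟨hR, fun a ⟨x, hx, ea⟩ b ⟨y, hy, eb⟩ ho => ?_⟩⟩
  · obtain ⟨c, c0, g, e⟩ := (hD a).2 ha
    obtain ⟨d, d0, g', e'⟩ := (hD b).2 hb
    have h02 : (0 : Fin (n + 3)) ≠ 2 := by simp [Fin.ext_iff, Nat.mod_eq_of_lt]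
    have h12 : (1 : Fin (n + 3)) ≠ 2 := by simp [Fin.ext_iff, Nat.mod_eq_of_lt]
    obtain ⟨x, hx⟩ : ∃ x : SL(n + 3, F), x.1 = diagonal fun k => if k = 0 then d / c else if k = 2 then (d / c)⁻¹ else 1 :=
      ⟨_, SpecialLinearGroup.diag2n_coe h02 (d / c) (div_ne_zero d0 c0)⟩
    have k : x * (g⁻¹ * a * g) = (g'⁻¹ * b * g') * x := Subtype.ext (show x.1 * (g⁻¹ * a * g).1 = (g'⁻¹ * b * g').1 * x.1 by
      rw [e, e', hx]
      rw [transvection, transvection, mul_add, add_mul, mul_one, one_mul]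
      congr 1
      ext i j
      rw [diagonal_mul, mul_diagonal, single_apply, single_apply]
      by_cases hh : 0 = i ∧ 1 = j
      · obtain ⟨rfl, rfl⟩ := hh
        simp [h12, c0]
      · simp [hh])
    exact ⟨g' * x * g⁻¹, by
      rw [show g' * x * g⁻¹ * a * (g' * x * g⁻¹)⁻¹ = g' * (x * (g⁻¹ * a * g)) * x⁻¹ * g'⁻¹ by group, k]; group⟩
  · rcases pr a b x hx y hy ea eb with e | ⟨c, d, c0, d0, h3⟩ | ⟨e, -⟩
    · refine .inl (orderOf_eq_one_iff.2 (H6.eq_one_of_odd_of_sq ho ?_))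
      rw [mul_assoc, ← mul_assoc b, ← e, mul_assoc, H6.ord2_mul_self (o2 b y hy eb), mul_one, H6.ord2_mul_self (o2 a x hx ea)]
    · have one : ∀ c : F, c ≠ 0 → c = 1 := fun c c0 => by simpa [hF] using FiniteField.pow_card_sub_one_eq_one c c0
      refine (Nat.dvd_prime Nat.prime_three).1 (h3.trans (orderOf_dvd_of_pow_eq_one ?_))
      rw [one c c0, one d d0]
      apply sl2_ext <;> simp [pow_succ, sl2_mul_apply, coe_upT, coe_loT, CharTwo.add_self_eq_zero]
    · rw [e] at ho; exact absurd ho (by decide)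

end Cfsg.Agent.S5058
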