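import Cfsg.Statements.S5060
import Cfsg.Agent.H11.SL2Gen
import Cfsg.Agent.H11.R1a

set_option autoImplicit false
open Cfsg

namespace Cfsg.Agent.S5060

open Subgroup H16 H16.H11 Cfsg.IsRankOnePair
open scoped commutatorElement


/-- Let k ⊆ K be fields with the characteristic of k not 2 and k not of order 3, and let α ∈ K be a non-zero element algebraic over k. Then the subgroup of SL₂(K) generated by the upper unitriangular matrices with entry c and the lower unitriangular matrices with entry cα, c ranging over k, is exactly the group of matrices of SL₂(K) with all entries in k(α). -/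
theorem result {k K : Type*} [Field k] [Field K] [Algebra k K] (hk2 : ringChar k ≠ 2) (hk3 : Nat.card k ≠ 3)
    (α : K) (hα : IsAlgebraic k α) (hα0 : α ≠ 0) :
    (Subgroup.closure ({g : Matrix.SpecialLinearGroup (Fin 2) K | ∃ c : k, (g : Matrix (Fin 2) (Fin 2) K) = !![1, algebraMap k K c; 0, 1]} ∪
        {g : Matrix.SpecialLinearGroup (Fin 2) K | ∃ c : k, (g : Matrix (Fin 2) (Fin 2) K) = !![1, 0; algebraMap k K c * α, 1]}) :
      Set (Matrix.SpecialLinearGroup (Fin 2) K)) =
    {g : Matrix.SpecialLinearGroup (Fin 2) K | ∀ i j : Fin 2, (g : Matrix (Fin 2) (Fin 2) K) i j ∈ IntermediateField.adjoin k ({α} : Set K)} := by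
  let E := IntermediateField.adjoin k ({α} : Set K)
  let pb := IntermediateField.adjoin.powerBasis hα.isIntegral
  let F := Matrix.SpecialLinearGroup.map (n := Fin 2) (algebraMap E K)
  have hr : ∀ g : Matrix.SpecialLinearGroup (Fin 2) K, g ∈ F.range ↔ ∀ i j, g.1 i j ∈ E := fun g =>
    ⟨by rintro ⟨g, rfl⟩ i j; exact (g.1 i j).2, fun h => ⟨⟨fun i j => ⟨g.1 i j, h i j⟩, (algebraMap E K).injective
      (((algebraMap E K).map_det _).trans (g.2.trans (map_one _).symm))⟩, rfl⟩⟩
  have hg : (pb.gen : K) = α := rfl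
  ext g
  rw [Set.mem_ofPred_eq, ← hr, SetLike.mem_coe]
  constructor
  · refine fun h => (closure_le _).2 ?_ h
    rintro g (⟨c, hc⟩ | ⟨c, hc⟩)
    · exact ⟨H4.upT (algebraMap k E c), by rw [H4.map_upT]; exact Subtype.ext hc.symm⟩
    · exact ⟨H4.loT (algebraMap k E c * pb.gen), by rw [H4.map_loT]; exact Subtype.ext hc.symm⟩
  · rintro ⟨g, rfl⟩
    refine mem_comap.1 ((eq_top_iff' _).1
      (sl2_gen pb hk2 hk3 (fun e => hα0 (congrArg Subtype.val e)) (fun c => ?_) fun c => ?_) g)
    · rw [mem_comap, H4.map_upT]; exact subset_closure (Or.inl ⟨c, rfl⟩)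
    · rw [mem_comap, H4.map_loT]; exact subset_closure (Or.inr ⟨c, rfl⟩)

end Cfsg.Agent.S5060
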