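import Cfsg.Statements.S5063
import Cfsg.Agent.H11.QPe

set_option autoImplicit false
universe u
open Cfsg

namespace Cfsg.Agent.S5063

open Subgroup H16 H16.H11 Cfsg.IsRankOnePair
open scoped commutatorElement


/-- Let k be a field of characteristic not 2 with k not of order 3, M a finite-dimensional k-vector space and G ≤ GL(M) such that (G, M) is a quadratic pair (M irreducible for G, and G generated by its quadratically acting elements σ whose scalar family 1 + c(σ − 1), c ∈ k, lies in G). Write 𝒬_d for the quadratic elements of G of minimal commutator rank, E(σ) for the subgroup generated by the members of 𝒬_d with the same fixed space and commutator space as σ, and Σ for the set of these subgroups. Then G is a central product of finitely many quasisimple normal subgroups G₁, …, G_s (pairwise commuting and together generating G), each generated by the quadratic elements of G it contains, and every quadratic element of G lies in one of them. -/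
theorem result {k : Type u} [Field k] (hk2 : ringChar k ≠ 2) (hk3 : Nat.card k ≠ 3)
    {M : Type u} [AddCommGroup M] [Module k M] [FiniteDimensional k M]
    {G : Subgroup (LinearMap.GeneralLinearGroup k M)} (hG : Cfsg.IsQuadraticPair G) :
    ∃ (s : ℕ) (Gi : Fin s → Subgroup (LinearMap.GeneralLinearGroup k M)),
      (∀ i, Gi i ≤ G ∧ ∀ g ∈ G, Cfsg.conjBy (Gi i) g = Gi i) ∧ (∀ i j, i ≠ j → ⁅Gi i, Gi j⁆ = ⊥) ∧ (⨆ i, Gi i) = G ∧
      (∀ i, Cfsg.IsQuasisimple ↥(Gi i) ∧ Subgroup.closure (Cfsg.quadraticElements G ∩ (Gi i : Set (LinearMap.GeneralLinearGroup k M))) = Gi i) ∧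
      Cfsg.quadraticElements G ⊆ ⋃ i, (Gi i : Set (LinearMap.GeneralLinearGroup k M)) := by
  obtain ⟨F, f1, f2, f3, f4, f5⟩ := decomp hk2 hk3 (Module.finrank k M + 1) G (wi_of hG.1) hG.2 fun _ _ _ => by omega
  obtain ⟨r, f, g1, rfl⟩ := f1.fin_param
  rw [iSup_range] at f4
  refine ⟨r, f, fun i => ⟨f4 ▸ le_iSup f i, fun g hg => cj_norm ((f4.ge.trans (iSup_le fun j => ?_)) hg)⟩,
    fun i j h => comm_eq_bot.2 (f3 _ ⟨i, rfl⟩ _ ⟨j, rfl⟩ (g1.ne h)), f4, fun i => f2 _ ⟨i, rfl⟩, fun g hg => ?_⟩
  · by_cases e : j = i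
    · exact e ▸ le_norm _
    · exact norm_of_cent (f3 _ ⟨j, rfl⟩ _ ⟨i, rfl⟩ (g1.ne e))
  · rcases f5 g (mem_quad.1 hg).1 with rfl | ⟨_, ⟨i, rfl⟩, h⟩
    · exact absurd (sub_self _) (mem_quad.1 hg).2
    · exact Set.mem_iUnion.2 ⟨i, h⟩

end Cfsg.Agent.S5063
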