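import Cfsg.Statements.S5064
import Cfsg.Agent.H11.QPd

set_option autoImplicit false
universe u
open Cfsg

namespace Cfsg.Agent.S5064

open Subgroup H16 H16.H11 Cfsg.IsRankOnePair
open scoped commutatorElement

open Polynomial H4 Module

/-- Let k be a field of characteristic not 2 with k not of order 3, M a finite-dimensional k-vector space and G ≤ GL(M) such that (G, M) is a quadratic pair (M irreducible for G, and G generated by its quadratically acting elements σ whose scalar family 1 + c(σ − 1), c ∈ k, lies in G). Write 𝒬_d for the quadratic elements of G of minimal commutator rank, E(σ) for the subgroup generated by the members of 𝒬_d with the same fixed space and commutator space as σ, and Σ for the set of these subgroups. If σ, τ ∈ 𝒬_d and the subgroup H generated by their two scalar families does not act unipotently on M, then H is isomorphic to SL₂ over a simple algebraic extension k(λ) of k. -/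
theorem result {k : Type u} [Field k] (hk2 : ringChar k ≠ 2) (hk3 : Nat.card k ≠ 3)
    {M : Type u} [AddCommGroup M] [Module k M] [FiniteDimensional k M]
    {G : Subgroup (LinearMap.GeneralLinearGroup k M)} (hG : Cfsg.IsQuadraticPair G)
    {σ τ : LinearMap.GeneralLinearGroup k M} (hσ : σ ∈ Cfsg.minimalQuadraticElements G) (hτ : τ ∈ Cfsg.minimalQuadraticElements G)
    (hH : ¬ Cfsg.IsUnipotentOn (Subgroup.closure (Cfsg.scalarFamily σ ∪ Cfsg.scalarFamily τ))) :
    ∃ (K : Type u) (_ : Field K) (_ : Algebra k K) (lam : K), IsAlgebraic k lam ∧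
      IntermediateField.adjoin k ({lam} : Set K) = ⊤ ∧
      Nonempty (↥(Subgroup.closure (Cfsg.scalarFamily σ ∪ Cfsg.scalarFamily τ)) ≃* Matrix.SpecialLinearGroup (Fin 2) K) := by
  have hs := mem_min.1 hσ
  have ht := mem_min.1 hτ
  unfold scalarFamily at hH ⊢
  generalize σ.1 - 1 = s at hs hH
  generalize τ.1 - 1 = t at ht hH
  have s2 := hs.qs.1
  have t2 := ht.qs.1
  have ho : Opp s t := (opp_or_nl hk2 hk3 hs ht).resolve_right fun h => hH (unip_mono (h.unip hk2 hk3 hs ht) (by
    rw [closure_le]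
    rintro g (⟨c, e⟩ | ⟨c, e⟩)
    · exact mem_sup_left (by rw [mem_RG, e, add_sub_cancel_left]; exact Submodule.smul_mem _ c hs.qs.mem)
    · exact mem_sup_right (by rw [mem_RG, e, add_sub_cancel_left]; exact Submodule.smul_mem _ c ht.qs.mem)))
  have hn := ho.not_nil hs hk2 ht.qs
  obtain ⟨p, hp⟩ := exists_eig s2 t2 hn
  have k1 := hp.kill hk2 hk3 hs ht hn
  obtain ⟨r, -, hr⟩ := ht.norm hk2 hk3 hs.qs (add_comm (s * t) _ ▸ hn)
  obtain ⟨r', -, hr'⟩ := hs.norm hk2 hk3 ht.qs hn
  rw [pz_symm] at hr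
  have k2 : pz s t p * t = 0 := by
    calc pz s t p * t = pz s t p * (pz s t (r * X) * t) := by rw [hr]
      _ = pz s t r * (t * (pz s t p * s * t)) := by
        rw [mul_assoc, t_pz' t2, tst t2, pz_pz, pz_pz, pz_pz]; congr 2; ring
      _ = 0 := by rw [k1, zero_mul, mul_zero, mul_zero]
  have k3 : pz s t (r * X) * s = s := by
    calc pz s t (r * X) * s = pz s t (r * X) * (pz s t (r' * X) * s) := by rw [hr']
      _ = pz s t r' * (s * (pz s t (r * X) * t * s)) := by
        rw [mul_assoc, s_pz' s2, sts s2, pz_pz, pz_pz, pz_pz]; congr 2; ring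
      _ = s := by rw [hr, sts s2, pz_pz, hr']
  have k4 : ∀ a, p ∣ a → pz s t (a * (r * X)) = 0 := by
    rintro _ ⟨a, rfl⟩
    rw [show p * a * (r * X) = a * r * (p * X) by ring, map_mul _ (a * r), map_mul _ p, pz_X, mul_add, ← mul_assoc _ s,
      ← mul_assoc _ t, k1, k2, zero_mul, zero_mul, add_zero, mul_zero]
  have k5 : pz s t (r * X * (r * X)) = pz s t (r * X) := by
    have : pz s t (r * X) * pz s t X = pz s t X := by rw [pz_X, mul_add, ← mul_assoc _ s, ← mul_assoc _ t, k3, hr]
    rw [show r * X * (r * X) = r * (r * X * X) by ring, map_mul _ r, map_mul _ (r * X), this, ← map_mul]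
  have := Fact.mk hp.irr
  obtain ⟨j, hj⟩ := (AdjoinRoot.mkₐ p).toLinearMap.exists_rightInverse_of_surjective
    (LinearMap.range_eq_top.2 AdjoinRoot.mk_surjective)
  let ι : AdjoinRoot p →ₗ[k] End k M := (pz s t).toLinearMap ∘ₗ LinearMap.mulRight k (r * X) ∘ₗ j
  have hι : ∀ a, ι (AdjoinRoot.mk p a) = pz s t (a * (r * X)) := fun a => by
    have := k4 _ (AdjoinRoot.mk_eq_mk.1 (LinearMap.congr_fun hj (AdjoinRoot.mk p a)))
    rwa [sub_mul, map_sub, sub_eq_zero] at this
  have sj := AdjoinRoot.mk_surjective (g := p)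
  obtain ⟨φ, h1, h2, h3⟩ := sl2_hom ι.toAddMonoidHom (E := s) (F := pz s t r * t) s2
    (by rw [mul_assoc, t_pz' t2, t2, mul_zero, mul_zero])
    (by rw [mul_assoc, s_pz' s2, sts s2, pz_pz, k3])
    (by rw [mul_assoc, s_pz' s2, t_pz' t2, tst t2, pz_pz r X, hr])
    (fun a b => by
      obtain ⟨a, rfl⟩ := sj a
      obtain ⟨b, rfl⟩ := sj b
      simp only [LinearMap.toAddMonoidHom_coe, ← map_mul, hι]
      rw [show a * (r * X) * (b * (r * X)) = a * b * (r * X * (r * X)) by ring, map_mul _ (a * b), map_mul _ (a * b), k5])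
    (fun a => by obtain ⟨a, rfl⟩ := sj a; simp only [LinearMap.toAddMonoidHom_coe, hι, s_pz s2])
    (fun a => by
      obtain ⟨a, rfl⟩ := sj a
      simp only [LinearMap.toAddMonoidHom_coe, hι, mul_assoc (pz s t r), t_pz t2, pz_pz, mul_comm r (a * _)])
    (by rw [LinearMap.toAddMonoidHom_coe, ← map_one (AdjoinRoot.mk p), hι, one_mul, k3])
    (by rw [LinearMap.toAddMonoidHom_coe, ← map_one (AdjoinRoot.mk p), hι, one_mul, pz_pz, mul_comm, ← pz_pz, hr])
    (fun a ha => by
      obtain ⟨a, rfl⟩ := sj a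
      rw [LinearMap.toAddMonoidHom_coe, hι, ← pz_pz, k3] at ha
      exact AdjoinRoot.mk_eq_zero.2 (by_contra fun hc => hp.ne_zero hc ha))
  have e1 : ∀ c : k, (φ (upT (algebraMap k _ c))).1 = 1 + c • s := fun c => by
    rw [h2, LinearMap.toAddMonoidHom_coe, AdjoinRoot.algebraMap_eq, ← AdjoinRoot.mk_C, hι, pz_C, k3]
  have e2 : ∀ c : k, (φ (loT (algebraMap k _ c * AdjoinRoot.root p))).1 = 1 + c • t := fun c => by
    rw [h3, LinearMap.toAddMonoidHom_coe, AdjoinRoot.algebraMap_eq, ← AdjoinRoot.mk_C, ← AdjoinRoot.mk_X, ← map_mul, hι,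
      mul_assoc, pz_C, pz_pz, show X * (r * X) * r = r * X * (r * X) by ring, k5, hr]
  refine ⟨AdjoinRoot p, inferInstance, inferInstance, AdjoinRoot.root p,
    (AdjoinRoot.powerBasis hp.irr.ne_zero).isIntegral_gen.isAlgebraic, IntermediateField.adjoin_root_eq_top p,
    ⟨(MulEquiv.subgroupCongr (le_antisymm ?_ ?_)).trans (φ.ofInjective h1).symm⟩⟩
  · rw [closure_le]
    rintro g (⟨c, e⟩ | ⟨c, e⟩)
    · exact ⟨_, Units.ext ((e1 c).trans e.symm)⟩
    · exact ⟨_, Units.ext ((e2 c).trans e.symm)⟩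
  · rw [MonoidHom.range_eq_map, map_le_iff_le_comap, top_le_iff]
    exact sl2_gen (AdjoinRoot.powerBasis hp.irr.ne_zero) hk2 hk3 (fun e => hp.ne (AdjoinRoot.mk_eq_zero.1 e))
      (fun c => subset_closure (.inl ⟨c, e1 c⟩)) fun c => subset_closure (.inr ⟨c, e2 c⟩)

end Cfsg.Agent.S5064
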