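import Cfsg.Statements.S5065
import Cfsg.Agent.H11.QPd

set_option autoImplicit false
universe u
open Cfsg

namespace Cfsg.Agent.S5065

open Subgroup H16 H16.H11 Cfsg.IsRankOnePair
open scoped commutatorElement


/-- Let k be a field of characteristic not 2 with k not of order 3, M a finite-dimensional k-vector space and G ≤ GL(M) such that (G, M) is a quadratic pair (M irreducible for G, and G generated by its quadratically acting elements σ whose scalar family 1 + c(σ − 1), c ∈ k, lies in G). Write 𝒬_d for the quadratic elements of G of minimal commutator rank, E(σ) for the subgroup generated by the members of 𝒬_d with the same fixed space and commutator space as σ, and Σ for the set of these subgroups. For σ, τ ∈ 𝒬_d put A = E(σ), B = E(τ) and X = ⟨A, B⟩. Then either X acts unipotently on M, or A and B are the unipotent subgroups of a special rank one group X; in the latter case X contains exactly one central involution acting as −1 on the commutator space [M, X] and trivially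 on the fixed space C_M(X), and M is the direct sum of C_M(X) and [M, X]. -/
theorem result {k : Type u} [Field k] (hk2 : ringChar k ≠ 2) (hk3 : Nat.card k ≠ 3)
    {M : Type u} [AddCommGroup M] [Module k M] [FiniteDimensional k M]
    {G : Subgroup (LinearMap.GeneralLinearGroup k M)} (hG : Cfsg.IsQuadraticPair G)
    {σ τ : LinearMap.GeneralLinearGroup k M} (hσ : σ ∈ Cfsg.minimalQuadraticElements G) (hτ : τ ∈ Cfsg.minimalQuadraticElements G) :
    Cfsg.IsUnipotentOn (Cfsg.sameActionSubgroup G σ ⊔ Cfsg.sameActionSubgroup G τ) ∨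
    (Cfsg.IsSpecialRankOnePair (Cfsg.sameActionSubgroup G σ) (Cfsg.sameActionSubgroup G τ) ∧
      (∃! i : LinearMap.GeneralLinearGroup k M, i ∈ Cfsg.sameActionSubgroup G σ ⊔ Cfsg.sameActionSubgroup G τ ∧ i ≠ 1 ∧ i * i = 1 ∧
        (∀ x ∈ Cfsg.sameActionSubgroup G σ ⊔ Cfsg.sameActionSubgroup G τ, i * x = x * i) ∧
        (∀ m ∈ Cfsg.commutatorSubmodule (Cfsg.sameActionSubgroup G σ ⊔ Cfsg.sameActionSubgroup G τ), (i : M →ₗ[k] M) m = -m) ∧
        (∀ m ∈ Cfsg.fixedSubmodule (Cfsg.sameActionSubgroup G σ ⊔ Cfsg.sameActionSubgroup G τ), (i : M →ₗ[k] M) m = m)) ∧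
      IsCompl (Cfsg.fixedSubmodule (Cfsg.sameActionSubgroup G σ ⊔ Cfsg.sameActionSubgroup G τ))
        (Cfsg.commutatorSubmodule (Cfsg.sameActionSubgroup G σ ⊔ Cfsg.sameActionSubgroup G τ))) := by
  have hs := mem_min.1 hσ
  have ht := mem_min.1 hτ
  rw [same_eq hs, same_eq ht]
  generalize σ.1 - 1 = s at hs
  generalize τ.1 - 1 = t at ht
  rcases opp_or_nl hk2 hk3 hs ht with h | h
  swap
  · exact .inl (h.unip hk2 hk3 hs ht)
  refine .inr ⟨h.special hk2 hk3 hs ht, ?_⟩
  obtain ⟨s', h1, h2, h3⟩ := h.np hk2 hk3 hs ht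
  rw [← hs.RG_eq h1 h2, h3.fixed h1.1 ht.qs, h3.comm h1.1 ht.qs]
  have he := h3.idem h1.1.1 ht.qs.1
  have hc : IsCompl (LinearMap.ker (s' * t + t * s')) (LinearMap.range (s' * t + t * s')) :=
    (LinearMap.IsIdempotentElem.isCompl he).symm
  obtain ⟨i, hi, e⟩ := h3.inv_mem h1.1 ht.qs
  have e0 : s' * t + t * s' ≠ 0 := fun e0 => h2 (by rw [← h3.e_left h1.1.1 ht.qs.1 h1.1.mem, e0, zero_mul])
  have ab := fun g (hg : g ∈ RG G s' ⊔ RG G t) => h3.absorb h1.1 ht.qs hg
  generalize s' * t + t * s' = z at *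
  have f1 : ∀ m ∈ LinearMap.range z, i.1 m = -m := by
    rintro _ ⟨m, rfl⟩
    rw [e, LinearMap.sub_apply, LinearMap.smul_apply, ← Module.End.mul_apply z z, he, Module.End.one_apply]; module
  have f2 : ∀ m ∈ LinearMap.ker z, i.1 m = m := fun m hm => by simp [e, LinearMap.mem_ker.1 hm]
  refine ⟨⟨i, ⟨hi, fun e1 => e0 ?_, Units.ext ?_, fun x hx => Units.ext ?_, f1, f2⟩, fun j hj => Units.ext ?_⟩, hc⟩
  · rw [e1, Units.val_one, eq_comm, sub_eq_self] at e
    exact (smul_eq_zero.1 e).resolve_left (Ring.two_ne_zero hk2)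
  · simp only [Units.val_mul, e, mul_sub, sub_mul, mul_one, one_mul, smul_mul_assoc, mul_smul_comm, he, Units.val_one]
    module
  · obtain ⟨a1, a2⟩ := ab x hx
    rw [mul_sub, mul_one] at a1
    rw [sub_mul, one_mul, ← a1, sub_left_inj] at a2
    simp only [Units.val_mul, e, mul_sub, sub_mul, mul_one, one_mul, smul_mul_assoc, mul_smul_comm, a2]
  · refine LinearMap.ext fun m => ?_
    obtain ⟨a, ha, b, hb, rfl⟩ := Submodule.mem_sup.1 (hc.sup_eq_top.ge (Submodule.mem_top (x := m)))
    rw [map_add, map_add, f1 b hb, f2 a ha, hj.2.2.2.2.1 b hb, hj.2.2.2.2.2 a ha]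

end Cfsg.Agent.S5065
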