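import Mathlib
import Cfsg.Statements.S5067

set_option autoImplicit false
open Cfsg

namespace Cfsg.Agent.S5067

open Subgroup
open scoped commutatorElement

theorem aux {P : Type*} [Group P] [Group.IsNilpotent P] (hna : ¬ IsMulCommutative P)
    {E : Subgroup P} (hE : IsMulCommutative ↥E) :
    Group.nilpotencyClass ↥(normalClosure (E : Set P)) < Group.nilpotencyClass P := by
  set N := normalClosure (E : Set P)
  have h1 : N ≤ E ⊔ commutator P := by
    have : (E ⊔ commutator P).Normal := ⟨fun n hn g => by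
      have := mul_mem (mem_sup_right (commutator_mem_commutator (mem_top g) (mem_top n)) :
        _ ∈ E ⊔ commutator P) hn
      rwa [commutatorElement_def, inv_mul_cancel_right] at this⟩
    exact normalClosure_le_normal (le_sup_left : E ≤ _)
  have h2 : ⁅N, N⁆ ≤ (⊤ : Subgroup P).lowerCentralSeries 2 := by
    refine commutator_le.2 fun a ha b hb => ?_
    obtain ⟨a, a1, c, c1, rfl⟩ := (mem_sup_of_normal_right).1 (h1 ha)
    obtain ⟨b, b1, d, d1, rfl⟩ := (mem_sup_of_normal_right).1 (h1 hb)
    have k : ∀ x : P, ∀ y ∈ commutator P, ⁅y, x⁆ ∈ (⊤ : Subgroup P).lowerCentralSeries 2 :=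
      fun x y hy => commutator_mem_commutator hy (mem_top x)
    have ab : a * b = b * a := congrArg Subtype.val (hE.is_comm.comm ⟨a, a1⟩ ⟨b, b1⟩)
    have e : ⁅a * c, b * d⁆ = a * ⁅c, b * d⁆ * a⁻¹ * (b * ⁅d, a⁆⁻¹ * b⁻¹) := by
      simp only [commutatorElement_def]
      calc _ = a * c * (b * d) * c⁻¹ * (d⁻¹ * b⁻¹ * a⁻¹) * (a * b) * d * a⁻¹ * d⁻¹ * b⁻¹ := by group
        _ = _ := by rw [ab]; group
    rw [e]
    exact mul_mem (Normal.conj_mem inferInstance _ (k _ c c1) a)
      (Normal.conj_mem inferInstance _ (inv_mem (k a d d1)) b)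
  have h3 : ∀ k, N.lowerCentralSeries (k + 1) ≤ (⊤ : Subgroup P).lowerCentralSeries (k + 2) :=
    fun k => by
    induction k with
    | zero => exact h2
    | succ k ih => exact commutator_mono ih le_top
  obtain ⟨c, hc⟩ : ∃ c, Group.nilpotencyClass P = c + 2 := by
    refine Nat.exists_eq_add_of_le' (not_lt.1 fun h => hna ?_)
    have := Subgroup.lowerCentralSeries_eq_bot_iff_nilpotencyClass_le.2 (Nat.le_of_lt_succ h)
    exact (commutator_eq_bot_iff P).1 this
  rw [hc]
  refine Nat.lt_succ_of_le (Subgroup.lowerCentralSeries_eq_bot_iff_nilpotencyClass_le.1 ?_)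
  have := h3 c
  rw [← hc, Subgroup.lowerCentralSeries_nilpotencyClass, le_bot_iff] at this
  rwa [← map_subtype_inj, Subgroup.map_bot, top_subtype_lowerCentralSeries]

theorem result {P : Type*} [Group P] {p : ℕ} [Fact p.Prime] (hP : IsPGroup p P) [Group.IsNilpotent P]
    (hna : ¬ IsMulCommutative P) {E F : Subgroup P} (hE : IsMulCommutative ↥E) (hF : IsMulCommutative ↥F) (hgen : E ⊔ F = ⊤) :
    Group.nilpotencyClass ↥(Subgroup.normalClosure (E : Set P)) < Group.nilpotencyClass P ∧
    Group.nilpotencyClass ↥(Subgroup.normalClosure (F : Set P)) < Group.nilpotencyClass P := by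
  exact ⟨aux hna hE, aux hna hF⟩

end Cfsg.Agent.S5067
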