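import Cfsg.Statements.S5069
import Cfsg.Agent.H11.QPe

set_option autoImplicit false
universe u
open Cfsg

namespace Cfsg.Agent.S5069

open Subgroup H16 H16.H11 Cfsg.IsRankOnePair
open scoped commutatorElement


/-- Let k be a field of characteristic not 2 with k not of order 3, M a finite-dimensional k-vector space and G ≤ GL(M) such that (G, M) is a quadratic pair (M irreducible for G, and G generated by its quadratically acting elements σ whose scalar family 1 + c(σ − 1), c ∈ k, lies in G). Write 𝒬_d for the quadratic elements of G of minimal commutator rank, E(σ) for the subgroup generated by the members of 𝒬_d with the same fixed space and commutator space as σ, and Σ for the set of these subgroups. Then Σ is a disjoint union of finitely many parts Σ₁, …, Σ_r such that the subgroups G_i generated by the Σ_i commute pairwise, each G_i is quasisimple, and inside G_i the members of Σ_i form a class of abstract root subgroups in which every rank one pair A, B contains subgroups A₀ ≤ A, B₀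 ≤ B generating an image of SL₂(k₁) with central kernel on unitriangular subgroups for some field k₁ with at least four elements. -/
theorem result {k : Type u} [Field k] (hk2 : ringChar k ≠ 2) (hk3 : Nat.card k ≠ 3)
    {M : Type u} [AddCommGroup M] [Module k M] [FiniteDimensional k M]
    {G : Subgroup (LinearMap.GeneralLinearGroup k M)} (hG : Cfsg.IsQuadraticPair G) :
    ∃ (r : ℕ) (part : Fin r → Set (Subgroup (LinearMap.GeneralLinearGroup k M))),
      (⋃ i, part i) = Cfsg.quadraticRootSubgroups G ∧ (∀ i j, i ≠ j → Disjoint (part i) (part j)) ∧ (∀ i, (part i).Nonempty) ∧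
      (∀ i j, i ≠ j → ⁅(⨆ A ∈ part i, A), (⨆ A ∈ part j, A)⁆ = ⊥) ∧
      (∀ i, Cfsg.IsQuasisimple ↥(⨆ A ∈ part i, A) ∧
        Cfsg.IsRootSubgroupClass ((fun A : Subgroup (LinearMap.GeneralLinearGroup k M) => A.subgroupOf (⨆ B ∈ part i, B)) '' (part i)) ∧
        ∀ A ∈ part i, ∀ B ∈ Cfsg.rankOnePartners (part i) A, ∃ A₀ B₀ : Subgroup (LinearMap.GeneralLinearGroup k M), A₀ ≤ A ∧ B₀ ≤ B ∧
          ∃ (k₁ : Type u) (_ : Field k₁), 3 < ENat.card k₁ ∧ Cfsg.IsPSL2PairOver k₁ A₀ B₀) := by
  have hW := wi_of hG.1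
  obtain ⟨r, f, f1, f2⟩ := (cmp_finite hk2 hk3 hW).fin_param
  have f3 : ∀ i, ∃ A ∈ quadraticRootSubgroups G, cmp G A = f i := fun i => f2.le ⟨i, rfl⟩
  choose A hA e using f3
  obtain rfl : (fun i => cmp G (A i)) = f := funext e
  refine ⟨r, _, Set.Subset.antisymm (Set.iUnion_subset fun _ _ h => h.1) fun B hB => ?_, fun i j h => ?_,
    fun i => ⟨_, cmp_self (hA i)⟩, fun i j h => comm_eq_bot.2 (LG_cent hk2 hk3 hW (f1.ne h)),
    fun i => ⟨LG_qs hk2 hk3 hW hG.2 (hA i), LG_class hk2 hk3 hW (hA i), fun B hB C hC => ?_⟩⟩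
  · obtain ⟨i, e⟩ := f2.ge ⟨B, hB, rfl⟩
    exact Set.mem_iUnion.2 ⟨i, e.ge (cmp_self hB)⟩
  · exact Set.disjoint_left.2 fun B h1 h2 => h (f1 ((cmp_eq h1).symm.trans (cmp_eq h2)))
  · obtain ⟨A₀, B₀, h1, h2, h3⟩ := sigma_psl2 hk2 hk3 hB.1 hC.1.1 hC.2
    exact ⟨A₀, B₀, h1, h2, k, inferInstance, enat_card hk2 hk3, h3⟩

end Cfsg.Agent.S5069
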