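import Cfsg.Statements.S5070
import Cfsg.Agent.H11.ExV

set_option autoImplicit false
open Matrix
open Cfsg

namespace Cfsg.Agent.S5070

open Subgroup H16 H16.H11 Cfsg.IsRankOnePair
open scoped commutatorElement

open Matrix

/-- Let F be a field, m a natural number and V = F^{2(m+1)} with the standard non-degenerate alternating form f(u, v) = uᵀ J v. For a non-zero vector p let T(p) be the group of symplectic transvections v ↦ v + c f(v, p) p, c ∈ F. Then the subgroups T(p), p ≠ 0, generate the symplectic group Sp_{2(m+1)}(F) and form a degenerate class of abstract F-root subgroups of it (any two of them either commute elementwise or are the unipotent subgroups of a rank one group that is an image of SL₂(F) with central kernel, never the commutator case), and their graph of rank one pairs is connected. -/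
theorem result (F : Type*) [Field F] (m : ℕ) :
    Cfsg.IsRootSubgroupClass {A : Subgroup ↥(Matrix.symplecticGroup (Fin (m + 1)) F) | ∃ p : Fin (m + 1) ⊕ Fin (m + 1) → F, p ≠ 0 ∧
        A = Subgroup.closure {g : ↥(Matrix.symplecticGroup (Fin (m + 1)) F) | ∃ c : F, ∀ v : Fin (m + 1) ⊕ Fin (m + 1) → F,
          (g : Matrix (Fin (m + 1) ⊕ Fin (m + 1)) (Fin (m + 1) ⊕ Fin (m + 1)) F) *ᵥ v =
            v + (c * (v ⬝ᵥ (Matrix.J (Fin (m + 1)) F *ᵥ p))) • p}} ∧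
    Cfsg.IsDegenerateRootSet {A : Subgroup ↥(Matrix.symplecticGroup (Fin (m + 1)) F) | ∃ p : Fin (m + 1) ⊕ Fin (m + 1) → F, p ≠ 0 ∧
        A = Subgroup.closure {g : ↥(Matrix.symplecticGroup (Fin (m + 1)) F) | ∃ c : F, ∀ v : Fin (m + 1) ⊕ Fin (m + 1) → F,
          (g : Matrix (Fin (m + 1) ⊕ Fin (m + 1)) (Fin (m + 1) ⊕ Fin (m + 1)) F) *ᵥ v =
            v + (c * (v ⬝ᵥ (Matrix.J (Fin (m + 1)) F *ᵥ p))) • p}} ∧
    Cfsg.IsKRootSubgroupSet F {A : Subgroup ↥(Matrix.symplecticGroup (Fin (m + 1)) F) | ∃ p : Fin (m + 1) ⊕ Fin (m + 1) → F, p ≠ 0 ∧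
        A = Subgroup.closure {g : ↥(Matrix.symplecticGroup (Fin (m + 1)) F) | ∃ c : F, ∀ v : Fin (m + 1) ⊕ Fin (m + 1) → F,
          (g : Matrix (Fin (m + 1) ⊕ Fin (m + 1)) (Fin (m + 1) ⊕ Fin (m + 1)) F) *ᵥ v =
            v + (c * (v ⬝ᵥ (Matrix.J (Fin (m + 1)) F *ᵥ p))) • p}} ∧
    Cfsg.IsConnectedFamily (Cfsg.FAdj {A : Subgroup ↥(Matrix.symplecticGroup (Fin (m + 1)) F) | ∃ p : Fin (m + 1) ⊕ Fin (m + 1) → F, p ≠ 0 ∧
        A = Subgroup.closure {g : ↥(Matrix.symplecticGroup (Fin (m + 1)) F) | ∃ c : F, ∀ v : Fin (m + 1) ⊕ Fin (m + 1) → F,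
          (g : Matrix (Fin (m + 1) ⊕ Fin (m + 1)) (Fin (m + 1) ⊕ Fin (m + 1)) F) *ᵥ v =
            v + (c * (v ⬝ᵥ (Matrix.J (Fin (m + 1)) F *ᵥ p))) • p}})
      {A : Subgroup ↥(Matrix.symplecticGroup (Fin (m + 1)) F) | ∃ p : Fin (m + 1) ⊕ Fin (m + 1) → F, p ≠ 0 ∧
        A = Subgroup.closure {g : ↥(Matrix.symplecticGroup (Fin (m + 1)) F) | ∃ c : F, ∀ v : Fin (m + 1) ⊕ Fin (m + 1) → F,
          (g : Matrix (Fin (m + 1) ⊕ Fin (m + 1)) (Fin (m + 1) ⊕ Fin (m + 1)) F) *ᵥ v =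
            v + (c * (v ⬝ᵥ (Matrix.J (Fin (m + 1)) F *ᵥ p))) • p}} := by
  let J := Matrix.J (Fin (m + 1)) F
  let X := (fun p => vecMulVec p (J *ᵥ p)) '' {p | p ≠ 0}
  have f1 : ∀ u v, (J *ᵥ u) ⬝ᵥ v = sympForm (m + 1) F v u := fun u v => dotProduct_comm _ _
  have J0 : ∀ p, p ≠ 0 → J *ᵥ p ≠ 0 := fun p hp e => hp (by
    have := congrArg (fun x => x *ᵥ p) (Matrix.J_squared (Fin (m + 1)) F)
    simp only [← mulVec_mulVec] at this
    simpa [J, e, neg_mulVec] using this.symm)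
  have adj : ∀ p r, sympForm (m + 1) F p r ≠ 0 → ∃ l : F, l ≠ 0 ∧ vecMulVec p (J *ᵥ p) * (vecMulVec r (J *ᵥ r) *
      vecMulVec p (J *ᵥ p)) = l • vecMulVec p (J *ᵥ p) ∧ vecMulVec r (J *ᵥ r) * (vecMulVec p (J *ᵥ p) *
      vecMulVec r (J *ᵥ r)) = l • vecMulVec r (J *ᵥ r) := fun p r h =>
    ⟨_, mul_ne_zero (by rw [f1, H23.sympForm_comm]; exact neg_ne_zero.2 h) (by rwa [f1]), vv_tri .., by
      rw [vv_tri, mul_comm]⟩
  have hd : ∀ x ∈ X, ∀ y ∈ X, x * y = y * x ∨ ∃ l : F, l ≠ 0 ∧ x * (y * x) = l • x ∧ y * (x * y) = l • y := by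
    rintro _ ⟨p, hp, rfl⟩ _ ⟨r, hr, rfl⟩
    refine (em (sympForm (m + 1) F p r = 0)).imp (fun h => ?_) (adj p r)
    rw [vv_mul, vv_mul, f1, f1, h, H23.sympForm_comm, h, neg_zero, zero_smul, zero_smul]
  have h : Fam F (spToMat (m + 1) F) X := by
    refine ⟨Subtype.val_injective, ?_, ?_, ?_, ?_, fun x hx y hy => (hd x hx y hy).imp_right .inl⟩
    · rintro _ ⟨p, hp, rfl⟩; rw [vv_mul, f1, H23.sympForm_self, zero_smul]
    · rintro _ ⟨p, hp, rfl⟩; exact vecMulVec_ne_zero hp (J0 p hp)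
    · rintro _ ⟨p, hp, rfl⟩ c; exact ⟨⟨_, H23.sympTransvection_mem _ p c⟩, rfl⟩
    · rintro _ ⟨p, hp, rfl⟩ g
      refine ⟨_, rho_ne (spToMat (m + 1) F) g hp, mat_ext fun v => ?_⟩
      rw [← mulVec_mulVec, ← mulVec_mulVec, vv_vec, vv_vec, f1, f1, mulVec_smul, ← H23.mem_symplecticGroup_iff.1 g.2 _ p]
      exact congrArg (fun x => sympForm _ F x _ • _) (rho_vec (spToMat (m + 1) F) g v).symm
  have hS : {A : Subgroup ↥(Matrix.symplecticGroup (Fin (m + 1)) F) | ∃ p : Fin (m + 1) ⊕ Fin (m + 1) → F, p ≠ 0 ∧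
        A = Subgroup.closure {g : ↥(Matrix.symplecticGroup (Fin (m + 1)) F) | ∃ c : F, ∀ v : Fin (m + 1) ⊕ Fin (m + 1) → F,
          (g : Matrix (Fin (m + 1) ⊕ Fin (m + 1)) (Fin (m + 1) ⊕ Fin (m + 1)) F) *ᵥ v =
            v + (c * (v ⬝ᵥ (Matrix.J (Fin (m + 1)) F *ᵥ p))) • p}} = TK F (spToMat (m + 1) F) '' X := by
    rw [Set.image_image]
    ext A
    refine exists_congr fun p => and_congr_right fun _ => ?_
    rw [eq_comm]
    unfold TK
    refine Eq.congr_left (congrArg _ (Set.ext fun g => exists_congr fun c => ⟨fun h => mat_ext fun v => ?_, fun h v => ?_⟩))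
    · rw [add_mulVec, one_mulVec, smul_mulVec, vv_vec, smul_smul, dotProduct_comm]; exact h v
    · change spToMat (m + 1) F g *ᵥ v = _
      rw [h, add_mulVec, one_mulVec, smul_mulVec, vv_vec, smul_smul, dotProduct_comm]
  rw [hS]
  have hk := h.kroot (top_le_iff.1 ((H23.sp_closure_transvections (m + 1)).ge.trans ((closure_le _).2 (by
    rintro g ⟨w, c, e⟩
    by_cases hw : w = 0
    · rw [show g = 1 from Subtype.ext (by simp [e, hw, sympTransvection])]; exact one_mem _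
    · exact mem_gen _ g ⟨w, hw, rfl⟩ e))))
  have hc : IsConnectedFamily (FAdj (TK F (spToMat (m + 1) F) '' X)) (TK F (spToMat (m + 1) F) '' X) := by
    rintro _ ⟨_, ⟨p, hp, rfl⟩, rfl⟩ _ ⟨_, ⟨r, hr, rfl⟩, rfl⟩
    obtain ⟨v, h1, h2⟩ := exists_dot2 (J0 p hp) (J0 r hr)
    have hv : v ≠ 0 := by rintro rfl; simp at h1
    obtain ⟨l, l0, h3, h4⟩ := adj v p (f1 p v ▸ h1)
    obtain ⟨l', l0', h5, h6⟩ := adj v r (f1 r v ▸ h2)
    exact .head (h.fadj ⟨p, hp, rfl⟩ ⟨v, hv, rfl⟩ l0 h4 h3) (.single (h.fadj ⟨v, hv, rfl⟩ ⟨r, hr, rfl⟩ l0' h5 h6))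
  exact ⟨class_of_conn hk.1 ⟨_, _, ⟨1, one_ne_zero, rfl⟩, rfl⟩ hc, fun A hA B hB hc => h.deg hd A hA B hB (cc_iff.1 hc), hk, hc⟩

end Cfsg.Agent.S5070
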