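import Cfsg.Statements.S5071
import Cfsg.Agent.H11.ExV
import Cfsg.Agent.H23.Mat

set_option autoImplicit false
open Matrix
open Cfsg

namespace Cfsg.Agent.S5071

open Subgroup H16 H16.H11 Cfsg.IsRankOnePair H23
open scoped commutatorElement

section aux
variable {F : Type*} [Field F] [Fintype F] {q N : ℕ} (hF : Fintype.card F = q ^ 2)
include hF

theorem hadd (u v w : Fin N → F) (a : F) :
    hermForm N F q (u + a • v) w = hermForm N F q u w + a * hermForm N F q v w := by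
  simp only [← huForm_B hF, map_add, map_smul, smul_eq_mul]

theorem hadd' (u v w : Fin N → F) (a : F) :
    hermForm N F q w (u + a • v) = hermForm N F q w u + conj hF a * hermForm N F q w v := by
  simp only [← huForm_B hF, map_add, LinearMap.add_apply, Form.B_smul_left]

theorem hconj (u v : Fin N → F) : conj hF (hermForm N F q u v) = hermForm N F q v u :=
  hermForm_conj hF N u v

omit hF [Fintype F] in
theorem hdot (p v : Fin N → F) : (fun j => p j ^ q) ⬝ᵥ v = hermForm N F q v p := by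
  simp [hermForm, dotProduct, mul_comm]

theorem bar_ne {p : Fin N → F} (hp : p ≠ 0) : (fun j => p j ^ q) ≠ 0 := fun e => hp (by
  ext j; exact pow_eq_zero_iff (by have := two_le_of_card_eq_sq hF; omega) |>.1 (congrFun e j))

theorem fam {L : Type} [Field L] [Algebra L F] (hL : ∀ a : F, conj hF a = a ↔ ∃ l : L, algebraMap L F l = a)
    {c0 : F} (h0 : c0 ≠ 0) (h1 : conj hF c0 = - c0) (hN : ∃ p : Fin N → F, p ≠ 0 ∧ hermForm N F q p p = 0) :
    ∃ X, X.Nonempty ∧ Fam L ((slToMat N F).comp (SU N F q).subtype) X ∧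
    (∀ x ∈ X, ∀ y ∈ X, x * y = y * x ∨ ∃ l : L, l ≠ 0 ∧ x * (y * x) = l • x ∧ y * (x * y) = l • y) ∧
    IsConnectedFamily (FAdj (TK L ((slToMat N F).comp (SU N F q).subtype) '' X))
      (TK L ((slToMat N F).comp (SU N F q).subtype) '' X) ∧
    {A : Subgroup ↥(SU N F q) | ∃ p : Fin N → F, p ≠ 0 ∧ hermForm N F q p p = 0 ∧
      A = Subgroup.closure {g : ↥(SU N F q) |
        (∀ v : Fin N → F, ∃ c : F, ((g : Matrix.SpecialLinearGroup (Fin N) F) : Matrix (Fin N) (Fin N) F) *ᵥ v = v + c • p) ∧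
        ∀ v : Fin N → F, hermForm N F q v p = 0 →
          ((g : Matrix.SpecialLinearGroup (Fin N) F) : Matrix (Fin N) (Fin N) F) *ᵥ v = v}} =
      TK L ((slToMat N F).comp (SU N F q).subtype) '' X := by
  set ρ := (slToMat N F).comp (SU N F q).subtype with hρ
  let x : (Fin N → F) → Matrix (Fin N) (Fin N) F := fun p => c0 • vecMulVec p (fun j => p j ^ q)
  let X := x '' {p | p ≠ 0 ∧ hermForm N F q p p = 0}
  have sm : ∀ (l : L) (m : Matrix (Fin N) (Fin N) F), l • m = algebraMap L F l • m :=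
    fun l m => (algebraMap_smul F l m).symm
  have xv : ∀ p v, x p *ᵥ v = (c0 * hermForm N F q v p) • p := fun p v => by
    simp only [x, smul_mulVec, vv_vec, hdot, smul_smul]
  have adj : ∀ p r, hermForm N F q p r ≠ 0 → ∃ l : L, l ≠ 0 ∧ x p * (x r * x p) = l • x p ∧
      x r * (x p * x r) = l • x r := fun p r h => by
    have h' : hermForm N F q r p ≠ 0 := by rw [← hconj hF]; exact (map_ne_zero _).2 h
    obtain ⟨l, hl⟩ := (hL (c0 * c0 * (hermForm N F q r p * hermForm N F q p r))).1 (by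
      simp only [map_mul, hconj, h1]; ring)
    refine ⟨l, ?_, ?_, ?_⟩
    · rintro rfl
      simp [h, h', h0] at hl
    · simp only [sm, hl, x, smul_mul_assoc, mul_smul_comm, vv_tri, hdot, smul_smul]
      congr 1; ring
    · simp only [sm, hl, x, smul_mul_assoc, mul_smul_comm, vv_tri, hdot, smul_smul]
      congr 1; ring
  have hd : ∀ a ∈ X, ∀ b ∈ X, a * b = b * a ∨ ∃ l : L, l ≠ 0 ∧ a * (b * a) = l • a ∧ b * (a * b) = l • b := by
    rintro _ ⟨p, hp, rfl⟩ _ ⟨r, hr, rfl⟩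
    refine (em (hermForm N F q p r = 0)).imp (fun h => ?_) (adj p r)
    have h' : hermForm N F q r p = 0 := by rw [← hconj hF, h, map_zero]
    simp only [x, smul_mul_assoc, mul_smul_comm, vv_mul, hdot, h, h', zero_smul, smul_zero]
  have pres : ∀ (g : SU N F q) u v, hermForm N F q (ρ g *ᵥ u) (ρ g *ᵥ v) = hermForm N F q u v :=
    fun g => (mem_preserving _ _ _).1 g.2
  have h : Fam L ρ X := by
    refine ⟨fun a b e => Subtype.ext (Subtype.ext e), ?_, ?_, ?_, ?_, fun x hx y hy => (hd x hx y hy).imp_right .inl⟩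
    · rintro _ ⟨p, hp, rfl⟩
      simp only [x, smul_mul_assoc, mul_smul_comm, vv_mul, hdot, hp.2, zero_smul, smul_zero]
    · rintro _ ⟨p, hp, rfl⟩; exact smul_ne_zero h0 (vecMulVec_ne_zero hp.1 (bar_ne hF hp.1))
    · rintro _ ⟨p, hp, rfl⟩ c
      refine ⟨⟨⟨1 + c • x p, ?_⟩, (mem_preserving _ _ _).2 fun u v => ?_⟩, rfl⟩
      · rw [sm, smul_smul]; exact det_vv (by rw [hdot, hp.2]) _
      · have e : ∀ m hm, slToMat N F ⟨m, hm⟩ = m := fun _ _ => rfl
        rw [e]
        have hc := (hL _).2 ⟨c, rfl⟩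
        simp only [sm, add_mulVec, one_mulVec, smul_mulVec, xv, smul_smul, hadd hF, hadd' hF, hp.2,
          map_mul, hc, h1, hconj]
        ring
    · rintro _ ⟨p, hp, rfl⟩ g
      refine ⟨ρ g *ᵥ p, ⟨rho_ne ρ g hp.1, by rw [pres, hp.2]⟩, mat_ext fun v => ?_⟩
      rw [← mulVec_mulVec, ← mulVec_mulVec, xv, xv, mulVec_smul, ← pres g _ p, rho_vec]
  refine ⟨X, hN.imp' x fun p hp => ⟨p, hp, rfl⟩, h, hd, ?_, ?_⟩
  · rintro _ ⟨_, ⟨p, hp, rfl⟩, rfl⟩ _ ⟨_, ⟨r, hr, rfl⟩, rfl⟩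
    by_cases e : hermForm N F q p r = 0
    swap
    · obtain ⟨l, l0, h3, h4⟩ := adj p r e
      exact .single (h.fadj ⟨p, hp, rfl⟩ ⟨r, hr, rfl⟩ l0 h3 h4)
    obtain ⟨w, h2, h3⟩ := exists_dot2 (bar_ne hF hp.1) (bar_ne hF hr.1)
    rw [hdot] at h2 h3
    obtain ⟨t, ht⟩ := Form.exists_add_conj_eq_one (conj_ne_id hF) (conj_conj hF)
    have h4 : hermForm N F q p w ≠ 0 := by rw [← hconj hF]; exact (map_ne_zero _).2 h2
    let v := w + (- hermForm N F q w w * t / hermForm N F q p w) • p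
    have v1 : hermForm N F q v p ≠ 0 := by simpa [v, hadd hF, hp.2] using h2
    have v2 : hermForm N F q v r ≠ 0 := by simpa [v, hadd hF, e] using h3
    have hv : v ≠ 0 ∧ hermForm N F q v v = 0 := by
      refine ⟨fun e' => v1 (by simp [e', hermForm]), ?_⟩
      simp only [v, hadd hF, hadd' hF, hp.2, map_div₀, map_mul, map_neg, hconj]
      field_simp
      linear_combination (- hermForm N F q w w * hermForm N F q w p * hermForm N F q p w) * ht
    obtain ⟨l, l0, h3, h4⟩ := adj v p v1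
    obtain ⟨l', l0', h5, h6⟩ := adj v r v2
    exact .head (h.fadj ⟨p, hp, rfl⟩ ⟨v, hv, rfl⟩ l0 h4 h3) (.single (h.fadj ⟨v, hv, rfl⟩ ⟨r, hr, rfl⟩ l0' h5 h6))
  · rw [Set.image_image]
    ext A
    refine exists_congr fun p => ?_
    rw [← and_assoc]
    refine and_congr_right fun hp => ?_
    rw [eq_comm]
    unfold TK
    refine Eq.congr_left (congrArg _ (Set.ext fun g => ⟨fun ⟨a1, a2⟩ => ?_, fun ⟨c, e⟩ => ?_⟩))
    · obtain ⟨w, hw⟩ := exists_dot (bar_ne hF hp.1)
      rw [hdot] at hw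
      have h4 : hermForm N F q p w ≠ 0 := by rw [← hconj hF]; exact (map_ne_zero _).2 hw
      obtain ⟨a, ha⟩ := a1 w
      have b1 := pres g w w
      change ρ g *ᵥ w = _ at ha
      simp only [ha, hadd hF, hadd' hF, hp.2] at b1
      obtain ⟨l, hl⟩ := (hL (a / (c0 * hermForm N F q w p))).1 (by
        simp only [map_div₀, map_mul, hconj, h1]
        field_simp
        linear_combination (-1 : F) * b1)
      refine ⟨l, mat_ext fun v => ?_⟩
      have b2 := a2 (v + (- hermForm N F q v p / hermForm N F q w p) • w) (by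
        rw [hadd hF]; field_simp; ring)
      change ρ g *ᵥ _ = _ at b2
      rw [mulVec_add, mulVec_smul, ha, smul_add, ← add_assoc, add_right_comm, add_left_inj] at b2
      rw [sm, hl, add_mulVec, one_mulVec, smul_mulVec, xv, smul_smul, eq_sub_of_add_eq b2, smul_smul,
        sub_eq_add_neg, ← neg_smul]
      congr 2
      field_simp
    · constructor
      · intro v
        refine ⟨algebraMap L F c * (c0 * hermForm N F q v p), ?_⟩
        change ρ g *ᵥ v = _
        rw [e, sm, add_mulVec, one_mulVec, smul_mulVec, xv, smul_smul]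
      · intro v hv
        change ρ g *ᵥ v = _
        rw [e, sm, add_mulVec, one_mulVec, smul_mulVec, xv, hv]; simp

end aux


/-- Let F be a finite field with q² elements, n a natural number, and h the Hermitian form Σ uᵢ vᵢ^q on F^{n+2}. For a non-zero isotropic vector p let T(p) be the group of unitary transvections with centre ⟨p⟩: the elements of SU_{n+2}(q) moving every vector by a multiple of p and fixing every vector perpendicular to p. Let Σ be the set of these T(p) and G₀ the subgroup they generate. Then, viewed inside G₀, the members of Σ form a degenerate class of abstract k-root subgroups of G₀ for some field k with q elements (any two commute or are the unipotent subgroups of a rank one group that is an image of SL₂(k) with central kernel, never the commutator case), and their graph of rank one pairs is connected. -/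
theorem result (F : Type*) [Field F] [Fintype F] (q n : ℕ) (hF : Fintype.card F = q ^ 2) :
    Cfsg.IsRootSubgroupClass ((fun A : Subgroup ↥(Cfsg.SU (n + 2) F q) => A.subgroupOf (⨆ B ∈ {A : Subgroup ↥(Cfsg.SU (n + 2) F q) | ∃ p : Fin (n + 2) → F, p ≠ 0 ∧ Cfsg.hermForm (n + 2) F q p p = 0 ∧
          A = Subgroup.closure {g : ↥(Cfsg.SU (n + 2) F q) |
            (∀ v : Fin (n + 2) → F, ∃ c : F, ((g : Matrix.SpecialLinearGroup (Fin (n + 2)) F) : Matrix (Fin (n + 2)) (Fin (n + 2)) F) *ᵥ v = v + c • p) ∧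
            ∀ v : Fin (n + 2) → F, Cfsg.hermForm (n + 2) F q v p = 0 →
              ((g : Matrix.SpecialLinearGroup (Fin (n + 2)) F) : Matrix (Fin (n + 2)) (Fin (n + 2)) F) *ᵥ v = v}}, B)) ''
      {A : Subgroup ↥(Cfsg.SU (n + 2) F q) | ∃ p : Fin (n + 2) → F, p ≠ 0 ∧ Cfsg.hermForm (n + 2) F q p p = 0 ∧
          A = Subgroup.closure {g : ↥(Cfsg.SU (n + 2) F q) |
            (∀ v : Fin (n + 2) → F, ∃ c : F, ((g : Matrix.SpecialLinearGroup (Fin (n + 2)) F) : Matrix (Fin (n + 2)) (Fin (n + 2)) F) *ᵥ v = v + c • p) ∧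
            ∀ v : Fin (n + 2) → F, Cfsg.hermForm (n + 2) F q v p = 0 →
              ((g : Matrix.SpecialLinearGroup (Fin (n + 2)) F) : Matrix (Fin (n + 2)) (Fin (n + 2)) F) *ᵥ v = v}}) ∧
    Cfsg.IsDegenerateRootSet ((fun A : Subgroup ↥(Cfsg.SU (n + 2) F q) => A.subgroupOf (⨆ B ∈ {A : Subgroup ↥(Cfsg.SU (n + 2) F q) | ∃ p : Fin (n + 2) → F, p ≠ 0 ∧ Cfsg.hermForm (n + 2) F q p p = 0 ∧
          A = Subgroup.closure {g : ↥(Cfsg.SU (n + 2) F q) |
            (∀ v : Fin (n + 2) → F, ∃ c : F, ((g : Matrix.SpecialLinearGroup (Fin (n + 2)) F) : Matrix (Fin (n + 2)) (Fin (n + 2)) F) *ᵥ v = v + c • p) ∧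
            ∀ v : Fin (n + 2) → F, Cfsg.hermForm (n + 2) F q v p = 0 →
              ((g : Matrix.SpecialLinearGroup (Fin (n + 2)) F) : Matrix (Fin (n + 2)) (Fin (n + 2)) F) *ᵥ v = v}}, B)) ''
      {A : Subgroup ↥(Cfsg.SU (n + 2) F q) | ∃ p : Fin (n + 2) → F, p ≠ 0 ∧ Cfsg.hermForm (n + 2) F q p p = 0 ∧
          A = Subgroup.closure {g : ↥(Cfsg.SU (n + 2) F q) |
            (∀ v : Fin (n + 2) → F, ∃ c : F, ((g : Matrix.SpecialLinearGroup (Fin (n + 2)) F) : Matrix (Fin (n + 2)) (Fin (n + 2)) F) *ᵥ v = v + c • p) ∧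
            ∀ v : Fin (n + 2) → F, Cfsg.hermForm (n + 2) F q v p = 0 →
              ((g : Matrix.SpecialLinearGroup (Fin (n + 2)) F) : Matrix (Fin (n + 2)) (Fin (n + 2)) F) *ᵥ v = v}}) ∧
    (∃ (L : Type) (_ : Field L) (_ : Fintype L), Fintype.card L = q ∧ Cfsg.IsKRootSubgroupSet L ((fun A : Subgroup ↥(Cfsg.SU (n + 2) F q) => A.subgroupOf (⨆ B ∈ {A : Subgroup ↥(Cfsg.SU (n + 2) F q) | ∃ p : Fin (n + 2) → F, p ≠ 0 ∧ Cfsg.hermForm (n + 2) F q p p = 0 ∧
          A = Subgroup.closure {g : ↥(Cfsg.SU (n + 2) F q) |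
            (∀ v : Fin (n + 2) → F, ∃ c : F, ((g : Matrix.SpecialLinearGroup (Fin (n + 2)) F) : Matrix (Fin (n + 2)) (Fin (n + 2)) F) *ᵥ v = v + c • p) ∧
            ∀ v : Fin (n + 2) → F, Cfsg.hermForm (n + 2) F q v p = 0 →
              ((g : Matrix.SpecialLinearGroup (Fin (n + 2)) F) : Matrix (Fin (n + 2)) (Fin (n + 2)) F) *ᵥ v = v}}, B)) ''
      {A : Subgroup ↥(Cfsg.SU (n + 2) F q) | ∃ p : Fin (n + 2) → F, p ≠ 0 ∧ Cfsg.hermForm (n + 2) F q p p = 0 ∧
          A = Subgroup.closure {g : ↥(Cfsg.SU (n + 2) F q) |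
            (∀ v : Fin (n + 2) → F, ∃ c : F, ((g : Matrix.SpecialLinearGroup (Fin (n + 2)) F) : Matrix (Fin (n + 2)) (Fin (n + 2)) F) *ᵥ v = v + c • p) ∧
            ∀ v : Fin (n + 2) → F, Cfsg.hermForm (n + 2) F q v p = 0 →
              ((g : Matrix.SpecialLinearGroup (Fin (n + 2)) F) : Matrix (Fin (n + 2)) (Fin (n + 2)) F) *ᵥ v = v}})) ∧
    Cfsg.IsConnectedFamily (Cfsg.FAdj ((fun A : Subgroup ↥(Cfsg.SU (n + 2) F q) => A.subgroupOf (⨆ B ∈ {A : Subgroup ↥(Cfsg.SU (n + 2) F q) | ∃ p : Fin (n + 2) → F, p ≠ 0 ∧ Cfsg.hermForm (n + 2) F q p p = 0 ∧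
          A = Subgroup.closure {g : ↥(Cfsg.SU (n + 2) F q) |
            (∀ v : Fin (n + 2) → F, ∃ c : F, ((g : Matrix.SpecialLinearGroup (Fin (n + 2)) F) : Matrix (Fin (n + 2)) (Fin (n + 2)) F) *ᵥ v = v + c • p) ∧
            ∀ v : Fin (n + 2) → F, Cfsg.hermForm (n + 2) F q v p = 0 →
              ((g : Matrix.SpecialLinearGroup (Fin (n + 2)) F) : Matrix (Fin (n + 2)) (Fin (n + 2)) F) *ᵥ v = v}}, B)) ''
      {A : Subgroup ↥(Cfsg.SU (n + 2) F q) | ∃ p : Fin (n + 2) → F, p ≠ 0 ∧ Cfsg.hermForm (n + 2) F q p p = 0 ∧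
          A = Subgroup.closure {g : ↥(Cfsg.SU (n + 2) F q) |
            (∀ v : Fin (n + 2) → F, ∃ c : F, ((g : Matrix.SpecialLinearGroup (Fin (n + 2)) F) : Matrix (Fin (n + 2)) (Fin (n + 2)) F) *ᵥ v = v + c • p) ∧
            ∀ v : Fin (n + 2) → F, Cfsg.hermForm (n + 2) F q v p = 0 →
              ((g : Matrix.SpecialLinearGroup (Fin (n + 2)) F) : Matrix (Fin (n + 2)) (Fin (n + 2)) F) *ᵥ v = v}})) ((fun A : Subgroup ↥(Cfsg.SU (n + 2) F q) => A.subgroupOf (⨆ B ∈ {A : Subgroup ↥(Cfsg.SU (n + 2) F q) | ∃ p : Fin (n + 2) → F, p ≠ 0 ∧ Cfsg.hermForm (n + 2) F q p p = 0 ∧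
          A = Subgroup.closure {g : ↥(Cfsg.SU (n + 2) F q) |
            (∀ v : Fin (n + 2) → F, ∃ c : F, ((g : Matrix.SpecialLinearGroup (Fin (n + 2)) F) : Matrix (Fin (n + 2)) (Fin (n + 2)) F) *ᵥ v = v + c • p) ∧
            ∀ v : Fin (n + 2) → F, Cfsg.hermForm (n + 2) F q v p = 0 →
              ((g : Matrix.SpecialLinearGroup (Fin (n + 2)) F) : Matrix (Fin (n + 2)) (Fin (n + 2)) F) *ᵥ v = v}}, B)) ''
      {A : Subgroup ↥(Cfsg.SU (n + 2) F q) | ∃ p : Fin (n + 2) → F, p ≠ 0 ∧ Cfsg.hermForm (n + 2) F q p p = 0 ∧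
          A = Subgroup.closure {g : ↥(Cfsg.SU (n + 2) F q) |
            (∀ v : Fin (n + 2) → F, ∃ c : F, ((g : Matrix.SpecialLinearGroup (Fin (n + 2)) F) : Matrix (Fin (n + 2)) (Fin (n + 2)) F) *ᵥ v = v + c • p) ∧
            ∀ v : Fin (n + 2) → F, Cfsg.hermForm (n + 2) F q v p = 0 →
              ((g : Matrix.SpecialLinearGroup (Fin (n + 2)) F) : Matrix (Fin (n + 2)) (Fin (n + 2)) F) *ᵥ v = v}}) := by
  classical
  let K0 := RingHom.eqLocusField (conj hF) (RingHom.id F)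
  let L := Shrink.{0} K0
  let e : L ≃+* K0 := (equivShrink.{0} K0).symm.ringEquiv
  let _ : Algebra L F := (K0.subtype.comp e.toRingHom).toAlgebra
  have hL : ∀ a : F, conj hF a = a ↔ ∃ l : L, algebraMap L F l = a := fun a =>
    ⟨fun h => ⟨e.symm ⟨a, h⟩, congrArg Subtype.val (e.apply_symm_apply ⟨a, h⟩)⟩, by
      rintro ⟨l, rfl⟩; exact (e l).2⟩
  obtain ⟨c0, h0, h1⟩ := exists_trace_zero_ne_zero hF
  obtain ⟨a, ha⟩ := exists_norm_eq hF (μ := -1) (by simpa using map_neg (conj hF) 1)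
  obtain ⟨X, hX, h, hd, hc, hS⟩ := fam (N := n + 2) hF hL h0 (by
    rw [conj_apply]; linear_combination h1) ⟨Pi.single 0 1 + a • Pi.single 1 1, fun e => by
      simpa using congrFun e 0, by
      simp only [hadd hF, hadd' hF, hermForm_single_right hF, conj_apply]
      simp
      linear_combination ha⟩
  rw [hS]
  have hk := h.kroot_sub
  have hc' := conn_sub (fun _ => le_gen') hc
  let _ : Fintype L := Fintype.ofFinite L
  refine ⟨class_of_conn hk.1 ((hX.image _).image _) hc', deg_sub (fun _ => le_gen') (h.deg hd),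
    ⟨L, inferInstance, inferInstance, ?_, hk⟩, hc'⟩
  rw [← Nat.card_eq_fintype_card, Nat.card_congr e.toEquiv]
  exact card_fixed hF

end Cfsg.Agent.S5071
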