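import Cfsg.Statements.S5073
import Cfsg.Agent.H11.QPd

set_option autoImplicit false
universe u
open Cfsg

namespace Cfsg.Agent.S5073

open Subgroup H16 H16.H11 Cfsg.IsRankOnePair
open scoped commutatorElement


/-- Let k be a field of characteristic not 2 with k not of order 3, M a finite-dimensional k-vector space and G ≤ GL(M) such that (G, M) is a quadratic pair (M irreducible for G, and G generated by its quadratically acting elements σ whose scalar family 1 + c(σ − 1), c ∈ k, lies in G). Write 𝒬_d for the quadratic elements of G of minimal commutator rank, E(σ) for the subgroup generated by the members of 𝒬_d with the same fixed space and commutator space as σ, and Σ for the set of these subgroups. Let E, F ∈ Σ. If some non-identity element of E commutes with some non-identity element of F, or some non-identity element of E normalizes F, then E and F commute elementwise. -/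
theorem result {k : Type u} [Field k] (hk2 : ringChar k ≠ 2) (hk3 : Nat.card k ≠ 3)
    {M : Type u} [AddCommGroup M] [Module k M] [FiniteDimensional k M]
    {G : Subgroup (LinearMap.GeneralLinearGroup k M)} (hG : Cfsg.IsQuadraticPair G)
    {E F : Subgroup (LinearMap.GeneralLinearGroup k M)} (hE : E ∈ Cfsg.quadraticRootSubgroups G) (hF : F ∈ Cfsg.quadraticRootSubgroups G)
    (h : (∃ e ∈ E, e ≠ 1 ∧ ∃ f ∈ F, f ≠ 1 ∧ e * f = f * e) ∨ E ⊓ Subgroup.normalizer (F : Set (LinearMap.GeneralLinearGroup k M)) ≠ ⊥) :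
    ⁅E, F⁆ = ⊥ := by
  obtain ⟨s, hs, rfl⟩ := mem_sigma.1 hE
  obtain ⟨t, ht, rfl⟩ := mem_sigma.1 hF
  have key : ∀ e ∈ RG G s, e ≠ 1 → e ∈ N[RG G t] → ⁅RG G s, RG G t⁆ = ⊥ := fun e he e1 hn => by
    rcases tri hk2 hk3 hs ht with h | h | ⟨h, h0⟩
    · exact comm_eq_bot.2 h
    · exact absurd ((h.rank hk2 hk3 hs ht).eq_one he hn) e1
    · have hb := ex_mem ht.qs.mem
      have h1 : ⁅e, ex t ht.qs.1⁆.1 - 1 ∈ ES G t := mul_mem (conj_mem hn hb) (inv_mem hb)
      rw [comm_val he.1.1 hb.1.1 (h.congr hk2 hk3 hs ht he hb), ex_val] at h1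
      have h2 := h.br_ne hk2 hk3 hs ht h0 he (sub_ne e1) ht.qs.mem ht.ne
      have h3 : t ∈ ES G (s * t - t * s) := by
        rw [← (h.mn hk2 hs ht h0).ES_eq (h.br_mem hk2 hk3 hs ht h0 he ht.qs.mem) h2]
        exact ht.mem_symm h1 h2
      exact absurd (by rw [ES_right h3 (h.sx hs.qs.1), ES_left h3 (h.xs hs.qs.1), sub_self]) h0
  rcases h with ⟨e, he, e1, f, hf, f1, h⟩ | h
  · refine key e he e1 (cj_eq_self_iff.1 ?_)
    have h1 : e.1 * (f.1 - 1) * e⁻¹.1 = f.1 - 1 := by
      rw [mul_sub, sub_mul, ← Units.val_mul, h]; simp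
    rw [← ht.RG_eq hf (sub_ne f1), RG_cj (RG_le he), h1]
  · obtain ⟨e, he, e1⟩ := exists_ne_one h
    exact key e he.1 e1 he.2

end Cfsg.Agent.S5073
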