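import Cfsg.Statements.S5081
import Cfsg.Agent.H13.Normal

set_option autoImplicit false
open Cfsg

namespace Cfsg.Agent.S5081

open H13 Equiv Cfsg.FusionSystem

/-- Let F be a saturated fusion system over a finite p-group S, P a proper subgroup of S that is fully normalized, and H the subgroup of Aut_F(P) generated by the automorphisms that extend to maps of the system defined on strictly larger subgroups of S. Then either P is not essential and H is all of Aut_F(P), or P is essential and the image of H in Out_F(P) = Aut_F(P)/Inn(P) is strongly p-embedded there. -/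
theorem result {Ω : Type*} [Group Ω] {S : Subgroup Ω} [Finite S] (p : ℕ) [Fact p.Prime] (hS : IsPGroup p S) (F : Cfsg.FusionSystem S) (hF : F.IsSaturated p) (P : Subgroup Ω) (hPS : P < S) (hPn : F.IsFullyNormalized P) (H : Subgroup (MulAut P)) (hH : H = Subgroup.closure {α : MulAut P | ∃ (Q : Subgroup Ω) (hPQ : P < Q) (φ : Q →* Ω), φ ∈ F.Hom Q ∧ ∀ x : P, φ (Subgroup.inclusion hPQ.le x) = α x}) : (¬ F.IsEssential p P ∧ H = F.autGroup P) ∨ (F.IsEssential p P ∧ ∃ _ : ((Cfsg.Inn P).subgroupOf (F.autGroup P)).Normal, Cfsg.IsStronglyPEmbedded p ((H.subgroupOf (F.autGroup P)).map (QuotientGroup.mk' ((Cfsg.Inn P).subgroupOf (F.autGroup P))))) := by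
  have hle : H ≤ F.autGroup P := by
    rw [hH, Subgroup.closure_le]
    rintro α ⟨Q, hPQ, φ, hφ, e⟩
    refine (mem_autGroup hPS.le).2 (((mor_fn hφ).restrict hPQ.le).congr fun x hx => ?_)
    rw [fn_apply φ (hPQ.le hx), ext_apply α hx]; exact e ⟨x, hx⟩
  have hmap : H.map (ext P) = HF F P := by
    rw [hH, MonoidHom.map_closure, HF]
    congr 1
    ext σ
    constructor
    · rintro ⟨α, ⟨Q, hPQ, φ, hφ, e⟩, rfl⟩
      obtain ⟨τ, h1, h2⟩ := exists_perm_of_mem hφ
      refine ⟨ext_mem_autF.2 (hle (hH ▸ Subgroup.subset_closure ⟨Q, hPQ, φ, hφ, e⟩)), Q, τ, hPQ, h1,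
        fun x hx => ?_⟩
      rw [ext_apply α hx, ← e ⟨x, hx⟩, h2]; rfl
    · rintro ⟨⟨α, -, rfl⟩, R, τ, hR, hτ, e⟩
      exact ⟨α, ⟨R, hR, _, hτ.toHom_mem, fun x => (e x x.2).trans (ext_coe α x)⟩, rfl⟩
  by_cases h : HF F P = AutF F P
  · refine Or.inl ⟨fun he => (essential_iff_hf hS hF hPS hPn).1 he h, ?_⟩
    exact Subgroup.map_injective (ext_injective P) (hmap.trans h)
  · refine Or.inr ⟨(essential_iff_hf hS hF hPS hPn).2 h, normal_inn_subgroupOf F P, ?_⟩
    obtain ⟨-, h2⟩ := spe_hf hS hF hPS hPn h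
    have := finite_autF_of_le F hPS.le
    rw [← img_outMap hle, hmap]
    exact (spe_iff (homOn_outMap F P) (pre_outMap hPS.le) (img_outMap_top F P)
      (isPGroup_autBy (hS.to_le hPS.le) P) (h2.2.2.2.1.le.trans h2.le) h2.1).2 ⟨_, h2⟩

end Cfsg.Agent.S5081
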