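import Cfsg.Statements.S5087
import Cfsg.Agent.H13.Normal

set_option autoImplicit false
open Cfsg

namespace Cfsg.Agent.S5087

open H13 Equiv Cfsg.FusionSystem

/-- In a saturated fusion system over a finite p-group S, a subgroup Q is normal in the system if and only if every subgroup P that equals S or is essential contains Q and every element of Aut_F(P) maps Q onto itself. -/
theorem result {Ω : Type*} [Group Ω] {S : Subgroup Ω} [Finite S] (p : ℕ) [Fact p.Prime] (hS : IsPGroup p S) (F : Cfsg.FusionSystem S) (hF : F.IsSaturated p) (Q : Subgroup Ω) : F.IsNormal Q ↔ ∀ P : Subgroup Ω, (P = S ∨ F.IsEssential p P) → (Q ≤ P ∧ ∀ α ∈ F.autGroup P, (Q.subgroupOf P).map α.toMonoidHom = Q.subgroupOf P) := by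
  have key : ∀ (P : Subgroup Ω) (hQP : Q ≤ P) (α : MulAut P),
      (Q.subgroupOf P).map α.toMonoidHom = Q.subgroupOf P ↔ Maps Q Q (ext P α) := by
    intro P hQP α
    rw [((homOn_ext α).mono hQP).maps_iff,
      ← map_subgroupOf_eq_img (P.subtype.comp α.toMonoidHom) hQP (fun x => (ext_coe α x).symm),
      ← Subgroup.map_map]
    conv_rhs => rhs; rw [← inf_of_le_left hQP, ← Subgroup.subgroupOf_map_subtype]
    exact (Subgroup.map_injective P.subtype_injective).eq_iff.symm
  constructor
  · intro h P hP
    obtain ⟨h1, h2, -⟩ := centric_radical_of_base hS hF hP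
    have h3 := le_of_normal_of_cr hS h h1 h2
    exact ⟨h3, fun α hα => (key P h3 α).2
      (sc_maps (sc_of_normal h) ((mem_autGroup h1.1).1 hα) h3)⟩
  · intro h
    refine normal_of_base hS hF fun P hP => ⟨(h P hP).1, fun σ hσ => ?_⟩
    obtain ⟨α, hα, e⟩ := hσ.rs_mem
    have := (key P (h P hP).1 α).1 ((h P hP).2 α hα)
    rw [e] at this
    exact this.congr fun x hx => rs_apply hσ.2 ((h P hP).1 hx)

end Cfsg.Agent.S5087
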