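import Cfsg.Statements.S5088
import Cfsg.Agent.H13.Normal

set_option autoImplicit false
open Cfsg

namespace Cfsg.Agent.S5088

open H13 Equiv Cfsg.FusionSystem

/-- In a saturated fusion system over a finite p-group, a subgroup Q is normal in the system if and only if there is a chain of subgroups 1 = Q₀ ≤ Q₁ ≤ ⋯ ≤ Qₙ = Q such that each Qᵢ with i ≥ 1 is strongly closed in the system and [Q, Qᵢ] ≤ Qᵢ₋₁. -/
theorem result {Ω : Type*} [Group Ω] {S : Subgroup Ω} [Finite S] (p : ℕ) [Fact p.Prime] (hS : IsPGroup p S) (F : Cfsg.FusionSystem S) (hF : F.IsSaturated p) (Q : Subgroup Ω) : F.IsNormal Q ↔ ∃ (n : ℕ) (Qs : Fin (n + 1) → Subgroup Ω), Qs 0 = ⊥ ∧ Qs (Fin.last n) = Q ∧ Monotone Qs ∧ ∀ i : Fin n, F.StronglyClosed (Qs i.succ) ∧ ⁅Q, Qs i.succ⁆ ≤ Qs (Fin.castSucc i) := by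
  constructor
  · intro h
    obtain ⟨n, hn⟩ := exists_lowerCentralSeries_eq_bot hS h.1
    refine ⟨n, fun i => Q.lowerCentralSeries (n - i), by simpa using hn, by simp, ?_, fun i => ⟨?_, ?_⟩⟩
    · intro i j hij
      exact Q.lowerCentralSeries_antitone (Nat.sub_le_sub_left hij n)
    · exact sc_of_normal (normal_of_invariant h (Q.lowerCentralSeries_antitone (Nat.zero_le _))
        fun σ hσ => hσ.hom.maps_lowerCentralSeries hσ.2 _)
    · have : n - (Fin.castSucc i : ℕ) = n - (i.succ : ℕ) + 1 := by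
        have := i.2
        simp only [Fin.val_castSucc, Fin.val_succ]; omega
      dsimp only
      rw [this, Subgroup.commutator_comm]; exact le_rfl
  · rintro ⟨n, Qs, h0, hn, -, h⟩
    refine normal_of_chain hS hF (fun i => if hi : i ≤ n then Qs ⟨i, Nat.lt_succ_of_le hi⟩ else ⊥)
      (by simpa using h0) (n := n) (by rw [dif_pos le_rfl]; exact hn) (fun i => ?_) fun i hi => ?_
    · split_ifs with hi
      · rcases i with _ | i
        · exact (show Qs 0 = _ from h0) ▸ sc_bot F
        · exact (h ⟨i, hi⟩).1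
      · exact sc_bot F
    · rw [dif_pos (Nat.succ_le_of_lt hi), dif_pos hi.le, Subgroup.commutator_comm]
      exact (h ⟨i, hi⟩).2

end Cfsg.Agent.S5088
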