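import Cfsg.Statements.S5089
import Cfsg.Agent.H13.Normal

set_option autoImplicit false
open Cfsg

namespace Cfsg.Agent.S5089

open H13 Equiv Cfsg.FusionSystem

/-- A saturated fusion system over a finite p-group has a nontrivial subgroup that is normal in the system (O_p(F) ≠ 1) if and only if some nontrivial abelian subgroup is strongly closed in the system. -/
theorem result {Ω : Type*} [Group Ω] {S : Subgroup Ω} [Finite S] (p : ℕ) [Fact p.Prime] (hS : IsPGroup p S) (F : Cfsg.FusionSystem S) (hF : F.IsSaturated p) : F.core ≠ ⊥ ↔ ∃ Q : Subgroup Ω, Q ≠ ⊥ ∧ IsMulCommutative Q ∧ F.StronglyClosed Q := by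
  constructor
  · intro h
    have h1 := normal_core F
    have := finite_of_le h1.1
    have : Nontrivial F.core := (Subgroup.nontrivial_iff_ne_bot _).2 h
    have h2 := (hS.to_le h1.1).center_nontrivial
    refine ⟨centralizerIn F.core F.core, fun e => ?_, ⟨⟨fun a b => Subtype.ext (b.2.2 a a.2.1)⟩⟩,
      sc_of_normal (normal_of_invariant h1 inf_le_left fun σ hσ => hσ.hom.maps_center hσ.2)⟩
    obtain ⟨⟨x, hx⟩, hx1⟩ := exists_ne (1 : Subgroup.center F.core)
    have : (x : Ω) ∈ centralizerIn F.core F.core :=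
      ⟨x.2, fun y hy => congrArg Subtype.val (Subgroup.mem_center_iff.1 hx ⟨y, hy⟩)⟩
    rw [e, Subgroup.mem_bot] at this
    exact hx1 (Subtype.ext (Subtype.ext this))
  · rintro ⟨Q, h1, h2, h3⟩ e
    have := le_core (normal_of_sc_of_comm hS hF h3 fun a ha b hb =>
      congrArg Subtype.val (h2.is_comm.comm ⟨b, hb⟩ ⟨a, ha⟩))
    exact h1 (le_bot_iff.1 (e ▸ this))

end Cfsg.Agent.S5089
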