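import Cfsg.Statements.S5091
import Cfsg.Agent.H14.Avg

set_option autoImplicit false
set_option linter.unusedVariables false
set_option linter.style.haveILetI false
open Cfsg Cfsg.FusionSystem Equiv H13 H14.Fus
open scoped commutatorElement

namespace Cfsg.Agent.S5091

/-- Model Theorem, uniqueness: two models of a constrained saturated fusion system over a finite p-group S are isomorphic by an isomorphism compatible with the two embeddings of S. -/
theorem result {Ω : Type*} [Group Ω] {S : Subgroup Ω} [Finite S] (p : ℕ) [Fact p.Prime] (hS : IsPGroup p S) (F : Cfsg.FusionSystem S) (hF : F.IsConstrained p) {G₁ G₂ : Type*} [Group G₁] [Group G₂] (ι₁ : S →* G₁) (ι₂ : S →* G₂) (h₁ : F.IsModel p G₁ ι₁) (h₂ : F.IsModel p G₂ ι₂) : ∃ φ : G₁ ≃* G₂, ∀ x : S, φ (ι₁ x) = ι₂ x := by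
  obtain ⟨hfin, a1, a2, a3⟩ := H14.Fus.model_iff.1 h₁
  obtain ⟨hfin', b1, b2, b3⟩ := H14.Fus.model_iff.1 h₂
  obtain ⟨η, c1, c2, -⟩ := a1.exists_inv
  obtain ⟨φ, hφ⟩ := H14.Fus.exists_equiv_of_fIso a2 a3 b2 b3 (b1.comp c1)
  refine ⟨φ, fun x => (hφ _ ⟨x, rfl⟩).trans ?_⟩
  rw [← H13.fn_coe ι₁ x, c2 x x.2, H13.fn_coe]

end Cfsg.Agent.S5091
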