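import Cfsg.Statements.S5094
import Cfsg.Agent.H6.ZS

set_option autoImplicit false
open Cfsg

namespace Cfsg.Agent.S5094

/-- Glauberman's Z*-Theorem in fusion language: for a finite group G with Sylow 2-subgroup S, the centre of the fusion system of G on S is the set of elements of S whose image in G/O(G) is central, O(G) being the largest normal subgroup of odd order. -/
theorem result {G : Type*} [Group G] [Finite G] (S : Sylow 2 G) : (Cfsg.groupFusionSystem (S : Subgroup G)).center = (S : Subgroup G) ⊓ (Subgroup.center (G ⧸ Cfsg.oddCore G)).comap (QuotientGroup.mk' (Cfsg.oddCore G)) := by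
  apply le_antisymm
  · refine sSup_le fun Q hQ x hx => ⟨hQ.1 hx, ?_⟩
    refine H6.mk_mem_center_iff.2 (H6.zstar2 (S := S) ⟨hQ.1 hx, fun g hg => ?_⟩)
    have hle : Subgroup.zpowers x ≤ (S : Subgroup G) := Subgroup.zpowers_le.2 (hQ.1 hx)
    obtain ⟨ψ, -, h1, h2⟩ := hQ.2 (Subgroup.zpowers x) (Cfsg.conjHom _ g) ⟨hle, by
      rintro ⟨_, k, rfl⟩
      show g * x ^ k * g⁻¹ ∈ (S : Subgroup G)
      rw [← conj_zpow]; exact zpow_mem hg k, g, fun _ => rfl⟩
    exact (h1 ⟨x, Subgroup.mem_zpowers x⟩).symm.trans (h2 ⟨x, hx⟩)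
  · rintro x ⟨hxS, hx⟩
    have hw : H6.WC (S : Subgroup G) x := H6.wc_of_inZStar S.isPGroup' hxS (H6.mk_mem_center_iff.1 hx)
    have hle : Subgroup.zpowers x ≤ (S : Subgroup G) := Subgroup.zpowers_le.2 hxS
    refine (le_sSup (s := {Q : Subgroup G | (Cfsg.groupFusionSystem (S : Subgroup G)).IsCentral Q})
      (a := Subgroup.zpowers x) ⟨hle, ?_⟩) (Subgroup.mem_zpowers x)
    rintro P φ ⟨hP, hφ, g, hg⟩
    obtain ⟨v, hv, hv'⟩ := hw.control (P : Set G) g (fun a ha => hw.commute (hP ha))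
      (fun a ha => hw.commute (by rw [← hg ⟨a, ha⟩]; exact hφ _))
    have hx' : ∀ y ∈ Subgroup.zpowers x, v * y * v⁻¹ = y := by
      rintro _ ⟨k, rfl⟩
      exact H6.conj_eq_iff_commute.2 (hv.zpow_right k)
    refine ⟨Cfsg.conjHom _ v, ⟨sup_le hP hle, fun y => ?_, v, fun _ => rfl⟩, fun y => ?_, fun y => hx' _ y.2⟩
    · have : P ⊔ Subgroup.zpowers x ≤ (S : Subgroup G).comap (MulAut.conj v).toMonoidHom := by
        refine sup_le (fun a ha => ?_) (fun a ha => ?_)
        · show v * a * v⁻¹ ∈ (S : Subgroup G)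
          rw [← hv' a ha, ← hg ⟨a, ha⟩]; exact hφ _
        · show v * a * v⁻¹ ∈ (S : Subgroup G)
          rw [hx' a ha]; exact hle ha
      exact this y.2
    · rw [hg]; exact (hv' _ y.2).symm

end Cfsg.Agent.S5094
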