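import Cfsg.Statements.S5102
import Cfsg.Agent.H13.Grp

set_option autoImplicit false
open Cfsg

namespace Cfsg.Agent.S5102

open H13 Equiv Cfsg.FusionSystem

/-- A normal p-subgroup of a finite group G is normal in the fusion system of G on a Sylow p-subgroup. -/
theorem result {G : Type*} [Group G] [Finite G] (p : ℕ) [Fact p.Prime] (S : Sylow p G) (R : Subgroup G) [R.Normal] (hR : IsPGroup p R) : (Cfsg.groupFusionSystem (S : Subgroup G)).IsNormal R := by
  have hRS : R ≤ S := hR.le_sylow_of_normal S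
  refine normal_iff.2 ⟨hRS, fun P σ hσ => ?_⟩
  obtain ⟨hP, h1, g, e⟩ := mor_group_iff.1 hσ
  have hm : Maps R R (cj g) := maps_cj_iff.2 (by rw [Subgroup.normalizer_eq_top]; trivial)
  refine ⟨cj g, mor_group_iff.2 ⟨sup_le hP hRS, ?_, g, fun _ _ => rfl⟩, fun x hx => (e x hx).symm, hm⟩
  rw [← img_le_iff, (homOn_cj _ g).img_sup, hm.img_eq]
  exact sup_le (img_le_iff.2 fun x hx => by rw [cj_apply, ← e x hx]; exact h1 x hx) hRS

end Cfsg.Agent.S5102
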