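import Cfsg.Statements.S5107
import Cfsg.Agent.H13.Foc

set_option autoImplicit false
open Cfsg

namespace Cfsg.Agent.S5107

open H13 Equiv Cfsg.FusionSystem

/-- If a Sylow p-subgroup S of a finite group G has nilpotency class at most two and its centre is strongly closed in S with respect to G, then every map of the fusion system of G on S is conjugation by an element of N_G(S), and S is the largest subgroup normal in that fusion system. -/
theorem result {G : Type*} [Group G] [Finite G] (p : ℕ) [Fact p.Prime] (S : Sylow p G) (hcl : ⁅(S : Subgroup G), (S : Subgroup G)⁆ ≤ (S : Subgroup G) ⊓ Subgroup.centralizer ((S : Subgroup G) : Set G)) (hZ : Cfsg.IsStronglyClosed ((S : Subgroup G) ⊓ Subgroup.centralizer ((S : Subgroup G) : Set G)) (S : Subgroup G)) : (∀ (P : Subgroup G) (φ : P →* G), φ ∈ (Cfsg.groupFusionSystem (S : Subgroup G)).Hom P → ∃ g ∈ Subgroup.normalizer ((S : Subgroup G) : Set G), ∀ x : P, φ x = g * (x : G) * g⁻¹) ∧ (Cfsg.groupFusionSystem (S : Subgroup G)).core = S := by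
  have hF := saturated_group (p := p) S
  have hn : (groupFusionSystem (S : Subgroup G)).IsNormal S := by
    refine normal_of_chain S.isPGroup' hF
      (chain3 ⊥ ((S : Subgroup G) ⊓ Subgroup.centralizer ((S : Subgroup G) : Set G)) S) rfl
      (n := 2) rfl ?_ ?_
    · rintro (_ | _ | i)
      · exact sc_bot _
      · refine stronglyClosed_iff_fun.2 ⟨inf_le_left, fun P f hf x hx hxZ => ?_⟩
        obtain ⟨-, h2, g, e⟩ := mor_group_iff.1 hf
        rw [e x hx]
        exact hZ.2 x hxZ g (e x hx ▸ h2 x hx)
      · exact sc_top _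
    · rintro (_ | _ | i) hi
      · exact (Subgroup.commutator_eq_bot_iff_le_centralizer.2 inf_le_right).le
      · exact hcl
      · omega
  refine ⟨fun P φ hφ => ?_, le_antisymm (core_le _) (le_core hn)⟩
  obtain ⟨σ, h1, h2⟩ := exists_perm_of_mem hφ
  obtain ⟨τ, h3, h4, h5⟩ := normal_extend hn h1
  obtain ⟨-, -, g, e⟩ := mor_group_iff.1 h3
  refine ⟨g, maps_cj_iff.1 (h5.congr fun x hx => e x (le_sup_right (a := P) hx)), fun x => ?_⟩
  rw [h2, ← h4 x x.2, e x (le_sup_left (a := P) x.2)]

end Cfsg.Agent.S5107
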