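import Cfsg.Statements.S5112
import Cfsg.Agent.H13.Foc

set_option autoImplicit false
open Cfsg

namespace Cfsg.Agent.S5112

open H13 Equiv Cfsg.FusionSystem

theorem aux {Ω : Type*} [Group Ω] {S : Subgroup Ω} [Finite S] (hS : IsPGroup 2 S)
    {c : Ω} (hc : c ∈ S) (h4 : c ^ 4 ≠ 1) (h1 : ∀ x ∈ S, x ∉ Subgroup.zpowers c → x ^ 4 = 1)
    (h2 : ∀ x ∈ S, ∀ y ∈ S, x ∉ Subgroup.zpowers c → y ∉ Subgroup.zpowers c →
      x⁻¹ * y ∈ Subgroup.zpowers c) : IsPGroup 2 (AutAll S) := by
  have := finite_autAll S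
  rw [← oUp_eq_bot_iff, eq_bot_iff, oUp_le_iff]
  intro α hα hco
  obtain ⟨a1, a2, a3⟩ := mem_autAll.1 hα
  have hC : Subgroup.zpowers c ≤ S := Subgroup.zpowers_le.2 hc
  have := finite_of_le hC
  have b1 : α c ∈ Subgroup.zpowers c := by
    by_contra h
    have := h1 _ (a2.mem hc) h
    rw [← a1.map_pow hc, ← a1.map_one] at this
    exact h4 (α.injective this)
  have b2 : Maps (Subgroup.zpowers c) (Subgroup.zpowers c) α :=
    (a1.mono hC).maps_of_mem (by
      rintro _ ⟨k, rfl⟩
      rw [a1.map_zpow hc]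
      exact Subgroup.zpow_mem _ b1 k)
  have b3 : IsPGroup 2 (AutAll (Subgroup.zpowers c)) := by
    obtain ⟨k, hk⟩ := IsPGroup.iff_card.1 (hS.to_le hC)
    refine IsPGroup.map (IsPGroup.to_subgroup ?_ ⊤) _ |>.of_equiv
      (MulEquiv.subgroupCongr (MonoidHom.range_eq_map _).symm)
    have h5 : Nat.card (MulAut (Subgroup.zpowers c)) ∣ 2 ^ k := by
      rw [IsCyclic.card_mulAut, hk]
      cases k with
      | zero => simp
      | succ k => rw [Nat.totient_prime_pow_succ Nat.prime_two]; simp [pow_succ]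
    obtain ⟨l, -, hl⟩ := (Nat.dvd_prime_pow Nat.prime_two).1 h5
    exact IsPGroup.of_card hl
  have b4 : ∀ x ∈ Subgroup.zpowers c, α x = x := by
    refine (rs_eq_one_iff b2).1 ?_
    obtain ⟨k, hk⟩ := isPGroup_iff_mem.1 b3 _ (rs_mem_autAll (a1.mono hC) b2)
    exact orderOf_eq_one_iff.1 (Nat.eq_one_of_dvd_coprimes (hco.pow_right k)
      ((homOn_rs _).orderOf_dvd b2) (orderOf_dvd_of_pow_eq_one hk))
  refine perm_ext_on a3 (fun _ _ => rfl) (fix_of_fix_of_coprime hS hC a1 b4 (fun x hx => ?_) hco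
    fun x _ => by rw [pow_orderOf_eq_one]; rfl)
  by_cases hx' : x ∈ Subgroup.zpowers c
  · rw [b4 x hx']; simp
  · exact h2 _ hx _ (a2.mem hx) hx' fun h => hx' ((b2 x).2 h)

theorem aux2 {Ω : Type*} [Group Ω] {S : Subgroup Ω} [Finite S] {G : Type*} [Group G]
    (e : S ≃* G) (hG : IsPGroup 2 G) {c : G} (h4 : c ^ 4 ≠ 1)
    (h1 : ∀ x, x ∉ Subgroup.zpowers c → x ^ 4 = 1)
    (h2 : ∀ x y, x ∉ Subgroup.zpowers c → y ∉ Subgroup.zpowers c → x⁻¹ * y ∈ Subgroup.zpowers c) :
    IsPGroup 2 S ∧ IsPGroup 2 (AutAll S) := by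
  have key : ∀ x : S, (x : Ω) ∈ Subgroup.zpowers (e.symm c : Ω) ↔ e x ∈ Subgroup.zpowers c := by
    intro x
    constructor
    · rintro ⟨k, hk⟩
      refine ⟨k, ?_⟩
      have : x = e.symm c ^ k := Subtype.ext (by rw [← hk]; simp)
      rw [this]; simp
    · rintro ⟨k, hk⟩
      refine ⟨k, ?_⟩
      have : x = e.symm c ^ k := by
        rw [← map_zpow, MulEquiv.eq_symm_apply]; exact hk.symm
      rw [this]; simp
  refine ⟨hG.of_equiv e.symm, aux (hG.of_equiv e.symm) (e.symm c).2 (fun h => h4 ?_)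
    (fun x hx h => ?_) fun x hx y hy h h' => ?_⟩
  · have : e.symm c ^ 4 = 1 := Subtype.ext h
    rwa [← map_pow, MulEquiv.map_eq_one_iff] at this
  · have := h1 _ fun h' => h ((key ⟨x, hx⟩).2 h')
    rw [← map_pow, MulEquiv.map_eq_one_iff] at this
    exact congrArg Subtype.val this
  · have := h2 _ _ (fun k => h ((key ⟨x, hx⟩).2 k)) fun k => h' ((key ⟨y, hy⟩).2 k)
    rw [← map_inv, ← map_mul] at this
    exact (key _).2 this

/-- If S is a dihedral or generalized quaternion 2-group of order at least 16, then in every saturated fusion system over S (at the prime 2) the automorphism group Aut_F(S) consists of the inner automorphisms of S. -/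
theorem result {Ω : Type*} [Group Ω] {S : Subgroup Ω} [Finite S] (n : ℕ) (hn : 4 ≤ n) (hshape : Nonempty (S ≃* DihedralGroup (2 ^ (n - 1))) ∨ Nonempty (S ≃* QuaternionGroup (2 ^ (n - 2)))) (F : Cfsg.FusionSystem S) (hF : F.IsSaturated 2) : F.autGroup S = Cfsg.Inn S := by
  have h8 : ∀ m, n - 1 = m → ¬ 2 ^ m ∣ 4 := fun m hm h => by
    have h1 := Nat.le_of_dvd (by norm_num) h
    have h2 : 2 ^ 3 ≤ 2 ^ m := Nat.pow_le_pow_right (by norm_num) (by omega)
    omega
  have key : IsPGroup 2 S ∧ IsPGroup 2 (AutAll S) := by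
    rcases hshape with ⟨⟨e⟩⟩ | ⟨⟨e⟩⟩
    · have hr : ∀ i : ZMod (2 ^ (n - 1)), DihedralGroup.r i ∈
          Subgroup.zpowers (DihedralGroup.r 1 : DihedralGroup (2 ^ (n - 1))) := fun i =>
        ⟨(i.val : ℤ), by simp⟩
      refine aux2 e (IsPGroup.of_card (n := n - 1 + 1) ?_) (c := DihedralGroup.r 1) ?_ ?_ ?_
      · rw [DihedralGroup.nat_card, pow_succ']
      · intro h
        have := orderOf_dvd_of_pow_eq_one h
        rw [DihedralGroup.orderOf_r_one] at this
        exact h8 _ rfl this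
      · rintro (i | i) h
        · exact absurd (hr i) h
        · rw [show 4 = 2 * 2 from rfl, pow_mul, sq (DihedralGroup.sr i), DihedralGroup.sr_mul_self,
            one_pow]
      · rintro (i | i) (j | j) h h'
        · exact absurd (hr i) h
        · exact absurd (hr i) h
        · exact absurd (hr j) h'
        · rw [DihedralGroup.inv_sr, DihedralGroup.sr_mul_sr]; exact hr _
    · have hr : ∀ i : ZMod (2 * 2 ^ (n - 2)), QuaternionGroup.a i ∈
          Subgroup.zpowers (QuaternionGroup.a 1 : QuaternionGroup (2 ^ (n - 2))) := fun i =>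
        ⟨(i.val : ℤ), by
          simp only [zpow_natCast, QuaternionGroup.a_one_pow, ZMod.natCast_zmod_val]⟩
      refine aux2 e (IsPGroup.of_card (n := n - 2 + 2) ?_) (c := QuaternionGroup.a 1) ?_ ?_ ?_
      · rw [Nat.card_eq_fintype_card, QuaternionGroup.card, pow_add, mul_comm]; rfl
      · intro h
        have := orderOf_dvd_of_pow_eq_one h
        rw [QuaternionGroup.orderOf_a_one, ← pow_succ'] at this
        exact h8 _ (by omega) this
      · rintro (i | i) h
        · exact absurd (hr i) h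
        · exact QuaternionGroup.xa_pow_four i
      · rintro (i | i) (j | j) h h'
        · exact absurd (hr i) h
        · exact absurd (hr i) h
        · exact absurd (hr j) h'
        · have : (QuaternionGroup.xa i)⁻¹ = QuaternionGroup.xa (((2 ^ (n - 2) : ℕ) : ZMod (2 * 2 ^ (n - 2))) + i) := rfl
          rw [this, QuaternionGroup.xa_mul_xa]; exact hr _
  apply Subgroup.map_injective (ext_injective S)
  rw [map_inn]
  exact ((sylIn_autF_top key.1 hF).eq_of_isPGroup (key.2.to_le (autF_le_autAll F S))).symm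

end Cfsg.Agent.S5112
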