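import Cfsg.Statements.S5114
import Cfsg.Agent.H13.OPp

set_option autoImplicit false
open Cfsg

namespace Cfsg.Agent.S5114

open H13 Equiv Cfsg.FusionSystem

/-- Let F be a saturated fusion system over a finite p-group S and E a fusion system over S contained in F. If Aut_E(P) contains the subgroup of Aut_F(P) generated by its elements of p-power order for every subgroup P that is centric in F, then the same holds for every subgroup of S (E has index prime to p in F), every map of F with source a subgroup P of S is an element of Aut_F(S) composed with a map of E, and a subgroup is centric in E exactly when it is centric in F. -/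
theorem result {Ω : Type*} [Group Ω] {S : Subgroup Ω} [Finite S] (p : ℕ) [Fact p.Prime] (hS : IsPGroup p S) (F : Cfsg.FusionSystem S) (hF : F.IsSaturated p) (E : Cfsg.FusionSystem S) (hEF : E.IsSubsystemOf F) (h : ∀ P : Subgroup Ω, F.IsCentric P → (Subgroup.closure {α : ↥(F.autGroup P) | ∃ k : ℕ, orderOf α = p ^ k}).map (F.autGroup P).subtype ≤ E.autGroup P) : E.HasPrimeToPIndexIn F p ∧ (∀ (P : Subgroup Ω) (φ : P →* Ω), φ ∈ F.Hom P → ∃ α ∈ F.autGroup S, ∃ φ₀ ∈ E.Hom P, ∀ (x : P) (hx : φ₀ x ∈ S), φ x = ((α ⟨φ₀ x, hx⟩ : S) : Ω)) ∧ ∀ P : Subgroup Ω, E.IsCentric P ↔ F.IsCentric P := by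
  have hI := inv_ps hS hF
  have hle : (PS F p).IsSubsystemOf E := by
    refine ps_le le_rfl fun P hP α hα k hk => ?_
    have := finite_of_le hP.1
    have h1 := Subgroup.map_mono (f := ext P) (h P hP)
    rw [oUp'_autF] at h1
    exact (iso_of_mem_autF hP.1 (h1 (mem_oUp'_of_pow hα hk))).1
  refine ⟨primeToPIndex_iff.2 ⟨hEF, fun P hP α hα k hk => autF_mono hle hP
    (mem_autF_of_pElt hS hF (H14.Fus.inv_self F) hF hI le_rfl hP hα hk)⟩, fun P φ hφ => ?_,
    fun P => ⟨fun hP => ?_, fun hP => ?_⟩⟩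
  · obtain ⟨α, h1, φ₀, h2, h3⟩ :=
      (H14.Fus.invariantIn_iff.2 hI).2.2.2 P (mor_fn hφ).le φ hφ
    exact ⟨α, h1, φ₀, hle P h2, h3⟩
  · refine tc_top_iff.1 ((tc_iff_centric hI).2 (centric_iff.2 ⟨hP.1, fun Q σ hσ => ?_⟩))
    exact (centric_iff.1 hP).2 Q σ (hσ.of_sub hle)
  · exact centric_iff.2 ⟨hP.1, fun Q σ hσ => (centric_iff.1 hP).2 Q σ (hσ.of_sub hEF)⟩

end Cfsg.Agent.S5114
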