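import Cfsg.Statements.S5115
import Cfsg.Agent.H14.CharP

set_option autoImplicit false
set_option linter.unusedVariables false
set_option linter.style.haveILetI false
open Cfsg Cfsg.FusionSystem Equiv H13 H14.Fus
open scoped commutatorElement

namespace Cfsg.Agent.S5115

theorem aux {G : Type*} [Group G] [Finite G] {p : ℕ} [Fact p.Prime] {S : Subgroup G} (hS : SylIn p S ⊤)
    (hF : (fusionSystemOfSubgroup ⊤ S hS.le).IsConstrained p) {H : Subgroup G} (hH : H.IsSubnormal) :
    ∀ T (hT : T = S ⊓ H), SylIn p T H ∧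
      (fusionSystemOfSubgroup H T (hT.le.trans inf_le_right)).IsConstrained p := by
  induction hH with
  | top =>
    intro T hT
    rw [inf_top_eq] at hT
    subst hT
    exact ⟨hS, hF⟩
  | step H K hle _ hN ih =>
    intro T hT
    obtain ⟨h1, h2⟩ := ih _ rfl
    have hn : K ≤ Subgroup.normalizer (H : Set G) := (Subgroup.normal_subgroupOf_iff_le_normalizer hle).1 hN
    have e : T = S ⊓ K ⊓ H := by rw [hT, inf_assoc, inf_eq_right.2 hle]
    refine ⟨e ▸ h1.inf_normal hle hn, ?_⟩
    exact constrained_of_subnormal h1.isPGroup h2 (subnormal_of_normal (normalIn_ofSubgroup' h1 hle hn e))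

theorem aux' {G : Type*} [Group G] [Finite G] {p : ℕ} [Fact p.Prime] (S : Sylow p G)
    (hF : (groupFusionSystem (S : Subgroup G)).IsConstrained p) {H : Subgroup G} (hH : H.IsSubnormal) :
    ∃ h : SylIn p ((S : Subgroup G).subgroupOf H) ⊤,
      (fusionSystemOfSubgroup ⊤ ((S : Subgroup G).subgroupOf H) h.le).IsConstrained p := by
  rw [group_eq_ofSubgroup] at hF
  obtain ⟨h1, h2⟩ := aux (sylIn_top S) hF hH _ rfl
  have e : ((S : Subgroup G).subgroupOf H).map H.subtype = (S : Subgroup G) ⊓ H :=
    Subgroup.subgroupOf_map_subtype _ _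
  have h3 := (sylIn_subtype_iff e).2 h1
  refine ⟨h3, ?_⟩
  have h4 := fac_ofSubgroup h3 (homOn_hom ⊤ H.subtype) (G' := H) (S' := (S : Subgroup G) ⊓ H)
    (by rw [img_hom, ← MonoidHom.range_eq_map, Subgroup.range_subtype]) (by rw [img_hom, e]) h1.le
  exact (FIso.constrained_iff h3.isPGroup ⟨h4, Subtype.val_injective.injOn⟩).1 h2

/-- If the 2-fusion system of a finite group G on a Sylow 2-subgroup S is constrained, then for every subnormal subgroup H of G the 2-fusion system of H on S ∩ H is constrained. -/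
theorem result {G : Type*} [Group G] [Finite G] (S : Sylow 2 G) (hF : (Cfsg.groupFusionSystem (S : Subgroup G)).IsConstrained 2) (H : Subgroup G) (hH : H.IsSubnormal) : (Cfsg.groupFusionSystem ((S : Subgroup G).subgroupOf H)).IsConstrained 2 := by
  rw [group_eq_ofSubgroup]
  exact (aux' S hF hH).2

end Cfsg.Agent.S5115
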