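import Cfsg.Statements.S5119
import Cfsg.Agent.H14.NSub

set_option autoImplicit false
open Cfsg

namespace Cfsg.Agent.S5119

open H13 Equiv Cfsg.FusionSystem

/-- Let F be a saturated fusion system over a finite p-group S and E a subsystem of F over a subgroup T that is strongly closed in F. Then E is invariant in F (invariance under Aut_F(T) plus the Frattini condition) if and only if the strong invariance condition holds: for P ≤ Q ≤ T, every map φ of E from P into Q and every map ψ of F with source Q, the transported map ψ φ ψ⁻¹ on ψ(P) is a map of E. -/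
theorem result {Ω : Type*} [Group Ω] {S : Subgroup Ω} [Finite S] (p : ℕ) [Fact p.Prime] (hS : IsPGroup p S) (F : Cfsg.FusionSystem S) (hF : F.IsSaturated p) {T : Subgroup Ω} (E : Cfsg.FusionSystem T) (hE : E.IsSubsystemOf F) (hT : F.StronglyClosed T) : E.IsInvariantIn F ↔ ∀ (P Q : Subgroup Ω) (hPQ : P ≤ Q) (_ : Q ≤ T) (φ : P →* Ω) (_ : φ ∈ E.Hom P) (hφQ : ∀ x : P, φ x ∈ Q) (ψ : Q →* Ω) (_ : ψ ∈ F.Hom Q), ∃ χ ∈ E.Hom ((P.subgroupOf Q).map ψ), ∀ (x : P) (hx : ψ (Subgroup.inclusion hPQ x) ∈ (P.subgroupOf Q).map ψ), χ ⟨ψ (Subgroup.inclusion hPQ x), hx⟩ = ψ ⟨φ x, hφQ x⟩ := by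
  rw [H14.Fus.invariantIn_iff]
  constructor
  · intro h P Q hPQ hQ φ hφ hφQ ψ hψ
    obtain ⟨σ, h1, h2⟩ := exists_perm_of_mem hψ
    have h3 := h.conj' (mor_fn hφ) hQ hPQ (fun x hx => by rw [fn_apply φ hx]; exact hφQ _) h1
      (g := fun y => σ (fn φ (σ⁻¹ y))) fun x _ => by rw [inv_ap]
    rw [← map_subgroupOf_eq_img ψ hPQ h2] at h3
    refine ⟨_, h3.toHom_mem, fun x hx => ?_⟩
    show σ (fn φ (σ⁻¹ (ψ (Subgroup.inclusion hPQ x)))) = _
    rw [h2, h2]
    show σ (fn φ (σ⁻¹ (σ x))) = σ (φ x)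
    rw [inv_ap, fn_coe]
  · intro h
    refine H14.Fus.inv_of_strong hS hF hE hT fun P Q f ψ h1 h2 h3 h4 h5 => ?_
    obtain ⟨χ, h6, h7⟩ := h P Q h3 h2 _ h1.toHom_mem (fun x => h4 x x.2) _ h5.toHom_mem
    have e := map_subgroupOf_eq_img h5.hom.toHom h3 (f := ψ) fun _ => rfl
    have h8 := mor_fn h6
    refine (e ▸ h8 : Mor E (img ψ P) (fn χ)).congr fun y hy => ?_
    obtain ⟨x, hx, rfl⟩ := (h5.hom.mono h3).mem_img.1 hy
    rw [inv_ap, fn_apply χ (e ▸ hy)]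
    exact h7 ⟨x, hx⟩ _

end Cfsg.Agent.S5119
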