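import Cfsg.Statements.S5121
import Cfsg.Agent.H14.NModel

set_option autoImplicit false
set_option linter.unusedVariables false
set_option linter.style.haveILetI false
open Cfsg Cfsg.FusionSystem Equiv H13 H14.Fus
open scoped commutatorElement

namespace Cfsg.Agent.S5121

/-- Let G be a finite group with Sylow p-subgroup S and C_G(O_p(G)) ≤ O_p(G). For every subgroup T ≤ S and every normal subsystem E over T of the fusion system of G on S there is exactly one normal subgroup H of G containing T as a Sylow p-subgroup whose fusion system on T is E. -/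
theorem result {G : Type*} [Group G] [Finite G] (p : ℕ) [Fact p.Prime] (S : Sylow p G) (hG : Subgroup.centralizer ((Cfsg.pCore p G : Subgroup G) : Set G) ≤ Cfsg.pCore p G) (T : Subgroup G) (hTS : T ≤ S) (E : Cfsg.FusionSystem T) (hE : E.IsNormalIn (Cfsg.groupFusionSystem (S : Subgroup G)) p) : ∃ H : Subgroup G, (∃ hTH : T ≤ H, H.Normal ∧ (∃ R : Sylow p H, (R : Subgroup H) = T.subgroupOf H) ∧ ∀ P : Subgroup G, E.Hom P = (Cfsg.fusionSystemOfSubgroup H T hTH).Hom P) ∧ ∀ H' : Subgroup G, (∃ hTH' : T ≤ H', H'.Normal ∧ (∃ R : Sylow p H', (R : Subgroup H') = T.subgroupOf H') ∧ ∀ P : Subgroup G, E.Hom P = (Cfsg.fusionSystemOfSubgroup H' T hTH').Hom P) → H' = H := by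
  rw [group_eq_ofSubgroup] at hE
  obtain ⟨H, -, h1, hT, e, hu⟩ := exists_normal_model (sylIn_top S) (charP_top_iff.2 hG) hE
  refine ⟨H, ⟨hT.le, Subgroup.normalizer_eq_top_iff.1 (top_le_iff.1 h1), (sylIn_iff hT.le).1 hT, fun P => by rw [e]⟩,
    fun H' ⟨a1, a2, a3, a4⟩ => hu H' le_top (Subgroup.normalizer_eq_top H').ge ((sylIn_iff a1).2 a3) ?_⟩
  exact fs_antisymm (sub_of_hom_eq a4) (sub_of_hom_eq' a4)

end Cfsg.Agent.S5121
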