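import Cfsg.Statements.S5130
import Cfsg.Agent.H14.CProd

set_option autoImplicit false
set_option linter.unusedVariables false
set_option linter.style.haveILetI false
open Cfsg Cfsg.FusionSystem Equiv H13 H14.Fus
open scoped commutatorElement

namespace Cfsg.Agent.S5130

/-- Let F be a saturated fusion system over a finite p-group S that is the direct product of two subgroups S₁ and S₂, each strongly closed in F. Let R be the full subsystem of F over S₁ (all maps of F between subgroups of S₁) and R′ the subsystem over S₁ of those maps that extend to the subgroup generated with S₂ fixing S₂ elementwise. Then R and R′ are saturated, R′ is normal in F and in R, and R is weakly normal in F. -/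
theorem result {Ω : Type*} [Group Ω] {S : Subgroup Ω} [Finite S] (p : ℕ) [Fact p.Prime] (hS : IsPGroup p S) (F : Cfsg.FusionSystem S) (hF : F.IsSaturated p) (S₁ S₂ : Subgroup Ω) (hprod : Cfsg.IsInternalDirectProduct S₁ S₂ S) (h₁ : F.StronglyClosed S₁) (h₂ : F.StronglyClosed S₂) (R R' : Cfsg.FusionSystem S₁) (hR : ∀ P : Subgroup Ω, P ≤ S₁ → R.Hom P = F.Hom P) (hR' : ∀ P : Subgroup Ω, P ≤ S₁ → R'.Hom P = F.centralizerHom S₂ P) : R.IsSaturated p ∧ R'.IsSaturated p ∧ R'.IsNormalIn F p ∧ R'.IsNormalIn R p ∧ R.IsWeaklyNormalIn F p := by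
  obtain ⟨p1, p2, p3, p4, p5⟩ := hprod
  have hC := isCentralizerSystem_csys F S₂ p2
  have c1 : S₁ ≤ centralizerIn S S₂ := fun a ha => ⟨p1 ha, fun b hb => (p3 a ha b hb).symm⟩
  have c2 := le_centralizerIn_comm p2 c1
  have dec : ∀ x ∈ S, ∃ a ∈ S₁, ∃ b ∈ S₂, a * b = x := fun x hx =>
    (mem_sup_of_normalizes' (c2.trans ((centralizerIn_le_normalizerIn _ _).trans
      (normalizerIn_le_normalizer _ _)))).1 (p5.ge hx)
  have := finite_of_le p1
  have := finite_of_le (centralizerIn_le S S₂)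
  obtain rfl : R = Full F S₁ p1 := fs_ext_mor fun P f => ⟨fun hf => mor_full.2 ⟨hf.le,
    fun x hx => hf.mem hx, (hom_eq_iff.1 (hR P hf.le) f).1 hf⟩,
    fun hf => (hom_eq_iff.1 (hR P hf.le) f).2 (mor_full.1 hf).2.2⟩
  have hsub := H13.centralizerSystem_sub hC
  have s1 := sc_of_sub' hsub h₁ c1
  have m : ∀ P f, Mor R' P f ↔ P ≤ S₁ ∧ CExt F S₂ P f := fun P f =>
    ⟨fun hf => ⟨hf.le, ((hom_eq_centralizerHom.1 (hR' P hf.le) f).1 hf).2⟩,
      fun hf => (hom_eq_centralizerHom.1 (hR' P hf.1) f).2 ⟨hf.1.trans c1, hf.2⟩⟩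
  have m' : ∀ P f, P ≤ S₁ → Mor (Csys F S₂ p2) P f → Mor R' P f := fun P f hP hf =>
    (m P f).2 ⟨hP, ((isCentralizerSystem_iff.1 hC P f).1 hf).2⟩
  have m'' : ∀ P f, Mor R' P f → Mor (Csys F S₂ p2) P f := fun P f hf =>
    (isCentralizerSystem_iff.1 hC P f).2 ⟨hf.le.trans c1, ((m P f).1 hf).2⟩
  have e : R' = Full (Csys F S₂ p2) S₁ c1 := fs_ext_mor fun P f => ⟨fun hf => mor_full.2 ⟨hf.le,
    fun x hx => hf.mem hx, m'' P f hf⟩, fun hf => m' P f hf.le (mor_full.1 hf).2.2⟩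
  have sat1 := saturated_full hS hF h₁ (p5.ge.trans (sup_le_sup_left c2 S₁))
  have sat2 : (Full (Csys F S₂ p2) S₁ c1).IsSaturated p := saturated_full (hS.to_le (centralizerIn_le _ _))
    (saturated_centralizer hS hF (wc_fc (wc_of_sc h₂)) hC) s1 fun x hx => by
      obtain ⟨a, ha, b, hb, rfl⟩ := dec x hx.1
      exact Subgroup.mul_mem_sup ha ⟨(Subgroup.mul_mem_cancel_left _ (c1 ha)).1 hx, (c2 hb).2⟩
  rw [← e] at sat2
  have hsub' : R'.IsSubsystemOf F := isSubsystemOf_iff.2 fun P f hf => ((m P f).1 hf).2.mor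
  have e2 : S₂ ⊔ centralizerIn S S₂ = S := le_antisymm (sup_le p2 (centralizerIn_le _ _))
    (p5.ge.trans (sup_le (c1.trans le_sup_right) le_sup_left))
  have hI : Inv R' F := inv_of_perm hsub' h₁ (fun P σ α hσ hα => by
    obtain ⟨ψ, a1, a2, -⟩ := exists_star hS hF h₁ hα
    have a3' := (a1.1.restrict (p5.ge.trans (sup_le_sup_left c2 S₁))).iso_top
    have a3 : Iso F (S₂ ⊔ centralizerIn S S₂) (S₂ ⊔ centralizerIn S S₂) ψ := by rw [e2]; exact a3'
    have a4 := conj_csys h₂ hC a3 (m'' _ _ hσ)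
    have a5 := (hα.hom.mono hσ.le).maps_img
    rw [img_congr fun x hx => a2 x (hσ.le hx)] at a4
    refine m' _ _ (img_le_iff.2 fun x hx => hα.mem (hσ.le hx)) (a4.congr fun y hy => ?_)
    obtain ⟨x, hx, rfl⟩ := (hα.hom.mono hσ.le).mem_img.1 hy
    rw [mul_ap, mul_ap, mul_ap, mul_ap, inv_ap, ← a2 x (hσ.le hx), inv_ap, a2 _ (hσ.mem hx)])
    fun P σ hP hσ => by
      obtain ⟨ψ, a1, a2⟩ := exists_star_factor hS hF h₂ hσ.iso (hP.trans c1)
        ((iso_le_of_sc h₁ hσ.iso hP).trans c1) hC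
      have a3 : S₁ ≤ S₂ ⊔ centralizerIn S S₂ := c1.trans le_sup_right
      exact ⟨ψ, a1.restrict a3 (sc_maps h₁ a1.1 a3), m' _ _ hP a2⟩
  have hRR : R'.IsSubsystemOf (Full F S₁ p1) := sub_full hsub'
  refine ⟨sat1, sat2, normalIn_iff.2 ⟨sat2, hF, hI, fun α hα => ?_⟩, normalIn_iff.2 ⟨sat2, sat1,
    hI.of_sub hS sat1 hRR (full_sub F S₁ p1), extCond_of_centralizer_le hRR (centralizerIn_le _ _)⟩,
    weaklyNormalIn_iff.2 ⟨sat1, hF, inv_full h₁⟩⟩
  obtain ⟨τ, a1, a2, a3⟩ := ((m _ _).1 hα.1).2.perm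
  replace a1 := a1.restrict p5.ge
  refine ⟨τ, a1.restrict (sup_le p1 (centralizerIn_le _ _)), a2, fun c hc => ?_⟩
  obtain ⟨a, ha, b, hb, rfl⟩ := dec c hc.1
  have a4 := S₁.mul_mem (S₁.inv_mem ha) (hα.mem ha)
  rw [a1.hom.map_mul (p1 ha) (p2 hb), a2 a ha, a3 b hb,
    show (a * b)⁻¹ * (α a * b) = b⁻¹ * (a⁻¹ * α a * b) by group, p3 _ a4 b hb, inv_mul_cancel_left]
  exact a4

end Cfsg.Agent.S5130
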