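import Cfsg.Statements.S5139
import Cfsg.Agent.H13.OP

set_option autoImplicit false
open Cfsg

namespace Cfsg.Agent.S5139

open H13 Equiv Cfsg.FusionSystem

/-- Let G be a finite group with Sylow p-subgroup S and O^p(G) the subgroup generated by the elements of order prime to p. Then the p-residual subsystem of the fusion system of G on S — the saturated subsystem of p-power index over the hyperfocal subgroup — is the fusion system of O^p(G) on S ∩ O^p(G): its maps are exactly the conjugation maps by elements of O^p(G) between subgroups of S ∩ O^p(G). -/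
theorem result {G : Type*} [Group G] [Finite G] (p : ℕ) [Fact p.Prime] (S : Sylow p G) (E : Cfsg.FusionSystem ((Cfsg.groupFusionSystem (S : Subgroup G)).hyperfocalSubgroup p)) (hE : (Cfsg.groupFusionSystem (S : Subgroup G)).IsPResidual p E) : ∃ h : (S : Subgroup G) ⊓ Cfsg.pResidual p G ≤ Cfsg.pResidual p G, ∀ P : Subgroup G, E.Hom P = (Cfsg.fusionSystemOfSubgroup (Cfsg.pResidual p G) ((S : Subgroup G) ⊓ Cfsg.pResidual p G) h).Hom P := by
  refine ⟨inf_le_right, fun P => ?_⟩
  have hS := sylIn_top S
  have h1 : (groupFusionSystem (S : Subgroup G)).hyperfocalSubgroup p =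
      (S : Subgroup G) ⊓ pResidual p G := by
    rw [group_eq_ofSubgroup, ← oUp_top]
    exact hyp_ofSubgroup hS
  have h2 : SylIn p ((S : Subgroup G) ⊓ pResidual p G) (pResidual p G) := by
    rw [← oUp_top]
    exact hS.inf_normal le_top (le_normalizer_oUp p ⊤)
  have h3 := pPowerIndex_ofSubgroup hS (K := pResidual p G) le_top (oUp_top p).le inf_le_left
    inf_le_right (by rw [oUp_top])
  rw [← group_eq_ofSubgroup] at h3
  exact le_antisymm (sub_of_pPowerIndex S.isPGroup' hE.1 hE.2.1 h3 h1.le P)
    (sub_of_pPowerIndex S.isPGroup' (saturated_ofSubgroup h2) h3.1 hE.2 h1.ge P)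

end Cfsg.Agent.S5139
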