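import Cfsg.Statements.S5142
import Cfsg.Agent.H13.OPp

set_option autoImplicit false
open Cfsg

namespace Cfsg.Agent.S5142

open H13 Equiv Cfsg.FusionSystem

/-- Let F be a saturated fusion system over a finite p-group S and E a normal subsystem of F over T. Then the p'-residual subsystem of E (the least saturated subsystem of E over T of index prime to p) is contained in every normal subsystem of F over T; together with its normality in F (the case of a weakly normal E) this makes it the least normal subsystem of F over T. -/
theorem result {Ω : Type*} [Group Ω] {S : Subgroup Ω} [Finite S] (p : ℕ) [Fact p.Prime] (hS : IsPGroup p S) (F : Cfsg.FusionSystem S) (hF : F.IsSaturated p) {T : Subgroup Ω} (E : Cfsg.FusionSystem T) (hE : E.IsNormalIn F p) (D : Cfsg.FusionSystem T) (hD : E.IsPPrimeResidual p D) : ∀ D' : Cfsg.FusionSystem T, D'.IsNormalIn F p → D.IsSubsystemOf D' := by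
  intro D' hD'
  have hT := H14.Fus.nrm_le hE
  haveI := finite_of_le hT
  rw [eq_opp (isPGroup_of_le hS hT) (H14.Fus.nrm_sat hE) hD]
  exact opp_le_of_inv hS hF (H14.Fus.nrm_inv hE) (H14.Fus.nrm_sat hE) (H14.Fus.nrm_inv hD')
    (H14.Fus.nrm_sat hD') le_rfl

end Cfsg.Agent.S5142
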