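import Cfsg.Statements.S5143
import Cfsg.Agent.H14.ES4

set_option autoImplicit false
set_option linter.unusedVariables false
set_option linter.style.haveILetI false
open Cfsg Cfsg.FusionSystem Equiv H13 H14.Fus
open scoped commutatorElement

namespace Cfsg.Agent.S5143

theorem aux {Ω : Type*} [Group Ω] {p : ℕ} [Fact p.Prime] {R T U : Subgroup Ω} [Finite R] {D : FusionSystem R}
    {D₁ : FusionSystem T} {E₁ : FusionSystem U} (h : D₁.HasPPowerIndexIn D p) (e : ∀ P, D₁.Hom P = E₁.Hom P) :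
    E₁.HasPPowerIndexIn D p := by
  obtain rfl := eq_of_hom_eq e
  obtain rfl := H13.fs_ext e
  exact h


/-- Let F be a saturated fusion system over a finite p-group S, E a normal subsystem over T, and R a subgroup with T ≤ R ≤ S. Then there is exactly one saturated subsystem D of F over R (exactly one family of map sets) whose p-residual subsystem is that of E: the hyperfocal subgroups of D and E coincide and the p-residual subsystems of D and of E have the same maps. -/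
theorem result {Ω : Type*} [Group Ω] {S : Subgroup Ω} [Finite S] (p : ℕ) [Fact p.Prime] (hS : IsPGroup p S) (F : Cfsg.FusionSystem S) (hF : F.IsSaturated p) {T : Subgroup Ω} (E : Cfsg.FusionSystem T) (hE : E.IsNormalIn F p) (R : Subgroup Ω) (hTR : T ≤ R) (hRS : R ≤ S) : ∃ D : Cfsg.FusionSystem R, (D.IsSaturated p ∧ D.IsSubsystemOf F ∧ D.hyperfocalSubgroup p = E.hyperfocalSubgroup p ∧ ∀ (D₁ : Cfsg.FusionSystem (D.hyperfocalSubgroup p)) (E₁ : Cfsg.FusionSystem (E.hyperfocalSubgroup p)), D.IsPResidual p D₁ → E.IsPResidual p E₁ → ∀ P : Subgroup Ω, D₁.Hom P = E₁.Hom P) ∧ ∀ D' : Cfsg.FusionSystem R, D'.IsSaturated p → D'.IsSubsystemOf F → D'.hyperfocalSubgroup p = E.hyperfocalSubgroup p → (∀ (D₁ : Cfsg.FusionSystem (D'.hyperfocalSubgroup p)) (E₁ : Cfsg.FusionSystem (E.hyperfocalSubgroup p)), D'.IsPResidual p D₁ → E.IsPResidual p E₁ → ∀ P : Subgroup Ω, D₁.Hom P = E₁.Hom P) → ∀ P : Subgroup Ω, D'.Hom P = D.Hom P := by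
  have hI := nrm_inv hE
  haveI := finite_of_le hRS
  haveI := finite_of_le hI.le
  have hR := isPGroup_of_le hS hRS
  have hT := isPGroup_of_le hS hI.le
  have s := pd_saturated hS hF hE hTR hRS
  have i := pd_pPowerIndex hS hI (nrm_sat hE) hTR hRS
  have h1 := hyp_of_pPowerIndex hR s i
  obtain ⟨E₀, h0⟩ := exists_pResidual hT (nrm_sat hE)
  have n0 := pResidual_normalIn hS hF hE h0
  have i0 := pPowerIndex_trans h0.2 i h1.ge
  refine ⟨PD E F p R, ⟨s, pd_sub hRS, h1.symm, fun D₁ E₁ a1 a2 => ?_⟩, fun D' a1 a2 a3 a4 => ?_⟩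
  · have a3 := pPowerIndex_trans a2.2 i h1.ge
    exact hom_eq_of_sub_sub (sub_of_pPowerIndex hR a1.1 a1.2.1 a3 h1.ge) (sub_of_pPowerIndex hR a2.1 a3.1 a1.2 h1.le)
  · obtain ⟨D₁, b1⟩ := exists_pResidual hR a1
    have b2 := aux b1.2 (a4 D₁ E₀ b1 h0)
    exact hom_eq_of_sub_sub (prod_sub hS hF n0 a1 s a2 (pd_sub hRS) b2 i0 le_rfl)
      (prod_sub hS hF n0 s a1 (pd_sub hRS) a2 i0 b2 le_rfl)

end Cfsg.Agent.S5143
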