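import Cfsg.Statements.S5147
import Cfsg.Agent.H14.CharP
import Cfsg.Agent.S5115

set_option autoImplicit false
set_option linter.unusedVariables false
set_option linter.style.haveILetI false
open Cfsg Cfsg.FusionSystem Equiv H13 H14.Fus
open scoped commutatorElement

namespace Cfsg.Agent.S5147

/-- Let G be a finite group with Sylow 2-subgroup S whose 2-fusion system on S is constrained, and L a component of G (a subnormal quasisimple subgroup). Then the 2-fusion system of L/Z(L) on the image of S ∩ L is constrained. -/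
theorem result {G : Type*} [Group G] [Finite G] (S : Sylow 2 G) (hF : (Cfsg.groupFusionSystem (S : Subgroup G)).IsConstrained 2) (L : Subgroup G) (hL : Cfsg.IsComponent L) : (Cfsg.groupFusionSystem (((S : Subgroup G).subgroupOf L).map (QuotientGroup.mk' (Subgroup.center L)))).IsConstrained 2 := by
  obtain ⟨h1, h2⟩ := Cfsg.Agent.S5115.aux' S hF hL.1
  rw [group_eq_ofSubgroup]
  have h4 := fac_ofSubgroup h1 (homOn_hom ⊤ (QuotientGroup.mk' (Subgroup.center L))) (G' := ⊤)
    (S' := ((S : Subgroup G).subgroupOf L).map (QuotientGroup.mk' (Subgroup.center L)))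
    (by rw [img_hom, Subgroup.map_top_of_surjective _ (QuotientGroup.mk'_surjective _)])
    (by rw [img_hom]) le_top
  refine h4.constrained h1.isPGroup ?_ h2
  have hle : pre ((S : Subgroup G).subgroupOf L) (QuotientGroup.mk' (Subgroup.center L)) ⊥ ≤ _ :=
    fun x hx => (h4.hom.mem_pre.1 hx).1
  refine central_of_cExt hle fun P f hf => ?_
  obtain ⟨a1, a2, g, -, a3⟩ := mor_ofSubgroup_iff.1 hf
  have key : ∀ x ∈ pre ((S : Subgroup G).subgroupOf L) (QuotientGroup.mk' (Subgroup.center L)) ⊥,
      g * x * g⁻¹ = x := by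
    intro x hx
    have h5 : x ∈ Subgroup.center L := (QuotientGroup.eq_one_iff x).1 (h4.hom.mem_pre.1 hx).2
    rw [Subgroup.mem_center_iff.1 h5 g, mul_inv_cancel_right]
  refine ⟨cj g, mor_ofSubgroup_iff.2 ⟨sup_le a1 hle, ?_, g, trivial, fun _ _ => rfl⟩,
    fun x hx => (a3 x hx).symm, key⟩
  refine img_le_iff.1 ?_
  rw [(homOn_cj _ g).img_sup]
  refine sup_le (img_le_iff.2 fun x hx => ?_) (img_le_iff.2 fun x hx => ?_)
  · have := a2 x hx
    rwa [a3 x hx] at this
  · have := hle hx
    rwa [← key x hx] at this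

end Cfsg.Agent.S5147
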