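import Cfsg.Statements.S5156
import Cfsg.Agent.H14.CharP
import Cfsg.Agent.H14.ZLift

set_option autoImplicit false
universe u
set_option linter.unusedVariables false
set_option linter.style.haveILetI false
open Cfsg Cfsg.FusionSystem Equiv H13 H14.Fus
open scoped commutatorElement

namespace Cfsg.Agent.S5156

universe v w

theorem no_comp {Ω : Type v} [Group Ω] {p : ℕ} [Fact p.Prime] {S : Subgroup Ω} {F : FusionSystem S}
    {q : ℕ} (h : F.HasTerminatingResidualSeries q) : q = p → Finite S → IsPGroup p S → F.IsSaturated p →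
      ∀ (T : Subgroup Ω) (C : FusionSystem T), ¬ C.IsComponentIn F p := by
  induction h with
  | trivial F q h0 =>
    intro _ _ hS hF T C hC
    have h1 := comp_le hF hC
    have : Finite T := finite_of_le h1
    exact qs_not_le_center (hS.to_le h1) hC.2 (h1.trans (h0.le.trans bot_le))
  | @step S F E q D hE hD _ ih =>
    rintro rfl _ hS hF T C hC
    obtain rfl := eq_opp hS hF hE
    have h1 := comp_le hF hC
    have : Finite T := finite_of_le h1
    have hl := H13.hyp_le (F := OPp F q) (p := q)
    have : Finite ((OPp F q).hyperfocalSubgroup q) := finite_of_le hl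
    have h2 := comp_of_le hS hF hC (.step (.refl _ _) (opp_normalIn hS hF (inv_self F) hF)) h1
    refine ih rfl inferInstance (hS.to_le hl) hD.1 T C (comp_of_le hS hE.1 h2
      (.step (.refl _ _) (normalIn_of_pResidual hS hE.1 hD)) ?_)
    exact hC.2.2.1.ge.trans (H13.hyp_mono (comp_sub hE.1 h2))

theorem iter_bot {Ω : Type v} [Group Ω] {p : ℕ} [Fact p.Prime] {S : Subgroup Ω} {F : FusionSystem S}
    {q : ℕ} (h : F.HasTerminatingResidualSeries q) {Ω' : Type w} [Group Ω'] {θ : Ω → Ω'} :
    q = p → Finite S → IsPGroup p S → F.IsSaturated p →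
      ∀ (G R : Subgroup Ω') (_ : Finite G) (hR : SylIn p R G), ChP p G →
        FIso F (fusionSystemOfSubgroup G R hR.le) θ → ∃ n, (Rstep p)^[n] G = ⊥ := by
  induction h with
  | trivial F q h0 =>
    intro _ _ hS hF G R _ hR hG hi
    refine ⟨0, le_bot_iff.1 fun g hg => ?_⟩
    have h1 : R = ⊥ := by
      rw [← hi.img_eq]; subst h0; exact hi.hom.img_bot
    have h2 : Op p G = ⊥ := le_bot_iff.1 (hR.op_le.trans h1.le)
    have h3 := hG (x := g) ⟨hg, by rw [h2]; simp [Subgroup.mem_centralizer_iff]⟩
    rwa [h2] at h3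
  | @step S F E q D hE hD _ ih =>
    rintro rfl _ hS hF G R _ hR hG hi
    obtain rfl := eq_opp hS hF hE
    have hl := H13.hyp_le (F := OPp F q) (p := q)
    obtain ⟨h1, h2, h3⟩ := fIso_rstep hS hF hR hG hi hD
    obtain ⟨n, hn⟩ := ih rfl (finite_of_le hl) (hS.to_le hl) hD.1 _ _ (finite_of_le (rstep_le G)) h2 h1 h3
    exact ⟨n + 1, hn⟩

theorem term_of_iter {Ω : Type v} [Group Ω] {p : ℕ} [Fact p.Prime] {Ω' : Type w} [Group Ω'] {θ : Ω → Ω'}
    (n : ℕ) : ∀ (S : Subgroup Ω) (F : FusionSystem S), Finite S → IsPGroup p S → F.IsSaturated p →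
      ∀ (G R : Subgroup Ω') (_ : Finite G) (hR : SylIn p R G), ChP p G →
        FIso F (fusionSystemOfSubgroup G R hR.le) θ → (Rstep p)^[n] G = ⊥ →
          F.HasTerminatingResidualSeries p := by
  induction n with
  | zero =>
    intro S F _ hS hF G R _ hR hG hi h0
    refine .trivial F p (le_bot_iff.1 fun x hx => ?_)
    have h1 : θ x ∈ (⊥ : Subgroup Ω') := h0.le (hR.le (hi.img_eq.le (mem_img_of_mem θ hx)))
    exact hi.ker.le (hi.hom.mem_pre.2 ⟨hx, h1⟩)
  | succ n ih =>
    intro S F _ hS hF G R _ hR hG hi h0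
    obtain ⟨D, hD⟩ := exists_pResidual hS (saturated_opp hS hF)
    have hl := H13.hyp_le (F := OPp F p) (p := p)
    obtain ⟨h1, h2, h3⟩ := fIso_rstep hS hF hR hG hi hD
    exact .step F _ p D (isPPrimeResidual_opp hS hF) hD
      (ih _ D (finite_of_le hl) (hS.to_le hl) hD.1 _ _ (finite_of_le (rstep_le G)) h2 h1 h3 h0)

/-- A saturated fusion system over a finite p-group has a terminating alternating chain of p'-residual and p-residual subsystems (the chain reaches the trivial system — the notion of solvability adapted to fusion systems of p-solvable groups) if and only if it is constrained and its models are p-solvable (a model is a finite group realizing the system on a Sylow p-subgroup with self-centralizing largest normal p-subgroup; it exists and is unique up to isomorphism for constrained systems). -/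
theorem result {Ω : Type u} [Group Ω] {S : Subgroup Ω} [Finite S] (p : ℕ) [Fact p.Prime] (hS : IsPGroup p S) (F : Cfsg.FusionSystem S) (hF : F.IsSaturated p) : F.HasTerminatingResidualSeries p ↔ (F.IsConstrained p ∧ ∀ (G : Type u) [Group G] (ι : S →* G), F.IsModel p G ι → Cfsg.IsPSolvable p G) := by
  constructor
  · intro h
    refine ⟨constrained_of_no_comp hS hF (no_comp h rfl inferInstance hS hF), fun G _ ι hι => ?_⟩
    obtain ⟨_, h1, h2, h3⟩ := model_iff.1 hι
    exact pSolvable_iff.2 (iter_bot h rfl inferInstance hS hF ⊤ _ inferInstance h2 h3 h1)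
  · rintro ⟨hc, h⟩
    obtain ⟨G, _, ι, hι⟩ := exists_model_of_constrained hS hc
    obtain ⟨_, h1, h2, h3⟩ := model_iff.1 hι
    obtain ⟨n, hn⟩ := pSolvable_iff.1 (h G ι hι)
    exact term_of_iter n S F inferInstance hS hF ⊤ _ inferInstance h2 h3 h1 hn

end Cfsg.Agent.S5156
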