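import Cfsg.Statements.S5160
import Cfsg.Agent.H13.Simple

set_option autoImplicit false
open Cfsg

namespace Cfsg.Agent.S5160

open H13 Equiv Cfsg.FusionSystem

/-- Let G be a finite group with nontrivial Sylow p-subgroup S and F its fusion system on S. Suppose (a) no nontrivial proper subgroup of S is strongly closed in F, and (b) the automorphisms of S induced by G are generated by those induced, for R running over the fully normalized radical centric subgroups of F, by the subgroup of N_G(R) generated by its elements of p-power order. Then F is simple. -/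
theorem result {G : Type*} [Group G] [Finite G] (p : ℕ) [Fact p.Prime] (S : Sylow p G) (hS1 : (S : Subgroup G) ≠ ⊥) (ha : ∀ T : Subgroup G, (Cfsg.groupFusionSystem (S : Subgroup G)).StronglyClosed T → T = ⊥ ∨ T = (S : Subgroup G)) (hb : Cfsg.autInducedBy ⊤ (S : Subgroup G) = ⨆ (R : Subgroup G) (_ : (Cfsg.groupFusionSystem (S : Subgroup G)).IsFullyNormalized R ∧ (Cfsg.groupFusionSystem (S : Subgroup G)).IsRadical p R ∧ (Cfsg.groupFusionSystem (S : Subgroup G)).IsCentric R), Cfsg.autInducedBy (Subgroup.closure {g : G | g ∈ Subgroup.normalizer (R : Set G) ∧ ∃ k : ℕ, orderOf g = p ^ k}) (S : Subgroup G)) : (Cfsg.groupFusionSystem (S : Subgroup G)).IsSimple p := by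
  refine simple_of_opp S.isPGroup' (saturated_group S) hS1 ha
    (opp_eq_of_autF_le S.isPGroup' (saturated_group S) ?_)
  rw [autF_group le_rfl, ← map_autInducedBy, hb, Subgroup.map_iSup]
  refine iSup_le fun R => ?_
  rw [Subgroup.map_iSup]
  refine iSup_le fun ⟨_, _, hR⟩ => ?_
  rw [map_autInducedBy]
  intro σ hσ
  obtain ⟨g, h1, h2, rfl⟩ := mem_autBy.1 hσ
  rw [group_eq_ofSubgroup] at hR ⊢
  refine cr_mem_autO hR ?_ h2
  refine (Subgroup.closure_le _).2 (fun x hx => ?_) h1
  obtain ⟨k, hk⟩ := orderOf_eq_pow_iff.1 hx.2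
  exact mem_oUp'_of_pow ⟨trivial, hx.1⟩ hk

end Cfsg.Agent.S5160
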