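import Cfsg.Statements.S5163
import Cfsg.Agent.H13.LinSL
import Cfsg.Agent.H23.Mat
import Cfsg.Agent.H22.Linear

set_option autoImplicit false
open Cfsg

namespace Cfsg.Agent.S5163

open H13 Equiv Cfsg.FusionSystem

/-- For a finite field K of characteristic p and n ≥ 3, the p-fusion system of the projective special linear group PSL_n(K) on a Sylow p-subgroup is simple. -/
theorem result {K : Type*} [Field K] [Fintype K] (p : ℕ) [Fact p.Prime] [CharP K p] (n : ℕ) (hn : 3 ≤ n) (S : Sylow p (Matrix.ProjectiveSpecialLinearGroup (Fin n) K)) : (Cfsg.groupFusionSystem (S : Subgroup (Matrix.ProjectiveSpecialLinearGroup (Fin n) K))).IsSimple p := by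
  haveI : Finite (Matrix.SpecialLinearGroup (Fin n) K) :=
    Finite.of_injective _ Subtype.val_injective
  refine simple_quot_center (H23.matE (slToMat n K)) (H23.matE_injective Subtype.val_injective)
    (H := H23.SLv K (Fin n → K)) ?_ (fun S₀ h => simple_SLv (by simpa using hn) h) ?_ S
  · ext g
    constructor
    · rintro ⟨A, rfl⟩
      rw [H23.mem_SLv, H23.det_matE]
      exact A.2
    · intro hg
      let A : Matrix.SpecialLinearGroup (Fin n) K :=
        ⟨((H23.glE _ K).symm g : GL _ K), by rw [H23.det_glE_symm]; exact H23.mem_SLv.1 hg⟩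
      exact ⟨A, LinearEquiv.ext fun v => H23.glE_symm_mulVec g v⟩
  · rw [H22.card_center_SL n (by omega)]
    refine Nat.Coprime.coprime_dvd_left (Nat.gcd_dvd_right _ _) ?_
    obtain ⟨k, -, hk⟩ := FiniteField.card K p
    rw [hk]
    have h1 : 1 ≤ p ^ (k : ℕ) := Nat.one_le_pow _ _ (Fact.out : p.Prime).pos
    refine Nat.Coprime.coprime_dvd_right (dvd_pow_self p k.ne_zero) ?_
    exact (Nat.coprime_self_sub_left h1).2 (Nat.coprime_one_left _)

end Cfsg.Agent.S5163
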