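import Cfsg.Statements.S5164
import Cfsg.Agent.H13.AltSimple

set_option autoImplicit false
open Cfsg

namespace Cfsg.Agent.S5164

open H13 Equiv Cfsg.FusionSystem

/-- For n ≥ 6 and a prime p, a nontrivial Sylow p-subgroup of the alternating group of degree n is abelian if and only if n < p². -/
theorem result (n p : ℕ) (hn : 6 ≤ n) [Fact p.Prime] (S : Sylow p (alternatingGroup (Fin n))) (hS : (S : Subgroup (alternatingGroup (Fin n))) ≠ ⊥) : IsMulCommutative S ↔ n < p ^ 2 := by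
  have hp := (Fact.out : p.Prime)
  constructor
  · intro hc
    by_contra hnp
    have h1 : p ≤ n / p := (Nat.le_div_iff_mul_le hp.pos).2 (by rw [← pow_two]; omega)
    have h2 : 3 ≤ n / p := by
      by_cases h : p = 2
      · subst h; omega
      · have := hp.two_le; omega
    obtain ⟨f⟩ : Nonempty (Fin n ≃ ((ZMod p ⊕ Fin (n / p - p)) × ZMod p ⊕ Fin (n % p))) := by
      refine Finite.card_eq.1 ?_
      rw [Nat.card_sum, Nat.card_prod, Nat.card_sum, Nat.card_zmod, Nat.card_fin, Nat.card_fin,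
        Nat.card_fin, Nat.add_sub_cancel' h1]
      exact (Nat.div_add_mod' _ _).symm
    obtain ⟨P, hP, hτ⟩ := exists_sylIn_ge (H := ⊤) (isPGroup_zpowers (p := p)
      (x := Sym.tau (Fin (n / p - p)) (1 : ZMod p)) (k := 1) (by simp [Sym.tau_pow_p])) le_top
    replace hτ := hτ (Subgroup.mem_zpowers _)
    have h3 := (Sym.comm_iff_of_range _ (f.permCongrHom.injective.comp Subtype.val_injective)
      (Sym.range_alt f) (Sym.sylIn_alt (by simpa using Nat.mod_lt _ hp.pos) hP) S).1 hc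
    obtain ⟨b, h4, h5⟩ := Sym.exists_third (β := ZMod p ⊕ Fin (n / p - p)) (by simp; omega)
      (Sum.inl 0) (Sum.inl 1)
    have h6 := h3 _ ⟨Sym.Eb_le P (Sym.e_mem _), Sym.e_sub_mem_alt (Sum.inl 0) b 1⟩ _
      ⟨Sym.hw_mem hτ, Sym.hw_mem_alt (k := 1) (by simp [Sym.tau_pow_p])⟩
    have h7 := congrArg (fun k : Perm _ => k (Sum.inl (Sum.inl 0, 0))) h6
    simp [Sym.tau, h4.symm, h5.symm] at h7
  · intro hnp
    obtain ⟨f⟩ := Sym.exists_equiv p (Fin n)
    obtain ⟨P, hP⟩ := exists_sylIn p (⊤ : Subgroup (Perm (Fin (Nat.card (Fin n) / p))))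
    refine (Sym.comm_iff_of_range _ (f.permCongrHom.injective.comp Subtype.val_injective)
      (Sym.range_alt f) (Sym.sylIn_alt (by simpa using Nat.mod_lt _ hp.pos) hP) S).2 ?_
    have h1 : ∀ σ ∈ P, σ = 1 := fun σ hσ => by
      obtain ⟨k, hk⟩ := isPGroup_iff_mem.1 hP.isPGroup σ hσ
      have h2 : orderOf σ ∣ (Nat.card (Fin n) / p).factorial := by
        simpa [Fintype.card_perm] using orderOf_dvd_natCard σ
      refine orderOf_eq_one_iff.1 (Nat.eq_one_of_dvd_coprimes (Nat.Coprime.pow_left k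
        (hp.coprime_iff_not_dvd.2 fun h => ?_)) (orderOf_dvd_of_pow_eq_one hk) h2)
      have := (Nat.le_div_iff_mul_le hp.pos).1 (hp.dvd_factorial.1 h)
      rw [Nat.card_fin, ← pow_two] at this
      omega
    rintro _ ⟨⟨t, σ, h2, rfl⟩, -⟩ _ ⟨⟨t', σ', h3, rfl⟩, -⟩
    rw [h1 σ h2, h1 σ' h3]
    exact Sym.e_comm t t'

end Cfsg.Agent.S5164
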