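import Cfsg.Statements.S5165
import Cfsg.Agent.H13.AltSimple

set_option autoImplicit false
open Cfsg

namespace Cfsg.Agent.S5165

open H13 Equiv Cfsg.FusionSystem

/-- For n ≥ 6, a prime p with p² ≤ n, and n congruent to 0 or 1 modulo p, the p-fusion system of the alternating group of degree n on a Sylow p-subgroup is simple. -/
theorem result (n p : ℕ) (hn : 6 ≤ n) [Fact p.Prime] (hnp : p ^ 2 ≤ n) (hb : n % p ≤ 1) (S : Sylow p (alternatingGroup (Fin n))) : (Cfsg.groupFusionSystem (S : Subgroup (alternatingGroup (Fin n)))).IsSimple p := by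
  have hp := (Fact.out : p.Prime)
  have h1 : p ≤ n / p := (Nat.le_div_iff_mul_le hp.pos).2 (by rwa [← pow_two])
  have h2 : 3 ≤ n / p := by
    by_cases h : p = 2
    · subst h; omega
    · have := hp.two_le; omega
  haveI : Subsingleton (Fin (n % p)) := Fin.subsingleton_iff_le_one.2 hb
  obtain ⟨f⟩ : Nonempty (Fin n ≃ ((ZMod p ⊕ Fin (n / p - p)) × ZMod p ⊕ Fin (n % p))) := by
    refine Finite.card_eq.1 ?_
    rw [Nat.card_sum, Nat.card_prod, Nat.card_sum, Nat.card_zmod, Nat.card_fin, Nat.card_fin,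
      Nat.card_fin, Nat.add_sub_cancel' h1]
    exact (Nat.div_add_mod' _ _).symm
  obtain ⟨S₀, h, hs⟩ := Sym.simple_alternating (p := p) (β' := Fin (n / p - p))
    (γ := Fin (n % p)) (by simp; omega)
  exact simple_of_range _ (f.permCongrHom.injective.comp Subtype.val_injective) (Sym.range_alt f) h hs S

end Cfsg.Agent.S5165
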