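import Cfsg.Statements.S5171
import Cfsg.Agent.H13.LinForm2
import Cfsg.Agent.H23.Det

set_option autoImplicit false
open Cfsg

namespace Cfsg.Agent.S5171

open H13 Equiv Cfsg.FusionSystem

/-- For a finite field K of characteristic p and m ≥ 2, excluding the case m = 2 with K of two elements, the p-fusion system of the projective symplectic group PSp_{2m}(K) on a Sylow p-subgroup is simple. -/
theorem result {K : Type*} [Field K] [Fintype K] (p : ℕ) [Fact p.Prime] [CharP K p] (m : ℕ) (hm : 2 ≤ m) (hex : m = 2 → 3 ≤ Fintype.card K) (S : Sylow p (Cfsg.PSp m K)) : (Cfsg.groupFusionSystem (S : Subgroup (Cfsg.PSp m K))).IsSimple p := by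
  haveI : Finite (Matrix.symplecticGroup (Fin m) K) :=
    Finite.of_injective _ Subtype.val_injective
  refine simple_quot_center (H23.matE (spToMat m K)) (H23.matE_sp_injective m)
    (H := (H23.spForm m K).E) ?_ (fun S₀ h => simple_alt (H23.spForm_nondeg m) rfl rfl
      (by simp; omega) ?_ h) ?_ S
  · rw [H23.range_matE_sp, H23.Form.E_alt (H23.spForm_nondeg m) rfl rfl]
  · by_cases h2 : m = 2
    · left
      classical
      by_contra hh
      have h3 := hex h2
      have : (Finset.univ : Finset K) ⊆ {0, 1} := fun a _ => by
        by_contra h4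
        simp only [Finset.mem_insert, Finset.mem_singleton, not_or] at h4
        exact hh ⟨a, h4⟩
      have h5 := Finset.card_le_card this
      have h6 := Finset.card_le_two (a := (0 : K)) (b := 1)
      rw [Finset.card_univ] at h5
      omega
    · right; simp; omega
  · rw [H22.card_center_Sp m (by omega)]
    exact Nat.Coprime.coprime_dvd_left (Nat.gcd_dvd_right _ _) (coprime_card_sub_one K p)

end Cfsg.Agent.S5171
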