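import Cfsg.Statements.S5172
import Cfsg.Agent.H13.LinForm2
import Cfsg.Agent.H23.Det

set_option autoImplicit false
open Cfsg

namespace Cfsg.Agent.S5172

open H13 Equiv Cfsg.FusionSystem

/-- For a finite field K with q² elements of characteristic p and n ≥ 4, the p-fusion system of the projective special unitary group PSU_n(q) (realised over K) on a Sylow p-subgroup is simple. -/
theorem result {K : Type*} [Field K] [Fintype K] (p q : ℕ) [Fact p.Prime] [CharP K p] (hK : Fintype.card K = q ^ 2) (n : ℕ) (hn : 4 ≤ n) (S : Sylow p (Cfsg.PSU n K q)) : (Cfsg.groupFusionSystem (S : Subgroup (Cfsg.PSU n K q))).IsSimple p := by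
  haveI : Finite (Matrix.SpecialLinearGroup (Fin n) K) :=
    Finite.of_injective _ Subtype.val_injective
  refine simple_quot_center (H23.matE ((slToMat n K).comp (SU n K q).subtype))
    (H23.su_matE_injective n) (H := (H23.huForm hK n).E) ?_
    (fun S₀ h => simple_herm (H23.conj_ne_id hK) (H23.huForm_nondeg hK n) rfl
      (by simpa using hn) h) ?_ S
  · rw [H23.Form.E_herm (H23.conj_ne_id hK) (H23.huForm_nondeg hK n) rfl (by simpa using hn)]
    ext g
    constructor
    · rintro ⟨A, rfl⟩
      refine ⟨(H23.mem_SU_iff hK).1 A.2, H23.mem_SLv.2 ?_⟩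
      rw [H23.det_matE]
      exact A.1.2
    · exact fun hg => H23.exists_SU_eq hK hg.1 (H23.mem_SLv.1 hg.2)
  · rw [H22.card_center_SU hK n (by omega)]
    refine Nat.Coprime.coprime_dvd_left (Nat.gcd_dvd_right _ _) ?_
    refine Nat.Coprime.coprime_dvd_left ?_ (coprime_card_sub_one K p)
    rw [hK]
    exact ⟨q - 1, by simpa using Nat.sq_sub_sq q 1⟩

end Cfsg.Agent.S5172
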