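import Cfsg.Statements.S5311
import Cfsg.Agent.H14.Grp

set_option autoImplicit false
set_option linter.unusedVariables false
set_option linter.style.haveILetI false
open Cfsg Cfsg.FusionSystem Equiv H13 H14.Fus
open scoped commutatorElement

namespace Cfsg.Agent.S5311

theorem layer_img {Ω : Type*} [Group Ω] {S : Subgroup Ω} [Finite S] {p : ℕ} [Fact p.Prime] (hS : IsPGroup p S)
    {F : FusionSystem S} (hF : F.IsSaturated p) {θ : Ω → Ω} (h : FIso F F θ) {T T' : Subgroup Ω} {E : FusionSystem T}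
    {E' : FusionSystem T'} (hE : E.IsLayerOf F p) (h' : Fac E E' θ) : E.IsSubsystemOf E' := by
  refine hE.2.2 _ E' (h.normalIn hS h' hE.1) fun U C hC => ?_
  obtain ⟨η, hη, e1, e2, e3, e4⟩ := h.exists_inv
  have hU := (subnormal_facts hF hC.1).1
  haveI := finite_of_le hU
  obtain ⟨C', hC'⟩ := exists_fIso C (hη.hom.mono hU) (hη.inj.mono hU) rfl
  have h1 := hE.2.1 _ C' (hη.component hS hF hC'.fac hC)
  obtain ⟨ζ, hζ, e5, -⟩ := hC'.exists_inv
  refine (hζ.fac.congr fun y hy => ?_).sub_of h'.fHom h1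
  obtain ⟨x, hx, rfl⟩ := hC'.fac.surj hy
  rw [e5 x hx, e2 x (hU hx)]

/-- The layer of a saturated fusion system F over a finite p-group S is characteristic in F: for every automorphism α of S that is an automorphism of F (α and its inverse are morphisms from F to F) and every layer E of F over T, α carries T onto T and, for every map φ of E with source P, the map induced by α on α(P) (that is, α ∘ φ ∘ α⁻¹) is a map of E. -/
theorem result {Ω : Type*} [Group Ω] {S : Subgroup Ω} [Finite S] (p : ℕ) [Fact p.Prime] (hS : IsPGroup p S) (F : Cfsg.FusionSystem S) (hF : F.IsSaturated p)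
    (α : ↥S ≃* ↥S) (hα : F.IsMorphism F (S.subtype.comp α.toMonoidHom))
    (hα' : F.IsMorphism F (S.subtype.comp α.symm.toMonoidHom))
    {T : Subgroup Ω} (E : Cfsg.FusionSystem T) (hE : E.IsLayerOf F p) :
    Cfsg.FusionSystem.imageAlong (S.subtype.comp α.toMonoidHom) T = T ∧
      ∀ (P : Subgroup Ω) (φ : ↥P →* Ω), φ ∈ E.Hom P →
        ∀ φ' : ↥(Cfsg.FusionSystem.imageAlong (S.subtype.comp α.toMonoidHom) P) →* Ω,
          Cfsg.FusionSystem.InducedAlong (S.subtype.comp α.toMonoidHom) φ φ' →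
            φ' ∈ E.Hom (Cfsg.FusionSystem.imageAlong (S.subtype.comp α.toMonoidHom) P) := by
  have h1 := isMorphism_iff.1 hα
  have h2 := isMorphism_iff.1 hα'
  set θ := fn (S.subtype.comp α.toMonoidHom) with hθ
  set η := fn (S.subtype.comp α.symm.toMonoidHom) with hη
  have e1 : ∀ x ∈ S, η (θ x) = x := fun x hx => by
    rw [hη, fn_apply _ (h1.mem x hx)]
    simp [hθ, fn_apply _ hx]
  have e2 : ∀ x ∈ S, θ (η x) = x := fun x hx => by
    rw [hθ, fn_apply _ (h2.mem x hx)]
    simp [hη, fn_apply _ hx]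
  have hi : Set.InjOn θ S := fun a ha b hb e => by rw [← e1 a ha, e, e1 b hb]
  have h : FIso F F θ := ⟨fac_of_iso h1.hom hi (le_antisymm (img_le_iff.2 h1.mem) fun x hx =>
    e2 x hx ▸ mem_img_of_mem θ (h2.mem x hx)) (fun P f' hP hf' => by
      obtain ⟨f, hf, e⟩ := h2.down _ f' hf'
      rw [(h1.hom.mono hP).img_comp, img_eq_self fun x hx => e1 x (hP hx)] at hf
      refine ⟨f, hf, fun x hx => ?_⟩
      have := e _ (mem_img_of_mem θ hx)
      rw [e1 x (hP hx)] at this
      rw [this, e2 _ (hf'.mem (mem_img_of_mem θ hx))]) h1.down, hi⟩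
  have hT := nrm_le hE.1
  haveI := finite_of_le hT
  obtain ⟨E', hE'⟩ := exists_fIso E (h.hom.mono hT) (hi.mono hT) rfl
  have h3 := layer_img hS hF h hE hE'.fac
  have h4 : img θ T = T := by
    haveI := hE'.finite
    exact (eq_of_le_of_card_le (le_of_isSubsystemOf h3) (inj_card_img h.hom hi hT).le).symm
  refine ⟨(imageAlong_eq _ hT).trans h4, fun P φ hφ φ' hi' => ?_⟩
  obtain ⟨ζ, hζ, -, e5, -, -⟩ := h.exists_inv
  obtain ⟨E'', hE''⟩ := exists_fIso E (hζ.hom.mono hT) (hζ.inj.mono hT) rfl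
  have h5 := layer_img hS hF hζ hE hE''.fac
  obtain ⟨ξ, hξ, e6, -⟩ := hE''.exists_inv
  have h6 : E'.IsSubsystemOf E := hE'.fac.sub_of (hξ.fac.congr fun y hy => by
    obtain ⟨x, hx, rfl⟩ := hE''.fac.surj hy
    rw [e6 x hx, e5 x (hT hx)]).fHom h5
  have hm := mor_fn hφ
  obtain ⟨f', hf', e⟩ := hE'.fac.down P _ hm
  obtain ⟨-, -, -, e'⟩ := (inducedAlong_iff _).1 hi'
  refine mem_hom_iff.2 ?_
  generalize fn φ' = k at e'
  rw [imageAlong_eq _ (hm.le.trans hT)]
  refine (hf'.of_sub h6).congr fun y hy => ?_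
  obtain ⟨x, hx, rfl⟩ := (h.hom.mono (hm.le.trans hT)).mem_img.1 hy
  rw [e x hx, e' x hx]

end Cfsg.Agent.S5311
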