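import Cfsg.Statements.S5345
import Cfsg.Agent.H28.TT1
import Cfsg.Agent.H6.Inv

set_option autoImplicit false
open Cfsg

namespace Cfsg.Agent.S5345



/-- Let D be a conjugation-invariant generating set of 3-transpositions of a finite group G and T a Sylow 2-subgroup of G. Then the members of D lying in T generate an abelian subgroup, and their number is the width of D (the largest number of pairwise commuting members of D). -/
theorem result {G : Type*} [Group G] [Finite G] {D : Set G} (hD : Cfsg.IsThreeTranspositionGroup D) (T : Sylow 2 G) : IsMulCommutative (Subgroup.closure {d : G | d ∈ D ∧ d ∈ T}) ∧ {d : G | d ∈ D ∧ d ∈ T}.ncard = Cfsg.commutingWidth D := by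
  have hc : ∀ a ∈ {d : G | d ∈ D ∧ d ∈ T}, ∀ b ∈ {d : G | d ∈ D ∧ d ∈ T}, Commute a b :=
    fun a ha b hb => H28.tt_commute_of_mem_two_group hD.1 T.isPGroup' ha.1 hb.1
      ((T : Subgroup G).mul_mem ha.2 hb.2)
  refine ⟨⟨⟨fun x y => Subtype.ext ((H28.closure_commuting
    (fun a ha => H28.tt_sq hD.1 ha.1) hc).1 _ x.2 _ y.2).eq⟩⟩, ?_⟩
  symm
  refine IsGreatest.csSup_eq ⟨⟨_, fun a ha => ha.1, Set.toFinite _, hc, rfl⟩, ?_⟩
  rintro n ⟨E, hE, -, hEc, rfl⟩
  obtain ⟨g, hg⟩ := H6.exists_conj_le_sylow T (H28.isPGroup_closure_commuting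
    (fun a ha => H28.tt_sq hD.1 (hE ha)) hEc)
  refine Set.ncard_le_ncard_of_injOn (fun x => g * x * g⁻¹)
    (fun a ha => ⟨hD.2.1 g a (hE ha), hg a (Subgroup.subset_closure ha)⟩)
    (fun a _ b _ h => H28.conj_inj h) (Set.toFinite _)

end Cfsg.Agent.S5345
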