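import Cfsg.Statements.S5346
import Cfsg.Agent.H18.TT2

set_option autoImplicit false
open Cfsg

namespace Cfsg.Agent.S5346



/-- Let D be a conjugation-invariant generating set of 3-transpositions of a finite group G and d a member of D. Then D has width 1 (no two different members of D commute) if and only if G is the product of the subgroup generated by d with the largest normal 3-subgroup of G. -/
theorem result {G : Type*} [Group G] [Finite G] {D : Set G} (hD : Cfsg.IsThreeTranspositionGroup D) {d : G} (hd : d ∈ D) : Cfsg.commutingWidth D = 1 ↔ Subgroup.zpowers d ⊔ Cfsg.pCore 3 G = ⊤ := by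
  have hT := H18.TT.of_group hD
  rw [H18.width_eq_one_iff hd]
  refine ⟨fun h => H18.top_of_coset hD.2.2 hT hd fun a ha => hT.mul_mem_O3_of h hd ha, fun h => ?_⟩
  have key : ∀ a ∈ D, d * a ∈ Cfsg.pCore 3 G := fun a ha =>
    (H18.mem_or_of_sup (hT.sq hd) h a).resolve_left fun h3 => H28.tt_ne_one hD.1 ha
      (H28.eq_one_of_isPGroup (H1.isPGroup_pCore 3) (n := 2) (by decide) h3
        (by rw [pow_two, hT.sq ha]))
  intro a ha b hb hc
  refine H18.Wr.eq ((hT.wr_iff ha hb).2 ?_) hb hc
  have := mul_mem (inv_mem (key a ha)) (key b hb)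
  rwa [mul_inv_rev, hT.inv ha, mul_assoc, inv_mul_cancel_left] at this

end Cfsg.Agent.S5346
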