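import Cfsg.Statements.S5353
import Cfsg.Agent.H18.TT5

set_option autoImplicit false
open Cfsg

namespace Cfsg.Agent.S5353



/-- Let D be a conjugacy class of 3-transpositions generating the finite group G, with at least two members, such that the largest normal 2-subgroup and the largest normal 3-subgroup of G are central, and let L be a quasisimple normal subgroup with generalized Fitting subgroup of G equal to L times the centre. If L has index at most 2 then G acts primitively on D by conjugation; and if the commuting graph of D is connected then L has index at most 2. -/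
theorem result {G : Type*} [Group G] [Finite G] {D : Set G} (hD : Cfsg.IsThreeTranspositionClass D) (hD2 : ∃ a ∈ D, ∃ b ∈ D, a ≠ b) (h2 : Cfsg.pCore 2 G ≤ Subgroup.center G) (h3 : Cfsg.pCore 3 G ≤ Subgroup.center G) (L : Subgroup G) [L.Normal] (hL : Cfsg.IsQuasisimple L) (hF : Cfsg.generalizedFittingSubgroup G = L ⊔ Subgroup.center G) : (L.index ≤ 2 → Cfsg.IsPrimitiveUnderConj D) ∧ ((Cfsg.commutingGraph D).Connected → L.index ≤ 2) := by
  have h := H18.TC.of_class hD hD2
  have c := h.cent_le h2 h3 hF
  obtain ⟨d, hd⟩ := h.ne
  exact ⟨fun i => h.prim_of_rel (h.relPrim_of_trans hL c (h.trans_of_index i)),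
    fun e => h.index_of_conn hL c ((H18.connected_iff hd).1 e)⟩

end Cfsg.Agent.S5353
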