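import Cfsg.Statements.S5354
import Cfsg.Agent.H18.TT5

set_option autoImplicit false
open Cfsg

namespace Cfsg.Agent.S5354



/-- Let D be a conjugation-invariant generating set of 3-transpositions of the finite group G on which G acts primitively by conjugation, and suppose two different members of D commute (width at least 2). Then G has a quasisimple normal subgroup L of index at most 2 with the generalized Fitting subgroup of G equal to L times the centre, the commuting graph of D is connected, and for d in D the subgroup generated by the members of D commuting with d is a maximal D-subgroup: it is proper, and every subgroup generated by members of D that contains it is either it or G. -/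
theorem result {G : Type*} [Group G] [Finite G] {D : Set G} (hD : Cfsg.IsThreeTranspositionGroup D) (hprim : Cfsg.IsPrimitiveUnderConj D) (hw : ∃ a ∈ D, ∃ b ∈ D, a ≠ b ∧ Commute a b) : (∃ L : Subgroup G, L.Normal ∧ Cfsg.IsQuasisimple L ∧ L.index ≤ 2 ∧ Cfsg.generalizedFittingSubgroup G = L ⊔ Subgroup.center G) ∧ (Cfsg.commutingGraph D).Connected ∧ ∀ d ∈ D, Subgroup.closure {y : G | y ∈ D ∧ Commute d y} ≠ ⊤ ∧ ∀ H : Subgroup G, Cfsg.IsDSubgroup D H → Subgroup.closure {y : G | y ∈ D ∧ Commute d y} ≤ H → H = Subgroup.closure {y : G | y ∈ D ∧ Commute d y} ∨ H = ⊤ := by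
  have h0 : H18.TC D := ⟨H18.TT.of_group hD, hD.2.2, hprim.1, hprim.2.1⟩
  have h : H18.TP D := ⟨h0, h0.relPrim hprim, hw⟩
  obtain ⟨d0, hd0⟩ := h0.ne
  refine ⟨⟨Cfsg.layer G, inferInstance, h.qs, h.index, h0.fstar_eq h.O2 h.O3⟩,
    (H18.connected_iff hd0).2 h.conn, fun d hd => ⟨fun e => h0.not_center hd ?_, fun H hH le => ?_⟩⟩
  · refine Subgroup.mem_center_iff.2 fun g => ?_
    have : Subgroup.closure {y : G | y ∈ D ∧ Commute d y} ≤ Subgroup.centralizer {d} :=
      (Subgroup.closure_le _).2 fun y hy => H6.mem_cent_iff_commute.2 hy.2.symm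
    exact (H6.mem_cent_iff_commute.1 (this (e ▸ Subgroup.mem_top g))).eq
  · by_cases c : ∃ c ∈ D, c ∈ H ∧ ¬ Commute d c
    · obtain ⟨c, hc, hcH, n⟩ := c
      refine Or.inr (hH.symm.trans (h.maximal hd (fun _ hx => hx.1) (fun y hy e =>
        Subgroup.subset_closure ⟨hy, le (Subgroup.subset_closure ⟨hy, e⟩)⟩) hc
        (Subgroup.subset_closure ⟨hc, hcH⟩) n))
    · refine Or.inl (le_antisymm (hH.symm.le.trans (Subgroup.closure_mono fun y hy => ⟨hy.1, ?_⟩)) le)
      by_contra n
      exact c ⟨y, hy.1, hy.2, n⟩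

end Cfsg.Agent.S5354
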