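import Cfsg.Statements.S5355
import Cfsg.Agent.H3.Tt

set_option autoImplicit false
open Cfsg

namespace Cfsg.Agent.S5355

/-- Let D be a conjugacy class of 3-transpositions generating the finite group G, with at least two members, and d a member of D. Suppose that every member of D commuting with d commutes with exactly the same members of D as d does, and that exactly one member of D other than d commutes with d. Then G is isomorphic to the symmetric group of degree 4. -/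
theorem result {G : Type*} [Group G] [Finite G] {D : Set G} (hD : Cfsg.IsThreeTranspositionClass D) (hD2 : ∃ a ∈ D, ∃ b ∈ D, a ≠ b) {d : G} (hd : d ∈ D) (hV : {y : G | y ∈ D ∧ Commute d y} = {v : G | v ∈ D ∧ ∀ e ∈ D, Commute v e ↔ Commute d e}) (hm : {y : G | y ∈ D ∧ Commute d y}.ncard = 2) : Nonempty (G ≃* Equiv.Perm (Fin 4)) := by
  have h := H18.TC.of_class hD hD2
  obtain ⟨x, y, hxy, e⟩ := Set.ncard_eq_two.1 hm
  have two : ∀ a ∈ D, ∀ p ∈ D, ∀ q ∈ D, Commute a p → Commute a q → p ≠ a → q ≠ a → p = q :=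
    fun a ha p hp q hq c1 c2 n1 n2 => by
    obtain ⟨g, rfl⟩ := h.cls d hd a ha
    have k1 := e.le ⟨h.cj' g hp, H18.commute_conj_left.1 c1⟩
    have k2 := e.le ⟨h.cj' g hq, H18.commute_conj_left.1 c2⟩
    have k3 := e.le ⟨hd, Commute.refl d⟩
    have k4 := H18.ne_conj_iff.1 n1
    have k5 := H18.ne_conj_iff.1 n2
    have : g⁻¹ * p * g = g⁻¹ * q * g := by
      generalize g⁻¹ * p * g = p at *
      generalize g⁻¹ * q * g = q at *
      rcases k1 with rfl | rfl <;> rcases k2 with rfl | rfl <;> rcases k3 with rfl | rfl <;> tauto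
    simpa using this
  obtain ⟨c, ⟨hc, dc⟩, n⟩ : ∃ c ∈ {y : G | y ∈ D ∧ Commute d y}, c ≠ d := by
    by_cases k : x = d
    exacts [⟨y, e.ge (by simp), k ▸ hxy.symm⟩, ⟨x, e.ge (by simp), k⟩]
  obtain ⟨b, hb, db⟩ := h.nc hd
  obtain ⟨φ, i, h1, -⟩ := h.s4 hd hb hc n.symm dc db fun k =>
    db (((hV.le ⟨hc, dc⟩).2 b hb).1 k.symm)
  refine ⟨(MulEquiv.ofBijective φ ⟨i, MonoidHom.range_eq_top.1 (eq_top_iff.2 (h.gen.ge.trans
    ((Subgroup.closure_le _).2 fun a ha => by_contra fun k => ?_)))⟩).symm⟩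
  obtain ⟨p, hp, q, hq, k1, k2, k3, k4, k5, -⟩ := H3.Fs.four h.toTT i (h1 ▸ hd) ha fun s hs c => by
    obtain ⟨t, ht, c', n'⟩ : ∃ t : Equiv.Perm (Fin 4), t.IsSwap ∧ s * t = t * s ∧ t ≠ s := by
      obtain ⟨u, v, k, rfl⟩ := hs
      clear c; revert u v; unfold Equiv.Perm.IsSwap; decide +kernel
    have m := fun s => H3.Fs.swap_mem h.toTT (φ := φ) (s := s) (by decide) (h1 ▸ hd)
    exact k ⟨t, two _ (m s hs) _ (m t ht) a ha (Commute.map c' φ) c (i.ne n') fun e => k ⟨s, e.symm⟩⟩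
  exact k1 (two a ha p hp q hq k4 k5 k2 k3)

end Cfsg.Agent.S5355
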