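import Cfsg.Statements.S5356
import Cfsg.Agent.H3.Tt

set_option autoImplicit false
open Cfsg

namespace Cfsg.Agent.S5356

/-- Let D be a conjugacy class of 3-transpositions generating the finite group G, with at least two members, and d a member of D such that every member of D commuting with d commutes with exactly the same members of D as d. Then there is a Sylow 3-subgroup P of G normalized by d such that G is generated by d, P and the largest normal 2-subgroup of G. -/
theorem result {G : Type*} [Group G] [Finite G] {D : Set G} (hD : Cfsg.IsThreeTranspositionClass D) (hD2 : ∃ a ∈ D, ∃ b ∈ D, a ≠ b) {d : G} (hd : d ∈ D) (hV : {y : G | y ∈ D ∧ Commute d y} = {v : G | v ∈ D ∧ ∀ e ∈ D, Commute v e ↔ Commute d e}) : ∃ P : Sylow 3 G, d ∈ Subgroup.normalizer (P : Set G) ∧ Subgroup.zpowers d ⊔ (P : Subgroup G) ⊔ Cfsg.pCore 2 G = ⊤ := by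
  have h := H18.TC.of_class hD hD2
  obtain ⟨Q, h1, h2, h3⟩ := H3.Fs.syl h (O := pCore 2 G) (H1.isPGroup_pCore 2) (fun a ha b hb c => by
    obtain ⟨g, rfl⟩ := h.cls d hd a ha
    refine (h.vr_iff ha hb).1 fun e he => ?_
    have := (hV.le ⟨h.cj' g hb, H18.commute_conj_left.1 c⟩).2 _ (h.cj' g he)
    rw [H18.commute_conj_left, ← this, ← H28.commute_conj_iff g]
    simp [mul_assoc]) hd
  have := H3.Fs.syl_of (H1.isPGroup_pCore 2) h1 (Subgroup.zpowers_le.2 h2)
    (H10.isPGroup_zpowers (k := 1) (by simpa [pow_two] using h.sq hd))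
  obtain ⟨P, rfl⟩ := (h3 ▸ this).exists_sylow_top
  exact ⟨P, h2, h3⟩

end Cfsg.Agent.S5356
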