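import Cfsg.Statements.S5358
import Cfsg.Agent.H3.Rf3

set_option autoImplicit false
open scoped MatrixGroups
open Cfsg

namespace Cfsg.Agent.S5358

/-- Let Q be a non-degenerate quadratic form on the n-dimensional coordinate space over the field with three elements and u, v vectors of the same non-zero norm Q(u) = Q(v) spanning different lines (v ≠ u and v ≠ −u). Then the reflection matrices of u and v commute if and only if u and v are orthogonal for the polar form of Q. -/
theorem result (n : ℕ) (Q : QuadraticForm (ZMod 3) (Fin n → ZMod 3)) (hQ : (QuadraticMap.polarBilin Q).Nondegenerate) (u v : Fin n → ZMod 3) (hu : Q u ≠ 0) (huv : Q u = Q v) (h1 : v ≠ u) (h2 : v ≠ -u) : Commute (Cfsg.reflectionMatrix (⇑Q) u) (Cfsg.reflectionMatrix (⇑Q) v) ↔ QuadraticMap.polar (⇑Q) u v = 0 := by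
  have hκ := H23.Form.ofQuad_κ Q
  have k : ∀ v, ∃ g : isometryGroup (ZMod 3) Q, g.1.1 = reflectionMatrix Q v ∧
      H22.isomEquiv Q g = H22.refl hκ v := fun v =>
    ⟨(H22.isomEquiv Q).symm _, H22.coe_eq_reflectionMatrix_iff.2 (MulEquiv.apply_symm_apply _ _),
      MulEquiv.apply_symm_apply _ _⟩
  obtain ⟨a, a1, a2⟩ := k u
  obtain ⟨b, b1, b2⟩ := k v
  refine Iff.trans ?_ (H3.Rf.comm_iff (H23.Form.ofQuad_nondeg hQ) hκ hu huv h1 h2)
  rw [← a1, ← b1, ← a2, ← b2, commute_map_iff (H22.isomEquiv Q).injective]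
  exact ⟨fun h => Subtype.ext (Units.ext h), fun h => congrArg Units.val (congrArg Subtype.val h.eq)⟩

end Cfsg.Agent.S5358
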