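import Cfsg.Statements.S5361
import Cfsg.Agent.H18.TT5

set_option autoImplicit false
open Cfsg

namespace Cfsg.Agent.S5361



/-- Let D be a conjugacy class of 3-transpositions generating the finite group G, and suppose the centre of G is trivial and some two different members of D commute. Then the following are equivalent: (1) the commutator subgroup of G is simple (possibly of prime order); (2) G acts primitively on D by conjugation; (3) the largest normal 2-subgroup and the largest normal 3-subgroup of G are trivial and the commuting graph of D is connected. -/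
theorem result {G : Type*} [Group G] [Finite G] {D : Set G} (hD : Cfsg.IsThreeTranspositionClass D) (hZ : Subgroup.center G = ⊥) (hw : ∃ a ∈ D, ∃ b ∈ D, a ≠ b ∧ Commute a b) : (IsSimpleGroup (commutator G) ↔ Cfsg.IsPrimitiveUnderConj D) ∧ (Cfsg.IsPrimitiveUnderConj D ↔ (Cfsg.pCore 2 G = ⊥ ∧ Cfsg.pCore 3 G = ⊥ ∧ (Cfsg.commutingGraph D).Connected)) := by
  have h0 := H18.TC.of_class hD (let ⟨a, ha, b, hb, n, _⟩ := hw; ⟨a, ha, b, hb, n⟩)
  obtain ⟨d0, hd0⟩ := h0.ne
  have a : Cfsg.IsPrimitiveUnderConj D → H18.TP D := fun hp => ⟨h0, h0.relPrim hp, hw⟩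
  refine ⟨⟨fun hs => h0.prim_of_rel (h0.tp_of_simple hs ?_).prim, fun hp => ?_⟩,
    fun hp => ⟨le_bot_iff.1 (hZ ▸ (a hp).O2), le_bot_iff.1 (hZ ▸ (a hp).O3),
      (H18.connected_iff hd0).2 (a hp).conn⟩, fun ⟨h2, h3, c⟩ => ?_⟩
  · by_contra! n
    obtain ⟨a, ha, b, hb, ne, c⟩ := hw
    obtain ⟨e, he, ne'⟩ := h0.nc ha
    have m := h0.mul_mem_commutator ha hb
    have m' := h0.mul_mem_commutator ha he
    have o2 := H28.tt_orderOf_two h0.tt ha hb ne c
    have o3 := H28.tt_orderOf_three h0.tt ha he ne'
    have hp : (Nat.card (commutator G)).Prime := by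
      letI : CommGroup (commutator G) := { (inferInstance : Group (commutator G)) with mul_comm := n }
      exact IsSimpleGroup.prime_card
    have d2 : 2 ∣ Nat.card (commutator G) := o2 ▸ Subgroup.orderOf_dvd_natCard _ m
    have d3 : 3 ∣ Nat.card (commutator G) := o3 ▸ Subgroup.orderOf_dvd_natCard _ m'
    rw [Nat.prime_dvd_prime_iff_eq (by norm_num) hp] at d2 d3
    omega
  · have t := a hp
    rw [t.commutator_eq]
    have q := H5.isQuasisimple_iff_top.1 t.qs
    have z : Subgroup.center (Cfsg.layer G) = ⊥ := by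
      refine eq_bot_iff.2 fun x hx => Subgroup.mem_bot.2 (Subtype.ext ?_)
      have : (x : G) ∈ Subgroup.center G := t.cent (Subgroup.mem_centralizer_iff.2 fun y hy =>
        congrArg Subtype.val (Subgroup.mem_center_iff.1 hx ⟨y, hy⟩))
      rw [hZ] at this
      exact this
    have := q.2.1
    exact ⟨fun N hN => (q.2.2 N hN).symm.imp (fun e => le_bot_iff.1 (z ▸ e)) id⟩
  · have h2' : Cfsg.pCore 2 G ≤ Subgroup.center G := h2 ▸ bot_le
    have h3' : Cfsg.pCore 3 G ≤ Subgroup.center G := h3 ▸ bot_le
    have q := h0.layer_qs (h0.layer_ne_bot h2' h3')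
    have c' := h0.cent_le h2' h3' (h0.fstar_eq h2' h3')
    exact h0.prim_of_rel (h0.relPrim_of_trans q c' (h0.trans_of_index
      (h0.index_of_conn q c' ((H18.connected_iff hd0).1 c))))

end Cfsg.Agent.S5361
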