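import Cfsg.Statements.S5362
import Cfsg.Agent.H1.Fd
import Cfsg.Agent.S0813
import Cfsg.Agent.S0815
import Cfsg.Agent.S0816
import Cfsg.Agent.S0817
import Cfsg.Agent.S0818
import Cfsg.Agent.H22.IsoC
import Cfsg.Agent.H22.QuadExt

set_option autoImplicit false
open scoped MatrixGroups
open Cfsg

namespace Cfsg.Agent.S5362

open H1.Fi H18 H22 H23 H23.Form H28 Subgroup Equiv

theorem dv {L M : Type*} [Group L] [Group M] [Finite L] {q k : ℕ} (h : q * Nat.card L ∣ Nat.card (MulAut L)) (e : L ≃* M)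
    (s : Nat.card (MulAut M) = k * Nat.card M) : q ∣ k := by
  rw [Nat.card_congr (MulAut.congr e).toEquiv, s, ← Nat.card_congr e.toEquiv] at h
  exact Nat.dvd_of_mul_dvd_mul_right Nat.card_pos h
section
variable {L : Type*} [Group L] [Finite L] {q p m : ℕ} [Fact p.Prime] (hp : p = 2 ∨ p = 3) (h3 : 3 ∣ q)
  (h : q * Nat.card L ∣ Nat.card (MulAut L))
include hp h3 h
theorem plus (hm : 3 ≤ m) (e : L ≃* POmega (ZMod p) (quadFormPlus m (ZMod p))) : m = 4 ∧ q ∣ 24 := by
  have c : Fintype.card (ZMod p) = p ^ 1 := by simp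
  rcases hm.eq_or_lt with rfl | hm
  · obtain ⟨f⟩ := pomega_plus_six (F := ZMod p)
    have := h3.trans (dv h (e.trans f) ((S0813.result p 1 le_rfl c 4 (by omega) (by omega)).trans (by
      rw [card_PGL_eq (by omega), ← mul_assoc])))
    rw [ZMod.card] at this
    rcases hp with rfl | rfl <;> exact absurd this (by decide)
  have := dv h e (S0817.result p 1 le_rfl c m hm)
  have k := h3.trans this
  split_ifs at this k with a b c
  all_goals first | exact absurd k (by decide) | exact ⟨a, this.trans (by decide)⟩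
theorem minus (hm : 2 ≤ m) {a b : ZMod p} (hab : ∀ z₁ z₂ : ZMod p, z₁ ^ 2 + a * z₁ * z₂ + b * z₂ ^ 2 = 0 → z₁ = 0 ∧ z₂ = 0)
    (e : L ≃* POmega (ZMod p) (quadFormMinus m (ZMod p) a b)) : False := by
  rcases hm.eq_or_lt with rfl | hm
  · have := Fintype.ofFinite (GaloisField p 2)
    have c : Fintype.card (GaloisField p 2) = Fintype.card (ZMod p) ^ 2 := by
      rw [← Nat.card_eq_fintype_card, GaloisField.card p 2 (by omega), ZMod.card]
    obtain ⟨f⟩ := pomega_minus_six c hab
    have := h3.trans (dv h (e.trans f) (S0815.result p 1 le_rfl (by simp) c 4 (by omega) (by omega)))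
    rw [ZMod.card] at this
    rcases hp with rfl | rfl <;> exact absurd this (by decide)
  have k := h3.trans (dv h e (S0818.result p 1 le_rfl (by simp) (m + 1) (by omega) a b hab))
  split_ifs at k <;> exact absurd k (by decide)
end
theorem pf {G M : Type*} [Group G] [Group M] [IsSimpleGroup M] (e : G ≃* M) (n : center M = ⊥) : commutator G = ⊤ := by
  have := e.isSimpleGroup
  exact (IsSimpleGroup.eq_bot_or_eq_top_of_normal _ inferInstance).resolve_left fun q => bot_ne_top
    (n.symm.trans ((map_center_equiv e).symm.trans (by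
      rw [(commutator_eq_bot_iff_center_eq_top G).1 q, map_top_of_surjective _ e.surjective])))

/-- Let D be a conjugacy class of 3-transpositions generating the finite group G, with trivial centre and trivial largest normal 2- and 3-subgroups, and suppose the commuting graph of D is not connected. Let F be the generalized Fitting subgroup of G. Then G/F is isomorphic to the symmetric group of degree 3, and F is isomorphic either to the commutator subgroup of the isometry group of the hyperbolic quadratic form in dimension 8 over the field with two elements, or to the commutator subgroup of the isometry group of the hyperbolic quadratic form in dimension 8 over the field with three elements modulo its centre. -/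
theorem result {G : Type*} [Group G] [Finite G] {D : Set G} (hD : Cfsg.IsThreeTranspositionClass D) (hZ : Subgroup.center G = ⊥) (h2 : Cfsg.pCore 2 G = ⊥) (h3 : Cfsg.pCore 3 G = ⊥) (hdisc : ¬ (Cfsg.commutingGraph D).Connected) (F : Subgroup G) [F.Normal] (hF : F = Cfsg.generalizedFittingSubgroup G) : Nonempty (G ⧸ F ≃* Equiv.Perm (Fin 3)) ∧ (Nonempty (F ≃* Cfsg.Omega (ZMod 2) (Cfsg.quadFormPlus 4 (ZMod 2))) ∨ Nonempty (F ≃* Cfsg.POmega (ZMod 3) (Cfsg.quadFormPlus 4 (ZMod 3)))) := by
  have c₀ : TC D := TC.of_class hD (by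
    by_contra! n
    obtain ⟨a, ha, -⟩ := hD.2.1
    refine H28.tt_ne_one hD.1 ha (mem_bot.1 (hZ ▸ H28.mem_center_of_forall hD.2.2 fun b hb => ?_))
    rw [n b hb a ha])
  have h : Dc D := ⟨c₀, hZ, h2, h3, fun a ha => by
    by_contra! k
    exact hdisc ((connected_iff ha).2 fun x hx y hy => (c₀.cr.symm (k x hx)).trans (k y hy))⟩
  obtain rfl : F = layer G := by rw [hF, h.fst, hZ, sup_bot_eq]
  obtain ⟨d, hd⟩ := h.ne
  have t := h.tp hd
  have c := t.toTC
  have z := h.zc (h.le hd)
  have hG : IsThreeTranspositionGroup (sub (cp D d)) := ⟨c.tt, c.cj, c.gen⟩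
  obtain ⟨ε⟩ := h.eqv hd
  obtain ⟨g, hg, i2⟩ := h.inv2 hd
  have hi : ∀ y ∈ cp D d, y⁻¹ = y := fun y hy => h.inv hy.1
  have f := fsub (h.fs (d := d)).clo
  have md : d ∈ cp D d := ⟨hd, .refl⟩
  have sym : ∀ n, 3 ≤ n → ¬ IsSym (sub (cp D d)) n := fun n hn k => by
    obtain ⟨e, he⟩ := conv_sym c z hn k
    have : e ⟨g, hg⟩ ≠ 1 := fun q => (i2 d md).2.2 (by
      rw [show g = 1 from congrArg Subtype.val ((map_eq_one_iff e e.injective).1 q)]; simp)
    obtain ⟨i, n⟩ := not_forall.1 (mt Equiv.ext this)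
    obtain ⟨a, ha, q⟩ := he.ge (⟨i, _, Ne.symm n, rfl⟩ : (swap i (e ⟨g, hg⟩ i)).IsSwap)
    obtain ⟨u, v, w⟩ := i2 a ha
    have v := (sub_cm.2 v : Commute a (⟨g, hg⟩ * a * (⟨g, hg⟩)⁻¹)).map e
    have w : e (⟨g, hg⟩ * a * (⟨g, hg⟩)⁻¹) ≠ e a := e.injective.ne fun k => w (congrArg Subtype.val k)
    rw [map_mul, map_mul, map_inv, q, ← swap_apply_apply] at v w
    rcases (sw_iff (Ne.symm n) ((e ⟨g, hg⟩).injective.ne (Ne.symm n))).1 v with k | k | k
    exacts [k.2.1 rfl, n k.1.symm, w (by rw [← k.1, swap_comm]; rfl)]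
  have zl : ∀ {M : Type} [Group M], (layer G ≃* M) → center M = ⊥ := fun e => by
    rw [← map_center_equiv e, h.zc le_rfl, Subgroup.map_bot]
  rcases fischer t with k | (⟨n, hn, k⟩ | ⟨n, hn, k⟩) | ⟨n, hn, k⟩ | ⟨n, hn, k⟩ | ⟨n, hn, k⟩ | ⟨_, k⟩ | ⟨_, k⟩ | ⟨_, k⟩
  · exact (sym _ (by omega) k).elim
  · obtain ⟨V, _, _, _, Φ, π, -, l⟩ := k.fiso f
    obtain ⟨b, hb, e⟩ := l.fixp hi hg (fun v a _ => a) (by decide) (by decide) md (i2 d md).1 (i2 d md).2.1
    exact absurd e (i2 b hb).2.2
  · obtain ⟨V, _, _, _, Φ, π, -, l⟩ := k.fiso f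
    obtain ⟨b, hb, e⟩ := l.fixp hi hg (fun v a b => ⟨a, b⟩) (by decide +kernel) (by decide +kernel) md (i2 d md).1 (i2 d md).2.1
    exact absurd e (i2 b hb).2.2
  · exact (sym _ (by omega) k).elim
  · rcases conv_o2 c z hn k with ⟨m, hm, e, -⟩ | ⟨m, hm, e, -⟩ <;> have e' := ε.trans (commutatorCongr e)
    · obtain ⟨rfl, k⟩ := plus (.inl rfl) h.three h.aut hm (e'.trans (quotZ (zl e')))
      exact ⟨h.s3 k, .inl ⟨e'⟩⟩
    exact (minus (.inl rfl) h.three h.aut hm (by decide) (e'.trans (quotZ (zl e')))).elim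
  · obtain ⟨Q, q, e, -⟩ := conv_o3 c z k
    obtain ⟨θ, i, s⟩ := pomega_hom Q q (by simp; omega) (omega_le_rs q (by simpa using hn) (c := 2) (by decide)).2
    have e' := (ε.trans (commutatorCongr (e.trans (quotCenterCongr (rsEquiv Q 2))))).trans
      ((θ.ofInjective i).trans (MulEquiv.subgroupCongr s)).symm
    have tr : ∀ {ι : Type} [Fintype ι] [DecidableEq ι] (R : QuadraticForm (ZMod 3) (ι → ZMod 3)) (f : _ ≃ₗ[ZMod 3] _) (a),
        a ≠ 0 → (∀ x, Q (f x) = a * R x) → (layer G ≃* POmega (ZMod 3) R) := fun R f a ha hf =>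
      e'.trans (quotCenterCongr (commutatorCongr ((isomEquiv Q).trans ((oCongrSimilar Q R f ha hf).symm.trans (isomEquiv R).symm))))
    obtain ⟨m, rfl | rfl⟩ := Nat.even_or_odd' n
    · obtain ⟨m, rfl⟩ : ∃ k, m = k + 1 := ⟨m - 1, by omega⟩
      rcases exists_equiv_plus_or_minus q (m := m) (by simp) (a := 0) (b := 1) (by decide) with ⟨f, hf⟩ | ⟨f, hf⟩
      · have := tr _ f 1 one_ne_zero (by simpa using hf)
        obtain ⟨a, k'⟩ := plus (.inr rfl) h.three h.aut (m := m + 1) (by omega) this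
        obtain rfl : m = 3 := by omega
        exact ⟨h.s3 k', .inr ⟨this⟩⟩
      have := tr _ f 1 one_ne_zero (by simpa using hf)
      exact (minus (.inr rfl) h.three h.aut (m := m) (by omega) (a := 0) (b := 1) (by decide) this).elim
    obtain ⟨a, ha, f, hf⟩ := exists_equiv_odd q (m := m) (by simp)
    have := tr _ f a ha hf
    exact absurd (h.three.trans (dv h.aut this (S0816.result 3 1 le_rfl (by simp) (by decide) m (by omega))))
      (by decide)
  · obtain ⟨e, -⟩ := equiv_of_fiso hG z e22_class fi22_center k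
    have := fi22_simple
    exact absurd (pf e fi22_center) (h.npf hd)
  · obtain ⟨e, -⟩ := equiv_of_fiso hG z e23_class fi23_center k
    have := fi23_simple
    exact absurd (pf e fi23_center) (h.npf hd)
  obtain ⟨τ, k, -⟩ := k.symm
  have k := k.trans f
  have m : ∀ i : Fin 4, pv x24 (i, []) ∈ E24 := fun i => t24M.pv_mem (i.2.trans (by decide))
  have cm := fun i j : Fin 4 => (t24M.comm_iff (p := (i, [])) (q := (j, [])) (i.2.trans (by decide))
    (j.2.trans (by decide))).trans (k.comm (m i) (m j)).symm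
  have := h.five hd _ (fun i => k.mem (m i)) (fun i j e => mt (cm i j).2 (by revert i j; decide +kernel))
    fun i j e => (cm i j).1 (by revert i j; decide +kernel)
  rw [← k.ncard, ← Nat.card_coe_set_eq, show Nat.card E24 = _ from f24_tt.2.2] at this
  exact absurd this (by decide)

end Cfsg.Agent.S5362
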