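import Cfsg.Statements.S5364
import Cfsg.Agent.H6.Inv

set_option autoImplicit false
open Cfsg

namespace Cfsg.Agent.S5364



/-- Let D be a conjugation-invariant set of involutions of a finite group G and t an involution in the centre of G such that d t does not lie in D for any d in D. If the images of the members of D in G modulo the subgroup generated by t satisfy the 3-transposition order conditions (each has order 2 and any two have product of order at most 3), then so do the members of D. -/
theorem result {G : Type*} [Group G] [Finite G] {D : Set G} (hinv : ∀ d ∈ D, orderOf d = 2) (hconj : ∀ g : G, ∀ d ∈ D, g * d * g⁻¹ ∈ D) (t : G) (ht : orderOf t = 2) (htZ : t ∈ Subgroup.center G) (hDt : ∀ d ∈ D, d * t ∉ D) [(Subgroup.zpowers t).Normal] (himg : Cfsg.IsThreeTranspositionSet ((QuotientGroup.mk : G → G ⧸ Subgroup.zpowers t) '' D)) : Cfsg.IsThreeTranspositionSet D := by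
  refine ⟨hinv, fun d hd e he => ?_⟩
  have hz : ∀ x : G, (x : G ⧸ Subgroup.zpowers t) = 1 → x = 1 ∨ x = t := by
    intro x hx
    rw [QuotientGroup.eq_one_iff, Subgroup.mem_zpowers_iff] at hx
    obtain ⟨k, rfl⟩ := hx
    rcases Int.even_or_odd' k with ⟨m, rfl | rfl⟩
    · left; rw [zpow_mul, show (t ^ (2 : ℤ)) = 1 by rw [zpow_two, H6.ord2_mul_self ht], one_zpow]
    · right
      rw [zpow_add, zpow_mul, show (t ^ (2 : ℤ)) = 1 by rw [zpow_two, H6.ord2_mul_self ht],
        one_zpow, one_mul, zpow_one]
  have d2 := H6.ord2_mul_self (hinv d hd)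
  have e2 := H6.ord2_mul_self (hinv e he)
  have di := H6.ord2_inv (hinv d hd)
  have ei := H6.ord2_inv (hinv e he)
  rcases himg.2 _ ⟨d, hd, rfl⟩ _ ⟨e, he, rfl⟩ with h | h
  · rcases hz ((d * e) ^ 2) (by simpa using h) with h | h
    · exact Or.inl h
    · exfalso
      apply hDt e he
      have := hconj d e he
      rw [di] at this
      have e3 : e * t = d * e * d := by
        rw [(Subgroup.mem_center_iff.1 htZ e), ← h, pow_two]
        calc d * e * (d * e) * e = d * e * d * (e * e) := by group
          _ = _ := by rw [e2, mul_one]
      rwa [e3]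
  · rcases hz ((d * e) ^ 3) (by simpa using h) with h | h
    · exact Or.inr h
    · exfalso
      apply hDt e he
      have := hconj (d * e) d hd
      rw [mul_inv_rev, di, ei] at this
      have e3 : e * t = d * e * d * (e * d) := by
        rw [(Subgroup.mem_center_iff.1 htZ e), ← h, pow_succ, pow_two]
        calc d * e * (d * e) * (d * e) * e = d * e * d * (e * d) * (e * e) := by group
          _ = _ := by rw [e2, mul_one]
      rwa [e3]

end Cfsg.Agent.S5364
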