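import Cfsg.Statements.S5365
import Cfsg.Agent.H3.Tt

set_option autoImplicit false
open Cfsg

namespace Cfsg.Agent.S5365

/-- Let D be a non-empty conjugation-invariant set of involutions of a finite group G satisfying the 3-transposition order conditions, and suppose that for every d in D the members of D other than d commuting with d generate a subgroup isomorphic to the symmetric group of degree 3, and the largest normal 3-subgroup of the centralizer of d has order 3. Then the subgroup generated by D is isomorphic to the symmetric group of degree 5 or to the direct product of two symmetric groups of degree 3. -/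
theorem result {G : Type*} [Group G] [Finite G] {D : Set G} (hD : Cfsg.IsThreeTranspositionSet D) (hconj : ∀ g : G, ∀ d ∈ D, g * d * g⁻¹ ∈ D) (hne : D.Nonempty) (hloc : ∀ d ∈ D, Nonempty (↥(Subgroup.closure {y : G | y ∈ D ∧ y ≠ d ∧ Commute d y}) ≃* Equiv.Perm (Fin 3)) ∧ Nat.card (Cfsg.pCore 3 ↥(Subgroup.centralizer ({d} : Set G))) = 3) : Nonempty (↥(Subgroup.closure D) ≃* Equiv.Perm (Fin 5)) ∨ Nonempty (↥(Subgroup.closure D) ≃* Equiv.Perm (Fin 3) × Equiv.Perm (Fin 3)) := by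
  have h : H18.TT D := ⟨hD, hconj⟩
  have L1 : ∀ d ∈ D, ∀ p ∈ H18.dd D d, ∀ q ∈ H18.dd D d, p ≠ q → ¬ Commute p q ∧
      ∀ s ∈ H18.dd D d, s = p ∨ s = q ∨ s = p * q * p := fun d hd p hp q hq n => by
    obtain ⟨⟨e⟩, -⟩ := hloc d hd
    have k : ∀ p (hp : p ∈ H18.dd D d), e ⟨p, Subgroup.subset_closure hp⟩ ^ 2 = 1 ∧
        e ⟨p, Subgroup.subset_closure hp⟩ ≠ 1 := fun p hp =>
      ⟨by rw [← map_pow, e.map_eq_one_iff]; exact Subtype.ext ((pow_two p).trans (h.sq hp.1)),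
        fun k => H28.tt_ne_one hD hp.1 (congrArg Subtype.val (e.map_eq_one_iff.1 k))⟩
    have := fun c => (by decide +kernel : ∀ a b c : Equiv.Perm (Fin 3), (a ^ 2 = 1 ∧ a ≠ 1) ∧
      (b ^ 2 = 1 ∧ b ≠ 1) ∧ a ≠ b → a * b ≠ b * a ∧ (c ^ 2 = 1 ∧ c ≠ 1 → c = a ∨ c = b ∨ c = a * b * a))
      _ _ c ⟨k p hp, k q hq, e.injective.ne fun e => n (congrArg Subtype.val e)⟩
    refine ⟨fun c => (this 1).1 (by rw [← map_mul, ← map_mul]; exact congrArg e (Subtype.ext c)),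
      fun s hs => ?_⟩
    simpa only [← map_mul, e.injective.eq_iff, Subtype.ext_iff, Subgroup.coe_mul] using
      (this _).2 (k s hs)
  have L2 : ∀ d ∈ D, ∀ x, ∃ p ∈ H18.dd D d, p ≠ x := fun d hd x => by
    obtain ⟨⟨e⟩, -⟩ := hloc d hd
    by_contra! k
    have := (H28.closure_commuting (E := H18.dd D d) (fun a ha => h.sq ha.1)
      fun a ha b hb => by rw [k a ha, k b hb]).1
    exact absurd (by
      simpa using (Commute.map (Subtype.ext (this _ (e.symm (.swap 0 1)).2 _ (e.symm (.swap 1 2)).2) :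
        Commute (e.symm _) (e.symm _)) e).eq) (by decide :
        (Equiv.swap 0 1 * Equiv.swap 1 2 : Equiv.Perm (Fin 3)) ≠ Equiv.swap 1 2 * Equiv.swap 0 1)
  by_cases hB : ∃ d ∈ D, ∃ b ∈ H18.dd D d, ∃ c ∈ H18.dd D d, ∃ a ∈ H18.dd D b, c ≠ b ∧ a ≠ d ∧
    ¬ Commute a c
  · obtain ⟨d, hd, b, hb, c, hc, a, ha, n1, n2, n3⟩ := hB
    have n4 := (L1 b hb.1 d (H18.dd_symm hd hb) a ha n2.symm).1
    have n5 := (L1 d hd c hc b hb n1).1
    obtain ⟨φ, h1, h2⟩ := h.chain ![d, a, c, b] (by simp [Fin.forall_fin_succ, hd, ha.1, hb.1, hc.1])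
      (by simp [Fin.forall_fin_succ, n3, n4, n5])
      (by simp [Fin.forall_fin_succ, hc.2.2, hb.2.2, ha.2.2.symm])
    have p1 : φ (.swap 0 1) = d := h1 0
    have p2 : φ (.swap 3 4) = b := h1 3
    have i := H18.inj_of_sym le_rfl φ (x := .swap 0 1 * .swap 3 4) (by simp) (by
      rw [map_mul, p1, p2]; exact fun e => hb.2.1 (H28.tt_eq_of_mul_eq_one hD hd e).symm)
    have m := fun s => H3.Fs.swap_mem h (φ := φ) (s := s) (by decide) (p1 ▸ hd)
    refine .inl (H18.equiv_of_inj_range φ i (le_antisymm (h2.le.trans (Subgroup.closure_mono ?_))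
      ((Subgroup.closure_le _).2 fun x hx => by_contra fun k => ?_)))
    · rintro _ ⟨j, rfl⟩
      exact h1 j ▸ m _ ⟨_, _, Fin.castSucc_lt_succ.ne, rfl⟩
    obtain ⟨ι, i', q1, -⟩ := H18.exists_s4 (a := (.swap 0 1 : Equiv.Perm (Fin 5))) (b := .swap 1 2)
      (c := .swap 2 3) (by decide) (by decide) (by decide) (by decide) (by decide)
      (by unfold Commute SemiconjBy; decide) (by decide)
    obtain ⟨p, hp, q, hq, k1, k2, k3, k4, k5, k6⟩ := H3.Fs.four h (φ := φ.comp ι) (i.comp i')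
      (by simpa [q1, p1] using hd) hx fun s hs cm => by
      have hs : (ι s).IsSwap := by
        obtain ⟨u, v, k, rfl⟩ := hs
        obtain ⟨g, e⟩ := isConj_iff.1 (Equiv.Perm.isConj_swap (by decide : (0 : Fin 4) ≠ 1) k)
        rw [← e, map_mul, map_mul, map_inv, q1, ← Equiv.swap_apply_apply]
        exact ⟨_, _, (ι g).injective.ne (by decide), rfl⟩
      change Commute (φ (ι s)) x at cm
      generalize ι s = s at hs cm
      obtain ⟨t, ht, u, hu, c1, c2, c3, c4, c5⟩ : ∃ t : Equiv.Perm (Fin 5), t.IsSwap ∧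
          ∃ u : Equiv.Perm (Fin 5), u.IsSwap ∧ t ≠ s ∧ s * t = t * s ∧ u ≠ s ∧ s * u = u * s ∧ t ≠ u := by
        obtain ⟨u, v, k, rfl⟩ := hs
        clear cm
        obtain ⟨a, b, c, k1, k2, k3⟩ : ∃ a b c : Fin 5, a ≠ b ∧ a ≠ c ∧ Equiv.swap a b ≠ Equiv.swap u v ∧
          Equiv.swap u v * Equiv.swap a b = Equiv.swap a b * Equiv.swap u v ∧ Equiv.swap a c ≠ Equiv.swap u v ∧
          Equiv.swap u v * Equiv.swap a c = Equiv.swap a c * Equiv.swap u v ∧
          Equiv.swap a b ≠ Equiv.swap a c := by revert u v; decide +kernel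
        exact ⟨_, ⟨_, _, k1, rfl⟩, _, ⟨_, _, k2, rfl⟩, k3⟩
      rcases (L1 _ (m s hs) _ ⟨m t ht, i.ne c1, Commute.map c2 φ⟩ _ ⟨m u hu, i.ne c3, Commute.map c4 φ⟩
        (i.ne c5)).2 x ⟨hx, fun e => k ⟨s, e.symm⟩, cm⟩ with e | e | e
      exacts [k ⟨t, e.symm⟩, k ⟨u, e.symm⟩, k ⟨t * u * t, by simp [e]⟩]
    exact (L1 x hx p ⟨hp, k2, k4⟩ q ⟨hq, k3, k5⟩ k1).1 k6
  push Not at hB
  have A : ∀ d ∈ D, ∀ b ∈ H18.dd D d, ∀ a ∈ H18.dd D b, ∀ c ∈ H18.dd D d, c ∈ H18.dd D a :=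
    fun d hd b hb a ha c hc => by
      by_cases e : a = d
      · rwa [e]
      by_cases e' : c = b
      · exact e' ▸ H18.dd_symm hb.1 ha
      exact ⟨hc.1, fun k => (L1 b hb.1 d (H18.dd_symm hd hb) a ha (Ne.symm e)).1 (k ▸ hc.2.2),
        hB d hd b hb c hc a ha e' e⟩
  have W : ∀ d ∈ D, ∀ b ∈ H18.dd D d, ∀ a ∈ H18.dd D b, d * a ∈ pCore 3 G := fun d hd b hb a ha =>
    (h.wr_iff hd ha.1).1 (H18.wr_iff_set.2 (Set.ext fun c => ⟨A d hd b hb a ha c,
      A a ha.1 b (H18.dd_symm hb.1 ha) d (H18.dd_symm hd hb) c⟩))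
  have I : ∀ p ∈ D, ∀ q ∈ H18.dd D p, ∀ r ∈ pCore 3 G, p * q * r * (p * q)⁻¹ = r⁻¹ :=
    fun p hp q hq r hr => by
    have hq' := H18.dd_symm hp hq
    obtain ⟨a, ha, n1⟩ := L2 q hq.1 p
    obtain ⟨b, hb, n2⟩ := L2 p hp q
    obtain ⟨n3, k⟩ := L1 q hq.1 p hq' a ha n1.symm
    have n4 := (L1 p hp q hq b hb n2.symm).1
    have w1 := W p hp q hq a ha
    have w2 := W q hq.1 p hq' b hb
    have iv : ∀ p ∈ D, ∀ q ∈ H18.dd D p, ∀ a ∈ H18.dd D q, ∀ u ∈ Subgroup.zpowers (p * a),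
        p * (q * u * q⁻¹) * p⁻¹ = u⁻¹ := by
      rintro p hp q hq a ha _ ⟨i, rfl⟩
      simp only [← conj_zpow, ← inv_zpow]
      rw [(hq.2.2.symm.mul_right ha.2.2).eq]
      simp [h.inv hp, h.inv ha.1, h.mm hp]
    obtain ⟨u, hu, c⟩ : ∃ u ∈ Subgroup.zpowers (p * a), r * p * r⁻¹ = u * p * u⁻¹ := by
      rcases k _ ((H18.wr_iff_set.1 ((h.wr_orbit hq.1 hq.1).2 ⟨1, one_mem _, by simp⟩)).le
        (H18.dd_symm (h.cj r p hp) ((H18.wr_iff_set.1 ((h.wr_orbit hp (h.cj r p hp)).2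
          ⟨r, hr, rfl⟩)).le hq))) with e | e | e
      · exact ⟨1, one_mem _, by simp [e]⟩
      · exact ⟨_, Subgroup.mem_zpowers _, e.trans (h.conj_ab hp ha.1 n3).symm⟩
      · exact ⟨_, inv_mem (Subgroup.mem_zpowers _), e.trans (by
          simpa [h.inv hp, h.inv ha.1, h.mm hp, mul_assoc] using h.braid' hp ha.1 n3)⟩
    have c1 : u⁻¹ * r ∈ Subgroup.centralizer {p} := Subgroup.mem_centralizer_singleton_iff.2 (by
      rw [mul_assoc, ← inv_mul_cancel_right (r * p) r, c]; group)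
    have c2 : q * b ∈ Subgroup.centralizer {p} :=
      Subgroup.mem_centralizer_singleton_iff.2 (hq.2.2.mul_right hb.2.2).symm
    have le : (pCore 3 G).subgroupOf (Subgroup.centralizer {p}) ≤ pCore 3 _ :=
      H1.le_pCore (H10.isPGroup_subgroupOf (H1.isPGroup_pCore 3) _)
    have e : Subgroup.zpowers (⟨_, c2⟩ : Subgroup.centralizer {p}) = pCore 3 _ :=
      Subgroup.eq_of_le_of_card_ge (Subgroup.zpowers_le.2 (le w2)) (by
        rw [(hloc p hp).2, Nat.card_zpowers, ← Subgroup.orderOf_coe, H28.tt_orderOf_three hD hq.1 hb.1 n4])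
    obtain ⟨j, hj⟩ := e.ge (le (show (⟨_, c1⟩ : Subgroup.centralizer {p}) ∈ _ from
      mul_mem (inv_mem (Subgroup.zpowers_le.2 w1 hu)) hr))
    have hv : u⁻¹ * r ∈ Subgroup.zpowers (q * b) := ⟨j, congrArg Subtype.val hj⟩
    have i1 := iv p hp q hq a ha u hu
    have i2 := iv q hq.1 p hq' b hb _ hv
    have cm : Commute u (u⁻¹ * r) := by
      obtain ⟨i, rfl⟩ := hu
      obtain ⟨j, e⟩ := hv
      exact e ▸ ((hq.2.2.mul_right hb.2.2).mul_left
        (ha.2.2.symm.mul_right (A p hp q hq a ha b hb).2.2)).zpow_zpow i j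
    rw [← mul_inv_cancel_left u r]
    generalize u⁻¹ * r = v at *
    rw [← conj_mul, cm.eq, mul_inv_rev v, ← i1, ← i2]
    congr 1
    · group
    · rw [hq.2.2.eq]; group
  obtain ⟨d, hd⟩ := hne
  obtain ⟨b, hb, -⟩ := L2 d hd d
  obtain ⟨⟨e1⟩, -⟩ := hloc d hd
  obtain ⟨⟨e2⟩, -⟩ := hloc b hb.1
  have cm : ∀ x y, Commute (((Subgroup.subtype _).comp e1.symm.toMonoidHom) x)
      (((Subgroup.subtype _).comp e2.symm.toMonoidHom) y) := fun x y =>
    Subgroup.mem_centralizer_singleton_iff.1 ((Subgroup.closure_le _).2 (fun c hc =>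
      Subgroup.mem_centralizer_singleton_iff.2 (Subgroup.mem_centralizer_singleton_iff.1
        ((Subgroup.closure_le _).2 (fun a ha => Subgroup.mem_centralizer_singleton_iff.2
          (A d hd b hb a ha c hc).2.2) (e2.symm y).2)).symm) (e1.symm x).2)
  refine .inr (H18.equiv_of_inj_range (MonoidHom.noncommCoprod _ _ cm) ((injective_iff_map_eq_one _).2
    fun ⟨x, y⟩ e => ?_) ?_)
  · have e' : ((e1.symm x : G)) * e2.symm y = 1 := e
    obtain rfl : x = 1 := (by decide +kernel : ∀ x : Equiv.Perm (Fin 3), (∀ z, z * x = x * z) → x = 1) x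
      fun z => e1.symm.injective (Subtype.ext (by
        simpa [eq_inv_of_mul_eq_one_left e'] using (cm z y).inv_right.eq))
    simpa using e'
  rw [MonoidHom.noncommCoprod_range, MonoidHom.range_comp, MonoidHom.range_comp,
    MonoidHom.range_eq_top.2 e1.symm.surjective, MonoidHom.range_eq_top.2 e2.symm.surjective,
    ← MonoidHom.range_eq_map, ← MonoidHom.range_eq_map, Subgroup.range_subtype, Subgroup.range_subtype]
  refine le_antisymm (sup_le (Subgroup.closure_mono fun x hx => hx.1)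
    (Subgroup.closure_mono fun x hx => hx.1)) ((Subgroup.closure_le _).2 fun c hc => by_contra fun k => ?_)
  have m1 := fun x hx => Subgroup.mem_sup_left (T := Subgroup.closure (H18.dd D b))
    (Subgroup.subset_closure (k := H18.dd D d) (a := x) hx)
  have m2 := fun x hx => Subgroup.mem_sup_right (S := Subgroup.closure (H18.dd D d))
    (Subgroup.subset_closure (k := H18.dd D b) (a := x) hx)
  obtain ⟨φ, i, p1, -⟩ := h.s4 hd hc hb.1 hb.2.1.symm hb.2.2
    (fun e => k (m1 c ⟨hc, fun e => k (e ▸ m2 d (H18.dd_symm hd hb)), e⟩))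
    fun e => k (m2 c ⟨hc, fun e => k (e ▸ m1 b hb), e.symm⟩)
  obtain ⟨a, ha, n⟩ := L2 b hb.1 d
  have k : ∀ u v x y : Fin 4, u ≠ v → x ≠ y → Equiv.swap x y ≠ Equiv.swap u v →
      Equiv.swap u v * Equiv.swap x y = Equiv.swap x y * Equiv.swap u v → ∀ r ∈ pCore 3 G,
      φ (.swap u v * .swap x y) * r * (φ (.swap u v * .swap x y))⁻¹ = r⁻¹ := fun u v x y k1 k2 k3 k4 =>
    map_mul φ _ _ ▸ I _ (H3.Fs.swap_mem h (by decide) (p1 ▸ hd) ⟨_, _, k1, rfl⟩) _
      ⟨H3.Fs.swap_mem h (by decide) (p1 ▸ hd) ⟨_, _, k2, rfl⟩, i.ne k3, Commute.map k4 φ⟩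
  have w := W d hd b hb a ha
  have k1 := k 0 1 2 3 (by decide) (by decide) (by decide) (by decide) _ (inv_mem w)
  have k2 := k 0 2 1 3 (by decide) (by decide) (by decide) (by decide) _ w
  have k3 := k 0 3 1 2 (by decide) (by decide) (by decide) (by decide) _ w
  rw [show (.swap 0 3 * .swap 1 2 : Equiv.Perm (Fin 4)) = .swap 0 1 * .swap 2 3 * (.swap 0 2 * .swap 1 3) by
    decide, map_mul, mul_inv_rev, mul_assoc, mul_assoc, ← mul_assoc (d * a), ← mul_assoc (φ _) _ (φ _)⁻¹,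
    ← mul_assoc _ (d * a), k2, ← mul_assoc, k1, inv_inv, eq_inv_iff_mul_eq_one, ← pow_two] at k3
  exact (L1 b hb.1 d (H18.dd_symm hd hb) a ha n.symm).1 (H28.commute_of_sq (h.sq hd) (h.sq ha.1) k3)

end Cfsg.Agent.S5365
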