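import Cfsg.Statements.S5366
import Cfsg.Agent.H3.Fs

set_option autoImplicit false
open Cfsg

namespace Cfsg.Agent.S5366

/-- Let L be a nondegenerate Fischer space on the point type X (every point on a line). Then for every point x the map t(x) — sending a point collinear with x to the third point of their common line and fixing every other point — is a permutation of X of order 2 and an automorphism of the line system; and the set of all t(x) satisfies the 3-transposition order conditions in the permutation group of X (any two have product of order at most 3). -/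
theorem result {X : Type*} (L : Set (Set X)) (hL : Cfsg.IsFischerSpace L) (hnd : Cfsg.LineSystem.IsNondegenerate L) : (∀ x : X, ∃ σ : Equiv.Perm X, ⇑σ = Cfsg.LineSystem.lineMap L x ∧ orderOf σ = 2 ∧ Cfsg.LineSystem.IsIso L L σ) ∧ Cfsg.IsThreeTranspositionSet {σ : Equiv.Perm X | ∃ x : X, ⇑σ = Cfsg.LineSystem.lineMap L x} := by
  have h := H3.Fs.md_lineMap hL.1 hL.2.1
  have d := h.dist hL
  have o : ∀ (x : X) (σ : Equiv.Perm X), ⇑σ = LineSystem.lineMap L x → orderOf σ = 2 :=
    fun x σ e => by
      refine orderOf_eq_prime (Equiv.ext fun y => by simpa [pow_two, e] using h.inv y x) ?_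
      rintro rfl
      obtain ⟨l, hl, hx⟩ := hnd x
      obtain ⟨a, b, c, e1, -, -, rfl⟩ := Set.ncard_eq_three.1 (h.ncard hl)
      by_cases e2 : a = x
      · exact (h.eq hl (by simp) hx (e2 ▸ e1.symm : b ≠ x)).1 (congrFun e b).symm
      · exact (h.eq hl (by simp) hx e2).1 (congrFun e a).symm
  refine ⟨fun x => ⟨Function.Involutive.toPerm _ fun y => h.inv y x, rfl, o x _ rfl,
    (h.iso h _).2 fun u v => d u v x⟩, fun σ ⟨x, e⟩ => o x σ e, fun σ ⟨x, e⟩ τ ⟨y, e'⟩ => ?_⟩
  have s1 := H6.ord2_mul_self (o x σ e)
  have s2 := H6.ord2_mul_self (o y τ e')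
  have k : ∀ (x y : X) (σ τ : Equiv.Perm X), ⇑σ = LineSystem.lineMap L x →
      ⇑τ = LineSystem.lineMap L y → ⇑(τ * σ * τ) = LineSystem.lineMap L (LineSystem.lineMap L y x) :=
    fun x y σ τ e e' => funext fun p => by
      have := d (LineSystem.lineMap L y p) x y
      simp only [h.inv p y] at this
      simpa [e, e'] using this
  by_cases c : LineSystem.lineMap L y x = x
  · refine .inl (H28.sq_of_commute s1 s2 ?_)
    have : τ * σ * τ = σ := DFunLike.coe_injective ((k x y σ τ e e').trans (c.symm ▸ e.symm))
    rw [Commute, SemiconjBy, ← mul_one (τ * σ), ← s2, ← mul_assoc, this]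
  · exact .inr (H28.cube_of_braid s1 s2 (DFunLike.coe_injective ((k y x τ σ e' e).trans
      ((congrArg _ (h.symm x y c)).trans (k x y σ τ e e').symm))))

end Cfsg.Agent.S5366
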