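import Cfsg.Statements.S5368
import Cfsg.Agent.H1.Fa

set_option autoImplicit false
open scoped MatrixGroups
open Cfsg

namespace Cfsg.Agent.S5368

open H1.Fi H18 Subgroup Equiv

/-- Fischer's Theorem on 3-transposition groups. Let D be a conjugacy class of 3-transpositions generating the finite group G, and suppose the centre of G is trivial and the commutator subgroup of G is simple (possibly of prime order). Then one of the following holds: (1) G is isomorphic to a symmetric group with D going to the transpositions; (2) G is isomorphic to a symplectic group over the field with two elements with D going to the transvections (elements g with g − 1 of rank one); (3) G is isomorphic to a projective special unitary group over the field with four elements with D going to the images of the unitary transvections; (4) G is isomorphic to the full isometry group of a hyperbolic or elliptic quadratic form over the field with two elements with D going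 to the orthogonal transvections; (5) G is isomorphic to the subgroup of the isometry group of a non-degenerate quadratic form over the field with three elements generated by the reflections in vectors of a fixed non-zero norm, taken modulo its centre, with D going to the images of those reflections; (6) G with D is of type M(22), M(23) or M(24). -/
theorem result {G : Type*} [Group G] [Finite G] {D : Set G} (hD : Cfsg.IsThreeTranspositionClass D) (hZ : Subgroup.center G = ⊥) (hsimple : IsSimpleGroup (commutator G)) : (∃ n : ℕ, ∃ e : G ≃* Equiv.Perm (Fin n), e '' D = {σ : Equiv.Perm (Fin n) | σ.IsSwap}) ∨ (∃ m : ℕ, ∃ e : G ≃* Matrix.symplecticGroup (Fin m) (ZMod 2), e '' D = {g : Matrix.symplecticGroup (Fin m) (ZMod 2) | ((g : Matrix (Fin m ⊕ Fin m) (Fin m ⊕ Fin m) (ZMod 2)) - 1).rank = 1}) ∨ (∃ (n : ℕ) (F : Type) (_ : Field F) (_ : Fintype F), Fintype.card F = 4 ∧ ∃ e : G ≃* Cfsg.PSU n F 2, e '' D = (QuotientGroup.mk : ↥(Cfsg.SU n F 2)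 → Cfsg.PSU n F 2) '' {g : ↥(Cfsg.SU n F 2) | (((g : Matrix.SpecialLinearGroup (Fin n) F) : Matrix (Fin n) (Fin n) F) - 1).rank = 1}) ∨ ((∃ m : ℕ, ∃ e : G ≃* ↥(Cfsg.isometryGroup (ZMod 2) (Cfsg.quadFormPlus m (ZMod 2))), e '' D = {g : ↥(Cfsg.isometryGroup (ZMod 2) (Cfsg.quadFormPlus m (ZMod 2))) | (((g : GL (Fin m ⊕ Fin m) (ZMod 2)) : Matrix (Fin m ⊕ Fin m) (Fin m ⊕ Fin m) (ZMod 2)) - 1).rank = 1}) ∨ (∃ m : ℕ, ∃ e : G ≃* ↥(Cfsg.isometryGroup (ZMod 2) (Cfsg.quadFormMinus m (ZMod 2) 1 1)), e '' D = {g : ↥(Cfsg.isometryGroup (ZMod 2) (Cfsg.quadFormMinus m (ZMod 2) 1 1)) | (((g : GL ((Fin m ⊕ Fin m) ⊕ Fin 2) (ZMod 2)) : Matrix ((Fin m ⊕ Fin m) ⊕ Fin 2) ((Fin m ⊕ Fin m) ⊕ Fin 2) (ZMod 2)) - 1).rank = 1})) ∨ (∃ n : ℕ, ∃ Q : QuadraticForm (ZMod 3) (Fin n → ZMod 3), (QuadraticMap.polarBilin Q).Nondegenerate ∧ ∃ c : ZMod 3, c ≠ 0 ∧ ∃ e : G ≃* ↥(Cfsg.reflectionSubgroup (⇑Q) c) ⧸ Subgroup.center ↥(Cfsg.reflectionSubgroup (⇑Q) c), e '' D = (QuotientGroup.mk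 : ↥(Cfsg.reflectionSubgroup (⇑Q) c) → _) '' {g : ↥(Cfsg.reflectionSubgroup (⇑Q) c) | (g : ↥(Cfsg.isometryGroup (ZMod 3) (⇑Q))) ∈ Cfsg.reflectionsOfNorm (⇑Q) c}) ∨ (Cfsg.IsOfTypeM22 G D ∨ Cfsg.IsOfTypeM23 G D ∨ Cfsg.IsOfTypeM24 G D) := by
  have c : TC D := TC.of_class hD (by
    by_contra! n
    obtain ⟨a, ha, -⟩ := hD.2.1
    refine H28.tt_ne_one hD.1 ha (mem_bot.1 (hZ ▸ H28.mem_center_of_forall hD.2.2 fun b hb => ?_))
    rw [n b hb a ha])
  by_cases ab : ∃ x y : commutator G, x * y ≠ y * x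
  · rcases fischer (c.tp_of_simple hsimple ab) with k | (⟨n, hn, k⟩ | ⟨n, hn, k⟩) | ⟨n, hn, k⟩ | ⟨n, hn, k⟩ | ⟨n, hn, k⟩ | k
    · exact Or.inl ⟨_, conv_sym c hZ (by omega) k⟩
    · obtain ⟨m, -, e⟩ := conv_sp c hZ (by omega) k
      exact Or.inr (Or.inl ⟨m, e⟩)
    · exact Or.inr (Or.inr (Or.inl ⟨n, K4, _, _, card_K4, conv_u c hZ hn k⟩))
    · exact Or.inl ⟨_, conv_sym c hZ (by omega) k⟩
    · exact Or.inr (Or.inr (Or.inr (Or.inl ((conv_o2 c hZ hn k).imp (fun ⟨m, _, e⟩ => ⟨m, e⟩) fun ⟨m, _, e⟩ => ⟨m, e⟩))))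
    · obtain ⟨Q, q, e⟩ := conv_o3 c hZ k
      exact Or.inr (Or.inr (Or.inr (Or.inr (Or.inl ⟨n, Q, H23.Form.ofQuad_nondeg_iff.1 q, 2, by decide, e⟩))))
    exact Or.inr (Or.inr (Or.inr (Or.inr (Or.inr (conv_m c hZ k)))))
  push Not at ab
  obtain ⟨a, ha⟩ := c.ne
  obtain ⟨b, hb, n⟩ := c.nc ha
  obtain ⟨φ, e, -⟩ := c.chain ![a, b] (fun i => by fin_cases i <;> assumption)
    (fun i j e => by fin_cases i <;> fin_cases j <;> first | (simp at e; done) | exact n) fun i j e => by omega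
  have e0 : φ (swap 0 1) = a := e 0
  have e1 : φ (swap 1 2) = b := e 1
  have ne : a * b ≠ 1 := fun q => nce n (H28.tt_eq_of_mul_eq_one c.tt ha q)
  have r : commutator G ≤ φ.range := fun g hg => by
    obtain ⟨k, q⟩ := ((hsimple.eq_bot_or_eq_top_of_normal (zpowers ⟨_, c.mul_mem_commutator ha hb⟩)
      ⟨fun x hx y => by rwa [ab y, mul_inv_cancel_right]⟩).resolve_left fun q =>
        ne (congrArg Subtype.val (zpowers_eq_bot.1 q))).ge (mem_top ⟨g, hg⟩)
    exact ⟨(swap 0 1 * swap 1 2) ^ k, by simpa [e0, e1] using congrArg Subtype.val q⟩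
  have s : Function.Surjective φ := MonoidHom.range_eq_top.1 (top_le_iff.1 (c.gen ▸ (closure_le _).2 fun x hx =>
    c.mm ha x ▸ mul_mem (show a ∈ φ.range from ⟨_, e0⟩) (r (c.mul_mem_commutator ha hx))))
  have i : Function.Injective φ := (injective_iff_map_eq_one φ).2 fun g q => by
    by_contra m
    obtain ⟨s, t, k⟩ := (by decide +kernel : ∀ g : Perm (Fin 3), g ≠ 1 → ∃ s t, t * (s * g * s⁻¹ * g⁻¹) * t⁻¹ =
      swap 0 1 * swap 1 2) g m
    exact ne (by simpa [q, e0, e1] using (congrArg φ k).symm)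
  have : φ '' {σ | σ.IsSwap} = D := Set.Subset.antisymm (by
    rintro _ ⟨x, hx, rfl⟩; exact sw_mem c.toTT φ (by decide) (e0 ▸ ha) x hx) fun x hx => by
      obtain ⟨g, rfl⟩ := c.cls a ha x hx
      obtain ⟨g, rfl⟩ := s g
      exact ⟨g * swap 0 1 * g⁻¹, ⟨_, _, g.injective.ne (by decide), (swap_apply_apply g 0 1).symm⟩, by simp [e0]⟩
  exact Or.inl ⟨3, (MulEquiv.ofBijective φ ⟨i, s⟩).symm, by
    rw [← this, Set.image_image]; exact (Set.image_congr fun x _ => (MulEquiv.ofBijective φ ⟨i, s⟩).symm_apply_apply x).trans (Set.image_id _)⟩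

end Cfsg.Agent.S5368
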