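import Cfsg.Statements.S5375
import Cfsg.Agent.H28.Tw5
-- import your own Cfsg.Agent.* helpers here

set_option autoImplicit false
open Cfsg

namespace Cfsg.Agent.S5375

/-- Let G be a finite group with trivial centre generated by a conjugation-invariant set D of 3-transpositions on which it acts primitively, of type M(24). Then the layer of G (its largest semisimple normal subgroup) has index 2, D has exactly 306936 members, G has order 2^22 · 3^16 · 5^2 · 7^3 · 11 · 13 · 17 · 23 · 29, the width of D is 24, and for every d in D the subgroup generated by the members of D other than d commuting with d is the centralizer of d. -/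
theorem result {G : Type*} [Group G] [Finite G] {D : Set G} (hD : Cfsg.IsThreeTranspositionGroup D) (hprim : Cfsg.IsPrimitiveUnderConj D) (ht : Cfsg.IsOfTypeM24 G D) : (Cfsg.layer G).index = 2 ∧ D.ncard = 306936 ∧ Nat.card G = 2 ^ 22 * 3 ^ 16 * 5 ^ 2 * 7 ^ 3 * 11 * 13 * 17 * 23 * 29 ∧ Cfsg.commutingWidth D = 24 ∧ ∀ d ∈ D, Subgroup.closure {y : G | y ∈ D ∧ y ≠ d ∧ Commute d y} = Subgroup.centralizer ({d} : Set G) := by
  have h := H28.m24_of hD hprim ht
  obtain ⟨l, a, b⟩ := h.base
  refine ⟨?_, h.c0, by rw [h.card]; norm_num, H28.width_eq h.wd a b, fun d hd => ?_⟩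
  · obtain ⟨σ, h1, h2, h3⟩ := h.sgn
    obtain ⟨d, hd⟩ := h.ne
    have i : σ.ker.index = 2 := by
      rw [Subgroup.index_ker, MonoidHom.range_eq_top.2 fun x => (Int.units_eq_one_or x).elim
        (fun e => ⟨1, by simp [e]⟩) fun e => ⟨d, by rw [h1 d hd, e]⟩]
      simp
    have k := σ.ker.card_mul_index
    rw [i, h.card] at k
    rw [H28.layer_eq_commutator (h2 ▸ (H28.qs_of_simple (by
      rw [show Nat.card σ.ker = 306936 * 4089470473293004800 by omega]
      exact Nat.not_prime_mul (by norm_num) (by norm_num))).1), h2, i]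
  · obtain ⟨π, r⟩ := h.lv.res d hd
    exact H28.nb_one D d ▸ r.gen

end Cfsg.Agent.S5375
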