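import Mathlib
import Cfsg.Statements.S5387
import Cfsg.Agent.H8.Schur2
import Cfsg.Agent.S2088

set_option autoImplicit false
open Cfsg

namespace Cfsg.Agent.S5387

theorem aux {P L Q : Type*} [Group P] [Group L] [Group Q] [Finite P] {ξ : P →* Q} {σ : L →* Q} {p : P →* L}
    (hξ : Function.Surjective ξ) (hc : σ.ker ≤ Subgroup.center L) (h : σ.comp p = ξ)
    (hL : commutator L = ⊤) (hk : Nat.card (H8.mult ξ) ≤ Nat.card σ.ker) : Nonempty (commutator P ≃* L) := by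
  have h1 := H8.map_mult_of_over hξ hc h
  have h2 := H8.map_commutator_of_over hξ hc h
  rw [hL, inf_top_eq] at h1
  obtain ⟨f, hf, hf'⟩ := H8.exists_surj_of_map_eq h1
  have hi : Function.Injective f := ((Nat.bijective_iff_surjective_and_card f).2
    ⟨hf, le_antisymm hk (Nat.card_le_card_of_surjective f hf)⟩).1
  refine ⟨MulEquiv.ofBijective (p.comp (commutator P).subtype) ⟨(injective_iff_map_eq_one _).2 fun x hx => ?_,
    fun y => ?_⟩⟩
  · have hx' : p x = 1 := hx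
    have h3 : (x : P) ∈ H8.mult ξ := ⟨by rw [← h]; show σ (p x) = 1; rw [hx', map_one], x.2⟩
    have := (injective_iff_map_eq_one f).1 hi ⟨x, h3⟩ (Subtype.ext ((hf' _).trans hx'))
    exact Subtype.ext (congrArg (fun z : H8.mult ξ => (z : P)) this)
  · obtain ⟨x, hx, e⟩ : y ∈ (commutator P).map p := by rw [h2, hL]; trivial
    exact ⟨⟨x, hx⟩, e⟩

theorem result {L₁ L₂ : Type*} [Group L₁] [Finite L₁] [Group L₂] [Finite L₂] (F : Type) [Field F] [Fintype F] (hF : Fintype.card F = 4) (h₁ : Cfsg.IsQuasisimple L₁) (h₂ : Cfsg.IsQuasisimple L₂) (hc₁ : Nat.card (Subgroup.center L₁) = 4) (hc₂ : Nat.card (Subgroup.center L₂) = 4) (he₁ : ∀ x ∈ Subgroup.center L₁, x * x = 1) (he₂ : ∀ x ∈ Subgroup.center L₂, x * x = 1) (e₁ : L₁ ⧸ Subgroup.center L₁ ≃* Matrix.ProjectiveSpecialLinearGroup (Fin 3) F) (e₂ : L₂ ⧸ Subgroup.center L₂ ≃* Matrix.ProjectiveSpecialLinearGroup (Fin 3) F) : Nonempty (L₁ ≃* L₂) := by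
  let σ₁ := e₁.toMonoidHom.comp (QuotientGroup.mk' (Subgroup.center L₁))
  let σ₂ := e₂.toMonoidHom.comp (QuotientGroup.mk' (Subgroup.center L₂))
  have k₁ : σ₁.ker = Subgroup.center L₁ := by ext x; simp [σ₁]
  have k₂ : σ₂.ker = Subgroup.center L₂ := by ext x; simp [σ₂]
  have s₁ : Function.Surjective σ₁ := e₁.surjective.comp (QuotientGroup.mk'_surjective _)
  have s₂ : Function.Surjective σ₂ := e₂.surjective.comp (QuotientGroup.mk'_surjective _)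
  let P := MonoidHom.eqLocus (σ₁.comp (MonoidHom.fst L₁ L₂)) (σ₂.comp (MonoidHom.snd L₁ L₂))
  let p₁ : P →* L₁ := (MonoidHom.fst L₁ L₂).comp P.subtype
  let p₂ : P →* L₂ := (MonoidHom.snd L₁ L₂).comp P.subtype
  have hp : σ₂.comp p₂ = σ₁.comp p₁ := MonoidHom.ext fun x => (show _ = _ from x.2).symm
  have hs : Function.Surjective (σ₁.comp p₁) := fun g => by
    obtain ⟨a, ha⟩ := s₁ g
    obtain ⟨b, hb⟩ := s₂ g
    exact ⟨⟨(a, b), ha.trans hb.symm⟩, ha⟩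
  have hk : ∀ x ∈ (σ₁.comp p₁).ker, x.1.1 ∈ Subgroup.center L₁ ∧ x.1.2 ∈ Subgroup.center L₂ := fun x hx =>
    ⟨k₁ ▸ hx, k₂ ▸ (show x ∈ (σ₂.comp p₂).ker from hp ▸ hx)⟩
  obtain ⟨π, hπ⟩ := H8.hasSchur_surj_central (Cfsg.Agent.S2088.result hF) hs fun x hx =>
    Subgroup.mem_center_iff.2 fun y => Subtype.ext (Prod.ext (Subgroup.mem_center_iff.1 (hk x hx).1 _)
      (Subgroup.mem_center_iff.1 (hk x hx).2 _))
  have h4 : Nat.card (H8.mult (σ₁.comp p₁)) ≤ 4 := by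
    have key : ∀ x : ZMod 3 × ZMod 4 × ZMod 4, ∃ u : Fin 2 × Fin 2, ∃ y : ZMod 3 × ZMod 4 × ZMod 4,
        x = (0, (u.1.val : ZMod 4), (u.2.val : ZMod 4)) + (y + y) := by decide +kernel
    refine le_trans (Nat.card_le_card_of_surjective (fun u : Fin 2 × Fin 2 =>
      π (Multiplicative.ofAdd (0, (u.1.val : ZMod 4), (u.2.val : ZMod 4)))) fun z => ?_) (by simp)
    obtain ⟨x, rfl⟩ := hπ z
    obtain ⟨u, y, e⟩ := key x.toAdd
    refine ⟨u, ?_⟩
    have : π (Multiplicative.ofAdd y) * π (Multiplicative.ofAdd y) = 1 :=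
      Subtype.ext (Subtype.ext (Prod.ext (he₁ _ (hk _ (π _).2.1).1) (he₂ _ (hk _ (π _).2.1).2)))
    rw [← ofAdd_toAdd x, e, ofAdd_add, ofAdd_add, map_mul, map_mul, this, mul_one]
  obtain ⟨f₁⟩ := aux hs k₁.le rfl h₁.1.commutator_eq_top (by rw [k₁, hc₁]; exact h4)
  obtain ⟨f₂⟩ := aux hs k₂.le hp h₂.1.commutator_eq_top (by rw [k₂, hc₂]; exact h4)
  exact ⟨f₁.symm.trans f₂⟩

end Cfsg.Agent.S5387
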