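import Cfsg.Statements.S5392
import Cfsg.Agent.H13.LMod

set_option autoImplicit false
open Cfsg

namespace Cfsg.Agent.S5392

open H13

open H27

/-- The Leech lattice modulo twice itself is a faithful irreducible module for the first Conway group: an automorphism of the rank-24 lattice built from the length-24 code that moves every lattice vector only by twice a lattice vector lies in the centre of the automorphism group (the centre consists of ±1, which act trivially there, so the kernel is exactly the centre), and an additive subgroup lying between twice the lattice and the lattice that is invariant under all lattice automorphisms is one of the two. -/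
theorem result : (∀ g : ↥Cfsg.Co0, (∀ v : ↥Cfsg.leechLattice, ∃ w : ↥Cfsg.leechLattice, ((g • v : ↥Cfsg.leechLattice) : Cfsg.GolayPt → ℤ) - (v : Cfsg.GolayPt → ℤ) = 2 • (w : Cfsg.GolayPt → ℤ)) → g ∈ Subgroup.center ↥Cfsg.Co0) ∧ ∀ M : AddSubgroup (Cfsg.GolayPt → ℤ), (∀ v ∈ Cfsg.leechLattice, (2 : ℤ) • v ∈ M) → M ≤ Cfsg.leechLattice → (∀ g : ↥Cfsg.Co0, ∀ v : ↥Cfsg.leechLattice, (v : Cfsg.GolayPt → ℤ) ∈ M → ((g • v : ↥Cfsg.leechLattice) : Cfsg.GolayPt → ℤ) ∈ M) → (∀ x ∈ M, ∃ w ∈ Cfsg.leechLattice, x = (2 : ℤ) • w) ∨ M = Cfsg.leechLattice := by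
  refine ⟨fun g hg => H27.mem_center_iff.2 (pm_of_cg fun v => ?_), fun M h2 hM hg => ?_⟩
  · obtain ⟨w, hw⟩ := hg v
    exact cg_of_sub (z := w) (Subtype.ext (by simpa using hw))
  by_contra hc
  push Not at hc
  obtain ⟨⟨x, hx, hx2⟩, hne⟩ := hc
  have cg : ∀ {v w : LL}, Cg v w → (w : VV) ∈ M → (v : VV) ∈ M := by
    rintro v w ⟨u, rfl⟩ h
    have := h2 u u.2
    rw [two_smul] at this
    exact M.add_mem h this
  have sh : ∀ {v w : LL}, nm v = nm w → (nm w = 32 ∨ nm w = 48 ∨ nm w = 64) → (v : VV) ∈ M → (w : VV) ∈ M := by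
    intro v w a b c
    obtain ⟨g, rfl⟩ := exists_smul_of_nm a b
    exact hg g v c
  obtain ⟨a, b, c, d, e, f⟩ := t_facts
  obtain ⟨d', e', f'⟩ := t_facts'
  have n1 : nm lU = 32 := norm_lU
  have n2 : nm lU' = 32 := norm_lU'
  have n3 : nm (e8 none) = 64 := e8_norm _
  have n4 : dt (e8 none) tw = -16 := by simp only [dt, coe_e8_none, coe_tw]; decide +kernel
  have add : ∀ {v w : LL}, (v : VV) ∈ M → (w : VV) ∈ M → ((v + w : LL) : VV) ∈ M := fun a b => M.add_mem a b
  have h32 : (tu : VV) ∈ M := by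
    obtain ⟨u, h, hu⟩ := exists_short ⟨x, hM hx⟩
    have hu' := cg h.symm hx
    rcases hu with rfl | k | k | k
    · obtain ⟨w, hw⟩ := cg_zero_iff.1 h
      exact absurd (by rw [two_smul]; exact congrArg Subtype.val hw) (hx2 w w.2)
    · exact sh (k.trans a.symm) (Or.inl a) hu'
    · have k1 := sh (w := tu + tv') (by rw [nm_add]; omega) (by rw [nm_add]; omega) hu'
      have k2 := sh (w := tu + tw) (by rw [nm_add]; omega) (by rw [nm_add]; omega) hu'
      have k3 : Cg (tv' + tw) (tu + tv' + (tu + tw)) := ⟨-tu, by abel⟩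
      exact sh (by rw [nm_add]; omega) (Or.inl a) (cg k3 (add k1 k2))
    · have k1 := sh (w := e8 none) (by omega) (by omega) hu'
      have k2 := sh (w := e8 none + tw) (by rw [nm_add]; omega) (by rw [nm_add]; omega) hu'
      have k3 : Cg tw (e8 none + (e8 none + tw)) := ⟨-e8 none, by abel⟩
      exact sh (by omega) (Or.inl a) (cg k3 (add k1 k2))
  have s32 : ∀ {w : LL}, nm w = 32 → (w : VV) ∈ M := fun h => sh (a.trans h.symm) (Or.inl h) h32
  refine hne (le_antisymm hM fun y hy => ?_)
  obtain ⟨u, h, hu⟩ := exists_short ⟨y, hy⟩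
  refine cg h ?_
  rcases hu with rfl | k | k | k
  · exact M.zero_mem
  · exact s32 k
  · exact sh (by rw [nm_add]; omega) (Or.inr (Or.inl k)) (add h32 (s32 b))
  · exact sh (by rw [nm_add]; omega) (Or.inr (Or.inr k)) (add (s32 n1) (s32 n2))

end Cfsg.Agent.S5392
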