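import Cfsg.Statements.S5394
import Cfsg.Agent.H27.MCls

set_option autoImplicit false
open Cfsg

namespace Cfsg.Agent.S5394
open H27 MulAction
open scoped Pointwise


/-- The automorphism group of the length-24 code built from the squares modulo 23 has exactly two conjugacy classes of involutions: an involution either fixes exactly the eight points of an octad or has no fixed points, both kinds occur, and any two involutions of the same kind are conjugate in the group. -/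
theorem result : (∀ g ∈ Cfsg.M24, orderOf g = 2 → (Finset.univ.filter fun p => g p = p) ∈ Cfsg.octads ∨ ∀ p, g p ≠ p) ∧ (∃ g ∈ Cfsg.M24, orderOf g = 2 ∧ (Finset.univ.filter fun p => g p = p) ∈ Cfsg.octads) ∧ (∃ g ∈ Cfsg.M24, orderOf g = 2 ∧ ∀ p, g p ≠ p) ∧ ∀ g ∈ Cfsg.M24, ∀ h ∈ Cfsg.M24, orderOf g = 2 → orderOf h = 2 → ((∀ p, g p ≠ p) ↔ (∀ p, h p ≠ p)) → ∃ k ∈ Cfsg.M24, k * g * k⁻¹ = h := by
  refine ⟨fun g hg h => ?_, ⟨_, z2a.2, (Subgroup.orderOf_coe _).trans ord_z2a, ?_⟩,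
    ⟨_, z2b.2, (Subgroup.orderOf_coe _).trans ord_z2b, card_fixF_zero.1 (by rw [fix_z2b]; rfl)⟩, fun g hg h hh a b c => ?_⟩
  · rcases cls2 (g := ⟨g, hg⟩) ((Subgroup.orderOf_mk _ _).trans h) with ⟨k, a⟩ | ⟨k, a⟩
    · left
      change fixF ⟨g, hg⟩ ∈ _
      rw [a, fixF_conj, fix_z2a, mm_smul_octads]
      exact tabO.mem 0 (by norm_num)
    · exact .inr ((card_fixF_zero (g := ⟨g, hg⟩)).1 (by rw [a, fixF_conj, fix_z2b]; simp))
  · change fixF z2a ∈ _
    rw [fix_z2a]; exact tabO.mem 0 (by norm_num)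
  · have a' := (Subgroup.orderOf_mk _ hg).trans a
    have b' := (Subgroup.orderOf_mk _ hh).trans b
    have c' : (fixF ⟨g, hg⟩).card = 0 ↔ (fixF ⟨h, hh⟩).card = 0 := by rwa [card_fixF_zero, card_fixF_zero]
    obtain ⟨k, u⟩ : ∃ k : MM, k * ⟨g, hg⟩ * k⁻¹ = ⟨h, hh⟩ := by
      by_cases d : (fixF ⟨g, hg⟩).card = 0
      · obtain ⟨k, u⟩ := conj_z2b a' d
        obtain ⟨l, v⟩ := conj_z2b b' (c'.1 d)
        exact ⟨l * k⁻¹, by rw [u, v]; group⟩
      · obtain ⟨k, u⟩ := conj_z2a a' d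
        obtain ⟨l, v⟩ := conj_z2a b' (mt c'.2 d)
        exact ⟨l * k⁻¹, by rw [u, v]; group⟩
    exact ⟨k, k.2, congrArg Subtype.val u⟩

end Cfsg.Agent.S5394
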