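import Cfsg.Statements.S5395
import Cfsg.Agent.H13.LX
import Cfsg.Agent.H8.Sdp

set_option autoImplicit false
open Cfsg

namespace Cfsg.Agent.S5395

open H13

open Subgroup SemidirectProduct

/-- For a finite extraspecial 2-group E, an automorphism of E that induces the identity on E modulo its centre is inner (so these automorphisms form exactly the inner automorphism group, an elementary abelian 2-group of order |E|/2). -/
theorem result {E : Type*} [Group E] [Finite E] (hE : Cfsg.IsExtraspecial 2 E) (φ : E ≃* E) (hφ : ∀ x : E, φ x * x⁻¹ ∈ Subgroup.center E) : ∃ g : E, ∀ x : E, φ x = g * x * g⁻¹ := by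
  let ψ := MonoidHom.id (MulAut E)
  have hQ : IsExtraspecial 2 (H8.sdL ψ ⊤) := H7.isExtraspecial_of_equiv hE (topEquiv.symm.trans (H8.sdLEquiv ψ ⊤))
  have hc : ∀ x : E, x ∈ center E → (inl x : E ⋊[ψ] MulAut E) ∈ H8.sdL ψ ⊤ ⊓ centralizer (H8.sdL ψ ⊤ : Set _) :=
    fun x hx => ⟨⟨x, trivial, rfl⟩, by
      rintro _ ⟨y, -, rfl⟩; rw [← map_mul, ← map_mul, mem_center_iff.1 hx]⟩
  have hn : (inr φ : E ⋊[ψ] MulAut E) ∈ normalizer (H8.sdL ψ ⊤ : Set _) := by
    rw [normalizer_eq_top]; trivial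
  have := H1.extraspecial_mem_sup hQ (H1.extraspecial_two_NN_le hQ hn) (by
    rintro _ ⟨x, -, rfl⟩
    rw [commutatorElement_def, H8.inr_conj_inl, ← map_inv, ← map_mul]
    exact hc _ (hφ x))
  obtain ⟨_, ⟨g, -, rfl⟩, c, hc, e⟩ := (H1.mem_sup_of_le_normalizer_left (H5.le_normalizer_of_le_centralizer le_rfl)).1 this
  refine ⟨g, fun x => inl_injective (φ := ψ) ?_⟩
  have a := H8.inr_conj_inl ψ φ x
  have b := conj_eq_iff.2 (Commute.symm (hc (inl x) ⟨x, trivial, rfl⟩))
  change _ = inl (φ x) at a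
  rw [← a, ← e, map_mul, map_mul, map_inv]
  calc _ = inl g * (c * inl x * c⁻¹) * (inl g)⁻¹ := by group
    _ = _ := by rw [b]

end Cfsg.Agent.S5395
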