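import Cfsg.Statements.S5396
import Cfsg.Agent.H12.ES3

set_option autoImplicit false
open Cfsg

namespace Cfsg.Agent.S5396

open H12

theorem aux {E : Type*} [Group E] [Finite E] {r : ℕ} (h : ∀ k, PRankLE 2 k E ↔ r + 1 ≤ k) :
    sSup {k : ℕ | ∃ A : Subgroup E, Cfsg.IsElementaryAbelian 2 A ∧ Nat.card A = 2 ^ k} = r + 1 := by
  refine IsGreatest.csSup_eq ⟨exists_elem_of_rank ((h _).2 le_rfl) (by rw [h]; omega), ?_⟩
  rintro k ⟨A, hA, hc⟩
  have := (h _).2 le_rfl A hA.1 hA.2
  rw [hc] at this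
  exact (Nat.pow_le_pow_iff_right (by norm_num : 1 < 2)).1 this

/-- For every n ≥ 1 there exist finite extraspecial 2-groups of order 2^(2n+1) whose 2-rank (the largest rank of an elementary abelian subgroup) is n, and ones whose 2-rank is n + 1 (so for each such order there are two non-isomorphic extraspecial 2-groups, told apart by their 2-rank). -/
theorem result (n : ℕ) (hn : 1 ≤ n) : ∀ r ∈ ({n, n + 1} : Set ℕ), ∃ (E : Type) (_ : Group E) (_ : Finite E), Cfsg.IsExtraspecial 2 E ∧ Nat.card E = 2 ^ (2 * n + 1) ∧ sSup {k : ℕ | ∃ A : Subgroup E, Cfsg.IsElementaryAbelian 2 A ∧ Nat.card A = 2 ^ k} = r := by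
  rintro r (rfl | rfl)
  · obtain ⟨m, rfl⟩ : ∃ m, r = m + 1 := ⟨r - 1, by omega⟩
    exact ⟨QG (bMinus m), inferInstance, inferInstance, es_qgMinus m, card_qgMinus m,
      aux (rank_qgMinus m)⟩
  · exact ⟨QG (bPlus n), inferInstance, inferInstance, es_qgPlus hn, card_qgPlus n,
      aux (rank_qgPlus hn)⟩

end Cfsg.Agent.S5396
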