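import Cfsg.Statements.S5401
import Cfsg.Agent.H28.Np3
-- import your own Cfsg.Agent.* helpers here

set_option autoImplicit false
open Cfsg

namespace Cfsg.Agent.S5401

/-- Existence of the Fischer 3-transposition groups: there exist finite groups generated by a conjugacy class of 3-transpositions on which they act primitively that are of type M(22), of type M(23), and of type M(24) respectively. -/
theorem result : (∃ (X : Type) (_ : Group X) (_ : Finite X) (E : Set X), Cfsg.IsThreeTranspositionClass E ∧ Cfsg.IsPrimitiveUnderConj E ∧ Cfsg.IsOfTypeM22 X E) ∧ (∃ (X : Type) (_ : Group X) (_ : Finite X) (E : Set X), Cfsg.IsThreeTranspositionClass E ∧ Cfsg.IsPrimitiveUnderConj E ∧ Cfsg.IsOfTypeM23 X E) ∧ (∃ (X : Type) (_ : Group X) (_ : Finite X) (E : Set X), Cfsg.IsThreeTranspositionClass E ∧ Cfsg.IsPrimitiveUnderConj E ∧ Cfsg.IsOfTypeM24 X E) := by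
  have := H28.m22.fin
  have := H28.m23.fin
  have := H28.m24.fin
  exact ⟨⟨_, _, ‹_›, _, H28.e22_class, H28.prim_of_coatom (H28.fi22_tt.2.1 ▸ H28.fi22_max), H28.m22.type⟩,
    ⟨_, _, ‹_›, _, H28.e23_class, H28.E23_eq ▸ H28.prim_of_coatom (H28.x23_tt.2.1 ▸ H28.fi23_max), H28.m23.type⟩, _, _, ‹_›, _, H28.e24_class, H28.e24_prim, H28.m24.type⟩

end Cfsg.Agent.S5401
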