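import Cfsg.Statements.S5408
import Cfsg.Agent.H13.Mon

set_option autoImplicit false
open Cfsg

namespace Cfsg.Agent.S5408

open H13

/-- Let G be a finite group of Monster type at the involution z with Q the extraspecial normal subgroup of order 2^25 of C = C_G(z) (so C/Q is identified with the first Conway group with Q modulo its centre the Leech lattice modulo 2, and z is not weakly closed in Q). Then Q is of plus type: it contains an elementary abelian subgroup of order 2^13. -/
theorem result {G : Type*} [Group G] [Finite G] (z : G) (Q : Subgroup (Subgroup.centralizer ({z} : Set G))) [Q.Normal] (hM : Cfsg.IsOfMonsterType z Q) : ∃ E : Subgroup Q, Cfsg.IsElementaryAbelian 2 E ∧ Nat.card E = 2 ^ 13 := by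
  obtain ⟨h0, e, ψ, hψ⟩ := hM
  have h := mt_of h0 hψ
  obtain ⟨g, hs, hne⟩ := h.nwc
  have c := h.card_D hs hne
  have X := h.toXS.smul g
  let f := (Cz z).subtype.comp Q.subtype
  have hf : Function.Injective f := (Cz z).subtype_injective.comp Q.subtype_injective
  refine ⟨(Q.map (Cz z).subtype ⊓ _).comap f, ⟨H1.isMulCommutative_iff'.2 fun x hx y hy =>
    hf (by rw [map_mul, map_mul]; exact h.inf_comm' X hne hx hy), fun x hx =>
    hf (by rw [map_pow, map_one, pow_two]; exact h.inf_sq X hne hx)⟩, ?_⟩
  rw [← c, ← Subgroup.card_map_of_injective hf, Subgroup.map_comap_eq_self]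
  rintro _ ⟨⟨x, hx, rfl⟩, -⟩
  exact ⟨⟨x, hx⟩, rfl⟩

end Cfsg.Agent.S5408
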