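import Cfsg.Statements.S5410
import Cfsg.Agent.H13.Mon

set_option autoImplicit false
open Cfsg

namespace Cfsg.Agent.S5410

open H13

/-- Let G be a finite group of Monster type at the involution z with Q the extraspecial normal subgroup of order 2^25 of C = C_G(z) (so C/Q is identified with the first Conway group with Q modulo its centre the Leech lattice modulo 2, and z is not weakly closed in Q). Let g in G with s = g z g⁻¹ a member of Q other than z, let X be the image in C/Q of the centralizer of s in C, and let E be the image in C/Q of the intersection of g Q g⁻¹ with C. Then E is a normal subgroup of X, elementary abelian of order 2^11, and it has a complement in X isomorphic to the Mathieu group of degree 24 (the automorphism group of the length-24 binary Golay code). -/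
theorem result {G : Type*} [Group G] [Finite G] (z : G) (Q : Subgroup (Subgroup.centralizer ({z} : Set G))) [Q.Normal] (hM : Cfsg.IsOfMonsterType z Q) (s : G) (hsQ : ∃ hsc : s ∈ Subgroup.centralizer ({z} : Set G), (⟨s, hsc⟩ : Subgroup.centralizer ({z} : Set G)) ∈ Q) (hs : IsConj z s) (hs1 : s ≠ z) (g : G) (hg : g * z * g⁻¹ = s) (X E : Subgroup ((Subgroup.centralizer ({z} : Set G)) ⧸ Q)) (hX : X = ((Subgroup.centralizer ({z} : Set G) ⊓ Subgroup.centralizer ({s} : Set G)).subgroupOf (Subgroup.centralizer ({z} : Set G))).map (QuotientGroup.mk' Q)) (hE : E = (((Q.map (Subgroup.centralizer ({z} : Set G)).subtype).map (MulAut.conj g).toMonoidHom ⊓ Subgroup.centralizer ({z} : Set G)).subgroupOf (Subgroup.centralizer ({z} : Set G))).map (QuotientGroup.mk' Q)) : E ≤ X ∧ (∀ x ∈ X, ∀ y ∈ E, x * y * x⁻¹ ∈ E) ∧ Cfsg.IsElementaryAbelian 2 E ∧ Nat.card E = 2 ^ 11 ∧ ∃ K : Subgroup ((Subgroup.centralizer ({z} : Set G)) ⧸ Q), K ≤ X ∧ E ⊓ K = ⊥ ∧ E ⊔ K = X ∧ Nonempty (K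 ≃* Cfsg.M24) := by
  obtain ⟨h0, e, ψ, hψ⟩ := hM
  subst hg
  have h := mt_of h0 hψ
  have hs := mem_map_Cz.2 hsQ
  obtain ⟨v, a, b⟩ := h.type4 hs hs1
  obtain ⟨k, rfl⟩ := H27.exists_smul_e8 b
  let e' : Cz z ⧸ Q ≃* Spor.Co1 := e.trans (MulAut.conj (mk1 k)⁻¹)
  have h1 : X.map e'.toMonoidHom = H27.NN.map mk1 := by
    rw [← (h.twist k).X_eq a, hX, Subgroup.inf_subgroupOf_left, Subgroup.map_map]; rfl
  have h2 : E.map e'.toMonoidHom = SG.map mk1 := by
    rw [← (h.twist k).E_eq hs hs1 a, hE, Subgroup.inf_subgroupOf_right, Subgroup.map_map]; rfl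
  have m : ∀ (A : Subgroup (Cz z ⧸ Q)) x, x ∈ A ↔ e' x ∈ A.map e'.toMonoidHom := fun A x =>
    (Subgroup.mem_map_iff_mem e'.injective).symm
  have h3 : E ≤ X := fun x hx => by
    rw [m, h1]; rw [m, h2] at hx
    exact Subgroup.map_mono (Subgroup.map_subtype_le _) hx
  have hf : Function.Injective (mk1.comp H27.pm) := (injective_iff_map_eq_one _).2 fun σ hσ => by
    rcases mk1_eq_one.1 hσ with c | c
    · exact H27.pm_inj (c.trans (map_one _).symm)
    · exact (H27.mono_inj (c.trans H27.neg1_eq)).1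
  have h4 : ((mk1.comp H27.pm).range.comap e'.toMonoidHom) ≤ X := by
    rintro x ⟨σ, c⟩
    rw [m, h1]; exact ⟨_, H27.pm_mem σ, c⟩
  refine ⟨h3, fun x hx y hy => ?_, ⟨H1.isMulCommutative_iff'.2 fun x hx y hy => e'.injective ?_, fun x hx =>
    e'.injective ?_⟩, ?_, _, h4, eq_bot_iff.2 fun x hx => e'.injective ?_, le_antisymm (sup_le h3 h4) fun x hx => ?_,
    ⟨?_⟩⟩
  · rw [m, h2, ← (h.twist k).E_eq hs hs1 a] at hy ⊢
    rw [m, h1, ← (h.twist k).X_eq a] at hx
    rw [map_mul, map_mul, map_inv e']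
    exact (h.twist k).E_conj hx hy
  · rw [m, h2] at hx hy
    obtain ⟨_, c, u⟩ := hx; obtain ⟨c, rfl⟩ := mem_SG.1 c
    obtain ⟨_, d, t⟩ := hy; obtain ⟨d, rfl⟩ := mem_SG.1 d
    rw [map_mul, map_mul, ← u, ← t, ← map_mul, ← map_mul, mono_comm]
  · rw [m, h2] at hx
    obtain ⟨_, c, u⟩ := hx; obtain ⟨c, rfl⟩ := mem_SG.1 c
    rw [map_pow, ← u, pow_two, ← map_mul, mono_sq, map_one, map_one]
  · rw [← Subgroup.card_map_of_injective (f := e'.toMonoidHom) e'.injective, h2, card_SG_map]; rfl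
  · obtain ⟨hx, σ, t⟩ := hx
    replace hx : x ∈ E := hx
    rw [m, h2] at hx
    obtain ⟨_, c, u⟩ := hx; obtain ⟨c, rfl⟩ := mem_SG.1 c
    have : σ = 1 := by
      rcases mk1_eq.1 (u.trans t.symm) with d | d
      · exact (H27.mono_inj d).1.symm
      · rw [H27.neg1_eq, pm_eq, H27.mono_mul, one_mul] at d
        exact (H27.mono_inj d).1.symm
    rw [this, map_one] at t
    rw [map_one]; exact t.symm
  · rw [m, h1] at hx
    obtain ⟨n, c0, u⟩ := hx
    obtain ⟨σ, c, rfl⟩ := H27.exists_mono c0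
    rw [show x = e'.symm (mk1 (H27.mono 1 c)) * e'.symm (mk1 (H27.pm σ)) by
      rw [← map_mul, ← map_mul, ← mono_eq, u, MulEquiv.symm_apply_apply]]
    refine Subgroup.mul_mem_sup ?_ ⟨σ, (e'.apply_symm_apply _).symm⟩
    rw [m, h2, e'.apply_symm_apply]
    exact ⟨_, mem_SG.2 ⟨c, rfl⟩, rfl⟩
  · exact ((e'.subgroupMap _).trans (MulEquiv.subgroupCongr (Subgroup.map_comap_eq_self_of_surjective e'.surjective _))).trans
      (MonoidHom.ofInjective hf).symm

end Cfsg.Agent.S5410
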