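import Cfsg.Statements.S5412
import Cfsg.Agent.H13.MonB

set_option autoImplicit false
open Cfsg

namespace Cfsg.Agent.S5412

open H13

/-- Let G be a finite group of Monster type at the involution z with Q the extraspecial normal subgroup of order 2^25 of C = C_G(z) (so C/Q is identified with the first Conway group with Q modulo its centre the Leech lattice modulo 2, and z is not weakly closed in Q). Let t be an involution of Q not conjugate to z in G. Then the centralizer of t modulo the subgroup generated by t is a group of Baby Monster type (an involution whose centralizer D has generalized Fitting subgroup R extraspecial of order 2^23 with D/R identified with the second Conway group acting on R modulo its centre as on the vectors of the Leech lattice modulo 2 orthogonal to a short vector, modulo that vector; the involution not weakly closed in R). -/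
theorem result {G : Type*} [Group G] [Finite G] (z : G) (Q : Subgroup (Subgroup.centralizer ({z} : Set G))) [Q.Normal] (hM : Cfsg.IsOfMonsterType z Q) (t : G) (htQ : ∃ htc : t ∈ Subgroup.centralizer ({z} : Set G), (⟨t, htc⟩ : Subgroup.centralizer ({z} : Set G)) ∈ Q) (ht2 : orderOf t = 2) (ht : ¬ IsConj z t) [hn : ((Subgroup.zpowers t).subgroupOf (Subgroup.centralizer ({t} : Set G))).Normal] : Cfsg.IsOfBabyMonsterType (↥(Subgroup.centralizer ({t} : Set G)) ⧸ (Subgroup.zpowers t).subgroupOf (Subgroup.centralizer ({t} : Set G))) := by
  obtain ⟨h0, e, ψ, hψ⟩ := hM
  have h := mt_of h0 hψ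
  obtain ⟨v, a, b⟩ := h.type2 (mem_map_Cz.2 htQ) ht2 ht
  obtain ⟨k, rfl⟩ := H27.exists_smul_lU b
  exact (h.twist k).baby a (QuotientGroup.mk' _) (QuotientGroup.mk'_surjective _) fun x =>
    (QuotientGroup.eq_one_iff _).trans (mem_zpowers_two ht2)

end Cfsg.Agent.S5412
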