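import Cfsg.Statements.S5414
import Cfsg.Agent.H13.CTh
import Cfsg.Agent.H13.MonD

set_option autoImplicit false
open Cfsg

namespace Cfsg.Agent.S5414

open H13

open H27 Subgroup in
theorem x3a_dvd : 27 ∣ Nat.card ↥(Cz (pm x3a) ⊓ NN) := by
  have d : ∀ σ k : MM, Nat.card (Cz (k * σ * k⁻¹)) ∣ Nat.card ↥(Cz (pm σ) ⊓ NN) := fun σ k => by
    refine Subgroup.card_dvd_of_injective
      ((pm.comp ((MulAut.conj k⁻¹).toMonoidHom.comp (Cz (k * σ * k⁻¹)).subtype)).codRestrict _ fun x => ⟨?_, pm_mem _⟩) fun x y e =>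
        Subtype.ext ((MulAut.conj k⁻¹).injective (pm_inj (congrArg Subtype.val e)))
    have := mem_Cz.1 x.2
    refine mem_Cz.2 ?_
    change pm (k⁻¹ * x * k⁻¹⁻¹) * pm σ = pm σ * pm (k⁻¹ * x * k⁻¹⁻¹)
    rw [← map_mul, ← map_mul]
    congr 1
    calc _ = k⁻¹ * (x * (k * σ * k⁻¹)) * k := by group
      _ = _ := by rw [this]; group
  obtain ⟨S⟩ : Nonempty (Sylow 3 MM) := inferInstance
  have c : Nat.card S = 27 := by rw [S.card_eq_multiplicity, card_MM]; decide +kernel
  have : Nontrivial S := Finite.one_lt_card_iff_nontrivial.1 (by rw [c]; norm_num)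
  have := S.isPGroup'.center_nontrivial
  obtain ⟨y, hy⟩ := exists_prime_orderOf_dvd_card' (G := center S) 3 (by
    obtain ⟨n, u⟩ := (S.isPGroup'.to_subgroup (center S)).exists_card_eq
    rw [u]
    refine dvd_pow_self 3 fun e => ?_
    rw [e] at u
    exact (Finite.one_lt_card (α := center S)).ne' u)
  have u : 27 ∣ Nat.card (Cz (y.1.1 : MM)) := c ▸ card_dvd_of_le fun x hx =>
    mem_Cz.2 (congrArg Subtype.val (Subgroup.mem_center_iff.1 y.2 ⟨x, hx⟩))
  rcases cls3 (g := y.1.1) ((orderOf_coe _).trans ((orderOf_coe _).trans hy)) with ⟨k, e⟩ | ⟨k, e⟩ <;> rw [e] at u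
  · exact u.trans (d _ _)
  · exact absurd (u.trans (d _ _)) (by rw [th_facts.1]; decide)

/-- Let G be a finite group of Monster type at the involution z with Q the extraspecial normal subgroup of order 2^25 of C = C_G(z) (so C/Q is identified with the first Conway group with Q modulo its centre the Leech lattice modulo 2, and z is not weakly closed in Q). Let s be a conjugate of z in Q other than z and let Y be a subgroup of order 3 of the joint centralizer L of z and s that is not 3-central in L (Y lies in the centre of no Sylow 3-subgroup of L). Then the centralizer of Y modulo Y is a group of Thompson type (an involution whose centralizer D has generalized Fitting subgroup R extraspecial of order 2^9 with D/R the alternating group of degree 9, the involution not weakly closed in R). -/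
theorem result {G : Type*} [Group G] [Finite G] (z : G) (Q : Subgroup (Subgroup.centralizer ({z} : Set G))) [Q.Normal] (hM : Cfsg.IsOfMonsterType z Q) (s : G) (hsQ : ∃ hsc : s ∈ Subgroup.centralizer ({z} : Set G), (⟨s, hsc⟩ : Subgroup.centralizer ({z} : Set G)) ∈ Q) (hs : IsConj z s) (hs1 : s ≠ z) (Y : Subgroup G) (hY : Y ≤ Subgroup.centralizer ({z, s} : Set G)) (hY3 : Nat.card Y = 3) (hnc : ∀ P : Sylow 3 ↥(Subgroup.centralizer ({z, s} : Set G)), ¬ Y.subgroupOf (Subgroup.centralizer ({z, s} : Set G)) ≤ (Subgroup.center ↥(P : Subgroup ↥(Subgroup.centralizer ({z, s} : Set G)))).map (P : Subgroup ↥(Subgroup.centralizer ({z, s} : Set G))).subtype) [hn : (Y.subgroupOf (Subgroup.centralizer (Y : Set G))).Normal] : Cfsg.IsOfThompsonType (↥(Subgroup.centralizer (Y : Set G)) ⧸ Y.subgroupOf (Subgroup.centralizer (Y : Set G))) := by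
  obtain ⟨R, π, P, h, a⟩ := mt_e8 hM hsQ hs hs1
  obtain ⟨π, P, h, a, b, c, d, e | e⟩ := h.exists_pm3 a hY hY3
  · obtain ⟨S, u⟩ := (h.central_iff a e d (by rw [ord_pm, H27.ord_x3a]; decide)
      ((cent_pair z s).le (hY (c.le (Subgroup.mem_zpowers _)))).2).2 x3a_dvd
    exact absurd (c ▸ u) (hnc S)
  obtain ⟨φ, D⟩ := th_facts.2
  obtain ⟨t, Q, _, u, j, -⟩ := h.odd_type e (by rw [d]; decide) (by rw [ord_pm, H27.ord_x3b]; decide) (H27.pm_mem _)
    (by norm_num) D c (QuotientGroup.mk'_surjective (Y.subgroupOf _)) fun x => QuotientGroup.eq_one_iff x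
  exact ⟨t, Q, _, u, j⟩

end Cfsg.Agent.S5414
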