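import Cfsg.Statements.S5415
import Cfsg.Agent.H13.CFi
import Cfsg.Agent.H13.CTh

set_option autoImplicit false
open Cfsg

namespace Cfsg.Agent.S5415

open H13

/-- Let G be a finite group of Monster type at the involution z with Q the extraspecial normal subgroup of order 2^25 of C = C_G(z) (so C/Q is identified with the first Conway group with Q modulo its centre the Leech lattice modulo 2, and z is not weakly closed in Q). Let s be a conjugate of z in Q other than z and let Y be a subgroup of order 3 of the joint centralizer L of z and s that is 3-central in L (Y lies in the centre of some Sylow 3-subgroup of L). Then the centralizer of Y modulo Y is a group of large Fischer type (an involution whose centralizer D has generalized Fitting subgroup R extraspecial of order 2^13 and normal subgroups R ≤ N ≤ M with N/R of order 3, M/N the projective special unitary group of dimension 4 over the field with nine elements and M of index 2 in D; the involution not weakly closed in R). -/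
theorem result {G : Type*} [Group G] [Finite G] (z : G) (Q : Subgroup (Subgroup.centralizer ({z} : Set G))) [Q.Normal] (hM : Cfsg.IsOfMonsterType z Q) (s : G) (hsQ : ∃ hsc : s ∈ Subgroup.centralizer ({z} : Set G), (⟨s, hsc⟩ : Subgroup.centralizer ({z} : Set G)) ∈ Q) (hs : IsConj z s) (hs1 : s ≠ z) (Y : Subgroup G) (hY : Y ≤ Subgroup.centralizer ({z, s} : Set G)) (hY3 : Nat.card Y = 3) (hc : ∃ P : Sylow 3 ↥(Subgroup.centralizer ({z, s} : Set G)), Y.subgroupOf (Subgroup.centralizer ({z, s} : Set G)) ≤ (Subgroup.center ↥(P : Subgroup ↥(Subgroup.centralizer ({z, s} : Set G)))).map (P : Subgroup ↥(Subgroup.centralizer ({z, s} : Set G))).subtype) [hn : (Y.subgroupOf (Subgroup.centralizer (Y : Set G))).Normal] : Cfsg.IsOfLargeFischerType (↥(Subgroup.centralizer (Y : Set G)) ⧸ Y.subgroupOf (Subgroup.centralizer (Y : Set G))) := by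
  obtain ⟨R, π, P, h, a⟩ := mt_e8 hM hsQ hs hs1
  obtain ⟨π, P, h, a, b, c, d, e | e⟩ := h.exists_pm3 a hY hY3
  swap
  · exact absurd ((h.central_iff a e d (by rw [ord_pm, H27.ord_x3b]; decide)
      ((cent_pair z s).le (hY (c.le (Subgroup.mem_zpowers _)))).2).1 (c.symm ▸ hc)) (by rw [th_facts.1]; decide)
  obtain ⟨L, _, φ, D, X, _, θ, U, t1, t2, t3, ⟨i⟩⟩ := fi_facts
  obtain ⟨t, Q, _, u, ⟨j⟩, -⟩ := h.odd_type e (by rw [d]; decide) (by rw [ord_pm, H27.ord_x3a]; decide) (H27.pm_mem _)
    (by norm_num) D c (QuotientGroup.mk'_surjective (Y.subgroupOf _)) fun x => QuotientGroup.eq_one_iff x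
  let ρ := j.toMonoidHom.comp (QuotientGroup.mk' Q)
  have r : Function.Surjective ρ := j.surjective.comp (QuotientGroup.mk'_surjective Q)
  have k : ρ.ker = Q := Subgroup.ext fun x => (map_eq_one_iff j j.injective).trans (QuotientGroup.eq_one_iff x)
  have r' : Function.Surjective (θ.comp ρ) := t1.comp r
  have := U.normal_of_index_eq_two t3
  refine ⟨t, Q, inferInstance, u, (θ.comp ρ).ker, U.comap (θ.comp ρ), inferInstance, inferInstance, k.ge.trans (ρ.ker_le_comap θ.ker),
    (θ.comp ρ).ker_le_comap U, ?_, ⟨F9, inferInstance, inferInstance, rfl, ⟨?_⟩⟩, (U.index_comap_of_surjective r').trans t3⟩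
  · rw [← H1.card_map_mul_card_inf_ker _ ρ, ← MonoidHom.comap_ker, Subgroup.map_comap_eq_self_of_surjective r, t2,
      inf_eq_right.2 (ρ.ker_le_comap _), k]
  · refine ((QuotientGroup.quotientMulEquivOfEq ?_).trans (QuotientGroup.quotientKerEquivOfSurjective
      ((θ.comp ρ).subgroupComap U) ((θ.comp ρ).subgroupComap_surjective_of_surjective U r'))).trans i
    exact Subgroup.ext fun x => (Subtype.ext_iff (a2 := 1) (a1 := (θ.comp ρ).subgroupComap U x)).symm

end Cfsg.Agent.S5415
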