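import Cfsg.Statements.S5418
import Cfsg.Agent.H13.CHe
import Cfsg.Agent.H13.MonE

set_option autoImplicit false
open Cfsg

namespace Cfsg.Agent.S5418

open H13

open H27 Subgroup

/-- Let G be a finite group of Monster type at the involution z with Q the extraspecial normal subgroup of order 2^25 of C = C_G(z) (so C/Q is identified with the first Conway group with Q modulo its centre the Leech lattice modulo 2, and z is not weakly closed in Q). Let s be a conjugate of z in Q other than z and let B be a Sylow 7-subgroup of the joint centralizer of z and s. Then the centralizer of B has index 6 in the normalizer of B; and some involution inverting B induces, by conjugation, a non-inner automorphism of the layer of the centralizer of B. -/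
theorem result {G : Type*} [Group G] [Finite G] (z : G) (Q : Subgroup (Subgroup.centralizer ({z} : Set G))) [Q.Normal] (hM : Cfsg.IsOfMonsterType z Q) (s : G) (hsQ : ∃ hsc : s ∈ Subgroup.centralizer ({z} : Set G), (⟨s, hsc⟩ : Subgroup.centralizer ({z} : Set G)) ∈ Q) (hs : IsConj z s) (hs1 : s ≠ z) (B : Subgroup G) (hB : B ≤ Subgroup.centralizer ({z, s} : Set G)) (hBp : Nat.card B = 7 ^ (Nat.card ↥(Subgroup.centralizer ({z, s} : Set G))).factorization 7) : (Subgroup.centralizer (B : Set G)).relIndex (Subgroup.normalizer (B : Set G)) = 6 ∧ ∃ t : G, orderOf t = 2 ∧ (∀ b ∈ B, t * b * t⁻¹ = b⁻¹) ∧ (∀ x ∈ (Cfsg.layer ↥(Subgroup.centralizer (B : Set G))).map (Subgroup.centralizer (B : Set G)).subtype, t * x * t⁻¹ ∈ (Cfsg.layer ↥(Subgroup.centralizer (B : Set G))).map (Subgroup.centralizer (B : Set G)).subtype) ∧ ¬ ∃ l ∈ (Cfsg.layer ↥(Subgroup.centralizer (B : Set G))).map (Subgroup.centralizer (B : Set G)).subtype, ∀ x ∈ (Cfsg.layer ↥(Subgroup.centralizer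 (B : Set G))).map (Subgroup.centralizer (B : Set G)).subtype, t * x * t⁻¹ = l * x * l⁻¹ := by
  obtain ⟨R, π, P, h, a⟩ := mt_e8 hM hsQ hs hs1
  obtain ⟨π, P, h, a, b, c, d, e⟩ := h.exists_pm' a hB (p := 7) (by norm_num) (by norm_num)
    (by rw [hBp, h.card_J a]; decide +kernel) (by norm_num) ord_x7
  have o : orderOf (π b) = 7 := by rw [e]; exact (orderOf_injective _ mk1_pm_inj x7).trans ord_x7
  have b7 : b ^ 7 = 1 := d ▸ pow_orderOf_eq_one b
  have g7 : Odd (orderOf (pm x7)) := by rw [ord_pm, ord_x7]; decide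
  have mc : centralizer (B : Set G) = Cz (b : G) := c ▸ Subgroup.ext fun _ => mem_cent_zpowers
  constructor
  · obtain ⟨k, u⟩ := h.lift (cm he6)
    obtain ⟨r, -, v⟩ := h.conj_of_eq (p := 7) (by norm_num) (by norm_num) (b := b) (c := k⁻¹ * (b * b * b) * k) o b7
      (by rw [show k⁻¹ * (b * b * b) * k = k⁻¹ * b ^ 3 * k⁻¹⁻¹ by rw [pow_three]; group, conj_pow, ← pow_mul, mul_comm 3, pow_mul, b7]; group)
      (by simp only [map_mul, map_inv, u, e]; rw [mul_assoc, inv_mul_eq_iff_eq_mul]; simp only [← map_mul, he6_cj])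
    rw [mc, ← c]
    refine idx_six (k := (k * r⁻¹ : Cz z)) ((orderOf_coe b).trans d) (congrArg Subtype.val (?_ : k * r⁻¹ * b = b * b * b * (k * r⁻¹)))
    conv_lhs => rw [← v]
    group
  obtain ⟨τ, g, y, t1, t2, t3, t4⟩ := he_inv
  obtain ⟨k, k1, k2⟩ := h.inv_lift g y
  rw [← t1, mul_inv_cancel_right] at k2
  have ki : k⁻¹ = k := inv_eq_of_mul_eq_one_right k1
  have p1 : π (k * b⁻¹ * k * b) = π b ^ 2 := by
    have : π b * π k * π b = π k := by rw [e, k2, ← map_mul, ← map_mul, t2]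
    have u : π k * π k = 1 := by rw [← map_mul, k1, map_one]
    simp only [map_mul, map_inv]
    calc _ = π k * (π b)⁻¹ * (π b * π k * π b) * π b := by rw [this]
      _ = π k * π k * π b ^ 2 := by rw [pow_two]; group
      _ = _ := by rw [u, one_mul]
  have p7 := o ▸ pow_orderOf_eq_one (π b)
  obtain ⟨r, ⟨i, r1⟩, r2⟩ := h.conj_of_eq (p := 7) (by norm_num) (by norm_num) (b := b) (c := (k * b⁻¹ * k * b) ^ 4) o b7
    (by
      have m := (h.ker ((k * b⁻¹ * k * b) ^ 7)).1 (by rw [map_pow, p1, ← pow_mul, mul_comm 2, pow_mul, p7, one_pow])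
      rw [← pow_mul, mul_comm 4, pow_mul, show 4 = 2 * 2 from rfl, pow_mul, pow_two, pow_two]
      apply Subtype.ext
      rcases h.sq m with u | u <;> simp only [coe_mul, u]
      exacts [one_mul _, h.zz])
    (by rw [map_pow, p1, ← pow_mul, pow_succ, p7, one_mul])
  have ti : (r * k * r⁻¹) * b * (r * k * r⁻¹)⁻¹ = b⁻¹ := by
    have : k * (k * b⁻¹ * k * b) * k⁻¹ = (k * b⁻¹ * k * b)⁻¹ := by
      simp only [mul_inv_rev, ki, inv_inv, ← mul_assoc, k1, one_mul]
    have : k * (k * b⁻¹ * k * b) ^ 4 * k⁻¹ = ((k * b⁻¹ * k * b) ^ 4)⁻¹ := by rw [← conj_pow, this, inv_pow]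
    generalize (k * b⁻¹ * k * b) ^ 4 = x at *
    calc _ = r * (k * x * k⁻¹) * r⁻¹ := by rw [← r2]; group
      _ = _ := by rw [this, ← r2]; group
  have fe : pm x7 • kl (e8 none) = kl (e8 none) := stab_e8.ge (pm_mem _)
  have ft : pm x7 • kl (τ • e8 none) = kl (τ • e8 none) := by
    rw [← smul_kl, ← mul_smul, eq_mul_inv_of_mul_eq t2, mul_smul, inv_smul_eq_iff.2 fe.symm]
  have tp : P (τ • e8 none) ((r * k * r⁻¹ : Cz z) * s * (r * k * r⁻¹ : Cz z)⁻¹) := by
    refine h.congr (h.act (g := pm x7 ^ i * τ * (pm x7 ^ i)⁻¹) (by simp [← r1, k2, e]) a) (kl_eq.1 ?_)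
    have z1 : ∀ x : Kl, pm x7 • x = x → pm x7 ^ i • x = x := fun x hx => (MulAction.stabilizer CC x).zpow_mem hx i
    rw [← smul_kl, mul_smul, mul_smul, inv_smul_eq_iff.2 (z1 _ fe).symm, smul_kl τ, z1 _ ft]
  obtain ⟨-, ⟨L, _, φ, D, -⟩, -⟩ := he_facts
  obtain ⟨l1, l2⟩ := h.mem_layer e (by rw [d]; decide) g7 (by norm_num) D c (e8_norm _) ((nm_smul τ _).trans (e8_norm _))
    fe ft t3 a
  have iv : ∀ x ∈ B, ((r * k * r⁻¹ : Cz z) : G) * x * ((r * k * r⁻¹ : Cz z) : G)⁻¹ = x⁻¹ := by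
    rw [← c]
    rintro _ ⟨j, rfl⟩
    rw [← conj_zpow, ← inv_zpow]
    exact congrArg (fun x : Cz z => (x : G) ^ j) ti
  refine ⟨(r * k * r⁻¹ : Cz z), ?_, iv, fun x hx => ?_, fun ⟨l, l3, l4⟩ => ?_⟩
  · refine (orderOf_coe _).trans (orderOf_eq_prime (by rw [conj_pow, pow_two, k1]; group) fun u => ?_)
    rw [u, one_mul, inv_one, mul_one, eq_inv_iff_mul_eq_one, ← pow_two] at ti
    exact absurd (d ▸ orderOf_dvd_of_pow_eq_one ti) (by decide)
  · refine (mem_normalizer_iff.1 (H5.normalizer_le_normalizer_layerOf _ (mem_normalizer_fintype fun y hy w hw => ?_)) x).1 hx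
    have := hy _ (inv_mem hw)
    have u := iv _ (inv_mem hw)
    rw [inv_inv] at u
    generalize ((r * k * r⁻¹ : Cz z) : G) = t at *
    calc _ = t * (w⁻¹ * y) * t⁻¹ := by conv_lhs => rw [← u]
                                       group
      _ = _ := by conv_rhs => rw [← u]
                  rw [this]; group
  · have lz : l ∈ Cz z := mem_Cz'.2 ((l4 z l1).symm.trans (mem_Cz'.1 (r * k * r⁻¹).2))
    obtain ⟨g, u⟩ := MT.exists_g (π := π) ⟨l, lz⟩
    refine t4 g (comm_of_mk1 g7 ?_) (kl_eq.2 ((h.uniq (h.act u a) tp).1 (Or.inl (l4 s l2))))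
    rw [← u, ← e, ← map_mul, ← map_mul]
    exact congrArg π (Subtype.ext (mem_Cz.1 (mc.le (H5.layerOf_le _ l3))))

end Cfsg.Agent.S5418
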