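import Cfsg.Statements.S5422
import Cfsg.Agent.H13.LX2

set_option autoImplicit false
open Cfsg

namespace Cfsg.Agent.S5422

open H13

open Subgroup H5

/-- Let Q be an extraspecial 2-subgroup of the finite group G whose centralizer in G is its centre Z and which is normal in the centralizer of Z; suppose Q has width at least 2 (order 2^(2w+1) with w ≥ 2) and g is an element of G not normalizing Z with g Z g⁻¹ inside Q. Then Z lies inside g Q g⁻¹; writing V for the subgroup generated by Z and g Z g⁻¹ (a four-group), the normalizer of V induces on V its full automorphism group, that is, the centralizer of V has index 6 in the normalizer of V; and Q is a large extraspecial 2-subgroup of G. -/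
theorem result {G : Type*} [Group G] [Finite G] (Q : Subgroup G) (hL1 : Cfsg.IsExtraspecial 2 ↥Q) (hL2 : Subgroup.centralizer (Q : Set G) = ((Subgroup.center ↥Q).map Q.subtype)) (hL3 : Subgroup.centralizer (((Subgroup.center ↥Q).map Q.subtype) : Set G) ≤ Subgroup.normalizer (Q : Set G)) (w : ℕ) (hw : 2 ≤ w) (hcard : Nat.card ↥Q = 2 ^ (2 * w + 1)) (g : G) (hg : g ∉ Subgroup.normalizer (((Subgroup.center ↥Q).map Q.subtype) : Set G)) (hZg : (((Subgroup.center ↥Q).map Q.subtype)).map (MulAut.conj g).toMonoidHom ≤ Q) : ((Subgroup.center ↥Q).map Q.subtype) ≤ (Q).map (MulAut.conj g).toMonoidHom ∧ (Subgroup.centralizer ((((Subgroup.center ↥Q).map Q.subtype) ⊔ (((Subgroup.center ↥Q).map Q.subtype)).map (MulAut.conj g).toMonoidHom : Subgroup G) : Set G)).relIndex (Subgroup.normalizer ((((Subgroup.center ↥Q).map Q.subtype) ⊔ (((Subgroup.center ↥Q).map Q.subtype)).map (MulAut.conj g).toMonoidHom : Subgroup G) : Set G)) = 6 ∧ Cfsg.IsLargeExtraspecial Q := by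
  obtain ⟨z, hz⟩ := exists_center_gen hL1
  obtain ⟨w', -, h⟩ := xs_of' hL1 hz hL2 hL3
  obtain rfl := h.w_eq hcard
  rw [hz] at hg hZg ⊢
  have ht : g * z * g⁻¹ ∈ Q := hZg (conj_mem_cj (mem_zpowers z))
  have hne : g * z * g⁻¹ ≠ z := fun e => hg (centralizer_le_normalizer _ (cent_zpowers z ▸ mem_Cz'.2 e))
  have hp := h.xp ht (h.sym hw ht) hne
  refine ⟨zpowers_le.2 hp.zP, ?_, h.large_of_conj hw ht hne⟩
  have : zpowers z ⊔ (zpowers z).map (MulAut.conj g).toMonoidHom = closure {z, g * z * g⁻¹} := by
    rw [MonoidHom.map_zpowers, zpowers_eq_closure, zpowers_eq_closure, ← Subgroup.closure_union]; rfl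
  rw [this, XP.cent_V]
  exact hp.relIndex_six

end Cfsg.Agent.S5422
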