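import Cfsg.Statements.S5423
import Cfsg.Agent.H12.AffD
import Cfsg.Agent.H25.ConjRep

set_option autoImplicit false
open Cfsg

namespace Cfsg.Agent.S5423

open H12 Subgroup
open scoped IsMulCommutative commutatorElement

theorem aux {G : Type*} [Group G] [Finite G] (n : ℕ) (U M : Subgroup G) [U.Normal]
    [IsMulCommutative U] [Module (ZMod 2) (Additive U)]
    (hUcard : Nat.card ↥U = 2 ^ (n + 1)) (hUM : U ⊓ M = ⊥) (hUM' : U ⊔ M = ⊤)
    (hfaith : ∀ m ∈ M, (∀ u ∈ U, m * u * m⁻¹ = u) → m = 1)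
    (hfull : ∀ φ : ↥U ≃* ↥U, ∃ m ∈ M, ∀ u : ↥U, ((φ u : ↥U) : G) = m * u * m⁻¹) {z : G}
    (hz : z ∈ U) (hz1 : z ≠ 1) :
    ∃ A : AffC (ZMod 2) (Fin n → ZMod 2) (centralizer (zpowers z : Set G)), (A.z : G) = z := by
  obtain ⟨e, he⟩ := H8.exists_linearEquiv_apply_eq_of_card (K := ZMod 2)
    (V := ZMod 2 × (Fin n → ZMod 2)) (W := Additive U) (v := (1, 0)) (w := .ofMul ⟨z, hz⟩)
    (by rw [Nat.card_prod, Nat.card_fun, Nat.card_zmod]; exact (by simp [pow_succ'] :
      2 * 2 ^ Nat.card (Fin n) = 2 ^ (n + 1)).trans hUcard.symm) (by simp)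
    fun h => hz1 (congrArg (fun v : Additive U => (v.toMul : G)) h)
  have hUU : ∀ a ∈ U, ∀ b ∈ U, a * b = b * a := H1.isMulCommutative_iff'.1 inferInstance
  have hUC : U ≤ centralizer (zpowers z : Set G) := fun u hu b hb => hUU b (zpowers_le.2 hz hb) u hu
  have hmem : ∀ g, g * z * g⁻¹ = z → g ∈ centralizer (zpowers z : Set G) := fun g hg => by
    rintro _ ⟨k, rfl⟩
    exact ((show Commute g z from mul_inv_eq_iff_eq_mul.1 hg).zpow_right k).symm
  let ι : Multiplicative (ZMod 2 × (Fin n → ZMod 2)) →* centralizer (zpowers z : Set G) :=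
    (inclusion hUC).comp (AddMonoidHom.toMultiplicativeLeft e.toAddMonoidHom)
  have hι : ∀ v, (ι (.ofAdd v) : G) = (e v).toMul := fun _ => rfl
  let ρ : centralizer (zpowers z : Set G) →* Module.End (ZMod 2) (ZMod 2 × (Fin n → ZMod 2)) :=
    { toFun := fun g => e.symm.toLinearMap ∘ₗ (H25.conjRep U 2 g).toLinearMap ∘ₗ e.toLinearMap
      map_one' := LinearMap.ext fun v => by simp
      map_mul' := fun g h => LinearMap.ext fun v => by simp }
  have hρ : ∀ g v, ((e (ρ g v)).toMul : G) = g * (e v).toMul * (g : G)⁻¹ := fun g v => by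
    rw [← H25.conjRep_apply U 2]; simp [ρ]
  have inj : ∀ u v, ((e u).toMul : G) = (e v).toMul → u = v := fun u v h =>
    e.injective (Additive.toMul.injective (Subtype.ext h))
  refine ⟨⟨by decide, ι, fun u v h => inj u v (by
      have := congrArg Subtype.val h
      exact this), ρ,
    fun g v => Subtype.ext (hρ g v), fun g => inj _ _ ?_, fun g hg => ?_, M.subgroupOf _, ?_,
    fun h hh => ?_⟩, (hι _).trans (by rw [he]; rfl)⟩
  · rw [hρ, he]
    exact mul_inv_eq_iff_eq_mul.2 (g.2 z (mem_zpowers z)).symm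
  · obtain ⟨u, hu, m, hm, hum⟩ := mem_sup_of_normal_left.1 (hUM'.ge (mem_top (g : G)))
    obtain rfl : m = 1 := hfaith m hm fun w hw => by
      have := hρ g (e.symm (.ofMul ⟨w, hw⟩))
      rw [hg, ← hum] at this
      simp only [Module.End.one_apply, LinearEquiv.apply_symm_apply, toMul_ofMul] at this
      have h2 : m * w * m⁻¹ = u⁻¹ * w * u := by rw [this]; nth_rw 2 [this]; group
      rw [h2, mul_assoc, hUU w hw u hu, inv_mul_cancel_left]
    refine ⟨.ofAdd (e.symm (.ofMul ⟨u, hu⟩)), Subtype.ext ?_⟩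
    rw [hι, ← hum]; simp
  · rintro _ hm ⟨v, rfl⟩
    exact Subtype.ext (hUM.le ⟨(e v).toMul.2, hm⟩)
  · obtain ⟨m, hm, h1⟩ := hfull (AddEquiv.toMultiplicativeRight
      ((e.symm.trans h).trans e).toAddEquiv |>.trans (MulEquiv.multiplicativeAdditive U))
    have h2 : ∀ v, ((e (h v)).toMul : G) = m * (e v).toMul * m⁻¹ := fun v => by
      rw [← h1]; simp
    refine ⟨⟨m, hmem m ?_⟩, hm, LinearMap.ext fun v => inj _ _ ((hρ _ v).trans (h2 v).symm)⟩
    have := h2 (1, 0)
    rw [hh, he] at this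
    exact this.symm

/-- Let G be a finite group that is the split extension of an elementary abelian normal subgroup U of order 2^(n+1), n ≥ 1, by its full automorphism group: U has a complement M in G whose conjugation action on U is faithful and realizes every automorphism of U. Let Z be a subgroup of U of order 2 and Q the largest normal 2-subgroup of the centralizer C of Z. Then Q is extraspecial of order 2^(2n+1) with an elementary abelian subgroup of order 2^(n+1) (plus type), Q is a large extraspecial 2-subgroup of G, and C is the split extension of Q by the general linear group of degree n over the field with two elements. -/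
theorem result {G : Type*} [Group G] [Finite G] (n : ℕ) (hn : 1 ≤ n) (U M : Subgroup G) [U.Normal] (hU : Cfsg.IsElementaryAbelian 2 U) (hUcard : Nat.card ↥U = 2 ^ (n + 1)) (hUM : U ⊓ M = ⊥) (hUM' : U ⊔ M = ⊤) (hfaith : ∀ m ∈ M, (∀ u ∈ U, m * u * m⁻¹ = u) → m = 1) (hfull : ∀ φ : ↥U ≃* ↥U, ∃ m ∈ M, ∀ u : ↥U, ((φ u : ↥U) : G) = m * u * m⁻¹) (Z : Subgroup G) (hZU : Z ≤ U) (hZ : Nat.card ↥Z = 2) (Q : Subgroup G) (hQ : Q = (Cfsg.pCore 2 ↥(Subgroup.centralizer (Z : Set G))).map (Subgroup.centralizer (Z : Set G)).subtype) : Cfsg.IsExtraspecial 2 ↥Q ∧ Nat.card ↥Q = 2 ^ (2 * n + 1) ∧ (∃ E : Subgroup G, E ≤ Q ∧ Cfsg.IsElementaryAbelian 2 E ∧ Nat.card ↥E = 2 ^ (n + 1)) ∧ Cfsg.IsLargeExtraspecial Q ∧ ∃ K : Subgroup G, K ≤ Subgroup.centralizer (Z : Set G) ∧ Q ⊓ K = ⊥ ∧ Q ⊔ K = Subgroup.centralizer (Z : Set G) ∧ Nonempty (↥K ≃* Matrix.GeneralLinearGroup (Fin n) (ZMod 2)) := by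
  obtain ⟨z, hz1, rfl⟩ : ∃ z : G, z ≠ 1 ∧ Z = zpowers z := by
    obtain ⟨z, hz1, hzu⟩ := (Nat.card_eq_two_iff' (1 : Z)).1 hZ
    refine ⟨z, fun h => hz1 (Subtype.ext h), le_antisymm (fun a ha => ?_) (zpowers_le.2 z.2)⟩
    by_cases h : a = 1
    · exact h ▸ one_mem _
    · have : a = z := congrArg Subtype.val (hzu ⟨a, ha⟩ fun e => h (congrArg Subtype.val e))
      exact this ▸ mem_zpowers _
  have := hU.1
  let _ := H25.elemModule U hU.2
  obtain ⟨A, hA⟩ := aux n U M hUcard hUM hUM' hfaith hfull (zpowers_le.1 hZU) hz1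
  have hUU : ∀ a ∈ U, ∀ b ∈ U, a * b = b * a := H1.isMulCommutative_iff'.1 inferInstance
  have hUp : IsPGroup 2 U := IsPGroup.of_card hUcard
  have hUQ : U ≤ pCoreOf 2 (centralizer (zpowers z : Set G)) :=
    H10.le_pCoreOf hUp (fun u hu b hb => hUU b (hZU hb) u hu) (le_normalizer_of_normal)
  subst hQ
  refine ⟨A.amb_es hn, A.amb_card, A.amb_elem, A.amb_large hn (by rw [hA]) fun K hK hN => ?_, A.amb_K⟩
  have hd : K ⊓ U = ⊥ := (disjoint_of_coprime_natCard (by
    rw [hUcard]; exact (Nat.coprime_two_right.2 hK).pow_right _)).eq_bot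
  refine eq_bot_iff.2 fun k hk => hd.le ⟨hk, ?_⟩
  obtain ⟨u, hu, m, hm, rfl⟩ := mem_sup_of_normal_left.1 (hUM'.ge (mem_top k))
  obtain rfl : m = 1 := hfaith m hm fun w hw => by
    have h1 : u * m * (w * (u * m)⁻¹ * w⁻¹) = 1 := hd.le ⟨mul_mem hk
      ((mem_normalizer_iff.1 (hN (hUQ hw)) _).1 (inv_mem hk)), by
        have := mul_mem (Normal.conj_mem inferInstance w hw (u * m)) (inv_mem hw)
        simp only [mul_assoc] at this ⊢
        exact this⟩
    calc m * w * m⁻¹ = u⁻¹ * (u * m * (w * (u * m)⁻¹ * w⁻¹)) * (w * u) := by group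
      _ = w := by rw [h1, mul_one, hUU w hw u hu, inv_mul_cancel_left]
  simpa using hu

end Cfsg.Agent.S5423
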