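import Cfsg.Statements.S5425
import Cfsg.Agent.H9.Mz4
import Cfsg.Agent.H13.LX
import Cfsg.Agent.H29.Gr
import Cfsg.Agent.H27.MCls

set_option autoImplicit false
open Cfsg

namespace Cfsg.Agent.S5425
open H27 MulAction
open scoped Pointwise
open H9 H5 H13 Matrix Subgroup
open scoped MatrixGroups
noncomputable def sN (i : Nat) : Net := nth .nil [(.cons 1 0x105040 (.cons 2 0x222201 (.cons 4 0x10e00 (.cons 8 0x6 (.cons 16 0x6c (.cons 8 0x4 (.cons 4 0x600 (.cons 2 0x222200 (.cons 1 0x105040 .nil))))))))),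
  (.cons 1 0x504110 (.cons 2 0x111012 (.cons 4 0x50a04 (.cons 8 0x32 (.cons 16 0x3b (.cons 8 0x38 (.cons 4 0x10a00 (.cons 2 0x133010 (.cons 1 0x504110 .nil))))))))),
  (.cons 1 0x441404 (.cons 2 0x22201 (.cons 4 0x30802 (.cons 8 0x61 (.cons 16 0x69 (.cons 8 0x61 (.cons 4 0x30000 (.cons 2 0x22200 (.cons 1 0x441004 .nil)))))))))] i
noncomputable def eN : List Net := [(.cons 1 0x401140 (.cons 2 0x21200 (.cons 4 0xc0c00 (.cons 8 0xab (.cons 16 0x7b (.cons 8 0x2b (.cons 4 0xc0800 (.cons 2 0x21200 (.cons 1 0x401140 .nil))))))))),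
  (.cons 1 0x511140 (.cons 2 0x223200 (.cons 4 0xa0a00 (.cons 8 0x4c (.cons 16 0x9c (.cons 8 0xc (.cons 4 0x80800 (.cons 2 0x223200 (.cons 1 0x511040 .nil))))))))),
  (.cons 1 0x45100 (.cons 2 0x220210 (.cons 4 0x60400 (.cons 8 0x60 (.cons 16 0xf0 (.cons 8 0x30 (.cons 4 0x30100 (.cons 2 0x331100 (.cons 1 0x45100 .nil)))))))))] ++ [z2aN]
noncomputable def qN : List Net := sN 0 :: sN 1 :: sN 2 :: eN
noncomputable def kN : List Net := [(.cons 1 0x54114 (.cons 2 0x133001 (.cons 4 0x30f01 (.cons 8 0xd4 (.cons 16 0x56 (.cons 8 0x52 (.cons 4 0x600 (.cons 2 0x12200 (.cons 1 0x140010 .nil))))))))),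
  (.cons 1 0x410515 (.cons 2 0x122210 (.cons 4 0xc0a04 (.cons 8 0xc (.cons 16 0x8d (.cons 8 0xc (.cons 4 0x80800 (.cons 2 0x302010 (.cons 1 0x410510 .nil)))))))))]
noncomputable def gN : Net := (.cons 1 0x155005 (.cons 2 0x101003 (.cons 4 0x60602 (.cons 8 0x7 (.cons 16 0x5a (.cons 8 0x48 (.cons 4 0xe0b00 (.cons 2 0x112030 (.cons 1 0x551510 .nil)))))))))
theorem qa : ActsL 24 GE.e (qN.map mm) qN := actsL_mm (by decide +kernel)
theorem ea : ActsL 24 GE.e (eN.map mm) eN := actsL_mm (by decide +kernel)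
theorem ka : ActsL 24 GE.e (kN.map mm) kN := actsL_mm (by decide +kernel)
noncomputable abbrev Q0 : Subgroup MM := cl (qN.map mm)
noncomputable abbrev E0 : Subgroup MM := cl (eN.map mm)
noncomputable abbrev K0 : Subgroup MM := Cz z2a ⊓ H23 ⊓ stabilizer MM (GE.e 4)
noncomputable def qC : PcCert := [(2, [], [[0], [1], [2], [5, 3], [4], [5]]),
  (2, [], [[0], [4, 1], [4, 2], [4, 3], [4]]),
  (2, [], [[3, 0], [1], [2], [3]]),
  (2, [], [[0], [1], [2]]),
  (2, [], [[0], [1]]),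
  (2, [], [[0]]),
  (2, [], [])]
theorem cQ : Nat.card Q0 = 2 ^ 7 :=
  qa.pc_card (K := 5) (fun _ => MM_faithful) GE.injOn (by norm_num) (C := qC) (by decide +kernel) [(23, 1, 3), (4, 1, 4)] (by decide +kernel)
theorem cE : Nat.card E0 = 2 ^ 4 :=
  ea.pc_card (K := 5) (fun _ => MM_faithful) GE.injOn (by norm_num) (C := qC.drop 3) (by decide +kernel) [(4, 1, 4)] (by decide +kernel)
theorem eq : ∀ g ∈ eN.map mm, g ∈ Q0 := fun _ h => mem_cl (.tail _ (.tail _ (.tail _ h)))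
theorem zQ : z2a ∈ Q0 := eq _ (List.mem_map_of_mem (List.mem_append_right _ (.head _)))
theorem QC : Q0 ≤ Cz z2a := cl_le (qa.mem_cent z2a_acts (by decide +kernel))
theorem nQ : Cz z2a ≤ normalizer (Q0 : Set MM) :=
  cl_c2a.ge.trans <| c2a_acts.norm (K := 5) (fun _ => MM_faithful) qa [[[4, 0], [12, 0], [12, 2, 0], [8, 6], [8], [10, 8, 6], [12]], [[12, 4], [4, 0], [12, 2, 0], [10, 8], [12, 10, 6], [8], [12]]] (by decide +kernel)
theorem en {x : MM} (hx : x ∈ Q0) : (x * x = 1 ∨ x * x = z2a) ∧ (x ∈ H23 → x ∈ stabilizer MM (GE.e 4) → x = 1) := by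
  obtain ⟨j, vs, Vs, a, rfl, b⟩ := qa.pc_forall (K := 5) (fun _ => MM_faithful) (C := qC) (by decide +kernel)
    (p := fun _ W => and' (or' (eqL 5 24 (appendL W W) []) (eqL 5 24 (appendL W W) [z2aN]))
      (or' (eqL 5 24 W []) (not' (and' (Nat.beq (fnL W 23) 23) (Nat.beq (fnL W 4) 4))))) (by decide +kernel) hx
  simp only [and'_eq, or'_eq, Bool.and_eq_true, Bool.or_eq_true, appendL_eq, not'_eq, Bool.not_eq_true',
    Bool.and_eq_false_imp, beq_iff] at b
  refine ⟨b.1.imp (fun c => ?_) fun c => ?_, fun u v => b.2.elim (a.prod_eq_mm .nil) fun c => ?_⟩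
  · exact List.prod_append.symm.trans ((actsL_app a a).prod_eq_mm .nil c)
  · exact List.prod_append.symm.trans (((actsL_app a a).prod_eq_mm (.cons z2a_acts .nil) c).trans (mul_one _))
  have f : ∀ i < 24, vs.prod • GE.e i = GE.e i → fnL Vs i = i := fun i h k =>
    (GE.e_eq_iff (fnL_lt (fun _ => a.ok) h) h).1 ((a.prod_act h).symm.trans k)
  rw [f 4 (by norm_num) v] at c
  exact absurd (c (f 23 (by norm_num) u)) (by decide)
theorem fx {y : MM} (hy : y ∈ centralizer (Q0 : Set MM)) (h : y • GE.e 4 = GE.e 4) : y = 1 :=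
  mem_bot.1 (fixM_all ▸ fixM_le_of_refChk (F := orb eN 1 (Nat.shiftLeft 1 4)) (Os := [0xe91104, 0xecc040, 0xf08320, 0xf210c0, 0xf50018, 0xf82402]) (by decide +kernel)
    (mem_fixM'.2 fun i _ b => by
      obtain ⟨-, g, c, d⟩ := ea.orb_orbit eq _ (by norm_num) b
      rw [← d, ← mul_smul, ← hy g c, mul_smul, h]))
theorem cen {x : MM} (hx : x ∈ centralizer (Q0 : Set MM)) : x = 1 ∨ x = z2a := by
  have k : ∀ {N X}, N ∈ qN → fixF (mm N) = GE.fs X → GE.e 4 ∈ GE.fs X → x • GE.e 4 ∈ GE.fs X := fun a b c => by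
    have : x • fixF _ = _ := cent_le_stab_fixF _ (mem_centralizer_singleton_iff.2 (hx _ (mem_cl (List.mem_map_of_mem a))).symm)
    rw [b] at this
    exact this ▸ Finset.smul_mem_smul_finset c
  have := Finset.mem_inter.2 ⟨k (X := 0x182d50) (.head _) ((acts_mm (by decide +kernel)).fixF_eq (by decide +kernel)) (by decide +kernel),
    Finset.mem_inter.2 ⟨k (X := 0x401ed0) (.tail _ (.head _)) ((acts_mm (by decide +kernel)).fixF_eq (by decide +kernel)) (by decide +kernel),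
      k (X := 0x6920d0) (.tail _ (.tail _ (.head _))) ((acts_mm (by decide +kernel)).fixF_eq (by decide +kernel)) (by decide +kernel)⟩⟩
  rw [show GE.fs _ ∩ (GE.fs _ ∩ GE.fs _) = {GE.e 4, GE.e (z2aN.fn 4)} by decide +kernel, Finset.mem_insert,
    Finset.mem_singleton, ← z2a_acts.act 4 (by norm_num)] at this
  refine this.imp (fx hx) fun c => (inv_mul_eq_one.1 (fx (mul_mem (inv_mem fun g h => ?_) hx) ?_)).symm
  · exact mem_centralizer_singleton_iff.1 (QC h)
  · rw [mul_smul, c, inv_smul_smul]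
theorem xs : XS z2a Q0 3 :=
  ⟨ord_z2a, H29.isExtraspecial_two zQ ord_z2a (fun _ h => mem_centralizer_singleton_iff.1 (QC h)) (by rw [cQ]; norm_num)
    fun x h => ⟨(en h).1, fun c => cen fun y k => (c y k).symm⟩,
    le_antisymm (fun x h => by rcases cen h.2 with rfl | rfl; exacts [one_mem _, mem_zpowers _])
      (zpowers_le.2 ⟨zQ, fun g h => mem_centralizer_singleton_iff.1 (QC h)⟩), cQ,
    fun h a x b => (mem_normalizer_iff.1 (nQ a) x).1 b, fun x h => by rcases cen h with rfl | rfl; exacts [one_mem _, zQ]⟩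
theorem km : ∀ g ∈ kN.map mm, g ∈ K0 := mem_inf_of (mem_inf_of (ka.mem_cent z2a_acts (by decide +kernel))
  (ka.stab_pt (by norm_num) (by decide +kernel))) (ka.stab_pt (by norm_num) (by decide +kernel))
theorem QK : Q0 ⊓ K0 = ⊥ := eq_bot_iff.2 fun _ h => (en h.1).2 h.2.1.2 h.2.2
theorem Kn : K0 ≤ normalizer (Q0 : Set MM) := (inf_le_left.trans inf_le_left).trans nQ
theorem le : Q0 ⊔ K0 ≤ Cz z2a := sup_le QC (inf_le_left.trans inf_le_left)
theorem cK : Nat.card K0 ≤ 168 := by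
  have := Subgroup.card_le_of_le le
  rw [sup_comm, H1.card_sup_of_disjoint Kn (inf_comm Q0 K0 ▸ QK), cQ, card_cent_z2a] at this
  omega
noncomputable def eV (i : Nat) : Fin 3 → ZMod 2 := nth 0 [![0, 0, 1], ![0, 1, 0], ![0, 1, 1], ![1, 0, 0], ![1, 0, 1], ![1, 1, 0], ![1, 1, 1]] i
noncomputable def kM : List Net := [(.cons 1 0x10 (.cons 2 0x12 (.cons 4 0x3 (.cons 2 0x10 (.cons 1 0x5 .nil))))),
  (.cons 1 0x11 (.cons 2 0x3 (.cons 4 0x2 (.cons 2 0x2 .nil))))]
noncomputable def ys : List SL(3, ZMod 2) := [⟨!![0, 1, 1; 1, 1, 0; 1, 1, 1], by decide⟩, ⟨!![1, 0, 0; 0, 0, 1; 1, 1, 1], by decide⟩]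
theorem ax {x : SL(3, ZMod 2)} {N : Net}
    (h : N.valid 7 = true ∧ ∀ i < 7, x.1 *ᵥ eV i = eV (N.fn i)) : Acts 7 eV x N := ⟨Net.ok_of_valid h.1, h.2⟩
theorem cS : Nat.card SL(3, ZMod 2) = 168 := by
  have := _root_.H22.card_SL (F := ZMod 2) 3 (by norm_num)
  simp only [ZMod.card, Fin.prod_univ_three] at this
  norm_num [-Nat.card_eq_fintype_card] at this
  exact this
theorem iso : Nonempty (K0 ≃* SL(3, ZMod 2)) :=
  (ka.sub (l := [0, 1, 17, 2, 5, 3, 14]) (Ms := kM) (by decide +kernel)).iso_cover (K := 3) (subT_injOn GE.injOn (by decide +kernel))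
    (fun i hi j hj h => (by decide +kernel : ∀ i < 7, ∀ j < 7, eV i = eV j → i = j) i hi j hj h)
    (show ActsL 7 eV ys kM from .cons (ax (by decide +kernel)) (.cons (ax (by decide +kernel)) .nil))
    km cK (MonoidHom.id _) (fun g hg i _ => by rw [show g = 1 from hg, one_smul]) cS.le (by norm_num)
    [([0, 2, 2, 1], (.cons 1 0x5 (.cons 2 0x2 (.cons 4 0x3 (.cons 2 0x12 (.cons 1 0x1 .nil)))))),
      ([5, 5, 2, 4], (.cons 4 0x6 .nil)),
      ([3, 0, 2], (.cons 1 0x14 (.cons 4 0x4 (.cons 1 0x4 .nil)))),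
      ([3, 4, 2, 4, 4, 2], (.cons 2 0x12 (.cons 4 0x2 (.cons 2 0x2 .nil))))]
      [4, 5, 3, 2, 1, 0] [(0, 1, 2), (1, 1, 2), (3, 1, 2)] (by decide +kernel)
theorem sup : Q0 ⊔ K0 = Cz z2a := eq_of_le_of_card_ge le (by
  rw [sup_comm, H1.card_sup_of_disjoint Kn (inf_comm Q0 K0 ▸ QK), cQ, card_cent_z2a, Nat.card_congr iso.some.toEquiv, cS]
  norm_num)
theorem sp : Nonempty (SL(3, ZMod 2) ≃* PSL(3, ZMod 2)) := by
  have := _root_.H22.gcd_mul_card_PSL (F := ZMod 2) 3 (by norm_num)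
  exact ⟨MulEquiv.ofBijective (QuotientGroup.mk' _) ((Nat.bijective_iff_surjective_and_card _).2
    ⟨QuotientGroup.mk'_surjective _, by simpa using this.symm⟩)⟩
theorem core : opOf 2 (Cz z2a) = Q0 := by
  have := _root_.H22.PSL_fin_isSimpleGroup (F := ZMod 2) 3 (by norm_num) (by norm_num)
  have s : IsSimpleGroup K0 := (iso.some.trans sp.some).isSimpleGroup
  have l : K0 ≤ Cz z2a := inf_le_left.trans inf_le_left
  have n : ((opOf 2 (Cz z2a)).subgroupOf K0).Normal :=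
    normal_subgroupOf_of_le (l.trans (self_le_normalizer_opOf _ _))
  refine le_antisymm (fun x hx => ?_) xs.le_core
  rcases n.eq_bot_or_eq_top with a | a
  · obtain ⟨k, b, q, c, rfl⟩ : x ∈ (K0 : Set MM) * Q0 := by
      rw [← coe_mul_of_left_le_normalizer_right _ _ Kn, sup_comm, sup]; exact opOf_le _ _ hx
    have : (⟨k, b⟩ : K0) ∈ (⊥ : Subgroup K0) := a ▸ (mul_mem_cancel_right (xs.le_core c)).1 hx
    simpa [show k = 1 from congrArg Subtype.val (mem_bot.1 this)] using c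
  · obtain ⟨m, e⟩ := ((isPGroup_opOf 2 _).to_le (subgroupOf_eq_top.1 a)).exists_card_eq
    rw [Nat.card_congr iso.some.toEquiv, cS] at e
    exact absurd (Nat.Prime.dvd_of_dvd_pow Nat.prime_three (e ▸ (by norm_num : 3 ∣ 168))) (by norm_num)
theorem cjz : mm gN * z2a * (mm gN)⁻¹ = mm (sN 0) := by
  rw [mul_inv_eq_iff_eq_mul]
  simpa using ActsL.prod_eq_mm (.cons (acts_mm (N := gN) (by decide +kernel)) (.cons z2a_acts .nil))
    (.cons (acts_mm (N := sN 0) (by decide +kernel)) (.cons (acts_mm (N := gN) (by decide +kernel)) .nil)) (by decide +kernel)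
theorem core' (k : MM) : opOf 2 (Cz (k * z2a * k⁻¹)) = cj k Q0 := by
  have R := CjRel.centralizer k z2a
  have f : ∀ {k : MM} {A B : Subgroup MM}, CjRel k A B → cj k (opOf 2 A) ≤ opOf 2 B := fun {k _ _} R =>
    le_opOf ((CjRel.of_map k _).le R (opOf_le _ _)) (R.le (CjRel.of_map k _).normalizer (self_le_normalizer_opOf _ _))
      ((isPGroup_opOf _ _).map _)
  refine le_antisymm ?_ (core ▸ f R)
  exact (CjRel.of_map k⁻¹ _).symm.le (inv_inv k ▸ CjRel.of_map k Q0) (core ▸ f R.symm)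


/-- In the Mathieu group of degree 24 (the automorphism group of the length-24 binary Golay code, acting on the 24 coordinates), let z be an involution whose fixed points form an octad (the support of a code word of weight 8), and let Q be the largest normal 2-subgroup of the centralizer C of z. Then Q is extraspecial of order 2^7 with an elementary abelian subgroup of order 16 (plus type), Q is a large extraspecial 2-subgroup, and C is the split extension of Q by the special linear group of degree 3 over the field with two elements. -/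
theorem result (z : ↥Cfsg.M24) (hz : orderOf z = 2) (hfix : (Finset.univ.filter fun p : Cfsg.GolayPt => (z : Equiv.Perm Cfsg.GolayPt) p = p) ∈ Cfsg.octads) (Q : Subgroup ↥Cfsg.M24) (hQ : Q = (Cfsg.pCore 2 ↥(Subgroup.centralizer ({z} : Set ↥Cfsg.M24))).map (Subgroup.centralizer ({z} : Set ↥Cfsg.M24)).subtype) : Cfsg.IsExtraspecial 2 ↥Q ∧ Nat.card ↥Q = 2 ^ 7 ∧ (∃ E : Subgroup ↥Cfsg.M24, E ≤ Q ∧ Cfsg.IsElementaryAbelian 2 E ∧ Nat.card ↥E = 2 ^ 4) ∧ Cfsg.IsLargeExtraspecial Q ∧ ∃ K : Subgroup ↥Cfsg.M24, K ≤ Subgroup.centralizer ({z} : Set ↥Cfsg.M24) ∧ Q ⊓ K = ⊥ ∧ Q ⊔ K = Subgroup.centralizer ({z} : Set ↥Cfsg.M24) ∧ Nonempty (↥K ≃* Matrix.SpecialLinearGroup (Fin 3) (ZMod 2)) := by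
  obtain ⟨k, rfl⟩ := conj_z2a hz fun h => absurd (h.symm.trans (mem_octads_iff.1 hfix).2) (by norm_num)
  obtain rfl := hQ.trans (core' k)
  have X := xs.cj' k
  have R := CjRel.of_map k Q0
  have S := CjRel.of_map k K0
  have T := CjRel.centralizer k z2a
  have E := CjRel.of_map k E0
  refine ⟨X.es, X.card, ⟨_, E.le R (cl_le eq), ⟨?_, ?_⟩, E.card.trans cE⟩,
    X.large_of_conj (by norm_num) (g := k * mm gN * k⁻¹) ?_ fun h => ?_,
    _, S.le T (le_sup_right.trans le), (R.inf S).eq (QK ▸ CjRel.bot k), (R.sup S).eq (sup ▸ T), S.iso iso⟩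
  · refine ⟨⟨?_⟩⟩
    rintro ⟨_, a, u, rfl⟩ ⟨_, b, v, rfl⟩
    exact Subtype.ext (Commute.map (ea.comm (K := 5) (fun _ => MM_faithful) (by decide +kernel) a u b v) _)
  · rintro _ ⟨a, u, rfl⟩
    rw [← map_pow, ea.elemAb (K := 5) (fun _ => MM_faithful) (by decide +kernel) a u, map_one]
  · exact ⟨_, mem_cl (.head _), by rw [← cjz]; simp [mul_assoc]⟩
  · refine (acts_mm (N := sN 0) (by decide +kernel)).ne_of_neL GE.injOn z2a_acts (by decide +kernel) ?_
    rw [← cjz]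
    exact (MulAut.conj k).injective (by simpa [mul_assoc] using h)

end Cfsg.Agent.S5425
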