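import Cfsg.Statements.S5427
import Cfsg.Agent.H13.LX3

set_option autoImplicit false
open Cfsg

namespace Cfsg.Agent.S5427

open H13

open Subgroup H5

/-- Let z be an involution of the finite group G whose centralizer C has generalized Fitting subgroup Q, an extraspecial 2-group of width at least 2 (order 2^(2w+1), w ≥ 2). Let K be a subgroup of G such that the subgroup U generated by the K-conjugates of z is abelian and C is generated by the C-conjugates of U. Suppose that either some K-conjugate of z other than z lies in Q, or some element u of U ∩ Q outside the subgroup generated by z has z in the largest normal 2-subgroup of its centralizer. Then G is simple and Q is a large extraspecial 2-subgroup of G. -/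
theorem result {G : Type*} [Group G] [Finite G] (z : G) (hz : orderOf z = 2) (Q : Subgroup G) (hQC : Q ≤ Subgroup.centralizer ({z} : Set G)) (hF : (Cfsg.generalizedFittingSubgroup ↥(Subgroup.centralizer ({z} : Set G))).map (Subgroup.centralizer ({z} : Set G)).subtype = Q) (hQ : Cfsg.IsExtraspecial 2 ↥Q) (w : ℕ) (hw : 2 ≤ w) (hcard : Nat.card ↥Q = 2 ^ (2 * w + 1)) (K U : Subgroup G) (hU : U = Subgroup.closure {x : G | ∃ k ∈ K, x = k * z * k⁻¹}) (hUab : IsMulCommutative ↥U) (hgen : Subgroup.closure {x : G | ∃ c ∈ Subgroup.centralizer ({z} : Set G), ∃ u ∈ U, x = c * u * c⁻¹} = Subgroup.centralizer ({z} : Set G)) (h3 : (∃ k ∈ K, k * z * k⁻¹ ∈ Q ∧ k * z * k⁻¹ ≠ z) ∨ ∃ u ∈ U ⊓ Q, u ∉ Subgroup.zpowers z ∧ (∃ hz' : z ∈ Subgroup.centralizer ({u} : Set G), (⟨z, hz'⟩ : ↥(Subgroup.centralizer ({u} : Set G))) ∈ Cfsg.pCore 2 ↥(Subgroup.centralizer ({u} : Set G)))) : IsSimpleGroup G ∧ Cfsg.IsLargeExtraspecial Q := by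
  obtain ⟨w', w1, h⟩ := xs_of_fstar hz hF hQ
  obtain rfl := h.w_eq hcard
  have hUM : U ≤ normalClosure ({z} : Set G) := by
    rw [hU, closure_le]
    rintro _ ⟨k, -, rfl⟩
    exact normalClosure_normal.conj_mem z (subset_normalClosure (Set.mem_singleton z)) k
  have hL : IsLargeExtraspecial Q := by
    rcases h3 with ⟨k, -, a, b⟩ | ⟨u, hu, a, b, c⟩
    · exact h.large_of_conj hw a b
    rw [mem_zpowers_two hz, not_or] at a
    refine h.large_of_inv hu.2 ?_ a.1 a.2 ⟨_, c, rfl⟩
    have cm := H1.isMulCommutative_iff'.1 hUab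
    have hu1 := hu.1
    rw [hU] at hu1 cm
    clear a b c hu
    induction hu1 using closure_induction with
    | mem x hx => obtain ⟨k, -, rfl⟩ := hx; exact (h.cj' k).zz
    | one => simp
    | mul x y hx hy a b => rw [(show Commute y x from cm y hy x hx).mul_mul_mul_comm, a, b, one_mul]
    | inv x hx a => rw [← mul_inv_rev, a, inv_one]
  refine ⟨h.simple_of hL.2.2.2 ((opOf_le_fstarOf 2 _).trans hF.le) (hgen.ge.trans ((closure_le _).2 ?_)) w1, hL⟩
  rintro _ ⟨c, -, u, hu, rfl⟩
  exact normalClosure_normal.conj_mem u (hUM hu) c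

end Cfsg.Agent.S5427
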