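import Cfsg.Statements.S5428
import Cfsg.Agent.H13.LX4

set_option autoImplicit false
open Cfsg

namespace Cfsg.Agent.S5428

open H13

open Subgroup H5

/-- Let z be an involution of the finite group G whose centralizer C has generalized Fitting subgroup Q extraspecial (as a 2-group), let A be a subgroup of C of odd order, and let R be the centralizer of A in Q; suppose R has order at least 32, the largest normal subgroup of odd order of the centralizer of the subgroup generated by A and R lies in A, the order of that centralizer is not divisible by 4, and g is an element of G with g z g⁻¹ in R but outside the centre Z of Q. Let M be the subgroup generated by A and the centralizer of A (A is normal in it). Then: the centralizer in M of the subgroup generated by R and A, joined with A, equals the subgroup generated by A and Z; the image of R in M/A is a large extraspecial 2-subgroup of M/A; and g z g⁻¹ is conjugate to z inside the subgroup generated by R and the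 centralizer of A in g Q g⁻¹. -/
theorem result {G : Type*} [Group G] [Finite G] (z : G) (hz : orderOf z = 2) (Q : Subgroup G) (hQC : Q ≤ Subgroup.centralizer ({z} : Set G)) (hF : (Cfsg.generalizedFittingSubgroup ↥(Subgroup.centralizer ({z} : Set G))).map (Subgroup.centralizer ({z} : Set G)).subtype = Q) (hQ : Cfsg.IsExtraspecial 2 ↥Q) (A : Subgroup G) (hA : A ≤ Subgroup.centralizer ({z} : Set G)) (hAodd : Odd (Nat.card ↥A)) (R : Subgroup G) (hR : R = Q ⊓ Subgroup.centralizer (A : Set G)) (hR32 : 32 ≤ Nat.card ↥R) (hO : (Cfsg.oddCore ↥(Subgroup.centralizer ((A ⊔ R : Subgroup G) : Set G))).map (Subgroup.centralizer ((A ⊔ R : Subgroup G) : Set G)).subtype ≤ A) (h4 : ¬ 4 ∣ Nat.card ↥(Subgroup.centralizer ((A ⊔ R : Subgroup G) : Set G))) (g : G) (hgR : g * z * g⁻¹ ∈ R) (hgZ : g * z * g⁻¹ ∉ ((Subgroup.center ↥Q).map Q.subtype)) (M : Subgroup G) (hM : M = Subgroup.centralizer (A : Set G) ⊔ A) [hn : (A.subgroupOf M).Normal] : (M ⊓ Subgroup.centralizer ((R ⊔ A : Subgroup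 G) : Set G)) ⊔ A = A ⊔ ((Subgroup.center ↥Q).map Q.subtype) ∧ Cfsg.IsLargeExtraspecial ((R.subgroupOf M).map (QuotientGroup.mk' (A.subgroupOf M))) ∧ ∃ x ∈ R ⊔ ((Q).map (MulAut.conj g).toMonoidHom ⊓ Subgroup.centralizer (A : Set G)), x * (g * z * g⁻¹) * x⁻¹ = z := by
  obtain ⟨w, -, h⟩ := xs_of_fstar hz hF hQ
  subst hR hM
  have hzA : z ∈ centralizer (A : Set G) := fun a ha => mem_Cz.1 (hA ha)
  have hne : g * z * g⁻¹ ≠ z := fun e => hgZ (by rw [h.cmap, e]; exact mem_zpowers z)
  obtain ⟨w', w1, hc⟩ := H7.extraspecial_card (h.sub_es inf_le_left ⟨h.zm, hzA⟩ (fun x => h.cent_odd hA hAodd)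
    fun a => hgZ (h.cmap ▸ a hgR))
  have w2 : 2 ≤ w' := by
    by_contra a
    obtain rfl : w' = 1 := by omega
    omega
  have w3 : 2 ≤ w := by
    have := card_le_of_le (inf_le_left : Q ⊓ centralizer (A : Set G) ≤ Q)
    rw [hc, h.card] at this
    have := (Nat.pow_le_pow_iff_right one_lt_two).1 this
    omega
  set X := centralizer ((A ⊔ Q ⊓ centralizer (A : Set G) : Subgroup G) : Set G) with hX
  have mX : ∀ k, k ∈ X ↔ k ∈ centralizer (A : Set G) ∧ ∀ x ∈ Q ⊓ centralizer (A : Set G), Commute k x := fun k => by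
    rw [hX, centralizer_sup]; exact and_congr_right fun _ => ⟨fun a x hx => (a x hx).symm, fun a x hx => (a x hx).symm⟩
  have hzX : z ∈ X := (mX z).2 ⟨hzA, fun x hx => (h.cz hx.1).symm⟩
  have key : ∀ k ∈ X, k ∈ A ∨ k * z ∈ A := fun k hk => by
    obtain ⟨N, a, b⟩ := H25.exists_odd_index_two (hz ▸ orderOf_dvd_natCard X hzX) h4
    have := normal_of_index_eq_two a
    have c : N ≤ pPrimeCore 2 X := H1.le_pPrimeCore (Nat.coprime_two_right.2 (Nat.not_even_iff_odd.1 fun e => by
      obtain ⟨x, hx⟩ := exists_prime_orderOf_dvd_card' 2 e.two_dvd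
      have := (b x).1 x.2
      rw [orderOf_coe, hx] at this
      exact absurd this (by decide)))
    have d : (⟨z, hzX⟩ : X) ∉ N := fun e => by
      have := (b _).1 e
      rw [← orderOf_coe, hz] at this
      exact absurd this (by decide)
    by_cases e : (⟨k, hk⟩ : X) ∈ N
    · exact Or.inl (hO ⟨_, c e, rfl⟩)
    · exact Or.inr (hO ⟨_, c ((mul_mem_iff_of_index_two a).2 (iff_of_false e d)), rfl⟩)
  obtain ⟨x, hx, e⟩ := h.odd_swap w3 hA hAodd hgR hne
  refine ⟨?_, ?_, x, hx, e⟩
  · rw [sup_comm (Q ⊓ _) A, ← hX, h.cmap, sup_comm]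
    refine le_antisymm (sup_le le_sup_left fun k hk => ?_) (sup_le_sup_left (zpowers_le.2 (mem_inf.2 ⟨mem_sup_left hzA, hzX⟩)) _)
    rcases key k hk.2 with a | a
    · exact mem_sup_left a
    · simpa using mul_mem_sup a (inv_mem (mem_zpowers z))
  let f := (QuotientGroup.mk' (A.subgroupOf (centralizer (A : Set G) ⊔ A))).comp (inclusion le_sup_left)
  have hk : ∀ x, f x = 1 ↔ (x : G) ∈ A := fun x => QuotientGroup.eq_one_iff _
  have hf : Function.Surjective f := fun y => by
    obtain ⟨⟨y, hy⟩, rfl⟩ := QuotientGroup.mk'_surjective _ y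
    obtain ⟨c, hc, a, ha, rfl⟩ := (H1.mem_sup_of_le_normalizer_right (centralizer_le_normalizer _)).1 hy
    exact ⟨⟨c, hc⟩, QuotientGroup.eq.2 (by simpa [mem_subgroupOf] using ha)⟩
  have h' := (h.odd_quot hA hAodd hf hk hzA w1 hc fun k a b => key k ((mX k).2 ⟨a, b⟩)).1
  have hxA : x ∈ centralizer (A : Set G) := (sup_le inf_le_right inf_le_right : _ ≤ centralizer (A : Set G)) hx
  have e' : (f ⟨x, hxA⟩)⁻¹ * f ⟨z, hzA⟩ * (f ⟨x, hxA⟩)⁻¹⁻¹ = f ⟨_, hgR.2⟩ := by
    rw [inv_inv, ← map_inv, ← map_mul, ← map_mul]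
    exact congrArg f (Subtype.ext (by simpa [mul_assoc] using congrArg (fun k => x⁻¹ * k * x) e.symm))
  have := h'.large_of_conj w2 (g := (f ⟨x, hxA⟩)⁻¹) (e' ▸ ⟨_, hgR.1, rfl⟩) (by
    rw [e', Ne, ← mul_inv_eq_one, ← map_inv, ← map_mul, hk]
    exact fun a => hne (mul_inv_eq_one.1 (h.inf_odd hAodd (Q.mul_mem hgR.1 (inv_mem h.zm)) a)))
  convert this using 1
  ext y
  exact ⟨fun ⟨a, b, c⟩ => ⟨⟨a, b.2⟩, b.1, c⟩, fun ⟨a, b, c⟩ => ⟨⟨a, mem_sup_left a.2⟩, ⟨b, a.2⟩, c⟩⟩

end Cfsg.Agent.S5428
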