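import Cfsg.Statements.S5429
import Cfsg.Agent.H13.LX4

set_option autoImplicit false
open Cfsg

namespace Cfsg.Agent.S5429

open H13

open Subgroup H5

/-- Let z be an involution of the finite group G with centralizer C whose generalized Fitting subgroup Q is extraspecial of width at least 3 (order 2^(2w+1), w ≥ 3); let g be an element of G with g z g⁻¹ in Q but outside the centre Z of Q, and t an involution lying in both Q and g Q g⁻¹ that is not conjugate to z; write P for the centralizer of t in Q and suppose that the elements of C acting trivially by conjugation on P modulo the subgroup generated by t and z are exactly the elements of Q. Then the image of P in the centralizer of t modulo the subgroup generated by t is a large extraspecial 2-subgroup there, and g z g⁻¹ is conjugate to z inside the subgroup generated by P and the centralizer of t in g Q g⁻¹. -/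
theorem result {G : Type*} [Group G] [Finite G] (z : G) (hz : orderOf z = 2) (Q : Subgroup G) (hQC : Q ≤ Subgroup.centralizer ({z} : Set G)) (hF : (Cfsg.generalizedFittingSubgroup ↥(Subgroup.centralizer ({z} : Set G))).map (Subgroup.centralizer ({z} : Set G)).subtype = Q) (hQ : Cfsg.IsExtraspecial 2 ↥Q) (w : ℕ) (hw : 3 ≤ w) (hcard : Nat.card ↥Q = 2 ^ (2 * w + 1)) (g : G) (hgQ : g * z * g⁻¹ ∈ Q) (hgZ : g * z * g⁻¹ ∉ ((Subgroup.center ↥Q).map Q.subtype)) (t : G) (ht : orderOf t = 2) (htQ : t ∈ Q ⊓ (Q).map (MulAut.conj g).toMonoidHom) (htz : ¬ IsConj z t) (P : Subgroup G) (hP : P = Q ⊓ Subgroup.centralizer ({t} : Set G)) (hCP : ∀ c ∈ Subgroup.centralizer ({z} : Set G), (∀ x ∈ P, ∃ y ∈ Subgroup.closure ({t, z} : Set G), c * x * c⁻¹ = x * y) ↔ c ∈ Q) [hn : ((Subgroup.zpowers t).subgroupOf (Subgroup.centralizer ({t} : Set G))).Normal] : Cfsg.IsLargeExtraspecial ((P.subgroupOf (Subgroup.centralizer ({t} : Set G))).map (QuotientGroup.mk' ((Subgroup.zpowers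 t).subgroupOf (Subgroup.centralizer ({t} : Set G))))) ∧ ∃ x ∈ P ⊔ ((Q).map (MulAut.conj g).toMonoidHom ⊓ Subgroup.centralizer ({t} : Set G)), x * (g * z * g⁻¹) * x⁻¹ = z := by
  obtain ⟨w', -, h⟩ := xs_of_fstar hz hF hQ
  obtain rfl := h.w_eq hcard
  subst hP
  have h' := h.cj' g
  have hne : g * z * g⁻¹ ≠ z := fun e => hgZ (by rw [h.cmap, e]; exact mem_zpowers z)
  have hs := h.sym (by omega) hgQ
  have tt : t * t = 1 := by rw [← pow_two, ← ht, pow_orderOf_eq_one]
  have t1 : t ≠ 1 := fun e => by rw [e, orderOf_one] at ht; omega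
  have cs : IsConj z (g * z * g⁻¹) := isConj_iff.2 ⟨g, rfl⟩
  have key : ∀ {z s : G} {Q : Subgroup G}, XS z Q w' → t ∈ Q → s ∈ Q → s ≠ 1 → s ≠ z → ¬ IsConj z t → IsConj z s →
      ∃ r ∈ Q ⊓ Cz t, r * s * r⁻¹ = s * z := fun h a b c d e f => by
    by_contra! k
    have tz : t ≠ _ := fun a => e (a ▸ IsConj.refl _)
    rcases h.cc a b fun y hy u => conj_eq_iff.1 ((h.conj hy b).resolve_right (k y ⟨hy, mem_Cz.2 u⟩)) with l | l | l | l
    exacts [c l, d l, e (l ▸ f), by
      obtain ⟨r, -, m⟩ := h.exists_nc a t1 tz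
      exact e (f.trans (l ▸ (isConj_iff.2 ⟨r, m⟩).symm))]
  obtain ⟨r, hr, a⟩ := key h htQ.1 hgQ h'.z_ne hne htz cs
  obtain ⟨y, hy, b⟩ := key h' htQ.2 hs h.z_ne hne.symm (fun c => htz (cs.trans c)) cs.symm
  have e : y⁻¹ * r * (g * z * g⁻¹) * (y⁻¹ * r)⁻¹ = z := by
    calc _ = y⁻¹ * (r * (g * z * g⁻¹) * r⁻¹) * y := by group
      _ = _ := by rw [a, h.comm hgQ, ← b]; group
  refine ⟨?_, _, mul_mem (inv_mem (mem_sup_right hy)) (mem_sup_left hr), e⟩
  let f := QuotientGroup.mk' ((zpowers t).subgroupOf (Cz t))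
  have hk : ∀ x, f x = 1 ↔ (x : G) = 1 ∨ (x : G) = t := fun x => (QuotientGroup.eq_one_iff _).trans (mem_zpowers_two ht)
  have hzt : z ∈ Cz t := mem_Cz.2 (h.comm htQ.1).symm
  have X := h.inv_quot htQ.1 tt t1 htz (QuotientGroup.mk'_surjective _) hk hzt (w' := w' - 1) (by omega) (by omega)
    fun k hk c => (hCP k hk).1 fun x hx => by
      rcases c x hx with d | d
      exacts [⟨1, one_mem _, by rw [d, mul_one]⟩, ⟨t, subset_closure (by simp), d⟩]
  have hst : g * z * g⁻¹ ∈ Cz t := mem_Cz.2 (h'.comm htQ.2).symm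
  have hx : y⁻¹ * r ∈ Cz t := mul_mem (inv_mem hy.2) hr.2
  have e' : (f ⟨_, hx⟩)⁻¹ * f ⟨z, hzt⟩ * (f ⟨_, hx⟩)⁻¹⁻¹ = f ⟨_, hst⟩ := by
    rw [inv_inv, ← map_inv, ← map_mul, ← map_mul]
    exact congrArg f (Subtype.ext (by simpa [mul_assoc] using congrArg (fun k => (y⁻¹ * r)⁻¹ * k * (y⁻¹ * r)) e.symm))
  rw [inf_subgroupOf_right]
  refine X.large_of_conj (by omega) (g := (f ⟨_, hx⟩)⁻¹) (e' ▸ ⟨_, hgQ, rfl⟩) ?_
  rw [e', Ne, ← mul_inv_eq_one, ← map_inv, ← map_mul, hk]
  rintro (c | c)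
  · exact hne (mul_inv_eq_one.1 c)
  · obtain ⟨q, -, m⟩ := h.exists_nc htQ.1 t1 fun a => htz (a ▸ IsConj.refl _)
    have c : g * z * g⁻¹ = t * z := mul_inv_eq_iff_eq_mul.1 c
    exact htz (cs.trans (c ▸ (isConj_iff.2 ⟨q, m⟩).symm))

end Cfsg.Agent.S5429
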