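import Cfsg.Statements.S5430
import Cfsg.Agent.H13.LX2

set_option autoImplicit false
open Cfsg

namespace Cfsg.Agent.S5430

open H13

open Subgroup H5

/-- Let Q be a large extraspecial 2-subgroup of the finite group G (extraspecial; centralizer equal to its centre; normal in the centralizer of its centre; normalizing no non-trivial subgroup of odd order) with centre generated by z, an involution, of width w ≥ 2 (order 2^(2w+1)); let g be an element outside the centralizer H of z with g z g⁻¹ in Q; write V for the subgroup generated by z and g z g⁻¹, X for the subgroup generated by Q and g Q g⁻¹, R for the subgroup generated by the centralizer of z in g Q g⁻¹ and the centralizer of g z g⁻¹ in Q, and E for the intersection of Q and g Q g⁻¹. Then R is the centralizer of V in X and is the largest normal 2-subgroup of X, and X/R is isomorphic to the symmetric group of degree 3; moreover the normalizer of V is the product of X and the centralizer of V in H, X is normal in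 it, and modulo R it is the direct product of X/R and of the centralizer of V in H modulo R. -/
theorem result {G : Type*} [Group G] [Finite G] (Q : Subgroup G) (hQ : Cfsg.IsLargeExtraspecial Q) (z : G) (hz : ((Subgroup.center ↥Q).map Q.subtype) = Subgroup.zpowers z) (hz2 : orderOf z = 2) (w : ℕ) (hw : 2 ≤ w) (hcard : Nat.card ↥Q = 2 ^ (2 * w + 1)) (g : G) (hgH : g ∉ Subgroup.centralizer ({z} : Set G)) (hgQ : g * z * g⁻¹ ∈ Q) (V X R E : Subgroup G) (hV : V = Subgroup.closure ({z, g * z * g⁻¹} : Set G)) (hX : X = Q ⊔ (Q).map (MulAut.conj g).toMonoidHom) (hR : R = ((Q).map (MulAut.conj g).toMonoidHom ⊓ Subgroup.centralizer ({z} : Set G)) ⊔ (Q ⊓ Subgroup.centralizer ({g * z * g⁻¹} : Set G))) (hE : E = Q ⊓ (Q).map (MulAut.conj g).toMonoidHom) : R = X ⊓ Subgroup.centralizer (V : Set G) ∧ R = (Cfsg.pCore 2 ↥X).map X.subtype ∧ (∃ h : (R.subgroupOf X).Normal, Nonempty (↥X ⧸ R.subgroupOf X ≃* Equiv.Perm (Fin 3))) ∧ Subgroup.normalizer (V : Set G) = X ⊔ (Subgroup.centralizer ({z}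 : Set G) ⊓ Subgroup.centralizer (V : Set G)) ∧ (∀ y ∈ Subgroup.normalizer (V : Set G), ∀ x ∈ X, y * x * y⁻¹ ∈ X) ∧ R ≤ Subgroup.centralizer ({z} : Set G) ⊓ Subgroup.centralizer (V : Set G) ∧ (∀ x ∈ X, ∀ c ∈ Subgroup.centralizer ({z} : Set G) ⊓ Subgroup.centralizer (V : Set G), x * c * x⁻¹ * c⁻¹ ∈ R) ∧ X ⊓ (Subgroup.centralizer ({z} : Set G) ⊓ Subgroup.centralizer (V : Set G)) = R := by
  obtain ⟨w', -, h⟩ := xs_of' hQ.1 hz hQ.2.1 hQ.2.2.1
  obtain rfl := h.w_eq hcard
  have hp := h.xp hgQ (h.sym hw hgQ) fun e => hgH (mem_Cz'.2 e)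
  subst hV hX hR
  rw [XP.cent_V, ← inf_assoc (Cz z), inf_idem]
  obtain ⟨hn, ⟨e⟩, hk⟩ := hp.quot
  have hRX : cj g Q ⊓ Cz z ⊔ Q ⊓ Cz (g * z * g⁻¹) ≤ Q ⊔ cj g Q :=
    sup_le (inf_le_left.trans le_sup_right) (inf_le_left.trans le_sup_left)
  have hk' := le_antisymm hk (le_inf hRX hp.R_le)
  refine ⟨hk'.symm, le_antisymm (le_opOf hRX hp.X_nR hp.R_pg) ?_, ⟨hn, ⟨e⟩⟩, hp.nV_eq, fun y hy x hx => ?_, hp.R_le,
    fun x hx c hc => hp.X_com hx hc, hk'⟩
  · rintro _ ⟨x, hx, rfl⟩
    have := H1.map_pCore_le 2 (f := e.toMonoidHom.comp (QuotientGroup.mk' _))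
      (e.surjective.comp (QuotientGroup.mk'_surjective _)) ⟨x, hx, rfl⟩
    rw [pCore_S3, mem_bot] at this
    exact mem_subgroupOf.1 ((QuotientGroup.eq_one_iff x).1 ((map_eq_one_iff _ e.injective).1 this))
  · refine H1.conj_mem_of_mem_normalizer ((hp.nV_eq.le.trans (sup_le le_normalizer ?_)) hy) hx
    exact H1.le_normalizer_sup (inf_le_left.trans hp.l.le_norm) (inf_le_right.trans hp.r.le_norm)

end Cfsg.Agent.S5430
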