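import Cfsg.Statements.S5431
import Cfsg.Agent.H13.LX2

set_option autoImplicit false
open Cfsg

namespace Cfsg.Agent.S5431

open H13

open Subgroup H5

/-- Let Q be a large extraspecial 2-subgroup of the finite group G (extraspecial; centralizer equal to its centre; normal in the centralizer of its centre; normalizing no non-trivial subgroup of odd order) with centre generated by z, an involution, of width w ≥ 2 (order 2^(2w+1)); let g be an element outside the centralizer H of z with g z g⁻¹ in Q; write V for the subgroup generated by z and g z g⁻¹, X for the subgroup generated by Q and g Q g⁻¹, R for the subgroup generated by the centralizer of z in g Q g⁻¹ and the centralizer of g z g⁻¹ in Q, and E for the intersection of Q and g Q g⁻¹. Then V is the centre of R, E lies in the second centre of R, R is nilpotent of class at most 3, E and R/E are elementary abelian, R/E is the direct product of the images of the centralizer of g z g⁻¹ in Q and of the centralizer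 of z in g Q g⁻¹ (R is their product and they meet in E), and the commutator subgroup of X and E lies in V. -/
theorem result {G : Type*} [Group G] [Finite G] (Q : Subgroup G) (hQ : Cfsg.IsLargeExtraspecial Q) (z : G) (hz : ((Subgroup.center ↥Q).map Q.subtype) = Subgroup.zpowers z) (hz2 : orderOf z = 2) (w : ℕ) (hw : 2 ≤ w) (hcard : Nat.card ↥Q = 2 ^ (2 * w + 1)) (g : G) (hgH : g ∉ Subgroup.centralizer ({z} : Set G)) (hgQ : g * z * g⁻¹ ∈ Q) (V X R E : Subgroup G) (hV : V = Subgroup.closure ({z, g * z * g⁻¹} : Set G)) (hX : X = Q ⊔ (Q).map (MulAut.conj g).toMonoidHom) (hR : R = ((Q).map (MulAut.conj g).toMonoidHom ⊓ Subgroup.centralizer ({z} : Set G)) ⊔ (Q ⊓ Subgroup.centralizer ({g * z * g⁻¹} : Set G))) (hE : E = Q ⊓ (Q).map (MulAut.conj g).toMonoidHom) : (Subgroup.center ↥R).map R.subtype = V ∧ E ≤ (Subgroup.upperCentralSeries ↥R 2).map R.subtype ∧ Subgroup.upperCentralSeries ↥R 3 = ⊤ ∧ Cfsg.IsElementaryAbelian 2 E ∧ (∀ x ∈ R, ∀ y ∈ R, x * y * x⁻¹ * y⁻¹ ∈ E ∧ x ^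 2 ∈ E) ∧ ((Q).map (MulAut.conj g).toMonoidHom ⊓ Subgroup.centralizer ({z} : Set G)) ⊓ (Q ⊓ Subgroup.centralizer ({g * z * g⁻¹} : Set G)) = E ∧ ⁅X, E⁆ ≤ V := by
  obtain ⟨w', -, h⟩ := xs_of' hQ.1 hz hQ.2.1 hQ.2.2.1
  obtain rfl := h.w_eq hcard
  have hp := h.xp hgQ (h.sym hw hgQ) fun e => hgH (mem_Cz'.2 e)
  subst hV hX hE
  have hER : Q ⊓ cj g Q ≤ R := hR ▸ hp.E_le.trans le_sup_right
  have hRX : R ≤ Q ⊔ cj g Q := hR ▸ sup_le (inf_le_left.trans le_sup_right) (inf_le_left.trans le_sup_left)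
  have hRC : R ≤ Cz z ⊓ Cz (g * z * g⁻¹) := hR ▸ hp.R_le
  have h2 : ∀ x : R, (x : G) ∈ Q ⊓ cj g Q → x ∈ Subgroup.upperCentralSeries R 2 := fun x hx =>
    Subgroup.mem_upperCentralSeries_succ_iff.2 fun y => by
      rw [Subgroup.upperCentralSeries_one, mem_center_iff]
      have := hp.X_E (commutator_mem_commutator (hRX y.2) hx)
      rw [← inv_mem_iff, commutatorElement_inv] at this
      exact fun c => Subtype.ext (hp.V_cent this (hRC c.2))
  refine ⟨?_, fun x hx => ⟨⟨x, hER hx⟩, h2 _ hx, rfl⟩, eq_top_iff.2 fun x _ => Subgroup.mem_upperCentralSeries_succ_iff.2 fun y =>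
    h2 _ (hp.R_mod (hR ▸ x.2) (hR ▸ y.2)).1, ⟨H1.isMulCommutative_iff'.2 fun a ha b hb => h.inf_comm' hp.r hp.ne ha hb,
    fun a ha => (pow_two a).trans (h.inf_sq hp.r hp.ne ha)⟩, fun x hx y hy => hp.R_mod (hR ▸ hx) (hR ▸ hy), hp.inf_eq, hp.X_E⟩
  rw [map_center_subtype]
  exact le_antisymm (fun x hx => hp.cent_R (hR ▸ hx.1) fun a ha => (hx.2 a (hR ▸ mem_sup_right ha)).symm)
    fun x hx => ⟨hER (hp.V_le hx), fun c hc => hp.V_cent hx (hRC hc)⟩

end Cfsg.Agent.S5431
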