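import Cfsg.Statements.S5433
import Cfsg.Agent.H13.LX

set_option autoImplicit false
open Cfsg

namespace Cfsg.Agent.S5433

open H13

open Subgroup

/-- Let Q be a large extraspecial 2-subgroup of the finite group G (extraspecial; centralizer equal to its centre; normal in the centralizer of its centre; normalizing no non-trivial subgroup of odd order), and L a normal subgroup of G containing Q. Then G is the product of L and the normalizer of Q. -/
theorem result {G : Type*} [Group G] [Finite G] (Q : Subgroup G) (hQ : Cfsg.IsLargeExtraspecial Q) (L : Subgroup G) [L.Normal] (hQL : Q ≤ L) : L ⊔ Subgroup.normalizer (Q : Set G) = ⊤ := by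
  obtain ⟨z, hz⟩ := exists_center_gen hQ.1
  obtain ⟨w, -, h⟩ := xs_of' hQ.1 hz hQ.2.1 hQ.2.2.1
  obtain ⟨P, hP⟩ := (h.pg.comap_subtype (K := L)).exists_le_sylow
  have hQP : Q ≤ (P : Subgroup L).map L.subtype := fun x hx => ⟨⟨x, hQL hx⟩, hP hx, rfl⟩
  have hp : IsPGroup 2 ((P : Subgroup L).map L.subtype) := P.2.map _
  obtain ⟨x, hx, x1⟩ := (Subgroup.bot_or_exists_ne_one _).resolve_left (H1.inf_centralizer_ne_bot_of_isPGroup hp hp
      le_normalizer fun e => h.z_ne (mem_bot.1 (e ▸ hQP h.zm)))
  obtain rfl := (h.cent (centralizer_le hQP hx.2)).resolve_left x1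
  rw [eq_top_iff, ← Sylow.normalizer_sup_eq_top P, sup_comm]
  refine sup_le_sup_left (fun g hg => h.le_norm (mem_Cz'.2 ?_)) _
  exact (h.cent (centralizer_le hQP (H1.conj_mem_of_mem_normalizer (H1.normalizer_le_normalizer_centralizer _ hg)
    hx.2))).resolve_left fun a => x1 (by simpa using a)

end Cfsg.Agent.S5433
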