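import Cfsg.Statements.S5434
import Cfsg.Agent.H13.LX

set_option autoImplicit false
open Cfsg

namespace Cfsg.Agent.S5434

open H13

open Subgroup

/-- Let Q be a large extraspecial 2-subgroup of the finite group G (extraspecial; centralizer equal to its centre; normal in the centralizer of its centre; normalizing no non-trivial subgroup of odd order), and A a non-trivial subgroup of odd order of the normalizer of Q. Then Q is the central product of the centralizer of A in Q and the commutator subgroup [Q, A] (they generate Q and commute elementwise), [Q, A] is extraspecial, and the centralizer of A in Q is either the centre of Q or extraspecial. -/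
theorem result {G : Type*} [Group G] [Finite G] (Q : Subgroup G) (hQ : Cfsg.IsLargeExtraspecial Q) (A : Subgroup G) (hA : A ≤ Subgroup.normalizer (Q : Set G)) (hAodd : Odd (Nat.card ↥A)) (hA1 : A ≠ ⊥) : (Q ⊓ Subgroup.centralizer (A : Set G)) ⊔ ⁅Q, A⁆ = Q ∧ (∀ x ∈ Q ⊓ Subgroup.centralizer (A : Set G), ∀ y ∈ ⁅Q, A⁆, x * y = y * x) ∧ Cfsg.IsExtraspecial 2 ↥⁅Q, A⁆ ∧ (Q ⊓ Subgroup.centralizer (A : Set G) = ((Subgroup.center ↥Q).map Q.subtype) ∨ Cfsg.IsExtraspecial 2 ↥(Q ⊓ Subgroup.centralizer (A : Set G))) := by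
  obtain ⟨z, hz⟩ := exists_center_gen hQ.1
  obtain ⟨w, -, h⟩ := xs_of' hQ.1 hz hQ.2.1 hQ.2.2.1
  have hA' := hA.trans h.norm_le
  have hzA : z ∈ centralizer (A : Set G) := fun a ha => mem_Cz.1 (hA' ha)
  have hne : ¬ ⁅Q, A⁆ ≤ zpowers z := fun e => hA1 (eq_bot_iff.2 fun a ha => h.inf_odd hAodd
    (h.mem_of_triv (hA' ha) fun x hx => by
      have := (mem_zpowers_two h.z2).1 (e (commutator_mem_commutator (inv_mem hx) ha))
      rw [commutatorElement_def, inv_inv] at this
      refine this.imp (fun b => ?_) fun b => ?_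
      · calc a * x * a⁻¹ = x * (x⁻¹ * a * x * a⁻¹) := by group
          _ = x := by rw [b, mul_one]
      · calc a * x * a⁻¹ = x * (x⁻¹ * a * x * a⁻¹) := by group
          _ = _ := by rw [b]) ha)
  have hzm : z ∈ ⁅Q, A⁆ := by
    obtain ⟨x, hx, hx'⟩ := SetLike.not_le_iff_exists.1 hne
    by_contra hz'
    refine hx' ((mem_zpowers_two h.z2).2 (h.cent_odd' hA' hAodd hx fun y hy => ?_))
    by_contra c
    have := mul_mem (mul_mem hx hy) (inv_mem hx)
    rw [h.conj_of_not (h.comm_le hA' hx) (h.comm_le hA' hy) c] at this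
    exact hz' ((Subgroup.mul_mem_cancel_left _ hy).1 this)
  refine ⟨le_antisymm (sup_le inf_le_left (h.comm_le hA')) fun x hx => ?_, fun x hx y hy => h.commute_cent_comm hA' hx hy,
    h.sub_es (h.comm_le hA') hzm (fun x => h.cent_odd' hA' hAodd) hne, ?_⟩
  · obtain ⟨c, a, d, b, rfl⟩ := h.odd_dec hA' hAodd hx
    exact mul_mem_sup a b
  · rw [hz, or_iff_not_imp_left]
    exact fun e => h.sub_es inf_le_left ⟨h.zm, hzA⟩ (fun x => h.cent_odd hA' hAodd) fun a =>
      e (le_antisymm a (zpowers_le.2 ⟨h.zm, hzA⟩))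

end Cfsg.Agent.S5434
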