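import Cfsg.Statements.S5435
import Cfsg.Agent.H13.LX
import Cfsg.Agent.S0206
import Cfsg.Agent.H10.TT
import Cfsg.Agent.H19.BS3
import Cfsg.Agent.H3.Critical
import Cfsg.Agent.H7.PGrp

set_option autoImplicit false
open Cfsg

namespace Cfsg.Agent.S5435

open H13

open Subgroup H5

/-- Let L be a finite non-abelian simple group with an involution z whose centralizer R is a Sylow 2-subgroup of L whose Frattini subgroup is the subgroup generated by z. Then R is dihedral of order 8. -/
theorem result {L : Type*} [Group L] [Finite L] [IsSimpleGroup L] (hL : ¬ IsMulCommutative L) (z : L) (hz : orderOf z = 2) (R : Sylow 2 L) (hR : (R : Subgroup L) = Subgroup.centralizer ({z} : Set L)) (hΦ : (frattini ↥(R : Subgroup L)).map (R : Subgroup L).subtype = Subgroup.zpowers z) : Nonempty (↥(R : Subgroup L) ≃* DihedralGroup 4) := by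
  have zz : z * z = 1 := by rw [← pow_two, ← hz, pow_orderOf_eq_one]
  have z1 : z ≠ 1 := fun e => by rw [e, orderOf_one] at hz; omega
  have hp : IsPGroup 2 (Cz z) := by unfold Cz; rw [← hR]; exact R.2
  have hS : H10.IsSylowIn 2 (Cz z) ⊤ := by unfold Cz; rw [← hR]; exact H10.isSylowIn_top R
  rw [hR] at hΦ ⊢
  have nz : center L = ⊥ := (Normal.eq_bot_or_eq_top inferInstance).resolve_right fun e =>
    hL ⟨⟨fun a b => (mem_center_iff.1 (e ▸ mem_top b) a)⟩⟩
  have np : ¬ IsPGroup 2 L := fun a => by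
    have := a.center_nontrivial
    rw [nz] at this
    exact not_nontrivial _ this
  have sq : ∀ x ∈ Cz z, x * x = 1 ∨ x * x = z := fun x hx =>
    (mem_zpowers_two hz).1 (hΦ ▸ pow_two x ▸ H3.pow_mem_map_frattini hp hx)
  have cj1 : ∀ x ∈ Cz z, ∀ y ∈ Cz z, x * y * x⁻¹ = y ∨ x * y * x⁻¹ = y * z := fun x hx y hy =>
    ((mem_zpowers_two hz).1 (hΦ ▸ H3.commutator_le_map_frattini hp (commutator_mem_commutator hx hy))).imp
      mul_inv_eq_one.1 fun a => (mul_inv_eq_iff_eq_mul.1 a).trans (mem_Cz.1 hy).symm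
  -- central involutions
  have cen : ∀ x ∈ Cz z, x * x = 1 → (∀ y ∈ Cz z, Commute x y) → x = 1 ∨ x = z := fun x hx xx c => by
    by_contra a
    rw [← mem_zpowers_two hz, ← hΦ] at a
    obtain ⟨M, hM, hxM⟩ : ∃ M : Subgroup (Cz z), IsCoatom M ∧ ⟨x, hx⟩ ∉ M := by
      by_contra! b
      exact a ⟨_, H3.mem_frattini_iff.2 b, rfl⟩
    obtain ⟨g, b, d⟩ := H10.thompson_transfer_two ((Normal.eq_bot_or_eq_top inferInstance).resolve_left fun e =>
      np (H3.pResidual_eq_bot_iff.1 e)) hS (T := M.map (Cz z).subtype)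
      (by rw [relIndex, subgroupOf, comap_map_eq_self_of_injective (Cz z).subtype_injective]
          exact H7.index_eq_prime_of_isCoatom hp hM) hx xx
      (fun ⟨y, hy, e⟩ => hxM ((Subtype.ext e : y = ⟨x, hx⟩) ▸ hy)) hp fun y hy => mem_Cz_iff.2 (c y hy).symm
    have e : cj g (Cz z) = Cz z := eq_of_le_of_card_ge d (card_cj g _).ge
    have f := H1.conj_mem_of_mem_normalizer (H1.normalizer_le_normalizer_map_char _ (frattini _) (cj_eq_self_iff.1 e))
      (hΦ ▸ mem_zpowers z)
    rw [hΦ, mem_zpowers_two hz] at f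
    have hg := mem_Cz'.2 (f.resolve_left fun k => z1 (by simpa using k))
    rw [conj_eq_iff.2 (c g hg).symm] at b
    obtain ⟨y, hy, e⟩ := b.2
    exact hxM ((Subtype.ext e : y = ⟨x, hx⟩) ▸ hy)
  obtain ⟨g, hg, hne⟩ : ∃ g, Commute z (g * z * g⁻¹) ∧ g * z * g⁻¹ ≠ z := by
    by_contra! a
    have := H19.zstar_center ⟨hz, a⟩ ((Normal.eq_bot_or_eq_top inferInstance).resolve_right fun e => by
      have b := H1.coprime_card_pPrimeCore (G := L) 2
      rw [e, card_top] at b
      exact Nat.not_odd_iff_even.2 (even_iff_two_dvd.2 (hz ▸ orderOf_dvd_natCard z)) (Nat.coprime_two_right.1 b))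
    exact z1 (nz ▸ this :)
  set t := g * z * g⁻¹ with ht
  have t2 : orderOf t = 2 := ((MulAut.conj g).orderOf_eq z).trans hz
  have tt : t * t = 1 := by rw [← pow_two, ← t2, pow_orderOf_eq_one]
  have t1 : t ≠ 1 := fun e => by rw [e, orderOf_one] at t2; omega
  have tC : t ∈ Cz z := mem_Cz_iff.2 hg.symm
  have A2 : ∀ x ∈ Cz z, Commute x t → x * x = 1 := fun x hx a => (sq x hx).resolve_right fun b => by
    have e : x * x = g * (g⁻¹ * x * g * (g⁻¹ * x * g)) * g⁻¹ := by group
    rcases sq _ (conj_mem_Cz.2 (mem_Cz_iff.2 a)) with c | c <;> rw [c, b] at e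
    exacts [z1 (by simpa using e), hne e.symm]
  have Ac : ∀ x ∈ Cz z, Commute x t → ∀ y ∈ Cz z, Commute y t → Commute x y := fun x hx a y hy b => by
    have := A2 _ (mul_mem hx hy) (a.mul_left b)
    rw [Commute, SemiconjBy, ← inv_eq_of_mul_eq_one_right this, mul_inv_rev, inv_eq_of_mul_eq_one_right (A2 x hx a),
      inv_eq_of_mul_eq_one_right (A2 y hy b)]
  obtain ⟨r, hr, rt⟩ : ∃ r ∈ Cz z, ¬ Commute r t := by
    by_contra! a
    exact (cen t tC tt fun y hy => (a y hy).symm).elim t1 hne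
  have nc : ∀ x ∈ Cz z, ¬ Commute x t → x * t * x⁻¹ = t * z := fun x hx a =>
    (cj1 x hx t tC).resolve_left fun b => a (conj_eq_iff.1 b)
  have dec : ∀ r ∈ Cz z, ∀ s ∈ Cz z, ∀ x ∈ Cz z, ¬ Commute r s → Commute x s ∨ Commute (x * r) s := fun r hr s hs x hx a => by
    refine or_iff_not_imp_left.2 fun b => conj_eq_iff.1 ?_
    calc x * r * s * (x * r)⁻¹ = x * (r * s * r⁻¹) * x⁻¹ := by group
      _ = s := by
        rw [(cj1 r hr s hs).resolve_left fun b => a (conj_eq_iff.1 b), ← conj_mul,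
          (cj1 x hx s hs).resolve_left fun c => b (conj_eq_iff.1 c), mem_Cz'.1 hx, mul_assoc, zz, mul_one]
  obtain ⟨r, hr, rt, rr⟩ : ∃ r ∈ Cz z, ¬ Commute r t ∧ r * r = 1 := by
    rcases sq r hr with a | a
    · exact ⟨r, hr, rt, a⟩
    refine ⟨r * t, mul_mem hr tC, fun b => rt (by simpa using b.mul_left (Commute.refl t).inv_left), ?_⟩
    calc r * t * (r * t) = r * t * r⁻¹ * (r * r) * t := by group
      _ = 1 := by rw [nc r hr rt, a, mul_assoc t, zz, mul_one, tt]
  have rt2 : r * t * (r * t) = z := by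
    calc r * t * (r * t) = r * t * r⁻¹ * (r * r) * t := by group
      _ = z := by rw [nc r hr rt, rr, mul_one, ← hg.eq, mul_assoc, tt, mul_one]
  have mr : r ∈ closure ({r, t} : Set L) := subset_closure (by simp)
  have mt : t ∈ closure ({r, t} : Set L) := subset_closure (by simp)
  have k1 : ∀ x ∈ Cz z, Commute x t → Commute x r → x ∈ closure ({r, t} : Set L) := fun x hx a b => by
    rcases cen x hx (A2 x hx a) fun y hy => by
      rcases dec r hr t tC y hy rt with c | c
      · exact Ac x hx a y hy c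
      · simpa using (Ac x hx a _ (mul_mem hy hr) c).mul_right b.inv_right with c | c <;> rw [c]
    exacts [one_mem _, rt2 ▸ mul_mem (mul_mem mr mt) (mul_mem mr mt)]
  have k2 : ∀ x ∈ Cz z, Commute x t → x ∈ closure ({r, t} : Set L) := fun x hx a => by
    rcases dec t tC r hr x hx fun b => rt b.symm with c | c
    · exact k1 x hx a c
    · exact (Subgroup.mul_mem_cancel_right _ mt).1 (k1 _ (mul_mem hx tC) (a.mul_left (Commute.refl t)) c)
  have k3 : Cz z = closure ({r, t} : Set L) := le_antisymm (fun x hx => by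
    rcases dec r hr t tC x hx rt with c | c
    · exact k2 x hx c
    · exact (Subgroup.mul_mem_cancel_right _ mr).1 (k2 _ (mul_mem hx hr) c)) ((closure_le _).2 (by
      rintro _ (rfl | rfl); exacts [hr, tC]))
  have o4 : orderOf (r * t) = 2 ^ (1 + 1) := orderOf_eq_prime_pow (by rw [pow_one, pow_two, rt2]; exact z1)
    (by rw [pow_succ, pow_mul, pow_one, pow_two, pow_two, rt2, zz])
  have := S0206.result r t (orderOf_eq_prime (by rw [pow_two, rr]) fun e => rt (e ▸ Commute.one_left t)) t2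
    fun e => rt (e ▸ Commute.refl _)
  rw [o4, ← k3] at this
  exact this

end Cfsg.Agent.S5435
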