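import Cfsg.Statements.S5436
import Cfsg.Agent.H13.LX3

set_option autoImplicit false
open Cfsg

namespace Cfsg.Agent.S5436

open H13

open Subgroup H5

/-- Let z be an involution of the finite group G with centralizer H whose generalized Fitting subgroup Q is extraspecial of width at least 2 (order 2^(2w+1), w ≥ 2); suppose some conjugate of z other than z lies in Q, H/Q is a non-abelian simple group, H acts irreducibly by conjugation on Q modulo the subgroup generated by z (the only H-invariant subgroups of Q containing z are that subgroup and Q), and Q is not the subgroup generated by the conjugates of z lying in H. Then G is simple. -/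
theorem result {G : Type*} [Group G] [Finite G] (z : G) (hz : orderOf z = 2) (Q : Subgroup (Subgroup.centralizer ({z} : Set G))) [Q.Normal] (hF : Cfsg.generalizedFittingSubgroup ↥(Subgroup.centralizer ({z} : Set G)) = Q) (hQ : Cfsg.IsExtraspecial 2 ↥Q) (w : ℕ) (hw : 2 ≤ w) (hcard : Nat.card ↥Q = 2 ^ (2 * w + 1)) (hnwc : ∃ g : G, (∃ hq : g * z * g⁻¹ ∈ Subgroup.centralizer ({z} : Set G), (⟨g * z * g⁻¹, hq⟩ : Subgroup.centralizer ({z} : Set G)) ∈ Q) ∧ g * z * g⁻¹ ≠ z) (hsimp : IsSimpleGroup (↥(Subgroup.centralizer ({z} : Set G)) ⧸ Q)) (hna : ¬ IsMulCommutative (↥(Subgroup.centralizer ({z} : Set G)) ⧸ Q)) (hirr : ∀ W : Subgroup (Subgroup.centralizer ({z} : Set G)), W.Normal → W ≤ Q → (W = Q ∨ ∀ x ∈ W, (x : G) ∈ Subgroup.zpowers z)) (hwcl : Subgroup.closure {x : Subgroup.centralizer ({z} : Set G) | IsConj z (x : G)} ≠ Q) : IsSimpleGroup G := by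
  obtain ⟨g, ⟨hg, hgQ⟩, hne⟩ := hnwc
  have h := xs_of_setting (w := w) ⟨hz, hF, hQ, hcard, g, ⟨hg, hgQ⟩, hne⟩
  have hL := h.large_of_conj hw ⟨_, hgQ, rfl⟩ hne
  refine h.simple_of hL.2.2.2 ((opOf_le_fstarOf 2 _).trans (map_mono hF.le)) ?_ (by omega)
  set W := closure {x : Cz z | IsConj z (x : G)} with hW
  have hn : W.Normal := by
    refine ⟨fun x hx c => ?_⟩
    induction hx using closure_induction with
    | mem x hx => exact subset_closure (hx.trans (isConj_iff.2 ⟨c, rfl⟩))
    | one => simp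
    | mul x y _ _ a b => rw [← conj_mul]; exact mul_mem a b
    | inv x _ a => rw [← conj_inv]; exact inv_mem a
  have hQW : Q ≤ W := by
    refine inf_eq_right.1 ((hirr (W ⊓ Q) inferInstance inf_le_right).resolve_right fun a => ?_)
    exact ((mem_zpowers_two hz).1 (a ⟨_, hg⟩ ⟨subset_closure (isConj_iff.2 ⟨g, rfl⟩), hgQ⟩)).elim (h.cj' g).z_ne hne
  have hT : W = ⊤ := by
    rcases (hn.map _ (QuotientGroup.mk'_surjective Q)).eq_bot_or_eq_top with a | a
    · rw [Subgroup.map_eq_bot_iff, QuotientGroup.ker_mk'] at a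
      exact absurd (le_antisymm a hQW) hwcl
    · rw [← comap_map_eq_self (f := QuotientGroup.mk' Q) (H := W) (by rwa [QuotientGroup.ker_mk']), a, comap_top]
  have : W ≤ (normalClosure ({z} : Set G)).subgroupOf _ := (closure_le _).2 fun x hx => by
    obtain ⟨c, e⟩ := isConj_iff.1 hx
    rw [SetLike.mem_coe, mem_subgroupOf, ← e]
    exact normalClosure_normal.conj_mem z (subset_normalClosure (Set.mem_singleton z)) c
  exact fun x hx => this (hT ▸ mem_top (⟨x, hx⟩ : Cz z))

end Cfsg.Agent.S5436
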