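import Cfsg.Statements.S5437
import Cfsg.Agent.H6.SE

set_option autoImplicit false
open Cfsg

namespace Cfsg.Agent.S5437



/-- Let I be a set of involutions of the finite group G closed under conjugation, and H a subgroup of G. The following are equivalent: (1) for every member x of I lying in H, the conjugates of x lying in H form a single H-class and the centralizer of x lies in H; (2) for every g outside H, no member of I lies in both H and g H g⁻¹; (3) every member of I lying in H fixes exactly one coset in the action of G on the cosets of H. -/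
theorem result {G : Type*} [Group G] [Finite G] (I : Set G) (hI : ∀ x ∈ I, orderOf x = 2) (hIc : ∀ g : G, ∀ x ∈ I, g * x * g⁻¹ ∈ I) (H : Subgroup G) : ((∀ x ∈ I, x ∈ H → (∀ g : G, g * x * g⁻¹ ∈ H → ∃ h ∈ H, h * x * h⁻¹ = g * x * g⁻¹) ∧ Subgroup.centralizer ({x} : Set G) ≤ H) ↔ (∀ g : G, g ∉ H → ∀ x ∈ I, ¬ (x ∈ H ∧ x ∈ (H : Subgroup G).map (MulAut.conj g).toMonoidHom))) ∧ ((∀ g : G, g ∉ H → ∀ x ∈ I, ¬ (x ∈ H ∧ x ∈ (H : Subgroup G).map (MulAut.conj g).toMonoidHom)) ↔ ∀ x ∈ I, x ∈ H → ∃! c : G ⧸ H, x • c = c) := by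
  have fx : ∀ x g : G, x • (g : G ⧸ H) = g ↔ g⁻¹ * x * g ∈ H := fun x g => by
    rw [H6.smul_mk_eq_iff, mul_assoc]
  refine ⟨⟨fun h g hg x hx ⟨h1, h2⟩ => hg ?_, fun h x hx hxH => ⟨fun g hg => ⟨g, ?_, rfl⟩, fun g hg => ?_⟩⟩,
    ⟨fun h x hx hxH => ⟨((1 : G) : G ⧸ H), (fx x 1).2 (by simpa using hxH), fun c hc => ?_⟩,
      fun h g hg x hx ⟨h1, h2⟩ => hg ?_⟩⟩
  · rw [H6.mem_map_conj] at h2
    obtain ⟨k, hk, e⟩ := (h x hx h1).1 g⁻¹ (by simpa using h2)
    have : g * k ∈ Subgroup.centralizer ({x} : Set G) := by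
      rw [H6.mem_cent_iff_commute, ← H6.conj_eq_iff_commute]
      calc g * k * x * (g * k)⁻¹ = g * (k * x * k⁻¹) * g⁻¹ := by group
        _ = x := by rw [e]; group
    simpa using H.mul_mem ((h x hx h1).2 this) (H.inv_mem hk)
  · by_contra hgH
    exact h g hgH _ (hIc g x hx) ⟨hg, H6.conj_mem_map_conj.2 hxH⟩
  · by_contra hgH
    refine h g hgH x hx ⟨hxH, H6.mem_map_conj.2 ?_⟩
    rw [H6.mem_cent_singleton] at hg
    rw [mul_assoc, ← hg, inv_mul_cancel_left]; exact hxH
  · induction c using QuotientGroup.induction_on with | H g => ?_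
    have hc' := (fx x g).1 hc
    by_contra hne
    refine h g (fun hg => hne ?_) x hx ⟨hxH, H6.mem_map_conj.2 hc'⟩
    rw [QuotientGroup.eq]; simpa using hg
  · obtain ⟨c, -, hu⟩ := h x hx h1
    have e1 := hu ((1 : G) : G ⧸ H) ((fx x 1).2 (by simpa using h1))
    have e2 := hu (g : G ⧸ H) ((fx x g).2 (H6.mem_map_conj.1 h2))
    have := QuotientGroup.eq.1 (e1.trans e2.symm)
    simpa using this

end Cfsg.Agent.S5437
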