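import Cfsg.Statements.S5438
import Cfsg.Agent.H6.SE

set_option autoImplicit false
open Cfsg

namespace Cfsg.Agent.S5438



/-- Let z be a 2-central involution of the finite group G (an involution central in some Sylow 2-subgroup) and H a subgroup containing z such that the coset H is the only coset of H fixed by z (in the action of G on the cosets of H). Then H has odd index in G, and for every 2-element x of H the conjugates of x lying in H form a single H-class. -/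
theorem result {G : Type*} [Group G] [Finite G] (z : G) (hz : Cfsg.IsTwoCentralInvolution z) (H : Subgroup G) (hzH : z ∈ H) (hfix : ∀ g : G, g⁻¹ * z * g ∈ H → g ∈ H) : Odd H.index ∧ ∀ x ∈ H, (∃ k : ℕ, orderOf x = 2 ^ k) → ∀ g : G, g * x * g⁻¹ ∈ H → ∃ h ∈ H, h * x * h⁻¹ = g * x * g⁻¹ := by
  have fx : ∀ x g : G, x • (g : G ⧸ H) = g ↔ g⁻¹ * x * g ∈ H := fun x g => by
    rw [H6.smul_mk_eq_iff, mul_assoc]
  obtain ⟨hz2, P, hzP, hP⟩ := hz
  have hodd : Odd H.index := by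
    have h1 := (H6.isPGroup_zpowers_ord2 (H6.ord2_mul_self hz2)).card_modEq_card_fixedPoints (G ⧸ H)
    have h2 : MulAction.fixedPoints (Subgroup.zpowers z) (G ⧸ H) = {((1 : G) : G ⧸ H)} := by
      ext c
      induction c using QuotientGroup.induction_on with | H g => ?_
      rw [Set.mem_singleton_iff, QuotientGroup.eq, mul_one, inv_mem_iff]
      refine ⟨fun h => hfix g ((fx z g).1 (h ⟨z, Subgroup.mem_zpowers z⟩)), fun h y => ?_⟩
      exact (fx y g).2 (H.mul_mem (H.mul_mem (H.inv_mem h) (Subgroup.zpowers_le.2 hzH y.2)) h)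
    rw [h2] at h1
    simp only [Nat.card_eq_fintype_card, Fintype.card_unique] at h1
    rw [Nat.odd_iff, Subgroup.index]; exact h1
  have key : ∀ T : Subgroup G, IsPGroup 2 T → z ∈ T → T ≤ H := by
    intro T hT hzT
    obtain ⟨c, hc⟩ := hT.nonempty_fixed_point_of_prime_not_dvd_card (G ⧸ H)
      (hodd.not_two_dvd_nat)
    induction c using QuotientGroup.induction_on with | H g => ?_
    have hg := hfix g ((fx z g).1 (hc ⟨z, hzT⟩))
    intro y hy
    have := H.mul_mem (H.mul_mem hg ((fx y g).1 (hc ⟨y, hy⟩))) (H.inv_mem hg)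
    simpa [mul_assoc] using this
  have hPH : (P : Subgroup G) ≤ H := key _ P.isPGroup' hzP
  have into : ∀ x ∈ H, ∀ k : ℕ, x ^ 2 ^ k = 1 → ∃ h ∈ H, Commute (h * z * h⁻¹) x := by
    intro x hx k hk
    obtain ⟨g, hg⟩ := H6.exists_conj_mem_sylow (P.subtype hPH) (x := ⟨x, hx⟩) (k := k)
      (Subtype.ext hk)
    refine ⟨g⁻¹, H.inv_mem g.2, ?_⟩
    have h1 := hP _ (show (g : G) * x * (g : G)⁻¹ ∈ P from hg)
    have : (g : G)⁻¹ * z * (g : G)⁻¹⁻¹ * x = (g : G)⁻¹ * (z * (g * x * (g : G)⁻¹)) * g := by group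
    rw [Commute, SemiconjBy, this, ← h1]; group
  refine ⟨hodd, fun x hx ⟨k, hk⟩ g hg => ?_⟩
  have hk' : x ^ 2 ^ k = 1 := by rw [← hk, pow_orderOf_eq_one]
  obtain ⟨a, ha, ca⟩ := into x hx k hk'
  obtain ⟨b, hb, cb⟩ := into _ hg k (by rw [conj_pow, hk']; group)
  set y := b⁻¹ * (g * x * g⁻¹) * b with hy
  have c1 : z ∈ Subgroup.centralizer ({y} : Set G) := by
    rw [H6.mem_cent_singleton, hy]
    calc z * (b⁻¹ * (g * x * g⁻¹) * b) = b⁻¹ * (b * z * b⁻¹ * (g * x * g⁻¹)) * b := by group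
      _ = _ := by rw [cb.eq]; group
  have c2 : b⁻¹ * g * a * z * (b⁻¹ * g * a)⁻¹ ∈ Subgroup.centralizer ({y} : Set G) := by
    rw [H6.mem_cent_singleton, hy]
    calc b⁻¹ * g * a * z * (b⁻¹ * g * a)⁻¹ * (b⁻¹ * (g * x * g⁻¹) * b)
        = b⁻¹ * g * (a * z * a⁻¹ * x) * g⁻¹ * b := by group
      _ = _ := by rw [ca.eq]; group
  obtain ⟨T, hT⟩ := (H6.isPGroup_zpowers_ord2 (x := (⟨z, c1⟩ : Subgroup.centralizer ({y} : Set G)))
    (Subtype.ext (H6.ord2_mul_self hz2))).exists_le_sylow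
  obtain ⟨c, hc⟩ := H6.exists_conj_mem_sylow T (x := ⟨_, c2⟩) (k := 1) (Subtype.ext (by
    change (b⁻¹ * g * a * z * (b⁻¹ * g * a)⁻¹) ^ 2 ^ 1 = 1
    rw [conj_pow, pow_one, pow_two, H6.ord2_mul_self hz2]; group))
  have hTH := key _ (T.isPGroup'.map (Subgroup.subtype _))
    ⟨_, hT (Subgroup.mem_zpowers _), rfl⟩ ⟨_, hc, rfl⟩
  have h3 : ((c : G) * (b⁻¹ * g * a))⁻¹ ∈ H := hfix _ (by
    have e : ((c : G) * (b⁻¹ * g * a))⁻¹⁻¹ * z * ((c : G) * (b⁻¹ * g * a))⁻¹ =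
      c * (b⁻¹ * g * a * z * (b⁻¹ * g * a)⁻¹) * (c : G)⁻¹ := by group
    rw [e]; exact hTH)
  rw [inv_mem_iff] at h3
  refine ⟨b * ((c : G) * (b⁻¹ * g * a)) * a⁻¹, H.mul_mem (H.mul_mem hb h3) (H.inv_mem ha), ?_⟩
  have hc2 := H6.mem_cent_singleton.1 c.2
  generalize (c : G) = c' at hc2
  calc b * (c' * (b⁻¹ * g * a)) * a⁻¹ * x * (b * (c' * (b⁻¹ * g * a)) * a⁻¹)⁻¹
      = b * (c' * y) * c'⁻¹ * b⁻¹ := by rw [hy]; group
    _ = _ := by rw [hc2, hy]; group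

end Cfsg.Agent.S5438
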