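import Cfsg.Statements.S5439
import Cfsg.Agent.H18.Dih0

set_option autoImplicit false
open Cfsg

namespace Cfsg.Agent.S5439



/-- Let I and J be two different conjugacy classes of involutions of the finite group G and H a subgroup such that every member of I ∪ J fixes exactly one coset in the action on the cosets of H, and such that for every a in I ∩ H and every b in (I ∪ J) ∩ H different from a and commuting with it, the centralizer of a b lies in H. Then H = G. -/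
theorem result {G : Type*} [Group G] [Finite G] (I J : Set G) (a₀ b₀ : G) (ha₀ : orderOf a₀ = 2) (hb₀ : orderOf b₀ = 2) (hI : I = {x | IsConj a₀ x}) (hJ : J = {x | IsConj b₀ x}) (hIJ : I ≠ J) (H : Subgroup G) (hfix : ∀ x ∈ I ∪ J, ∃! c : G ⧸ H, x • c = c) (hcent : ∀ a ∈ I, a ∈ H → ∀ b ∈ I ∪ J, b ∈ H → a ≠ b → a * b = b * a → Subgroup.centralizer ({a * b} : Set G) ≤ H) : H = ⊤ := by
  have fx : ∀ x g : G, x • (g : G ⧸ H) = g ↔ g⁻¹ * x * g ∈ H := fun x g => by
    rw [H6.smul_mk_eq_iff, mul_assoc]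
  have uniq : ∀ x ∈ I ∪ J, x ∈ H → ∀ g : G, g⁻¹ * x * g ∈ H → g ∈ H := by
    intro x hx hxH g hg
    obtain ⟨c, -, hu⟩ := hfix x hx
    have e1 := hu ((1 : G) : G ⧸ H) ((fx x 1).2 (by simpa using hxH))
    have e2 := hu (g : G ⧸ H) ((fx x g).2 hg)
    simpa using QuotientGroup.eq.1 (e1.trans e2.symm)
  have cI : ∀ x ∈ I, ∀ g : G, g⁻¹ * x * g ∈ I := fun x hx g => by
    rw [hI] at hx ⊢; exact hx.trans (isConj_iff.2 ⟨g⁻¹, by simp⟩)
  have cJ : ∀ x ∈ J, ∀ g : G, g⁻¹ * x * g ∈ J := fun x hx g => by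
    rw [hJ] at hx ⊢; exact hx.trans (isConj_iff.2 ⟨g⁻¹, by simp⟩)
  have oI : ∀ x ∈ I, orderOf x = 2 := fun x hx => by
    rw [hI] at hx; rw [← H6.isConj_orderOf hx, ha₀]
  have oJ : ∀ x ∈ J, orderOf x = 2 := fun x hx => by
    rw [hJ] at hx; rw [← H6.isConj_orderOf hx, hb₀]
  by_contra hne
  obtain ⟨a, haI, haH⟩ : ∃ a ∈ I, a ∈ H := by
    have h0 : a₀ ∈ I := by rw [hI]; exact IsConj.refl _
    obtain ⟨c, hc, -⟩ := hfix a₀ (Or.inl h0)
    induction c using QuotientGroup.induction_on with | H g => ?_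
    exact ⟨_, cI _ h0 g, (fx _ _).1 hc⟩
  obtain ⟨b, hbJ, hbH⟩ : ∃ b ∈ J, b ∉ H := by
    by_contra! h
    have h0 : b₀ ∈ J := by rw [hJ]; exact IsConj.refl _
    exact hne (eq_top_iff.2 fun g _ => uniq _ (Or.inr h0) (h _ h0) g (h _ (cJ _ h0 g)))
  have a2 := H6.ord2_mul_self (oI a haI)
  have b2 := H6.ord2_mul_self (oJ b hbJ)
  have he : Even (orderOf (a * b)) := by
    rw [← Nat.not_odd_iff_even]
    intro ho
    have h1 := H6.isConj_of_odd a2 b2 ho
    apply hIJ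
    rw [hI] at haI; rw [hJ] at hbJ
    have h2 : IsConj a₀ b₀ := (haI.trans h1).trans hbJ.symm
    rw [hI, hJ]; ext x
    exact ⟨fun h => h2.symm.trans h, fun h => h2.trans h⟩
  obtain ⟨t2, ta, tb⟩ := H6.exists_central_inv a2 b2 he
  set t := (a * b) ^ (orderOf (a * b) / 2) with ht
  have htH : t ∈ H := uniq a (Or.inl haI) haH t (by
    rw [mul_assoc, ← ta.eq, inv_mul_cancel_left]; exact haH)
  have hat : a * t ∈ I ∪ J := by
    obtain ⟨k, h | h⟩ := H18.refl_conj a2 b2 (orderOf (a * b) / 2)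
    · rw [ht, h]; exact Or.inl (cI _ haI _)
    · rw [ht, h]; exact Or.inr (cJ _ hbJ _)
  have := hcent a haI haH _ hat (H.mul_mem haH htH)
    (fun h => H6.ord2_ne_one t2 (by simpa using h)) (by rw [mul_assoc a t a, ta.eq])
  rw [← mul_assoc, a2, one_mul] at this
  exact hbH (this (H6.mem_cent_iff_commute.2 tb.symm))

end Cfsg.Agent.S5439
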