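import Cfsg.Statements.S5440
import Cfsg.Agent.H13.FT

set_option autoImplicit false
open Cfsg

namespace Cfsg.Agent.S5440

open H13

/-- Let G be a finite group of large Fischer type at the involution z: the generalized Fitting subgroup Q of H = C_G(z) is extraspecial of order 2^13, H has normal subgroups Q ≤ H₁ ≤ H₂ with H₁/Q of order 3, H₂/H₁ the projective special unitary group of dimension 4 over the field with nine elements and H₂ of index 2 in H, and some conjugate of z other than z lies in Q. Then H has exactly two orbits, under conjugation, on the involutions of Q other than z. -/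
theorem result {G : Type*} [Group G] [Finite G] (z : G) (Q : Subgroup (Subgroup.centralizer ({z} : Set G))) [Q.Normal] (hF : Cfsg.IsOfLargeFischerTypeAt z Q) : ∃ s t : Subgroup.centralizer ({z} : Set G), s ∈ Q ∧ t ∈ Q ∧ orderOf s = 2 ∧ orderOf t = 2 ∧ (s : G) ≠ z ∧ (t : G) ≠ z ∧ (¬ ∃ h : Subgroup.centralizer ({z} : Set G), h * s * h⁻¹ = t) ∧ ∀ x : Subgroup.centralizer ({z} : Set G), x ∈ Q → orderOf x = 2 → (x : G) ≠ z → (∃ h : Subgroup.centralizer ({z} : Set G), h * s * h⁻¹ = x) ∨ ∃ h : Subgroup.centralizer ({z} : Set G), h * t * h⁻¹ = x := by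
  obtain ⟨π, P, h⟩ := exists_ft0 hF
  have m1 : v6 5 ∈ S61 := orb61 ▸ MulAction.mem_orbit_self _
  have m2 : v6 85 ∈ S62 := orb62 ▸ MulAction.mem_orbit_self _
  have k : ∀ {v}, q6 v = 0 → v ≠ 0 → ∃ s : Cz z, P v s ∧ s ∈ Q ∧ orderOf s = 2 ∧ (s : G) ≠ z := fun {v} a b => by
    obtain ⟨s, c⟩ := h.ex v
    obtain ⟨d, e⟩ := mem_map_Cz.1 (h.mem c)
    rw [Ne, ← h.iff c, not_or] at b
    exact ⟨⟨s, d⟩, c, e, orderOf_eq_prime (Subtype.ext ((pow_two s).trans ((h.sq' c).2 a))) fun u => b.1 (congrArg Subtype.val u), b.2⟩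
  obtain ⟨s, a1, a2, a3, a4⟩ := k (q61 m1) (ne61 m1)
  obtain ⟨t, b1, b2, b3, b4⟩ := k (q62 m2) (ne62 m2)
  refine ⟨s, t, a2, b2, a3, b3, a4, b4, fun ⟨c, e⟩ => dj6 (inv61 (h.mem_LS c) m1) ?_, fun x hx o hz => ?_⟩
  · rw [(h.uniq (h.act c a1) b1).1 (Or.inl (congrArg Subtype.val e).symm)]; exact m2
  obtain ⟨v, c⟩ := h.ex' x (mem_map_Cz.2 ⟨x.2, hx⟩)
  have n : v ≠ 0 := fun e => ((h.iff c).2 e).elim (fun u => by simp [show x = 1 from Subtype.ext u] at o) hz
  refine (sing6 ((h.sq' c).1 ?_) n).imp (fun d => ?_) fun d => ?_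
  · exact congrArg Subtype.val ((pow_two x).symm.trans (o ▸ pow_orderOf_eq_one x))
  · exact (h.tr a1 c (MulAction.mem_orbit_self _) (orb61 ▸ d) n).imp fun _ => Subtype.ext
  · exact (h.tr b1 c (MulAction.mem_orbit_self _) (orb62 ▸ d) n).imp fun _ => Subtype.ext

end Cfsg.Agent.S5440
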