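import Cfsg.Statements.S5442
import Cfsg.Agent.H13.FT

set_option autoImplicit false
open Cfsg

namespace Cfsg.Agent.S5442

open H13

/-- Let G be a finite group of large Fischer type at the involution z: the generalized Fitting subgroup Q of H = C_G(z) is extraspecial of order 2^13, H has normal subgroups Q ≤ H₁ ≤ H₂ with H₁/Q of order 3, H₂/H₁ the projective special unitary group of dimension 4 over the field with nine elements and H₂ of index 2 in H, and some conjugate of z other than z lies in Q. Let s = g z g⁻¹ be a conjugate of z lying in Q and different from z. Then the intersection of Q and g Q g⁻¹ (as subgroups of G) is elementary abelian of order 2^7; and in H/Q, writing X for the image of the centralizer of s in H and E for the image of the intersection of g Q g⁻¹ with H, E is a normal subgroup of X, elementary abelian of order 32, with X/E isomorphic to the alternating group of degree 6. -/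
theorem result {G : Type*} [Group G] [Finite G] (z : G) (Q : Subgroup (Subgroup.centralizer ({z} : Set G))) [Q.Normal] (hF : Cfsg.IsOfLargeFischerTypeAt z Q) (s : G) (hsQ : ∃ hsc : s ∈ Subgroup.centralizer ({z} : Set G), (⟨s, hsc⟩ : Subgroup.centralizer ({z} : Set G)) ∈ Q) (hs : IsConj z s) (hs1 : s ≠ z) (g : G) (hg : g * z * g⁻¹ = s) (X E : Subgroup ((Subgroup.centralizer ({z} : Set G)) ⧸ Q)) (hX : X = ((Subgroup.centralizer ({z} : Set G) ⊓ Subgroup.centralizer ({s} : Set G)).subgroupOf (Subgroup.centralizer ({z} : Set G))).map (QuotientGroup.mk' Q)) (hE : E = ((((Q.map (Subgroup.centralizer ({z} : Set G)).subtype)).map (MulAut.conj g).toMonoidHom ⊓ Subgroup.centralizer ({z} : Set G)).subgroupOf (Subgroup.centralizer ({z} : Set G))).map (QuotientGroup.mk' Q)) : Cfsg.IsElementaryAbelian 2 ((Q.map (Subgroup.centralizer ({z} : Set G)).subtype) ⊓ ((Q.map (Subgroup.centralizer ({z} : Set G)).subtype)).map (MulAut.conj g).toMonoidHom) ∧ Nat.card ↥((Q.map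 (Subgroup.centralizer ({z} : Set G)).subtype) ⊓ ((Q.map (Subgroup.centralizer ({z} : Set G)).subtype)).map (MulAut.conj g).toMonoidHom) = 2 ^ 7 ∧ E ≤ X ∧ (∀ x ∈ X, ∀ y ∈ E, x * y * x⁻¹ ∈ E) ∧ Cfsg.IsElementaryAbelian 2 E ∧ Nat.card E = 32 ∧ ∃ _ : (E.subgroupOf X).Normal, Nonempty (↥X ⧸ E.subgroupOf X ≃* alternatingGroup (Fin 6)) := by
  subst hg
  obtain ⟨π, P, h⟩ := exists_ft0 hF
  obtain ⟨u, a⟩ := h.ex' _ (mem_map_Cz.2 hsQ)
  obtain ⟨π, P, h, a⟩ := h.at a (orb62 ▸ h.mem62 a hs1)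
  have kr : ∀ k, π k = 1 ↔ k ∈ Q := fun k => (h.ker k).trans (Subgroup.mem_map_iff_mem (Cz z).subtype_injective)
  obtain ⟨ι, hι⟩ := lift_surj _ (QuotientGroup.mk'_surjective Q) π fun x e => (kr x).2 ((QuotientGroup.eq_one_iff x).1 e)
  have j : Function.Injective ι := (injective_iff_map_eq_one ι).2 fun x => QuotientGroup.induction_on x fun x e =>
    (QuotientGroup.eq_one_iff x).2 ((kr x).1 ((hι x).symm.trans e))
  have c : ι.comp (QuotientGroup.mk' Q) = π := MonoidHom.ext hι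
  have eX : X.map ι = L0 ⊓ MulAction.stabilizer _ (v6 85) := by
    rw [hX, Subgroup.map_map, c, Subgroup.inf_subgroupOf_left, ← h.rng]; exact h.mem_X a (h.sing a hs1).2
  have eE : E.map ι = Es6 := by
    rw [hE, Subgroup.map_map, c, Subgroup.inf_subgroupOf_right]; exact h.E_eq a hs1
  have mX : ∀ x, x ∈ X ↔ ι x ∈ L0 ⊓ MulAction.stabilizer _ (v6 85) := fun x => eX ▸ (Subgroup.mem_map_iff_mem j).symm
  have mE : ∀ x, x ∈ E ↔ ι x ∈ Es6 := fun x => eE ▸ (Subgroup.mem_map_iff_mem j).symm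
  obtain ⟨h1, φ, h2, h3⟩ := quot62
  have q := quot_equiv_of (C := E) (φ.comp ((ι.comp X.subtype).codRestrict _ fun x => (mX x).1 x.2)) (fun y => by
    obtain ⟨⟨x, hx⟩, rfl⟩ := h2 y
    obtain ⟨x, b, rfl⟩ := eX.ge hx
    exact ⟨⟨x, b⟩, rfl⟩) fun d => (h3 _).trans (mE d).symm
  have l : E ≤ X := fun x b => (mX x).2 (h1.le (Es_le ((mE x).1 b)))
  have d := h.card_E_mul (h.toXS.sym (by norm_num) (h.mem a)) hs1
  rw [h.E_eq a hs1, card_Es] at d
  refine ⟨⟨⟨⟨fun x y => Subtype.ext (h.toXS.inf_comm' (h.toXS.smul g) hs1 x.2 y.2)⟩⟩, fun x b =>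
    (pow_two x).trans (h.toXS.inf_sq (h.toXS.smul g) hs1 b)⟩, Nat.eq_of_mul_eq_mul_left (by norm_num : 0 < 32) d, l,
    fun x b y e => q.1.conj_mem ⟨y, l e⟩ e ⟨x, b⟩, ⟨⟨⟨fun x y => Subtype.ext (j ?_)⟩⟩, fun x b => j ?_⟩, ?_, q⟩
  · exact (map_mul ..).trans ((Es_comm _ ((mE _).1 x.2) _ ((mE _).1 y.2)).trans (map_mul ..).symm)
  · rw [map_pow, map_one, Es_sq _ ((mE _).1 b)]
  · rw [← Subgroup.card_map_of_injective j, eE, card_Es]

end Cfsg.Agent.S5442
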