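import Cfsg.Statements.S5444
import Cfsg.Agent.H13.FA

set_option autoImplicit false
open Cfsg

namespace Cfsg.Agent.S5444

open H13

/-- Let G be a finite group of large Fischer type at the involution z: the generalized Fitting subgroup Q of H = C_G(z) is extraspecial of order 2^13, H has normal subgroups Q ≤ H₁ ≤ H₂ with H₁/Q of order 3, H₂/H₁ the projective special unitary group of dimension 4 over the field with nine elements and H₂ of index 2 in H, and some conjugate of z other than z lies in Q. Let T be a Sylow 2-subgroup of H. Then T has exactly one elementary abelian subgroup A of largest order; A has order 2^11, it meets Q in a subgroup of order 2^7, and its image in H/Q has order 16. -/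
theorem result {G : Type*} [Group G] [Finite G] (z : G) (Q : Subgroup (Subgroup.centralizer ({z} : Set G))) [Q.Normal] (hF : Cfsg.IsOfLargeFischerTypeAt z Q) (T : Sylow 2 ↥(Subgroup.centralizer ({z} : Set G))) : ∃ A : Subgroup ↥(T : Subgroup (Subgroup.centralizer ({z} : Set G))), Cfsg.maxElementaryAbelianSubgroups 2 ↥(T : Subgroup (Subgroup.centralizer ({z} : Set G))) = {A} ∧ Nat.card A = 2 ^ 11 ∧ Nat.card ↥(A.map (T : Subgroup (Subgroup.centralizer ({z} : Set G))).subtype ⊓ Q) = 2 ^ 7 ∧ Nat.card ↥((A.map (T : Subgroup (Subgroup.centralizer ({z} : Set G))).subtype).map (QuotientGroup.mk' Q)) = 16 := by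
  obtain ⟨π, P, h⟩ := exists_ft0 hF
  obtain ⟨π, P, h, a⟩ := h.syl T
  have j : Function.Injective ((Cz z).subtype.comp T.1.subtype) := (Cz z).subtype_injective.comp T.1.subtype_injective
  obtain ⟨l, e⟩ := h.maxEA (ι := (Cz z).subtype.comp T.1.subtype) j T.2 (by rintro _ ⟨x, rfl⟩; exact x.1.2)
    fun k b => ⟨⟨k, a b⟩, rfl⟩
  have m : (h.A.comap ((Cz z).subtype.comp T.1.subtype)).map T.1.subtype = h.A.subgroupOf (Cz z) := by
    rw [← Subgroup.comap_comap, Subgroup.map_comap_eq_self]
    · rfl
    · intro x b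
      obtain ⟨y, c⟩ := l b
      exact ⟨y, Subtype.ext c⟩
  have c : Nat.card ↥(h.A.subgroupOf (Cz z) ⊓ Q) = 2 ^ 7 := by
    rw [← Subgroup.card_map_of_injective (Cz z).subtype_injective, Subgroup.map_inf _ _ _ (Cz z).subtype_injective,
      Subgroup.map_subgroupOf_eq_of_le h.A_le, h.A_inf, h.card_sub, card_U]; rfl
  refine ⟨_, e, by rw [← Subgroup.card_map_of_injective j, Subgroup.map_comap_eq_self l, h.card_A], m ▸ c, ?_⟩
  have := H1.card_map_mul_card_inf_ker (h.A.subgroupOf (Cz z)) (QuotientGroup.mk' Q)
  rw [QuotientGroup.ker_mk', c, H1.card_subgroupOf_of_le h.A_le, h.card_A] at this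
  rw [m]
  omega

end Cfsg.Agent.S5444
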