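import Cfsg.Statements.S5447
import Cfsg.Agent.H13.FM

set_option autoImplicit false
open Cfsg

namespace Cfsg.Agent.S5447

open H13

/-- Let G be a finite group of large Fischer type at the involution z: the generalized Fitting subgroup Q of H = C_G(z) is extraspecial of order 2^13, H has normal subgroups Q ≤ H₁ ≤ H₂ with H₁/Q of order 3, H₂/H₁ the projective special unitary group of dimension 4 over the field with nine elements and H₂ of index 2 in H, and some conjugate of z other than z lies in Q. Let T be a Sylow 2-subgroup of G, A its Thompson subgroup and M = N_G(A) its normalizer. Then M controls fusion in A (elements of A conjugate in G are conjugate in M), and M has exactly two orbits on the non-identity elements of A: those conjugate to z in G and those not. -/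
theorem result {G : Type*} [Group G] [Finite G] (z : G) (Q : Subgroup (Subgroup.centralizer ({z} : Set G))) [Q.Normal] (hF : Cfsg.IsOfLargeFischerTypeAt z Q) (T : Sylow 2 G) (A M : Subgroup G) (hA : A = Cfsg.thompsonSubgroupOf 2 (T : Subgroup G)) (hM : M = Subgroup.normalizer (A : Set G)) : (∀ a ∈ A, ∀ g : G, g * a * g⁻¹ ∈ A → ∃ m ∈ M, m * a * m⁻¹ = g * a * g⁻¹) ∧ (∃ a ∈ A, a ≠ 1 ∧ IsConj z a) ∧ (∃ a ∈ A, a ≠ 1 ∧ ¬ IsConj z a) ∧ ∀ a ∈ A, ∀ b ∈ A, a ≠ 1 → b ≠ 1 → (IsConj z a ↔ IsConj z b) → ∃ m ∈ M, m * a * m⁻¹ = b := by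
  obtain ⟨π, P, h⟩ := exists_ft0 hF
  obtain ⟨y, c, R, π, P, h, a⟩ := h.atT T
  rw [h.thomp a] at hA
  subst hM hA
  obtain ⟨t, φ, -, -, b, -, d⟩ := h.m24
  have e : ∀ a, IsConj z a ↔ IsConj y a := fun a => ⟨c.symm.trans, c.trans⟩
  simp only [e]
  refine ⟨fun _ u _ => h.fus u, ⟨y, h.sub_A (h.z_sub _), h.z_ne, IsConj.refl y⟩, ⟨_, (b _).2 ⟨0, by norm_num, rfl⟩⟩,
    fun u u1 v v1 u2 v2 f => ?_⟩
  by_cases g : IsConj y u
  · obtain ⟨k, rfl⟩ := isConj_iff.1 (g.symm.trans (f.1 g))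
    exact h.fus u1 v1
  · obtain ⟨i, hi, rfl⟩ := (b u).1 ⟨u1, u2, g⟩
    obtain ⟨j, hj, rfl⟩ := (b v).1 ⟨v1, v2, mt f.2 g⟩
    exact d i hi j hj

end Cfsg.Agent.S5447
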