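import Cfsg.Statements.S5448
import Cfsg.Agent.H13.FM

set_option autoImplicit false
open scoped Pointwise
open Cfsg

namespace Cfsg.Agent.S5448

open H13

/-- Let G be a finite group of large Fischer type at the involution z: the generalized Fitting subgroup Q of H = C_G(z) is extraspecial of order 2^13, H has normal subgroups Q ≤ H₁ ≤ H₂ with H₁/Q of order 3, H₂/H₁ the projective special unitary group of dimension 4 over the field with nine elements and H₂ of index 2 in H, and some conjugate of z other than z lies in Q. Let T be a Sylow 2-subgroup of G, A its Thompson subgroup, M = N_G(A) its normalizer, and t an involution of A not conjugate to z in G. Then the centralizer of t in M, modulo A, is isomorphic to the setwise stabilizer of a two-element subset of the 24 points in the Mathieu group of degree 24 (the automorphism group of the smaller Mathieu group on 22 points). -/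
theorem result {G : Type*} [Group G] [Finite G] (z : G) (Q : Subgroup (Subgroup.centralizer ({z} : Set G))) [Q.Normal] (hF : Cfsg.IsOfLargeFischerTypeAt z Q) (T : Sylow 2 G) (A M : Subgroup G) (hA : A = Cfsg.thompsonSubgroupOf 2 (T : Subgroup G)) (hM : M = Subgroup.normalizer (A : Set G)) (t : G) (htA : t ∈ A) (ht2 : orderOf t = 2) (ht : ¬ IsConj z t) : ∃ _ : (A.subgroupOf (M ⊓ Subgroup.centralizer ({t} : Set G))).Normal, Nonempty (↥(M ⊓ Subgroup.centralizer ({t} : Set G)) ⧸ A.subgroupOf (M ⊓ Subgroup.centralizer ({t} : Set G)) ≃* ↥(Cfsg.M24 ⊓ MulAction.stabilizer (Equiv.Perm Cfsg.GolayPt) ({none, some 0} : Set Cfsg.GolayPt))) := by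
  obtain ⟨π, P, h⟩ := exists_ft0 hF
  obtain ⟨y, c, R, π, P, h, a⟩ := h.atT T
  rw [h.thomp a] at hA
  subst hM hA
  obtain ⟨s, φ, sj, kr, b, e, d⟩ := h.m24
  obtain ⟨i, hi, rfl⟩ := (b t).1 ⟨htA, by rintro rfl; simp at ht2, mt c.trans ht⟩
  obtain ⟨k, hk, f⟩ := d i hi 253 (by norm_num)
  have g : ∀ m : Subgroup.normalizer (h.A : Set G), m.1 ∈ Cz (s i) ↔ (φ (⟨k, hk⟩ * m * ⟨k, hk⟩⁻¹)).1 ∈
      MulAction.stabilizer (Equiv.Perm GolayPt) ({none, some 0} : Set GolayPt) := fun m => by
    rw [← eDu_i0]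
    refine Iff.trans ?_ (e _ 253 (by norm_num) 253 (by norm_num))
    rw [← f, mem_Cz', ← (MulAut.conj k).injective.eq_iff]
    simp [mul_assoc]
  refine quot_equiv_of ((M24.subtype.comp (φ.comp ((MulAut.conj ⟨k, hk⟩).toMonoidHom.comp
    (Subgroup.inclusion inf_le_left)))).codRestrict _ fun m => ⟨(φ _).2, (g ⟨_, m.2.1⟩).1 m.2.2⟩) (fun u => ?_) fun m =>
      Subtype.ext_iff.trans ((Subtype.ext_iff (a1 := φ _) (a2 := 1)).symm.trans
        ((kr _).trans (Subgroup.mem_normalizer_iff.1 hk _).symm))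
  obtain ⟨m, w⟩ := sj ⟨u.1, u.2.1⟩
  obtain ⟨m, rfl⟩ := (MulAut.conj (⟨k, hk⟩ : Subgroup.normalizer (h.A : Set G))).surjective m
  replace w := congrArg Subtype.val w
  exact ⟨⟨m, m.2, (g m).2 (w.symm ▸ u.2.2 :)⟩, Subtype.ext w⟩

end Cfsg.Agent.S5448
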