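import Cfsg.Statements.S5449
import Cfsg.Agent.H1.G7

set_option autoImplicit false
open Cfsg

namespace Cfsg.Agent.S5449



/-- Let G be a finite group of large Fischer type at the involution z: the generalized Fitting subgroup Q of H = C_G(z) is extraspecial of order 2^13, H has normal subgroups Q ≤ H₁ ≤ H₂ with H₁/Q of order 3, H₂/H₁ the projective special unitary group of dimension 4 over the field with nine elements and H₂ of index 2 in H, and some conjugate of z other than z lies in Q. Then Q contains a four-group E, not containing z and containing an involution not conjugate to z in G, whose centralizer in G is quasisimple with quotient by E isomorphic to the projective special unitary group of dimension 6 over the field with four elements. -/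
theorem result {G : Type*} [Group G] [Finite G] (z : G) (Q : Subgroup (Subgroup.centralizer ({z} : Set G))) [Q.Normal] (hF : Cfsg.IsOfLargeFischerTypeAt z Q) : ∃ E : Subgroup G, E ≤ (Q.map (Subgroup.centralizer ({z} : Set G)).subtype) ∧ Cfsg.IsElementaryAbelian 2 E ∧ Nat.card E = 4 ∧ z ∉ E ∧ (∃ t ∈ E, orderOf t = 2 ∧ ¬ IsConj z t) ∧ Cfsg.IsQuasisimple ↥(Subgroup.centralizer (E : Set G)) ∧ ∃ (_ : (E.subgroupOf (Subgroup.centralizer (E : Set G))).Normal) (K : Type) (_ : Field K) (_ : Fintype K), Fintype.card K = 4 ∧ Nonempty (↥(Subgroup.centralizer (E : Set G)) ⧸ E.subgroupOf (Subgroup.centralizer (E : Set G)) ≃* Cfsg.PSU 6 K 2) := by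
  obtain ⟨π, P, h⟩ := H13.exists_ft0 hF
  obtain ⟨x, e, f⟩ := H1.Lf.ex_fr h
  obtain ⟨ψ, a, b⟩ := f.u6
  have l : ∀ j ∈ [0, 2, 4, 6], j < 128 ∧ j ≠ 1 := by decide
  refine ⟨f.EE, by rintro _ ⟨j, m, rfl⟩; exact f.eR (l j m).1, ⟨⟨⟨?_⟩⟩, ?_⟩, f.card_E, fun ⟨j, m, k⟩ => (l j m).2
    (f.inj _ ((l j m).1.trans (by norm_num)) _ (by norm_num) (k.symm.trans f.e1.symm)),
    ⟨e 2, ⟨2, by simp, rfl⟩, f.ord (by norm_num) (by norm_num), f.nz (by norm_num) (by decide +kernel)⟩, ?_⟩
  · rintro ⟨_, i, _, rfl⟩ ⟨_, j, _, rfl⟩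
    exact Subtype.ext (f.cm i j)
  · rintro _ ⟨i, -, rfl⟩
    rw [pow_two]; exact h.A_sq (f.mem i)
  rw [f.cE]
  obtain ⟨n, i⟩ := H13.quot_equiv_of ψ a b
  exact ⟨f.qs, n, H1.Fi.K4, _, _, H1.Fi.card_K4, i⟩

end Cfsg.Agent.S5449
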