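import Cfsg.Statements.S5451
import Cfsg.Agent.H13.FM
import Cfsg.Agent.H13.F6g

set_option autoImplicit false
open Cfsg

namespace Cfsg.Agent.S5451

open H13

open Subgroup

/-- Let G be a finite group of large Fischer type at the involution z: the generalized Fitting subgroup Q of H = C_G(z) is extraspecial of order 2^13, H has normal subgroups Q ≤ H₁ ≤ H₂ with H₁/Q of order 3, H₂/H₁ the projective special unitary group of dimension 4 over the field with nine elements and H₂ of index 2 in H, and some conjugate of z other than z lies in Q. Let X be a subgroup of H of order 3 whose product with Q is normal in H (X maps onto the normal subgroup of order 3 of H/Q). Then the centralizer of X in H is quasisimple with cyclic centre of order 6 and central quotient isomorphic to the projective special unitary group of dimension 4 over the field with nine elements. -/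
theorem result {G : Type*} [Group G] [Finite G] (z : G) (Q : Subgroup (Subgroup.centralizer ({z} : Set G))) [Q.Normal] (hF : Cfsg.IsOfLargeFischerTypeAt z Q) (X : Subgroup (Subgroup.centralizer ({z} : Set G))) (hX : Nat.card X = 3) (hXQ : (X ⊔ Q).Normal) : Cfsg.IsQuasisimple ↥(Subgroup.centralizer ((X : Subgroup (Subgroup.centralizer ({z} : Set G))) : Set (Subgroup.centralizer ({z} : Set G)))) ∧ IsCyclic ↥(Subgroup.center ↥(Subgroup.centralizer ((X : Subgroup (Subgroup.centralizer ({z} : Set G))) : Set (Subgroup.centralizer ({z} : Set G))))) ∧ Nat.card ↥(Subgroup.center ↥(Subgroup.centralizer ((X : Subgroup (Subgroup.centralizer ({z} : Set G))) : Set (Subgroup.centralizer ({z} : Set G))))) = 6 ∧ ∃ (K : Type) (_ : Field K) (_ : Fintype K), Fintype.card K = 9 ∧ Nonempty (↥(Subgroup.centralizer ((X : Subgroup (Subgroup.centralizer ({z} : Set G))) : Set (Subgroup.centralizer ({z} : Set G)))) ⧸ Subgroup.center ↥(Subgroup.centralizer ((X : Subgroup (Subgroup.centralizer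 ({z} : Set G))) : Set (Subgroup.centralizer ({z} : Set G)))) ≃* Cfsg.PSU 4 K 3) := by
  obtain ⟨π, P, h⟩ := exists_ft0 hF
  obtain ⟨-, -, -, -, -, -, -, -, ⟨K, _, _, cK, -⟩, -⟩ := hF
  have kr : ∀ k, π k = 1 ↔ k ∈ Q := fun k => (h.ker k).trans (mem_map_iff_mem (Cz z).subtype_injective)
  obtain ⟨x, hx, x3, rfl⟩ : ∃ x, π x = thL ∧ x ^ 3 = 1 ∧ zpowers x = X := by
    have := isCyclic_of_prime_card (hp := ⟨Nat.prime_three⟩) hX
    obtain ⟨y, rfl⟩ := X.isCyclic_iff_exists_zpowers_eq_top.1 this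
    rw [Nat.card_zpowers] at hX
    have y3 : y ^ 3 = 1 := hX ▸ pow_orderOf_eq_one y
    have e := nrm3 (y := π y) (orderOf_eq_prime (hp := ⟨Nat.prime_three⟩) (by rw [← map_pow, y3, map_one]) fun a => by
      have := h.pow_four ((h.ker y).1 a)
      rw [pow_succ, ← coe_pow, y3, coe_one, one_mul, OneMemClass.coe_eq_one] at this
      simp [this] at hX) fun g a => by
        obtain ⟨k, rfl⟩ := h.lift (M0_L0 a)
        have := mem_map_of_mem π (hXQ.conj_mem y (mem_sup_left (mem_zpowers y)) k)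
        rwa [Subgroup.map_sup, MonoidHom.map_zpowers, (map_eq_bot_iff Q).2 fun q b => (kr q).2 b, sup_bot_eq, map_mul,
          map_mul, map_inv] at this
    obtain ⟨x, a, b⟩ := (MonoidHom.map_zpowers π y).ge (e.ge (mem_zpowers _))
    refine ⟨x, b, by obtain ⟨n, rfl⟩ := a; rw [← zpow_natCast, ← zpow_mul, mul_comm, zpow_mul, zpow_natCast, y3, one_zpow],
      eq_of_le_of_card_ge (zpowers_le.2 a) ?_⟩
    rw [Nat.card_zpowers, Nat.card_zpowers, hX, ← ord_thL, ← b]
    exact Nat.le_of_dvd (orderOf_pos x) (orderOf_map_dvd π x)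
  rw [cent_zpowers]
  obtain ⟨f, s, kf⟩ := M0_quot K cK
  have m : ∀ k : Cz x, π k ∈ M0 := fun k => L0_lin (h.mem_L0 _) (by rw [← hx, ← map_mul, ← map_mul, mem_Cz.1 k.2])
  let ψ := (π.comp (Cz x).subtype).codRestrict M0 m
  have sψ : Function.Surjective ψ := fun g => by
    obtain ⟨k, a, b⟩ := h.lift_x hx x3 g.2
    exact ⟨⟨k, mem_Cz.2 b⟩, Subtype.ext a⟩
  let t : Cz x := ⟨⟨z, self_mem_Cz z⟩, mem_Cz.2 (Subtype.ext (mem_Cz.1 x.2).symm)⟩
  let y : Cz x := ⟨x, self_mem_Cz x⟩
  have u : ∀ k l : Cz x, π k = π l → l = k ∨ l = k * t := fun k l a =>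
    (h.uniq_x hx (mem_Cz.1 k.2) (mem_Cz.1 l.2) a).imp (fun b => Subtype.ext (Subtype.ext b)) fun b => Subtype.ext (Subtype.ext b)
  have ct : t ∈ center (Cz x) := mem_center_iff.2 fun k => Subtype.ext (Subtype.ext (mem_Cz.1 k.1.2))
  have cy : y ∈ center (Cz x) := mem_center_iff.2 fun k => Subtype.ext (mem_Cz.1 k.2)
  have o2 : orderOf t = 2 := by rw [← orderOf_coe, ← orderOf_coe]; exact h.z2
  have o3 : orderOf y = 3 := by rw [← orderOf_coe, ← Nat.card_zpowers]; exact hX
  have cm : Commute y t := (mem_center_iff.1 ct y :)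
  have o6 : orderOf (y * t) = 6 := by rw [cm.orderOf_mul_eq_mul_orderOf_of_coprime (by rw [o2, o3]; decide), o2, o3]
  have t2 : t ^ 2 = 1 := o2 ▸ pow_orderOf_eq_one t
  have y3 : y ^ 3 = 1 := Subtype.ext x3
  have a1 : t ∈ zpowers (y * t) := ⟨(3 : ℕ), by simp only [zpow_natCast]; rw [cm.mul_pow, y3, pow_succ, t2]; simp⟩
  have a2 : y ∈ zpowers (y * t) := by simpa using mul_mem (mem_zpowers (y * t)) (inv_mem a1)
  have b1 : (f.comp ψ).ker ≤ zpowers (y * t) := fun k a => by
    obtain ⟨n, b⟩ := (kf _).1 a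
    rcases u (y ^ n) k ((map_zpow π x n).trans (hx ▸ b)) with rfl | rfl
    exacts [zpow_mem a2 n, mul_mem (zpow_mem a2 n) a1]
  have b2 : zpowers (y * t) ≤ center (Cz x) := zpowers_le.2 (mul_mem cy ct)
  have b3 : center (Cz x) ≤ (f.comp ψ).ker := fun k a => (kf _).2 (cen_M0 fun g b => by
    obtain ⟨l, c⟩ := sψ ⟨g, b⟩
    exact congrArg Subtype.val (c ▸ (map_mul ψ ..).symm.trans ((congrArg ψ (mem_center_iff.1 a l)).trans (map_mul ψ ..)) :
      ⟨g, b⟩ * ψ k = ψ k * ⟨g, b⟩))
  have e := (QuotientGroup.quotientMulEquivOfEq (le_antisymm b3 (b1.trans b2))).trans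
    (QuotientGroup.quotientKerEquivOfSurjective _ (s.comp sψ))
  have := H22.PSU_isSimpleGroup (q := 3) cK 4 (by norm_num) (by norm_num)
  refine ⟨⟨⟨eq_top_iff.2 fun k _ => ?_⟩, e.isSimpleGroup⟩, ?_, ?_, K, _, _, cK, ⟨e⟩⟩
  · have : Group.IsPerfect M0 := isPerfect_iff.2 M0_perf
    obtain ⟨l, a, b⟩ : ψ k ∈ (commutator (Cz x)).map ψ := by
      rw [_root_.map_commutator_eq, MonoidHom.range_eq_top.2 sψ]; exact Group.IsPerfect.mem_commutator
    obtain ⟨-, -, -, c⟩ := h.main hx x3
    have d : t ∈ commutator (Cz x) := by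
      rw [← mem_map_iff_mem (f := (Cz z).subtype.comp (Cz x).subtype)
        ((Cz z).subtype_injective.comp (Cz x).subtype_injective), _root_.map_commutator_eq]
      have l : Cz z ⊓ Cz x.1 ≤ ((Cz z).subtype.comp (Cz x).subtype).range := fun k a =>
        ⟨⟨⟨k, a.1⟩, mem_Cz.2 (Subtype.ext (mem_Cz.1 a.2))⟩, rfl⟩
      exact commutator_mono l l c
    rcases u l k (congrArg Subtype.val b) with rfl | rfl
    exacts [a, mul_mem a d]
  · rw [← le_antisymm b2 (b3.trans b1)]; infer_instance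
  · rw [← le_antisymm b2 (b3.trans b1), Nat.card_zpowers, o6]

end Cfsg.Agent.S5451
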