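import Cfsg.Statements.S5459
import Cfsg.Agent.H3.Tt

set_option autoImplicit false
open Cfsg

namespace Cfsg.Agent.S5459

/-- Let G be a finite group with a quasisimple normal subgroup L and an involution d such that G is generated by L and d, the centre of L has odd order, and d inverts every element of the centre of L. If the commuting graph on the conjugacy class of the image of d in G modulo the centre of L is connected, then the commuting graph on the conjugacy class of d is connected. -/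
theorem result {G : Type*} [Group G] [Finite G] (L : Subgroup G) [L.Normal] (hL : Cfsg.IsQuasisimple ↥L) (d : G) (hd : orderOf d = 2) (hgen : L ⊔ Subgroup.zpowers d = ⊤) (hodd : Odd (Nat.card ↥(Subgroup.center ↥L))) (hinv : ∀ c ∈ (Subgroup.center ↥L).map L.subtype, d * c * d⁻¹ = c⁻¹) [hn : ((Subgroup.center ↥L).map L.subtype).Normal] (hconn : (Cfsg.commutingGraph (conjugatesOf (QuotientGroup.mk d : G ⧸ (Subgroup.center ↥L).map L.subtype))).Connected) : (Cfsg.commutingGraph (conjugatesOf d)).Connected := by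
  have hZ : ∀ z ∈ (Subgroup.center L).map L.subtype, ∀ x ∈ L, x * z = z * x := by
    rintro _ ⟨z, hz, rfl⟩ x hx
    exact congrArg Subtype.val (Subgroup.mem_center_iff.1 hz ⟨x, hx⟩)
  have hZL : (Subgroup.center L).map L.subtype ≤ L := Subgroup.map_subtype_le _
  rw [← H10.card_map_subtype] at hodd
  generalize (Subgroup.center L).map L.subtype = Z at *
  have d2 := H6.ord2_mul_self hd
  have sq : ∀ z ∈ Z, ∃ w ∈ Z, w * w = z := fun z hz => by
    obtain ⟨k, hk⟩ := hodd
    exact ⟨z ^ (k + 1), pow_mem hz _, by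
      rw [← pow_add, show k + 1 + (k + 1) = 2 * k + 1 + 1 by ring, pow_succ, ← hk,
        orderOf_dvd_iff_pow_eq_one.1 (Z.orderOf_dvd_natCard hz), one_mul]⟩
  have inv : ∀ a ∈ conjugatesOf d, a * a = 1 ∧ ∀ z ∈ Z, a * z = z⁻¹ * a := fun a ha => by
    obtain ⟨g, rfl⟩ := isConj_iff.1 ha
    refine ⟨by simp [d2], fun z hz => ?_⟩
    have := hinv _ (hn.conj_mem' z hz g)
    calc _ = g * (d * (g⁻¹ * z * g) * d⁻¹) * d * g⁻¹ := by group
      _ = _ := by rw [this]; group
  have fib : ∀ a ∈ conjugatesOf d, ∀ z ∈ Z, ∃ w ∈ Z, w * a * w⁻¹ = z * a := fun a ha z hz => by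
    obtain ⟨w, hw, rfl⟩ := sq z hz
    exact ⟨w, hw, by rw [mul_assoc, (inv a ha).2 _ (inv_mem hw), inv_inv, mul_assoc]⟩
  have cen : ∀ a ∈ conjugatesOf d, ∀ b ∈ conjugatesOf d, ∀ z ∈ Z, Commute (a * b) z :=
    fun a ha b hb z hz => by
      rw [Commute, SemiconjBy, mul_assoc, (inv b hb).2 z hz, ← mul_assoc, (inv a ha).2 _ (inv_mem hz),
        inv_inv, mul_assoc]
  let d' : conjugatesOf d := ⟨d, IsConj.refl d⟩
  let Γ := commutingGraph (conjugatesOf d)
  have cj : ∀ (g : G) (a : conjugatesOf d), g * a * g⁻¹ ∈ conjugatesOf d := fun g a =>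
    a.2.trans (isConj_iff.2 ⟨g, rfl⟩)
  have tr : ∀ (g : G) (a b : conjugatesOf d), Γ.Reachable a b →
      Γ.Reachable ⟨_, cj g a⟩ ⟨_, cj g b⟩ := fun g a b h =>
    h.map (⟨fun a => ⟨_, cj g a⟩, fun {a b} h => by
      simpa [Γ, commutingGraph, Subtype.ext_iff, H28.commute_conj_iff] using h⟩ : Γ →g Γ)
  let S : Subgroup G :=
    { carrier := {g | Γ.Reachable d' ⟨_, cj g d'⟩}
      one_mem' := by simp [d']
      mul_mem' := fun {a b} ha hb => ha.trans (by simpa [mul_assoc] using tr a _ _ hb)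
      inv_mem' := fun {a} ha => by simpa [mul_assoc] using (tr a⁻¹ _ _ ha).symm }
  have lift : ∀ x, (commutingGraph (conjugatesOf (d : G ⧸ Z))).Reachable ⟨d, IsConj.refl _⟩ x →
      ∃ a, Γ.Reachable d' a ∧ ((a : G) : G ⧸ Z) = x := fun x hx => by
    rw [SimpleGraph.reachable_iff_reflTransGen] at hx
    induction hx with
    | refl => exact ⟨d', .refl _, rfl⟩
    | @tail x y _ h ih =>
      obtain ⟨a, h1, h2⟩ := ih
      obtain ⟨g, hg⟩ := isConj_iff.1 y.2
      obtain ⟨g, rfl⟩ := QuotientGroup.mk_surjective g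
      have hb := cj g d'
      have e : ((g * d * g⁻¹ : G) : G ⧸ Z) = y := hg
      change g * d * g⁻¹ ∈ _ at hb
      generalize g * d * g⁻¹ = b at hb e
      obtain ⟨n, c⟩ := (SimpleGraph.fromRel_adj _ _ _).1 h
      have c : Commute (x : G ⧸ Z) y := c.elim id Commute.symm
      obtain ⟨w, hw, k⟩ := sq (b * a * (b * a)) ((QuotientGroup.eq_one_iff _).1 (by
        simp only [QuotientGroup.mk_mul, h2, e]
        rw [← c.eq, mul_assoc, ← mul_assoc y.1, ← c.eq, ← h2, ← e, mul_assoc, ← QuotientGroup.mk_mul,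
          (inv b hb).1, QuotientGroup.mk_one, mul_one, ← QuotientGroup.mk_mul, (inv a a.2).1,
          QuotientGroup.mk_one]))
      obtain ⟨u, -, hu⟩ := fib b hb w⁻¹ (inv_mem hw)
      have e' : ((w⁻¹ * b : G) : G ⧸ Z) = y := by
        rw [QuotientGroup.mk_mul, (QuotientGroup.eq_one_iff _).2 (inv_mem hw), one_mul, e]
      have hb' : w⁻¹ * b ∈ conjugatesOf d := hu ▸ cj u ⟨b, hb⟩
      refine ⟨⟨_, hb'⟩, h1.trans (SimpleGraph.Adj.reachable
        ((SimpleGraph.fromRel_adj _ _ _).2 ⟨?_, .inr ?_⟩)), e'⟩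
      · rintro rfl
        exact n (Subtype.ext (h2.symm.trans e'))
      · refine H28.commute_of_sq (inv _ hb').1 (inv a a.2).1 ?_
        rw [mul_assoc, (cen b hb a a.2 _ (inv_mem hw)).symm.mul_pow, pow_two (b * a), ← k, ← pow_two,
          inv_pow, inv_mul_cancel]
  have zs : ∀ g, ∃ w ∈ Z, w * g ∈ S := fun g => by
    obtain ⟨a, h1, h2⟩ := lift ⟨_, (QuotientGroup.mk' Z).map_isConj (cj g d')⟩ (hconn _ _)
    obtain ⟨w, hw, k⟩ := fib _ (cj g d') (a * (g * d' * g⁻¹)⁻¹) ((QuotientGroup.eq_one_iff _).1 (by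
      rw [QuotientGroup.mk_mul, QuotientGroup.mk_inv, h2]; exact mul_inv_cancel _))
    obtain rfl : a = ⟨_, cj (w * g) d'⟩ := Subtype.ext (by simpa [mul_assoc] using k.symm)
    exact ⟨w, hw, h1⟩
  have hS : L ≤ S := by
    rw [← L.range_subtype, MonoidHom.range_eq_map, ← hL.1.commutator_eq_top, Subgroup.map_subtype_commutator,
      Subgroup.commutator_le]
    intro x hx y hy
    obtain ⟨u, hu, h1⟩ := zs x
    obtain ⟨v, hv, h2⟩ := zs y
    have := Subgroup.commutator_le_self S (Subgroup.commutator_mem_commutator h1 h2)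
    have c1 : Commute u x := (hZ u hu x hx).symm
    have c2 : Commute u y := (hZ u hu y hy).symm
    have c3 : Commute v x := (hZ v hv x hx).symm
    have c4 : Commute v y := (hZ v hv y hy).symm
    have c5 : Commute v u := (hZ v hv u (hZL hu)).symm
    convert this using 1
    simp only [commutatorElement_def, mul_inv_rev]
    rw [mul_assoc _ x⁻¹, ← (c1.inv_inv).eq, mul_assoc u, mul_assoc u, ← mul_assoc _ u⁻¹,
      ← ((c1.mul_right (c5.symm.mul_right c2)).inv_left).eq, ← mul_assoc u, mul_inv_cancel_left,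
      ← mul_assoc x, ← c3.eq, mul_assoc v, mul_assoc v, ← mul_assoc _ y⁻¹, mul_assoc v _ y⁻¹, mul_assoc v,
      ← (((c3.mul_right c4).mul_right c3.inv_right).mul_right c4.inv_right).inv_left.eq,
      mul_inv_cancel_left, mul_assoc _ x⁻¹]
  have : Nonempty (conjugatesOf d) := ⟨d'⟩
  have k : ∀ a, Γ.Reachable d' a := fun a => by
    obtain ⟨g, hg⟩ := isConj_iff.1 a.2
    have : g ∈ S := (sup_le hS (Subgroup.zpowers_le.2 (by simp [S, d']))) (hgen.ge (Subgroup.mem_top g))
    exact (Subtype.ext hg : ⟨_, cj g d'⟩ = a) ▸ this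
  exact ⟨fun a b => (k a).symm.trans (k b)⟩

end Cfsg.Agent.S5459
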