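import Cfsg.Statements.S5466
import Cfsg.Agent.H28.Au1
import Cfsg.Agent.S0815
-- import your own Cfsg.Agent.* helpers here

set_option autoImplicit false
open Cfsg

namespace Cfsg.Agent.S5466

/-- Let G be a finite group with trivial centre generated by a conjugation-invariant set D of 3-transpositions on which it acts primitively, such that for some d in D the subgroup generated by the members of D other than d commuting with d has central largest normal 2- and 3-subgroups, and suppose G with D is of type M(24), and let L be the commutator subgroup of G. Let d₁, d₂, d₃ be distinct pairwise commuting members of D, j their product, E the subgroup generated by d₁ d₂ and d₁ d₃ (a four-group lying in L), CL the centralizer of j in L and K its generalized Fitting subgroup. Then K is quasisimple with centre E, K is the centralizer of E in L, K modulo E is isomorphic to the projective special unitary group of dimension 6 over the field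 with four elements, CL/K is isomorphic to the symmetric group of degree 3, and CL modulo E is isomorphic to the full automorphism group of that unitary group. -/
theorem result {G : Type*} [Group G] [Finite G] {D : Set G} (hD : Cfsg.IsThreeTranspositionGroup D) (hprim : Cfsg.IsPrimitiveUnderConj D) (d₀ : G) (hd₀ : d₀ ∈ D) (h3 : Cfsg.pCore 3 ↥(Subgroup.closure {y : G | y ∈ D ∧ y ≠ d₀ ∧ Commute d₀ y}) ≤ Subgroup.center ↥(Subgroup.closure {y : G | y ∈ D ∧ y ≠ d₀ ∧ Commute d₀ y})) (h2 : Cfsg.pCore 2 ↥(Subgroup.closure {y : G | y ∈ D ∧ y ≠ d₀ ∧ Commute d₀ y}) ≤ Subgroup.center ↥(Subgroup.closure {y : G | y ∈ D ∧ y ≠ d₀ ∧ Commute d₀ y})) (h24 : Cfsg.IsOfTypeM24 G D) (L : Subgroup G) (hL : L = commutator G) (d₁ d₂ d₃ : G) (h₁ : d₁ ∈ D) (h₂ : d₂ ∈ D) (h₃ : d₃ ∈ D) (h12 : d₁ ≠ d₂) (h13 : d₁ ≠ d₃) (h23 : d₂ ≠ d₃) (c12 : Commute d₁ d₂) (c13 : Commute d₁ d₃) (c23 : Commute d₂ d₃) (E CL K : Subgroup G) (hE : E = Subgroup.closure ({d₁ * d₂,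 d₁ * d₃} : Set G)) (hCL : CL = L ⊓ Subgroup.centralizer ({d₁ * d₂ * d₃} : Set G)) (hK : K = (Cfsg.generalizedFittingSubgroup ↥CL).map CL.subtype) : Cfsg.IsQuasisimple ↥K ∧ (Subgroup.center ↥K).map K.subtype = E ∧ K = L ⊓ Subgroup.centralizer (E : Set G) ∧ (∃ (_ : (E.subgroupOf K).Normal) (F : Type) (_ : Field F) (_ : Fintype F), Fintype.card F = 4 ∧ Nonempty (↥K ⧸ E.subgroupOf K ≃* Cfsg.PSU 6 F 2)) ∧ ∃ _ : (K.subgroupOf CL).Normal, Nonempty (↥CL ⧸ K.subgroupOf CL ≃* Equiv.Perm (Fin 3)) ∧ E ≤ CL ∧ ∃ (_ : (E.subgroupOf CL).Normal) (F : Type) (_ : Field F) (_ : Fintype F), Fintype.card F = 4 ∧ Nonempty (↥CL ⧸ E.subgroupOf CL ≃* MulAut (Cfsg.PSU 6 F 2)) := by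
  have h := H28.m24_of hD hprim h24
  have c : H28.Clq D [d₁, d₂, d₃] := ⟨by simp [*], by simp [*]⟩
  obtain ⟨σ, s1, s2, -⟩ := h.sgn
  obtain ⟨π, r⟩ := h.lv.rl2 H28.lv23 (c.sub (List.sublist_cons_self _ _))
  have m := (H28.clq_cons'.1 c).1
  obtain ⟨ρ, r'⟩ := H28.lv22.res _ (r.fi.mem m)
  replace r := r.cons hD m r'
  have := H28.psu_simple
  rw [hL, s2, show d₁ * d₂ * d₃ = [d₁, d₂, d₃].prod by simp [mul_assoc]] at hCL
  obtain ⟨a, b, d, z, ⟨e⟩, ⟨φ, φ1, φ2⟩, α, α1, α2⟩ := r.even hD c (r.gen' (h.rl8.meet hD c (h.gts 3 (by norm_num)) (by simp)))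
    (by rw [H28.psu_card H28.gf4_card]; norm_num) (fun m hm => h.gts m (hm.trans (by simp))) (h.nr.mono (by simp)) (by simp) σ s1
    (Cfsg.Agent.S0815.result 2 1 le_rfl rfl H28.gf4_card 6 (by norm_num) (by norm_num)).le rfl hCL
  rw [← hK] at b
  rw [← H28.cl_two] at hE
  rw [← b] at a d z e φ2
  have Ks : K ≤ σ.ker := b ▸ inf_le_left
  have Ce : CL ≤ σ.ker := hCL ▸ inf_le_left
  have ev := H28.even_cl hD.1 c σ s1
  rw [H28.even_sub hD.1 c σ s1 Ks] at z
  rw [H28.even_sub hD.1 c σ s1 Ce] at α2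
  rw [show List.map _ _ = [d₁ * d₂, d₁ * d₃] from rfl, ← hE] at z α2 ev
  have EK : E ≤ K := b ▸ ev ▸ inf_le_inf_left _ c.cl_le_cn
  have n1 : (E.subgroupOf K).Normal := z ▸ inferInstance
  have n2 : (K.subgroupOf CL).Normal := φ2 ▸ inferInstance
  have n3 : (E.subgroupOf CL).Normal := α2 ▸ inferInstance
  refine ⟨a, by rw [z, Subgroup.subgroupOf_map_subtype, inf_eq_left.2 EK], le_antisymm (fun x hx => ⟨hL ▸ s2 ▸ Ks hx,
    fun y hy => congrArg Subtype.val (Subgroup.mem_center_iff.1 (z.ge (show (⟨y, EK hy⟩ : K) ∈ _ from hy)) ⟨x, hx⟩).symm⟩)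
    fun x hx => b.ge ⟨s2.le (hL.le hx.1), ?_⟩, ⟨n1, _, _, _, H28.gf4_card,
      ⟨(QuotientGroup.quotientMulEquivOfEq z.symm).trans e⟩⟩, n2,
    ⟨(QuotientGroup.quotientMulEquivOfEq φ2.symm).trans (QuotientGroup.quotientKerEquivOfSurjective φ φ1)⟩, EK.trans d,
    n3, _, _, _, H28.gf4_card,
    ⟨(QuotientGroup.quotientMulEquivOfEq α2.symm).trans (QuotientGroup.quotientKerEquivOfSurjective α α1)⟩⟩
  have k : ∀ p q, p ≠ q → H28.Clq D [p, q] → p * q ∈ E → x * p * x⁻¹ = p ∨ x * p * x⁻¹ = q := fun p q n c m => by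
    have := (h.nr.perm3 hD.1 ((H28.fiso_conj hD.2.1 x).clq c) c (by simp) (by simp) (by
      rw [H28.map_conj_prod]; simpa using H28.conj_eq_iff_commute.2 (Commute.symm (hx.2 _ m)))).mem_iff.1 List.mem_cons_self
    simpa using this
  have m2 : d₁ * d₂ ∈ E := hE ▸ H27.mem_cl (by simp)
  have m3 : d₁ * d₃ ∈ E := hE ▸ H27.mem_cl (by simp)
  have k1 : Commute d₁ x := (H28.conj_eq_iff_commute.1 ((k _ _ h12 ⟨by simp [*], by simp [*]⟩ m2).elim id fun e =>
    (k _ _ h13 ⟨by simp [*], by simp [*]⟩ m3).resolve_right fun e' => h23 (e.symm.trans e'))).symm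
  have k2 : ∀ y, d₁ * y ∈ E → Commute y x := fun y hy => by simpa using k1.inv_left.mul_left (hx.2 _ hy)
  exact H28.mem_cn.2 (by simp [k1, k2 _ m2, k2 _ m3])

end Cfsg.Agent.S5466
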