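import Cfsg.Statements.S5468
import Cfsg.Agent.H28.Tw5
-- import your own Cfsg.Agent.* helpers here

set_option autoImplicit false
open Cfsg

namespace Cfsg.Agent.S5468

/-- Let G be a finite group with trivial centre generated by a conjugation-invariant set D of 3-transpositions on which it acts primitively, such that for some d in D the subgroup generated by the members of D other than d commuting with d has central largest normal 2- and 3-subgroups, and suppose G with D is of type M(23). Let d₁, d₂ be distinct commuting members of D, j = d₁ d₂, K the joint centralizer of d₁ and d₂ and C the centralizer of j. Then K has index 2 in C, the centre of K is the subgroup generated by d₁ and d₂, K is quasisimple with K modulo its centre isomorphic to the projective special unitary group of dimension 6 over the field with four elements, and C modulo the subgroup generated by d₁ and d₂ has trivial centre (so it is that unitary group extended by an outer involution).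 -/
theorem result {G : Type*} [Group G] [Finite G] {D : Set G} (hD : Cfsg.IsThreeTranspositionGroup D) (hprim : Cfsg.IsPrimitiveUnderConj D) (d₀ : G) (hd₀ : d₀ ∈ D) (h3 : Cfsg.pCore 3 ↥(Subgroup.closure {y : G | y ∈ D ∧ y ≠ d₀ ∧ Commute d₀ y}) ≤ Subgroup.center ↥(Subgroup.closure {y : G | y ∈ D ∧ y ≠ d₀ ∧ Commute d₀ y})) (h2 : Cfsg.pCore 2 ↥(Subgroup.closure {y : G | y ∈ D ∧ y ≠ d₀ ∧ Commute d₀ y}) ≤ Subgroup.center ↥(Subgroup.closure {y : G | y ∈ D ∧ y ≠ d₀ ∧ Commute d₀ y})) (h23 : Cfsg.IsOfTypeM23 G D) (d₁ d₂ : G) (h₁ : d₁ ∈ D) (h₂ : d₂ ∈ D) (hne : d₁ ≠ d₂) (hc : Commute d₁ d₂) (K C V : Subgroup G) (hK : K = Subgroup.centralizer ({d₁, d₂} : Set G)) (hC : C = Subgroup.centralizer ({d₁ * d₂} : Set G)) (hV : V = Subgroup.closure ({d₁, d₂} : Set G)) [hn : (V.subgroupOf C).Normal] : K ≤ C ∧ (K.subgroupOf C).index = 2 ∧ (Subgroup.center ↥K).map K.subtype = V ∧ Cfsg.IsQuasisimple ↥K ∧ (∃ (F : Type) (_ : Field F) (_ : Fintype F), Fintype.card F = 4 ∧ Nonempty (↥K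 ⧸ Subgroup.center ↥K ≃* Cfsg.PSU 6 F 2)) ∧ Subgroup.center (↥C ⧸ V.subgroupOf C) = ⊥ := by
  have h := H28.m23_of hD h23
  have c : H28.Clq D [d₁, d₂] := ⟨by simp [*], by simp [*]⟩
  have u : ∀ l, H28.Clq D l → l.length = [d₁, d₂].length → l.prod = [d₁, d₂].prod → l.Perm [d₁, d₂] := fun l x y z =>
    (h.nr.perm3 hD.1 c x (by simp) (by rw [y]; simp) z.symm).symm
  obtain ⟨φ, a, b⟩ := H28.cent_prod hD.2.1 c (h.gts 2 (by norm_num)) u
  obtain ⟨π, r⟩ := h.lv.rl2 H28.lv22 c
  have g := r.gen' (h.rl7.meet hD c (h.gts 2 (by norm_num)) (by simp))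
  have := H28.psu_simple
  rw [← H28.cn_two] at hK
  rw [← H28.cl_two] at hV
  rw [show d₁ * d₂ = [d₁, d₂].prod by simp] at hC
  subst hK hC hV
  refine ⟨H28.cn_le_prod, ?_, by rw [r.center H28.psu_center, Subgroup.subgroupOf_map_subtype, inf_eq_left.2 c.cl_le_cn],
    r.quasi H28.psu_center (H28.perfect_cn hD c g (fun m hm => h.gts m (hm.trans (by simp))) h.rl7 (by decide) (by simp)),
    ⟨_, _, _, H28.gf4_card, r.quot H28.psu_center⟩, eq_bot_iff.2 fun x hx => ?_⟩
  · rw [← b, Subgroup.index_ker, MonoidHom.range_eq_top.2 a]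
    simp [Fintype.card_perm]
  obtain ⟨x, rfl⟩ := QuotientGroup.mk_surjective x
  have k : ∀ y ∈ H28.Nb D [d₁, d₂], Commute x.1 y := fun y hy => by
    have yc := H28.mem_cn.2 hy.2.2
    have z := ((H28.fiso_conj hD.2.1 x.1).nb c.1).mem hy
    rw [H28.nb_perm (u _ ((H28.fiso_conj hD.2.1 x.1).clq c) (by simp) (by
      rw [H28.map_conj_prod, H28.conj_eq_iff_commute.2 (H28.mem_cent1.1 x.2).symm]))] at z
    have e := Subgroup.mem_center_iff.1 hx (QuotientGroup.mk ⟨y, H28.cn_le_prod yc⟩)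
    rw [← eq_mul_inv_iff_mul_eq, ← QuotientGroup.mk_mul, ← QuotientGroup.mk_inv, ← QuotientGroup.mk_mul, QuotientGroup.eq] at e
    have zc := H28.mem_cn.2 z.2.2
    have e' : r.hom ⟨_, yc⟩ = r.hom ⟨_, zc⟩ := by
      rw [← inv_mul_eq_one, ← map_inv, ← map_mul, ← MonoidHom.mem_ker, r.hom_ker]; exact e
    exact H28.conj_eq_iff_commute.1 (r.fi.inj hy z e').symm
  have k' : ∀ y ∈ H28.Cn [d₁, d₂], Commute x.1 y := fun y hy =>
    (H28.mem_cent1.1 ((Subgroup.closure_le _).2 (fun z hz => H28.mem_cent1.2 (k z hz)) (g.ge hy)))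
  have xc : x.1 ∈ H28.Cn [d₁, d₂] := H28.mem_cn.2 fun p hp => (k' p (c.cl_le_cn (H27.mem_cl hp))).symm
  exact (QuotientGroup.eq_one_iff x).2 ((r.center H28.psu_center).le
    (show (⟨_, xc⟩ : H28.Cn _) ∈ _ from Subgroup.mem_center_iff.2 fun y => Subtype.ext (k' y y.2).symm))

end Cfsg.Agent.S5468
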