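import Cfsg.Statements.S5469
import Cfsg.Agent.H28.Tz4
-- import your own Cfsg.Agent.* helpers here

set_option autoImplicit false
open Cfsg

namespace Cfsg.Agent.S5469

/-- Let G be a finite group with trivial centre generated by a conjugation-invariant set D of 3-transpositions on which it acts primitively, such that for some d in D the subgroup generated by the members of D other than d commuting with d has central largest normal 2- and 3-subgroups, and suppose G with D is of type M(22). Let d₁, d₂ be distinct commuting members of D, j = d₁ d₂, K the joint centralizer of d₁ and d₂, C the centralizer of j and V the subgroup generated by d₁ and d₂. Then K has index 2 in C, V is the centre of K, and C has a normal subgroup E containing V with E/V elementary abelian of order 2^8 and C/E isomorphic to the full automorphism group of the projective special unitary group of dimension 4 over the field with four elements. -/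
theorem result {G : Type*} [Group G] [Finite G] {D : Set G} (hD : Cfsg.IsThreeTranspositionGroup D) (hprim : Cfsg.IsPrimitiveUnderConj D) (d₀ : G) (hd₀ : d₀ ∈ D) (h3 : Cfsg.pCore 3 ↥(Subgroup.closure {y : G | y ∈ D ∧ y ≠ d₀ ∧ Commute d₀ y}) ≤ Subgroup.center ↥(Subgroup.closure {y : G | y ∈ D ∧ y ≠ d₀ ∧ Commute d₀ y})) (h2 : Cfsg.pCore 2 ↥(Subgroup.closure {y : G | y ∈ D ∧ y ≠ d₀ ∧ Commute d₀ y}) ≤ Subgroup.center ↥(Subgroup.closure {y : G | y ∈ D ∧ y ≠ d₀ ∧ Commute d₀ y})) (h22 : Cfsg.IsOfTypeM22 G D) (d₁ d₂ : G) (h₁ : d₁ ∈ D) (h₂ : d₂ ∈ D) (hne : d₁ ≠ d₂) (hc : Commute d₁ d₂) (K C V : Subgroup G) (hK : K = Subgroup.centralizer ({d₁, d₂} : Set G)) (hC : C = Subgroup.centralizer ({d₁ * d₂} : Set G)) (hV : V = Subgroup.closure ({d₁, d₂} : Set G)) : K ≤ C ∧ (K.subgroupOf C).index = 2 ∧ (Subgroup.center ↥K).map K.subtype = V ∧ ∃ E : Subgroup G, V ≤ E ∧ E ≤ C ∧ (∀ c ∈ C, ∀ x ∈ E, c * x * c⁻¹ ∈ E) ∧ Nat.card E = 2 ^ 10 ∧ (∀ x ∈ E, ∀ y ∈ E,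 x * y * x⁻¹ * y⁻¹ ∈ V ∧ x ^ 2 ∈ V) ∧ ∃ (_ : (E.subgroupOf C).Normal) (F : Type) (_ : Field F) (_ : Fintype F), Fintype.card F = 4 ∧ Nonempty (↥C ⧸ E.subgroupOf C ≃* MulAut (Cfsg.PSU 4 F 2)) := by
  have h := H28.m22_of hD h22
  have c : H28.Clq D [d₁, d₂] := ⟨by simp [*], by simp [*]⟩
  obtain ⟨σ, E, Ψ, -, -, -, -, s, k, cE, VE, EK, -, cA, com, sq, -⟩ := h.tz2 c
  rw [← H28.cn_two] at hK
  rw [← H28.cl_two] at hV
  subst hK hC hV
  have KC : H28.Cn [d₁, d₂] ≤ Subgroup.centralizer {d₁ * d₂} := by simpa using H28.cn_le_prod (l := [d₁, d₂])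
  have e : E.subgroupOf _ = Ψ.ker := Subgroup.ext fun x => (k x).symm
  have zV : d₁ * d₂ ∈ H27.cl [d₁, d₂] := mul_mem (H27.mem_cl (by simp)) (H27.mem_cl (by simp))
  have : (E.subgroupOf (Subgroup.centralizer {d₁ * d₂})).Normal := e ▸ inferInstance
  refine ⟨KC, (h.cent2 c).1, le_antisymm ?_ fun x hx => ⟨⟨x, c.cl_le_cn hx⟩, Subgroup.mem_center_iff.2 fun y => Subtype.ext
    (H28.commute_cl (fun p hp => (H28.mem_cn.1 y.2 p hp).symm) hx), rfl⟩, E, VE, EK.trans KC,
    fun g hg x hx => this.1 ⟨x, KC (EK hx)⟩ hx ⟨g, hg⟩, cE, fun x hx y hy => ⟨?_, ?_⟩, this, H28.GF4, _, _, H28.gf4_card,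
    ⟨(QuotientGroup.quotientMulEquivOfEq e).trans ((QuotientGroup.quotientKerEquivOfSurjective Ψ s).trans H28.p5_equiv.2.1.some)⟩⟩
  · rintro _ ⟨x, hx, rfl⟩
    exact cA _ fun y hy => congrArg Subtype.val (Subgroup.mem_center_iff.1 hx ⟨y, H28.mem_cn.2 hy.2.2⟩)
  · rcases com x hx y hy with q | q <;> rw [q]
    · simp
    · rw [← (H28.commute_cl (fun p hp => (H28.mem_cn.1 (EK (mul_mem hy hx)) p hp).symm) zV).symm.eq]
      simpa [mul_assoc] using zV
  · rcases sq x hx with q | q <;> rw [pow_two, q]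
    exacts [one_mem _, zV]

end Cfsg.Agent.S5469
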