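import Cfsg.Statements.S5470
import Cfsg.Agent.H28.Tw5
-- import your own Cfsg.Agent.* helpers here

set_option autoImplicit false
open Cfsg

namespace Cfsg.Agent.S5470

/-- Let G be a finite group with trivial centre generated by a conjugation-invariant set D of 3-transpositions on which it acts primitively, such that for some d in D the subgroup generated by the members of D other than d commuting with d has central largest normal 2- and 3-subgroups, and suppose G with D is of type M(22). Then the centralizer of a product of three distinct pairwise commuting members of D has order 2^16 · 3^3. -/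
theorem result {G : Type*} [Group G] [Finite G] {D : Set G} (hD : Cfsg.IsThreeTranspositionGroup D) (hprim : Cfsg.IsPrimitiveUnderConj D) (d₀ : G) (hd₀ : d₀ ∈ D) (h3 : Cfsg.pCore 3 ↥(Subgroup.closure {y : G | y ∈ D ∧ y ≠ d₀ ∧ Commute d₀ y}) ≤ Subgroup.center ↥(Subgroup.closure {y : G | y ∈ D ∧ y ≠ d₀ ∧ Commute d₀ y})) (h2 : Cfsg.pCore 2 ↥(Subgroup.closure {y : G | y ∈ D ∧ y ≠ d₀ ∧ Commute d₀ y}) ≤ Subgroup.center ↥(Subgroup.closure {y : G | y ∈ D ∧ y ≠ d₀ ∧ Commute d₀ y})) (h22 : Cfsg.IsOfTypeM22 G D) (d₁ d₂ d₃ : G) (h₁ : d₁ ∈ D) (h₂ : d₂ ∈ D) (h₃ : d₃ ∈ D) (h12 : d₁ ≠ d₂) (h13 : d₁ ≠ d₃) (h23 : d₂ ≠ d₃) (c12 : Commute d₁ d₂) (c13 : Commute d₁ d₃) (c23 : Commute d₂ d₃) : Nat.card ↥(Subgroup.centralizer ({d₁ * d₂ * d₃} : Set G)) = 2 ^ 16 * 3 ^ 3 := by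
  classical
  have h := H28.m22_of hD h22
  have c : H28.Clq D [d₁, d₂, d₃] := ⟨by simp [*], by simp [*]⟩
  obtain ⟨s, k1, k2, k3, k4⟩ := h.three c rfl
  have k := k1.sub (List.sublist_append_left s _)
  rw [show d₁ * d₂ * d₃ = [d₁, d₂, d₃].prod by simp [mul_assoc], H28.card_cent_prod hD.2.1 c (h.gts 3 le_rfl),
    h.card3 c rfl, show {s | H28.Clq D s ∧ s.length = [d₁, d₂, d₃].length ∧ s.prod = [d₁, d₂, d₃].prod} =
      (([d₁, d₂, d₃].permutations ++ s.permutations).toFinset : Set (List G)) from Set.ext fun t => by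
        rw [List.coe_toFinset, Set.mem_setOf_eq, Set.mem_setOf_eq, List.mem_append, List.mem_permutations,
          List.mem_permutations]
        exact ⟨fun ⟨a, b, e⟩ => k4 t a b e, fun q => q.elim (fun q => ⟨(c.perm q.symm).1, q.length_eq, (c.perm q.symm).2.symm⟩)
          fun q => ⟨(k.perm q.symm).1, q.length_eq.trans k2, (k.perm q.symm).2.symm.trans k3⟩⟩,
    Set.ncard_coe_finset, List.toFinset_card_of_nodup (List.nodup_append.2 ⟨List.nodup_permutations _ c.nodup,
      List.nodup_permutations _ k.nodup, ?_⟩), List.length_append, List.length_permutations, List.length_permutations, k2]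
  · norm_num [Nat.factorial]
  · rintro a ha b hb rfl
    exact List.disjoint_of_nodup_append k1.nodup (((List.mem_permutations.1 ha).symm.trans
      (List.mem_permutations.1 hb)).mem_iff.1 List.mem_cons_self) List.mem_cons_self

end Cfsg.Agent.S5470
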