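import Cfsg.Statements.S5471
import Cfsg.Agent.H28.Tw5
-- import your own Cfsg.Agent.* helpers here

set_option autoImplicit false
open Cfsg

namespace Cfsg.Agent.S5471

/-- Let G be a finite group with trivial centre generated by a conjugation-invariant set D of 3-transpositions on which it acts primitively, such that for some d in D the subgroup generated by the members of D other than d commuting with d has central largest normal 2- and 3-subgroups, and suppose G with D is of type M(23). Let d₁, d₂, d₃ be distinct pairwise commuting members of D and j their product. Then the joint centralizer of d₁, d₂, d₃ is normal in the centralizer of j with quotient isomorphic to the symmetric group of degree 3. -/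
theorem result {G : Type*} [Group G] [Finite G] {D : Set G} (hD : Cfsg.IsThreeTranspositionGroup D) (hprim : Cfsg.IsPrimitiveUnderConj D) (d₀ : G) (hd₀ : d₀ ∈ D) (h3 : Cfsg.pCore 3 ↥(Subgroup.closure {y : G | y ∈ D ∧ y ≠ d₀ ∧ Commute d₀ y}) ≤ Subgroup.center ↥(Subgroup.closure {y : G | y ∈ D ∧ y ≠ d₀ ∧ Commute d₀ y})) (h2 : Cfsg.pCore 2 ↥(Subgroup.closure {y : G | y ∈ D ∧ y ≠ d₀ ∧ Commute d₀ y}) ≤ Subgroup.center ↥(Subgroup.closure {y : G | y ∈ D ∧ y ≠ d₀ ∧ Commute d₀ y})) (h23 : Cfsg.IsOfTypeM23 G D) (d₁ d₂ d₃ : G) (h₁ : d₁ ∈ D) (h₂ : d₂ ∈ D) (h₃ : d₃ ∈ D) (h12 : d₁ ≠ d₂) (h13 : d₁ ≠ d₃) (h23 : d₂ ≠ d₃) (c12 : Commute d₁ d₂) (c13 : Commute d₁ d₃) (c23 : Commute d₂ d₃) (K C : Subgroup G) (hK : K = Subgroup.centralizer ({d₁, d₂, d₃} : Set G)) (hC : C = Subgroup.centralizer ({d₁ * d₂ * d₃} : Set G)) : K ≤ C ∧ ∃ _ : (K.subgroupOf C).Normal, Nonempty (↥C ⧸ K.subgroupOf C ≃* Equiv.Perm (Fin 3)) := by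
  have h := H28.m23_of hD ‹_›
  have c : H28.Clq D [d₁, d₂, d₃] := ⟨by simp [*], by simp [*]⟩
  obtain ⟨φ, a, b⟩ := H28.cent_prod hD.2.1 c (h.gts 3 (by norm_num)) fun l x y z =>
    (h.nr.perm3 hD.1 c x le_rfl (by rw [y]; exact le_rfl) z.symm).symm
  have e : [d₁, d₂, d₃].prod = d₁ * d₂ * d₃ := by simp [mul_assoc]
  rw [← H28.cn_three] at hK
  rw [← e] at hC
  subst hK hC
  haveI : ((H28.Cn [d₁, d₂, d₃]).subgroupOf (Subgroup.centralizer {[d₁, d₂, d₃].prod})).Normal := b ▸ φ.normal_ker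
  refine ⟨H28.cn_le_prod, this, ⟨(QuotientGroup.quotientMulEquivOfEq b.symm).trans
    (QuotientGroup.quotientKerEquivOfSurjective φ a)⟩⟩

end Cfsg.Agent.S5471
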