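import Mathlib
import Cfsg.Statements.S5515
import Cfsg.Agent.S2608
import Cfsg.Agent.S0296
import Cfsg.Agent.S1265

set_option autoImplicit false
open Cfsg

namespace Cfsg.Agent.S5515

open Subgroup Equiv

theorem six {H : Subgroup (Perm (Fin 4))} (h : Nat.card H = 6) : ∃ x : Perm (Fin 4), x ≠ 1 ∧ x ^ 3 = 1 ∧
    ∀ g, g ∈ H ↔ g * x * g⁻¹ = x ∨ g * x * g⁻¹ = x⁻¹ := by
  haveI := Fact.mk Nat.prime_three
  obtain ⟨x, hx⟩ := exists_prime_orderOf_dvd_card' (G := H) 3 (by rw [h]; norm_num)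
  have h1 : (zpowers x).index = 2 := by
    have := (zpowers x).card_mul_index
    rw [Nat.card_zpowers, hx, h] at this
    omega
  have h2 := normal_of_index_eq_two h1
  have h3 : (x : Perm (Fin 4)) ≠ 1 := fun e => by
    rw [show x = 1 from Subtype.ext e, orderOf_one] at hx; omega
  have h4 : (x : Perm (Fin 4)) ^ 3 = 1 := congrArg Subtype.val (hx ▸ pow_orderOf_eq_one x)
  have k1 : ∀ x : Perm (Fin 4), x ≠ 1 → x ^ 3 = 1 →
      (Finset.univ.filter fun g => g * x * g⁻¹ = x ∨ g * x * g⁻¹ = x⁻¹).card = 6 := by decide +kernel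
  have k2 : ∀ x g : Perm (Fin 4), x ≠ 1 → x ^ 3 = 1 → ∀ i : Fin 3, x ^ i.val = g * x * g⁻¹ →
      g * x * g⁻¹ = x ∨ g * x * g⁻¹ = x⁻¹ := by decide +kernel
  classical
  have h5 : Finset.univ.filter (· ∈ H) =
      Finset.univ.filter fun g : Perm (Fin 4) => g * x * g⁻¹ = x ∨ g * x * g⁻¹ = (x : Perm (Fin 4))⁻¹ := by
    refine Finset.eq_of_subset_of_card_le (fun g hg => ?_) ?_
    · obtain ⟨i, hi, e⟩ := Finset.mem_image.1 ((mem_zpowers_iff_mem_range_orderOf).1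
        (h2.conj_mem x (mem_zpowers x) ⟨g, (Finset.mem_filter.1 hg).2⟩))
      exact Finset.mem_filter.2 ⟨Finset.mem_univ _, k2 x g h3 h4 ⟨i, hx ▸ Finset.mem_range.1 hi⟩
        (congrArg Subtype.val e)⟩
    · rw [← Fintype.card_subtype (· ∈ H), ← Nat.card_eq_fintype_card, h]
      exact (k1 x h3 h4).le
  exact ⟨x, h3, h4, fun g => by simpa using Finset.ext_iff.1 h5 g⟩

theorem emb {G X S : Type*} [Group G] [Finite G] [Group X] [Group S] {N : Subgroup G} [N.Normal]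
    (hC : centralizer (N : Set G) ≤ N) (e : N ≃* X) (hZ : center X = ⊥) (θ : MulAut X →* S)
    (hθ : θ.ker = Cfsg.Inn X) : ∃ H : Subgroup S, Nat.card H = N.index ∧ Nonempty (G ≃* H.comap θ) := by
  let ψ : G →* MulAut X := (MulAut.congr e).toMonoidHom.comp MulAut.conjNormal
  have h1 : ∀ n : N, ψ n = MulAut.conj (e n) := fun n => MulEquiv.ext fun x => by
    obtain ⟨y, rfl⟩ := e.surjective x
    rw [MulAut.conj_apply, ← map_inv, ← map_mul, ← map_mul]
    show e (MulAut.conjNormal (n : G) (e.symm (e y))) = _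
    rw [e.symm_apply_apply]
    rfl
  have h2 : Function.Injective ψ := (injective_iff_map_eq_one ψ).2 fun g hg => by
    have h3 : (MulAut.conjNormal g : MulAut N) = 1 := (MulAut.congr e).map_eq_one_iff.1 hg
    have h4 : g ∈ N := hC fun n hn => by
      have := congrArg Subtype.val (MulEquiv.congr_fun h3 ⟨n, hn⟩)
      exact (mul_inv_eq_iff_eq_mul.1 this).symm
    have h5 : e ⟨g, h4⟩ ∈ center X := mem_center_iff.2 fun y => by
      have := MulEquiv.congr_fun ((h1 ⟨g, h4⟩).symm.trans hg) y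
      exact (mul_inv_eq_iff_eq_mul.1 this).symm
    rw [hZ, mem_bot, e.map_eq_one_iff] at h5
    exact congrArg Subtype.val h5
  have h6 : θ.ker ≤ ψ.range := by
    rw [hθ]
    rintro _ ⟨x, rfl⟩
    exact ⟨e.symm x, by rw [h1, e.apply_symm_apply]⟩
  refine ⟨ψ.range.map θ, ?_, ⟨(MonoidHom.ofInjective h2).trans (MulEquiv.subgroupCongr ?_)⟩⟩
  · rw [MonoidHom.map_range, ← index_ker]
    congr 1
    ext g
    rw [MonoidHom.mem_ker, MonoidHom.comp_apply, ← MonoidHom.mem_ker, hθ]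
    refine ⟨?_, fun h => ⟨_, (h1 ⟨g, h⟩).symm⟩⟩
    rintro ⟨x, hx⟩
    rw [← e.apply_symm_apply x, ← h1] at hx
    exact h2 hx ▸ (e.symm x).2
  · rw [comap_map_eq, sup_eq_left.2 h6]

theorem main {G G' X : Type*} [Group G] [Finite G] [Group G'] [Finite G'] [Group X] [IsSimpleGroup X]
    (e : Cfsg.generalizedFittingSubgroup G ≃* X) (e' : Cfsg.generalizedFittingSubgroup G' ≃* X)
    [(Cfsg.generalizedFittingSubgroup G).Normal] [(Cfsg.generalizedFittingSubgroup G').Normal]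
    (q : G ⧸ Cfsg.generalizedFittingSubgroup G ≃* Perm (Fin 3))
    (q' : G' ⧸ Cfsg.generalizedFittingSubgroup G' ≃* Perm (Fin 3))
    (o : Cfsg.Out X ≃* Perm (Fin 4) × Multiplicative (ZMod 1)) : Nonempty (G ≃* G') := by
  let θ : MulAut X →* Perm (Fin 4) :=
    ((MonoidHom.fst _ _).comp o.toMonoidHom).comp (QuotientGroup.mk' (Cfsg.Inn X))
  have hθ : θ.ker = Cfsg.Inn X := by
    ext a
    rw [← QuotientGroup.eq_one_iff (N := Cfsg.Inn X), ← o.map_eq_one_iff, Prod.ext_iff]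
    exact ⟨fun h => ⟨h, Subsingleton.elim _ _⟩, fun h => h.1⟩
  have hs : Function.Surjective θ := fun s => by
    obtain ⟨a, ha⟩ := QuotientGroup.mk'_surjective (Cfsg.Inn X) (o.symm (s, 1))
    exact ⟨a, by simp only [θ, MonoidHom.comp_apply, ha]; simp⟩
  have hZ : center X = ⊥ := by
    refine (IsSimpleGroup.eq_bot_or_eq_top_of_normal _ inferInstance).resolve_right fun h => ?_
    letI : CommGroup X := { (inferInstance : Group X) with
      mul_comm := fun a b => (mem_center_iff.1 (h.ge (mem_top b)) a) }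
    obtain ⟨g, hg⟩ := IsCyclic.exists_generator (α := X)
    obtain ⟨a, ha⟩ := hs (swap 0 1)
    obtain ⟨b, hb⟩ := hs (swap 1 2)
    obtain ⟨i, hi⟩ := hg (a g)
    obtain ⟨j, hj⟩ := hg (b g)
    have : a * b = b * a := MulEquiv.ext fun x => by
      obtain ⟨k, rfl⟩ := hg x
      simp only [map_zpow, MulAut.mul_apply, ← hj, ← hi, ← zpow_mul, mul_comm i j]
    have h2 := congrArg θ this
    rw [map_mul, map_mul, ha, hb] at h2
    exact absurd h2 (by decide)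
  obtain ⟨H, h1, ⟨f⟩⟩ := emb Cfsg.Agent.S1265.result e hZ θ hθ
  obtain ⟨H', h1', ⟨f'⟩⟩ := emb Cfsg.Agent.S1265.result e' hZ θ hθ
  have h6 : Nat.card (Perm (Fin 3)) = 6 := by rw [Nat.card_perm, Nat.card_fin]; rfl
  obtain ⟨x, a1, a2, a3⟩ := six (h1.trans ((Nat.card_congr q.toEquiv).trans h6))
  obtain ⟨y, b1, b2, b3⟩ := six (h1'.trans ((Nat.card_congr q'.toEquiv).trans h6))
  have k : ∀ x y : Perm (Fin 4), x ≠ 1 → x ^ 3 = 1 → y ≠ 1 → y ^ 3 = 1 → ∃ c, ∀ g,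
      (g * x * g⁻¹ = x ∨ g * x * g⁻¹ = x⁻¹) ↔
      (c * g * c⁻¹ * y * (c * g * c⁻¹)⁻¹ = y ∨ c * g * c⁻¹ * y * (c * g * c⁻¹)⁻¹ = y⁻¹) := by decide +kernel
  obtain ⟨c, hc⟩ := k x y a1 a2 b1 b2
  obtain ⟨a, rfl⟩ := hs c
  refine ⟨f.trans (((MulAut.conj a).subgroupMap _).trans ((MulEquiv.subgroupCongr ?_).trans f'.symm))⟩
  ext g
  obtain ⟨g, rfl⟩ := (MulAut.conj a).surjective g
  refine (mem_map_iff_mem (f := (MulAut.conj a).toMonoidHom) (MulAut.conj a).injective).trans ?_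
  rw [mem_comap, mem_comap, a3, b3, hc, MulAut.conj_apply, map_mul,
    map_mul, map_inv]

theorem result {G G' : Type*} [Group G] [Finite G] [Group G'] [Finite G'] (hF : Nonempty (↥(Cfsg.generalizedFittingSubgroup G) ≃* Cfsg.POmega (ZMod 3) (Cfsg.quadFormPlus 4 (ZMod 3)))) (hF' : Nonempty (↥(Cfsg.generalizedFittingSubgroup G') ≃* Cfsg.POmega (ZMod 3) (Cfsg.quadFormPlus 4 (ZMod 3)))) [hn : (Cfsg.generalizedFittingSubgroup G).Normal] [hn' : (Cfsg.generalizedFittingSubgroup G').Normal] (hq : Nonempty (G ⧸ Cfsg.generalizedFittingSubgroup G ≃* Equiv.Perm (Fin 3))) (hq' : Nonempty (G' ⧸ Cfsg.generalizedFittingSubgroup G' ≃* Equiv.Perm (Fin 3))) : Nonempty (G ≃* G') := by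
  haveI := Fact.mk Nat.prime_three
  obtain ⟨e⟩ := hF
  obtain ⟨e'⟩ := hF'
  obtain ⟨q⟩ := hq
  obtain ⟨q'⟩ := hq'
  have h0 := Cfsg.Agent.S2608.result (F := ZMod 3) (p := 3) (f := 1) (m := 4) le_rfl (by simp) (by norm_num) le_rfl
  rw [if_pos rfl] at h0
  obtain ⟨o⟩ := h0
  haveI := Cfsg.Agent.S0296.result (F := ZMod 3) 4 le_rfl
  exact main e e' q q' o

end Cfsg.Agent.S5515
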