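import Cfsg.Statements.S5517
import Cfsg.Agent.H28.Np2
-- import your own Cfsg.Agent.* helpers here

set_option autoImplicit false
open Cfsg

namespace Cfsg.Agent.S5517

/-- Let G be a finite group with trivial centre generated by a conjugation-invariant set D of 3-transpositions on which it acts primitively, such that for some d in D the subgroup generated by the members of D other than d commuting with d has central largest normal 2- and 3-subgroups, and suppose G with D is of type M(22). Then G has a subgroup L generated by the members of D it contains and isomorphic to Ω(7, 3) (the commutator subgroup of the isometry group of a non-degenerate 7-dimensional quadratic form over the field with three elements, modulo its centre), and every Sylow 3-subgroup of L is a Sylow 3-subgroup of G. -/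
theorem result {G : Type*} [Group G] [Finite G] {D : Set G} (hD : Cfsg.IsThreeTranspositionGroup D) (hprim : Cfsg.IsPrimitiveUnderConj D) (d₀ : G) (hd₀ : d₀ ∈ D) (h3 : Cfsg.pCore 3 ↥(Subgroup.closure {y : G | y ∈ D ∧ y ≠ d₀ ∧ Commute d₀ y}) ≤ Subgroup.center ↥(Subgroup.closure {y : G | y ∈ D ∧ y ≠ d₀ ∧ Commute d₀ y})) (h2 : Cfsg.pCore 2 ↥(Subgroup.closure {y : G | y ∈ D ∧ y ≠ d₀ ∧ Commute d₀ y}) ≤ Subgroup.center ↥(Subgroup.closure {y : G | y ∈ D ∧ y ≠ d₀ ∧ Commute d₀ y})) (h22 : Cfsg.IsOfTypeM22 G D) : ∃ L : Subgroup G, Cfsg.IsDSubgroup D L ∧ Nonempty (↥L ≃* Cfsg.POmega (ZMod 3) (Cfsg.quadFormOdd 3 (ZMod 3))) ∧ ∀ P : Sylow 3 ↥L, ∃ P' : Sylow 3 G, (P : Subgroup ↥L).map L.subtype = (P' : Subgroup G) := by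
  obtain ⟨f, hf⟩ := H28.uniq22 hD h22
  obtain ⟨a, ha, d, hd, n, -⟩ := H28.m23.npt
  obtain ⟨l, -, ⟨e⟩⟩ := H28.m23.line ha hd n
  obtain ⟨π, r⟩ := H28.lv23.res a ha
  obtain ⟨L, k, q, -⟩ := (r.post f.symm).push H28.m23.tt ha hd n l.gen
  refine ⟨L, H28.symm_image f hf ▸ q, ⟨k.symm.trans e⟩, fun P => ⟨Sylow.ofCard (P.1.map L.subtype) ?_, rfl⟩⟩
  have c : ∀ m : ℕ, ¬ 3 ∣ m → (3 ^ 9 * m).factorization 3 = 9 := fun m hm => by
    rw [Nat.factorization_mul (by norm_num) (by rintro rfl; simp at hm), Nat.Prime.factorization_pow Nat.prime_three]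
    simp [Nat.factorization_eq_zero_of_not_dvd hm]
  rw [Subgroup.card_map_of_injective L.subtype_injective, P.card_eq_multiplicity, Nat.card_congr (k.symm.trans e).toEquiv,
    H28.card_o7, (H28.m22_of hD h22).card]
  exact congrArg _ ((c 232960 (by norm_num)).trans (c 3280076800 (by norm_num)).symm)

end Cfsg.Agent.S5517
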