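import Cfsg.Statements.S5519
import Cfsg.Agent.H28.Tz4
import Cfsg.Agent.H13.Ess3
-- import your own Cfsg.Agent.* helpers here

set_option autoImplicit false
open Cfsg

namespace Cfsg.Agent.S5519

theorem hyper {G : Type*} [Group G] [Finite G] {z d : G} (h0 : ∀ x, x * z = z * x) (h1 : ∀ x y : G, x * y = y * x ∨ x * y = y * x * z)
    (h2 : ∀ x : G, x * x = 1 ∨ x * x = z) (o : orderOf z = 2) (d1 : d ≠ 1) (dz : d ≠ z) :
    ∃ H : Subgroup G, H.index = 2 ∧ z ∈ H ∧ d ∉ H := by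
  obtain ⟨H, ⟨a, b⟩, m⟩ := Set.Finite.exists_maximal (s := {H : Subgroup G | z ∈ H ∧ d ∉ H}) (Set.toFinite _)
    ⟨Subgroup.zpowers z, Subgroup.mem_zpowers z, by rw [H13.mem_zpowers_two o]; tauto⟩
  have : H.Normal := ⟨fun x hx g => by
    rcases h1 g x with e | e <;> rw [e]
    · simpa using hx
    · simpa [mul_assoc, h0 g, ← mul_assoc z] using mul_mem hx a⟩
  have s : ∀ x : G, x * x ∈ H := fun x => (h2 x).elim (fun e => e ▸ one_mem _) fun e => e ▸ a
  refine ⟨H, Subgroup.index_eq_two_iff'.2 ⟨d, fun x => ?_⟩, a, b⟩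
  by_cases q : x ∈ H
  · exact .inr ⟨q, by rwa [mul_mem_cancel_right q]⟩
  have k : d ∈ (Subgroup.zpowers (x : G ⧸ H)).comap (QuotientGroup.mk' H) := by_contra fun n => q (m ⟨Subgroup.mem_comap.2 (by
      rw [QuotientGroup.mk'_apply, (QuotientGroup.eq_one_iff z).2 a]; exact one_mem _), n⟩ (fun y hy => Subgroup.mem_comap.2 (by
      rw [QuotientGroup.mk'_apply, (QuotientGroup.eq_one_iff y).2 hy]; exact one_mem _)) (Subgroup.mem_zpowers (x : G ⧸ H)))
  rw [Subgroup.mem_comap, H13.mem_zpowers_two (orderOf_eq_prime ((pow_two _).trans ((QuotientGroup.eq_one_iff (x * x)).2 (s x)))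
    (mt (QuotientGroup.eq_one_iff x).1 q)), QuotientGroup.mk'_apply, QuotientGroup.eq_one_iff, QuotientGroup.eq] at k
  exact .inl ⟨by simpa [mul_assoc] using mul_mem (s d) (k.resolve_left b), q⟩

/-- Let G be a finite group with trivial centre generated by a conjugation-invariant set D of 3-transpositions on which it acts primitively, such that for some d in D the subgroup generated by the members of D other than d commuting with d has central largest normal 2- and 3-subgroups, and suppose G with D is of type M(22). Let d₁, d₂ be distinct commuting members of D and C the centralizer of their product. Then the generalized Fitting subgroup of C is the direct product of a group of order 2 and an extraspecial 2-group of order 2^9, and C modulo it is isomorphic to the full isometry group of the elliptic quadratic form in dimension 6 over the field with two elements. -/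
theorem result {G : Type*} [Group G] [Finite G] {D : Set G} (hD : Cfsg.IsThreeTranspositionGroup D) (hprim : Cfsg.IsPrimitiveUnderConj D) (d₀ : G) (hd₀ : d₀ ∈ D) (h3 : Cfsg.pCore 3 ↥(Subgroup.closure {y : G | y ∈ D ∧ y ≠ d₀ ∧ Commute d₀ y}) ≤ Subgroup.center ↥(Subgroup.closure {y : G | y ∈ D ∧ y ≠ d₀ ∧ Commute d₀ y})) (h2 : Cfsg.pCore 2 ↥(Subgroup.closure {y : G | y ∈ D ∧ y ≠ d₀ ∧ Commute d₀ y}) ≤ Subgroup.center ↥(Subgroup.closure {y : G | y ∈ D ∧ y ≠ d₀ ∧ Commute d₀ y})) (h22 : Cfsg.IsOfTypeM22 G D) (d₁ d₂ : G) (h₁ : d₁ ∈ D) (h₂ : d₂ ∈ D) (hne : d₁ ≠ d₂) (hc : Commute d₁ d₂) (C : Subgroup G) (hC : C = Subgroup.centralizer ({d₁ * d₂} : Set G)) [hn : (Cfsg.generalizedFittingSubgroup ↥C).Normal] : (∃ (E : Type) (_ : Group E) (_ : Finite E), Cfsg.IsExtraspecial 2 E ∧ Nat.card E = 2 ^ 9 ∧ Nonempty (↥(Cfsg.generalizedFittingSubgroup ↥C) ≃* Multiplicative (ZMod 2) × E)) ∧ Nonempty (↥C ⧸ Cfsg.generalizedFittingSubgroup ↥C ≃* Cfsg.isometryGroup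 (ZMod 2) (Cfsg.quadFormMinus 2 (ZMod 2) 1 1)) := by
  have h := H28.m22_of hD h22
  have c : H28.Clq D [d₁, d₂] := ⟨by simp [*], by simp [*]⟩
  obtain ⟨σ, E, Ψ, f, -, -, -, s, k, cE, VE, EK, -, -, com, sq, cV⟩ := h.tz2 c
  subst hC
  have KC : H28.Cn [d₁, d₂] ≤ Subgroup.centralizer {d₁ * d₂} := by simpa using H28.cn_le_prod (l := [d₁, d₂])
  have m1 : d₁ ∈ E := VE (H27.mem_cl (by simp))
  have mz : d₁ * d₂ ∈ E := mul_mem m1 (VE (H27.mem_cl (by simp)))
  have z1 : d₁ * d₂ ≠ 1 := mt (H28.tt_eq_of_mul_eq_one hD.1 h₁) hne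
  have cz : ∀ x : E, x * ⟨_, mz⟩ = ⟨_, mz⟩ * x := fun x => Subtype.ext (H28.mem_cent1.1 (KC (EK x.2))).symm
  have o : orderOf (⟨_, mz⟩ : E) = 2 := orderOf_eq_prime ((pow_two _).trans (Subtype.ext f.zz)) fun e => z1 (congrArg Subtype.val e)
  have com' : ∀ x y : E, x * y = y * x ∨ x * y = y * x * ⟨_, mz⟩ := fun x y => (com _ x.2 _ y.2).imp Subtype.ext Subtype.ext
  have sq' : ∀ x : E, x * x = 1 ∨ x * x = ⟨_, mz⟩ := fun x => (sq _ x.2).imp Subtype.ext Subtype.ext
  obtain ⟨H, i, a, b⟩ := hyper (d := ⟨_, m1⟩) cz com' sq' o (fun e => H28.tt_ne_one hD.1 h₁ (congrArg Subtype.val e))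
    fun e => H28.tt_ne_one hD.1 h₂ (left_eq_mul.1 (congrArg Subtype.val e))
  have cH := H.index_mul_card
  have c1 : ∀ x : E, Commute x ⟨_, m1⟩ := fun x => Subtype.ext (H28.mem_cn.1 (EK x.2) _ (by simp)).symm
  obtain ⟨q⟩ := H13.equiv_prod_zmod (p := 2) (fun x _ => c1 x) ((pow_two _).trans (Subtype.ext (H28.tt_sq hD.1 h₁))) b
    (by rw [← cH, i])
  rw [i, cE] at cH
  have o' : orderOf (⟨_, a⟩ : H) = 2 := (Subgroup.orderOf_coe _).symm.trans o
  have m : ∀ x : H, x ∈ Subgroup.zpowers (⟨_, a⟩ : H) ↔ x.1 = 1 ∨ x.1 = ⟨_, mz⟩ := fun x => by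
    rw [H13.mem_zpowers_two o', Subtype.ext_iff, Subtype.ext_iff (a1 := x)]; rfl
  have es : IsExtraspecial 2 H := H3.IsES.isExtraspecial (z := ⟨_, a⟩) ⟨o', Subgroup.mem_center_iff.2 fun x => Subtype.ext (cz x), trivial,
    fun x _ y _ => (m _).2 ((com' x y).imp (fun e => (commutatorElement_eq_one_iff_mul_comm (g₁ := x.1) (g₂ := y.1)).2 e) fun e => by
      change x.1 * y * x.1⁻¹ * y.1⁻¹ = _
      rw [e, cz]; group), fun x _ => (m _).2 (by simpa [pow_two] using sq' x), fun x _ hx => (m _).2 (by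
      have v := cV x.1 fun y hy => by
        refine congrArg Subtype.val (show Commute (⟨y, hy⟩ : E) x from ?_)
        by_cases u : (⟨y, hy⟩ : E) ∈ H
        · exact (congrArg Subtype.val (hx ⟨_, u⟩ trivial)).symm
        · have : Commute x.1 (_ * _) := congrArg Subtype.val
            (hx ⟨_, (Subgroup.mul_mem_iff_of_index_two i).2 (iff_of_false u b)⟩ trivial)
          simpa only [mul_inv_cancel_right] using (this.mul_right (c1 x).inv_right).symm
      have s2 : ∀ y, y ∈ H27.cl [d₂] ↔ y = 1 ∨ y = d₂ := fun y => by rw [H28.cl_one, H13.mem_zpowers_two (hD.1.1 _ h₂)]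
      rw [H28.mem_cl_cons_sq (H28.tt_sq hD.1 h₁) (H28.mem_cn.2 (by simpa using hc.symm)), s2, s2] at v
      rcases v with (v | v) | v | v
      · exact .inl (Subtype.ext v)
      · exact absurd ((show (⟨_, mz⟩ : E) * x.1⁻¹ = ⟨_, m1⟩ from Subtype.ext (by simp [v])) ▸ mul_mem a (inv_mem x.2)) b
      · exact absurd ((show x.1⁻¹ = ⟨_, m1⟩ from Subtype.ext (eq_inv_of_mul_eq_one_left v).symm) ▸ inv_mem x.2) b
      · exact .inr (Subtype.ext ((H28.tt_mul_mul hD.1 h₁ _).symm.trans (congrArg _ v))))⟩ fun e => by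
    have := Nat.card_zpowers (⟨_, a⟩ : H)
    rw [e, Subgroup.card_top, o'] at this
    omega
  have e : E.subgroupOf _ = Ψ.ker := Subgroup.ext fun x => (k x).symm
  have pg : IsPGroup 2 Ψ.ker := e ▸ (IsPGroup.of_card (n := 10) cE).comap_subtype
  have pc : pCore 2 _ = Ψ.ker := le_antisymm (fun x hx => H28.p5_equiv.2.2.le (H1.map_pCore_le 2 s ⟨x, hx, rfl⟩)) (H1.le_pCore pg)
  have F : generalizedFittingSubgroup _ = Ψ.ker := (H5.fstar_eq_pCore_iff_centralizer.2 (pc ▸ fun x hx => (k x).2 (VE (cV x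
    fun y hy => congrArg Subtype.val (hx ⟨y, KC (EK hy)⟩ ((k _).2 hy)))))).trans pc
  let t : Shrink.{0} H ≃* H := Shrink.mulEquiv
  exact ⟨⟨Shrink.{0} H, inferInstance, Finite.of_equiv _ t.symm.toEquiv, H7.isExtraspecial_of_equiv es t.symm,
    by rw [Nat.card_congr t.toEquiv]; omega, ⟨(MulEquiv.subgroupCongr (F.trans e.symm)).trans ((Subgroup.subgroupOfEquivOfLe
      (EK.trans KC)).trans (q.trans ((t.symm.prodCongr (MulEquiv.refl _)).trans MulEquiv.prodComm)))⟩⟩,
    ⟨(QuotientGroup.quotientMulEquivOfEq F).trans ((QuotientGroup.quotientKerEquivOfSurjective Ψ s).trans H28.p5_equiv.1.some)⟩⟩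

end Cfsg.Agent.S5519
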