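import Cfsg.Statements.S5520
import Cfsg.Agent.H13.SU6

set_option autoImplicit false
open Cfsg

namespace Cfsg.Agent.S5520

open H13

open Subgroup H22
open scoped Pointwise

/-- In the special unitary group of dimension 6 over the field with four elements (determinant-one matrices preserving the standard Hermitian form), the subgroups K whose centre has order 3 with K modulo its centre isomorphic to the projective special unitary group of dimension 4 over the field with nine elements fall into exactly three conjugacy classes. -/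
theorem result (F : Type) [Field F] [Fintype F] (hF : Fintype.card F = 4) (F9 : Type) [Field F9] [Fintype F9] (hF9 : Fintype.card F9 = 9) : ∃ K₁ K₂ K₃ : Subgroup ↥(Cfsg.SU 6 F 2), (∀ K ∈ [K₁, K₂, K₃], Nat.card ↥(Subgroup.center ↥K) = 3 ∧ Nonempty (↥K ⧸ Subgroup.center ↥K ≃* Cfsg.PSU 4 F9 3)) ∧ (¬ ∃ g : ↥(Cfsg.SU 6 F 2), K₁.map (MulAut.conj g).toMonoidHom = K₂) ∧ (¬ ∃ g : ↥(Cfsg.SU 6 F 2), K₁.map (MulAut.conj g).toMonoidHom = K₃) ∧ (¬ ∃ g : ↥(Cfsg.SU 6 F 2), K₂.map (MulAut.conj g).toMonoidHom = K₃) ∧ ∀ K : Subgroup ↥(Cfsg.SU 6 F 2), Nat.card ↥(Subgroup.center ↥K) = 3 → Nonempty (↥K ⧸ Subgroup.center ↥K ≃* Cfsg.PSU 4 F9 3) → ∃ g : ↥(Cfsg.SU 6 F 2), K.map (MulAut.conj g).toMonoidHom = K₁ ∨ K.map (MulAut.conj g).toMonoidHom = K₂ ∨ K.map (MulAut.conj g).toMonoidHom = K₃ := by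
  obtain ⟨ι, j, r⟩ := exists_su6 F hF
  obtain ⟨f, s, k⟩ := M0_quot F9 hF9
  let d := dg6 ![th, 1, 1, 1, 1, 1] (by decide)
  have d1 : d ∈ GU6 := ⟨dg6_O6 _ _, dg6_lin _ _⟩
  have d2 : (det6 ⟨d, d1.2⟩ : GF4) = th := (LinearEquiv.coe_det _).trans ((congrArg LinearMap.det (LinearMap.ext fun v =>
    funext fun i => (Matrix.mulVec_diagonal _ v i).symm)).trans ((LinearMap.det_toLin' _).trans
      (Matrix.det_diagonal.trans (by decide))))
  have cj : ∀ {g}, g ∈ GU6 → ∀ {s}, s ∈ SU6 → g * s * g⁻¹ ∈ SU6 := fun {g} a {s} b =>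
    (mem_SU6 (mul_mem (mul_mem a (SU6_le b)) (inv_mem a))).2 (by
      change det6 (⟨g, a.2⟩ * ⟨s, (SU6_le b).2⟩ * ⟨g, a.2⟩⁻¹) = 1
      rw [map_mul, map_mul, (mem_SU6 (SU6_le b)).1 b, mul_one, map_inv, mul_inv_cancel])
  let K := fun n : ℕ => (MulAut.conj (d ^ n) • M0).comap ι
  have m : ∀ n, (K n).map ι = MulAut.conj (d ^ n) • M0 := fun n => map_comap_eq_self (by
    rintro _ ⟨g, a, rfl⟩; exact r ▸ cj (pow_mem d1 n) (M0_SU6 a))
  have c : ∀ (g : SU 6 F 2) (L : Subgroup (SU 6 F 2)), (L.map (MulAut.conj g).toMonoidHom).map ι = MulAut.conj (ι g) • L.map ι :=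
    fun g L => (map_map ..).trans ((congrArg (L.map ·) (MonoidHom.ext fun x => by simp)).trans (map_map ..).symm)
  have n : ∀ a b, (∃ g, (K a).map (MulAut.conj g).toMonoidHom = K b) → th ^ a = th ^ b := fun a b ⟨g, e⟩ => by
    have e := congrArg (map ι) e
    have u : ι g ∈ SU6 := r ▸ ⟨g, rfl⟩
    have v := mul_mem (mul_mem (inv_mem (pow_mem d1 b)) (SU6_le u)) (pow_mem d1 a)
    rw [c, m, m, ← inv_smul_eq_iff, ← map_inv, ← mul_smul, ← mul_smul, ← map_mul, ← map_mul] at e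
    have : det6 ((⟨d, d1.2⟩ ^ b)⁻¹ * ⟨_, (SU6_le u).2⟩ * ⟨d, d1.2⟩ ^ a) = 1 :=
      (mem_SU6 v).1 (nrm_SU6 v (H1.mem_normalizer_iff_smul.2 e))
    rw [map_mul, map_mul, (mem_SU6 (SU6_le u)).1 u, mul_one, map_inv, inv_mul_eq_one, map_pow, map_pow] at this
    simpa [d2] using congrArg Units.val this.symm
  have z : f.ker = center M0 := Subgroup.ext fun g => (k g).trans ⟨fun ⟨i, a⟩ => mem_center_iff.2 fun x => Subtype.ext
    ((show thL ^ i = g.1 from a) ▸ (Commute.zpow_right (mem_Cz.1 (M0_lin x.2)) i).eq :), fun a => cen_M0 fun x b =>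
      congrArg Subtype.val (mem_center_iff.1 a ⟨x, b⟩)⟩
  have g : ∀ n, Nat.card (center (K n)) = 3 ∧ Nonempty (K n ⧸ center (K n) ≃* PSU 4 F9 3) := fun n => by
    have e : K n ≃* M0 := ((K n).equivMapOfInjective ι j).trans ((MulEquiv.subgroupCongr (m n)).trans
      (equivSMul _ M0).symm)
    refine ⟨(Nat.card_congr (centerCongr e).toEquiv).trans ?_, ⟨(quotCenterCongr e).trans
      ((QuotientGroup.quotientMulEquivOfEq z.symm).trans (QuotientGroup.quotientKerEquivOfSurjective f s))⟩⟩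
    rw [← z, show f.ker = (zpowers thL).subgroupOf M0 from Subgroup.ext k, H1.card_subgroupOf_of_le (zpowers_le.2 thL_M0),
      Nat.card_zpowers, ord_thL]
  refine ⟨K 0, K 1, K 2, by simpa only [List.forall_mem_cons] using ⟨g 0, g 1, g 2, by simp⟩, mt (n 0 1) (by decide),
    mt (n 0 2) (by decide), mt (n 1 2) (by decide), fun L a ⟨e⟩ => ?_⟩
  let i := (L.equivMapOfInjective ι j).symm
  obtain ⟨t, u, v⟩ := cls6 ((map_le_range ι L).trans (r.le.trans SU6_le)) hF9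
    (f := e.toMonoidHom.comp ((QuotientGroup.mk' _).comp i.toMonoidHom))
    (e.surjective.comp ((QuotientGroup.mk'_surjective _).comp i.surjective)) (by
      rw [MonoidHom.ker_comp_of_injective _ _ e.injective, ← MonoidHom.comap_ker, QuotientGroup.ker_mk', ← a]
      exact Nat.card_congr (i.toEquiv.subtypeEquiv fun _ => Iff.rfl))
  obtain ⟨b, l, w⟩ := (by decide : ∀ c : GF4ˣ, ∃ b < 3, th ^ b = c) (det6 ⟨t, u.2⟩)
  have x := mul_mem (pow_mem d1 b) (inv_mem u)
  obtain ⟨y, hy⟩ := r.ge ((mem_SU6 x).2 (by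
    change det6 (⟨d, d1.2⟩ ^ b * ⟨t, u.2⟩⁻¹) = 1
    rw [map_mul, map_inv, mul_inv_eq_one, map_pow]
    exact Units.ext (by simpa [d2] using w)))
  have : L.map (MulAut.conj y).toMonoidHom = K b := map_injective j (by
    rw [c, m, v, hy, ← mul_smul, ← map_mul, inv_mul_cancel_right])
  exact ⟨y, by interval_cases b <;> simp only [this, true_or, or_true]⟩

end Cfsg.Agent.S5520
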