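import Mathlib
import Cfsg.Statements.S5541

set_option autoImplicit false
open Cfsg

namespace Cfsg.Agent.S5541

theorem result {H : Type*} [Group H] {U : Type*} [AddCommGroup U] [Module ℝ U] [FiniteDimensional ℝ U] (ρ : Representation ℝ H U) (hirr : ∀ W : Submodule ℝ U, (∀ g : H, W.map (ρ g) ≤ W) → W = ⊥ ∨ W = ⊤) (B : LinearMap.BilinForm ℝ U) (hB0 : B ≠ 0) (hBs : ∀ u v, B u v = B v u) (hBi : ∀ (g : H) (u v : U), B (ρ g u) (ρ g v) = B u v) : (∃ m : U →ₗ[ℝ] U →ₗ[ℝ] U, m ≠ 0 ∧ (∀ u v, m u v = m v u) ∧ (∀ (g : H) (u v : U), m (ρ g u) (ρ g v) = ρ g (m u v)) ∧ ∀ m' : U →ₗ[ℝ] U →ₗ[ℝ] U, (∀ (g : H) (u v : U), m' (ρ g u) (ρ g v) = ρ g (m' u v)) → ∃ c : ℝ, m' = c • m) ↔ (∃ t : U →ₗ[ℝ] U →ₗ[ℝ] U →ₗ[ℝ] ℝ, t ≠ 0 ∧ (∀ u v w, t u v w = t v u w ∧ t u v w = t u w v) ∧ (∀ (g : H) (u v w : U), t (ρ g u) (ρ g v) (ρ g w) = t u v w) ∧ ∀ t' : U →ₗ[ℝ] U →ₗ[ℝ] U →ₗ[ℝ] ℝ, (∀ (g : H) (u v w : U), t' (ρ g u) (ρ g v) (ρ g w)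 = t' u v w) → ∃ c : ℝ, t' = c • t) := by
  have nd : B.Nondegenerate := by
    have k : LinearMap.ker B = ⊥ := (hirr _ fun g => by
      rintro _ ⟨u, hu, rfl⟩
      refine LinearMap.mem_ker.2 (LinearMap.ext fun v => ?_)
      have := hBi g u (ρ g⁻¹ v)
      rw [Representation.self_inv_apply, LinearMap.mem_ker.1 hu] at this
      exact this).resolve_right fun h => hB0 (LinearMap.ker_eq_top.1 h)
    exact (LinearMap.IsRefl.nondegenerate_iff_separatingLeft fun u v h => (hBs v u).trans h).2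
      (LinearMap.separatingLeft_iff_ker_eq_bot.2 k)
  let e := B.toDual nd
  have he : ∀ u v, e u v = B u v := fun _ _ => rfl
  let T : (U →ₗ[ℝ] U →ₗ[ℝ] U) → U →ₗ[ℝ] U →ₗ[ℝ] U →ₗ[ℝ] ℝ := fun m => m.compr₂ e.toLinearMap
  let M : (U →ₗ[ℝ] U →ₗ[ℝ] U →ₗ[ℝ] ℝ) → U →ₗ[ℝ] U →ₗ[ℝ] U := fun t => t.compr₂ e.symm.toLinearMap
  have hT : ∀ m u v w, T m u v w = B (m u v) w := fun _ _ _ _ => rfl
  have hM : ∀ t u v w, B (M t u v) w = t u v w := fun t u v w => by
    rw [← he]; simp [M]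
  have ex : ∀ {x y : U}, (∀ w, B x w = B y w) → x = y := fun h => e.injective (LinearMap.ext h)
  have iT : ∀ m : U →ₗ[ℝ] U →ₗ[ℝ] U, (∀ (g : H) (u v : U), m (ρ g u) (ρ g v) = ρ g (m u v)) →
      ∀ (g : H) (u v w : U), T m (ρ g u) (ρ g v) (ρ g w) = T m u v w := fun m h g u v w => by
    rw [hT, hT, h, hBi]
  have iM : ∀ t : U →ₗ[ℝ] U →ₗ[ℝ] U →ₗ[ℝ] ℝ,
      (∀ (g : H) (u v w : U), t (ρ g u) (ρ g v) (ρ g w) = t u v w) →
      ∀ (g : H) (u v : U), M t (ρ g u) (ρ g v) = ρ g (M t u v) := fun t h g u v => ex fun w => by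
    rw [← ρ.self_inv_apply g w, hBi, hM, hM, h]
  constructor
  · rintro ⟨m, h0, hc, hi, hu⟩
    have all : ∀ t' : U →ₗ[ℝ] U →ₗ[ℝ] U →ₗ[ℝ] ℝ,
        (∀ (g : H) (u v w : U), t' (ρ g u) (ρ g v) (ρ g w) = t' u v w) → ∃ c : ℝ, t' = c • T m :=
      fun t h => (hu _ (iM t h)).imp fun c hc => by
        ext u v w
        rw [← hM, hc]; simp [hT]
    have t0 : T m ≠ 0 := fun h => h0 (by
      ext u v
      exact ex fun w => by rw [← hT, h]; simp)
    have s1 : ∀ u v w, T m u v w = T m v u w := fun u v w => by rw [hT, hT, hc]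
    obtain ⟨c, hc'⟩ := all ((T m).compr₂ LinearMap.id ∘ₗ LinearMap.id |>.flip.flip |>
      (LinearMap.lflip.toLinearMap ∘ₗ ·)) fun g u v w => iT m hi g u w v
    have k : ∀ u v w, T m u w v = c * T m u v w := fun u v w =>
      congrArg (fun t : U →ₗ[ℝ] U →ₗ[ℝ] U →ₗ[ℝ] ℝ => t u v w) hc'
    refine ⟨T m, t0, fun u v w => ⟨s1 u v w, ?_⟩, iT m hi, all⟩
    have c1 : c = 1 := by
      by_contra h1
      refine t0 ?_
      ext u v w
      have a1 := k u v w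
      have a2 := k u w v
      have a3 := k v w u
      have a4 := k w v u
      have a5 := s1 u v w
      have a6 := s1 u w v
      have a7 := s1 v w u
      have : (c - 1) * T m u v w = 0 := by
        have b : T m u v w = c * T m u v w := by
          have b1 := k v u w
          have b2 := k w u v
          have : T m w v u = c * T m u v w := by rw [← a7, b1, ← a5]
          have : T m w v u = c * (c * T m u v w) := by rw [b2, ← a6, a1]
          have : T m u v w = c * (c * T m u v w) := by rw [← a1, ← a2]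
          linarith
        linarith
      simpa using (mul_eq_zero.1 this).resolve_left (sub_ne_zero.2 h1)
    rw [k u v w, c1, one_mul]
  · rintro ⟨t, h0, hs, hi, hu⟩
    refine ⟨M t, fun h => h0 ?_, fun u v => ex fun w => by rw [hM, hM, (hs u v w).1], iM t hi,
      fun m h => (hu _ (iT m h)).imp fun c hc => ?_⟩
    · ext u v w
      rw [← hM, h]; simp
    · ext u v
      exact ex fun w => by rw [← hT, hc]; simp [hM]

end Cfsg.Agent.S5541
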