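import Mathlib
import Cfsg.Statements.S5543
import Cfsg.Agent.H8.Maj

set_option autoImplicit false
open Cfsg

namespace Cfsg.Agent.S5543

open H8.Maj

theorem result {V : Type*} [AddCommGroup V] [Module ℝ V] [FiniteDimensional ℝ V] (mul : V →ₗ[ℝ] V →ₗ[ℝ] V) (B : LinearMap.BilinForm ℝ V) (hV : Cfsg.Axial.IsMajoranaAmbient mul B) (X : Subgroup (V ≃ₗ[ℝ] V)) (hX : ∀ x ∈ X, x * x = 1) (ax : (V ≃ₗ[ℝ] V) → V) (hax : ∀ x ∈ X, x ≠ 1 → Cfsg.Axial.IsMajoranaPair mul B x (ax x)) (h1 : ∀ x ∈ X, x ≠ 1 → B (ax x) (ax x) = 1) (h2A : ∀ x ∈ X, ∀ y ∈ X, x ≠ 1 → y ≠ 1 → x ≠ y → mul (ax x) (ax y) = (1 / 8 : ℝ) • (ax x + ax y - ax (x * y))) : Nat.card ↥X ≤ 4 := by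
  by_contra hc
  have hF : Finite X := Nat.finite_of_card_ne_zero (by omega)
  have comm : ∀ x ∈ X, ∀ y ∈ X, x * y = y * x := fun x hx y hy => by
    rw [← inv_eq_of_mul_eq_one_right (hX _ (mul_mem hx hy)), mul_inv_rev,
      inv_eq_of_mul_eq_one_right (hX x hx), inv_eq_of_mul_eq_one_right (hX y hy)]
  have ex : ∀ s : Finset (V ≃ₗ[ℝ] V), s.card ≤ 4 → ∃ z ∈ X, z ∉ s := fun s hs => by
    by_contra! h
    have := Set.ncard_le_ncard (show (X : Set (V ≃ₗ[ℝ] V)) ⊆ s from h) s.finite_toSet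
    rw [Set.ncard_coe_finset] at this
    exact hc (le_trans this hs)
  classical
  obtain ⟨x, hx, x1⟩ := ex {1} (by simp)
  obtain ⟨y, hy, y1⟩ := ex {1, x} (Finset.card_le_two.trans (by norm_num))
  obtain ⟨z, hz, z1⟩ := ex {1, x, y, x * y} Finset.card_le_four
  simp only [Finset.mem_insert, Finset.mem_singleton, not_or] at x1 y1 z1
  have xx := hX x hx
  have yy := hX y hy
  have inv : ∀ {a b}, b ∈ X → a * b = 1 → a = b := fun hb h =>
    mul_right_cancel (h.trans (hX _ hb).symm)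
  have be : ∀ w ∈ X, w ≠ 1 → w ≠ x →
      mul (ax x) (ax w - ax (x * w)) = (1 / 4 : ℝ) • (ax w - ax (x * w)) := fun w hw w1 w2 => by
    rw [map_sub, h2A x hx w hw x1 w1 w2.symm, h2A x hx _ (mul_mem hx hw) x1
      (fun h => w2 (inv hw h).symm) (fun h => w1 (by simpa using h)), ← mul_assoc, xx, one_mul]
    module
  have n1 : x * y ≠ 1 := fun h => y1.2 (inv hy h).symm
  have n2 : x * z ≠ 1 := fun h => z1.2.1 (inv hz h).symm
  have n3 : y * z ≠ 1 := fun h => z1.2.2.1 (inv hz h).symm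
  have n4 : y * z ≠ x := fun h => z1.2.2.2 (by rw [← h, comm y hy z hz, mul_assoc, yy, mul_one])
  have n5 : y ≠ x * z := fun h => z1.2.2.2 (by rw [h, ← mul_assoc, xx, one_mul])
  have k := f44 hV (hax x hx x1) (h1 x hx x1) (be y hy y1.1 y1.2) (be z hz z1.1 z1.2.1)
  have e : mul (ax y - ax (x * y)) (ax z - ax (x * z)) =
      (-1 / 4 : ℝ) • (ax (y * z) - ax (x * (y * z))) := by
    simp only [map_sub, LinearMap.sub_apply]
    rw [h2A y hy z hz y1.1 z1.1 (Ne.symm z1.2.2.1), h2A y hy _ (mul_mem hx hz) y1.1 n2 n5,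
      h2A _ (mul_mem hx hy) z hz n1 z1.1 (Ne.symm z1.2.2.2),
      h2A _ (mul_mem hx hy) _ (mul_mem hx hz) n1 n2 (fun h => z1.2.2.1 (mul_left_cancel h).symm),
      show y * (x * z) = x * (y * z) by rw [← mul_assoc, comm y hy x hx, mul_assoc],
      show x * y * (x * z) = y * z by rw [comm x hx y hy, mul_assoc, ← mul_assoc x, xx, one_mul],
      mul_assoc]
    module
  have b := be _ (mul_mem hy hz) n3 n4
  rw [e, map_smul, b] at k
  have o := orth hV (c := 1) (by rw [idem (hax x hx x1), one_smul]) b (by norm_num)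
  have k2 := congrArg (B (ax x)) k
  simp only [map_smul, o, h1 x hx x1, smul_eq_mul] at k2
  have k3 : ax (y * z) = ax (x * (y * z)) := by
    rw [show (1 / 4 * B (ax y - ax (x * y)) (ax z - ax (x * z)) : ℝ) = 0 by linarith] at k
    linear_combination (norm := module) (-16 : ℝ) • k
  have := uniq (hax _ (mul_mem hy hz) n3) (k3 ▸ hax _ (mul_mem hx (mul_mem hy hz))
    fun h => n4 (inv (mul_mem hy hz) h).symm)
  exact x1 (by simpa using this)

end Cfsg.Agent.S5543
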