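import Mathlib
import Cfsg.Statements.S5544
import Cfsg.Agent.H8.Maj3

set_option autoImplicit false
open Cfsg

namespace Cfsg.Agent.S5544

open H8.Maj

theorem result {V : Type*} [AddCommGroup V] [Module ℝ V] [FiniteDimensional ℝ V] (mul : V →ₗ[ℝ] V →ₗ[ℝ] V) (B : LinearMap.BilinForm ℝ V) (hV : Cfsg.Axial.IsMajoranaAmbient mul B) (μ₀ μ₁ : V ≃ₗ[ℝ] V) (a₀ a₁ : V) (h₀ : Cfsg.Axial.IsMajoranaPair mul B μ₀ a₀) (h₁ : Cfsg.Axial.IsMajoranaPair mul B μ₁ a₁) (hu₀ : ∀ a : V, Cfsg.Axial.IsMajoranaPair mul B μ₀ a → a = a₀) (hu₁ : ∀ a : V, Cfsg.Axial.IsMajoranaPair mul B μ₁ a → a = a₁) (hn₀ : B a₀ a₀ = 1) (hn₁ : B a₁ a₁ = 1) : ∃ n : ℕ, 1 ≤ n ∧ n ≤ 6 ∧ (μ₀ * μ₁) ^ n = 1 := by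
  have i0 : μ₀ * μ₀ = 1 := LinearEquiv.ext (invol h₀)
  have i1 : μ₁ * μ₁ = 1 := LinearEquiv.ext (invol h₁)
  obtain ⟨g, hg⟩ : ∃ g, g = μ₁ * μ₀ := ⟨_, rfl⟩
  have gi : g⁻¹ = μ₀ * μ₁ := by
    rw [hg, mul_inv_rev, inv_eq_of_mul_eq_one_right i0, inv_eq_of_mul_eq_one_right i1]
  have g1 : g * μ₀ = μ₁ := by rw [hg, mul_assoc, i0, mul_one]
  have cj : ∀ k : ℤ, μ₀ * g ^ k = g ^ (-k) * μ₀ := fun k => by
    have : μ₀ * g * μ₀⁻¹ = g⁻¹ := by rw [gi, hg, mul_assoc, mul_inv_cancel_right]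
    rw [zpow_neg, ← inv_zpow, ← this, conj_zpow, inv_mul_cancel_right]
  let K : Subgroup (V ≃ₗ[ℝ] V) :=
    { carrier := {f | (∀ u v, f (mul u v) = mul (f u) (f v)) ∧ ∀ u v, B (f u) (f v) = B u v}
      one_mem' := ⟨fun _ _ => rfl, fun _ _ => rfl⟩
      mul_mem' := fun {f f'} a b => ⟨fun u v => by simp [a.1, b.1], fun u v => by simp [a.2, b.2]⟩
      inv_mem' := fun {f} a => ⟨fun u v => f.injective (by simp [a.1]), fun u v => by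
        rw [← a.2]; simp⟩ }
  have gK : ∀ k : ℤ, g ^ k ∈ K := fun k =>
    zpow_mem (hg ▸ mul_mem (⟨h₁.1, h₁.2.1⟩ : μ₁ ∈ K) (⟨h₀.1, h₀.2.1⟩ : μ₀ ∈ K)) k
  let a : ℤ → V := fun i => (g ^ (i / 2)) (if i % 2 = 0 then a₀ else a₁)
  have ae : ∀ k, a (2 * k) = (g ^ k) a₀ := fun k => by
    simp only [a, Int.mul_ediv_cancel_left k two_ne_zero, Int.mul_emod_right, if_true]
  have ao : ∀ k, a (2 * k + 1) = (g ^ k) a₁ := fun k => by
    simp only [a, show (2 * k + 1) / 2 = k by omega, show (2 * k + 1) % 2 = 1 by omega]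
    simp
  have ax : ∀ i, Cfsg.Axial.IsMajoranaPair mul B (g ^ i * μ₀) (a i) := fun i => by
    obtain ⟨k, rfl | rfl⟩ := Int.even_or_odd' i
    · have := conj h₀ (gK k).1 (gK k).2
      rwa [← ae, mul_assoc, ← zpow_neg, cj, neg_neg, ← mul_assoc, ← zpow_add, ← two_mul] at this
    · have := conj h₁ (gK k).1 (gK k).2
      rwa [← ao, ← g1, mul_assoc, mul_assoc, ← zpow_neg, cj, neg_neg, ← mul_assoc, ← mul_assoc,
        ← zpow_add_one, ← zpow_add, show k + 1 + k = 2 * k + 1 by ring] at this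
  have ac : ∀ i j, (g ^ i * μ₀) (a j) = a (2 * i - j) := fun i j => by
    obtain ⟨k, rfl | rfl⟩ := Int.even_or_odd' j
    · rw [ae, ← mul_sub, ae, ← LinearEquiv.mul_apply, mul_assoc, cj, ← mul_assoc, ← zpow_add,
        LinearEquiv.mul_apply, fix h₀, sub_eq_add_neg]
    · rw [ao, show 2 * i - (2 * k + 1) = 2 * (i + -k - 1) + 1 by ring, ao, ← LinearEquiv.mul_apply,
        mul_assoc, cj, ← mul_assoc, ← zpow_add, zpow_sub_one, gi, ← mul_assoc,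
        LinearEquiv.mul_apply _ μ₁, fix h₁]
  have st : St mul B a _ _ _ _ _ _ := ⟨hV, fun i => ⟨_, ax i, ac i⟩, fun i => by
    obtain ⟨k, rfl | rfl⟩ := Int.even_or_odd' i
    · rw [ae, (gK k).2, hn₀]
    · rw [ao, (gK k).2, hn₁], (sub_add_cancel _ _).symm, (sub_add_cancel _ _).symm,
    (sub_add_cancel _ _).symm, rfl, rfl, rfl⟩
  have key : ∀ n : ℕ, a 0 = a n → (μ₀ * μ₁) ^ n = 1 := fun n e => by
    have := uniq (ax 0) (e ▸ ax n)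
    rw [← gi, inv_pow, inv_eq_one, ← zpow_natCast, ← mul_right_cancel this, zpow_zero]
  rw [st.mn] at st
  rcases st.cases with e | e | e
  exacts [⟨4, by norm_num, by norm_num, key 4 e⟩, ⟨5, by norm_num, by norm_num, key 5 e⟩,
    ⟨6, by norm_num, le_rfl, key 6 e⟩]

end Cfsg.Agent.S5544
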