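import Mathlib
import Cfsg.Statements.S5545
import Cfsg.Agent.H8.Maj

set_option autoImplicit false
open Cfsg

namespace Cfsg.Agent.S5545

open H8.Maj

theorem sq {V : Type*} [AddCommGroup V] [Module ℝ V] {mul : V →ₗ[ℝ] V →ₗ[ℝ] V}
    {B : LinearMap.BilinForm ℝ V} (hV : Cfsg.Axial.IsMajoranaAmbient mul B) {μ : V ≃ₗ[ℝ] V} {x y : V}
    (h : Cfsg.Axial.IsMajoranaPair mul B μ x) (hn : B x x = 1) (hy : mul y y = y) {l : ℝ}
    (hl : B x y = l) {p : V} (hp : mul x y = p) (xp : mul x p = (1 / 4 : ℝ) • p + (3 / 4 * l) • x)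
    (yp : mul y p = (1 / 4 : ℝ) • p + (3 / 4 * l) • y) :
    (4 : ℝ) • mul p p = (3 / 4 * l) • y - l • p + (l / 4 + 4 * l ^ 2) • x := by
  have xx := idem h
  have yx : mul y x = p := (hV.1 _ _).trans hp
  have px := (hV.1 p x).trans xp
  have py := (hV.1 p y).trans yp
  have hb : mul x ((4 : ℝ) • p - (4 * l) • x) = (1 / 4 : ℝ) • ((4 : ℝ) • p - (4 * l) • x) := by
    simp only [map_sub, map_smul, xp, xx]; module
  have ha : mul x (y + (3 * l) • x - (4 : ℝ) • p) = 0 := by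
    simp only [map_sub, map_add, map_smul, xp, xx, hp]; module
  have b1 : B x p = l := by rw [← hp, hV.2.2.2.1, xx, hl]
  have b2 : B p x = l := (hV.2.1 _ _).trans b1
  have b3 : B p p = l / 4 + 3 / 4 * l ^ 2 := by
    have := hV.2.2.2.1 p x y
    rw [hp, px] at this
    have b4 : B p y = l := by rw [hV.2.1, ← yx, hV.2.2.2.1, hy, hV.2.1, hl]
    simp only [this, map_add, map_smul, LinearMap.add_apply, LinearMap.smul_apply, smul_eq_mul, b4, hl]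
    ring
  have E2 := f44 hV h hn hb hb
  have E3 := f04 h ha hb
  simp only [map_sub, map_add, map_smul, LinearMap.add_apply, LinearMap.smul_apply,
    LinearMap.sub_apply, xx, hp, yx, xp, yp, px, py, hn, b1, b2, b3, smul_eq_mul] at E2 E3
  linear_combination (norm := module) E2 + E3

theorem result {V : Type*} [AddCommGroup V] [Module ℝ V] [FiniteDimensional ℝ V] (mul : V →ₗ[ℝ] V →ₗ[ℝ] V) (B : LinearMap.BilinForm ℝ V) (hV : Cfsg.Axial.IsMajoranaAmbient mul B) (μ₀ μ₁ : V ≃ₗ[ℝ] V) (a₀ a₁ : V) (h₀ : Cfsg.Axial.IsMajoranaPair mul B μ₀ a₀) (h₁ : Cfsg.Axial.IsMajoranaPair mul B μ₁ a₁) (hu₀ : ∀ a : V, Cfsg.Axial.IsMajoranaPair mul B μ₀ a → a = a₀) (hu₁ : ∀ a : V, Cfsg.Axial.IsMajoranaPair mul B μ₁ a → a = a₁) (hn₀ : B a₀ a₀ = 1) (hn₁ : B a₁ a₁ = 1) (hc : μ₀ * μ₁ = μ₁ * μ₀) (hne : a₀ ≠ a₁) : (B a₀ a₁ = 0 ∧ mul a₀ a₁ = 0) ∨ (B a₀ a₁ = 1 / 8 ∧ mul (a₀ + a₁ -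 (8 : ℝ) • mul a₀ a₁) (a₀ + a₁ - (8 : ℝ) • mul a₀ a₁) = a₀ + a₁ - (8 : ℝ) • mul a₀ a₁ ∧ mul a₀ (a₀ + a₁ - (8 : ℝ) • mul a₀ a₁) = (1 / 8 : ℝ) • (a₀ + (a₀ + a₁ - (8 : ℝ) • mul a₀ a₁) - a₁) ∧ mul a₁ (a₀ + a₁ - (8 : ℝ) • mul a₀ a₁) = (1 / 8 : ℝ) • (a₁ + (a₀ + a₁ - (8 : ℝ) • mul a₀ a₁) - a₀)) := by
  have f1 : μ₀ a₁ = a₁ := hu₁ _ (by
    have := conj h₁ h₀.1 h₀.2.1
    rwa [hc, mul_inv_cancel_right] at this)
  have f0 : μ₁ a₀ = a₀ := hu₀ _ (by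
    have := conj h₀ h₁.1 h₁.2.1
    rwa [← hc, mul_inv_cancel_right] at this)
  obtain ⟨l, hl⟩ : ∃ l, B a₀ a₁ = l := ⟨_, rfl⟩
  obtain ⟨p, hp⟩ : ∃ p, mul a₀ a₁ = p := ⟨_, rfl⟩
  have hl' : B a₁ a₀ = l := (hV.2.1 _ _).trans hl
  have hp' : mul a₁ a₀ = p := (hV.1 _ _).trans hp
  have xp := star hV h₀ hn₀ f1
  have yp := star hV h₁ hn₁ f0
  rw [hp, hl] at xp
  rw [hp', hl'] at yp
  have s0 := sq hV h₀ hn₀ (idem h₁) hl hp xp yp
  have s1 := sq hV h₁ hn₁ (idem h₀) hl' hp' yp xp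
  have e : (l * (l - 1 / 8)) • (a₀ - a₁) = 0 := by
    linear_combination (norm := module) (1 / 4 : ℝ) • s1 - (1 / 4 : ℝ) • s0
  rw [hl, hp]
  rcases mul_eq_zero.1 ((smul_eq_zero.1 e).resolve_right (sub_ne_zero.2 hne)) with rfl | e
  · refine Or.inl ⟨rfl, ?_⟩
    by_contra h0
    have := hV.2.2.1 p h0
    have k := hV.2.2.2.1 p a₀ a₁
    have b4 : B p a₁ = 0 := by rw [hV.2.1, ← hp', hV.2.2.2.1, idem h₁, hl']
    rw [hp, hV.1 p, xp] at k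
    simp [b4] at k
    exact this.ne' k
  · obtain rfl : l = 1 / 8 := by linarith
    have px := (hV.1 p a₀).trans xp
    have py := (hV.1 p a₁).trans yp
    refine Or.inr ⟨rfl, ?_, ?_, ?_⟩ <;>
      simp only [map_sub, map_add, map_smul, LinearMap.add_apply, LinearMap.smul_apply,
        LinearMap.sub_apply, idem h₀, idem h₁, hp, hp', xp, yp, px, py]
    · linear_combination (norm := module) (16 : ℝ) • s0
    · module
    · module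

end Cfsg.Agent.S5545
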