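import Cfsg.Statements.S5546
import Cfsg.Agent.H27.LCo1

set_option autoImplicit false
open Cfsg

namespace Cfsg.Agent.S5546

open H27 MulAction Matrix
abbrev K := ZMod 13
instance : Fact (Nat.Prime 13) := ⟨by norm_num⟩
def rd (x : LL) : GolayPt → K := fun i => ((x : VV) i : K)
noncomputable def mt (g : CC) : Matrix GolayPt GolayPt K := fun j i => 5 * rd (g • e8 i) j
theorem mt_rd (g : CC) (x : LL) : mt g *ᵥ rd x = rd (g • x) := funext fun j => by
  have := congrArg (Int.cast : ℤ → K) (co_eight g x j)
  rw [Int.cast_mul, Int.cast_sum] at this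
  refine mul_left_cancel₀ (show ((8 : ℤ) : K) ≠ 0 by decide) (Eq.trans ?_ this.symm)
  rw [mulVec, dotProduct, Finset.mul_sum]
  refine Finset.sum_congr rfl fun i _ => ?_
  rw [mt, rd, rd, Int.cast_mul, ← mul_assoc, ← mul_assoc, show ((8 : ℤ) : K) * 5 = 1 by decide, one_mul, mul_comm]
theorem mt_ext {A B : Matrix GolayPt GolayPt K} (h : ∀ i, A *ᵥ rd (e8 i) = B *ᵥ rd (e8 i)) : A = B := by
  ext j i
  have e : rd (e8 i) = Pi.single i 8 := funext fun k => by simp only [rd, e8, Pi.single_apply]; split_ifs <;> rfl
  have := congrFun (h i) j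
  simp only [e, mulVec_single, MulOpposite.smul_eq_mul_unop, Pi.smul_apply, MulOpposite.unop_op, col_apply] at this
  exact mul_right_cancel₀ (by decide) this
noncomputable def rho : Representation K CC (GolayPt → K) where
  toFun g := toLin' (mt g)
  map_one' := (congrArg toLin' (mt_ext (A := mt 1) (B := 1) fun i => by rw [mt_rd, one_smul, one_mulVec])).trans toLin'_one
  map_mul' g h := (congrArg toLin' (mt_ext (A := mt (g * h)) (B := mt g * mt h) fun i => by
    rw [← mulVec_mulVec, mt_rd, mt_rd, mt_rd, mul_smul])).trans (toLin'_mul _ _)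
theorem fin : ∀ t : K, t • rd lU ≠ rd (-lU') - rd lU' := by decide +kernel
theorem emb {G V : Type*} [Group G] [IsSimpleGroup G] [AddCommGroup V] [Module K V] [Module.Finite K V] (σ : Representation K G V)
    (d : Module.finrank K V = 23) {g : G} (h : σ g ≠ 1) : ∃ f : G →* GL (Fin 23) K, Function.Injective f := by
  let b := Module.finBasisOfFinrankEq K _ d
  refine ⟨((LinearMap.toMatrixAlgEquiv b).toMulEquiv.toMonoidHom.comp σ).toHomUnits, ?_⟩
  rw [← MonoidHom.ker_eq_bot_iff]
  exact (Subgroup.Normal.eq_bot_or_eq_top inferInstance).resolve_right fun a => h ((LinearMap.toMatrixAlgEquiv b).injective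
    ((congrArg Units.val (a.ge (Subgroup.mem_top g))).trans (map_one _).symm))
theorem rho_rd (g : CC) (x : LL) : rho g (rd x) = rd (g • x) := mt_rd g x

/-- The second Conway group (the stabilizer in the Leech lattice automorphism group of the short vector fixed in the definitions) is isomorphic to a subgroup of the general linear group of degree 23 over the field with 13 elements: there is an injective homomorphism into it. -/
theorem result : ∃ f : ↥Cfsg.Spor.Co2 →* GL (Fin 23) (ZMod 13), Function.Injective f := by
  let W := Submodule.span K {rd lU}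
  let σ := Representation.quotient (rho.comp C2.subtype) W fun g => by
    rw [Submodule.span_le, Set.singleton_subset_iff]
    change rho g (rd lU) ∈ W
    rw [rho_rd, show (g : CC) • lU = lU from g.2]
    exact Submodule.mem_span_singleton_self _
  have d : Module.finrank K (_ ⧸ W) = 23 := by
    have := W.finrank_quotient_add_finrank
    rw [finrank_span_singleton (by decide +kernel), Module.finrank_fintype_fun_eq_card, card_pt] at this
    omega
  have := simple_C2
  obtain ⟨g, hg, e⟩ := C2_trans (x := lU') (y := -lU') norm_lU' ((sqNorm_neg _).trans norm_lU') (by decide +kernel)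
  obtain ⟨f, hf⟩ := emb σ d (g := ⟨g, hg⟩) fun a => by
    have c : W.mkQ (rho g (rd lU')) = W.mkQ (rd lU') := LinearMap.congr_fun a (W.mkQ (rd lU'))
    rw [rho_rd, e] at c
    obtain ⟨t, ht⟩ := Submodule.mem_span_singleton.1 ((Submodule.Quotient.eq W).1 c)
    exact fin t ht
  exact ⟨f.comp co2Equiv.symm.toMonoidHom, hf.comp co2Equiv.symm.injective⟩

end Cfsg.Agent.S5546
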