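import Cfsg.Statements.S5548
import Cfsg.Agent.H9.Mz5

set_option autoImplicit false
open Cfsg

namespace Cfsg.Agent.S5548
open H27 MulAction
open scoped Pointwise
open H9

/-- For the automorphism group of the length-24 binary Golay code of the definitions (the Mathieu group of degree 24) acting on binary words of length 24 by permuting coordinates, the only invariant subspaces of the space of all words are: zero, the span of the all-ones word, the code itself, the even-weight words, and the whole space. (So the permutation module has a unique composition series.) -/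
theorem result (W : Submodule (ZMod 2) (Cfsg.GolayPt → ZMod 2)) (hW : ∀ σ ∈ Cfsg.M24, ∀ w ∈ W, (fun p => w (σ.symm p)) ∈ W) : W = ⊥ ∨ W = Submodule.span (ZMod 2) {fun _ => (1 : ZMod 2)} ∨ W = Cfsg.golayCode ∨ (W : Set (Cfsg.GolayPt → ZMod 2)) = {w | ∑ p, w p = 0} ∨ W = ⊤ := by
  have F := invF hW
  by_cases l : W ≤ golayCode
  · rcases code_cases hW l with a | a
    · by_cases h1 : (fun _ => (1 : ZMod 2)) ∈ W
      · exact .inr (.inl (le_antisymm a (by rwa [Submodule.span_singleton_le_iff_mem])))
      · refine .inl (eq_bot_iff.2 fun w hw => ?_)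
        obtain ⟨c, rfl⟩ := Submodule.mem_span_singleton.1 (a hw)
        rcases (by decide : ∀ c : ZMod 2, c = 0 ∨ c = 1) c with rfl | rfl
        · simp
        · exact absurd (one_smul (ZMod 2) (fun _ : GolayPt => (1 : ZMod 2)) ▸ hw) h1
    · exact .inr (.inr (.inl a))
  obtain ⟨v, a, b⟩ := SetLike.not_le_iff_exists.1 l
  obtain ⟨s, c, d⟩ := F.duad' (sup_mem.2 a) (mt sup_mem.1 b)
  have e : ∀ w, ∑ p, w p = 0 → w ∈ W := fun w h =>
    sup_mem.1 (F.even c d _ (ZMod.natCast_eq_zero_iff_even.1 ((sum_eq_card w).symm.trans h)))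
  by_cases k : ∀ w ∈ W, ∑ p, w p = 0
  · exact .inr (.inr (.inr (.inl (Set.ext fun w => ⟨k w, e w⟩))))
  push Not at k
  obtain ⟨u, f, k⟩ := k
  refine .inr (.inr (.inr (.inr (eq_top_iff.2 fun w _ => by_contra fun n => n ?_))))
  rw [← add_sub_cancel_right w u]
  refine W.sub_mem (e _ ?_) f
  simp only [Pi.add_apply, Finset.sum_add_distrib]
  exact (by decide : ∀ a b : ZMod 2, a ≠ 0 → b ≠ 0 → a + b = 0) _ _ (mt (e w) n) k

end Cfsg.Agent.S5548
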