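import Cfsg.Statements.S5549
import Cfsg.Agent.H9.Mz5

set_option autoImplicit false
open Cfsg

namespace Cfsg.Agent.S5549
open H27 MulAction
open scoped Pointwise
open H9
open scoped symmDiff
noncomputable def φ (t : Finset GolayPt) (w : GolayPt → ZMod 2) : ZMod 2 := ∑ p, if p ∈ t then w p else 0
theorem φ_sd (s t : Finset GolayPt) (w : GolayPt → ZMod 2) : φ (s ∆ t) w = φ s w + φ t w := by
  rw [φ, φ, φ, ← Finset.sum_add_distrib]
  refine Finset.sum_congr rfl fun p _ => ?_
  by_cases a : p ∈ s <;> by_cases b : p ∈ t <;> simp [Finset.mem_symmDiff, a, b, CharTwo.add_self_eq_zero]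
theorem φ_card (t : Finset GolayPt) (w : GolayPt → ZMod 2) : φ t w = (support₂ w ∩ t).card := by
  rw [φ, sum_eq_card]; congr 2; ext p
  by_cases a : p ∈ t <;> simp [support₂, a]
theorem φ_pair {p q : GolayPt} (h : p ≠ q) (w : GolayPt → ZMod 2) : φ {p, q} w = w p + w q := by
  rw [φ, Finset.sum_ite_mem, Finset.univ_inter, Finset.sum_pair h]
theorem rep (ψ : golayCode →ₗ[ZMod 2] ZMod 2) : ∃ t : Finset GolayPt, t.card ≤ 4 ∧ ∀ c, ψ c = φ t c := by
  obtain ⟨Ψ, rfl⟩ := ψ.exists_extend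
  obtain ⟨t, a, b⟩ := leader (support₂ fun p => Ψ fun q => if p = q then 1 else 0)
  refine ⟨t, a, fun c => ?_⟩
  have e := φ_sd (support₂ fun p => Ψ fun q => if p = q then 1 else 0) t c
  rw [φ_card, ZMod.natCast_eq_zero_iff_even.2 (even_card_inter (sup_mem.2 c.2) b), eq_comm, CharTwo.add_eq_zero] at e
  rw [← e, φ, LinearMap.comp_apply, LinearMap.pi_apply_eq_sum_univ]
  refine Finset.sum_congr rfl fun p _ => ?_
  simp only [support₂, Finset.mem_filter, Finset.mem_univ, true_and, smul_eq_mul, Submodule.subtype_apply]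
  generalize (Ψ fun q => if p = q then 1 else 0) = u; generalize c.1 p = v
  revert u v; decide
noncomputable def NN (t : Finset GolayPt) : Nat := {s | s ∈ GC ∧ (s.card = 8 ∨ s.card = 16) ∧ Odd (s ∩ t).card}.ncard
theorem NN_smul {s t : Finset GolayPt} (h : s.card = t.card) (h5 : s.card ≤ 5) : NN t = NN s := by
  obtain ⟨g, rfl⟩ := exists_smul_finset h h5
  exact ncard_smul g fun y => by
    simp only [Set.mem_setOf_eq, mm_smul_GC, ← mm_smul_inter, Finset.card_smul_finset]
theorem NN_fs (t : Nat) : NN (GE.fs t) = cnt 4096 fun a => force (enc a) fun x =>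
    and' (or' (Nat.beq (pop24 x) 8) (Nat.beq (pop24 x) 16)) (Nat.beq (Nat.mod (pop24 (Nat.land x t)) 2) 1) :=
  ncard_GC _ _ (fun _ h => h.1) fun x hx => by
    simp only [Set.mem_setOf_eq, fs_mem_GC_of hx, ← GE.fs_and, card_gfs, and'_eq, or'_eq, Bool.and_eq_true, Bool.or_eq_true,
      beq_iff, true_and, Nat.odd_iff]
    rfl
noncomputable def P (c : golayCode) : Prop := (support₂ c.1).card = 8 ∨ (support₂ c.1).card = 16
theorem NN_eq (t : Finset GolayPt) : {c | P c ∧ φ t c = 1}.ncard = NN t := by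
  rw [← Set.ncard_image_of_injective _ (support₂_inj.comp Subtype.val_injective)]
  congr 1; ext s
  constructor
  · rintro ⟨c, ⟨a, b⟩, rfl⟩
    exact ⟨sup_mem.2 c.2, a, ZMod.natCast_eq_one_iff_odd.1 ((φ_card _ _).symm.trans b)⟩
  · rintro ⟨⟨c, h, rfl⟩, a, b⟩
    exact ⟨⟨c, h⟩, ⟨a, (φ_card _ _).trans (ZMod.natCast_eq_one_iff_odd.2 b)⟩, rfl⟩
noncomputable def pr (q : GolayPt) : (GolayPt → ZMod 2) →ₗ[ZMod 2] ZMod 2 := LinearMap.proj q
noncomputable def e1 : golayCode := ⟨fun _ => 1, sup_mem.1 (sup_one ▸ univ_mem_GC)⟩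
theorem two {x : golayCode ≃ₗ[ZMod 2] golayCode} (h1 : x e1 = e1) (hP : ∀ c, P (x c) ↔ P c) {p q : GolayPt} (n : p ≠ q)
    {t : Finset GolayPt} (h4 : t.card ≤ 4) (h : ∀ c, (x c).1 p + (x c).1 q = φ t c) : t.card = 2 := by
  have a := h e1
  rw [h1, φ_card, e1, sup_one, Finset.univ_inter, CharTwo.add_self_eq_zero, eq_comm, ZMod.natCast_eq_zero_iff_even,
    Nat.even_iff] at a
  have b : NN t = 704 := by
    rw [← NN_eq, show {c | P c ∧ φ t c = 1} = x ⁻¹' {c | P c ∧ φ {p, q} c = 1} from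
      Set.ext fun c => by simp only [Set.mem_setOf_eq, Set.mem_preimage, hP, φ_pair n, h],
      Set.ncard_preimage_of_injective_subset_range x.injective (by rw [x.surjective.range_eq]; exact Set.subset_univ _),
      NN_eq, NN_smul (s := GE.fs 3) (by rw [Finset.card_pair n]; decide +kernel) (by decide +kernel), NN_fs]
    decide +kernel
  by_contra c
  rcases (by omega : t.card = 0 ∨ t.card = 4) with d | d
  · rw [NN_smul (s := GE.fs 0) (by rw [d]; decide +kernel) (by decide +kernel), NN_fs] at b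
    exact absurd b (by decide +kernel)
  · rw [NN_smul (s := GE.fs 15) (by rw [d]; decide +kernel) (by decide +kernel), NN_fs] at b
    exact absurd b (by decide +kernel)
theorem star {α ι : Type} [DecidableEq α] {T : ι → Finset α} (h2 : ∀ i, (T i).card = 2)
    (h : ∀ i j, i ≠ j → (T i ∩ T j).card = 1) {i j : ι} (n : i ≠ j) (f : ∀ r, ∃ s, s ≠ i ∧ s ≠ j ∧ s ≠ r) :
    ∃ a, ∀ r, a ∈ T r := by
  have k : ∀ {r s a b}, r ≠ s → a ≠ b → a ∈ T r → b ∈ T r → a ∈ T s → b ∈ T s → False := fun c d e f g k =>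
    d (Finset.card_le_one.1 (h _ _ c).le _ (Finset.mem_inter.2 ⟨e, g⟩) _ (Finset.mem_inter.2 ⟨f, k⟩))
  have m : ∀ {r s}, r ≠ s → ∃ a, a ∈ T r ∧ a ∈ T s := fun c =>
    (Finset.card_pos.1 (by rw [h _ _ c]; norm_num)).exists_mem.imp fun _ => Finset.mem_inter.1
  have t : ∀ {r a b c}, a ≠ b → a ∈ T r → b ∈ T r → c ∈ T r → c = a ∨ c = b := fun {r a b c} d e f g => by
    obtain ⟨x, y, -, u⟩ := Finset.card_eq_two.1 (h2 r)
    simp only [u, Finset.mem_insert, Finset.mem_singleton] at e f g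
    rcases e with rfl | rfl <;> rcases f with rfl | rfl <;> tauto
  obtain ⟨a, a1, a2⟩ := m n
  refine ⟨a, fun r => by_contra fun c => ?_⟩
  have ri : r ≠ i := fun e => c (e ▸ a1)
  have rj : r ≠ j := fun e => c (e ▸ a2)
  obtain ⟨b, b1, b2⟩ := m ri
  obtain ⟨d, d1, d2⟩ := m rj
  have ab : a ≠ b := fun e => c (e ▸ b1)
  have ad : a ≠ d := fun e => c (e ▸ d1)
  have bd : b ≠ d := fun e => k n ab a1 b2 a2 (e ▸ d2)
  obtain ⟨s, s1, s2, s3⟩ := f r
  obtain ⟨u, u1, u2⟩ := m s1
  obtain ⟨v, v1, v2⟩ := m s2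
  obtain ⟨w, w1, w2⟩ := m s3
  rcases t bd b1 d1 w2 with rfl | rfl
  · rcases t ad a2 d2 v2 with rfl | rfl
    · exact k s1 ab v1 w1 a1 b2
    · exact k s3 bd w1 v1 b1 d1
  · rcases t ab a1 b2 u2 with rfl | rfl
    · exact k s2 ad u1 w1 a2 d2
    · exact k s3 bd u1 w1 b1 d1


/-- Let X be a group of linear automorphisms of the length-24 binary Golay code of the definitions that fix the all-ones word, containing the coordinate-permutation action of every element of the code's automorphism group (the Mathieu group of degree 24), and such that every element of X sends each codeword into its orbit under that Mathieu group up to adding the all-ones word (X has the same orbits as the Mathieu group on the code modulo the all-ones word). Then every element of X agrees, modulo the all-ones word, with the action of a single element of the Mathieu group: X induces exactly the Mathieu group on the code modulo the all-ones word. -/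
theorem result (X : Subgroup (↥Cfsg.golayCode ≃ₗ[ZMod 2] ↥Cfsg.golayCode)) (h1 : ∀ x ∈ X, ∀ e : ↥Cfsg.golayCode, (e : (Cfsg.GolayPt → ZMod 2)) = (fun _ => (1 : ZMod 2)) → x e = e) (hM : ∀ σ ∈ Cfsg.M24, ∃ x ∈ X, ∀ c : ↥Cfsg.golayCode, ((x c : ↥Cfsg.golayCode) : (Cfsg.GolayPt → ZMod 2)) = fun p => (c : (Cfsg.GolayPt → ZMod 2)) (σ.symm p)) (horb : ∀ x ∈ X, ∀ c : ↥Cfsg.golayCode, ∃ σ ∈ Cfsg.M24, ((x c : ↥Cfsg.golayCode) : (Cfsg.GolayPt → ZMod 2)) = (fun p => (c : (Cfsg.GolayPt → ZMod 2)) (σ.symm p)) ∨ ((x c : ↥Cfsg.golayCode) : (Cfsg.GolayPt → ZMod 2)) = (fun p => (c : (Cfsg.GolayPt → ZMod 2)) (σ.symm p)) + fun _ => (1 : ZMod 2)) (x : ↥Cfsg.golayCode ≃ₗ[ZMod 2] ↥Cfsg.golayCode) (hx : x ∈ X) : ∃ σ ∈ Cfsg.M24, ∀ c : ↥Cfsg.golayCode, ((x c : ↥Cfsg.golayCode) : (Cfsg.GolayPt → ZMod 2)) = (fun p => (c : (Cfsg.GolayPt → ZMod 2)) (σ.symm p)) ∨ ((x c : ↥Cfsg.golayCode) : (Cfsg.GolayPt → ZMod 2)) = (fun p => (c : (Cfsg.GolayPt → ZMod 2)) (σ.symm p)) + fun _ => (1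 : ZMod 2) := by
  have e1 := h1 x hx e1 rfl
  have hP : ∀ c, P (x c) ↔ P c := fun c => by
    obtain ⟨σ, a, b | b⟩ := horb x hx c
    · rw [P, P, b, sup_smul ⟨σ, a⟩, Finset.card_smul_finset]
    · rw [P, P, b, sup_add, sup_smul ⟨σ, a⟩, sup_one, ← Finset.top_eq_univ, symmDiff_top, hnot_eq_compl, Finset.card_compl, card_pt,
        Finset.card_smul_finset]
      omega
  choose T a b using fun q : GolayPt => rep ((pr none + pr q) ∘ₗ golayCode.subtype ∘ₗ x.toLinearMap)
  replace b : ∀ q c, (x c).1 none + (x c).1 q = φ (T q) c := b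
  have h2 : ∀ i, (T (some i)).card = 2 := fun i => two e1 hP (Option.some_ne_none i).symm (a _) (b _)
  have h3 : ∀ i j, i ≠ j → (T (some i) ∩ T (some j)).card = 1 := fun i j n => by
    have c := card_symmDiff_add (T (some i)) (T (some j))
    rw [h2, h2] at c
    have := two (t := T (some i) ∆ T (some j)) e1 hP (mt Option.some.inj n) (by omega) fun c => by
      rw [φ_sd, ← b, ← b]
      exact (by decide : ∀ a b c : ZMod 2, b + c = a + b + (a + c)) _ _ _
    omega
  obtain ⟨a, c⟩ := star h2 h3 (i := 0) (j := 1) (by decide) (by decide +kernel)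
  choose d e f using fun i => show ∃ d, a ≠ d ∧ T (some i) = {a, d} by
    obtain ⟨x, y, n, u⟩ := Finset.card_eq_two.1 (h2 i)
    rcases Finset.mem_insert.1 (u ▸ c i) with rfl | k
    · exact ⟨y, n, u⟩
    · exact ⟨x, Finset.mem_singleton.1 k ▸ n.symm, by rw [u, Finset.mem_singleton.1 k, Finset.pair_comm]⟩
  have inj : Function.Injective fun q : GolayPt => q.elim a d := by
    rintro (_ | i) (_ | j) k
    · rfl
    · exact absurd k (e j)
    · exact absurd k.symm (e i)
    · refine by_contra fun n => ?_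
      have := h3 i j fun u => n (congrArg _ u)
      rw [f j, ← show d i = d j from k, ← f, Finset.inter_self, h2] at this
      omega
  let σ := Equiv.ofBijective _ (Finite.injective_iff_bijective.1 inj)
  have k : ∀ c, (x c).1 = (fun p => c.1 (σ p)) ∨ (x c).1 = (fun p => c.1 (σ p)) + fun _ => 1 := fun c => by
    have : ∀ p, (x c).1 p = c.1 (σ p) + ((x c).1 none + c.1 a) := by
      rintro (_ | i)
      · exact (by decide : ∀ a b : ZMod 2, a = b + (a + b)) _ _
      · have := b (some i) c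
        rw [f, φ_pair (e i)] at this
        exact (by decide : ∀ a b c d : ZMod 2, a + b = c + d → b = d + (a + c)) _ _ _ _ this
    rcases (by decide : ∀ c : ZMod 2, c = 0 ∨ c = 1) ((x c).1 none + c.1 a) with u | u <;> rw [u] at this
    · exact .inl (funext fun p => (this p).trans (add_zero _))
    · exact .inr (funext this)
  refine ⟨σ.symm, mem_M24_iff.2 ?_, k⟩
  rintro _ ⟨w, hw, rfl⟩
  refine ⟨fun p => w (σ p), ?_, ?_⟩
  · rcases k ⟨w, hw⟩ with u | u
    · exact u ▸ (x ⟨w, hw⟩).2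
    · exact (golayCode.add_mem_iff_left S5549.e1.2).1 (u ▸ (x ⟨w, hw⟩).2)
  · ext p
    rw [← Finset.inv_smul_mem_iff]
    simp only [support₂, Finset.mem_filter, Finset.mem_univ, true_and]
    rfl

end Cfsg.Agent.S5549
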