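import Cfsg.Statements.S5550
import Cfsg.Agent.H9.Mz5

set_option autoImplicit false
open Cfsg

namespace Cfsg.Agent.S5550
open H27 MulAction
open scoped Pointwise
open H9
open scoped symmDiff
theorem mv {gs : List MM} {Ns : List Net} (a : ActsL 24 GE.e gs Ns)
    (hc : allN 4096 (fun y => or' (Nat.beq y 0) (force (Nat.mul y 4096) fun x =>
      anyL Ns fun N => force (Nat.xor (N.rev.app x) x) fun z => and' (Nat.ble z 16777215) (not' (inC z)))) = true)
    {s : Finset GolayPt} (hs : s ∉ GC) : ∃ g ∈ gs, (g • s) ∆ s ∉ GC := by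
  obtain ⟨x, hx, rfl⟩ := GE.exists_fs s
  have c := inC_enc (and4095_lt x)
  have m : (x ^^^ enc (x &&& 4095)) % 2 ^ 12 = 0 := by
    rw [← Nat.and_two_pow_sub_one_eq_mod, Nat.and_xor_distrib_right]
    exact (congrArg _ (enc_and (and4095_lt x))).trans (Nat.xor_self _)
  have l := Nat.xor_lt_two_pow hx (lt_of_inC c)
  have e : GE.fs x = GE.fs (x ^^^ enc (x &&& 4095)) ∆ GE.fs (enc (x &&& 4095)) := by
    rw [GE.fs_xor, symmDiff_symmDiff_cancel_right]
  generalize x ^^^ enc (x &&& 4095) = z at m l e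
  obtain ⟨y, rfl⟩ : ∃ y, z = y * 4096 := ⟨z / 4096, by omega⟩
  simp only [allN_iff, or'_eq, Bool.or_eq_true, beq_iff, force_eq, anyL_iff, and'_eq, Bool.and_eq_true, Nat.ble_eq, not'_eq,
    Bool.not_eq_true'] at hc
  have k := fs_mem_GC_of c
  rcases hc y (by omega) with rfl | ⟨N, hN, u, v⟩
  · exact absurd (e ▸ symmDiff_mem_GC (fs_mem_GC_of inC_zero) k) hs
  obtain ⟨g, hg, b⟩ := a.exists_left hN
  refine ⟨g, hg, fun h => ?_⟩
  rw [e, mm_smul_sd, symmDiff_symmDiff_symmDiff_comm, b.smul_gfs', ← GE.fs_xor] at h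
  have := symmDiff_mem_GC h (symmDiff_mem_GC ((mm_smul_GC g).2 k) k)
  rw [symmDiff_symmDiff_cancel_right] at this
  exact Bool.noConfusion (((fs_mem_GC (Nat.lt_succ_of_le u)).1 this).symm.trans v)
theorem tr {b : Finset GolayPt} (h : ∀ s ∉ GC, ∃ g : MM, g • b = b ∧ (g • s) ∆ s ∉ GC) (k : MM) {s : Finset GolayPt}
    (hs : s ∉ GC) : ∃ g : MM, g • k • b = k • b ∧ (g • s) ∆ s ∉ GC := by
  obtain ⟨g, a, c⟩ := h (k⁻¹ • s) (mt (mm_smul_GC _).1 hs)
  refine ⟨k * g * k⁻¹, by rw [mul_smul, inv_smul_smul, mul_smul, a], fun d => c ?_⟩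
  have := (mm_smul_GC k⁻¹).2 d
  rwa [mm_smul_sd, mul_smul, mul_smul, inv_smul_smul] at this
theorem oc {c s : Finset GolayPt} (h : c ∈ octads) (hs : s ∉ GC) : ∃ g : MM, g • c = c ∧ (g • s) ∆ s ∉ GC := by
  obtain ⟨k, rfl⟩ := exists_smul_eO h
  exact tr (fun s hs => (mv gO_acts (by decide +kernel) hs).imp fun g a => ⟨gO_mem g a.1, a.2⟩) k hs
theorem key {c s : Finset GolayPt} (h : c ∈ GC) (hs : s ∉ GC) : ∃ g : MM, g • c = c ∧ (g • s) ∆ s ∉ GC := by
  rcases card_of_mem_GC h with d | d | d | d | d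
  · exact (oc oct0_mem hs).imp fun g a => ⟨by rw [Finset.card_eq_zero.1 d, Finset.smul_finset_empty], a.2⟩
  · exact oc (mem_octads_iff.2 ⟨h, d⟩) hs
  · obtain ⟨k, rfl⟩ := exists_smul_eD (mem_dodecads_iff.2 ⟨h, d⟩)
    exact tr (fun s hs => (mv gD_acts (by decide +kernel) hs).imp fun g a => ⟨gD_mem g a.1, a.2⟩) k hs
  · exact (oc (mem_octads_iff.2 ⟨compl_mem_GC h, by rw [Finset.card_compl, card_pt, d]⟩) hs).imp fun g a =>
      ⟨compl_injective ((mm_smul_compl _ _).symm.trans a.1), a.2⟩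
  · exact (oc oct0_mem hs).imp fun g a =>
      ⟨by rw [Finset.eq_univ_of_card c (d.trans card_pt.symm), Finset.smul_finset_univ], a.2⟩


/-- Let u be a word of the length-24 binary Golay code of the definitions (possibly zero or all-ones) and w any binary word of length 24 outside the code. Then some automorphism of the code (a coordinate permutation preserving it) fixes u but moves w to a word not congruent to w modulo the code: the stabilizer of a codeword fixes no non-zero element of the quotient of the space of all words by the code. -/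
theorem result (u : (Cfsg.GolayPt → ZMod 2)) (hu : u ∈ Cfsg.golayCode) (w : (Cfsg.GolayPt → ZMod 2)) (hw : w ∉ Cfsg.golayCode) : ∃ σ ∈ Cfsg.M24, (fun p => u (σ.symm p)) = u ∧ (fun p => w (σ.symm p)) - w ∉ Cfsg.golayCode := by
  obtain ⟨g, a, b⟩ := key (sup_mem.2 hu) (mt sup_mem.1 hw)
  exact ⟨g, g.2, support₂_inj ((sup_smul g u).trans a), fun h => b (by rw [← sup_smul, ← sup_sub]; exact sup_mem.2 h)⟩

end Cfsg.Agent.S5550
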