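import Cfsg.Statements.S5552
import Cfsg.Agent.H13.LMod

set_option autoImplicit false
open Cfsg

namespace Cfsg.Agent.S5552

open H13

/-- On the Leech lattice of the definitions, let Q be a function to the field with two elements that is constant on cosets of twice the lattice, is a quadratic form there (Q(u+v+w) + Q(u) + Q(v) + Q(w) = Q(u+v) + Q(u+w) + Q(v+w) for all u, v, w), is invariant under every lattice automorphism, and is not identically zero. Then Q(v) is the squared length of v divided by 16, reduced modulo 2, for every lattice vector v (squared lengths of lattice vectors are multiples of 16). -/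
theorem result (Q : ↥Cfsg.leechLattice → ZMod 2) (hcoset : ∀ v w : ↥Cfsg.leechLattice, Q (v + (w + w)) = Q v) (hquad : ∀ u v w : ↥Cfsg.leechLattice, Q (u + v + w) + Q u + Q v + Q w = Q (u + v) + Q (u + w) + Q (v + w)) (hinv : ∀ (g : ↥Cfsg.Co0) (v : ↥Cfsg.leechLattice), Q (g • v) = Q v) (hne : ∃ v : ↥Cfsg.leechLattice, Q v ≠ 0) (v : ↥Cfsg.leechLattice) : Q v = ((Cfsg.sqNorm (v : Cfsg.GolayPt → ℤ) / 16 : ℤ) : ZMod 2) := by
  have h := quad_unique Q hcoset hquad hinv hne v
  obtain ⟨k, hk⟩ := nm16 v
  change Q v = ((nm v / 16 : ℤ) : ZMod 2)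
  rw [hk, Int.mul_ediv_cancel_left _ (by norm_num)]
  rw [hk] at h
  have h2 : ((k : ℤ) : ZMod 2) = 0 ↔ (32 : ℤ) ∣ 16 * k := by
    rw [ZMod.intCast_zmod_eq_zero_iff_dvd]; push_cast; omega
  have := h.trans h2.symm
  revert this; generalize Q v = a; generalize ((k : ℤ) : ZMod 2) = b; revert a b; decide

end Cfsg.Agent.S5552
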