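import Cfsg.Statements.S5553
import Cfsg.Agent.H13.LMod

set_option autoImplicit false
open Cfsg

namespace Cfsg.Agent.S5553

open H13

open H27 H29

/-- The Leech lattice of the definitions has an additive subgroup A containing twice the lattice, of index 2^12 in the lattice, all of whose vectors have squared length divisible by 32: the invariant quadratic form 'squared length over 16 modulo 2' on the lattice modulo twice the lattice (a 24-dimensional space over the field with two elements) vanishes on a 12-dimensional subspace, so it is of plus type. -/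
theorem result : ∃ A : AddSubgroup (Cfsg.GolayPt → ℤ), A ≤ Cfsg.leechLattice ∧ (∀ v ∈ Cfsg.leechLattice, (2 : ℤ) • v ∈ A) ∧ (A.addSubgroupOf Cfsg.leechLattice).index = 2 ^ 12 ∧ ∀ v ∈ A, (32 : ℤ) ∣ Cfsg.sqNorm v := by
  let φ : LL →+ (Fin 12 → ZMod 2) :=
    { toFun := fun v i => red v (Fin.castLE (by norm_num) i)
      map_zero' := by ext i; simp
      map_add' := fun v w => by ext i; simp }
  have hφ : Function.Surjective φ := fun c => by
    obtain ⟨v, hv⟩ := red_surj fun i => if h : i.val < 12 then c ⟨i, h⟩ else 0
    exact ⟨v, by ext i; simp [φ, hv]⟩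
  refine ⟨φ.ker.map leechLattice.subtype, AddSubgroup.map_subtype_le _, fun v hv => ?_, ?_, ?_⟩
  · refine ⟨⟨v, hv⟩ + ⟨v, hv⟩, ?_, by simp [two_smul]⟩
    rw [SetLike.mem_coe, AddMonoidHom.mem_ker, map_add]
    ext i; exact CharTwo.add_self_eq_zero _
  · rw [AddSubgroup.addSubgroupOf, AddSubgroup.comap_map_eq_self_of_injective leechLattice.subtype_injective,
      AddSubgroup.index_ker, AddMonoidHom.range_eq_top.2 hφ, AddSubgroup.card_top]
    simp
  · rintro _ ⟨v, hv, rfl⟩
    let w : LL := ∑ i, (if 12 ≤ i.val then leeB.repr v i else 0) • leeB i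
    have h1 : Cg v w := by
      rw [← red_eq_iff]
      ext i
      rw [red_apply, red_apply, show leeB.repr w i = _ from congrFun (leeB.repr_sum_self _) i]
      split_ifs with h
      · rfl
      · have := congrFun (show φ v = 0 from hv) ⟨i, by omega⟩
        simpa [φ, red_apply] using this
    have h4 : ∀ p, (4 : ℤ) ∣ (w : VV) p := fun p => by
      simp only [w]
      rw [AddSubgroup.val_finsetSum, Finset.sum_apply]
      refine Finset.dvd_sum fun i _ => ?_
      split_ifs with h
      · have := (by decide +kernel : ∀ i : Fin 24, 12 ≤ i.val → ∀ p, (4 : ℤ) ∣ vc (lget LB i) p) i h p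
        simp only [leeB, Module.Basis.coe_mk, AddSubgroup.coe_zsmul, leeV_coe, Pi.smul_apply, smul_eq_mul]
        exact Dvd.dvd.mul_left this _
      · simp
    obtain ⟨m, c, hw⟩ := mem_LL.1 w.2
    have hm : m = 0 := by
      have a := hw.md none; have b := h4 none; have c := ind01 c none; have d := hw.m01; omega
    have hs := hw.sm
    have : (32 : ℤ) ∣ ∑ p, ((w : VV) p ^ 2 - 4 * (w : VV) p) := Finset.dvd_sum fun p _ => by
      obtain ⟨y, hy⟩ := h4 p
      obtain ⟨k, hk⟩ := Int.even_mul_pred_self y
      exact ⟨k, by rw [hy]; linear_combination 16 * hk⟩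
    rw [Finset.sum_sub_distrib, ← Finset.mul_sum] at this
    have a := h1.nm32
    have b : nm w = ∑ p, (w : VV) p ^ 2 := rfl
    change (32 : ℤ) ∣ nm v
    omega

end Cfsg.Agent.S5553
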