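import Cfsg.Statements.S5566
import Cfsg.Agent.H13.JA

set_option autoImplicit false
open Cfsg

namespace Cfsg.Agent.S5566

open H13

/-- Let G be a finite non-abelian simple group of Janko-four type (an involution z whose centralizer H has an extraspecial largest normal 2-subgroup E of order 2^13 containing its centralizer in H, a normal subgroup N ≥ E of H with N/E of order 3 and H/N the automorphism group of M₂₂, and a subgroup P ≤ N of order 3 with C_E(P) = ⟨z⟩, N_H(P) ≠ C_H(P) and P ≤ C_H(P)′). Then a Sylow 2-subgroup of G has exactly one elementary abelian subgroup of order 2^11. -/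
theorem result {G : Type*} [Group G] [Finite G] [IsSimpleGroup G] (hG : ¬ IsMulCommutative G) (hJ : Cfsg.IsOfJankoFourType G) (T : Sylow 2 G) :
    ∃! V : Subgroup G, V ≤ (T : Subgroup G) ∧ Cfsg.IsElementaryAbelian 2 V ∧ Nat.card ↥V = 2 ^ 11 := by
  obtain ⟨z, Q, hJ⟩ := hJ
  obtain ⟨π, P, h, -⟩ := H13.exists_jt0 hJ
  obtain ⟨z', -, R, π, P, h, a⟩ := h.atT T
  exact ⟨h.A, ⟨(h.maxT a).1, h.A_ea, h.card_A⟩, fun W b => h.EA_eq a b.1 b.2.1 b.2.2.ge⟩

end Cfsg.Agent.S5566
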