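import Cfsg.Statements.S5594
import Cfsg.Agent.H27.LCo1

set_option autoImplicit false
open Cfsg

namespace Cfsg.Agent.S5594

open H27

/-- The automorphism group of the Leech lattice contains the negation map, and the subgroup of order 2 it generates has no complement: the automorphism group is a non-split extension of its quotient by that subgroup (it is not the direct product of a group of order 2 with the first Conway group). -/
theorem result :
    ∃ n : ↥Cfsg.Co0, (∀ v : ↥Cfsg.leechLattice, ((n • v : ↥Cfsg.leechLattice) : Cfsg.GolayPt → ℤ) = -(v : Cfsg.GolayPt → ℤ)) ∧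
    ∀ K : Subgroup ↥Cfsg.Co0, ¬ (Subgroup.zpowers n).IsComplement' K := by
  refine ⟨neg1, fun v => by rw [neg1_smul]; rfl, fun K h => ?_⟩
  have o : orderOf neg1 = 2 := orderOf_eq_prime (by rw [pow_two, neg1_sq]) neg1_ne
  have i : K.index = 2 := by rw [h.index_eq_card, Nat.card_zpowers, o]
  have := Subgroup.normal_of_index_eq_two i
  rcases normal_cases K with a | rfl
  · have b : K ≤ Subgroup.center CC := fun g hg => mem_center_iff.2 (a g hg)
    have c := Subgroup.card_le_of_le b
    have d := K.card_mul_index
    rw [card_center] at c
    rw [i, card_CC] at d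
    omega
  · simp at i

end Cfsg.Agent.S5594
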