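import Cfsg.Statements.S5600
import Cfsg.Agent.H27.MX

set_option autoImplicit false
open scoped Pointwise
open Cfsg

namespace Cfsg.Agent.S5600
open H27 MulAction
open scoped Pointwise
theorem six {E : Finset Cfsg.GolayPt} (hE : E.card = 6) : ((∃ o ∈ Cfsg.octads, E ⊆ o) ∧ ∃ g : MM, g • GE.fs 0x80002f = E) ∨
    ((¬ ∃ o ∈ Cfsg.octads, E ⊆ o) ∧ ∃ g : MM, g • GE.fs 0x80001f = E) := by
  rcases exists_smul_six E.toList E.nodup_toList (by simpa) with ⟨a, g, b⟩ | ⟨a, g, b⟩ <;>
    rw [Finset.toList_toFinset] at a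
  · exact .inl ⟨a, g, smul_toFinset b ▸ congrArg _ (by decide +kernel)⟩
  · exact .inr ⟨a, g, smul_toFinset b ▸ congrArg _ (by decide +kernel)⟩


/-- Although the group of the length-24 code is only 5-transitive on the 24 points, it induces the full symmetric group on every 6-element subset: every permutation of a 6-set E is the restriction of an element of the group mapping E to itself. The pointwise stabiliser of E has order 16 when E lies in an octad and order 3 otherwise; in the latter case the setwise stabiliser of E has order 2160. -/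
theorem result (E : Finset Cfsg.GolayPt) (hE : E.card = 6) : (∀ σ : Equiv.Perm ↥E, ∃ g ∈ Cfsg.M24, ∀ p : ↥E, g p = σ p) ∧ ((∃ o ∈ Cfsg.octads, E ⊆ o) → Nat.card {g : Equiv.Perm Cfsg.GolayPt // g ∈ Cfsg.M24 ∧ ∀ p ∈ E, g p = p} = 16) ∧ ((¬ ∃ o ∈ Cfsg.octads, E ⊆ o) → Nat.card {g : Equiv.Perm Cfsg.GolayPt // g ∈ Cfsg.M24 ∧ ∀ p ∈ E, g p = p} = 3 ∧ Nat.card ↥(MulAction.stabilizer Cfsg.M24 E) = 2160) := by
  have e : Nat.card {g : Equiv.Perm Cfsg.GolayPt // g ∈ Cfsg.M24 ∧ ∀ p ∈ E, g p = p} =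
      Nat.card (fixingSubgroup MM (E : Set Cfsg.GolayPt)) :=
    Nat.card_congr ⟨fun g => ⟨⟨g.1, g.2.1⟩, (mem_fixingSubgroup_iff MM).2 g.2.2⟩,
      fun g => ⟨g.1.1, g.1.2, (mem_fixingSubgroup_iff MM).1 g.2⟩, fun _ => rfl, fun _ => rfl⟩
  have s : ∀ σ : Equiv.Perm E, ∃ g : MM, ∀ p : E, g • (p : Cfsg.GolayPt) = σ p := by
    intro σ
    have i : Function.Injective fun p : E => (σ p : Cfsg.GolayPt) := Subtype.val_injective.comp σ.injective
    have n := (E.attach.nodup_toList.map Subtype.val_injective)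
    have n' := (E.attach.nodup_toList.map i)
    have t : (E.attach.toList.map Subtype.val).toFinset = E := by ext; simp
    have t' : (E.attach.toList.map fun p : E => (σ p : Cfsg.GolayPt)).toFinset = E := by
      ext x; simp only [List.mem_toFinset, List.mem_map, Finset.mem_toList, Finset.mem_attach, true_and]
      exact ⟨by rintro ⟨p, rfl⟩; exact (σ p).2, fun h => ⟨σ.symm ⟨x, h⟩, by simp⟩⟩
    obtain ⟨b, g, k, u, v⟩ : ∃ (b : List Cfsg.GolayPt) (g k : MM), b.map (g • ·) = E.attach.toList.map Subtype.val ∧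
        b.map (k • ·) = E.attach.toList.map fun p : E => (σ p : Cfsg.GolayPt) := by
      rcases exists_smul_six _ n (by simpa) with ⟨a, g, b⟩ | ⟨a, g, b⟩ <;>
        rcases exists_smul_six _ n' (by simpa) with ⟨c, k, d⟩ | ⟨c, k, d⟩ <;> rw [t] at a <;> rw [t'] at c
      exacts [⟨_, g, k, b, d⟩, absurd a c, absurd c a, ⟨_, g, k, b, d⟩]
    refine ⟨k * g⁻¹, fun p => ?_⟩
    have : (E.attach.toList.map Subtype.val).map ((k * g⁻¹) • ·) = E.attach.toList.map fun p : E => (σ p : Cfsg.GolayPt) := by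
      rw [← u, ← v, List.map_map]; simp [Function.comp_def, mul_smul]
    rw [List.map_map, List.map_inj_left] at this
    exact this p (by simp)
  rw [e]
  refine ⟨fun σ => (s σ).elim fun g h => ⟨g, g.2, h⟩, fun h => ?_, fun h => ?_⟩
  · obtain ⟨-, g, rfl⟩ := (six hE).resolve_right fun a => a.1 h
    rw [(CjRel.fixF g _).card, fixing_gfs, sg_level6.2]
  · have c : Nat.card (fixingSubgroup MM (E : Set Cfsg.GolayPt)) = 3 := by
      obtain ⟨-, g, rfl⟩ := (six hE).resolve_left fun a => h a.1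
      rw [(CjRel.fixF g _).card, fixing_gfs, card_fix_hex0]
    refine ⟨c, ?_⟩
    have : (resHom MM E).range = ⊤ := eq_top_iff.2 fun σ _ => by
      obtain ⟨g, a⟩ := s σ
      refine ⟨⟨g, Finset.eq_of_subset_of_card_le (fun q hq => ?_) (Finset.card_smul_finset g E).ge⟩, ?_⟩
      · obtain ⟨q, hq', rfl⟩ := Finset.mem_smul_finset.1 hq
        rw [a ⟨q, hq'⟩]; exact (σ _).2
      · exact Equiv.ext fun p => Subtype.ext (a p)
    rw [card_stab_eq, c, this, Subgroup.card_top, Nat.card_perm, Nat.card_eq_fintype_card, Fintype.card_coe, hE]; rfl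

end Cfsg.Agent.S5600
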