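import Cfsg.Statements.S5601
import Cfsg.Agent.H27.MCls

set_option autoImplicit false
open scoped Pointwise
open Cfsg

namespace Cfsg.Agent.S5601
open H27 MulAction
open scoped Pointwise


/-- The group of the length-24 code has exactly two conjugacy classes of subgroups of order 3: a subgroup of order 3 fixes either exactly 6 of the 24 points or none of them, both cases occur, and two subgroups of order 3 with the same number of fixed points are conjugate. -/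
theorem result : (∀ X : Subgroup ↥Cfsg.M24, Nat.card X = 3 → {p : Cfsg.GolayPt | ∀ x ∈ X, ((x : ↥Cfsg.M24) : Equiv.Perm Cfsg.GolayPt) p = p}.ncard = 6 ∨ {p : Cfsg.GolayPt | ∀ x ∈ X, ((x : ↥Cfsg.M24) : Equiv.Perm Cfsg.GolayPt) p = p}.ncard = 0) ∧ (∃ X : Subgroup ↥Cfsg.M24, Nat.card X = 3 ∧ {p : Cfsg.GolayPt | ∀ x ∈ X, ((x : ↥Cfsg.M24) : Equiv.Perm Cfsg.GolayPt) p = p}.ncard = 6) ∧ (∃ X : Subgroup ↥Cfsg.M24, Nat.card X = 3 ∧ {p : Cfsg.GolayPt | ∀ x ∈ X, ((x : ↥Cfsg.M24) : Equiv.Perm Cfsg.GolayPt) p = p}.ncard = 0) ∧ ∀ X Y : Subgroup ↥Cfsg.M24, Nat.card X = 3 → Nat.card Y = 3 → {p : Cfsg.GolayPt | ∀ x ∈ X, ((x : ↥Cfsg.M24) : Equiv.Perm Cfsg.GolayPt) p = p}.ncard = {p : Cfsg.GolayPt | ∀ x ∈ Y, ((x : ↥Cfsg.M24) : Equiv.Perm Cfsg.GolayPt) p = p}.ncard → ∃ k : ↥Cfsg.M24, MulAut.conj k • X = Y := by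
  have f : ∀ x : MM, {p : Cfsg.GolayPt | ∀ y ∈ Subgroup.zpowers x, (y : Equiv.Perm Cfsg.GolayPt) p = p}.ncard = (fixF x).card := by
    intro x
    rw [← Set.ncard_coe_finset]
    congr 1
    ext p
    exact ⟨fun h => mem_fixF.2 (h x (Subgroup.mem_zpowers x)), fun h y hy =>
      mem_stabilizer_iff.1 (Subgroup.zpowers_le.2 (mem_stabilizer_iff.2 (mem_fixF.1 h)) hy)⟩
  have z : ∀ X : Subgroup MM, Nat.card X = 3 → ∃ x, orderOf x = 3 ∧ X = Subgroup.zpowers x := by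
    intro X h
    have : Finite X := Nat.finite_of_card_ne_zero (by omega)
    have := Fact.mk Nat.prime_three
    obtain ⟨x, hx⟩ := exists_prime_orderOf_dvd_card' (G := X) 3 h.symm.dvd
    have o := (Subgroup.orderOf_coe x).trans hx
    exact ⟨x, o, (Subgroup.eq_of_le_of_card_ge (Subgroup.zpowers_le.2 x.2) (by rw [Nat.card_zpowers, o, h])).symm⟩
  refine ⟨fun X h => ?_, ⟨Subgroup.zpowers x3a, by rw [Nat.card_zpowers, ord_x3a], by rw [f, fix_x3a, card_hex0]⟩,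
    ⟨Subgroup.zpowers x3b, by rw [Nat.card_zpowers, ord_x3b], by rw [f, fix_x3b]; rfl⟩, fun X Y hX hY h => ?_⟩
  · obtain ⟨x, o, rfl⟩ := z X h
    rw [f]
    rcases cls3 o with ⟨k, rfl⟩ | ⟨k, rfl⟩ <;> rw [fixF_conj, Finset.card_smul_finset]
    · exact .inl (fix_x3a ▸ card_hex0)
    · exact .inr (fix_x3b ▸ rfl)
  · obtain ⟨x, o, rfl⟩ := z X hX
    obtain ⟨y, o', rfl⟩ := z Y hY
    rw [f, f] at h
    obtain ⟨k, rfl⟩ : ∃ k : MM, y = k * x * k⁻¹ := by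
      by_cases d : (fixF x).card = 0
      · obtain ⟨k, u⟩ := conj_x3b o d
        obtain ⟨l, v⟩ := conj_x3b o' (h ▸ d)
        exact ⟨l * k⁻¹, by rw [u, v]; group⟩
      · obtain ⟨k, u⟩ := conj_x3a o d
        obtain ⟨l, v⟩ := conj_x3a o' (h ▸ d)
        exact ⟨l * k⁻¹, by rw [u, v]; group⟩
    exact ⟨k, MonoidHom.map_zpowers _ x⟩

end Cfsg.Agent.S5601
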