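import Cfsg.Statements.S5607
import Cfsg.Agent.H27.MCls

set_option autoImplicit false
open scoped Pointwise
open Cfsg

namespace Cfsg.Agent.S5607
open H27 MulAction
open scoped Pointwise


/-- For a fixed-point-free involution t of the group of the length-24 code: its centraliser in that group has order 7680, is transitive on the 24 points, and is contained, together with t, in the stabiliser of some sextet. -/
theorem result (t : Equiv.Perm Cfsg.GolayPt) (ht : t ∈ Cfsg.M24) (h₂ : orderOf t = 2) (h₀ : ∀ p, t p ≠ p) : Nat.card {c : Equiv.Perm Cfsg.GolayPt // c ∈ Cfsg.M24 ∧ c * t = t * c} = 7680 ∧ (∀ p q : Cfsg.GolayPt, ∃ c ∈ Cfsg.M24, c * t = t * c ∧ c p = q) ∧ ∃ S ∈ Cfsg.sextets, t • S = S ∧ ∀ c ∈ Cfsg.M24, c * t = t * c → c • S = S := by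
  obtain ⟨k, a⟩ := conj_z2b (g := ⟨t, ht⟩) ((Subgroup.orderOf_mk _ _).trans h₂) (card_fixF_zero.2 h₀)
  have R := CjRel.centralizer k z2b
  rw [← a] at R
  have m : ∀ c : MM, c ∈ Subgroup.centralizer {(⟨t, ht⟩ : MM)} ↔ (c : Equiv.Perm Cfsg.GolayPt) * t = t * c := fun c => by
    rw [Subgroup.mem_centralizer_singleton_iff, Subtype.ext_iff]; rfl
  have s : ∀ c ∈ Cfsg.M24, c * t = t * c → c • k • eS 0 = k • eS 0 := fun c hc h => by
    have := (CjRel.stab k (eS 0) _).1 (cent_z2b_le ((R.symm ⟨c, hc⟩).1 ((m _).2 h)))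
    rwa [show k * (k⁻¹ * ⟨c, hc⟩ * k⁻¹⁻¹) * k⁻¹ = ⟨c, hc⟩ by group] at this
  refine ⟨?_, fun p q => ?_, k • eS 0, smul_mem_sextets k eS_zero_mem, s t ht rfl, s⟩
  · rw [← card_cent_z2b, ← R.card]
    exact Nat.card_congr ⟨fun c => ⟨⟨c.1, c.2.1⟩, (m _).2 c.2.2⟩, fun c => ⟨c.1.1, c.1.2, (m _).1 c.2⟩, fun _ => rfl, fun _ => rfl⟩
  · obtain ⟨p, rfl⟩ := exists_eq_smul k p
    obtain ⟨q, rfl⟩ := exists_eq_smul k q
    obtain ⟨c, hc, b⟩ := R.trans (y := p) (y' := q) (by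
      obtain ⟨u, hu, b⟩ := c2b_acts.trans c2b_mem c2b_trans (GE.ix_lt p)
      obtain ⟨v, hv, c⟩ := c2b_acts.trans c2b_mem c2b_trans (GE.ix_lt q)
      rw [GE.e_ix] at b c
      exact ⟨v * u⁻¹, Subgroup.mul_mem _ hv (Subgroup.inv_mem _ hu), by rw [mul_smul, ← b, inv_smul_smul, c]⟩)
    exact ⟨c, c.2, (m c).1 hc, b⟩

end Cfsg.Agent.S5607
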