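import Cfsg.Statements.S5608
import Cfsg.Agent.H27.MCls

set_option autoImplicit false
open scoped Pointwise
open Cfsg

namespace Cfsg.Agent.S5608
open H27 MulAction
open scoped Pointwise
noncomputable def yN : Net := (.cons 1 0x445440 (.cons 2 0x20220 (.cons 4 0xc0804 (.cons 8 0x24 (.cons 16 0x9c (.cons 8 0x98 (.cons 4 0x200 (.cons 2 0x20010 (.cons 1 0x44150 .nil)))))))))


/-- If an element of order 3 and an involution of the group of the length-24 code commute, then either the element of order 3 has exactly 6 fixed points and the involution exactly 8, or both are fixed-point-free. -/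
theorem result (x s : Equiv.Perm Cfsg.GolayPt) (hx : x ∈ Cfsg.M24) (hs : s ∈ Cfsg.M24) (h₃ : orderOf x = 3) (h₂ : orderOf s = 2) (hc : Commute x s) : ((Finset.univ.filter fun p => x p = p).card = 6 ∧ (Finset.univ.filter fun p => s p = p).card = 8) ∨ ((Finset.univ.filter fun p => x p = p).card = 0 ∧ (Finset.univ.filter fun p => s p = p).card = 0) := by
  have o2 := (Subgroup.orderOf_mk _ hs).trans h₂
  have o3 := (Subgroup.orderOf_mk _ hx).trans h₃
  have key : ∀ (z y : MM) (c : Nat), orderOf y = 3 → y ∈ Subgroup.centralizer {z} → Nat.card (Subgroup.centralizer {z}) = c →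
      ¬ 3 ^ 2 ∣ c → c ≠ 0 → ∀ k, (⟨s, hs⟩ : MM) = k * z * k⁻¹ → ((fixF ⟨x, hx⟩).card = 0 ↔ (fixF y).card = 0) := by
    intro z y c oy hy hc' h9 h0 k a
    have R := CjRel.centralizer k z
    rw [← a] at R
    have : Finite (Subgroup.centralizer {z}) := Nat.finite_of_card_ne_zero (hc' ▸ h0)
    obtain ⟨u, -, b⟩ := exists_conj_zpowers Nat.prime_three (hc' ▸ h9) hy oy ((R.symm ⟨x, hx⟩).1
      (Subgroup.mem_centralizer_singleton_iff.2 (Subtype.ext hc))) (by
        rw [← o3]; exact (MulAut.conj k⁻¹).orderOf_eq _)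
    have o : orderOf (u * (k⁻¹ * ⟨x, hx⟩ * k⁻¹⁻¹) * u⁻¹) = 3 := by
      rw [← o3]; exact ((MulAut.conj u).orderOf_eq _).trans ((MulAut.conj k⁻¹).orderOf_eq _)
    have e : Subgroup.zpowers (u * (k⁻¹ * ⟨x, hx⟩ * k⁻¹⁻¹) * u⁻¹) = Subgroup.zpowers y :=
      Subgroup.eq_of_le_of_card_ge (Subgroup.zpowers_le.2 b) (by rw [Nat.card_zpowers, Nat.card_zpowers, o, oy])
    have f : fixF (u * (k⁻¹ * ⟨x, hx⟩ * k⁻¹⁻¹) * u⁻¹) = fixF y := by
      ext p
      rw [mem_fixF, mem_fixF, ← mem_stabilizer_iff, ← mem_stabilizer_iff, ← Subgroup.zpowers_le, ← Subgroup.zpowers_le, e]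
    rw [← f, fixF_conj, fixF_conj, Finset.card_smul_finset, Finset.card_smul_finset]
  change ((fixF ⟨x, hx⟩).card = 6 ∧ (fixF ⟨s, hs⟩).card = 8) ∨ ((fixF ⟨x, hx⟩).card = 0 ∧ (fixF ⟨s, hs⟩).card = 0)
  rcases cls2 o2 with ⟨k, a⟩ | ⟨k, a⟩
  · have ya : Acts 24 GE.e (mm yN) yN := acts_mm (by decide +kernel)
    have := key z2a _ _ (ya.mm_order Nat.prime_three (by decide +kernel))
      (ActsL.mem_cent (gs := [mm yN]) (.cons ya .nil) z2a_acts (by decide +kernel) _ (by simp)) card_cent_z2a (by norm_num)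
      (by norm_num) k a
    rw [ya.fixF_eq (x := 0x258003) (by decide +kernel), card_gfs] at this
    obtain ⟨l, b⟩ := conj_x3a o3 fun c => absurd (this.1 c) (by decide +kernel)
    rw [a, b, fixF_conj, fixF_conj, Finset.card_smul_finset, Finset.card_smul_finset, fix_z2a, fix_x3a]
    exact .inl ⟨card_hex0, card_eO0⟩
  · have := key z2b _ _ ord_x3b
      (ActsL.mem_cent (gs := [x3b]) (.cons x3b_acts .nil) z2b_acts (by decide +kernel) _ (by simp)) card_cent_z2b (by norm_num)
      (by norm_num) k a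
    exact .inr ⟨this.2 (fix_x3b ▸ rfl), by rw [a, fixF_conj, fix_z2b]; simp⟩

end Cfsg.Agent.S5608
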