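import Cfsg.Statements.S5609
import Cfsg.Agent.H27.MX

set_option autoImplicit false
open scoped Pointwise
open Cfsg

namespace Cfsg.Agent.S5609
open H27 MulAction
open scoped Pointwise
abbrev Γ := Cfsg.blockGraph Cfsg.octads
theorem adj {a b : Cfsg.octads} : Γ.Adj a b ↔ (a.1 ∩ b.1).card = 0 := by
  rw [Finset.card_eq_zero, ← Finset.disjoint_iff_inter_eq_empty, Γ, Cfsg.blockGraph, SimpleGraph.fromRel_adj]
  refine ⟨fun h => h.2.elim id fun k => Disjoint.symm k, fun h => ⟨?_, .inl h⟩⟩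
  rintro rfl
  have := (mem_octads_iff.1 a.2).2
  rw [(Finset.disjoint_self_iff_empty _).1 h] at this
  exact absurd this (by decide)
noncomputable def vt (g : MM) (i : Nat) (hi : i < 759) : Cfsg.octads := ⟨g • eO i, (mm_smul_octads g).2 (tabO.mem i hi)⟩
theorem adj' (g : MM) {i j : Nat} (hi : i < 759) (hj : j < 759) :
    Γ.Adj (vt g i hi) (vt g j hj) ↔ pop24 (Nat.land (oM i) (oM j)) = 0 := by
  rw [adj, vt, vt, ← mm_smul_inter, Finset.card_smul_finset, eO_eq hi, eO_eq hj, card_inter_gfs]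
theorem d0 {a b : Cfsg.octads} (h : (a.1 ∩ b.1).card = 0) : Γ.Reachable a b ∧ Γ.dist a b = 1 :=
  ⟨(adj.2 h).reachable, SimpleGraph.dist_eq_one_iff_adj.2 (adj.2 h)⟩
theorem d4 {a b : Cfsg.octads} (h : (a.1 ∩ b.1).card = 4) : Γ.Reachable a b ∧ Γ.dist a b = 2 := by
  obtain ⟨g, c, d⟩ := exists_smul_oct2 a.2 b.2 (r := 1) (by norm_num) (h.trans (by decide +kernel))
  obtain rfl : vt g 0 (by norm_num) = a := Subtype.ext c
  obtain rfl : vt g 1 (by norm_num) = b := Subtype.ext d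
  have w := SimpleGraph.Walk.cons ((adj' g (by norm_num : 0 < 759) (by norm_num : 127 < 759)).2 (by decide +kernel))
    (SimpleGraph.Walk.cons ((adj' g (by norm_num : 127 < 759) (by norm_num : 1 < 759)).2 (by decide +kernel)) .nil)
  have l : Γ.dist _ _ ≤ 2 := SimpleGraph.dist_le (SimpleGraph.Walk.cons ((adj' g (by norm_num : 0 < 759) (by norm_num : 127 < 759)).2 (by decide +kernel))
    (SimpleGraph.Walk.cons ((adj' g (by norm_num : 127 < 759) (by norm_num : 1 < 759)).2 (by decide +kernel)) .nil))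
  have n1 := mt (SimpleGraph.dist_eq_one_iff_adj.trans adj).1 (h ▸ (by norm_num : ¬ (4 : Nat) = 0))
  have n0 := mt w.reachable.dist_eq_zero_iff.1 fun e => by
    rw [← e, Finset.inter_self, (mem_octads_iff.1 (vt g 0 _).2).2] at h; omega
  exact ⟨w.reachable, by omega⟩
theorem mid {V : Type*} {G : SimpleGraph V} {a b : V} (u : G.Walk a b) (h : u.length = 2) : ∃ x, G.Adj a x ∧ G.Adj x b :=
  match u, h with
  | .cons e1 (.cons e2 .nil), _ => ⟨_, e1, e2⟩
theorem d2 {a b : Cfsg.octads} (h : (a.1 ∩ b.1).card = 2) : Γ.Reachable a b ∧ Γ.dist a b = 3 := by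
  obtain ⟨g, c, d⟩ := exists_smul_oct2 a.2 b.2 (r := 2) (by norm_num) (h.trans (by decide +kernel))
  obtain rfl : vt g 0 (by norm_num) = a := Subtype.ext c
  obtain rfl : vt g 2 (by norm_num) = b := Subtype.ext d
  obtain ⟨w, hw⟩ : ∃ w : Γ.Walk (vt g 0 (by norm_num)) (vt g 2 (by norm_num)), w.length = 3 :=
    ⟨.cons ((adj' g (by norm_num : 0 < 759) (by norm_num : 68 < 759)).2 (by decide +kernel))
      (.cons ((adj' g (by norm_num : 68 < 759) (by norm_num : 31 < 759)).2 (by decide +kernel))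
      (.cons ((adj' g (by norm_num : 31 < 759) (by norm_num : 2 < 759)).2 (by decide +kernel)) .nil)), rfl⟩
  have l := hw ▸ SimpleGraph.dist_le w
  have n1 := mt (SimpleGraph.dist_eq_one_iff_adj.trans adj).1 (h ▸ (by norm_num : ¬ (2 : Nat) = 0))
  have n0 := mt w.reachable.dist_eq_zero_iff.1 fun e => by
    rw [← e, Finset.inter_self, (mem_octads_iff.1 (vt g 0 _).2).2] at h; omega
  refine ⟨w.reachable, ?_⟩
  by_contra n3
  obtain ⟨u, hu⟩ := w.reachable.exists_walk_length_eq_dist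
  obtain ⟨⟨x, hx⟩, e1, e2⟩ := mid u (by omega)
  · skip
    obtain ⟨x, rfl⟩ := exists_eq_smul g x
    obtain ⟨i, hi, rfl⟩ := tabO.surj _ ((mm_smul_octads g).1 hx)
    have f1 := (adj' g _ hi).1 e1
    have f2 := (adj' g hi _).1 e2
    have := (allN_iff _ _).1 (by decide +kernel : allN 759 (fun i => not' (and' (Nat.beq (pop24 (Nat.land (oM 0) (oM i))) 0)
      (Nat.beq (pop24 (Nat.land (oM i) (oM 2))) 0))) = true) i hi
    rw [f1, f2] at this
    exact absurd this (by decide)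


/-- In the graph on the 759 octads of the length-24 code in which two octads are adjacent when they are disjoint, the graph is connected (of diameter 3) and two distinct octads are at distance 1, 2 or 3 exactly when they meet in 0, 4 or 2 points respectively. -/
theorem result (o o' : Finset Cfsg.GolayPt) (ho : o ∈ Cfsg.octads) (ho' : o' ∈ Cfsg.octads) (hne : o ≠ o') : (Cfsg.blockGraph Cfsg.octads).Connected ∧ ((Cfsg.blockGraph Cfsg.octads).dist ⟨o, ho⟩ ⟨o', ho'⟩ = 1 ↔ (o ∩ o').card = 0) ∧ ((Cfsg.blockGraph Cfsg.octads).dist ⟨o, ho⟩ ⟨o', ho'⟩ = 2 ↔ (o ∩ o').card = 4) ∧ ((Cfsg.blockGraph Cfsg.octads).dist ⟨o, ho⟩ ⟨o', ho'⟩ = 3 ↔ (o ∩ o').card = 2) := by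
  refine ⟨?_, ?_⟩
  · have : Nonempty Cfsg.octads := ⟨⟨o, ho⟩⟩
    refine ⟨fun a b => ?_⟩
    by_cases e : a = b
    · rw [e]
    rcases card_inter_octads a.2 b.2 (fun h => e (Subtype.ext h)) with h | h | h
    exacts [(d0 h).1, (d2 h).1, (d4 h).1]
  rcases card_inter_octads ho ho' hne with h | h | h
  · rw [(d0 (a := ⟨o, ho⟩) (b := ⟨o', ho'⟩) h).2, h]; norm_num
  · rw [(d2 (a := ⟨o, ho⟩) (b := ⟨o', ho'⟩) h).2, h]; norm_num
  · rw [(d4 (a := ⟨o, ho⟩) (b := ⟨o', ho'⟩) h).2, h]; norm_num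

end Cfsg.Agent.S5609
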