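import Cfsg.Statements.S5613
import Cfsg.Agent.H27.MCls

set_option autoImplicit false
open scoped Pointwise
open Cfsg

namespace Cfsg.Agent.S5613
open H27 MulAction
open scoped Pointwise


/-- In the group of the length-24 code, the joint stabiliser of two octads has order 10752, 1152 or 720 according as the octads meet in 0, 4 or 2 points. -/
theorem result (o o' : Finset Cfsg.GolayPt) (ho : o ∈ Cfsg.octads) (ho' : o' ∈ Cfsg.octads) : ((o ∩ o').card = 0 → Nat.card ↥(MulAction.stabilizer Cfsg.M24 o ⊓ MulAction.stabilizer Cfsg.M24 o') = 10752) ∧ ((o ∩ o').card = 4 → Nat.card ↥(MulAction.stabilizer Cfsg.M24 o ⊓ MulAction.stabilizer Cfsg.M24 o') = 1152) ∧ ((o ∩ o').card = 2 → Nat.card ↥(MulAction.stabilizer Cfsg.M24 o ⊓ MulAction.stabilizer Cfsg.M24 o') = 720) := by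
  exact ⟨fun h => by
    obtain ⟨g, rfl, rfl⟩ := exists_smul_oct2 ho ho' (r := 68) (by norm_num) (h.trans (by decide +kernel))
    exact ((CjRel.stab g _).inf (CjRel.stab g _)).card.trans (gOO_acts.card_inf_stab (k := 5) (X := orb gOO 5 (Nat.shiftLeft 1 68))
      (d := 10) (m := 30) cl_gO tabO.inj (by norm_num) (by norm_num) (by decide +kernel) (by norm_num) card_stab_eO),
    fun h => by
    obtain ⟨g, rfl, rfl⟩ := exists_smul_oct2 ho ho' (r := 1) (by norm_num) (h.trans (by decide +kernel))
    exact ((CjRel.stab g _).inf (CjRel.stab g _)).card.trans (gOO_acts.card_inf_stab (k := 8) (X := orb gOO 8 (Nat.shiftLeft 1 1))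
      (d := 10) (m := 280) cl_gO tabO.inj (by norm_num) (by norm_num) (by decide +kernel) (by norm_num) card_stab_eO),
    fun h => by
    obtain ⟨g, rfl, rfl⟩ := exists_smul_oct2 ho ho' (r := 2) (by norm_num) (h.trans (by decide +kernel))
    exact ((CjRel.stab g _).inf (CjRel.stab g _)).card.trans (gOO_acts.card_inf_stab (k := 8) (X := orb gOO 8 (Nat.shiftLeft 1 2))
      (d := 10) (m := 448) cl_gO tabO.inj (by norm_num) (by norm_num) (by decide +kernel) (by norm_num) card_stab_eO)⟩

end Cfsg.Agent.S5613
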