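import Cfsg.Statements.S5614
import Cfsg.Agent.H27.MX

set_option autoImplicit false
open scoped Pointwise
open Cfsg

namespace Cfsg.Agent.S5614
open H27 MulAction
open scoped Pointwise
noncomputable def gN : List Net := [(.cons 1 0x115544 (.cons 2 0x330200 (.cons 4 0xc00 (.cons 8 0xd3 (.cons 16 0xd7 (.cons 8 0x3 (.cons 4 0x900 (.cons 2 0x211300 (.cons 1 0x15500 .nil))))))))),
      (.cons 1 0x405104 (.cons 2 0x313002 (.cons 4 0x70b01 (.cons 8 0xe4 (.cons 16 0xb7 (.cons 8 0x16 (.cons 4 0x900 (.cons 2 0x113200 (.cons 1 0x504100 .nil)))))))))]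
theorem ga : ActsL 24 GE.e (gN.map mm) gN := actsL_mm (by decide +kernel)


/-- In the group of the length-24 code, the joint stabiliser of two octads meeting in exactly two points is isomorphic to the symmetric group of degree 6. -/
theorem result (o o' : Finset Cfsg.GolayPt) (ho : o ∈ Cfsg.octads) (ho' : o' ∈ Cfsg.octads) (h₂ : (o ∩ o').card = 2) : Nonempty (↥(MulAction.stabilizer Cfsg.M24 o ⊓ MulAction.stabilizer Cfsg.M24 o') ≃* Equiv.Perm (Fin 6)) := by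
  obtain ⟨g, rfl, rfl⟩ := exists_smul_oct2 ho ho' (r := 2) (by norm_num) (h₂.trans (by decide +kernel))
  refine ((CjRel.stab g _).inf (CjRel.stab g _)).iso ?_
  have c : Nat.card ↥(HO ⊓ stabilizer MM (eO 2)) = 720 := gOO_acts.card_inf_stab (k := 8) (b := 2) (X := orb gOO 8 (Nat.shiftLeft 1 2)) (d := 10) (m := 448) cl_gO tabO.inj (by norm_num)
    (by norm_num) (by decide +kernel) (by norm_num) card_stab_eO
  exact ((ga.sub (l := [1, 2, 3, 5, 14, 17]) (Ms := [(.cons 1 0x4 (.cons 2 0x2 (.cons 4 0x2 (.cons 1 0x4 .nil)))),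
      (.cons 1 0x4 (.cons 2 0x1 (.cons 4 0x3 (.cons 2 0x2 .nil))))]) (by decide +kernel)).iso_perm' (m := 6) (K := 3)
    (subT_injOn GE.injOn (by decide +kernel)) (mem_inf_of (ga.stab_eO (by decide +kernel)) (eO_stab ga (by norm_num) (by decide +kernel))) (by norm_num) (c.le)
    [([3, 3, 0, 2, 1], (.cons 2 0x2 (.cons 4 0x3 (.cons 2 0x3 .nil)))),
      ([3, 4, 3, 4, 2, 4, 4, 4], (.cons 2 0x2 (.cons 4 0x3 (.cons 2 0x2 (.cons 1 0x4 .nil))))),
      ([3, 0, 0, 0, 2, 1, 1, 3, 3, 3], (.cons 1 0x10 (.cons 2 0x1 (.cons 4 0x1 (.cons 2 0x1 .nil))))),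
      ([5, 2, 5, 2, 4, 2, 5], (.cons 1 0x4 (.cons 2 0x2 (.cons 4 0x2 (.cons 2 0x2 (.cons 1 0x10 .nil)))))),
      ([1, 2, 0], (.cons 2 0x2 (.cons 4 0x2 (.cons 2 0x2 (.cons 1 0x10 .nil))))),
      ([2, 5], (.cons 2 0x2 (.cons 4 0x2 (.cons 2 0x2 .nil)))),
      ([7, 7, 5, 5, 6, 4], (.cons 1 0x10 .nil)),
      ([5, 3, 1, 5, 3], (.cons 1 0x10 .nil))]
      [8, 9, 7, 6, 5, 4, 3, 2, 1, 0] [(1, 1, 2), (0, 2, 2), (2, 1, 2), (3, 1, 3), (4, 1, 1)] (by decide +kernel)).2.2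

end Cfsg.Agent.S5614
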