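import Cfsg.Statements.S5615
import Cfsg.Agent.H9.Mz1

set_option autoImplicit false
open scoped Pointwise
open Cfsg

namespace Cfsg.Agent.S5615
open H27 MulAction
open scoped Pointwise
open H9
noncomputable def P : Nat := 0x82402f742a4009959082402f60b5401d0a9082402f5d144020ab9082402f659280182d5082402f4cac8031135082402f498b4034349082402f4539103886c082402f6920d0149f0082402f6c071011b8c082402f710d800cb25082402f583380258c5082402f401ed03da10082402f51a6102c19c082402f5481d0293e0082402f7898100527c0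
noncomputable def eF : Nat → Finset (Finset Cfsg.GolayPt) := GE.tfam 3 P
noncomputable def gN : List Net := [(.cons 1 0x41501 (.cons 2 0x313122 (.cons 4 0x60b02 (.cons 8 0x82 (.cons 16 0x63 (.cons 8 0x1 (.cons 4 0x70000 (.cons 2 0x310310 (.cons 1 0x405404 .nil))))))))),
  (.cons 1 0x450054 (.cons 2 0x232021 (.cons 4 0xf0905 (.cons 8 0x66 (.cons 16 0xd6 (.cons 8 0x92 (.cons 4 0x30b00 (.cons 2 0x200110 (.cons 1 0x551010 .nil))))))))),
  (.cons 1 0x514510 (.cons 2 0x113322 (.cons 4 0x90c04 (.cons 8 0x3a (.cons 16 0x4f (.cons 8 0x4a (.cons 4 0xa0600 (.cons 2 0x23310 (.cons 1 0x551144 .nil))))))))),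
  (.cons 1 0x440515 (.cons 2 0x303232 (.cons 4 0x80d07 (.cons 8 0x97 (.cons 16 0x76 (.cons 8 0x34 (.cons 4 0x30a00 (.cons 2 0x11320 (.cons 1 0x441450 .nil))))))))),
  (.cons 1 0x404151 (.cons 2 0x213231 (.cons 4 0x10306 (.cons 8 0x73 (.cons 16 0xa3 (.cons 8 0xa1 (.cons 4 0x90300 (.cons 2 0x310 (.cons 1 0x500000 .nil))))))))),
  (.cons 1 0x540005 (.cons 2 0x32210 (.cons 4 0x50002 (.cons 8 0x73 (.cons 16 0x3f (.cons 8 0x13 (.cons 4 0x40000 (.cons 2 0x232110 (.cons 1 0x504510 .nil))))))))),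
  (.cons 1 0x410544 (.cons 2 0x202211 (.cons 4 0x30700 (.cons 8 0xef (.cons 16 0xbf (.cons 8 0x3f (.cons 4 0x40000 (.cons 2 0x13200 (.cons 1 0x511540 .nil)))))))))]
noncomputable def gM : List Net := [(.cons 1 0x144 (.cons 2 0x31 (.cons 4 0x60a (.cons 8 0x2c (.cons 4 0x408 (.cons 2 0x202 (.cons 1 0x1044 .nil))))))),
  (.cons 1 0x1010 (.cons 2 0x1213 (.cons 4 0x306 (.cons 8 0x5a (.cons 4 0x600 (.cons 2 0x110 (.cons 1 0x510 .nil))))))),
  (.cons 1 0x1501 (.cons 2 0x103 (.cons 4 0x208 (.cons 8 0x5a (.cons 4 0x508 (.cons 2 0x222 (.cons 1 0x1 .nil))))))),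
  (.cons 1 0x1400 (.cons 2 0x1312 (.cons 4 0x100 (.cons 8 0x64 (.cons 4 0x200 (.cons 2 0x110 .nil)))))),
  (.cons 1 0x1504 (.cons 2 0x110 (.cons 4 0x30c (.cons 8 0x58 (.cons 4 0x508 (.cons 2 0x20 (.cons 1 0x504 .nil))))))),
  (.cons 1 0x1140 (.cons 2 0x300 (.cons 4 0x700 (.cons 8 0x38 (.cons 4 0x100 (.cons 2 0x1200 (.cons 1 0x500 .nil))))))),
  (.cons 1 0x1504 (.cons 2 0x130 (.cons 4 0x508 (.cons 8 0x3c (.cons 4 0x108 (.cons 2 0x320 (.cons 1 0x504 .nil)))))))]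
noncomputable def kM : List Net := [.nil,
  .nil,
  .nil,
  .nil]
theorem ga : ActsL 24 GE.e (gN.map mm) gN := actsL_mm (by decide +kernel)
theorem gF : ActsL 15 eF (gN.map mm) gM := GE.actsL_tfam ga (by decide +kernel)
theorem gm : ∀ g ∈ gN.map mm, g ∈ HO := ga.stab_eO (by decide +kernel)
theorem c15 : {T : Finset (Finset Cfsg.GolayPt) | T ∈ Cfsg.trios ∧ eO 0 ∈ T}.ncard = 15 :=
  (tabT.ncard_eq_pop (x := Enum.tblkEq 24 2 3795 TT 0 oct0) (d := 12) (fun _ h => h.1) (by norm_num) fun i hi => by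
    simp only [Set.mem_ofPred_eq, tabT.mem i hi, true_and]
    rw [eO_zero]; exact GE.fs_mem_tpart_iff hi (by norm_num) (by decide +kernel)).trans (by decide +kernel)
theorem tabF : Tab {T : Finset (Finset Cfsg.GolayPt) | T ∈ Cfsg.trios ∧ eO 0 ∈ T} 15 eF :=
  tabc (tfam_inj GE (by decide +kernel)) (fun i hi => ⟨fam_mem_trios (by revert i; decide +kernel) (by revert i; decide +kernel)
    (by revert i; decide +kernel), by
      rw [eO_zero]; exact (GE.fs_mem_fam (Enum.famL_lt _ _ _ _) (by decide +kernel)).2 (by revert i; decide +kernel)⟩)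
    (Set.toFinite _) c15.le
theorem two {T U : Finset (Finset Cfsg.GolayPt)} (h1 : T ∈ Cfsg.trios) (h2 : U ∈ Cfsg.trios) (h3 : eO 0 ∈ T) (h4 : eO 0 ∈ U)
    (h : T ≠ U) : ∃ k ∈ HO, k • eF 0 = T ∧ k • eF 1 = U := by
  simpa using gF.transOn tabF.inj [(0, 2, 2), (1, 4, 2)] gm (X := ones 15) (fun g hg y hy => by
    rw [tabF.mset_ones] at hy ⊢
    exact ⟨(mm_smul_trios g).2 hy.1, (show g • eO 0 = eO 0 from hg) ▸ Finset.smul_mem_smul_finset hy.2⟩)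
    (by decide +kernel) [T, U] (by simpa) (by rw [tabF.mset_ones]; simp [*]) rfl
theorem ker {g : MM} (hg : g ∈ HO) : (∀ i < 15, g • eF i = eF i) ↔ g ∈ fixM oct0 := by
  have b : ∀ g ∈ fixM oct0, ∀ i < 15, g • eF i = eF i := fun g hg i hi => by
    rw [fix_oct0, ← sg_level6.1] at hg
    exact (GE.actsL_tfam (sg_drop 6) (Ms := kM) (by decide +kernel)).fix hi (by revert i; decide +kernel) hg
  refine ⟨fun a => ?_, b g⟩
  obtain ⟨N, -, c, -, d⟩ := (GE.actsL_tfam gO_acts (Ms := gM.take 2) (by decide +kernel)).quot_iso tabF.inj cl_gO ⟨MulEquiv.refl _⟩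
  have l := le_card_netGrp (m := 15) (K := 4) (c := 20160) (Ms := gM.take 2) (by norm_num)
    (fun _ => (GE.actsL_tfam gO_acts (k := 3) (P := P) (by decide +kernel)).ok) [([0, 2, 0, 3, 0, 2, 2], (.cons 1 0x450 (.cons 2 0x332 (.cons 4 0x100 (.cons 8 0x7c (.cons 4 0x208 (.cons 2 0x230 (.cons 1 0x1050 .nil)))))))),
      ([2, 5, 3, 5, 2, 2, 2, 5, 3], (.cons 1 0x444 (.cons 2 0x222 (.cons 4 0x406 (.cons 8 0x68 (.cons 4 0x208 (.cons 2 0x1120 (.cons 1 0x1410 .nil)))))))),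
      ([3, 1, 1, 2, 2], (.cons 1 0x1444 (.cons 2 0x10 (.cons 4 0x500 (.cons 8 0x34 (.cons 4 0x600 (.cons 2 0x1020 (.cons 1 0x104 .nil)))))))),
      ([3, 3, 4, 4, 4, 2], (.cons 1 0x514 (.cons 2 0x1030 (.cons 4 0x30c (.cons 8 0x1c (.cons 4 0x8 (.cons 2 0x1010 (.cons 1 0x1104 .nil)))))))),
      ([1, 3, 3, 0], (.cons 1 0x410 (.cons 2 0x1000 (.cons 4 0x200 .nil)))),
      ([5, 3, 4, 2, 4, 2], (.cons 1 0x1000 (.cons 2 0x1120 (.cons 4 0x308 (.cons 8 0x18 (.cons 4 0x108 (.cons 2 0x120 (.cons 1 0x1000 .nil)))))))),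
      ([5, 6, 4, 7, 7], (.cons 1 0x1000 (.cons 2 0x220 (.cons 4 0x608 (.cons 8 0x18 (.cons 4 0x8 (.cons 2 0x220 (.cons 1 0x1000 .nil))))))))]
      [7, 8, 6, 5, 4, 3, 2, 1, 0] [(0, 2, 2), (1, 2, 2), (3, 2, 2), (4, 1, 3)] (by decide +kernel)
  have e : fixM oct0 ≤ HO := fun g hg => mem_stab_of_fix (eO_zero ▸ mem_fixM.1 hg)
  have : (fixM oct0).subgroupOf HO = N := Subgroup.eq_of_le_of_card_ge (fun k hk => (c k).2 (b k hk)) (by
    rw [Nat.card_congr (Subgroup.subgroupOfEquivOfLe e).toEquiv, card_fix_oct0]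
    rw [card_stab_eO] at d
    nlinarith)
  exact show (⟨g, hg⟩ : HO) ∈ (fixM oct0).subgroupOf HO from this ▸ (c _).2 a


/-- An octad of the length-24 code lies in exactly 15 trios; the stabiliser of the octad in the code's group acts doubly transitively on these 15 trios, and the kernel of this action is the pointwise stabiliser of the octad. -/
theorem result (o : Finset Cfsg.GolayPt) (ho : o ∈ Cfsg.octads) : {T : Finset (Finset Cfsg.GolayPt) | T ∈ Cfsg.trios ∧ o ∈ T}.ncard = 15 ∧ (∀ T₁ T₂ T₁' T₂' : Finset (Finset Cfsg.GolayPt), T₁ ∈ Cfsg.trios → T₂ ∈ Cfsg.trios → T₁' ∈ Cfsg.trios → T₂' ∈ Cfsg.trios → o ∈ T₁ → o ∈ T₂ → o ∈ T₁' → o ∈ T₂' → T₁ ≠ T₂ → T₁' ≠ T₂' → ∃ g ∈ Cfsg.M24, g • o = o ∧ g • T₁ = T₁' ∧ g • T₂ = T₂') ∧ ∀ g ∈ Cfsg.M24, g • o = o → ((∀ T ∈ Cfsg.trios, o ∈ T → g • T = T) ↔ ∀ p ∈ o, g p = p) := by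
  obtain ⟨g, rfl⟩ := exists_smul_eO ho
  refine ⟨(ncard_smul g fun y => by
    simp only [Set.mem_ofPred_eq, mm_smul_trios, Finset.smul_mem_smul_finset_iff]).trans c15,
    fun T U T' U' h1 h2 h3 h4 h5 h6 h7 h8 a b => ?_, fun k hk a => ?_⟩
  · obtain ⟨T, rfl⟩ := exists_eq_smul g T
    obtain ⟨U, rfl⟩ := exists_eq_smul g U
    obtain ⟨T', rfl⟩ := exists_eq_smul g T'
    obtain ⟨U', rfl⟩ := exists_eq_smul g U'
    simp only [mm_smul_trios, Finset.smul_mem_smul_finset_iff, ne_eq, smul_left_cancel_iff] at h1 h2 h3 h4 h5 h6 h7 h8 a b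
    obtain ⟨k, hk, rfl, rfl⟩ := two h1 h2 h5 h6 a
    obtain ⟨l, hl, rfl, rfl⟩ := two h3 h4 h7 h8 b
    refine ⟨(g * (l * k⁻¹) * g⁻¹ : MM), (g * (l * k⁻¹) * g⁻¹).2, (CjRel.stab g (eO 0) _).1 (mul_mem hl (inv_mem hk)), ?_, ?_⟩
    · change (g * (l * k⁻¹) * g⁻¹) • (g • k • eF 0) = _
      simp only [mul_smul, inv_smul_smul]
    · change (g * (l * k⁻¹) * g⁻¹) • (g • k • eF 1) = _
      simp only [mul_smul, inv_smul_smul]
  obtain ⟨k, rfl⟩ : ∃ l : MM, ((g * l * g⁻¹ : MM) : Equiv.Perm _) = k := ⟨g⁻¹ * ⟨k, hk⟩ * g, by simp [mul_assoc]⟩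
  have c := ker ((CjRel.stab g (eO 0) k).2 a)
  change (∀ T ∈ Cfsg.trios, g • eO 0 ∈ T → (g * k * g⁻¹) • T = T) ↔ ∀ p ∈ g • eO 0, (g * k * g⁻¹) • p = p
  rw [forall_smul_iff g, forall_smul_iff g (P := fun p : Cfsg.GolayPt => _)]
  simp only [mm_smul_trios, Finset.smul_mem_smul_finset_iff, fixed_conj]
  rw [eO_zero, ← mem_fixM, ← c, ← tabF.forall_iff (P := fun T => k • T = T), eO_zero]
  simp only [Set.mem_ofPred_eq, and_imp]

end Cfsg.Agent.S5615
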