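import Cfsg.Statements.S5618
import Cfsg.Agent.H27.MX

set_option autoImplicit false
open scoped Pointwise
open Cfsg

namespace Cfsg.Agent.S5618
open H27 MulAction
open scoped Pointwise
noncomputable def gN : List Net := [(.cons 1 0x410550 (.cons 2 0x312320 (.cons 4 0x709 (.cons 8 0xf4 (.cons 16 0x95 (.cons 8 0x85 (.cons 4 0x80400 (.cons 2 0x220220 (.cons 1 0x454014 .nil))))))))),
      (.cons 1 0x4451 (.cons 2 0x202001 (.cons 4 0x70802 (.cons 8 0xea (.cons 16 0x5a (.cons 8 0x1a (.cons 4 0x10c00 (.cons 2 0x30200 (.cons 1 0x55004 .nil)))))))))]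
theorem ga : ActsL 24 GE.e (gN.map mm) gN := actsL_mm (by decide +kernel)


/-- For a dodecad d of the length-24 code and a hexad C on it (a 6-point intersection of d with an octad): the joint stabiliser of d and C in the code's group is isomorphic to the symmetric group of degree 6, and it acts faithfully both on the six points of C and on the six points of d outside C. -/
theorem result (d : Finset Cfsg.GolayPt) (hd : d ∈ Cfsg.dodecads) (C : Finset Cfsg.GolayPt) (hC : C ∈ Cfsg.hexadsOn d) : Nonempty (↥(MulAction.stabilizer Cfsg.M24 d ⊓ MulAction.stabilizer Cfsg.M24 C) ≃* Equiv.Perm (Fin 6)) ∧ (∀ g ∈ MulAction.stabilizer Cfsg.M24 d ⊓ MulAction.stabilizer Cfsg.M24 C, (∀ p ∈ C, ((g : ↥Cfsg.M24) : Equiv.Perm Cfsg.GolayPt) p = p) → g = 1) ∧ ∀ g ∈ MulAction.stabilizer Cfsg.M24 d ⊓ MulAction.stabilizer Cfsg.M24 C, (∀ p ∈ d \ C, ((g : ↥Cfsg.M24) : Equiv.Perm Cfsg.GolayPt) p = p) → g = 1 := by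
  obtain ⟨h6, o, ho, rfl⟩ := hC
  obtain ⟨s, hs, h5⟩ := Finset.exists_subset_card_eq (n := 5) (s := o ∩ d) (by omega)
  obtain ⟨g, rfl, a⟩ := exists_smul_dod hd s.toList s.nodup_toList
    (fun y hy => (Finset.mem_inter.1 (hs (Finset.mem_toList.1 hy))).2) (by simp [h5])
  rw [Finset.length_toList, h5] at a
  have b := smul_toFinset a
  obtain ⟨o, rfl⟩ := exists_eq_smul g o
  rw [← b, ← mm_smul_inter, mm_smul_subset] at hs
  rw [mm_smul_octads] at ho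
  obtain rfl : o = GE.fs 0x149f := octad_eq_of_five ho (fs_mem_octads_of (by decide +kernel)) (le_trans (by decide +kernel)
    (Finset.card_le_card (Finset.subset_inter (hs.trans Finset.inter_subset_left) (by decide +kernel))))
  rw [← mm_smul_inter, show GE.fs 0x149f ∩ eD 0 = GE.fs 0x101f by rw [eD_zero, ← GE.fs_and]; rfl]
  have R := (CjRel.stab g (eD 0)).inf (CjRel.stab g (GE.fs 0x101f))
  have f : ∀ k ∈ H12 ⊓ stabilizer MM (GE.fs 0x101f), (∀ i < 6, k • subT GE.e [0, 1, 2, 3, 4, 12] i = subT GE.e [0, 1, 2, 3, 4, 12] i) → k = 1 := fun k hk h => by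
    rw [← Subgroup.mem_bot, ← Subgroup.card_eq_one.1 card_D5]
    refine ⟨hk.1, mem_fixM'.2 fun i hi c => ?_⟩
    have : i < 5 := by revert i; decide +kernel
    have := h i (by omega)
    interval_cases i <;> exact this
  obtain ⟨-, c⟩ := card_le_of_faith (H := H12 ⊓ stabilizer MM (GE.fs 0x101f)) (subT_injOn GE.injOn (by decide +kernel))
    (fun k hk => closed_of_stab (by decide +kernel) hk.2) f
  have u := (ga.sub (l := [0, 1, 2, 3, 4, 12]) (Ms := [(.cons 1 0x10 (.cons 2 0x2 (.cons 4 0x3 (.cons 2 0x2 (.cons 1 0x14 .nil))))),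
      (.cons 1 0x11 (.cons 2 0x1 (.cons 4 0x2 (.cons 1 0x4 .nil))))]) (by decide +kernel)).iso_perm' (m := 6) (K := 3)
    (subT_injOn GE.injOn (by decide +kernel)) (mem_inf_of (ga.stab_eD (by decide +kernel)) (ga.stab_gfs (by decide +kernel))) (by norm_num) (c)
    [([2, 1, 2, 0, 2, 1], (.cons 1 0x14 (.cons 2 0x2 (.cons 4 0x2 .nil)))),
      ([3, 4, 4, 4, 2, 2, 4], (.cons 1 0x4 (.cons 4 0x2 (.cons 2 0x2 .nil)))),
      ([1, 2, 0, 3, 0, 2, 2], (.cons 1 0x4 (.cons 2 0x1 (.cons 4 0x1 (.cons 2 0x1 (.cons 1 0x10 .nil)))))),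
      ([2, 2, 5], (.cons 2 0x2 (.cons 4 0x2 (.cons 2 0x2 (.cons 1 0x10 .nil))))),
      ([0, 3, 0, 0, 3], (.cons 1 0x10 (.cons 2 0x2 (.cons 4 0x2 (.cons 2 0x2 .nil))))),
      ([4, 3, 4, 4, 2, 2], (.cons 2 0x2 (.cons 4 0x2 (.cons 2 0x2 .nil)))),
      ([3, 0, 0, 0, 2], (.cons 1 0x10 .nil))]
      [7, 8, 6, 5, 4, 3, 2, 1, 0] [(0, 1, 2), (1, 1, 2), (2, 1, 2), (3, 1, 2), (4, 1, 1)] (by decide +kernel)
  have v := (ga.sub (l := [6, 8, 9, 13, 16, 18]) (Ms := [(.cons 1 0x1 (.cons 2 0x3 (.cons 4 0x2 (.cons 1 0x10 .nil)))),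
      (.cons 1 0x14 (.cons 2 0x3 (.cons 4 0x3 (.cons 2 0x2 .nil))))]) (by decide +kernel)).iso_perm' (m := 6) (K := 3)
    (subT_injOn GE.injOn (by decide +kernel)) (mem_inf_of (ga.stab_eD (by decide +kernel)) (ga.stab_gfs (by decide +kernel))) (by norm_num) (c)
    [([2, 1, 2, 0, 2, 2], (.cons 1 0x4 (.cons 2 0x2 (.cons 4 0x2 (.cons 1 0x10 .nil))))),
      ([3, 5, 3, 5, 5, 5, 5], (.cons 1 0x10 (.cons 2 0x2 (.cons 4 0x2 (.cons 2 0x2 (.cons 1 0x10 .nil)))))),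
      ([2, 2, 0, 2, 0, 3, 1, 3, 0, 2], (.cons 2 0x2 (.cons 4 0x2 (.cons 2 0x2 (.cons 1 0x10 .nil))))),
      ([5, 5, 3, 5], (.cons 1 0x4 (.cons 2 0x3 (.cons 4 0x3 (.cons 2 0x3 .nil))))),
      ([1, 3, 1, 1, 3], (.cons 1 0x10 (.cons 2 0x2 (.cons 4 0x2 (.cons 2 0x2 (.cons 1 0x10 .nil)))))),
      ([3, 4, 2, 2, 2, 5], (.cons 2 0x2 (.cons 4 0x2 (.cons 2 0x2 (.cons 1 0x10 .nil))))),
      ([3, 0, 0], (.cons 1 0x10 .nil))]
      [7, 8, 6, 5, 4, 3, 2, 1, 0] [(0, 2, 2), (1, 1, 2), (2, 1, 2), (3, 1, 2), (4, 1, 1)] (by decide +kernel)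
  refine ⟨R.iso u.2.2, R.faith (P := (· ∈ g • GE.fs 0x101f)) fun k hk h => f k hk fun i hi => h _ ?_,
    R.faith (P := (· ∈ g • eD 0 \ g • GE.fs 0x101f)) fun k hk h => v.2.1 k hk fun i hi => h _ ?_⟩
  · exact Finset.smul_mem_smul_finset (subT_mem (by decide +kernel) i hi)
  · rw [← Finset.smul_finset_sdiff]
    refine Finset.smul_mem_smul_finset ?_
    rw [eD_zero]; revert i; decide +kernel

end Cfsg.Agent.S5618
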