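import Cfsg.Statements.S5619
import Cfsg.Agent.H9.Mz2

set_option autoImplicit false
open scoped Pointwise
open Cfsg

namespace Cfsg.Agent.S5619
open H27 MulAction
open scoped Pointwise
open H9
theorem gen {X : Type*} [Group X] [Finite X] (hX : Nat.card X = 72) {N : Subgroup X} (n1 : N.Normal) (n2 : Nat.card N = 9)
    (n3 : ∀ x ∈ N, x ^ 3 = 1) {P : Subgroup X} (e : Nonempty (P ≃* QuaternionGroup 2)) :
    (∀ Q : Sylow 3 X, (Q : Subgroup X).Normal ∧ Nat.card Q = 9 ∧ ∀ x ∈ (Q : Subgroup X), x ^ 3 = 1) ∧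
    ∀ P : Sylow 2 X, Nonempty (P ≃* QuaternionGroup 2) := by
  have := Fact.mk Nat.prime_three
  have c8 : Nat.card P = 2 ^ 3 := by
    rw [Nat.card_congr e.some.toEquiv, Nat.card_eq_fintype_card, QuaternionGroup.card]; rfl
  refine ⟨fun Q => ?_, fun Q => ⟨(Sylow.equiv Q (Sylow.ofCard P (by
    rw [c8, hX, show 72 = 2 ^ 3 * 3 ^ 2 from rfl, Nat.factorization_mul (by norm_num) (by norm_num), Nat.factorization_pow,
      Nat.factorization_pow]
    simp [Nat.prime_two.factorization, Nat.prime_three.factorization]))).trans e.some⟩⟩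
  let R : Sylow 3 X := Sylow.ofCard N (by
    rw [n2, hX, show 72 = 2 ^ 3 * 3 ^ 2 from rfl, Nat.factorization_mul (by norm_num) (by norm_num), Nat.factorization_pow,
      Nat.factorization_pow]
    simp [Nat.prime_two.factorization, Nat.prime_three.factorization])
  have := Sylow.unique_of_normal R n1
  rw [Subsingleton.elim Q R]
  exact ⟨n1, n2, n3⟩
noncomputable def kN : List Net := [(.cons 1 0x155150 (.cons 2 0x33120 (.cons 4 0x30e08 (.cons 8 0x9a (.cons 16 0xb2 (.cons 8 0x82 (.cons 4 0x30a00 (.cons 2 0x13120 (.cons 1 0x455050 .nil))))))))),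
  (.cons 1 0x410140 (.cons 2 0x332200 (.cons 4 0x30500 (.cons 8 0x9e (.cons 16 0x5e (.cons 8 0x46 (.cons 4 0x70100 (.cons 2 0x332200 (.cons 1 0x111140 .nil)))))))))]
noncomputable def qN : List Net := [(.cons 1 0x500 (.cons 2 0x301230 (.cons 4 0x50208 (.cons 8 0xb5 (.cons 16 0x1d (.cons 8 0xd (.cons 4 0x40100 (.cons 2 0x123000 (.cons 1 0x101500 .nil))))))))),
  (.cons 1 0x514510 (.cons 2 0x1330 (.cons 4 0x20908 (.cons 8 0x90 (.cons 16 0xf0 (.cons 8 0x60 (.cons 4 0x90d00 (.cons 2 0x321200 (.cons 1 0x411010 .nil))))))))),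
  (.cons 1 0x540410 (.cons 2 0x32010 (.cons 4 0xd0b00 (.cons 8 0xac (.cons 16 0xd4 (.cons 8 0x84 (.cons 4 0xd0a00 (.cons 2 0x22000 (.cons 1 0x440410 .nil)))))))))]
noncomputable def qM : List Net := [(.cons 1 0x55 (.cons 2 0x12 .nil)),
  (.cons 2 0x3 (.cons 4 0xf .nil)),
  (.cons 2 0x33 .nil)]
theorem ka : ActsL 24 GE.e (kN.map mm) kN := actsL_mm (by decide +kernel)
theorem qa : ActsL 24 GE.e (qN.map mm) qN := actsL_mm (by decide +kernel)
noncomputable def eQ (i : Nat) : QuaternionGroup 2 := nth 1 [.a 0, .a 1, .a 2, .a 3, .xa 0, .xa 1, .xa 2, .xa 3] i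
theorem xa : ActsL 8 eQ [QuaternionGroup.a (1 : ZMod (2 * 2)), .xa 0, .a 2] qM :=
  .cons ⟨Net.ok_of_valid (by decide +kernel), show ∀ i < 8, _ * eQ i = eQ _ by decide +kernel⟩
   (.cons ⟨Net.ok_of_valid (by decide +kernel), show ∀ i < 8, _ * eQ i = eQ _ by decide +kernel⟩
   (.cons ⟨Net.ok_of_valid (by decide +kernel), show ∀ i < 8, _ * eQ i = eQ _ by decide +kernel⟩ .nil))
theorem iso : Nonempty (cl (qN.map mm) ≃* QuaternionGroup 2) := by
  obtain ⟨f, c, -⟩ := qa.pc (K := 5) (A := ⊤) (fun _ _ => MM_faithful) (C := [(2, [1], [[1, 0], [1]]),  (2, [0], [[0]]),  (2, [], [])]) (fun _ _ => trivial) (by decide +kernel)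
  exact (qa.sub (l := [3, 8, 13, 12, 4, 6, 9, 16]) (Ms := qM) (by decide +kernel)).iso_cover (K := 3) (c := 8) (subT_injOn GE.injOn (by decide +kernel))
    (fun i hi j hj => (by decide +kernel : ∀ i < 8, ∀ j < 8, eQ i = eQ j → i = j) i hi j hj) xa (fun _ => mem_cl) c
    (MonoidHom.id _) (fun g hg i _ => by rw [show g = 1 from hg, one_smul])
    (by rw [Nat.card_eq_fintype_card, QuaternionGroup.card]) (by norm_num) [] [0, 1] [(0, 3, 2)] (by decide +kernel)


/-- In the group of the length-24 code, the subgroup fixing a dodecad setwise and three of its points individually (a group of order 72) has a normal Sylow 3-subgroup that is elementary abelian of order 9, and its Sylow 2-subgroups are quaternion of order 8. -/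
theorem result (d : Finset Cfsg.GolayPt) (hd : d ∈ Cfsg.dodecads) (p q r : Cfsg.GolayPt) (hp : p ∈ d) (hq : q ∈ d) (hr : r ∈ d) (hpq : p ≠ q) (hpr : p ≠ r) (hqr : q ≠ r) : (∀ Q : Sylow 3 ↥(MulAction.stabilizer Cfsg.M24 d ⊓ MulAction.stabilizer Cfsg.M24 p ⊓ MulAction.stabilizer Cfsg.M24 q ⊓ MulAction.stabilizer Cfsg.M24 r), (Q : Subgroup ↥(MulAction.stabilizer Cfsg.M24 d ⊓ MulAction.stabilizer Cfsg.M24 p ⊓ MulAction.stabilizer Cfsg.M24 q ⊓ MulAction.stabilizer Cfsg.M24 r)).Normal ∧ Nat.card ↥Q = 9 ∧ ∀ x ∈ (Q : Subgroup ↥(MulAction.stabilizer Cfsg.M24 d ⊓ MulAction.stabilizer Cfsg.M24 p ⊓ MulAction.stabilizer Cfsg.M24 q ⊓ MulAction.stabilizer Cfsg.M24 r)), x ^ 3 = 1) ∧ ∀ P : Sylow 2 ↥(MulAction.stabilizer Cfsg.M24 d ⊓ MulAction.stabilizer Cfsg.M24 p ⊓ MulAction.stabilizer Cfsg.M24 q ⊓ MulAction.stabilizer Cfsg.M24 r), Nonempty (↥P ≃* QuaternionGroup 2) := by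
  obtain ⟨g, rfl, rfl, rfl, rfl⟩ := exists_smul_dod3 hd hp hq hr hpq hpr hqr
  have R := (((CjRel.stab g (eD 0)).inf (CjRel.stab g (GE.e 0))).inf (CjRel.stab g (GE.e 1))).inf (CjRel.stab g (GE.e 2))
  rw [stab3_eq] at R
  obtain ⟨a, b, c⟩ := exists_normal_cl (sD_drop 3) sD_cl3 ka (mem_inf_of (ka.stab_eD (by decide +kernel)) (ka.mem_fixM (by decide +kernel))) (c := 9) (p := 3) (C := [(3, [], [[0]]),
      (3, [], [])])
      (L := [(3, 2, 2)]) (W := [[[0, 0], [2, 2]], [[2], [0, 0]], [[2, 2, 0], [2, 2, 0, 0]]]) (by decide +kernel)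
  obtain ⟨e⟩ := R.equiv
  obtain ⟨N, a, b, c, -⟩ := exists_normal_of_equiv e ⟨_, a, b, c, ⟨MulEquiv.refl _⟩⟩
  exact gen (R.card.trans card_D3) a b c ⟨(((cl (qN.map mm)).subgroupOf _).equivMapOfInjective e.toMonoidHom e.injective).symm.trans
    ((Subgroup.subgroupOfEquivOfLe (cl_le (mem_inf_of (qa.stab_eD (by decide +kernel)) (qa.mem_fixM (by decide +kernel))))).trans iso.some)⟩

end Cfsg.Agent.S5619
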