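import Cfsg.Statements.S5620
import Cfsg.Agent.H27.MX

set_option autoImplicit false
open scoped Pointwise
open Cfsg

namespace Cfsg.Agent.S5620
open H27 MulAction
open scoped Pointwise
noncomputable def uN : Net := (.cons 1 0x551445 (.cons 2 0x322111 (.cons 4 0xf070e (.cons 8 0x43 (.cons 16 0x7f (.cons 8 0x1e (.cons 4 0x90700 (.cons 2 0x21210 (.cons 1 0x40404 .nil)))))))))
noncomputable def yN : Net := (.cons 1 0x15501 (.cons 2 0x1321 (.cons 4 0x50607 (.cons 8 0xb4 (.cons 16 0x7a (.cons 8 0x18 (.cons 4 0x70000 (.cons 2 0x11100 (.cons 1 0x44400 .nil)))))))))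


/-- Inside the stabiliser of the dodecad of squares (a Mathieu group of degree 12), the stabiliser of the residue 0 (a point of the dodecad) and the stabiliser of the extra point (a point outside the dodecad) are isomorphic but not conjugate; conjugation by a suitable element of the code's group that maps the dodecad of squares onto its complement carries the first onto the second. -/
theorem result : Nonempty (↥(Cfsg.Spor.M12 ⊓ MulAction.stabilizer (Equiv.Perm Cfsg.GolayPt) (none : Cfsg.GolayPt)) ≃* ↥Cfsg.Spor.M11) ∧ (¬ ∃ k ∈ Cfsg.Spor.M12, MulAut.conj k • Cfsg.Spor.M11 = Cfsg.Spor.M12 ⊓ MulAction.stabilizer (Equiv.Perm Cfsg.GolayPt) (none : Cfsg.GolayPt)) ∧ ∃ g ∈ Cfsg.M24, g • Cfsg.Spor.squareDodecad = Finset.univ \ Cfsg.Spor.squareDodecad ∧ MulAut.conj g • Cfsg.Spor.M11 = Cfsg.Spor.M12 ⊓ MulAction.stabilizer (Equiv.Perm Cfsg.GolayPt) (none : Cfsg.GolayPt) := by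
  have ua : Acts 24 GE.e (mm uN) uN := acts_mm (by decide +kernel)
  have u1 : mm uN • eD 0 = (eD 0)ᶜ := by rw [eD_zero, ← GE.fs_compl]; exact ua.smul_gfs (by decide +kernel)
  have u2 : mm uN • GE.e 0 = GE.e 23 := ua.act 0 (by norm_num)
  have R := (CjRel.stab' u1).inf (CjRel.stab' u2)
  have sc : stabilizer MM (eD 0)ᶜ = H12 := by ext k; rw [mem_stabilizer_iff, mm_smul_compl, compl_inj_iff]; rfl
  rw [sc] at R
  have key : MulAut.conj (mm uN : Equiv.Perm Cfsg.GolayPt) • Spor.M11 =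
      Spor.M12 ⊓ stabilizer (Equiv.Perm Cfsg.GolayPt) (none : Cfsg.GolayPt) := by
    ext x; constructor
    · rintro ⟨y, hy, rfl⟩
      have := (R ⟨y, hy.1.1⟩).1 ((mem_M11 _).1 hy)
      exact ⟨(mem_M12 _).2 this.1, this.2⟩
    · intro hx
      have := (R.symm ⟨x, hx.1.1⟩).1 ⟨(mem_M12 _).1 hx.1, hx.2⟩
      exact ⟨_, (mem_M11 _).2 this, by simp [mul_assoc]⟩
  refine ⟨key ▸ ⟨(Subgroup.equivSMul _ _).symm⟩, fun ⟨k, hk, a⟩ => ?_, mm uN, (mm uN).2, ?_, key⟩
  · have ya : Acts 24 GE.e (mm yN) yN := acts_mm (by decide +kernel)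
    have ym : (mm yN : Equiv.Perm Cfsg.GolayPt) ∈ Spor.M12 ⊓ stabilizer (Equiv.Perm Cfsg.GolayPt) (none : Cfsg.GolayPt) :=
      ⟨(mem_M12 _).2 (by rw [H12, eD_zero]; exact ya.smul_gfs (by decide +kernel)), ya.act 23 (by norm_num)⟩
    rw [← a] at ym
    obtain ⟨z, hz, b⟩ := ym
    have c : (⟨k, hk.1⟩ : MM) • GE.e 0 ∈ fixF (mm yN) := by
      rw [mem_fixF]
      change (mm yN : Equiv.Perm Cfsg.GolayPt) (k (GE.e 0)) = k (GE.e 0)
      rw [← b]
      change k (z (k⁻¹ (k (GE.e 0)))) = _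
      rw [show k⁻¹ (k (GE.e 0)) = GE.e 0 from k.symm_apply_apply _, show z (GE.e 0) = GE.e 0 from hz.2]
    have d : (⟨k, hk.1⟩ : MM) • GE.e 0 ∈ eD 0 := by
      rw [← mem_stabilizer_iff.1 ((mem_M12 ⟨k, hk.1⟩).1 hk), Finset.smul_mem_smul_finset_iff, eD_zero]; decide +kernel
    rw [ya.fixF_eq (x := 0xd00800) (by decide +kernel)] at c
    rw [eD_zero] at d
    exact Finset.disjoint_left.1 (by decide +kernel) c d
  · rw [← eD_zero_eq, ← Finset.compl_eq_univ_sdiff]; exact u1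

end Cfsg.Agent.S5620
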