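import Cfsg.Statements.S5621
import Cfsg.Agent.Lead.St2

set_option autoImplicit false
open Cfsg

namespace Cfsg.Agent.S5621

/-- Let C be a self-dual binary code of length 24 with minimum weight at least 8 (a 12-dimensional subspace of the 24-dimensional space over the field with two elements, any two of whose words have dot product zero, with no non-zero word of weight below 8 — an abstract extended binary Golay code). Then C is doubly even: every word of C has weight divisible by 4. -/
theorem result (C : Submodule (ZMod 2) (Fin 24 → ZMod 2)) (hdim : Module.finrank (ZMod 2) C = 12) (horth : ∀ v ∈ C, ∀ w ∈ C, ∑ i, v i * w i = 0) (hmin : ∀ w ∈ C, w ≠ 0 → 8 ≤ hammingNorm w) : ∀ w ∈ C, 4 ∣ hammingNorm w := by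
  have h := Lead.St.gol_of (by simp) C hdim hmin
  intro w hw
  refine h.ind (fun s => 4 ∣ s.card) (by simp) (fun c hc o ho h8 h4 => ?_) _ (Lead.St.mem_supports.2 hw)
  obtain ⟨u, hu, rfl⟩ := hc
  obtain ⟨v, hv, rfl⟩ := ho
  have h1 := horth u hu v hv
  rw [Lead.St.dot_eq, ZMod.natCast_eq_zero_iff_even] at h1
  have h2 := Lead.St.card_sd (support₂ u) (support₂ v)
  obtain ⟨m, hm⟩ := h1
  omega

end Cfsg.Agent.S5621
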