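import Cfsg.Statements.S5632
import Cfsg.Agent.H23.Lin

set_option autoImplicit false
open Cfsg

namespace Cfsg.Agent.S5632


/-- For a finite field F and subspaces 0 < W < U of F^n with dim W + dim U = n, the elements of SL_n(F) stabilising both W and U form a subgroup that is not maximal in SL_n(F): some subgroup lies strictly between it and SL_n(F). -/
theorem result {F : Type*} [Field F] [Fintype F] (n : ℕ) (W U : Submodule F (Fin n → F)) (hW0 : W ≠ ⊥) (hWU : W < U) (hdim : Module.finrank F W + Module.finrank F U = n) : ∃ K : Subgroup (Matrix.GeneralLinearGroup (Fin n) F), Cfsg.Geo.subspaceStabilizer W ⊓ Cfsg.Geo.subspaceStabilizer U ⊓ Cfsg.Geo.specialLinear (Fin n) F < K ∧ K < Cfsg.Geo.specialLinear (Fin n) F := by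
  have h1 : U ≠ ⊤ := by
    rintro rfl
    simp only [finrank_top, Module.finrank_fin_fun, add_eq_right, Submodule.finrank_eq_zero] at hdim
    exact hW0 hdim
  have := H23.exists_between_stabL (W := U) (U := W) (ne_bot_of_gt hWU) h1 hW0 hWU.not_ge
  rw [inf_comm (H23.stabL U)] at this
  exact H23.exists_between_of_iff (H23.glE (Fin n) F) this (fun g => H23.mem_specialLinear_iff)
    (fun g => and_congr (and_congr H23.mem_subspaceStabilizer_iff H23.mem_subspaceStabilizer_iff)
      H23.mem_specialLinear_iff)

end Cfsg.Agent.S5632
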