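import Cfsg.Statements.S5633
import Cfsg.Agent.H23.Lin

set_option autoImplicit false
open Cfsg

namespace Cfsg.Agent.S5633


/-- For a finite field F and complementary non-zero subspaces W ⊕ U = F^n with dim W < dim U, the elements of SL_n(F) stabilising both W and U form a subgroup that is not maximal in SL_n(F): some subgroup lies strictly between it and SL_n(F). -/
theorem result {F : Type*} [Field F] [Fintype F] (n : ℕ) (W U : Submodule F (Fin n → F)) (hW0 : W ≠ ⊥) (hWU : W ⊓ U = ⊥) (hWU' : W ⊔ U = ⊤) (hdim : Module.finrank F W < Module.finrank F U) : ∃ K : Subgroup (Matrix.GeneralLinearGroup (Fin n) F), Cfsg.Geo.subspaceStabilizer W ⊓ Cfsg.Geo.subspaceStabilizer U ⊓ Cfsg.Geo.specialLinear (Fin n) F < K ∧ K < Cfsg.Geo.specialLinear (Fin n) F := by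
  have h0 : U ≠ ⊥ := by rintro rfl; simp at hdim
  have h1 : W ≠ ⊤ := by rintro rfl; exact h0 (by simpa using hWU)
  have := H23.exists_between_stabL (W := W) (U := U) hW0 h1 h0
    (fun h => hW0 (by rwa [inf_eq_left.2 h] at hWU))
  exact H23.exists_between_of_iff (H23.glE (Fin n) F) this (fun g => H23.mem_specialLinear_iff)
    (fun g => and_congr (and_congr H23.mem_subspaceStabilizer_iff H23.mem_subspaceStabilizer_iff)
      H23.mem_specialLinear_iff)

end Cfsg.Agent.S5633
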