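import Cfsg.Statements.S5635
import Cfsg.Agent.H23.Nm4

set_option autoImplicit false
open Cfsg

namespace Cfsg.Agent.S5635


/-- For a finite field F with q elements and n ≥ 13, let D be a decomposition of F^n into t ≥ 2 independent subspaces of equal dimension m spanning F^n, where m = 1 and q ≤ 4, or m = 2 and q = 2. Then the elements of SL_n(F) permuting the members of D form a subgroup that is not maximal: some subgroup lies strictly between it and SL_n(F). -/
theorem result {F : Type*} [Field F] [Fintype F] (n : ℕ) (hn : 13 ≤ n) {t : ℕ} (m : ℕ) (D : Fin t → Submodule F (Fin n → F)) (hD : Cfsg.Geo.IsMDecomposition m D) (h : (m = 1 ∧ Fintype.card F ≤ 4) ∨ (m = 2 ∧ Fintype.card F = 2)) : ∃ K : Subgroup (Matrix.GeneralLinearGroup (Fin n) F), Cfsg.Geo.decompositionStabilizer D ⊓ Cfsg.Geo.specialLinear (Fin n) F < K ∧ K < Cfsg.Geo.specialLinear (Fin n) F := by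
  have h1 := H23.As.IsMDecomposition.card_eq hD
  rw [Fintype.card_fin] at h1
  have h2 := Fintype.one_lt_card (α := F)
  rcases h with ⟨rfl, h⟩ | ⟨rfl, h⟩
  · rcases (show Fintype.card F ≤ 3 ∨ Fintype.card F = 2 ^ 2 by omega) with h3 | h3
    · refine H23.As.frame_between (σ := RingHom.id F) ?_ (fun x hx => by
        simpa [sq] using H23.As.sq_eq_one_of_le_three h3 hx) hD (by omega)
      rcases (show Fintype.card F = 2 ^ 1 ∨ Fintype.card F = 3 ^ 1 by omega) with h4 | h4
      · linear_combination 3 * (H23.As.cast_eq_zero_of_card h4 : ((2 : ℕ) : F) = 0)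
      · linear_combination 2 * (H23.As.cast_eq_zero_of_card h4 : ((3 : ℕ) : F) = 0)
    · exact H23.As.frame_between (σ := H23.conj h3)
        (by linear_combination 3 * (H23.As.cast_eq_zero_of_card h3 : ((2 : ℕ) : F) = 0))
        (fun x hx => by rw [← H23.As.pow_card_pred (k := 3) h3 hx, pow_succ']; rfl) hD (by omega)
  · exact H23.As.sl_two_between h hD (by omega)

end Cfsg.Agent.S5635
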