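import Cfsg.Statements.S5643
import Cfsg.Agent.H23.C8

set_option autoImplicit false
open Cfsg

namespace Cfsg.Agent.S5643


/-- For a finite field F and n ≥ 13, let σ be a field automorphism of F of order two and f a non-degenerate unitary form on F^n with respect to σ. Then the elements of SL_n(F) that are similarities of f form a maximal subgroup of SL_n(F). -/
theorem result {F : Type*} [Field F] [Fintype F] (n : ℕ) (hn : 13 ≤ n) (σ : F ≃+* F) (f : (Fin n → F) → (Fin n → F) → F) (hf : Cfsg.Geo.IsUnitaryForm σ f) : Cfsg.Geo.IsMaximalIn (Cfsg.Geo.specialLinear (Fin n) F) (Cfsg.Geo.similarityGroup f ⊓ Cfsg.Geo.specialLinear (Fin n) F) := by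
  obtain ⟨hσ, Φ, hΦ, hε, h⟩ := H23.exists_form_of_isUnitaryForm hf
  exact H23.isMaximalIn_of_iff (H23.glE (Fin n) F) (H23.Form.isMaximalIn_Sim hΦ
    (H23.Form.iso3_herm hσ hε) (by simp; omega)) (fun g => H23.mem_specialLinear_iff)
    fun g => and_congr (H23.mem_similarityGroup_iff (Or.inr h)) H23.mem_specialLinear_iff

end Cfsg.Agent.S5643
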