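import Cfsg.Statements.S5646
import Cfsg.Agent.H23.Bridge2

set_option autoImplicit false
open Cfsg

namespace Cfsg.Agent.S5646


/-- For a finite field F and m ≥ 7, in the symplectic group Sp_2m(F) of the standard alternating form on F^(2m), the stabiliser of any non-zero subspace W on which the form is non-degenerate and with dim W < m is a maximal subgroup. -/
theorem result {F : Type*} [Field F] [Fintype F] (m : ℕ) (hm : 7 ≤ m) (W : Submodule F (Fin m ⊕ Fin m → F)) (hW0 : W ≠ ⊥) (hW : Cfsg.Geo.IsNondegenerateOn (Cfsg.sympForm m F) W) (hdim : Module.finrank F W < m) : Cfsg.Geo.IsMaximalIn (Cfsg.spGL m F) (Cfsg.Geo.subspaceStabilizer W ⊓ Cfsg.spGL m F) := by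
  refine H23.isMaximalIn_stab_of_E (fun _ => H23.mem_spGL_iff_E)
    (H23.Form.isMaximalIn_nondeg_of_hasTv (H23.spForm_nondeg m) (H23.Form.iso3_alt rfl rfl)
      (H23.Form.hasTv_alt rfl rfl) (H23.disjoint_perp_of_nondegOn
        (fun u v h => Or.inl ((H23.spForm_B m u v).symm.trans h))
        (fun u v h => by rw [H23.sympForm_comm, h, neg_zero]) hW) hW0 (fun _ => ?_)
      (by simp; omega) (by simp; omega))
  obtain ⟨u, hu, h0⟩ := (Submodule.ne_bot_iff W).1 hW0
  exact ⟨u, hu, h0, H22.sing_alt rfl rfl u⟩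

end Cfsg.Agent.S5646
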