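import Cfsg.Statements.S5647
import Cfsg.Agent.H23.Od1

set_option autoImplicit false
open Cfsg

namespace Cfsg.Agent.S5647


/-- For a finite field F with q elements and m ≥ 7, let D be a decomposition of F^(2m) into t ≥ 2 pairwise orthogonal subspaces of equal dimension k on each of which the standard alternating form is non-degenerate, spanning F^(2m). Unless k = 2 and q = 2, the elements of Sp_2m(F) permuting the members of D form a maximal subgroup of Sp_2m(F). -/
theorem result {F : Type*} [Field F] [Fintype F] (m : ℕ) (hm : 7 ≤ m) {t : ℕ} (k : ℕ) (D : Fin t → Submodule F (Fin m ⊕ Fin m → F)) (hD : Cfsg.Geo.IsNondegenerateMDecomposition (Cfsg.sympForm m F) k D) (hex : ¬ (k = 2 ∧ Fintype.card F = 2)) : Cfsg.Geo.IsMaximalIn (Cfsg.spGL m F) (Cfsg.Geo.decompositionStabilizer D ⊓ Cfsg.spGL m F) := by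
  refine H23.isMaximalIn_dec_Sp hD ?_
  obtain ⟨π, h⟩ := H23.exists_oDec (Φ := H23.spForm m F) (fun u v h => (H23.spForm_B m u v).trans h) hD
  have h1 := h.even_alt (H23.spForm_nondeg m) rfl rfl ⟨0, by have := hD.decomp.two_le; omega⟩
  rw [hD.decomp.finrank_eq] at h1
  have h2 := hD.decomp.pos
  have h3 : 1 < Fintype.card F := Fintype.one_lt_card
  obtain ⟨r, rfl⟩ := h1
  omega

end Cfsg.Agent.S5647
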