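import Cfsg.Statements.S5649
import Cfsg.Agent.H23.Fam

set_option autoImplicit false
open Cfsg

namespace Cfsg.Agent.S5649


/-- For a finite field F of odd order and m ≥ 7, let D be a decomposition of F^(2m) into two complementary subspaces of dimension m on each of which the standard alternating form vanishes identically. Then the elements of Sp_2m(F) preserving or interchanging the two subspaces form a maximal subgroup of Sp_2m(F). -/
theorem result {F : Type*} [Field F] [Fintype F] (m : ℕ) (hm : 7 ≤ m) (hodd : Odd (Fintype.card F)) (D : Fin 2 → Submodule F (Fin m ⊕ Fin m → F)) (hD : Cfsg.Geo.IsMDecomposition m D) (hts : ∀ i, Cfsg.Geo.IsTotallySingularFor (Cfsg.sympForm m F) (D i)) : Cfsg.Geo.IsMaximalIn (Cfsg.spGL m F) (Cfsg.Geo.decompositionStabilizer D ⊓ Cfsg.spGL m F) := by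
  have hΦ := H23.spForm_nondeg (F := F) m
  have hT : ∀ i, (H23.spForm m F).TotSing (D i) := fun i =>
    ⟨fun u hu v hv => (H23.spForm_B m u v).trans (hts i u hu v hv), fun _ _ => rfl⟩
  have hc := H23.isCompl_of_isMDecomposition hD
  exact H23.isMaximalIn_dec_of_E (fun _ => H23.mem_spGL_iff_E) (H23.Form.isMaximalIn_tsPair hΦ
    (H23.Form.commTr_of_two_ne_zero (H23.two_ne_zero_of_odd_card hodd)) (hT 0) (hT 1) hc
    (by rw [hD.finrank_eq]; omega)
    ((H23.Form.hasTv_alt rfl rfl).exists_swap hΦ (hT 0) (hT 1) hc))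

end Cfsg.Agent.S5649
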