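import Cfsg.Statements.S5650
import Cfsg.Agent.H23.Sf5

set_option autoImplicit false
open Cfsg

namespace Cfsg.Agent.S5650


/-- For a finite field F, a subfield F₀ with |F| = |F₀| ^ r for a prime r, and m ≥ 7, let P be an invertible matrix and ζ a non-zero scalar such that ζ times the standard alternating form takes values in F₀ on the F₀-span of the columns of P. Then the elements of Sp_2m(F) lying in the subfield group of P (the conjugate by P of the product of GL_2m(F₀) with the scalars) form a maximal subgroup of Sp_2m(F). -/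
theorem result {F : Type*} [Field F] [Fintype F] (m : ℕ) (hm : 7 ≤ m) (F₀ : Subfield F) (r : ℕ) (hr : r.Prime) (hcard : Fintype.card F = Nat.card F₀ ^ r) (P : Matrix.GeneralLinearGroup (Fin m ⊕ Fin m) F) (ζ : F) (hζ : ζ ≠ 0) (hP : Cfsg.Geo.IsFormRationalStructure (Cfsg.sympForm m F) F₀ ζ P) : Cfsg.Geo.IsMaximalIn (Cfsg.spGL m F) (Cfsg.Geo.subfieldSubgroup F₀ P ⊓ Cfsg.spGL m F) := by
  refine H23.Sf.isMaximalIn_colS_alt (H23.Sf.scale_nondeg hζ (H23.spForm_nondeg m)) (fun _ h => h)
    (by simp [H23.Sf.scale, hζ]) rfl ?_ (fun x _ => ?_) (by simp; omega)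
    (H23.Sf.pd_of_card hr hcard) fun g => by rw [H23.Sf.scale_E, H23.mem_spGL_iff_E]
  · rintro _ ⟨x, hx, rfl⟩ _ ⟨y, hy, rfl⟩
    simpa [H23.Sf.scale_B] using hP x y hx hy
  · simp [H23.Sf.scale_B, H23.sympForm_self]

end Cfsg.Agent.S5650
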