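import Cfsg.Statements.S5652
import Cfsg.Agent.H23.C8

set_option autoImplicit false
open Cfsg

namespace Cfsg.Agent.S5652


/-- For a finite field F of characteristic two and m ≥ 7, let Q be a non-degenerate quadratic form on F^(2m) whose polar form is the standard alternating form. Then the elements of Sp_2m(F) that are similarities of Q (they are exactly the isometries of Q) form a maximal subgroup of Sp_2m(F). -/
theorem result {F : Type*} [Field F] [Fintype F] (m : ℕ) (hm : 7 ≤ m) (heven : ¬ Odd (Fintype.card F)) (Q : (Fin m ⊕ Fin m → F) → F) (hQ : Cfsg.Geo.IsNondegenerateQuadraticForm Q) (hpol : ∀ u v, QuadraticMap.polar Q u v = Cfsg.sympForm m F u v) : Cfsg.Geo.IsMaximalIn (Cfsg.spGL m F) (Cfsg.Geo.quadSimilarityGroup Q ⊓ Cfsg.spGL m F) := by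
  obtain ⟨Q, rfl, hΦ⟩ := H23.exists_quad hQ
  have hB : (H23.spForm m F).B = (H23.Form.ofQuad Q).B :=
    LinearMap.ext₂ fun u v => (H23.spForm_B m u v).trans (hpol u v).symm
  refine H23.isMaximalIn_of_iff (H23.glE _ F) (H23.Form.isMaximalIn_O_Sp hΦ rfl rfl rfl hB
    (H23.two_eq_zero_of_not_odd heven) (by simp; omega)) (fun g => H23.mem_spGL_iff_E) fun g => ?_
  rw [Subgroup.mem_inf, H23.mem_spGL_iff]
  constructor
  · rintro ⟨⟨c, hc⟩, h⟩
    refine ⟨hB ▸ h.1, fun v => ?_⟩
    obtain ⟨y, hy⟩ := hΦ.exists_ne (x := 1) (fun h => by simpa using congrFun h (Sum.inl ⟨0, by omega⟩))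
    have := h.1 1 y
    rw [hB, hy] at this
    have h1 : (c : F) * (H23.Form.ofQuad Q).B 1 y = 1 := by
      rw [← this]
      simp only [H23.Form.ofQuad_B, QuadraticMap.polar, H23.glE_apply, ← Matrix.mulVec_add, hc]
      ring
    rw [hy, mul_one] at h1
    simpa [h1] using hc v
  · exact fun h => ⟨⟨1, by simpa using h.2⟩, hB ▸ h.1, fun _ => rfl⟩

end Cfsg.Agent.S5652
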