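import Cfsg.Statements.S5657
import Cfsg.Agent.H23.Fam

set_option autoImplicit false
open Cfsg

namespace Cfsg.Agent.S5657


/-- Let F be the field with q² elements and n = 2k ≥ 13. Let D be a decomposition of F^n into two complementary subspaces of dimension k on each of which the standard unitary form vanishes identically. Then the elements of SU_n(q) preserving or interchanging the two subspaces form a maximal subgroup of SU_n(q). -/
theorem result {F : Type*} [Field F] [Fintype F] (n q : ℕ) (hF : Fintype.card F = q ^ 2) (hn : 13 ≤ n) (k : ℕ) (hk : 2 * k = n) (D : Fin 2 → Submodule F (Fin n → F)) (hD : Cfsg.Geo.IsMDecomposition k D) (hts : ∀ i, Cfsg.Geo.IsTotallySingularFor (Cfsg.hermForm n F q) (D i)) : Cfsg.Geo.IsMaximalIn (Cfsg.GU n F q ⊓ Cfsg.Geo.specialLinear (Fin n) F) (Cfsg.Geo.decompositionStabilizer D ⊓ (Cfsg.GU n F q ⊓ Cfsg.Geo.specialLinear (Fin n) F)) := by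
  have hΦ := H23.huForm_nondeg hF n
  have hσ := H23.conj_ne_id hF
  have hT : ∀ i, (H23.huForm hF n).TotSing (D i) := fun i =>
    ⟨fun u hu v hv => hts i v hv u hu, fun _ _ => rfl⟩
  have hc := H23.isCompl_of_isMDecomposition hD
  exact H23.isMaximalIn_dec_of_E (fun _ => H23.mem_SU_iff_E hF (by omega))
    (H23.Form.isMaximalIn_tsPair hΦ (H23.Form.commTr_herm hσ) (hT 0) (hT 1) hc
    (by rw [hD.finrank_eq]; omega)
    ((H23.Form.hasTv_herm hσ rfl).exists_swap hΦ (hT 0) (hT 1) hc))

end Cfsg.Agent.S5657
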