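import Cfsg.Statements.S5658
import Cfsg.Agent.H23.Sf5

set_option autoImplicit false
open Cfsg

namespace Cfsg.Agent.S5658


/-- Let F be the field with q² elements, n ≥ 13, and F₀ a subfield with |F| = |F₀| ^ r for an odd prime r. Let P be an invertible matrix such that the standard unitary form takes values in F₀ on the F₀-span of the columns of P. Then the elements of SU_n(q) lying in the subfield group of P (the conjugate by P of the product of GL_n(F₀) with the scalars) form a maximal subgroup of SU_n(q). -/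
theorem result {F : Type*} [Field F] [Fintype F] (n q : ℕ) (hF : Fintype.card F = q ^ 2) (hn : 13 ≤ n) (F₀ : Subfield F) (r : ℕ) (hr : r.Prime) (hro : Odd r) (hcard : Fintype.card F = Nat.card F₀ ^ r) (P : Matrix.GeneralLinearGroup (Fin n) F) (hP : Cfsg.Geo.IsFormRationalStructure (Cfsg.hermForm n F q) F₀ 1 P) : Cfsg.Geo.IsMaximalIn (Cfsg.GU n F q ⊓ Cfsg.Geo.specialLinear (Fin n) F) (Cfsg.Geo.subfieldSubgroup F₀ P ⊓ (Cfsg.GU n F q ⊓ Cfsg.Geo.specialLinear (Fin n) F)) := by
  obtain ⟨t, ht, ht'⟩ := H23.Sf.exists_trace_one hF hro hcard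
  refine H23.Sf.isMaximalIn_colS_herm (H23.huForm_nondeg hF n) (fun _ h => pow_mem h q) rfl rfl ht
    ht' ?_ (by simp; omega) (H23.Sf.pd_of_card hr hcard) fun g => H23.mem_SU_iff_E hF (by omega)
  rintro _ ⟨x, hx, rfl⟩ _ ⟨y, hy, rfl⟩
  exact (one_mul (Cfsg.hermForm n F q _ _) ▸ hP y x hy hx : Cfsg.hermForm n F q _ _ ∈ F₀)

end Cfsg.Agent.S5658
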