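import Cfsg.Statements.S5659
import Cfsg.Agent.H23.Sf5

set_option autoImplicit false
open Cfsg

namespace Cfsg.Agent.S5659


/-- Let F be the field with q² elements, q odd, n ≥ 13, and F₀ the subfield with q elements. Let P be an invertible matrix such that the standard unitary form takes values in F₀ on the F₀-span of the columns of P (so it restricts to a non-degenerate symmetric bilinear form there). Then the elements of SU_n(q) lying in the subfield group of P form a maximal subgroup of SU_n(q). -/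
theorem result {F : Type*} [Field F] [Fintype F] (n q : ℕ) (hF : Fintype.card F = q ^ 2) (hn : 13 ≤ n) (hodd : Odd q) (F₀ : Subfield F) (hcard : Fintype.card F = Nat.card F₀ ^ 2) (P : Matrix.GeneralLinearGroup (Fin n) F) (hP : Cfsg.Geo.IsFormRationalStructure (Cfsg.hermForm n F q) F₀ 1 P) : Cfsg.Geo.IsMaximalIn (Cfsg.GU n F q ⊓ Cfsg.Geo.specialLinear (Fin n) F) (Cfsg.Geo.subfieldSubgroup F₀ P ⊓ (Cfsg.GU n F q ⊓ Cfsg.Geo.specialLinear (Fin n) F)) := by
  have h2 : (2 : F) ≠ 0 := H23.two_ne_zero_of_odd_card (hF ▸ hodd.pow)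
  refine H23.Sf.isMaximalIn_colS_herm (H23.huForm_nondeg hF n) (fun _ h => pow_mem h q) rfl rfl
    (t := 2⁻¹) (inv_mem (ofNat_mem F₀ 2)) (by rw [map_inv₀, map_ofNat]; field_simp; norm_num) ?_
    (by simp; omega) (H23.Sf.pd_of_card Nat.prime_two hcard)
    fun g => H23.mem_SU_iff_E hF (by omega)
  rintro _ ⟨x, hx, rfl⟩ _ ⟨y, hy, rfl⟩
  exact (one_mul (Cfsg.hermForm n F q _ _) ▸ hP y x hy hx : Cfsg.hermForm n F q _ _ ∈ F₀)

end Cfsg.Agent.S5659
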