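import Cfsg.Statements.S5660
import Cfsg.Agent.H23.Sf5

set_option autoImplicit false
open Cfsg

namespace Cfsg.Agent.S5660


/-- Let F be the field with q² elements, n ≥ 13 even, and F₀ the subfield with q elements. Let ζ be a non-zero element with ζ + ζ^q = 0 and P an invertible matrix such that ζ times the standard unitary form takes values in F₀ on the F₀-span of the columns of P and the form vanishes on every pair (u, u) of that span (so ζ times the form restricts to a non-degenerate alternating form there). Then the elements of SU_n(q) lying in the subfield group of P form a maximal subgroup of SU_n(q). -/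
theorem result {F : Type*} [Field F] [Fintype F] (n q : ℕ) (hF : Fintype.card F = q ^ 2) (hn : 13 ≤ n) (heven : Even n) (F₀ : Subfield F) (hcard : Fintype.card F = Nat.card F₀ ^ 2) (ζ : F) (hζ0 : ζ ≠ 0) (hζ : ζ + ζ ^ q = 0) (P : Matrix.GeneralLinearGroup (Fin n) F) (hP : Cfsg.Geo.IsFormRationalStructure (Cfsg.hermForm n F q) F₀ ζ P) (halt : ∀ u : Fin n → F, (∀ i, u i ∈ F₀) → Cfsg.hermForm n F q (Matrix.mulVec (P : Matrix (Fin n) (Fin n) F) u) (Matrix.mulVec (P : Matrix (Fin n) (Fin n) F) u) = 0) : Cfsg.Geo.IsMaximalIn (Cfsg.GU n F q ⊓ Cfsg.Geo.specialLinear (Fin n) F) (Cfsg.Geo.subfieldSubgroup F₀ P ⊓ (Cfsg.GU n F q ⊓ Cfsg.Geo.specialLinear (Fin n) F)) := by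
  refine H23.Sf.isMaximalIn_colS_alt (H23.Sf.scale_nondeg hζ0 (H23.huForm_nondeg hF n))
    (fun _ h => pow_mem h q) ?_ rfl ?_ ?_ (by simp; omega)
    (H23.Sf.pd_of_card Nat.prime_two hcard)
    fun g => by rw [H23.Sf.scale_E, H23.mem_SU_iff_E hF (by omega)]
  · change 1 * ζ / ζ ^ q = -1
    rw [← neg_eq_of_add_eq_zero_right hζ]; field_simp
  · rintro _ ⟨x, hx, rfl⟩ _ ⟨y, hy, rfl⟩
    exact hP y x hy hx
  · rintro _ ⟨x, hx, rfl⟩
    exact (congrArg (ζ * ·) (halt x hx)).trans (mul_zero ζ)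

end Cfsg.Agent.S5660
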