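import Cfsg.Statements.S5662
import Cfsg.Agent.H23.As23

set_option autoImplicit false
open Cfsg

namespace Cfsg.Agent.S5662


/-- Subgroup structure of the finite symplectic groups. Let F be a finite field and m ≥ 2 with (m, |F|) ≠ (2, 2), and let Sp_2m(F) be the group of invertible matrices preserving the standard alternating form on F^(2m). Let H be a subgroup of Sp_2m(F) whose product with the scalar matrices ±1 is not all of Sp_2m(F) (H does not cover PSp_2m(F)). Then either H is contained in a member of one of the eight geometric classes of subgroups of Sp_2m(F) (with the conditions built into InSymplecticClass), or H is in the residual class: modulo scalars it is almost simple, and the perfect preimage of its socle acts absolutely irreducibly, is realisable over no proper subfield, and fixes no non-degenerate quadratic form and no non-degenerate unitary form on F^(2m). -/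
theorem result {F : Type*} [Field F] [Fintype F] (m : ℕ) (hm : 2 ≤ m) (hex : ¬ (m = 2 ∧ Fintype.card F = 2)) (H : Subgroup (Matrix.GeneralLinearGroup (Fin m ⊕ Fin m) F)) (hH : H ≤ Cfsg.spGL m F) (hproper : H ⊔ (Cfsg.Geo.scalars (Fin m ⊕ Fin m) F ⊓ Cfsg.spGL m F) ≠ Cfsg.spGL m F) : (∃ M : Subgroup (Matrix.GeneralLinearGroup (Fin m ⊕ Fin m) F), Cfsg.Geo.InSymplecticClass m F M ∧ H ≤ M) ∨ Cfsg.Geo.InSymplecticResidualClass H := by
  refine (H23.As.spC_or_residual' (by omega) hH).imp_left fun ⟨M, hM, h⟩ => ⟨_, ?_, le_inf h hH⟩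
  have hc : Fintype.card (Fin m ⊕ Fin m) = 2 * m := by simp; omega
  cases hM with
  | ts W h0 h1 => exact .inl (.inl ⟨W, h0, h1, rfl⟩)
  | nd W h0 h1 h2 => exact .inl (.inr (.inl ⟨W, h0, h1, by omega, rfl⟩))
  | dec t k D h1 => exact .inl (.inr (.inr (.inl ⟨t, k, D, h1, rfl⟩)))
  | pair k D h1 h2 h3 h4 =>
    obtain rfl : k = m := by omega
    exact .inl (.inr (.inr (.inr (.inl ⟨D, h1, h3, h4, rfl⟩))))
  | fld r K h1 h2 h3 h4 h5 => exact .inr (.inl ⟨r, K, h1, h3, h4, h5, rfl⟩)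
  | uni K h1 h2 h3 h4 => exact .inr (.inr (.inl ⟨K, h1, h2, h3, h4, rfl⟩))
  | ten a b e P f₁ f₂ h1 h2 h3 h4 h5 h6 h7 h8 h9 h10 =>
    exact .inr (.inr (.inr (.inl ⟨a, b, e, P, f₁, f₂, h1, h5, h8, h9, h10, rfl⟩)))
  | sub F₀ r P ζ h1 h2 h3 h4 =>
    exact .inl (.inr (.inr (.inr (.inr (.inl ⟨F₀, r, P, ζ, h1, h2, h3, h4, rfl⟩)))))
  | ext R k h1 h2 h3 h4 h5 h6 h7 h8 h9 =>
    exact .inl (.inr (.inr (.inr (.inr (.inr (.inl
      ⟨R, _, k, h1, h2, h3, h4, h5, rfl, h7, h8, h9, rfl⟩))))))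
  | wr k t e P f₁ h1 h2 h3 h4 h5 h6 h7 h8 =>
    exact .inr (.inr (.inr (.inr ⟨k, t, e, P, f₁, h1, h4, h5, fun h => by have := h6 h.2; omega, h7,
      h8, rfl⟩)))
  | quad Q h1 h2 h3 => exact .inl (.inr (.inr (.inr (.inr (.inr (.inr ⟨Q, h1, h2, h3, rfl⟩))))))

end Cfsg.Agent.S5662
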