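import Cfsg.Statements.S5663
import Cfsg.Agent.H23.As19

set_option autoImplicit false
open Cfsg

namespace Cfsg.Agent.S5663


/-- Subgroup structure of the finite unitary groups. Let F be the field with q² elements and n ≥ 3 with (n, q) ≠ (3, 2), and let SU_n(q) be the group of matrices of determinant one preserving the standard unitary form Σ u_i v_i^q on F^n. Let H be a subgroup of SU_n(q) whose product with the scalar matrices in SU_n(q) is not all of SU_n(q) (H does not cover PSU_n(q)). Then either H is contained in a member of one of the geometric classes of subgroups of the unitary group GU_n(q) (with the conditions built into InUnitaryClass), or H is in the residual class: modulo scalars it is almost simple, and the perfect preimage of its socle acts absolutely irreducibly, is realisable over no proper subfield of F, and fixes no non-degenerate quadratic form and no non-degenerate symplectic form on F^n. -/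
theorem result {F : Type*} [Field F] [Fintype F] (n q : ℕ) (hF : Fintype.card F = q ^ 2) (hn : 3 ≤ n) (hex : ¬ (n = 3 ∧ q = 2)) (H : Subgroup (Matrix.GeneralLinearGroup (Fin n) F)) (hH : H ≤ (Cfsg.GU n F q ⊓ Cfsg.Geo.specialLinear (Fin n) F)) (hproper : H ⊔ (Cfsg.Geo.scalars (Fin n) F ⊓ (Cfsg.GU n F q ⊓ Cfsg.Geo.specialLinear (Fin n) F)) ≠ (Cfsg.GU n F q ⊓ Cfsg.Geo.specialLinear (Fin n) F)) : (∃ M : Subgroup (Matrix.GeneralLinearGroup (Fin n) F), Cfsg.Geo.InUnitaryClass n F q M ∧ H ≤ M) ∨ Cfsg.Geo.InUnitaryResidualClass H := by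
  have hG := hH.trans inf_le_left
  refine (H23.As.uniS_or_residual hF (by omega) hG).imp_left fun h => ?_
  rcases h with ⟨W, h1, h2, h⟩ | ⟨W, h1, h2, h3, h⟩ | ⟨t, k, D, h1, h2, h3, h4, h⟩ |
    ⟨k, D, h1, h2, h3, h⟩ | ⟨F₀, r, P, h1, h2, h3, h4, h⟩ | ⟨h1, F₀, P, h2, h3, h⟩ |
    ⟨h1, F₀, P, ζ, h2, h3, h4, h5, h6, h⟩ | ⟨r, R, p, e, k, h1, h2, h3, h4, h5, h6, h7, h8, h9, h⟩ |
    ⟨r, K, h1, h2, h3, h4, h5, h⟩ | ⟨a, b, e, P, B₁, B₂, h1, h2, h3, h4, h5, h6, h7, h⟩ |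
    ⟨k, t, e, P, B₁, h1, h2, h3, h4, h5, h6, h⟩ <;> refine ⟨_, ?_, le_inf h hG⟩
  · exact .inl (.inl ⟨W, h1, h2, rfl⟩)
  · exact .inl (.inr (.inl ⟨W, h1, h2, h3, rfl⟩))
  · exact .inl (.inr (.inr (.inl ⟨t, k, D, h1, rfl⟩)))
  · exact .inl (.inr (.inr (.inr (.inl ⟨k, D, h1, h2, h3, rfl⟩))))
  · exact .inl (.inr (.inr (.inr (.inr (.inl ⟨F₀, r, P, h1, h2, h3, h4, rfl⟩)))))
  · exact .inl (.inr (.inr (.inr (.inr (.inr (.inl ⟨F₀, P, h1, h2, h3, rfl⟩))))))
  · exact .inl (.inr (.inr (.inr (.inr (.inr (.inr (.inl ⟨F₀, P, ζ, h1, h2, h3, h4, h5, h6, rfl⟩)))))))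
  · exact .inl (.inr (.inr (.inr (.inr (.inr (.inr (.inr ⟨r, R, p, e, k, h1, h2, h3, h5, h6, h9, rfl⟩)))))))
  · exact .inr (.inl ⟨r, K, h1, h2, h4, h5, rfl⟩)
  · exact .inr (.inr (.inl ⟨a, b, e, P, _, _, h1, h2, h5, h6, h7, rfl⟩))
  · exact .inr (.inr (.inr ⟨k, t, e, P, _, h1, h2, h4, h5, h6, rfl⟩))

end Cfsg.Agent.S5663
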