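import Cfsg.Statements.S5666
import Cfsg.Agent.H23.Qp4

set_option autoImplicit false
open Cfsg

namespace Cfsg.Agent.S5666


/-- For a finite field F of odd order q and m ≥ 7, suppose the standard alternating form on F^(2m) is similar, through a change of basis P and a bijection of index sets e, to the tensor product of a non-degenerate symplectic form f₁ on F^(n₁) and a non-degenerate symmetric bilinear form f₂ on F^(n₂) with n₂ ≥ 3. Unless q = 3 and n₂ = 3, the elements of Sp_2m(F) in the stabiliser of this tensor decomposition (the conjugate by P of the Kronecker-product subgroup transported along e) form a maximal subgroup of Sp_2m(F). -/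
theorem result {F : Type*} [Field F] [Fintype F] (m : ℕ) (hm : 7 ≤ m) (hodd : Odd (Fintype.card F)) (n₁ n₂ : ℕ) (hn₂ : 3 ≤ n₂) (hex : ¬ (Fintype.card F = 3 ∧ n₂ = 3)) (e : (Fin m ⊕ Fin m) ≃ Fin n₁ × Fin n₂) (P : Matrix.GeneralLinearGroup (Fin m ⊕ Fin m) F) (f₁ : (Fin n₁ → F) → (Fin n₁ → F) → F) (f₂ : (Fin n₂ → F) → (Fin n₂ → F) → F) (hf₁ : Cfsg.Geo.IsSymplecticForm f₁) (hf₂ : Cfsg.Geo.IsSymmetricForm f₂) (hT : Cfsg.Geo.IsTensorFormStructure id (Cfsg.sympForm m F) f₁ f₂ e P) : Cfsg.Geo.IsMaximalIn (Cfsg.spGL m F) (Cfsg.Geo.tensorProductSubgroup n₁ n₂ e P ⊓ Cfsg.spGL m F) := by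
  have h2 := H23.two_ne_zero_of_odd_card hodd
  have h3 : m + m = n₁ * n₂ := by simpa using Fintype.card_congr e
  obtain rfl | rfl | rfl | h4 : n₁ = 0 ∨ n₁ = 1 ∨ n₁ = 2 ∨ 3 ≤ n₁ := by omega
  · omega
  · obtain ⟨y, hy⟩ := (hf₁.nondegenerate 1 one_ne_zero).1
    refine (hy ?_).elim
    rw [show y = y 0 • (1 : Fin 1 → F) from funext fun i => by simp [Subsingleton.elim i 0],
      hf₁.bilinear.smul_left, hf₁.alternating, mul_zero]
  · exact H23.Pr.isMaximalIn_so_tensor h2 (by omega) hf₁ hf₂ hT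
  refine H23.Qp.isMaximalIn_sy_tensor h2 h4 hn₂ ?_ hf₁ hf₂ hT
  have := Fintype.one_lt_card (α := F)
  obtain ⟨k, hk⟩ := hodd
  omega

end Cfsg.Agent.S5666
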