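import Cfsg.Statements.S5673
import Cfsg.Agent.H23.As30

set_option autoImplicit false
open Cfsg

namespace Cfsg.Agent.S5673


/-- Subgroup structure of the odd-dimensional orthogonal groups. Let F be a finite field of odd order and m ≥ 3, let Q be the standard quadratic form x₀² + Σ x_i y_i on F^(2m+1), and let Ω be the commutator subgroup of its isometry group, viewed inside GL_(2m+1)(F). Let H be a subgroup of Ω whose product with the scalar matrices in Ω is not all of Ω. Then either H is contained in a member of one of the geometric classes of subgroups of the isometry group (with the conditions built into InOrthogonalOddClass), or H is in the residual class: modulo scalars it is almost simple, and the perfect preimage of its socle acts absolutely irreducibly, is realisable over no proper subfield, and fixes no non-degenerate unitary form. -/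
theorem result {F : Type*} [Field F] [Fintype F] (hodd : Odd (Fintype.card F)) (m : ℕ) (hm : 3 ≤ m) (H : Subgroup (Matrix.GeneralLinearGroup (Unit ⊕ (Fin m ⊕ Fin m)) F)) (hH : H ≤ Cfsg.Geo.omegaGL (Cfsg.quadFormOdd m F)) (hproper : H ⊔ (Cfsg.Geo.scalars (Unit ⊕ (Fin m ⊕ Fin m)) F ⊓ Cfsg.Geo.omegaGL (Cfsg.quadFormOdd m F)) ≠ Cfsg.Geo.omegaGL (Cfsg.quadFormOdd m F)) : (∃ M : Subgroup (Matrix.GeneralLinearGroup (Unit ⊕ (Fin m ⊕ Fin m)) F), Cfsg.Geo.InOrthogonalOddClass m F M ∧ H ≤ M) ∨ Cfsg.Geo.InOrthogonalResidualClass H := by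
  have hc := H23.As.card_odd_index m
  refine (H23.As.orC_odd hodd hm hH).imp_left ?_
  rintro ⟨M, hM, h⟩
  refine ⟨M ⊓ isometryGroup F (quadFormOdd m F), ?_, le_inf h (hH.trans (H23.As.omegaGL_le _))⟩
  cases hM with
  | ts W h0 h1 => exact .inl ⟨W, h0, h1, rfl⟩
  | pt v h1 => exact (h1 hodd).elim
  | nd W h0 h1 h2 => exact .inr (.inl ⟨W, h0, h1, h2, rfl⟩)
  | half k D _ h1 => omega
  | dec t k D h1 h2 h3 h4 h5 =>
    rcases (show k = 1 ∨ 1 < k by omega) with rfl | h6
    · exact .inr (.inr (.inr (.inl ⟨t, D, h5 rfl, h1, rfl⟩)))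
    · exact .inr (.inr (.inl ⟨t, k, D, h6, h1, rfl⟩))
  | pair k D h1 => omega
  | fld r K h1 h2 h3 h4 h5 h6 h7 =>
    exact .inr (.inr (.inr (.inr (.inl ⟨r, K, h1, by omega, h6, h7, rfl⟩))))
  | uni K h1 => obtain ⟨a, ha⟩ := h1; omega
  | tenS a b e P f₁ f₂ h1 h2 h3 h4 h5 h6 h7 h8 h9 =>
    exact .inr (.inr (.inr (.inr (.inr (.inl ⟨a, b, e, P, f₁, f₂, h3, h4, h7, h8, h9, rfl⟩)))))
  | tenA b e P f₁ f₂ _ h1 => omega
  | sub F₀ r P ζ h1 h2 h3 h4 h5 =>
    obtain rfl := h5 ⟨m, hc⟩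
    exact .inr (.inr (.inr (.inr (.inr (.inr (.inl ⟨F₀, r, P, h1, h2, by simpa using h4, rfl⟩))))))
  | wr k t e P f₁ h1 h2 h3 h4 h5 h6 h7 =>
    exact .inr (.inr (.inr (.inr (.inr (.inr (.inr ⟨k, t, e, P, f₁, h3, h4, h5, h6, h7, rfl⟩))))))

end Cfsg.Agent.S5673
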