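import Cfsg.Statements.S5675
import Cfsg.Agent.H23.Bridge2

set_option autoImplicit false
open Cfsg

namespace Cfsg.Agent.S5675


/-- Let F be a finite field of odd order q, m ≥ 6, Q the standard quadratic form on F^(2m+1) and Ω the commutator subgroup of its isometry group. Let W be a non-zero subspace of even dimension on which the polar form of Q is non-degenerate; exclude the case q = 3, dim W = 2 with Q vanishing on some line of W (a plus-type plane). Then the elements of Ω stabilising W (equivalently, stabilising its orthogonal complement, of odd dimension) form a maximal subgroup of Ω. -/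
theorem result {F : Type*} [Field F] [Fintype F] (hodd : Odd (Fintype.card F)) (m : ℕ) (hm : 6 ≤ m) (W : Submodule F (Unit ⊕ (Fin m ⊕ Fin m) → F)) (hW0 : W ≠ ⊥) (hev : Even (Module.finrank F W)) (hW : Cfsg.Geo.IsNondegenerateOn (QuadraticMap.polar (Cfsg.quadFormOdd m F)) W) (hex : ¬ (Fintype.card F = 3 ∧ Module.finrank F W = 2 ∧ Cfsg.Geo.IsPlusTypeOn (Cfsg.quadFormOdd m F) W)) : Cfsg.Geo.IsMaximalIn (Cfsg.Geo.omegaGL (Cfsg.quadFormOdd m F)) (Cfsg.Geo.subspaceStabilizer W ⊓ Cfsg.Geo.omegaGL (Cfsg.quadFormOdd m F)) := by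
  have hΦ := H22.qOdd_nondeg (H23.two_ne_zero_of_odd_card hodd) m
  have hV : Module.finrank F (Unit ⊕ (Fin m ⊕ Fin m) → F) = 2 * m + 1 := by simp; omega
  have h1 := hΦ.finrank_perp_add W
  rw [Nat.even_iff] at hev
  refine H23.isMaximalIn_stab_of_E (fun _ => H23.mem_omegaGL_iff_E hΦ (by simp; omega))
    (H23.Form.isMaximalIn_nondeg_quad' hΦ rfl (by omega) (H23.disjoint_perp_quad hW) hW0
      (by rintro rfl; rw [finrank_top] at hev; omega) (by omega) ?_)
  rintro U (rfl | rfl) h2 h
  · have h3 : Fintype.card F ≠ 3 := fun h3 => hex ⟨h3, h2, H23.isPlusTypeOn_of_sing h2 h⟩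
    have := Fintype.one_lt_card (α := F)
    rw [Nat.odd_iff] at hodd
    omega
  · omega

end Cfsg.Agent.S5675
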