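import Cfsg.Statements.S5677
import Cfsg.Agent.H23.Nd3

set_option autoImplicit false
open Cfsg

namespace Cfsg.Agent.S5677


/-- Let F be a finite field of odd order q, m ≥ 6, Q the standard quadratic form on F^(2m+1) and Ω the commutator subgroup of its isometry group. Let D be a decomposition of F^(2m+1) into t ≥ 2 pairwise orthogonal, pairwise Q-isometric subspaces of equal dimension k > 1 on which the polar form is non-degenerate. Unless q = 3 and k = 3, the elements of Ω permuting the members of D form a maximal subgroup of Ω. -/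
theorem result {F : Type*} [Field F] [Fintype F] (hodd : Odd (Fintype.card F)) (m : ℕ) (hm : 6 ≤ m) {t : ℕ} (k : ℕ) (hk : 1 < k) (D : Fin t → Submodule F (Unit ⊕ (Fin m ⊕ Fin m) → F)) (hD : Cfsg.Geo.IsOrthogonalMDecomposition (Cfsg.quadFormOdd m F) k D) (hex : ¬ (Fintype.card F = 3 ∧ k = 3)) : Cfsg.Geo.IsMaximalIn (Cfsg.Geo.omegaGL (Cfsg.quadFormOdd m F)) (Cfsg.Geo.decompositionStabilizer D ⊓ Cfsg.Geo.omegaGL (Cfsg.quadFormOdd m F)) := by
  have h2 := H23.two_ne_zero_of_odd_card hodd
  have hΦ := H22.qOdd_nondeg h2 m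
  obtain ⟨π, h⟩ := H23.exists_oDec (Φ := H23.Form.ofQuad (H22.qOdd m F)) (fun _ _ h => h) hD.decomp
  have h1 := hD.decomp.decomp
  have h3 : Module.finrank F (Unit ⊕ (Fin m ⊕ Fin m) → F) = 2 * m + 1 := by simp; omega
  refine H23.isMaximalIn_dec_of_E (fun _ => H23.mem_omegaGL_iff_E hΦ (by simp; omega))
    (H23.Nd.isMaximalIn_oDec_odd h hΦ h1.finrank_eq ?_ rfl (by omega) h2 (by simpa using h1.two_le)
      (fun i j => H23.Nd.exists_map_of_isometric hΦ (hD.isometric i j)) hex)
  have := H23.Nd.finrank_eq_mul h h1.finrank_eq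
  by_contra h4
  obtain rfl : k = 2 := by omega
  omega

end Cfsg.Agent.S5677
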