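import Cfsg.Statements.S5699
import Cfsg.Agent.H23.Fam

set_option autoImplicit false
open Cfsg

namespace Cfsg.Agent.S5699


/-- Let F be a finite field with q elements, n ≥ 13 even, Q a non-degenerate quadratic form on F^n (of either type), and Ω the commutator subgroup of the isometry group of Q, viewed inside GL_n(F). Let D be a decomposition of F^n into two orthogonal subspaces of odd dimension n/2 on which the polar form is non-degenerate and which are not Q-isometric to each other. Then the elements of Ω permuting (necessarily fixing) the two subspaces form a maximal subgroup of Ω. -/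
theorem result {F : Type*} [Field F] [Fintype F] {n : ℕ} (hn : 13 ≤ n) (heven : Even n) (Q : (Fin n → F) → F) (hQ : Cfsg.Geo.IsNondegenerateQuadraticForm Q) (k : ℕ) (hk : 2 * k = n) (hko : Odd k) (D : Fin 2 → Submodule F (Fin n → F)) (hD : Cfsg.Geo.IsNondegenerateMDecomposition (QuadraticMap.polar Q) k D) (hni : ¬ Cfsg.Geo.AreIsometricFor Q (D 0) (D 1)) : Cfsg.Geo.IsMaximalIn (Cfsg.Geo.omegaGL Q) (Cfsg.Geo.decompositionStabilizer D ⊓ Cfsg.Geo.omegaGL Q) := by
  obtain ⟨Q, rfl, hΦ⟩ := H23.exists_quad hQ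
  have hW := H23.disjoint_perp_quad (hD.nondegenerate 0)
  have h0 := hD.decomp.finrank_eq 0
  have h1 := hD.decomp.finrank_eq 1
  have h2 := hΦ.finrank_perp_add (D 0)
  have hV : Module.finrank F (Fin n → F) = n := by simp
  have hp : D 1 = (H23.Form.ofQuad Q).perp (D 0) := Submodule.eq_of_le_of_finrank_eq
    (fun v hv u hu => hD.orthogonal 0 1 (by simp) u hu v hv) (by omega)
  have hiso : ∀ g ∈ (H23.Form.ofQuad Q).E, ¬ (D 0).map g.toLinearMap ≤ D 1 := fun g hg h =>
    hni ⟨g.ofSubmodules _ _ (H23.map_eq_of_le h (by omega)), fun w => (H23.Form.E_le_O hg).2 w⟩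
  have e : H23.decL D ⊓ (H23.Form.ofQuad Q).E = H23.stabL (D 0) ⊓ (H23.Form.ofQuad Q).E := by
    ext g
    simp only [Subgroup.mem_inf, H23.mem_decL_two]
    refine and_congr_left fun hg => ⟨fun h => h.elim (fun h => h.1) fun h => (hiso g hg h.1.le).elim,
      fun h => Or.inl ⟨h, ?_⟩⟩
    rw [hp, ← H23.Form.perp_map (H23.Form.E_le_O hg), h]
  refine H23.isMaximalIn_dec_of_E (fun _ => H23.mem_omegaGL_iff_E hΦ (by simp; omega)) ?_
  rw [Nat.odd_iff] at hko
  rw [e]
  refine H23.Form.isMaximalIn_nondeg_quad' hΦ rfl (by omega) hW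
    (fun h => by rw [h, finrank_bot] at h0; omega) (fun h => by rw [h, finrank_top] at h0; omega)
    (fun _ => hp ▸ hiso) ?_
  rintro U (rfl | rfl) h <;> omega

end Cfsg.Agent.S5699
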