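import Cfsg.Statements.S5707
import Cfsg.Agent.H14.TwC

set_option autoImplicit false
set_option linter.unusedVariables false
set_option linter.style.haveILetI false
open Cfsg

namespace Cfsg.Agent.S5707

open Matrix H23.As H14.Tw Cfsg.Geo
open scoped MatrixGroups commutatorElement

theorem transfer {F : Type*} [Field F] {ι κ : Type} [Fintype ι] [DecidableEq ι] [Fintype κ] [DecidableEq κ]
    (e : ι ≃ κ) (P : GL ι F) (Q : (ι → F) → F) (S : Subgroup (GL κ F))
    (h : ∃ K : Subgroup (GL κ F), S ⊓ ⁅isometryGroup F fun x => Q (P.1 *ᵥ (x ∘ e)),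
      isometryGroup F fun x => Q (P.1 *ᵥ (x ∘ e))⁆ < K ∧ K < ⁅isometryGroup F fun x => Q (P.1 *ᵥ (x ∘ e)),
      isometryGroup F fun x => Q (P.1 *ᵥ (x ∘ e))⁆) :
    ∃ K : Subgroup (GL ι F), (S.map (glReindex e.symm).toMonoidHom).map (MulAut.conj P).toMonoidHom ⊓ omegaGL Q < K ∧
      K < omegaGL Q := by
  obtain ⟨K, h1, h2⟩ := h
  have inj : Function.Injective (trG e P).toMonoidHom := (trG e P).injective
  have e1 : (S.map (glReindex e.symm).toMonoidHom).map (MulAut.conj P).toMonoidHom = S.map (trG e P).toMonoidHom := by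
    ext g; rw [mem_map_tr, Subgroup.mem_map_equiv]
  have e2 : isometryGroup F Q = (isometryGroup F fun x => Q (P.1 *ᵥ (x ∘ e))).map (trG e P).toMonoidHom := by
    ext g
    obtain ⟨g, rfl⟩ := (trG e P).surjective g
    rw [Subgroup.mem_map_equiv, MulEquiv.symm_apply_apply]
    refine ⟨fun h u _ => ?_, fun h u _ => ?_⟩
    · have := h (P.1 *ᵥ (u ∘ e)) 0
      simp only [Units.coeHom_apply, trG_val, tr_mulVec] at this ⊢
      exact this
    · obtain ⟨x, rfl⟩ : ∃ x : κ → F, u = P.1 *ᵥ (x ∘ e) :=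
        ⟨(P⁻¹.1 *ᵥ u) ∘ e.symm, by simp [Function.comp_assoc, mulVec_mulVec]⟩
      have := h x 0
      simp only [Units.coeHom_apply, trG_val, tr_mulVec] at this ⊢
      exact this
  rw [omegaGL, Subgroup.map_subtype_commutator, e1, e2, ← Subgroup.map_commutator, ← Subgroup.map_inf _ _ _ inj]
  exact ⟨K.map _, (Subgroup.map_lt_map_iff_of_injective inj).2 h1, (Subgroup.map_lt_map_iff_of_injective inj).2 h2⟩

/-- Let F be a finite field with q elements, n ≥ 13 even, Q a non-degenerate quadratic form on F^n of plus type (some subspace of dimension n/2 is totally singular), and Ω the commutator subgroup of the isometry group of Q, viewed inside GL_n(F). Suppose q is even and that, through P and e, the polar form of Q is similar to the t-fold tensor power (t ≥ 2) of a non-degenerate symplectic form f₁ on F^k with k ≤ 4 and (q, k) ≠ (2, 2), Q vanishing on the images of all pure tensors. Then the elements of Ω in the stabiliser of this decomposition form a subgroup that is not maximal: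 some subgroup lies strictly between it and Ω. -/
theorem result {F : Type*} [Field F] [Fintype F] {n : ℕ} (hn : 13 ≤ n) (heven : Even n) (Q : (Fin n → F) → F) (hQ : Cfsg.Geo.IsNondegenerateQuadraticForm Q) (hplus : Cfsg.Geo.IsPlusTypeOn Q ⊤) (hchar : ¬ Odd (Fintype.card F)) (k t : ℕ) (ht : 2 ≤ t) (hk : k ≤ 4) (hex1 : ¬ (Fintype.card F = 2 ∧ k = 2)) (e : (Fin n) ≃ (Fin t → Fin k)) (P : Matrix.GeneralLinearGroup (Fin n) F) (f₁ : (Fin k → F) → (Fin k → F) → F) (hf₁ : Cfsg.Geo.IsSymplecticForm f₁) (hT : Cfsg.Geo.IsTensorPowerFormStructure id (QuadraticMap.polar Q) f₁ e P) (hpure : (∀ xs : Fin t → (Fin k → F), Q (Matrix.mulVec (P : Matrix (Fin n) (Fin n) F) ((fun a : Fin t → Fin k => ∏ i, xs i (a i)) ∘ e)) = 0)) : ∃ K : Subgroup (Matrix.GeneralLinearGroup (Fin n) F), Cfsg.Geo.tensorWreathSubgroup k t e P ⊓ Cfsg.Geo.omegaGL Q < K ∧ K < Cfsg.Geo.omegaGL Q := by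
  have h2 : (2 : F) = 0 := by
    by_contra h; exact hchar (Nat.odd_iff.2 (H23.odd_card_of_two_ne_zero h))
  obtain ⟨G, g1, g2, rfl⟩ := IsSymplecticForm.gram hf₁
  obtain ⟨c, c0, hc⟩ := hT
  rw [gram_fog] at hc
  have hG : ∀ x, x ⬝ᵥ G *ᵥ x = 0 := fun x => by have := g2 x; rwa [fb, fog_eq] at this
  have h : TD t G c fun x => Q (P.1 *ᵥ (x ∘ e)) := ⟨h2, g1, by
    rw [g2.transpose, neg_eq_iff_add_eq_zero, ← two_mul, two_mat h2, zero_mul], c0,
    fun a v => by rw [← hQ.smul, ← mulVec_smul]; rfl, fun u v => by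
      have := hc u v
      rw [QuadraticMap.polar, ← mulVec_add] at this
      have e1 : u ⬝ᵥ (ptens fun _ => G) *ᵥ v = ∑ a, ∑ b, u a * (∏ i, G (a i) (b i)) * id (v b) := by
        simp only [dotProduct, mulVec, ptens_apply, Finset.mul_sum, mul_assoc, id]
      rw [e1, ← this]
      show Q (P.1 *ᵥ (u ∘ e + v ∘ e)) = _
      ring, hpure⟩
  have hc : n = k ^ t := by simpa using Fintype.card_congr e
  refine transfer e P Q _ ?_
  interval_cases k
  · rw [zero_pow (by omega)] at hc; omega
  · rw [one_pow] at hc; omega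
  · refine h.two_case ?_ hG
    by_contra h4
    have : t = 2 ∨ t = 3 := by omega
    rcases this with rfl | rfl <;> omega
  · exact absurd heven (Nat.not_even_iff_odd.2 (hc ▸ (by decide : Odd 3).pow))
  · exact h.four_case ht hG

end Cfsg.Agent.S5707
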