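import Cfsg.Statements.S5775
import Cfsg.Agent.H23.Sm1

set_option autoImplicit false
open Cfsg

namespace Cfsg.Agent.S5775


/-- Every maximal subgroup of SL_3(q) is of one of the listed geometric types or lies in the residual class. Let F be a finite field with q elements and H a maximal subgroup of SL_3(F) (viewed inside GL_3(F)). Then H is the intersection with SL_3(F) of one of: the stabiliser of a proper non-zero subspace; for q ≥ 5, the stabiliser of a decomposition of F^3 into three independent lines; for q ≠ 4, the normaliser of a degree-3 subfield of the matrix algebra; a subfield group for a subfield F₀ with |F| = |F₀|^r, r prime; for q = p ≡ 1 mod 3 prime, the normaliser of an absolutely irreducible 3-subgroup R of exponent 3 with centre of order 3, all of whose characteristic abelian subgroups are cyclic, of order 3^(1+2m) for some m ≥ 1, with F the smallest field of characteristic p containing the cube roots of unity (so R is extraspecial of order 27); for q odd,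 the similarity group of a non-degenerate quadratic form; the similarity group of a non-degenerate unitary form — or else H lies in the residual class of the linear case (modulo scalars H is almost simple, with absolutely irreducible perfect socle preimage realisable over no proper subfield and fixing no non-degenerate quadratic, symplectic or unitary form). -/
theorem result {F : Type*} [Field F] [Fintype F] (H : Subgroup (Matrix.GeneralLinearGroup (Fin 3) F)) (hH : Cfsg.Geo.IsMaximalIn (Cfsg.Geo.specialLinear (Fin 3) F) H) :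
    (∃ W : Submodule F (Fin 3 → F), W ≠ ⊥ ∧ W ≠ ⊤ ∧ H = Cfsg.Geo.subspaceStabilizer W ⊓ Cfsg.Geo.specialLinear (Fin 3) F) ∨
    (5 ≤ Fintype.card F ∧ ∃ D : Fin 3 → Submodule F (Fin 3 → F), Cfsg.Geo.IsMDecomposition 1 D ∧ H = Cfsg.Geo.decompositionStabilizer D ⊓ Cfsg.Geo.specialLinear (Fin 3) F) ∨
    (Fintype.card F ≠ 4 ∧ ∃ K : Subalgebra F (Matrix (Fin 3) (Fin 3) F), Cfsg.Geo.IsFieldSubalgebra 3 K ∧ H = Cfsg.Geo.subalgebraNormalizer K ⊓ Cfsg.Geo.specialLinear (Fin 3) F) ∨
    (∃ (F₀ : Subfield F) (r : ℕ) (P : Matrix.GeneralLinearGroup (Fin 3) F), r.Prime ∧ Fintype.card F = Nat.card F₀ ^ r ∧ H = Cfsg.Geo.subfieldSubgroup F₀ P ⊓ Cfsg.Geo.specialLinear (Fin 3) F) ∨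
    (∃ (p : ℕ) (R : Subgroup (Matrix.GeneralLinearGroup (Fin 3) F)), p.Prime ∧ Fintype.card F = p ∧ p % 3 = 1 ∧ Cfsg.Geo.IsLinearSymplecticTypeData 3 R ∧ H = Cfsg.Geo.subgroupNormalizer R ⊓ Cfsg.Geo.specialLinear (Fin 3) F) ∨
    (Odd (Fintype.card F) ∧ ∃ Q : (Fin 3 → F) → F, Cfsg.Geo.IsNondegenerateQuadraticForm Q ∧ H = Cfsg.Geo.quadSimilarityGroup Q ⊓ Cfsg.Geo.specialLinear (Fin 3) F) ∨
    (∃ (σ : F ≃+* F) (f : (Fin 3 → F) → (Fin 3 → F) → F), Cfsg.Geo.IsUnitaryForm σ f ∧ H = Cfsg.Geo.similarityGroup f ⊓ Cfsg.Geo.specialLinear (Fin 3) F) ∨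
    Cfsg.Geo.InLinearResidualClass H := by
  rcases H23.As.linE_or_residual (by simp) (by simp) hH with (h | ⟨t, m, D, h1, h2, h3, h4, h5, h⟩ |
    ⟨r, K, h1, h2, h3, h⟩ | ⟨a, b, e, P, h1, h2, h3, h4, h⟩ | h | ⟨r, R, k, h1, h2, h3, h⟩ |
    ⟨e, P, h1, h⟩ | ⟨h1, h⟩ | h | h) | h
  · exact .inl (h)
  · rw [Fintype.card_fin] at h3
    obtain ⟨rfl, rfl⟩ : (t = 3 ∧ m = 1) := by
      have : t ≤ 3 := Nat.le_of_dvd (by norm_num) ⟨m, h3⟩
      interval_cases t <;> omega
    · exact .inr (.inl ⟨h4 rfl, D, h1, h⟩)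
  · rw [Fintype.card_fin] at h2
    obtain rfl : r = 3 := by
      have : r ≤ 3 := Nat.le_of_dvd (by norm_num) h2
      interval_cases r <;> first | omega | exact absurd h1 (by norm_num)
    by_cases h4 : Fintype.card F = 4
    · obtain ⟨F₀, P, h5, h6⟩ := H23.As.singer_four h4 h3
      have h7 : Fintype.card F = Nat.card F₀ ^ 2 := by rw [h4, h5]; rfl
      exact .inr (.inr (.inr (.inl ⟨F₀, 2, P, Nat.prime_two, h7, H23.As.IsMaximalIn.eq_inf hH
        (h ▸ h6) ((H23.As.amb_SL (by simp)).not_le_subfield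
          (H23.As.ne_top_of_card Nat.prime_two h7) P)⟩)))
    · exact .inr (.inr (.inl ⟨h4, K, h3, h⟩))
  · rw [Fintype.card_fin] at h3
    have : a ≤ 3 := Nat.le_of_dvd (by norm_num) ⟨b, h3⟩
    interval_cases a <;> omega
  · exact .inr (.inr (.inr (.inl (h))))
  · rw [Fintype.card_fin] at h3
    obtain rfl : r = 3 := H23.As.prime_eq_of_pow h2 (by norm_num) h3 (by norm_num)
    obtain ⟨p, e, h4, h5⟩ := H23.As.IsLinearSymplecticTypeData.odd h1 (by norm_num)
    rcases H23.As.minimal_three h4 with ⟨rfl, h6⟩ | ⟨rfl, h6⟩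
    · exact .inr (.inr (.inr (.inr (.inl ⟨p, R, h4.1, by simpa using h4.2.2.1, h6, h1, h⟩))))
    · exact absurd h5 (by decide)
  · simp at h1
  · exact absurd h1 (by simp; decide)
  · exact .inr (.inr (.inr (.inr (.inr (.inr (.inl (h)))))))
  · exact .inr (.inr (.inr (.inr (.inr (.inl (h))))))
  · exact .inr (.inr (.inr (.inr (.inr (.inr (.inr (h)))))))

end Cfsg.Agent.S5775
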