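import Cfsg.Statements.S5778
import Cfsg.Agent.H23.Ex6
import Cfsg.Agent.H23.As19

set_option autoImplicit false
open Cfsg

namespace Cfsg.Agent.S5778


/-- Every maximal subgroup of SU_3(q), q ≥ 3, is of one of the listed geometric types or lies in the residual class. Let F be the field with q² elements, f the standard unitary form Σ u_i v_i^q on F^3, and H a maximal subgroup of SU_3(q) (the determinant-one isometries of f, inside GL_3(F)). Then H is the intersection with SU_3(q) of one of: the stabiliser of a non-zero subspace on which f vanishes; the stabiliser of a non-degenerate 1-space; for q ≠ 5, the stabiliser of a decomposition into three mutually orthogonal non-degenerate 1-spaces; for q ≠ 3, 5, the normaliser of an adjoint-closed degree-3 subfield of the matrix algebra; a subfield group of odd prime index whose F₀-structure carries f; for q odd, q ≥ 7, a subfield group of index 2 whose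 F₀-structure carries f; for q = p ≡ 2 mod 3 prime with p ≥ 11, the normaliser of an absolutely irreducible subgroup of order 27 with centre of order 3, exponent 3 and all characteristic abelian subgroups cyclic, contained in the similarity group of f — or else H lies in the residual class of the unitary case. -/
theorem result {F : Type*} [Field F] [Fintype F] (q : ℕ) (hF : Fintype.card F = q ^ 2) (hq : 3 ≤ q) (H : Subgroup (Matrix.GeneralLinearGroup (Fin 3) F)) (hH : Cfsg.Geo.IsMaximalIn (Cfsg.GU 3 F q ⊓ Cfsg.Geo.specialLinear (Fin 3) F) H) :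
    (∃ W : Submodule F (Fin 3 → F), W ≠ ⊥ ∧ Cfsg.Geo.IsTotallySingularFor (Cfsg.hermForm 3 F q) W ∧ H = Cfsg.Geo.subspaceStabilizer W ⊓ (Cfsg.GU 3 F q ⊓ Cfsg.Geo.specialLinear (Fin 3) F)) ∨
    (∃ W : Submodule F (Fin 3 → F), W ≠ ⊥ ∧ Cfsg.Geo.IsNondegenerateOn (Cfsg.hermForm 3 F q) W ∧ 2 * Module.finrank F W < 3 ∧ H = Cfsg.Geo.subspaceStabilizer W ⊓ (Cfsg.GU 3 F q ⊓ Cfsg.Geo.specialLinear (Fin 3) F)) ∨
    (q ≠ 5 ∧ ∃ D : Fin 3 → Submodule F (Fin 3 → F), Cfsg.Geo.IsNondegenerateMDecomposition (Cfsg.hermForm 3 F q) 1 D ∧ H = Cfsg.Geo.decompositionStabilizer D ⊓ (Cfsg.GU 3 F q ⊓ Cfsg.Geo.specialLinear (Fin 3) F)) ∨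
    (q ≠ 3 ∧ q ≠ 5 ∧ ∃ K : Subalgebra F (Matrix (Fin 3) (Fin 3) F), Cfsg.Geo.IsFieldSubalgebra 3 K ∧ Cfsg.Geo.IsAdjointClosedFor (Cfsg.hermForm 3 F q) K ∧ H = Cfsg.Geo.subalgebraNormalizer K ⊓ (Cfsg.GU 3 F q ⊓ Cfsg.Geo.specialLinear (Fin 3) F)) ∨
    (∃ (F₀ : Subfield F) (r : ℕ) (P : Matrix.GeneralLinearGroup (Fin 3) F), r.Prime ∧ Odd r ∧ Fintype.card F = Nat.card F₀ ^ r ∧ Cfsg.Geo.IsFormRationalStructure (Cfsg.hermForm 3 F q) F₀ 1 P ∧ H = Cfsg.Geo.subfieldSubgroup F₀ P ⊓ (Cfsg.GU 3 F q ⊓ Cfsg.Geo.specialLinear (Fin 3) F)) ∨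
    (Odd q ∧ 7 ≤ q ∧ ∃ (F₀ : Subfield F) (P : Matrix.GeneralLinearGroup (Fin 3) F), Fintype.card F = Nat.card F₀ ^ 2 ∧ Cfsg.Geo.IsFormRationalStructure (Cfsg.hermForm 3 F q) F₀ 1 P ∧ H = Cfsg.Geo.subfieldSubgroup F₀ P ⊓ (Cfsg.GU 3 F q ⊓ Cfsg.Geo.specialLinear (Fin 3) F)) ∨
    (∃ (p : ℕ) (R : Subgroup (Matrix.GeneralLinearGroup (Fin 3) F)), p.Prime ∧ q = p ∧ p % 3 = 2 ∧ 11 ≤ p ∧ Cfsg.Geo.IsSymplecticTypeGroup 3 R ∧ Cfsg.Geo.ActsAbsolutelyIrreducibly (Cfsg.Geo.matrixSet R) ∧ R ≤ Cfsg.Geo.similarityGroup (Cfsg.hermForm 3 F q) ∧ Nat.card R = 27 ∧ Nat.card (Subgroup.center R) = 3 ∧ H = Cfsg.Geo.subgroupNormalizer R ⊓ (Cfsg.GU 3 F q ⊓ Cfsg.Geo.specialLinear (Fin 3) F)) ∨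
    Cfsg.Geo.InUnitaryResidualClass H := by
  rcases H23.As.uniS_max hF (by norm_num) (by norm_num) (by omega) hH with (h | h |
    ⟨t, m, D, h1, h2, h3, h4, h⟩ | ⟨k, D, h1, h⟩ | h | ⟨h1, F₀, P, h2, h3, h⟩ | ⟨h1, h⟩ |
    ⟨r, R, p, e, k, h1, h2, h3, h4, h5, h6, h7, h8, h9, h⟩ | ⟨r, K, h1, h2, h3, h4, h5, h⟩ |
    ⟨a, b, e, P, f₁, f₂, h1, h2, h3, h4, h⟩ | ⟨k, t, e, P, f₁, h1, h2, h3, h4, h⟩) | h
  · exact .inl (h)
  · exact .inr (.inl (h))
  · obtain ⟨rfl, rfl⟩ : (t = 3 ∧ m = 1) := by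
      have : t ≤ 3 := Nat.le_of_dvd (by norm_num) ⟨m, h3⟩
      interval_cases t <;> omega
    refine .inr (.inr (.inl ⟨?_, D, h1, h⟩))
    rintro rfl
    exact H23.Ex.frame_SU3_five hF h1 (h ▸ hH)
  · omega
  · exact .inr (.inr (.inr (.inr (.inl (h)))))
  · refine .inr (.inr (.inr (.inr (.inr (.inl ⟨h1, by_contra fun h4 => ?_, F₀, P, h2, h3, h⟩)))))
    obtain ⟨k, hk⟩ := h1
    exact H23.Ex.so_SU3 hF (by omega) h2 h3 (h ▸ hH)
  · exact absurd h1 (by decide)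
  · obtain rfl : r = 3 := H23.As.prime_eq_of_pow h1.prime (by norm_num) h8 (by norm_num)
    obtain rfl : k = 1 := Nat.pow_right_injective (a := 3) (by norm_num) (show 3 ^ k = 3 ^ 1 from h8.symm)
    obtain ⟨h9, h10, -, h11⟩ | ⟨h9, -⟩ := h9
    swap
    · omega
    rw [h10] at h6
    rcases H23.As.minimal_three h6 with ⟨rfl, h12⟩ | ⟨rfl, h12⟩
    · exact absurd h7 (by decide)
    obtain rfl : q = p := by simpa using H23.As.eq_pow_of_minimal hF h6 (a := 1) rfl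
    refine .inr (.inr (.inr (.inr (.inr (.inr (.inl ⟨q, R, h6.1, rfl, h12, by_contra fun h13 => ?_,
      h1, h2, h3, h11, h10, h⟩))))))
    obtain rfl | rfl : q = 5 ∨ q = 8 := by omega
    · exact H23.Ex.es_SU3_five hF h1 h2 (h4 h9) h11 h10 (h ▸ hH)
    · exact absurd h6.1 (by norm_num)
  · obtain rfl : r = 3 := by
      have : r ≤ 3 := Nat.le_of_dvd (by norm_num) h3
      interval_cases r <;> first | omega | exact absurd h2 (by decide) | exact absurd h1 (by norm_num)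
    refine .inr (.inr (.inr (.inl ⟨?_, ?_, K, h4, h5, h⟩))) <;> rintro rfl
    · exact H23.Ex.singer_SU3_three hF h4 h5 (h ▸ hH)
    · exact H23.Ex.singer_SU3_five hF h4 h5 (h ▸ hH)
  · have : a ≤ 3 := Nat.le_of_dvd (by norm_num) ⟨b, h3⟩
    interval_cases a <;> omega
  · obtain ⟨rfl, rfl⟩ := H23.As.wreath_small h1 h2 h3 (by norm_num)
    omega
  · exact .inr (.inr (.inr (.inr (.inr (.inr (.inr (h)))))))

end Cfsg.Agent.S5778
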