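import Cfsg.Statements.S5781
import Cfsg.Agent.H23.Sm2

set_option autoImplicit false
open Cfsg

namespace Cfsg.Agent.S5781


/-- Every maximal subgroup of SL_4(q) is of one of the listed geometric types or lies in the residual class. Let F be a finite field with q elements and H a maximal subgroup of SL_4(F) (inside GL_4(F)). Then H is the intersection with SL_4(F) of one of: the stabiliser of a proper non-zero subspace; for q ≥ 7, the stabiliser of a decomposition into four independent lines; for q ≥ 4, the stabiliser of a decomposition into two independent planes; the normaliser of a degree-2 subfield of the matrix algebra; a subfield group for a subfield F₀ with |F| = |F₀|^r, r prime; for q = p ≡ 1 mod 4 prime, the normaliser of an absolutely irreducible 2-subgroup R of exponent 4 with centre of order 4, all of whose characteristic abelian subgroups are cyclic, of order 2^(2+2m) for some m (here |R| = 64), with 4 dividing p − 1; for q odd, the similarity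 group of a non-degenerate quadratic form; the similarity group of a non-degenerate symplectic form; the similarity group of a non-degenerate unitary form — or else H lies in the residual class of the linear case. -/
theorem result {F : Type*} [Field F] [Fintype F] (H : Subgroup (Matrix.GeneralLinearGroup (Fin 4) F)) (hH : Cfsg.Geo.IsMaximalIn (Cfsg.Geo.specialLinear (Fin 4) F) H) :
    (∃ W : Submodule F (Fin 4 → F), W ≠ ⊥ ∧ W ≠ ⊤ ∧ H = Cfsg.Geo.subspaceStabilizer W ⊓ Cfsg.Geo.specialLinear (Fin 4) F) ∨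
    (7 ≤ Fintype.card F ∧ ∃ D : Fin 4 → Submodule F (Fin 4 → F), Cfsg.Geo.IsMDecomposition 1 D ∧ H = Cfsg.Geo.decompositionStabilizer D ⊓ Cfsg.Geo.specialLinear (Fin 4) F) ∨
    (4 ≤ Fintype.card F ∧ ∃ D : Fin 2 → Submodule F (Fin 4 → F), Cfsg.Geo.IsMDecomposition 2 D ∧ H = Cfsg.Geo.decompositionStabilizer D ⊓ Cfsg.Geo.specialLinear (Fin 4) F) ∨
    (∃ K : Subalgebra F (Matrix (Fin 4) (Fin 4) F), Cfsg.Geo.IsFieldSubalgebra 2 K ∧ H = Cfsg.Geo.subalgebraNormalizer K ⊓ Cfsg.Geo.specialLinear (Fin 4) F) ∨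
    (∃ (F₀ : Subfield F) (r : ℕ) (P : Matrix.GeneralLinearGroup (Fin 4) F), r.Prime ∧ Fintype.card F = Nat.card F₀ ^ r ∧ H = Cfsg.Geo.subfieldSubgroup F₀ P ⊓ Cfsg.Geo.specialLinear (Fin 4) F) ∨
    (∃ (p : ℕ) (R : Subgroup (Matrix.GeneralLinearGroup (Fin 4) F)), p.Prime ∧ Fintype.card F = p ∧ p % 4 = 1 ∧ Cfsg.Geo.IsLinearSymplecticTypeData 2 R ∧ H = Cfsg.Geo.subgroupNormalizer R ⊓ Cfsg.Geo.specialLinear (Fin 4) F) ∨
    (Odd (Fintype.card F) ∧ ∃ Q : (Fin 4 → F) → F, Cfsg.Geo.IsNondegenerateQuadraticForm Q ∧ H = Cfsg.Geo.quadSimilarityGroup Q ⊓ Cfsg.Geo.specialLinear (Fin 4) F) ∨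
    (∃ f : (Fin 4 → F) → (Fin 4 → F) → F, Cfsg.Geo.IsSymplecticForm f ∧ H = Cfsg.Geo.similarityGroup f ⊓ Cfsg.Geo.specialLinear (Fin 4) F) ∨
    (∃ (σ : F ≃+* F) (f : (Fin 4 → F) → (Fin 4 → F) → F), Cfsg.Geo.IsUnitaryForm σ f ∧ H = Cfsg.Geo.similarityGroup f ⊓ Cfsg.Geo.specialLinear (Fin 4) F) ∨
    Cfsg.Geo.InLinearResidualClass H := by
  have hq := Fintype.one_lt_card (α := F)
  rcases H23.As.linE_or_residual (by simp) (by simp) hH with (h | ⟨t, m, D, h1, h2, h3, h4, h5, h⟩ |
    ⟨r, K, h1, h2, h3, h⟩ | ⟨a, b, e, P, h1, h2, h3, h4, h⟩ | h | ⟨r, R, k, h1, h2, h3, h⟩ |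
    ⟨e, P, h1, h⟩ | ⟨h1, h⟩ | h | h) | h
  · exact .inl (h)
  · rw [Fintype.card_fin] at h3
    obtain ⟨rfl, rfl⟩ | ⟨rfl, rfl⟩ : (t = 4 ∧ m = 1) ∨ (t = 2 ∧ m = 2) := by
      have : t ≤ 4 := Nat.le_of_dvd (by norm_num) ⟨m, h3⟩
      interval_cases t <;> omega
    · by_cases h6 : Fintype.card F = 5
      · exact (H23.As.frame_SL4_five h6 h1 (h ▸ hH)).elim
      refine .inr (.inl ⟨?_, D, h1, h⟩)
      have h7 : Fintype.card F ≠ 6 := fun h7 => by
        obtain ⟨p, e, hp, -, he⟩ := H23.As.exists_char_pow F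
        have h8 := H23.As.prime_eq_of_pow hp Nat.prime_two he (by rw [h7]; decide)
        have h9 := H23.As.prime_eq_of_pow hp Nat.prime_three he (by rw [h7]; decide)
        omega
      have := h4 rfl
      omega
    · by_cases h6 : Fintype.card F = 3
      · obtain ⟨B, h7, h8, h9⟩ := H23.As.planes_SL4_three h6 h1
        exact .inr (.inr (.inr (.inr (.inr (.inr (.inr (.inl ⟨_, h8.isSymplecticForm h7,
          H23.As.IsMaximalIn.eq_inf hH (h ▸ h9) (H23.As.SL_not_le_sim (by simp) h7)⟩)))))))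
      exact .inr (.inr (.inl ⟨by have := h5 rfl; omega, D, h1, h⟩))
  · rw [Fintype.card_fin] at h2
    obtain rfl : r = 2 := by
      have : r ≤ 4 := Nat.le_of_dvd (by norm_num) h2
      interval_cases r <;> first | omega | exact absurd h1 (by norm_num)
    exact .inr (.inr (.inr (.inl ⟨K, h3, h⟩)))
  · rw [Fintype.card_fin] at h3
    have : a ≤ 4 := Nat.le_of_dvd (by norm_num) ⟨b, h3⟩
    interval_cases a <;> omega
  · exact .inr (.inr (.inr (.inr (.inl h))))
  · rw [Fintype.card_fin] at h3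
    obtain rfl : r = 2 := H23.As.prime_eq_of_pow h2 (by norm_num) h3 (by norm_num)
    obtain ⟨p, h4, h5, h6⟩ := H23.As.IsLinearSymplecticTypeData.two h1 (by simp)
    exact .inr (.inr (.inr (.inr (.inr (.inl ⟨p, R, h4, h5, h6, h1, h⟩)))))
  · simp at h1
  · exact .inr (.inr (.inr (.inr (.inr (.inr (.inr (.inl h)))))))
  · exact .inr (.inr (.inr (.inr (.inr (.inr (.inr (.inr (.inl h))))))))
  · exact .inr (.inr (.inr (.inr (.inr (.inr (.inl h))))))
  · exact .inr (.inr (.inr (.inr (.inr (.inr (.inr (.inr (.inr h))))))))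

end Cfsg.Agent.S5781
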