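import Cfsg.Statements.S5784
import Cfsg.Agent.H23.Sm3

set_option autoImplicit false
open Cfsg

namespace Cfsg.Agent.S5784


/-- Every maximal subgroup of SU_4(q) is of one of the listed geometric types or lies in the residual class. Let F be the field with q² elements, f the standard unitary form Σ u_i v_i^q on F^4, and H a maximal subgroup of SU_4(q) (inside GL_4(F)). Then H is the intersection with SU_4(q) of one of: the stabiliser of a non-zero subspace on which f vanishes; the stabiliser of a non-degenerate 1-space; for q ≠ 3, the stabiliser of a decomposition into four mutually orthogonal non-degenerate 1-spaces; for q ≥ 3, of a decomposition into two orthogonal non-degenerate 2-spaces; for q ≥ 4, of a decomposition into two totally isotropic 2-spaces; a subfield group of odd prime index whose F₀-structure carries f; a subfield group of index 2 whose F₀-structure carries ζ f, vanishing on pairs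 (u, u), for some non-zero ζ with ζ + ζ^q = 0; for q odd, a subfield group of index 2 whose F₀-structure carries f; for q = p ≡ 3 mod 4 prime, the normaliser of an absolutely irreducible symplectic-type 2-group of exponent 4, order 64 and centre of order 4 inside the similarity group of f — or else H lies in the residual class of the unitary case. -/
theorem result {F : Type*} [Field F] [Fintype F] (q : ℕ) (hF : Fintype.card F = q ^ 2) (H : Subgroup (Matrix.GeneralLinearGroup (Fin 4) F)) (hH : Cfsg.Geo.IsMaximalIn (Cfsg.GU 4 F q ⊓ Cfsg.Geo.specialLinear (Fin 4) F) H) :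
    (∃ W : Submodule F (Fin 4 → F), W ≠ ⊥ ∧ Cfsg.Geo.IsTotallySingularFor (Cfsg.hermForm 4 F q) W ∧ H = Cfsg.Geo.subspaceStabilizer W ⊓ (Cfsg.GU 4 F q ⊓ Cfsg.Geo.specialLinear (Fin 4) F)) ∨
    (∃ W : Submodule F (Fin 4 → F), W ≠ ⊥ ∧ Cfsg.Geo.IsNondegenerateOn (Cfsg.hermForm 4 F q) W ∧ 2 * Module.finrank F W < 4 ∧ H = Cfsg.Geo.subspaceStabilizer W ⊓ (Cfsg.GU 4 F q ⊓ Cfsg.Geo.specialLinear (Fin 4) F)) ∨
    (q ≠ 3 ∧ ∃ D : Fin 4 → Submodule F (Fin 4 → F), Cfsg.Geo.IsNondegenerateMDecomposition (Cfsg.hermForm 4 F q) 1 D ∧ H = Cfsg.Geo.decompositionStabilizer D ⊓ (Cfsg.GU 4 F q ⊓ Cfsg.Geo.specialLinear (Fin 4) F)) ∨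
    (3 ≤ q ∧ ∃ D : Fin 2 → Submodule F (Fin 4 → F), Cfsg.Geo.IsNondegenerateMDecomposition (Cfsg.hermForm 4 F q) 2 D ∧ H = Cfsg.Geo.decompositionStabilizer D ⊓ (Cfsg.GU 4 F q ⊓ Cfsg.Geo.specialLinear (Fin 4) F)) ∨
    (4 ≤ q ∧ ∃ D : Fin 2 → Submodule F (Fin 4 → F), Cfsg.Geo.IsMDecomposition 2 D ∧ (∀ i, Cfsg.Geo.IsTotallySingularFor (Cfsg.hermForm 4 F q) (D i)) ∧ H = Cfsg.Geo.decompositionStabilizer D ⊓ (Cfsg.GU 4 F q ⊓ Cfsg.Geo.specialLinear (Fin 4) F)) ∨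
    (∃ (F₀ : Subfield F) (r : ℕ) (P : Matrix.GeneralLinearGroup (Fin 4) F), r.Prime ∧ Odd r ∧ Fintype.card F = Nat.card F₀ ^ r ∧ Cfsg.Geo.IsFormRationalStructure (Cfsg.hermForm 4 F q) F₀ 1 P ∧ H = Cfsg.Geo.subfieldSubgroup F₀ P ⊓ (Cfsg.GU 4 F q ⊓ Cfsg.Geo.specialLinear (Fin 4) F)) ∨
    (∃ (F₀ : Subfield F) (P : Matrix.GeneralLinearGroup (Fin 4) F) (ζ : F), Fintype.card F = Nat.card F₀ ^ 2 ∧ ζ ≠ 0 ∧ ζ + ζ ^ q = 0 ∧ Cfsg.Geo.IsFormRationalStructure (Cfsg.hermForm 4 F q) F₀ ζ P ∧ (∀ u : Fin 4 → F, (∀ i, u i ∈ F₀) → (Cfsg.hermForm 4 F q) (Matrix.mulVec (P : Matrix (Fin 4) (Fin 4) F) u) (Matrix.mulVec (P : Matrix (Fin 4) (Fin 4) F) u) = 0) ∧ H = Cfsg.Geo.subfieldSubgroup F₀ P ⊓ (Cfsg.GU 4 F q ⊓ Cfsg.Geo.specialLinear (Fin 4) F)) ∨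
    (Odd q ∧ ∃ (F₀ : Subfield F) (P : Matrix.GeneralLinearGroup (Fin 4) F), Fintype.card F = Nat.card F₀ ^ 2 ∧ Cfsg.Geo.IsFormRationalStructure (Cfsg.hermForm 4 F q) F₀ 1 P ∧ H = Cfsg.Geo.subfieldSubgroup F₀ P ⊓ (Cfsg.GU 4 F q ⊓ Cfsg.Geo.specialLinear (Fin 4) F)) ∨
    (∃ (p : ℕ) (R : Subgroup (Matrix.GeneralLinearGroup (Fin 4) F)), p.Prime ∧ q = p ∧ p % 4 = 3 ∧ Cfsg.Geo.IsSymplecticTypeGroup 2 R ∧ Cfsg.Geo.ActsAbsolutelyIrreducibly (Cfsg.Geo.matrixSet R) ∧ R ≤ Cfsg.Geo.similarityGroup (Cfsg.hermForm 4 F q) ∧ Nat.card R = 64 ∧ Nat.card (Subgroup.center R) = 4 ∧ H = Cfsg.Geo.subgroupNormalizer R ⊓ (Cfsg.GU 4 F q ⊓ Cfsg.Geo.specialLinear (Fin 4) F)) ∨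
    Cfsg.Geo.InUnitaryResidualClass H := by
  have hq := H23.two_le_of_card_eq_sq hF
  rcases H23.As.uniS_max hF (by norm_num) (by norm_num) (by omega) hH with (h | h |
    ⟨t, m, D, h1, h2, h3, h4, h⟩ | ⟨k, D, h1, h2, h3, h⟩ | h | h | ⟨h1, h⟩ |
    ⟨r, R, p, e, k, h1, h2, h3, h4, h5, h6, h7, h8, h9, h⟩ | ⟨r, K, h1, h2, h3, h⟩ |
    ⟨a, b, e, P, f₁, f₂, h1, h2, h3, h4, h⟩ | ⟨k, t, e, P, f₁, h1, h2, h3, h4, h⟩) | h
  · exact .inl (h)
  · exact .inr (.inl (h))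
  · obtain ⟨rfl, rfl⟩ | ⟨rfl, rfl⟩ : (t = 4 ∧ m = 1) ∨ (t = 2 ∧ m = 2) := by
      have : t ≤ 4 := Nat.le_of_dvd (by norm_num) ⟨m, h3⟩
      interval_cases t <;> omega
    · refine .inr (.inr (.inl ⟨?_, D, h1, h⟩))
      rintro rfl
      exact H23.As.frame_SU4_three hF h1 (h ▸ hH)
    · exact .inr (.inr (.inr (.inl ⟨h4 rfl, D, h1, h⟩)))
  · obtain rfl : k = 2 := by omega
    refine .inr (.inr (.inr (.inr (.inl ⟨by_contra fun h4 => ?_, D, h2, h3, h⟩))))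
    obtain ⟨c, h5, h6⟩ := H23.As.exists_skew (H23.conj_ne_id hF) (H23.conj_conj hF)
    rw [H23.As.hermForm_eq hF] at h3
    refine H23.As.ts_false (H23.As.fd_one hF) (.inl rfl) (fun x hx h0 => ?_) h5 (by simpa using h6)
      h2 h3 (inf_le_left.trans (H23.As.GU_eq_Iso hF 4).le) (.inr inf_le_right)
      (by rw [H23.As.GU_eq_Iso hF]) (h ▸ hH)
    change x ^ q = x at hx
    obtain rfl | rfl : q = 2 ∨ q = 3 := by omega
    · rw [show x = 1 from mul_left_cancel₀ h0 (by linear_combination hx), mul_one]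
    · exact mul_left_cancel₀ h0 (by linear_combination hx)
  · exact .inr (.inr (.inr (.inr (.inr (.inl h)))))
  · exact .inr (.inr (.inr (.inr (.inr (.inr (.inr (.inl h)))))))
  · exact .inr (.inr (.inr (.inr (.inr (.inr (.inl h))))))
  · obtain rfl : r = 2 := H23.As.prime_eq_of_pow h1.prime (by norm_num) h8 (by norm_num)
    obtain rfl : k = 2 := Nat.pow_right_injective (a := 2) (by norm_num) (show 2 ^ k = 2 ^ 2 from h8.symm)
    obtain ⟨h9, -⟩ | ⟨-, rfl, h10, h11⟩ := h9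
    · exact absurd h9 (by decide)
    rw [h10] at h6
    exact .inr (.inr (.inr (.inr (.inr (.inr (.inr (.inr (.inl ⟨p, R, h6.1, by simpa using H23.As.eq_pow_of_minimal hF h6 (a := 1) rfl,
      by simpa using H23.As.minimal_four h6, h1, h2, h3, h11, h10, h⟩))))))))
  · have : r ≤ 4 := Nat.le_of_dvd (by norm_num) h3
    interval_cases r <;> first | omega | exact absurd h2 (by decide) | exact absurd h1 (by norm_num)
  · have : a ≤ 4 := Nat.le_of_dvd (by norm_num) ⟨b, h3⟩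
    interval_cases a <;> omega
  · obtain ⟨rfl, rfl⟩ := H23.As.wreath_small h1 h2 h3 (by norm_num)
    omega
  · exact .inr (.inr (.inr (.inr (.inr (.inr (.inr (.inr (.inr h))))))))

end Cfsg.Agent.S5784
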