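import Cfsg.Statements.S5787
import Cfsg.Agent.H23.Sm3
import Cfsg.Agent.H23.As23

set_option autoImplicit false
open Cfsg

namespace Cfsg.Agent.S5787


/-- Every maximal subgroup of Sp_4(q), q odd, is of one of the listed geometric types or lies in the residual class. Let F be a finite field of odd order q, f the standard alternating form on F^4 (coordinates Fin 2 ⊕ Fin 2), and H a maximal subgroup of the isometry group Sp_4(F) (inside GL_4(F)). Then H is the intersection with Sp_4(F) of one of: the stabiliser of a non-zero totally isotropic subspace; the stabiliser of a decomposition into two orthogonal non-degenerate 2-spaces; for q ≥ 5, of a decomposition into two totally isotropic 2-spaces; the normaliser of a degree-2 subfield K of the matrix algebra, self-adjoint with f(k v, v) = 0; for q ≥ 5, the normaliser of a degree-2 subfield closed under adjoints but not self-adjoint; a subfield group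 whose F₀-structure carries a non-zero multiple of f, |F| = |F₀|^r with r prime; for q = p prime, the normaliser of an absolutely irreducible symplectic-type 2-group of exponent 4, order 32, centre of order 2 and minus type inside the similarity group of f — or else H lies in the residual class of the symplectic case. -/
theorem result {F : Type*} [Field F] [Fintype F] (hodd : Odd (Fintype.card F)) (H : Subgroup (Matrix.GeneralLinearGroup (Fin 2 ⊕ Fin 2) F)) (hH : Cfsg.Geo.IsMaximalIn (Cfsg.spGL 2 F) H) :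
    (∃ W : Submodule F (Fin 2 ⊕ Fin 2 → F), W ≠ ⊥ ∧ Cfsg.Geo.IsTotallySingularFor (Cfsg.sympForm 2 F) W ∧ H = Cfsg.Geo.subspaceStabilizer W ⊓ Cfsg.spGL 2 F) ∨
    (∃ D : Fin 2 → Submodule F (Fin 2 ⊕ Fin 2 → F), Cfsg.Geo.IsNondegenerateMDecomposition (Cfsg.sympForm 2 F) 2 D ∧ H = Cfsg.Geo.decompositionStabilizer D ⊓ Cfsg.spGL 2 F) ∨
    (5 ≤ Fintype.card F ∧ ∃ D : Fin 2 → Submodule F (Fin 2 ⊕ Fin 2 → F), Cfsg.Geo.IsMDecomposition 2 D ∧ (∀ i, Cfsg.Geo.IsTotallySingularFor (Cfsg.sympForm 2 F) (D i)) ∧ H = Cfsg.Geo.decompositionStabilizer D ⊓ Cfsg.spGL 2 F) ∨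
    (∃ K : Subalgebra F (Matrix (Fin 2 ⊕ Fin 2) (Fin 2 ⊕ Fin 2) F), Cfsg.Geo.IsFieldSubalgebra 2 K ∧ Cfsg.Geo.IsSelfAdjointFor (Cfsg.sympForm 2 F) K ∧ (∀ k ∈ K, ∀ v : (Fin 2 ⊕ Fin 2 → F), (Cfsg.sympForm 2 F) (Matrix.mulVec k v) v = 0) ∧ H = Cfsg.Geo.subalgebraNormalizer K ⊓ Cfsg.spGL 2 F) ∨
    (5 ≤ Fintype.card F ∧ ∃ K : Subalgebra F (Matrix (Fin 2 ⊕ Fin 2) (Fin 2 ⊕ Fin 2) F), Cfsg.Geo.IsFieldSubalgebra 2 K ∧ Cfsg.Geo.IsAdjointClosedFor (Cfsg.sympForm 2 F) K ∧ ¬ Cfsg.Geo.IsSelfAdjointFor (Cfsg.sympForm 2 F) K ∧ H = Cfsg.Geo.subalgebraNormalizer K ⊓ Cfsg.spGL 2 F) ∨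
    (∃ (F₀ : Subfield F) (r : ℕ) (P : Matrix.GeneralLinearGroup (Fin 2 ⊕ Fin 2) F) (ζ : F), r.Prime ∧ Fintype.card F = Nat.card F₀ ^ r ∧ ζ ≠ 0 ∧ Cfsg.Geo.IsFormRationalStructure (Cfsg.sympForm 2 F) F₀ ζ P ∧ H = Cfsg.Geo.subfieldSubgroup F₀ P ⊓ Cfsg.spGL 2 F) ∨
    (∃ (p : ℕ) (R : Subgroup (Matrix.GeneralLinearGroup (Fin 2 ⊕ Fin 2) F)), p.Prime ∧ Fintype.card F = p ∧ Cfsg.Geo.IsSymplecticTypeGroup 2 R ∧ Cfsg.Geo.ActsAbsolutelyIrreducibly (Cfsg.Geo.matrixSet R) ∧ R ≤ Cfsg.Geo.similarityGroup (Cfsg.sympForm 2 F) ∧ Nat.card R = 32 ∧ Nat.card (Subgroup.center R) = 2 ∧ Cfsg.Geo.IsOfMinusType 2 R ∧ H = Cfsg.Geo.subgroupNormalizer R ⊓ Cfsg.spGL 2 F) ∨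
    Cfsg.Geo.InSymplecticResidualClass H := by
  have hq := Fintype.one_lt_card (α := F)
  have hq' := Nat.odd_iff.1 hodd
  rcases H23.As.spC_max (by norm_num) (by norm_num) (by omega) hH with ⟨M, hM, h⟩ | h
  swap
  · exact .inr (.inr (.inr (.inr (.inr (.inr (.inr h))))))
  have hc : Fintype.card (Fin 2 ⊕ Fin 2) = 4 := by simp
  have hS : Cfsg.spGL 2 F = H23.As.Iso (H23.As.fb (Matrix.J (Fin 2) F)) := by
    rw [← H23.As.sympForm_eq]; rfl
  cases hM with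
  | ts W h0 h1 => exact .inl ⟨W, h0, h1, h⟩
  | nd W h0 h1 h2 => exact (H23.As.not_nd_of_lt h0 h1 (by omega)).elim
  | dec t k D h1 h2 h3 h4 h5 =>
    obtain ⟨rfl, rfl⟩ : (t = 2 ∧ k = 2) := by
      have : t ≤ 4 := Nat.le_of_dvd (by norm_num) ⟨k, hc ▸ h3⟩
      obtain ⟨a, rfl⟩ := h4
      interval_cases t <;> omega
    · exact .inr (.inl ⟨D, h1, h⟩)
  | pair k D h1 h2 h3 h4 =>
    obtain rfl : k = 2 := by omega
    refine .inr (.inr (.inl ⟨by_contra fun h5 => ?_, D, h3, h4, h⟩))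
    rw [H23.As.sympForm_eq] at h4
    refine H23.As.ts_false ((H23.As.alt_J 2).fd (H23.As.isUnit_J 2)) (.inr rfl) (fun x _ h0 => ?_)
      one_ne_zero (by simp) h3 h4 hS.le (.inl rfl) (inf_le_left.trans hS.ge) (h ▸ hH)
    simpa [sq] using H23.As.pow_card_pred (k := 2) (by omega) h0
  | fld r K h1 h2 h3 h4 h5 =>
    obtain rfl : r = 2 := by
      rw [hc] at h2
      have : r ≤ 2 := by have := Nat.le_of_dvd (by norm_num) h2; omega
      interval_cases r <;> first | omega | exact absurd h1 (by norm_num)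
    · exact .inr (.inr (.inr (.inl ⟨K, h3, h4, h5, h⟩)))
  | uni K h1 h2 h3 h4 =>
    refine .inr (.inr (.inr (.inr (.inl ⟨by_contra fun h5 => ?_, K, h2, h3, h4, h⟩))))
    rw [H23.As.sympForm_eq] at h3 h4
    exact H23.As.uni_Sp4_three (by omega) (H23.As.alt_J 2) (H23.As.isUnit_J 2) hc h2 h3 h4
      (hS ▸ h ▸ hH)
  | ten a b e P f₁ f₂ h1 h2 h3 h4 h5 => rw [hc] at h2; nlinarith
  | sub F₀ r P ζ h1 h2 h3 h4 =>
    exact .inr (.inr (.inr (.inr (.inr (.inl ⟨F₀, r, P, ζ, h1, h2, h3, h4, h⟩)))))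
  | ext R k h1 h2 h3 h4 h5 h6 h7 h8 h9 =>
    obtain rfl : k = 2 :=
      Nat.pow_right_injective (a := 2) (by norm_num) (show 2 ^ k = 2 ^ 2 from h6.symm)
    exact .inr (.inr (.inr (.inr (.inr (.inr (.inl ⟨_, R, h4, rfl, h1, h2, h3, h7, h8, h9, h⟩))))))
  | wr k t e P f₁ h1 h2 h3 h4 h5 =>
    obtain ⟨rfl, rfl⟩ := H23.As.wreath_small' h3 h5 h2 (by simp)
    simp at h2
  | quad Q h1 => exact (h1 hodd).elim

end Cfsg.Agent.S5787
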