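import Cfsg.Statements.S5789
import Cfsg.Agent.H23.Sq3
import Cfsg.Agent.H23.Od1
import Cfsg.Agent.H23.Bridge2
import Cfsg.Agent.H23.Fam

set_option autoImplicit false
open Cfsg

namespace Cfsg.Agent.S5789


/-- Maximal subgroups of Sp_4(q) of geometric type, q ≥ 4 even. Let F be a finite field of even order q ≥ 4, f the standard alternating form on F^4 (coordinates Fin 2 ⊕ Fin 2) and Sp_4(F) its isometry group inside GL_4(F). Each of the following, intersected with Sp_4(F), is a maximal subgroup of Sp_4(F): (1) the stabiliser of any non-zero totally isotropic subspace (totally isotropic 1-spaces and 2-spaces); (2) the stabiliser of any decomposition of F^4 into two mutually orthogonal non-degenerate 2-spaces; (3) the normaliser of any degree-2 subfield K of the matrix algebra whose elements are self-adjoint for f with f(k v, v) = 0 for all k in K and all v; (4) every subfield group for a subfield F₀ with |F| =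 |F₀|^r, r prime, whose F₀-structure carries a non-zero scalar multiple of f; (5) the similarity group of any non-degenerate quadratic form whose polar form is f (either Witt type); its intersection with Sp_4(F) is the orthogonal group of that form. -/
theorem result {F : Type*} [Field F] [Fintype F] (heven : ¬ Odd (Fintype.card F)) (h4 : 4 ≤ Fintype.card F) :
    (∀ W : Submodule F (Fin 2 ⊕ Fin 2 → F), W ≠ ⊥ → Cfsg.Geo.IsTotallySingularFor (Cfsg.sympForm 2 F) W → Cfsg.Geo.IsMaximalIn (Cfsg.spGL 2 F) (Cfsg.Geo.subspaceStabilizer W ⊓ Cfsg.spGL 2 F)) ∧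
    (∀ D : Fin 2 → Submodule F (Fin 2 ⊕ Fin 2 → F), Cfsg.Geo.IsNondegenerateMDecomposition (Cfsg.sympForm 2 F) 2 D → Cfsg.Geo.IsMaximalIn (Cfsg.spGL 2 F) (Cfsg.Geo.decompositionStabilizer D ⊓ Cfsg.spGL 2 F)) ∧
    (∀ K : Subalgebra F (Matrix (Fin 2 ⊕ Fin 2) (Fin 2 ⊕ Fin 2) F), Cfsg.Geo.IsFieldSubalgebra 2 K → Cfsg.Geo.IsSelfAdjointFor (Cfsg.sympForm 2 F) K → (∀ k ∈ K, ∀ v : (Fin 2 ⊕ Fin 2 → F), (Cfsg.sympForm 2 F) (Matrix.mulVec k v) v = 0) → Cfsg.Geo.IsMaximalIn (Cfsg.spGL 2 F) (Cfsg.Geo.subalgebraNormalizer K ⊓ Cfsg.spGL 2 F)) ∧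
    (∀ (F₀ : Subfield F) (r : ℕ) (P : Matrix.GeneralLinearGroup (Fin 2 ⊕ Fin 2) F) (ζ : F), r.Prime → Fintype.card F = Nat.card F₀ ^ r → ζ ≠ 0 → Cfsg.Geo.IsFormRationalStructure (Cfsg.sympForm 2 F) F₀ ζ P → Cfsg.Geo.IsMaximalIn (Cfsg.spGL 2 F) (Cfsg.Geo.subfieldSubgroup F₀ P ⊓ Cfsg.spGL 2 F)) ∧
    (∀ Q : (Fin 2 ⊕ Fin 2 → F) → F, Cfsg.Geo.IsNondegenerateQuadraticForm Q → (∀ u v : (Fin 2 ⊕ Fin 2 → F), QuadraticMap.polar Q u v = (Cfsg.sympForm 2 F) u v) → Cfsg.Geo.IsMaximalIn (Cfsg.spGL 2 F) (Cfsg.Geo.quadSimilarityGroup Q ⊓ Cfsg.spGL 2 F)) := by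
  have hΦ := H23.spForm_nondeg (F := F) 2
  have h2 := H23.two_eq_zero_of_not_odd heven
  have : CharP F 2 := CharTwo.of_one_ne_zero_of_two_eq_zero one_ne_zero h2
  refine ⟨fun W hW0 hW => ?_, fun D hD => H23.isMaximalIn_dec_Sp hD (Or.inr (by omega)),
    fun K h1 _ h3 => H23.Sq.isMaximalIn_sx_four h1 h3,
    fun F₀ r P ζ hr hcard hζ hP => ?_, fun Q hQ hpol => ?_⟩
  · exact H23.isMaximalIn_stab_of_E (fun _ => H23.mem_spGL_iff_E) (H23.Form.isMaximalIn_totSing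
      hΦ ⟨fun u hu v hv => (H23.spForm_B 2 u v).trans (hW u hu v hv),
      fun _ _ => rfl⟩ hW0 ((H23.Form.hasTv_alt rfl rfl).move _) ((H23.Form.hasTv_alt rfl rfl).move _))
  · refine H23.Sq.isMaximalIn_colS_two (H23.Sf.scale_nondeg hζ hΦ)
      (by simp [H23.Sf.scale, hζ]) rfl h2 ?_ (by simp)
      (H23.Sf.pd_of_card hr hcard) fun g => by rw [H23.Sf.scale_E, H23.mem_spGL_iff_E]
    rintro _ ⟨x, hx, rfl⟩ _ ⟨y, hy, rfl⟩
    simpa [H23.Sf.scale_B] using hP x y hx hy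
  obtain ⟨Q, rfl, hΨ⟩ := H23.exists_quad hQ
  have hB : (H23.spForm 2 F).B = (H23.Form.ofQuad Q).B :=
    LinearMap.ext₂ fun u v => (H23.spForm_B 2 u v).trans (hpol u v).symm
  refine H23.isMaximalIn_of_iff (H23.glE _ F) (H23.Sq.isMaximalIn_O_Sp hΨ rfl rfl rfl hB
    h2 (by simp)) (fun g => H23.mem_spGL_iff_E) fun g => ?_
  rw [Subgroup.mem_inf, H23.mem_spGL_iff]
  constructor
  · rintro ⟨⟨c, hc⟩, h⟩
    refine ⟨hB ▸ h.1, fun v => ?_⟩
    obtain ⟨y, hy⟩ := hΨ.exists_ne (x := 1) (fun h => by simpa using congrFun h (Sum.inl 0))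
    have := h.1 1 y
    rw [hB, hy] at this
    have h1 : (c : F) * (H23.Form.ofQuad Q).B 1 y = 1 := by
      rw [← this]
      simp only [H23.Form.ofQuad_B, QuadraticMap.polar, H23.glE_apply, ← Matrix.mulVec_add, hc]
      ring
    rw [hy, mul_one] at h1
    simpa [h1] using hc v
  · exact fun h => ⟨⟨1, by simpa using h.2⟩, hB ▸ h.1, fun _ => rfl⟩

end Cfsg.Agent.S5789
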