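import Cfsg.Statements.S5790
import Cfsg.Agent.H23.As23

set_option autoImplicit false
open Cfsg

namespace Cfsg.Agent.S5790


/-- Every maximal subgroup of Sp_4(q), q ≥ 4 even, is of one of the listed geometric types or lies in the residual class. Let F be a finite field of even order q ≥ 4, f the standard alternating form on F^4 (coordinates Fin 2 ⊕ Fin 2), and H a maximal subgroup of Sp_4(F) (inside GL_4(F)). Then H is the intersection with Sp_4(F) of one of: the stabiliser of a non-zero totally isotropic subspace; the stabiliser of a decomposition into two orthogonal non-degenerate 2-spaces; the normaliser of a degree-2 subfield K of the matrix algebra, self-adjoint with f(k v, v) = 0; a subfield group whose F₀-structure carries a non-zero multiple of f, |F| = |F₀|^r with r prime; the similarity group of a non-degenerate quadratic form whose polar form is f — or else H lies in the residual class of the symplectic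 case. -/
theorem result {F : Type*} [Field F] [Fintype F] (heven : ¬ Odd (Fintype.card F)) (h4 : 4 ≤ Fintype.card F) (H : Subgroup (Matrix.GeneralLinearGroup (Fin 2 ⊕ Fin 2) F)) (hH : Cfsg.Geo.IsMaximalIn (Cfsg.spGL 2 F) H) :
    (∃ W : Submodule F (Fin 2 ⊕ Fin 2 → F), W ≠ ⊥ ∧ Cfsg.Geo.IsTotallySingularFor (Cfsg.sympForm 2 F) W ∧ H = Cfsg.Geo.subspaceStabilizer W ⊓ Cfsg.spGL 2 F) ∨
    (∃ D : Fin 2 → Submodule F (Fin 2 ⊕ Fin 2 → F), Cfsg.Geo.IsNondegenerateMDecomposition (Cfsg.sympForm 2 F) 2 D ∧ H = Cfsg.Geo.decompositionStabilizer D ⊓ Cfsg.spGL 2 F) ∨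
    (∃ K : Subalgebra F (Matrix (Fin 2 ⊕ Fin 2) (Fin 2 ⊕ Fin 2) F), Cfsg.Geo.IsFieldSubalgebra 2 K ∧ Cfsg.Geo.IsSelfAdjointFor (Cfsg.sympForm 2 F) K ∧ (∀ k ∈ K, ∀ v : (Fin 2 ⊕ Fin 2 → F), (Cfsg.sympForm 2 F) (Matrix.mulVec k v) v = 0) ∧ H = Cfsg.Geo.subalgebraNormalizer K ⊓ Cfsg.spGL 2 F) ∨
    (∃ (F₀ : Subfield F) (r : ℕ) (P : Matrix.GeneralLinearGroup (Fin 2 ⊕ Fin 2) F) (ζ : F), r.Prime ∧ Fintype.card F = Nat.card F₀ ^ r ∧ ζ ≠ 0 ∧ Cfsg.Geo.IsFormRationalStructure (Cfsg.sympForm 2 F) F₀ ζ P ∧ H = Cfsg.Geo.subfieldSubgroup F₀ P ⊓ Cfsg.spGL 2 F) ∨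
    (∃ Q : (Fin 2 ⊕ Fin 2 → F) → F, Cfsg.Geo.IsNondegenerateQuadraticForm Q ∧ (∀ u v : (Fin 2 ⊕ Fin 2 → F), QuadraticMap.polar Q u v = (Cfsg.sympForm 2 F) u v) ∧ H = Cfsg.Geo.quadSimilarityGroup Q ⊓ Cfsg.spGL 2 F) ∨
    Cfsg.Geo.InSymplecticResidualClass H := by
  rcases H23.As.spC_max (by norm_num) (by norm_num) (by omega) hH with ⟨M, hM, h⟩ | h
  swap
  · exact .inr (.inr (.inr (.inr (.inr (h)))))
  have hc : Fintype.card (Fin 2 ⊕ Fin 2) = 4 := by simp
  cases hM with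
  | ts W h0 h1 => exact .inl ⟨W, h0, h1, h⟩
  | nd W h0 h1 h2 => exact (H23.As.not_nd_of_lt h0 h1 (by omega)).elim
  | dec t k D h1 h2 h3 h4 h5 =>
    obtain ⟨rfl, rfl⟩ : (t = 2 ∧ k = 2) := by
      have : t ≤ 4 := Nat.le_of_dvd (by norm_num) ⟨k, hc ▸ h3⟩
      obtain ⟨a, rfl⟩ := h4
      interval_cases t <;> omega
    · exact .inr (.inl ⟨D, h1, h⟩)
  | pair k D h1 => exact (heven h1).elim
  | fld r K h1 h2 h3 h4 h5 =>
    obtain rfl : r = 2 := by
      rw [hc] at h2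
      have : r ≤ 2 := by have := Nat.le_of_dvd (by norm_num) h2; omega
      interval_cases r <;> first | omega | exact absurd h1 (by norm_num)
    · exact .inr (.inr (.inl ⟨K, h3, h4, h5, h⟩))
  | uni K h1 => exact (heven h1).elim
  | ten a b e P f₁ f₂ h1 => exact (heven h1).elim
  | sub F₀ r P ζ h1 h2 h3 h4 => exact .inr (.inr (.inr (.inl ⟨F₀, r, P, ζ, h1, h2, h3, h4, h⟩)))
  | ext R k h1 h2 h3 h4 h5 => exact (heven h5).elim
  | wr k t e P f₁ h1 => exact (heven h1).elim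
  | quad Q h1 h2 h3 => exact .inr (.inr (.inr (.inr (.inl ⟨Q, h2, h3, h⟩))))

end Cfsg.Agent.S5790
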