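import Cfsg.Statements.S5796
import Cfsg.Agent.H23.Ex3
import Cfsg.Agent.H23.As19

set_option autoImplicit false
open Cfsg

namespace Cfsg.Agent.S5796


/-- Every maximal subgroup of SU_5(q) is of one of the listed geometric types or lies in the residual class. Let F be the field with q² elements (characteristic p), f the standard unitary form Σ u_i v_i^q on F^5, and H a maximal subgroup of SU_5(q) (inside GL_5(F)). Then H is the intersection with SU_5(q) of one of: the stabiliser of a non-zero totally isotropic subspace; the stabiliser of a non-degenerate 1-space or 2-space; the stabiliser of a decomposition into five mutually orthogonal non-degenerate 1-spaces; for q ≥ 3, the normaliser of an adjoint-closed degree-5 subfield of the matrix algebra; a subfield group of odd prime index whose F₀-structure carries f; for q odd, a subfield group of index 2 whose F₀-structure carries f; for q = p ≡ 4 mod 5 or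 q = p² with p ≡ 2, 3 mod 5, the normaliser of an absolutely irreducible 5-group of exponent 5, order 125 and centre of order 5 with all characteristic abelian subgroups cyclic inside the similarity group of f — or else H lies in the residual class of the unitary case. -/
theorem result {F : Type*} [Field F] [Fintype F] (q : ℕ) (hF : Fintype.card F = q ^ 2) (H : Subgroup (Matrix.GeneralLinearGroup (Fin 5) F)) (hH : Cfsg.Geo.IsMaximalIn (Cfsg.GU 5 F q ⊓ Cfsg.Geo.specialLinear (Fin 5) F) H) :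
    (∃ W : Submodule F (Fin 5 → F), W ≠ ⊥ ∧ Cfsg.Geo.IsTotallySingularFor (Cfsg.hermForm 5 F q) W ∧ H = Cfsg.Geo.subspaceStabilizer W ⊓ (Cfsg.GU 5 F q ⊓ Cfsg.Geo.specialLinear (Fin 5) F)) ∨
    (∃ W : Submodule F (Fin 5 → F), W ≠ ⊥ ∧ Cfsg.Geo.IsNondegenerateOn (Cfsg.hermForm 5 F q) W ∧ 2 * Module.finrank F W < 5 ∧ H = Cfsg.Geo.subspaceStabilizer W ⊓ (Cfsg.GU 5 F q ⊓ Cfsg.Geo.specialLinear (Fin 5) F)) ∨
    (∃ D : Fin 5 → Submodule F (Fin 5 → F), Cfsg.Geo.IsNondegenerateMDecomposition (Cfsg.hermForm 5 F q) 1 D ∧ H = Cfsg.Geo.decompositionStabilizer D ⊓ (Cfsg.GU 5 F q ⊓ Cfsg.Geo.specialLinear (Fin 5) F)) ∨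
    (3 ≤ q ∧ ∃ K : Subalgebra F (Matrix (Fin 5) (Fin 5) F), Cfsg.Geo.IsFieldSubalgebra 5 K ∧ Cfsg.Geo.IsAdjointClosedFor (Cfsg.hermForm 5 F q) K ∧ H = Cfsg.Geo.subalgebraNormalizer K ⊓ (Cfsg.GU 5 F q ⊓ Cfsg.Geo.specialLinear (Fin 5) F)) ∨
    (∃ (F₀ : Subfield F) (r : ℕ) (P : Matrix.GeneralLinearGroup (Fin 5) F), r.Prime ∧ Odd r ∧ Fintype.card F = Nat.card F₀ ^ r ∧ Cfsg.Geo.IsFormRationalStructure (Cfsg.hermForm 5 F q) F₀ 1 P ∧ H = Cfsg.Geo.subfieldSubgroup F₀ P ⊓ (Cfsg.GU 5 F q ⊓ Cfsg.Geo.specialLinear (Fin 5) F)) ∨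
    (Odd q ∧ ∃ (F₀ : Subfield F) (P : Matrix.GeneralLinearGroup (Fin 5) F), Fintype.card F = Nat.card F₀ ^ 2 ∧ Cfsg.Geo.IsFormRationalStructure (Cfsg.hermForm 5 F q) F₀ 1 P ∧ H = Cfsg.Geo.subfieldSubgroup F₀ P ⊓ (Cfsg.GU 5 F q ⊓ Cfsg.Geo.specialLinear (Fin 5) F)) ∨
    (∃ (p : ℕ) (R : Subgroup (Matrix.GeneralLinearGroup (Fin 5) F)), p.Prime ∧ CharP F p ∧ ((q = p ∧ p % 5 = 4) ∨ (q = p ^ 2 ∧ (p % 5 = 2 ∨ p % 5 = 3))) ∧ Cfsg.Geo.IsSymplecticTypeGroup 5 R ∧ Cfsg.Geo.ActsAbsolutelyIrreducibly (Cfsg.Geo.matrixSet R) ∧ R ≤ Cfsg.Geo.similarityGroup (Cfsg.hermForm 5 F q) ∧ Nat.card R = 125 ∧ Nat.card (Subgroup.center R) = 5 ∧ H = Cfsg.Geo.subgroupNormalizer R ⊓ (Cfsg.GU 5 F q ⊓ Cfsg.Geo.specialLinear (Fin 5) F)) ∨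
    Cfsg.Geo.InUnitaryResidualClass H := by
  have hq := H23.two_le_of_card_eq_sq hF
  rcases H23.As.uniS_max hF (by norm_num) (by norm_num) (by omega) hH with (h | h |
    ⟨t, m, D, h1, h2, h3, h4, h⟩ | ⟨k, D, h1, h⟩ | h | h | ⟨h1, h⟩ |
    ⟨r, R, p, e, k, h1, h2, h3, h4, h5, h6, h7, h8, h9, h⟩ | ⟨r, K, h1, h2, h3, h4, h5, h⟩ |
    ⟨a, b, e, P, f₁, f₂, h1, h2, h3, h4, h⟩ | ⟨k, t, e, P, f₁, h1, h2, h3, h4, h⟩) | h
  · exact .inl (h)
  · exact .inr (.inl (h))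
  · obtain ⟨rfl, rfl⟩ : (t = 5 ∧ m = 1) := by
      have : t ≤ 5 := Nat.le_of_dvd (by norm_num) ⟨m, h3⟩
      interval_cases t <;> omega
    · exact .inr (.inr (.inl ⟨D, h1, h⟩))
  · omega
  · exact .inr (.inr (.inr (.inr (.inl (h)))))
  · exact .inr (.inr (.inr (.inr (.inr (.inl (h))))))
  · exact absurd h1 (by decide)
  · obtain rfl : r = 5 := H23.As.prime_eq_of_pow h1.prime (by norm_num) h8 (by norm_num)
    obtain rfl : k = 1 := Nat.pow_right_injective (a := 5) (by norm_num) (show 5 ^ k = 5 ^ 1 from h8.symm)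
    obtain ⟨h9, h10, -, h11⟩ | ⟨h9, -⟩ := h9
    swap
    · omega
    rw [h10] at h6
    refine .inr (.inr (.inr (.inr (.inr (.inr (.inl ⟨p, R, h6.1, h6.2.1, ?_, h1, h2, h3, h11, h10, h⟩))))))
    rcases H23.As.minimal_five h6 with ⟨rfl, h12⟩ | ⟨rfl, h12⟩ | ⟨rfl, h12⟩
    · exact absurd h7 (by decide)
    · exact .inl ⟨by simpa using H23.As.eq_pow_of_minimal hF h6 (a := 1) rfl, h12⟩
    · exact .inr ⟨H23.As.eq_pow_of_minimal hF h6 (a := 2) rfl, h12⟩
  · obtain rfl : r = 5 := by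
      have : r ≤ 5 := Nat.le_of_dvd (by norm_num) h3
      interval_cases r <;> first | omega | exact absurd h2 (by decide) | exact absurd h1 (by norm_num)
    refine .inr (.inr (.inr (.inl ⟨by_contra fun h6 => ?_, K, h4, h5, h⟩)))
    obtain rfl : q = 2 := by omega
    exact H23.Ex.singer_SU5 hF h4 h5 (h ▸ hH)
  · have : a ≤ 5 := Nat.le_of_dvd (by norm_num) ⟨b, h3⟩
    interval_cases a <;> omega
  · obtain ⟨rfl, rfl⟩ := H23.As.wreath_small h1 h2 h3 (by norm_num)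
    omega
  · exact .inr (.inr (.inr (.inr (.inr (.inr (.inr (h)))))))

end Cfsg.Agent.S5796
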