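import Cfsg.Statements.S5799
import Cfsg.Agent.H23.As13

set_option autoImplicit false
open Cfsg

namespace Cfsg.Agent.S5799


/-- Every maximal subgroup of SL_6(q) is of one of the listed geometric types or lies in the residual class. Let F be a finite field with q elements (p its characteristic) and H a maximal subgroup of SL_6(F) (inside GL_6(F)). Then H is the intersection with SL_6(F) of one of: the stabiliser of a proper non-zero subspace; for q ≥ 5, the stabiliser of a decomposition into 6 independent 1-spaces; for q ≥ 3, the stabiliser of a decomposition into 3 independent 2-spaces; the stabiliser of a decomposition into 2 independent 3-spaces; the normaliser of a degree-2 subfield of the matrix algebra; the normaliser of a degree-3 subfield of the matrix algebra; for q ≥ 3, the stabiliser of a tensor decomposition F^2 ⊗ F^3; a subfield group for a subfield F₀ with |F| = |F₀|^r, r prime; for q odd, the similarity group of a non-degenerate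 quadratic form; the similarity group of a non-degenerate symplectic form; the similarity group of a non-degenerate unitary form — or else H lies in the residual class of the linear case (modulo scalars H is almost simple, with absolutely irreducible perfect socle preimage realisable over no proper subfield and fixing no non-degenerate quadratic, symplectic or unitary form). -/
theorem result {F : Type*} [Field F] [Fintype F] (H : Subgroup (Matrix.GeneralLinearGroup (Fin 6) F)) (hH : Cfsg.Geo.IsMaximalIn (Cfsg.Geo.specialLinear (Fin 6) F) H) :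
    (∃ W : Submodule F (Fin 6 → F), W ≠ ⊥ ∧ W ≠ ⊤ ∧ H = Cfsg.Geo.subspaceStabilizer W ⊓ Cfsg.Geo.specialLinear (Fin 6) F) ∨
    (5 ≤ Fintype.card F ∧ ∃ D : Fin 6 → Submodule F (Fin 6 → F), Cfsg.Geo.IsMDecomposition 1 D ∧ H = Cfsg.Geo.decompositionStabilizer D ⊓ Cfsg.Geo.specialLinear (Fin 6) F) ∨
    (3 ≤ Fintype.card F ∧ ∃ D : Fin 3 → Submodule F (Fin 6 → F), Cfsg.Geo.IsMDecomposition 2 D ∧ H = Cfsg.Geo.decompositionStabilizer D ⊓ Cfsg.Geo.specialLinear (Fin 6) F) ∨
    (∃ D : Fin 2 → Submodule F (Fin 6 → F), Cfsg.Geo.IsMDecomposition 3 D ∧ H = Cfsg.Geo.decompositionStabilizer D ⊓ Cfsg.Geo.specialLinear (Fin 6) F) ∨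
    (∃ K : Subalgebra F (Matrix (Fin 6) (Fin 6) F), Cfsg.Geo.IsFieldSubalgebra 2 K ∧ H = Cfsg.Geo.subalgebraNormalizer K ⊓ Cfsg.Geo.specialLinear (Fin 6) F) ∨
    (∃ K : Subalgebra F (Matrix (Fin 6) (Fin 6) F), Cfsg.Geo.IsFieldSubalgebra 3 K ∧ H = Cfsg.Geo.subalgebraNormalizer K ⊓ Cfsg.Geo.specialLinear (Fin 6) F) ∨
    (3 ≤ Fintype.card F ∧ ∃ (e : Fin 6 ≃ Fin 2 × Fin 3) (P : Matrix.GeneralLinearGroup (Fin 6) F), H = Cfsg.Geo.tensorProductSubgroup 2 3 e P ⊓ Cfsg.Geo.specialLinear (Fin 6) F) ∨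
    (∃ (F₀ : Subfield F) (r : ℕ) (P : Matrix.GeneralLinearGroup (Fin 6) F), r.Prime ∧ Fintype.card F = Nat.card F₀ ^ r ∧ H = Cfsg.Geo.subfieldSubgroup F₀ P ⊓ Cfsg.Geo.specialLinear (Fin 6) F) ∨
    (Odd (Fintype.card F) ∧ ∃ Q : (Fin 6 → F) → F, Cfsg.Geo.IsNondegenerateQuadraticForm Q ∧ H = Cfsg.Geo.quadSimilarityGroup Q ⊓ Cfsg.Geo.specialLinear (Fin 6) F) ∨
    (∃ f : (Fin 6 → F) → (Fin 6 → F) → F, Cfsg.Geo.IsSymplecticForm f ∧ H = Cfsg.Geo.similarityGroup f ⊓ Cfsg.Geo.specialLinear (Fin 6) F) ∨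
    (∃ (σ : F ≃+* F) (f : (Fin 6 → F) → (Fin 6 → F) → F), Cfsg.Geo.IsUnitaryForm σ f ∧ H = Cfsg.Geo.similarityGroup f ⊓ Cfsg.Geo.specialLinear (Fin 6) F) ∨
    Cfsg.Geo.InLinearResidualClass H := by
  rcases H23.As.linE_or_residual (by simp) (by simp) hH with (h | ⟨t, m, D, h1, h2, h3, h4, h5, h⟩ |
    ⟨r, K, h1, h2, h3, h⟩ | ⟨a, b, e, P, h1, h2, h3, h4, h⟩ | h | ⟨r, R, k, h1, h2, h3, h⟩ |
    ⟨e, P, h1, h⟩ | ⟨h1, h⟩ | h | h) | h
  · exact .inl (h)
  · rw [Fintype.card_fin] at h3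
    obtain ⟨rfl, rfl⟩ | ⟨rfl, rfl⟩ | ⟨rfl, rfl⟩ : (t = 6 ∧ m = 1) ∨ (t = 3 ∧ m = 2) ∨ (t = 2 ∧ m = 3) := by
      have : t ≤ 6 := Nat.le_of_dvd (by norm_num) ⟨m, h3⟩
      interval_cases t <;> omega
    · exact .inr (.inl ⟨h4 rfl, D, h1, h⟩)
    · exact .inr (.inr (.inl ⟨h5 rfl, D, h1, h⟩))
    · exact .inr (.inr (.inr (.inl ⟨D, h1, h⟩)))
  · rw [Fintype.card_fin] at h2
    obtain rfl | rfl : r = 2 ∨ r = 3 := by
      have : r ≤ 6 := Nat.le_of_dvd (by norm_num) h2
      interval_cases r <;> first | omega | exact absurd h1 (by norm_num)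
    · exact .inr (.inr (.inr (.inr (.inl ⟨K, h3, h⟩))))
    · exact .inr (.inr (.inr (.inr (.inr (.inl ⟨K, h3, h⟩)))))
  · rw [Fintype.card_fin] at h3
    obtain ⟨rfl, rfl⟩ : (a = 2 ∧ b = 3) := by
      have : a ≤ 6 := Nat.le_of_dvd (by norm_num) ⟨b, h3⟩
      interval_cases a <;> omega
    · exact .inr (.inr (.inr (.inr (.inr (.inr (.inl ⟨h4 rfl, e, P, h⟩))))))
  · exact .inr (.inr (.inr (.inr (.inr (.inr (.inr (.inl (h))))))))
  · rw [Fintype.card_fin] at h3
    have := H23.As.prime_eq_of_pow h2 (s := 2) (by norm_num) h3 (by norm_num)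
    have := H23.As.prime_eq_of_pow h2 (s := 3) (by norm_num) h3 (by norm_num)
    omega
  · simp at h1
  · exact .inr (.inr (.inr (.inr (.inr (.inr (.inr (.inr (.inr (.inl (h))))))))))
  · exact .inr (.inr (.inr (.inr (.inr (.inr (.inr (.inr (.inr (.inr (.inl (h)))))))))))
  · exact .inr (.inr (.inr (.inr (.inr (.inr (.inr (.inr (.inl (h)))))))))
  · exact .inr (.inr (.inr (.inr (.inr (.inr (.inr (.inr (.inr (.inr (.inr (h)))))))))))

end Cfsg.Agent.S5799
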