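import Cfsg.Statements.S5814
import Cfsg.Agent.H23.As30

set_option autoImplicit false
open Cfsg

namespace Cfsg.Agent.S5814


/-- Every maximal subgroup of Ω_7(q), q odd, is of one of the listed geometric types or lies in the residual class. Let F be a finite field of odd order q, Q the standard quadratic form x₀² + Σ x_i y_i on F^7 (coordinates Unit ⊕ (Fin 3 ⊕ Fin 3)), Ω the commutator subgroup of its isometry group, and H a maximal subgroup of Ω (inside GL_7(F)). Then H is the intersection with Ω of one of: the stabiliser of a non-zero totally singular subspace; the stabiliser of a non-zero non-degenerate subspace of even dimension (not a plus-type plane when q = 3); for q prime, the stabiliser of a decomposition into seven pairwise orthogonal, pairwise isometric non-degenerate 1-spaces; a subfield group (|F| = |F₀|^r, r prime) whose F₀-structure carries Q — or else H lies in the residual class of the orthogonal case (modulo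 scalars H is almost simple, with absolutely irreducible perfect socle preimage realisable over no proper subfield and fixing no non-degenerate unitary form). -/
theorem result {F : Type*} [Field F] [Fintype F] (hodd : Odd (Fintype.card F)) (H : Subgroup (Matrix.GeneralLinearGroup (Unit ⊕ (Fin 3 ⊕ Fin 3)) F)) (hH : Cfsg.Geo.IsMaximalIn (Cfsg.Geo.omegaGL (Cfsg.quadFormOdd 3 F)) H) :
    (∃ W : Submodule F (Unit ⊕ (Fin 3 ⊕ Fin 3) → F), W ≠ ⊥ ∧ Cfsg.Geo.IsTotallySingularQuad (Cfsg.quadFormOdd 3 F) W ∧ H = Cfsg.Geo.subspaceStabilizer W ⊓ Cfsg.Geo.omegaGL (Cfsg.quadFormOdd 3 F)) ∨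
    (∃ W : Submodule F (Unit ⊕ (Fin 3 ⊕ Fin 3) → F), W ≠ ⊥ ∧ Even (Module.finrank F W) ∧ Cfsg.Geo.IsNondegenerateOn (QuadraticMap.polar (Cfsg.quadFormOdd 3 F)) W ∧ ¬ (Fintype.card F = 3 ∧ Module.finrank F W = 2 ∧ Cfsg.Geo.IsPlusTypeOn (Cfsg.quadFormOdd 3 F) W) ∧ H = Cfsg.Geo.subspaceStabilizer W ⊓ Cfsg.Geo.omegaGL (Cfsg.quadFormOdd 3 F)) ∨
    ((Fintype.card F).Prime ∧ ∃ D : Fin 7 → Submodule F (Unit ⊕ (Fin 3 ⊕ Fin 3) → F), Cfsg.Geo.IsOrthogonalMDecomposition (Cfsg.quadFormOdd 3 F) 1 D ∧ H = Cfsg.Geo.decompositionStabilizer D ⊓ Cfsg.Geo.omegaGL (Cfsg.quadFormOdd 3 F)) ∨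
    (∃ (F₀ : Subfield F) (r : ℕ) (P : Matrix.GeneralLinearGroup (Unit ⊕ (Fin 3 ⊕ Fin 3)) F), r.Prime ∧ Fintype.card F = Nat.card F₀ ^ r ∧ Cfsg.Geo.IsQuadFormRationalStructure (Cfsg.quadFormOdd 3 F) F₀ P ∧ H = Cfsg.Geo.subfieldSubgroup F₀ P ⊓ Cfsg.Geo.omegaGL (Cfsg.quadFormOdd 3 F)) ∨
    Cfsg.Geo.InOrthogonalResidualClass H := by
  rcases H23.As.orC_odd_max hodd (by norm_num) (by norm_num) hH with ⟨M, hM, h⟩ | h
  swap
  · exact .inr (.inr (.inr (.inr (h))))
  have hc : Fintype.card (Unit ⊕ (Fin 3 ⊕ Fin 3)) = 7 := by simp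
  cases hM with
  | ts W h0 h1 => exact .inl ⟨W, h0, h1, h⟩
  | pt v h1 => exact (h1 hodd).elim
  | nd W h0 h1 h2 h3 h4 h5 =>
    exact .inr (.inl ⟨W, h0, (h3.resolve_right fun e => absurd (hc ▸ e.1) (by decide)).2, h2,
      fun e => by have := h5 e.2.1 e.2.2; omega, h⟩)
  | half k D _ h1 => omega
  | dec t k D h1 h2 h3 h4 h5 h6 h7 =>
    obtain ⟨rfl, rfl⟩ : (t = 7 ∧ k = 1) := by
      have : t ≤ 7 := Nat.le_of_dvd (by norm_num) ⟨k, hc ▸ h4⟩
      interval_cases t <;> omega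
    · exact .inr (.inr (.inl ⟨h5 rfl, D, h1, h⟩))
  | pair k D h1 => omega
  | fld r K h1 h2 h3 h4 h5 h6 h7 =>
    rw [hc] at h2 h3
    have : r ≤ 7 := Nat.le_of_dvd (by norm_num) h2
    interval_cases r <;> first | omega | exact absurd h1 (by norm_num)
  | uni K h1 => exact absurd (hc ▸ h1) (by decide)
  | tenS a b e P f₁ f₂ h1 h2 h3 h4 => nlinarith
  | tenA b e P f₁ f₂ _ h1 => omega
  | sub F₀ r P ζ h1 h2 h3 h4 h5 =>
    obtain rfl := h5 ⟨3, hc⟩
    exact .inr (.inr (.inr (.inl ⟨F₀, r, P, h1, h2, by simpa using h4, h⟩)))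
  | wr k t e P f₁ h1 h2 h3 h4 h5 h6 h7 =>
    obtain ⟨rfl, rfl⟩ := H23.As.wreath_small h3 h4 h2 (by omega)
    omega

end Cfsg.Agent.S5814
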