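import Cfsg.Statements.S5826
import Cfsg.Agent.H23.As30

set_option autoImplicit false
open Cfsg

namespace Cfsg.Agent.S5826


/-- Every maximal subgroup of Ω_8^-(q) is of one of the listed geometric types or lies in the residual class. Let F be a finite field with q elements, Q a non-degenerate quadratic form on F^8 of minus type (no totally singular 4-space), Ω the commutator subgroup of its isometry group, and H a maximal subgroup of Ω (inside GL_8(F)). Then H is the intersection with Ω of one of: the stabiliser of a non-zero totally singular subspace; for q odd, the stabiliser of a non-degenerate subspace of odd dimension; the stabiliser of a non-degenerate 2-space of minus type; for q ≥ 4, the stabiliser of a non-degenerate 2-space of plus type; the stabiliser of a non-degenerate 4-space; for q even, the stabiliser of the span of a non-singular vector; the normaliser of a degree-2 subfield of the matrix algebra; a subfield group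 of odd prime index whose F₀-structure carries a non-zero multiple of Q — or else H lies in the residual class of the orthogonal case (modulo scalars H is almost simple, with absolutely irreducible perfect socle preimage realisable over no proper subfield and fixing no non-degenerate unitary form). -/
theorem result {F : Type*} [Field F] [Fintype F] (Q : (Fin 8 → F) → F) (hQ : Cfsg.Geo.IsNondegenerateQuadraticForm Q) (hminus : ¬ Cfsg.Geo.IsPlusTypeOn Q ⊤) (H : Subgroup (Matrix.GeneralLinearGroup (Fin 8) F)) (hH : Cfsg.Geo.IsMaximalIn (Cfsg.Geo.omegaGL Q) H) :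
    (∃ W : Submodule F (Fin 8 → F), W ≠ ⊥ ∧ Cfsg.Geo.IsTotallySingularQuad Q W ∧ H = Cfsg.Geo.subspaceStabilizer W ⊓ Cfsg.Geo.omegaGL Q) ∨
    (Odd (Fintype.card F) ∧ ∃ W : Submodule F (Fin 8 → F), W ≠ ⊥ ∧ W ≠ ⊤ ∧ Odd (Module.finrank F W) ∧ Cfsg.Geo.IsNondegenerateOn (QuadraticMap.polar Q) W ∧ H = Cfsg.Geo.subspaceStabilizer W ⊓ Cfsg.Geo.omegaGL Q) ∨
    (∃ W : Submodule F (Fin 8 → F), Module.finrank F W = 2 ∧ Cfsg.Geo.IsNondegenerateOn (QuadraticMap.polar Q) W ∧ ¬ Cfsg.Geo.IsPlusTypeOn Q W ∧ H = Cfsg.Geo.subspaceStabilizer W ⊓ Cfsg.Geo.omegaGL Q) ∨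
    (4 ≤ Fintype.card F ∧ ∃ W : Submodule F (Fin 8 → F), Module.finrank F W = 2 ∧ Cfsg.Geo.IsNondegenerateOn (QuadraticMap.polar Q) W ∧ Cfsg.Geo.IsPlusTypeOn Q W ∧ H = Cfsg.Geo.subspaceStabilizer W ⊓ Cfsg.Geo.omegaGL Q) ∨
    (∃ W : Submodule F (Fin 8 → F), Module.finrank F W = 4 ∧ Cfsg.Geo.IsNondegenerateOn (QuadraticMap.polar Q) W ∧ H = Cfsg.Geo.subspaceStabilizer W ⊓ Cfsg.Geo.omegaGL Q) ∨
    (¬ Odd (Fintype.card F) ∧ ∃ v : (Fin 8 → F), Q v ≠ 0 ∧ H = Cfsg.Geo.subspaceStabilizer (Submodule.span F {v}) ⊓ Cfsg.Geo.omegaGL Q) ∨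
    (∃ K : Subalgebra F (Matrix (Fin 8) (Fin 8) F), Cfsg.Geo.IsFieldSubalgebra 2 K ∧ H = Cfsg.Geo.subalgebraNormalizer K ⊓ Cfsg.Geo.omegaGL Q) ∨
    (∃ (F₀ : Subfield F) (r : ℕ) (P : Matrix.GeneralLinearGroup (Fin 8) F) (ζ : F), r.Prime ∧ Odd r ∧ Fintype.card F = Nat.card F₀ ^ r ∧ ζ ≠ 0 ∧ Cfsg.Geo.IsQuadFormRationalStructure (fun v : Fin 8 → F => ζ * Q v) F₀ P ∧ H = Cfsg.Geo.subfieldSubgroup F₀ P ⊓ Cfsg.Geo.omegaGL Q) ∨
    Cfsg.Geo.InOrthogonalResidualClass H := by
  rcases H23.As.orC_even_max hQ hH (by norm_num) (by norm_num) (by decide) (fun _ => hminus)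
    with ⟨M, hM, h⟩ | h
  swap
  · exact .inr (.inr (.inr (.inr (.inr (.inr (.inr (.inr (h))))))))
  have hc : Fintype.card (Fin 8) = 8 := by simp
  cases hM with
  | ts W h0 h1 => exact .inl ⟨W, h0, h1, h⟩
  | pt v h1 h2 => exact .inr (.inr (.inr (.inr (.inr (.inl ⟨h1, v, h2, h⟩)))))
  | nd W h0 h1 h2 h3 h4 h5 =>
    have h6 := (h3.resolve_left fun e => absurd (hc ▸ e.1) (by decide)).2
    have h7 : Module.finrank F W ≠ 0 := by simpa
    rcases Nat.even_or_odd (Module.finrank F W) with ⟨a, h8⟩ | h8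
    swap
    · exact .inr (.inl ⟨h4 h8, W, h0, h1, h8, h2, h⟩)
    by_cases h9 : Module.finrank F W = 2
    · by_cases h10 : Cfsg.Geo.IsPlusTypeOn Q W
      · exact .inr (.inr (.inr (.inl ⟨h5 h9 h10, W, h9, h2, h10, h⟩)))
      · exact .inr (.inr (.inl ⟨W, h9, h2, h10, h⟩))
    exact .inr (.inr (.inr (.inr (.inl ⟨W, by grind, h2, h⟩))))
  | half k D h1 h2 => grind
  | dec t k D h1 h2 h3 h4 h5 h6 h7 h8 h9 h10 h11 =>
    obtain ⟨rfl, rfl⟩ | ⟨rfl, rfl⟩ | ⟨rfl, rfl⟩ : (t = 8 ∧ k = 1) ∨ (t = 4 ∧ k = 2) ∨ (t = 2 ∧ k = 4) := by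
      have : t ≤ 8 := Nat.le_of_dvd (by norm_num) ⟨k, hc ▸ h4⟩
      interval_cases t <;> omega
    · exact (hminus (((h11 (by decide)).2 (by decide)).2 (.inl (by simp)))).elim
    · exact (hminus ((h9 (by decide)).2 (.inl (by decide)))).elim
    · exact (hminus ((h9 (by decide)).2 (.inl (by decide)))).elim
  | pair k D h1 h2 h3 h4 => exact (hminus h4).elim
  | fld r K h1 h2 h3 h4 h5 h6 h7 =>
    rw [hc] at h2 h4 h5
    have : r ≤ 8 := Nat.le_of_dvd (by norm_num) h2
    obtain rfl : r = 2 := by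
      interval_cases r <;> first | omega | exact absurd h1 (by norm_num) | exact absurd rfl (h4 (by decide))
    · exact .inr (.inr (.inr (.inr (.inr (.inr (.inl ⟨K, h6, h⟩))))))
  | uni K h1 h2 => exact .inr (.inr (.inr (.inr (.inr (.inr (.inl ⟨K, h2, h⟩))))))
  | tenS a b e P f₁ f₂ h1 h2 h3 h4 => nlinarith
  | tenA b e P f₁ f₂ h1 h2 h3 h4 => exact (hminus h4).elim
  | sub F₀ r P ζ h1 h2 h3 h4 h5 h6 =>
    exact .inr (.inr (.inr (.inr (.inr (.inr (.inr (.inl ⟨F₀, r, P, ζ, h1, h1.odd_of_ne_two fun e => hminus (h6 e (by simp; decide)),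
      h2, h3, h4, h⟩)))))))
  | wr k t e P f₁ h1 h2 h3 h4 =>
    obtain ⟨rfl, rfl⟩ := H23.As.wreath_small h3 h4 h2 (by omega)
    omega

end Cfsg.Agent.S5826
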