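import Cfsg.Statements.S5835
import Cfsg.Agent.H23.As30

set_option autoImplicit false
open Cfsg

namespace Cfsg.Agent.S5835


/-- Every maximal subgroup of Ω_9(q), q odd, is of one of the listed geometric types or lies in the residual class. Let F be a finite field of odd order q, Q the standard quadratic form x₀² + Σ x_i y_i on F^9 (coordinates Unit ⊕ (Fin 4 ⊕ Fin 4)), Ω the commutator subgroup of its isometry group, and H a maximal subgroup of Ω (inside GL_9(F)). Then H is the intersection with Ω of one of: the stabiliser of a non-zero totally singular subspace; the stabiliser of a non-zero non-degenerate subspace of even dimension (not a plus-type plane when q = 3); for q prime, the stabiliser of a decomposition into nine pairwise orthogonal, pairwise isometric non-degenerate 1-spaces; for q ≥ 5, the stabiliser of a decomposition into three pairwise orthogonal, pairwise isometric non-degenerate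 3-spaces; the normaliser of a degree-3 subfield of the matrix algebra, self-adjoint for the polar form; a subfield group (|F| = |F₀|^r, r prime) whose F₀-structure carries Q; for q ≥ 5, the stabiliser of a tensor decomposition of the polar form as a tensor square of a symmetric form on F^3 — or else H lies in the residual class of the orthogonal case (modulo scalars H is almost simple, with absolutely irreducible perfect socle preimage realisable over no proper subfield and fixing no non-degenerate unitary form). -/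
theorem result {F : Type*} [Field F] [Fintype F] (hodd : Odd (Fintype.card F)) (H : Subgroup (Matrix.GeneralLinearGroup (Unit ⊕ (Fin 4 ⊕ Fin 4)) F)) (hH : Cfsg.Geo.IsMaximalIn (Cfsg.Geo.omegaGL (Cfsg.quadFormOdd 4 F)) H) :
    (∃ W : Submodule F (Unit ⊕ (Fin 4 ⊕ Fin 4) → F), W ≠ ⊥ ∧ Cfsg.Geo.IsTotallySingularQuad (Cfsg.quadFormOdd 4 F) W ∧ H = Cfsg.Geo.subspaceStabilizer W ⊓ Cfsg.Geo.omegaGL (Cfsg.quadFormOdd 4 F)) ∨
    (∃ W : Submodule F (Unit ⊕ (Fin 4 ⊕ Fin 4) → F), W ≠ ⊥ ∧ Even (Module.finrank F W) ∧ Cfsg.Geo.IsNondegenerateOn (QuadraticMap.polar (Cfsg.quadFormOdd 4 F)) W ∧ ¬ (Fintype.card F = 3 ∧ Module.finrank F W = 2 ∧ Cfsg.Geo.IsPlusTypeOn (Cfsg.quadFormOdd 4 F) W) ∧ H = Cfsg.Geo.subspaceStabilizer W ⊓ Cfsg.Geo.omegaGL (Cfsg.quadFormOdd 4 F)) ∨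
    ((Fintype.card F).Prime ∧ ∃ D : Fin 9 → Submodule F (Unit ⊕ (Fin 4 ⊕ Fin 4) → F), Cfsg.Geo.IsOrthogonalMDecomposition (Cfsg.quadFormOdd 4 F) 1 D ∧ H = Cfsg.Geo.decompositionStabilizer D ⊓ Cfsg.Geo.omegaGL (Cfsg.quadFormOdd 4 F)) ∨
    (5 ≤ Fintype.card F ∧ ∃ D : Fin 3 → Submodule F (Unit ⊕ (Fin 4 ⊕ Fin 4) → F), Cfsg.Geo.IsOrthogonalMDecomposition (Cfsg.quadFormOdd 4 F) 3 D ∧ H = Cfsg.Geo.decompositionStabilizer D ⊓ Cfsg.Geo.omegaGL (Cfsg.quadFormOdd 4 F)) ∨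
    (∃ K : Subalgebra F (Matrix (Unit ⊕ (Fin 4 ⊕ Fin 4)) (Unit ⊕ (Fin 4 ⊕ Fin 4)) F), Cfsg.Geo.IsFieldSubalgebra 3 K ∧ Cfsg.Geo.IsSelfAdjointFor (QuadraticMap.polar (Cfsg.quadFormOdd 4 F)) K ∧ H = Cfsg.Geo.subalgebraNormalizer K ⊓ Cfsg.Geo.omegaGL (Cfsg.quadFormOdd 4 F)) ∨
    (∃ (F₀ : Subfield F) (r : ℕ) (P : Matrix.GeneralLinearGroup (Unit ⊕ (Fin 4 ⊕ Fin 4)) F), r.Prime ∧ Fintype.card F = Nat.card F₀ ^ r ∧ Cfsg.Geo.IsQuadFormRationalStructure (Cfsg.quadFormOdd 4 F) F₀ P ∧ H = Cfsg.Geo.subfieldSubgroup F₀ P ⊓ Cfsg.Geo.omegaGL (Cfsg.quadFormOdd 4 F)) ∨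
    (5 ≤ Fintype.card F ∧ ∃ (e : (Unit ⊕ (Fin 4 ⊕ Fin 4)) ≃ (Fin 2 → Fin 3)) (P : Matrix.GeneralLinearGroup (Unit ⊕ (Fin 4 ⊕ Fin 4)) F) (f₁ : (Fin 3 → F) → (Fin 3 → F) → F), Cfsg.Geo.IsSymmetricForm f₁ ∧ Cfsg.Geo.IsTensorPowerFormStructure id (QuadraticMap.polar (Cfsg.quadFormOdd 4 F)) f₁ e P ∧ H = Cfsg.Geo.tensorWreathSubgroup 3 2 e P ⊓ Cfsg.Geo.omegaGL (Cfsg.quadFormOdd 4 F)) ∨
    Cfsg.Geo.InOrthogonalResidualClass H := by
  rcases H23.As.orC_odd_max hodd (by norm_num) (by norm_num) hH with ⟨M, hM, h⟩ | h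
  swap
  · exact .inr (.inr (.inr (.inr (.inr (.inr (.inr (h)))))))
  have hc : Fintype.card (Unit ⊕ (Fin 4 ⊕ Fin 4)) = 9 := by simp
  cases hM with
  | ts W h0 h1 => exact .inl ⟨W, h0, h1, h⟩
  | pt v h1 => exact (h1 hodd).elim
  | nd W h0 h1 h2 h3 h4 h5 =>
    exact .inr (.inl ⟨W, h0, (h3.resolve_right fun e => absurd (hc ▸ e.1) (by decide)).2, h2,
      fun e => by have := h5 e.2.1 e.2.2; omega, h⟩)
  | half k D _ h1 => omega
  | dec t k D h1 h2 h3 h4 h5 h6 h7 =>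
    obtain ⟨rfl, rfl⟩ | ⟨rfl, rfl⟩ : (t = 9 ∧ k = 1) ∨ (t = 3 ∧ k = 3) := by
      have : t ≤ 9 := Nat.le_of_dvd (by norm_num) ⟨k, hc ▸ h4⟩
      interval_cases t <;> omega
    · exact .inr (.inr (.inl ⟨h5 rfl, D, h1, h⟩))
    · exact .inr (.inr (.inr (.inl ⟨h7 rfl, D, h1, h⟩)))
  | pair k D h1 => omega
  | fld r K h1 h2 h3 h4 h5 h6 h7 =>
    rw [hc] at h2 h3
    have : r ≤ 9 := Nat.le_of_dvd (by norm_num) h2
    obtain rfl : r = 3 := by interval_cases r <;> first | omega | exact absurd h1 (by norm_num)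
    exact .inr (.inr (.inr (.inr (.inl ⟨K, h6, h7, h⟩))))
  | uni K h1 => exact absurd (hc ▸ h1) (by decide)
  | tenS a b e P f₁ f₂ h1 h2 h3 h4 => nlinarith
  | tenA b e P f₁ f₂ _ h1 => omega
  | sub F₀ r P ζ h1 h2 h3 h4 h5 =>
    obtain rfl := h5 ⟨4, hc⟩
    exact .inr (.inr (.inr (.inr (.inr (.inl ⟨F₀, r, P, h1, h2, by simpa using h4, h⟩)))))
  | wr k t e P f₁ h1 h2 h3 h4 h5 h6 h7 =>
    obtain ⟨rfl, rfl⟩ := H23.As.wreath_small h3 h4 h2 (by omega)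
    exact .inr (.inr (.inr (.inr (.inr (.inr (.inl ⟨H23.As.five_le_of_ne_three (H23.two_ne_zero_of_odd_card hodd)
      fun e => h5 ⟨e, rfl⟩, e, P, f₁, h6, h7, h⟩))))))

end Cfsg.Agent.S5835
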