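import Cfsg.Statements.S5844
import Cfsg.Agent.H23.As23

set_option autoImplicit false
open Cfsg

namespace Cfsg.Agent.S5844


/-- Every maximal subgroup of Sp_10(q) is of one of the listed geometric types or lies in the residual class. Let F be a finite field with q elements (characteristic p), f the standard alternating form on F^10 (coordinates Fin 5 ⊕ Fin 5), and H a maximal subgroup of Sp_10(F) (inside GL_10(F)). Then H is the intersection with Sp_10(F) of one of: the stabiliser of a non-zero totally isotropic subspace; the stabiliser of a non-zero non-degenerate subspace of dimension less than 5; for q ≥ 3, the stabiliser of a decomposition into 5 mutually orthogonal non-degenerate 2-spaces; for q odd, of a decomposition into two totally isotropic 5-spaces; the normaliser of a degree-5 subfield K of the matrix algebra, self-adjoint with f(k v, v) = 0; for q odd, the normaliser of a degree-2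 subfield closed under adjoints but not self-adjoint; for q odd, the stabiliser of a tensor decomposition of f into an alternating form on F^2 and a symmetric form on F^5; a subfield group (|F| = |F₀|^r, r prime) whose F₀-structure carries a non-zero multiple of f; for q even, the similarity group of a non-degenerate quadratic form polarising to f — or else H lies in the residual class of the symplectic case (modulo scalars H is almost simple, with absolutely irreducible perfect socle preimage realisable over no proper subfield and fixing no non-degenerate quadratic or unitary form). -/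
theorem result {F : Type*} [Field F] [Fintype F] (H : Subgroup (Matrix.GeneralLinearGroup (Fin 5 ⊕ Fin 5) F)) (hH : Cfsg.Geo.IsMaximalIn (Cfsg.spGL 5 F) H) :
    (∃ W : Submodule F (Fin 5 ⊕ Fin 5 → F), W ≠ ⊥ ∧ Cfsg.Geo.IsTotallySingularFor (Cfsg.sympForm 5 F) W ∧ H = Cfsg.Geo.subspaceStabilizer W ⊓ Cfsg.spGL 5 F) ∨
    (∃ W : Submodule F (Fin 5 ⊕ Fin 5 → F), W ≠ ⊥ ∧ Cfsg.Geo.IsNondegenerateOn (Cfsg.sympForm 5 F) W ∧ Module.finrank F W < 5 ∧ H = Cfsg.Geo.subspaceStabilizer W ⊓ Cfsg.spGL 5 F) ∨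
    (3 ≤ Fintype.card F ∧ ∃ D : Fin 5 → Submodule F (Fin 5 ⊕ Fin 5 → F), Cfsg.Geo.IsNondegenerateMDecomposition (Cfsg.sympForm 5 F) 2 D ∧ H = Cfsg.Geo.decompositionStabilizer D ⊓ Cfsg.spGL 5 F) ∨
    (Odd (Fintype.card F) ∧ ∃ D : Fin 2 → Submodule F (Fin 5 ⊕ Fin 5 → F), Cfsg.Geo.IsMDecomposition 5 D ∧ (∀ i, Cfsg.Geo.IsTotallySingularFor (Cfsg.sympForm 5 F) (D i)) ∧ H = Cfsg.Geo.decompositionStabilizer D ⊓ Cfsg.spGL 5 F) ∨
    (∃ K : Subalgebra F (Matrix (Fin 5 ⊕ Fin 5) (Fin 5 ⊕ Fin 5) F), Cfsg.Geo.IsFieldSubalgebra 5 K ∧ Cfsg.Geo.IsSelfAdjointFor (Cfsg.sympForm 5 F) K ∧ (∀ k ∈ K, ∀ v : (Fin 5 ⊕ Fin 5 → F), (Cfsg.sympForm 5 F) (Matrix.mulVec k v) v = 0) ∧ H = Cfsg.Geo.subalgebraNormalizer K ⊓ Cfsg.spGL 5 F) ∨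
    (Odd (Fintype.card F) ∧ ∃ K : Subalgebra F (Matrix (Fin 5 ⊕ Fin 5) (Fin 5 ⊕ Fin 5) F), Cfsg.Geo.IsFieldSubalgebra 2 K ∧ Cfsg.Geo.IsAdjointClosedFor (Cfsg.sympForm 5 F) K ∧ ¬ Cfsg.Geo.IsSelfAdjointFor (Cfsg.sympForm 5 F) K ∧ H = Cfsg.Geo.subalgebraNormalizer K ⊓ Cfsg.spGL 5 F) ∨
    (Odd (Fintype.card F) ∧ ∃ (e : (Fin 5 ⊕ Fin 5) ≃ Fin 2 × Fin 5) (P : Matrix.GeneralLinearGroup (Fin 5 ⊕ Fin 5) F) (f₁ : (Fin 2 → F) → (Fin 2 → F) → F) (f₂ : (Fin 5 → F) → (Fin 5 → F) → F), Cfsg.Geo.IsSymplecticForm f₁ ∧ Cfsg.Geo.IsSymmetricForm f₂ ∧ Cfsg.Geo.IsTensorFormStructure id (Cfsg.sympForm 5 F) f₁ f₂ e P ∧ H = Cfsg.Geo.tensorProductSubgroup 2 5 e P ⊓ Cfsg.spGL 5 F) ∨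
    (∃ (F₀ : Subfield F) (r : ℕ) (P : Matrix.GeneralLinearGroup (Fin 5 ⊕ Fin 5) F) (ζ : F), r.Prime ∧ Fintype.card F = Nat.card F₀ ^ r ∧ ζ ≠ 0 ∧ Cfsg.Geo.IsFormRationalStructure (Cfsg.sympForm 5 F) F₀ ζ P ∧ H = Cfsg.Geo.subfieldSubgroup F₀ P ⊓ Cfsg.spGL 5 F) ∨
    (¬ Odd (Fintype.card F) ∧ ∃ Q : (Fin 5 ⊕ Fin 5 → F) → F, Cfsg.Geo.IsNondegenerateQuadraticForm Q ∧ (∀ u v : (Fin 5 ⊕ Fin 5 → F), QuadraticMap.polar Q u v = (Cfsg.sympForm 5 F) u v) ∧ H = Cfsg.Geo.quadSimilarityGroup Q ⊓ Cfsg.spGL 5 F) ∨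
    Cfsg.Geo.InSymplecticResidualClass H := by
  rcases H23.As.spC_max (by norm_num) (by norm_num) (by omega) hH with ⟨M, hM, h⟩ | h
  swap
  · exact .inr (.inr (.inr (.inr (.inr (.inr (.inr (.inr (.inr (h)))))))))
  have hc : Fintype.card (Fin 5 ⊕ Fin 5) = 10 := by simp
  cases hM with
  | ts W h0 h1 => exact .inl ⟨W, h0, h1, h⟩
  | nd W h0 h1 h2 => exact .inr (.inl ⟨W, h0, h1, by omega, h⟩)
  | dec t k D h1 h2 h3 h4 h5 =>
    obtain ⟨rfl, rfl⟩ : (t = 5 ∧ k = 2) := by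
      have : t ≤ 10 := Nat.le_of_dvd (by norm_num) ⟨k, hc ▸ h3⟩
      obtain ⟨a, rfl⟩ := h4
      interval_cases t <;> omega
    · exact .inr (.inr (.inl ⟨h5 rfl, D, h1, h⟩))
  | pair k D h1 h2 h3 h4 =>
    obtain rfl : k = 5 := by omega
    exact .inr (.inr (.inr (.inl ⟨h1, D, h3, h4, h⟩)))
  | fld r K h1 h2 h3 h4 h5 =>
    obtain rfl : r = 5 := by
      rw [hc] at h2
      have : r ≤ 5 := by have := Nat.le_of_dvd (by norm_num) h2; omega
      interval_cases r <;> first | omega | exact absurd h1 (by norm_num)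
    · exact .inr (.inr (.inr (.inr (.inl ⟨K, h3, h4, h5, h⟩))))
  | uni K h1 h2 h3 h4 => exact .inr (.inr (.inr (.inr (.inr (.inl ⟨h1, K, h2, h3, h4, h⟩)))))
  | ten a b e P f₁ f₂ h1 h2 h3 h4 h5 h6 h7 h8 h9 h10 =>
    obtain ⟨rfl, rfl⟩ : (a = 2 ∧ b = 5) := by
      have : b ≤ 10 := Nat.le_of_dvd (by norm_num) ⟨a, by rw [← hc, h2, mul_comm]⟩
      obtain ⟨c, rfl⟩ := h4
      interval_cases b <;> omega
    · exact .inr (.inr (.inr (.inr (.inr (.inr (.inl ⟨h1, e, P, f₁, f₂, h8, h9, h10, h⟩))))))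
  | sub F₀ r P ζ h1 h2 h3 h4 => exact .inr (.inr (.inr (.inr (.inr (.inr (.inr (.inl ⟨F₀, r, P, ζ, h1, h2, h3, h4, h⟩)))))))
  | ext R k h1 h2 h3 h4 h5 h6 =>
    exact absurd (H23.As.prime_eq_of_pow Nat.prime_two (s := 5) (by norm_num) h6 (by simp)) (by norm_num)
  | wr k t e P f₁ h1 h2 h3 h4 h5 h6 h7 h8 =>
    obtain ⟨rfl, rfl⟩ := H23.As.wreath_small' h3 h5 h2 (by omega)
    omega
  | quad Q h1 h2 h3 => exact .inr (.inr (.inr (.inr (.inr (.inr (.inr (.inr (.inl ⟨h1, Q, h2, h3, h⟩))))))))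

end Cfsg.Agent.S5844
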