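import Cfsg.Statements.S5858
import Cfsg.Agent.H23.Nd2
import Cfsg.Agent.H23.Fr4
import Cfsg.Agent.H23.Sf5

set_option autoImplicit false
open Cfsg

namespace Cfsg.Agent.S5858


/-- Maximal subgroups of Ω_11(q) of geometric type, q odd. Let F be a finite field of odd order q, Q the standard quadratic form x₀² + Σ x_i y_i on F^11 (coordinates Unit ⊕ (Fin 5 ⊕ Fin 5)), and Ω = Ω_11(q) the commutator subgroup of its isometry group, inside GL_11(F). Each of the following, intersected with Ω, is a maximal subgroup of Ω: (1) the stabiliser of any non-zero subspace on which Q vanishes identically (totally singular 1- to 5-spaces); (2) the stabiliser of any non-zero even-dimensional subspace W (dimension 2 to 10) on which the polar form of Q is non-degenerate (equivalently of its odd-dimensional orthogonal complement), except when q = 3 and W is a 2-space containing a non-zero singular vector (a plus-type plane); (3) for q = p prime, the stabiliser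 of any decomposition of F^11 into eleven pairwise orthogonal, pairwise Q-isometric non-degenerate 1-spaces; (4) every subfield group for a subfield F₀ with |F| = |F₀|^r, r prime, whose F₀-structure carries Q. -/
theorem result {F : Type*} [Field F] [Fintype F] (hodd : Odd (Fintype.card F)) :
    (∀ W : Submodule F (Unit ⊕ (Fin 5 ⊕ Fin 5) → F), W ≠ ⊥ → Cfsg.Geo.IsTotallySingularQuad (Cfsg.quadFormOdd 5 F) W → Cfsg.Geo.IsMaximalIn (Cfsg.Geo.omegaGL (Cfsg.quadFormOdd 5 F)) (Cfsg.Geo.subspaceStabilizer W ⊓ Cfsg.Geo.omegaGL (Cfsg.quadFormOdd 5 F))) ∧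
    (∀ W : Submodule F (Unit ⊕ (Fin 5 ⊕ Fin 5) → F), W ≠ ⊥ → Even (Module.finrank F W) → Cfsg.Geo.IsNondegenerateOn (QuadraticMap.polar (Cfsg.quadFormOdd 5 F)) W → ¬ (Fintype.card F = 3 ∧ Module.finrank F W = 2 ∧ Cfsg.Geo.IsPlusTypeOn (Cfsg.quadFormOdd 5 F) W) → Cfsg.Geo.IsMaximalIn (Cfsg.Geo.omegaGL (Cfsg.quadFormOdd 5 F)) (Cfsg.Geo.subspaceStabilizer W ⊓ Cfsg.Geo.omegaGL (Cfsg.quadFormOdd 5 F))) ∧
    ((Fintype.card F).Prime → ∀ D : Fin 11 → Submodule F (Unit ⊕ (Fin 5 ⊕ Fin 5) → F), Cfsg.Geo.IsOrthogonalMDecomposition (Cfsg.quadFormOdd 5 F) 1 D → Cfsg.Geo.IsMaximalIn (Cfsg.Geo.omegaGL (Cfsg.quadFormOdd 5 F)) (Cfsg.Geo.decompositionStabilizer D ⊓ Cfsg.Geo.omegaGL (Cfsg.quadFormOdd 5 F))) ∧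
    (∀ (F₀ : Subfield F) (r : ℕ) (P : Matrix.GeneralLinearGroup (Unit ⊕ (Fin 5 ⊕ Fin 5)) F), r.Prime → Fintype.card F = Nat.card F₀ ^ r → Cfsg.Geo.IsQuadFormRationalStructure (Cfsg.quadFormOdd 5 F) F₀ P → Cfsg.Geo.IsMaximalIn (Cfsg.Geo.omegaGL (Cfsg.quadFormOdd 5 F)) (Cfsg.Geo.subfieldSubgroup F₀ P ⊓ Cfsg.Geo.omegaGL (Cfsg.quadFormOdd 5 F))) := by
  have h2 := H23.two_ne_zero_of_odd_card hodd
  have hΦ := H22.qOdd_nondeg h2 5
  have hE := fun g => H23.mem_omegaGL_iff_E hΦ (by simp) (g := g)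
  have hV : Module.finrank F (Unit ⊕ (Fin 5 ⊕ Fin 5) → F) = 11 := by simp
  refine ⟨fun W hW0 hW => H23.isMaximalIn_stab_of_E hE (H23.Form.isMaximalIn_totSing_quad hΦ rfl
    (by omega) (H23.Form.totSing_ofQuad.2 hW) hW0 (by omega)), fun W hW0 hev hW hex => ?_,
    fun hp D hD => H23.Fr.isMaximalIn_frame hp h2 hΦ (by simp) ⟨5, by simp⟩ hD,
    fun F₀ r P hr hcard hP => H23.Sf.isMaximalIn_colS_quad hΦ one_ne_zero
      (fun u hu => mul_mem (one_mem _) (hP u hu)) (by simp) (H23.Sf.pd_of_card hr hcard)⟩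
  have h1 := hΦ.finrank_perp_add W
  rw [Nat.even_iff] at hev
  refine H23.isMaximalIn_stab_of_E hE
    (H23.Nd.isMaximalIn_nd' hΦ rfl (.inl (by omega)) (H23.disjoint_perp_quad hW) hW0
      (by rintro rfl; rw [finrank_top] at hev; omega) (by omega) ?_)
  rintro U (rfl | rfl) h2 h
  · have h3 : Fintype.card F ≠ 3 := fun h3 => hex ⟨h3, h2, H23.isPlusTypeOn_of_sing h2 h⟩
    have := Fintype.one_lt_card (α := F)
    rw [Nat.odd_iff] at hodd
    omega
  · omega

end Cfsg.Agent.S5858
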