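import Cfsg.Statements.S5876
import Cfsg.Agent.H9.PrimLin

set_option autoImplicit false
open Cfsg

namespace Cfsg.Agent.S5876

/-- Fixed-point spaces in primitive soluble linear groups. Let F be a finite field and G a soluble subgroup of GL_n(F) that acts irreducibly on F^n and primitively (G preserves no decomposition of F^n into two or more independent subspaces of equal dimension). Then every non-identity element g of G has fixed-point space {v : g v = v} of dimension at most 3n/4. -/
theorem result {F : Type*} [Field F] [Fintype F] {n : ℕ} (G : Subgroup (Matrix.GeneralLinearGroup (Fin n) F)) (hsol : IsSolvable G) (hirr : Cfsg.Geo.ActsIrreducibly (Cfsg.Geo.matrixSet G)) (hprim : ∀ (m t : ℕ) (D : Fin t → Submodule F (Fin n → F)), 2 ≤ t → Cfsg.Geo.IsMDecomposition m D → ¬ G ≤ Cfsg.Geo.decompositionStabilizer D) (g : Matrix.GeneralLinearGroup (Fin n) F) (hg : g ∈ G) (hg1 : g ≠ 1) :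
    4 * Module.finrank F (Module.End.eigenspace (Matrix.toLin' (g : Matrix (Fin n) (Fin n) F)) 1) ≤ 3 * n := by
  classical
  let ρ : G →* Module.End F (Fin n → F) :=
    ((Matrix.toLinAlgEquiv' : Matrix (Fin n) (Fin n) F ≃ₐ[F] _).toMonoidHom.comp
      (Units.coeHom _)).comp G.subtype
  have hρ : ρ.ker = ⊥ := (MonoidHom.ker_eq_bot_iff ρ).2 fun a b h =>
    Subtype.ext (Units.ext (Matrix.toLinAlgEquiv'.injective h))
  have h := H9.four_mul_finrank_fix_le (ρ := ρ) hsol (fun A hA hA' a ha ha1 =>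
    H9.fix_eq_bot_of_prim hρ (fun W hW => hirr W (by rintro _ ⟨x, hx, rfl⟩; exact hW ⟨x, hx⟩))
      (fun m t D ht hm h1 h2 h3 h4 => hprim m t D ht ⟨ht, hm, h1, h2, h3⟩ fun x hx => h4 ⟨x, hx⟩)
      hA' ha ha1) (g := ⟨g, hg⟩) fun h => hg1 (congrArg Subtype.val h)
  rw [Module.finrank_fin_fun] at h
  have e : Module.End.eigenspace (Matrix.toLin' (g : Matrix (Fin n) (Fin n) F)) 1 =
      H2.fix ρ (Subgroup.zpowers ⟨g, hg⟩) := by
    ext v
    rw [Module.End.mem_eigenspace_iff, H9.mem_fix_zpowers, one_smul]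
    rfl
  rwa [e]

end Cfsg.Agent.S5876
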