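import Cfsg.Statements.S5877
import Cfsg.Agent.H12.Rb6
import Cfsg.Agent.H16.LA16
import Cfsg.Agent.H15.Pi

set_option autoImplicit false
open Cfsg

namespace Cfsg.Agent.S5877

open Subgroup H16 Module
open scoped commutatorElement

theorem nil_two {G : Type*} [Group G] {B : Subgroup G} (hB : ⁅B, B⁆ ≤ C[B]) :
    Group.IsNilpotent B := by
  refine Subgroup.isNilpotent_of_ker_le_center (Abelianization.of (G := B)) ?_
  rw [Abelianization.ker_of]
  intro x hx
  have h1 : (x : G) ∈ ⁅B, B⁆ := by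
    rw [← map_subtype_commutator]; exact mem_map_of_mem _ hx
  rw [mem_center_iff]
  intro y
  exact Subtype.ext (mem_cent.1 (hB h1) y y.2)

theorem comm_scal {F K : Type*} [Field F] [Field K] [Algebra F K] {n : ℕ} (i0 : Fin n)
    (S : Set (Matrix (Fin n) (Fin n) F))
    (h : ∀ M : Matrix (Fin n) (Fin n) F, (∀ s ∈ S, M * s = s * M) → ∃ c : F, M = c • 1)
    (M : Matrix (Fin n) (Fin n) K)
    (hM : ∀ s ∈ S, M * s.map (algebraMap F K) = s.map (algebraMap F K) * M) :
    ∃ c : K, M = c • 1 := by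
  have h1 : ∀ φ : Module.Dual F K, ∃ c : F, M.map φ = c • 1 := fun φ => h _ fun s hs => by
    ext i j
    have h2 := congrArg φ (congrFun (congrFun (hM s hs) i) j)
    simp only [Matrix.mul_apply, Matrix.map_apply, map_sum] at h2 ⊢
    have e1 : ∀ (a : K) (b : F), φ (a * algebraMap F K b) = φ a * b := fun a b => by
      rw [mul_comm, ← Algebra.smul_def, map_smul, smul_eq_mul, mul_comm]
    have e2 : ∀ (a : K) (b : F), φ (algebraMap F K b * a) = b * φ a := fun a b => by
      rw [← Algebra.smul_def, map_smul, smul_eq_mul]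
    simpa only [e1, e2] using h2
  refine ⟨M i0 i0, ?_⟩
  ext i j
  rw [← sub_eq_zero, ← Module.forall_dual_apply_eq_zero_iff F]
  intro φ
  obtain ⟨c, hc⟩ := h1 φ
  have h3 := congrFun (congrFun hc i) j
  have h4 := congrFun (congrFun hc i0) i0
  simp only [Matrix.map_apply, Matrix.smul_apply, Matrix.one_apply_eq, smul_eq_mul, mul_one] at h3 h4
  rw [map_sub, h3]
  by_cases e : i = j
  · subst e; simp [h4]
  · simp [Matrix.one_apply_ne e]

/-- Eigenspaces of elements normalising an absolutely irreducible extraspecial group. Let F be a finite field, r a prime, and R ≤ GL_n(F) an absolutely irreducible extraspecial r-group (an r-group whose centre equals its derived subgroup and has order r) of exponent r or 4. Let g ∈ GL_n(F) normalise the product of R with the scalar matrices, have prime order ϖ and not be scalar, and let W be the eigenspace of g for any c ∈ F (W may be the zero subspace). Then dim W ≤ 3n/4 if ϖ = 2, dim W ≤ 2n/3 if ϖ = 3, and dim W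 ≤ n/2 if ϖ > 3; moreover if ϖ = 3 and 3 does not divide n then dim W ≤ n/2. -/
theorem result {F : Type*} [Field F] [Fintype F] {n r ϖ : ℕ} (R : Subgroup (Matrix.GeneralLinearGroup (Fin n) F)) (hr : r.Prime) (hR : IsPGroup r R) (hZ : Nat.card (Subgroup.center R) = r) (hext : commutator R = Subgroup.center R) (hexp : Monoid.exponent R = r ∨ Monoid.exponent R = 4) (hirr : Cfsg.Geo.ActsAbsolutelyIrreducibly (Cfsg.Geo.matrixSet R)) (g : Matrix.GeneralLinearGroup (Fin n) F) (hg : g ∈ Cfsg.Geo.subgroupNormalizer (R ⊔ Cfsg.Geo.scalars (Fin n) F)) (hϖ : ϖ.Prime) (hord : orderOf g = ϖ) (hns : g ∉ Cfsg.Geo.scalars (Fin n) F) (c : F) :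
    (ϖ = 2 → 4 * Module.finrank F (Module.End.eigenspace (Matrix.toLin' (g : Matrix (Fin n) (Fin n) F)) c) ≤ 3 * n) ∧
    (ϖ = 3 → 3 * Module.finrank F (Module.End.eigenspace (Matrix.toLin' (g : Matrix (Fin n) (Fin n) F)) c) ≤ 2 * n) ∧
    (3 < ϖ → 2 * Module.finrank F (Module.End.eigenspace (Matrix.toLin' (g : Matrix (Fin n) (Fin n) F)) c) ≤ n) ∧
    (ϖ = 3 → ¬ 3 ∣ n → 2 * Module.finrank F (Module.End.eigenspace (Matrix.toLin' (g : Matrix (Fin n) (Fin n) F)) c) ≤ n) := by
  classical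
  have := Fact.mk hr
  let K := AlgebraicClosure F
  let ρ := H16.matRep (Fin n) (algebraMap F K)
  have hn : 0 < n := by
    rcases Nat.eq_zero_or_pos n with e | e
    · subst e
      exact absurd (Subsingleton.elim g 1 ▸ (Cfsg.Geo.scalars (Fin 0) F).one_mem) hns
    · exact e
  let i0 : Fin n := ⟨0, hn⟩
  haveI : Nonempty (Fin n) := ⟨i0⟩
  set S := Cfsg.Geo.scalars (Fin n) F with hS
  have hSc : ∀ s ∈ S, ∀ y, s * y = y * s := fun s hs y => by
    obtain ⟨d, hd⟩ := (Cfsg.Geo.mem_scalars_iff s).1 hs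
    refine Units.ext ?_
    rw [Units.val_mul, Units.val_mul, hd, Matrix.smul_mul, Matrix.mul_smul, one_mul, mul_one]
  -- an element commuting with `R` is scalar
  have hsc : ∀ z, (∀ y ∈ R, z * y = y * z) → z ∈ S := fun z hz => by
    obtain ⟨d, hd⟩ := hirr.2 z.1 (by
      rintro _ ⟨y, hy, rfl⟩
      exact congrArg Units.val (hz y hy))
    have hd0 : d ≠ 0 := by
      rintro rfl
      rw [zero_smul] at hd
      exact z.ne_zero hd
    exact (Cfsg.Geo.mem_scalars_iff z).2 ⟨Units.mk0 d hd0, hd⟩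
  have hdec : ∀ y ∈ R ⊔ S, ∃ a ∈ R, ∃ s ∈ S, y = a * s := fun y hy => by
    have h1 : y ∈ ((R ⊔ S : Subgroup _) : Set _) := hy
    rw [Subgroup.mul_normal] at h1
    obtain ⟨a, ha, s, hs, e⟩ := h1
    exact ⟨a, ha, s, hs, e.symm⟩
  have hNN : ⁅R ⊔ S, R ⊔ S⁆ ≤ S := by
    rw [commutator_le]
    intro y hy z hz
    obtain ⟨a, ha, s, hs, rfl⟩ := hdec y hy
    obtain ⟨b, hb, t, ht, rfl⟩ := hdec z hz
    have e : ⁅a * s, b * t⁆ = ⁅a, b⁆ := by
      rw [commutatorElement_def, commutatorElement_def, mul_inv_rev, mul_inv_rev]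
      calc a * s * (b * t) * (s⁻¹ * a⁻¹) * (t⁻¹ * b⁻¹)
          = a * (s * (b * t)) * s⁻¹ * a⁻¹ * t⁻¹ * b⁻¹ := by group
        _ = a * b * (t * a⁻¹) * t⁻¹ * b⁻¹ := by rw [hSc s hs]; group
        _ = _ := by rw [hSc t ht]; group
    rw [e]
    refine hsc _ fun w hw => ?_
    have h1 : (⁅(⟨a, ha⟩ : R), ⟨b, hb⟩⁆ : R) ∈ center R :=
      hext ▸ commutator_mem_commutator (mem_top _) (mem_top _)
    exact (congrArg Subtype.val (mem_center_iff.1 h1 ⟨w, hw⟩)).symm
  have hSC : ∀ X : Subgroup (Matrix.GeneralLinearGroup (Fin n) F), S ≤ C[X] := fun X s hs =>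
    mem_cent.2 fun y _ => (hSc s hs y).symm
  have hnil := nil_two (hNN.trans (hSC _))
  set Q := Cfsg.piCoreOf {r} (R ⊔ S) with hQ
  have hRQ : R ≤ Q := H15.le_piCoreOf_of_nilpotent hnil le_sup_left (H15.IsPGroup.isPi hR)
  have hQp : IsPGroup r Q := H15.Cfsg.IsPiSubgroup.isPGroup (H15.isPi_piCoreOf _ _)
  have hgQ : g ∈ N[Q] := H15.norm_le_norm_piCoreOf _ _ hg
  have hρS : ∀ s ∈ S, ∃ d : K, ρ s = d • 1 := fun s hs => by
    obtain ⟨d, hd⟩ := (Cfsg.Geo.mem_scalars_iff s).1 hs
    refine ⟨algebraMap F K d, ?_⟩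
    rw [H16.matRep_apply, hd]
    ext i j
    by_cases e : j = i
    · subst e; simp [Algebra.algebraMap_eq_smul_one]
    · simp [Matrix.one_apply_ne e, e]
  have hrK : (r : K) ≠ 0 := by
    intro h0
    rw [← map_natCast (algebraMap F K), map_eq_zero] at h0
    haveI := (CharP.charP_iff_prime_eq_zero hr).2 h0
    obtain ⟨z, hz⟩ := exists_prime_orderOf_dvd_card' (G := center R) r (hZ ▸ dvd_rfl)
    have h1 : ((z : R) : Matrix.GeneralLinearGroup (Fin n) F) ∈ S := hsc _ fun y hy =>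
      (congrArg Subtype.val (mem_center_iff.1 z.2 ⟨y, hy⟩)).symm
    obtain ⟨d, hd⟩ := (Cfsg.Geo.mem_scalars_iff _).1 h1
    have h2 : ((z : R) : Matrix.GeneralLinearGroup (Fin n) F) ^ r = 1 := by
      have := congrArg (fun w : center R => ((w : R) : Matrix.GeneralLinearGroup (Fin n) F))
        (pow_orderOf_eq_one z)
      simpa [hz] using this
    have h3 := congrArg Units.val h2
    rw [Units.val_pow_eq_pow_val, hd, smul_pow, one_pow] at h3
    have h4 := congrFun (congrFun h3 i0) i0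
    simp only [Matrix.smul_apply, Matrix.one_apply_eq, smul_eq_mul, mul_one, Units.val_one] at h4
    have h5 : (d : F) = 1 := by
      have : ((d : F) - 1) ^ r = 0 := by rw [sub_pow_char, h4, one_pow, sub_self]
      exact sub_eq_zero.1 (pow_eq_zero_iff hr.ne_zero |>.1 this)
    have h6 : z = 1 := Subtype.ext (Subtype.ext (Units.ext (by rw [hd, h5, one_smul]; rfl)))
    rw [h6, orderOf_one] at hz
    exact hr.one_lt.ne hz
  have hHS : H12.Rb.HS ρ Q := by
    refine ⟨(MonoidHom.ker_eq_bot_iff _).2 (H16.matRep_injective _), ?_, ?_, ?_⟩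
    · obtain ⟨k, hk⟩ := IsPGroup.iff_card.1 hQp
      rw [hk, Nat.cast_pow]
      exact pow_ne_zero _ hrK
    · exact ((commutator_mono (H15.piCoreOf_le _ _) (H15.piCoreOf_le _ _)).trans hNN).trans (hSC _)
    · exact fun z hz => hρS z (hsc z fun y hy => (mem_cent.1 hz.2 y (hRQ hy)).symm)
  have hs : ∀ φ : End K (Fin n → K), (∀ k ∈ Q, φ * ρ k = ρ k * φ) → ∃ c : K, φ = c • 1 := by
    intro φ hφ
    obtain ⟨M, rfl⟩ := Matrix.toLin'.surjective φ
    obtain ⟨d, hd⟩ := comm_scal i0 _ hirr.2 M (by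
      rintro _ ⟨y, hy, rfl⟩
      have h1 := hφ y (hRQ hy)
      rw [H16.matRep_apply, End.mul_eq_comp, End.mul_eq_comp, ← Matrix.toLin'_mul,
        ← Matrix.toLin'_mul] at h1
      exact Matrix.toLin'.injective h1)
    exact ⟨d, by rw [hd, map_smul, Matrix.toLin'_one]; rfl⟩
  have hns' : ∀ d : K, ρ g ≠ d • 1 := fun d hd => hns (hsc g fun y _ =>
    H16.matRep_injective (algebraMap F K) (by
      change ρ (g * y) = ρ (y * g)
      rw [map_mul, map_mul, hd, smul_mul_assoc, mul_smul_comm, one_mul, mul_one]))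
  have hm := hHS.main hs hr hQp hgQ hϖ hord hns' (algebraMap F K c)
  have e1 : finrank K (End.eigenspace (ρ g) (algebraMap F K c)) =
      finrank F (End.eigenspace (Matrix.toLin' (g : Matrix (Fin n) (Fin n) F)) c) := by
    rw [H16.finrank_eigenspace_eq_kd, H16.finrank_eigenspace_eq_kd,
      ← H16.kd_map_field (algebraMap F K), H16.matRep_apply]
    simp
  rw [e1, Module.finrank_fin_fun] at hm
  refine ⟨fun h => ?_, fun h => ?_, fun h => ?_, fun h h' => ?_⟩ <;> omega

end Cfsg.Agent.S5877
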