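import Cfsg.Statements.S5938
import Cfsg.Agent.H4.Dk4

set_option autoImplicit false
open Cfsg

namespace Cfsg.Agent.S5938

/-- Let p be a prime with p ≡ ±1 (mod 8) and F a field with p elements. Then PSL_2(F) has a maximal subgroup isomorphic to the symmetric group S_4. -/
theorem result {F : Type*} [Field F] [Fintype F] (p : ℕ) [Fact p.Prime] (hF : Fintype.card F = p) (hp : p % 8 = 1 ∨ p % 8 = 7) : ∃ H : Subgroup (Matrix.ProjectiveSpecialLinearGroup (Fin 2) F), IsCoatom H ∧ Nonempty (H ≃* Equiv.Perm (Fin 4)) := by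
  have h2 : (2 : F) ≠ 0 := H4.two_ne_zero_of_odd (Nat.odd_iff.2 (by omega))
  obtain ⟨S, -, hS⟩ := H4.exists_s4 h2 (⊤ : Subfield F)
  exact H4.exists_coatom_of (H4.covBy_s4 (hF ▸ Fact.out) (hF ▸ hp) hS) hS

end Cfsg.Agent.S5938
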