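import Cfsg.Statements.S5943
import Cfsg.Agent.H4.Dk4

set_option autoImplicit false
open Cfsg

namespace Cfsg.Agent.S5943

/-- Let K and F be finite fields of characteristic 2 with #K = q > 2 and #F = q^r for a prime r. Then PSL_2(F) has a maximal subgroup isomorphic to PSL_2(K) (which equals PGL_2(K) in characteristic 2). -/
theorem result {F K : Type*} [Field F] [Fintype F] [Field K] [Fintype K] (q r : ℕ) (hK : Fintype.card K = q) (hF : Fintype.card F = q ^ r) (hq : Even q) (hq2 : q ≠ 2) (hr : r.Prime) : ∃ H : Subgroup (Matrix.ProjectiveSpecialLinearGroup (Fin 2) F), IsCoatom H ∧ Nonempty (H ≃* Matrix.ProjectiveSpecialLinearGroup (Fin 2) K) := by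
  subst hK
  obtain ⟨f⟩ := H4.exists_hom_of_card (F := F) (K := K) (m := r)
    (by rwa [Nat.card_eq_fintype_card, Nat.card_eq_fintype_card])
  have h2 : (2 : F) = 0 := H4.two_eq_zero_of_even (hF ▸ hq.pow_of_ne_zero hr.ne_zero)
  exact H4.exists_coatom_of (H4.covBy_pslS (by
    rw [H4.card_fieldRange, Nat.card_eq_fintype_card]
    have := H4.one_lt_card' (F := K)
    omega) hr
    (by rwa [H4.card_fieldRange, Nat.card_eq_fintype_card]) (Or.inl h2)) (H4.nonempty_pslS_equiv f)

end Cfsg.Agent.S5943
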