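import Cfsg.Statements.S5950
import Cfsg.Agent.H16.LA7
-- import your own Cfsg.Agent.* helpers here

set_option autoImplicit false
open scoped MatrixGroups
open Cfsg

namespace Cfsg.Agent.S5950

open H16 Polynomial Module in
/-- Elements of prime order of PSL_n(q) fixing no decomposition `F^n = U ⊕ W` with `dim U = m`. Here `T = PSL_n(F)` for a field `F` with `q = p^f` elements (`n ≥ 2`, `(n, q) ≠ (2, 2), (2, 3)`); an element of `T` of prime order `r` is represented by a matrix `x` of determinant 1 with `x^r` scalar and `x` not scalar; `i` denotes the multiplicative order of `q` modulo `r` (when `r ≠ p`), and `(a)_r` the `r`-part of `a`. Let `n ≥ 3`, `1 ≤ m < n/2`, and let `r` be a prime dividing the number of such decompositions (unordered pairs `{U, W}` of complementary subspaces with `dim U = m`; since `m ≠ n − m` these are the ordered pairs with `dim U = m`). Then every element of `T` of order `r` fixes such a pair (fixes both `U` and `W` for some complementary `U, W` with `dim U = m`) if and only if one of: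 (i) `r = p > 2` and every partition of `n` into parts of size at most `p` contains, as a sub-multiset, a partition of `m`; (ii) `r = p = 2` and `n` is odd or `m` is even; (iii) `r ≠ p`, `i = 1`, and `r ∣ m` or `(q−1)_r ≥ (n)_r` (with `q ≡ 1 (mod 4)` required when `r = 2` and `n` is even); (iv) `r ≠ p`, `2 ≤ i ≤ m` and `n mod i ≥ m mod i`. -/
theorem result {F : Type*} [Field F] [Fintype F] {p : ℕ} [Fact p.Prime] [CharP F p] {q : ℕ} (hq : Fintype.card F = q)
    (n m : ℕ) (hn : 3 ≤ n) (hm : 1 ≤ m) (hmn : 2 * m < n)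
    (r : ℕ) [Fact r.Prime]
    (hrΩ : r ∣ Nat.card {P : Submodule F (Fin n → F) × Submodule F (Fin n → F) // IsCompl P.1 P.2 ∧ Module.finrank F ↥P.1 = m}) :
    (∀ x : Matrix.SpecialLinearGroup (Fin n) F,
      (∃ c : F, ((x ^ r : Matrix.SpecialLinearGroup (Fin n) F) : Matrix (Fin n) (Fin n) F) = c • (1 : Matrix (Fin n) (Fin n) F)) →
      (∀ c : F, (x : Matrix (Fin n) (Fin n) F) ≠ c • (1 : Matrix (Fin n) (Fin n) F)) →
      ∃ U W : Submodule F (Fin n → F), IsCompl U W ∧ Module.finrank F ↥U = m ∧
        U.map (Matrix.toLin' (x : Matrix (Fin n) (Fin n) F)) ≤ U ∧ W.map (Matrix.toLin' (x : Matrix (Fin n) (Fin n) F)) ≤ W) ↔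
    ((r = p ∧ 2 < p ∧ (∀ μ : Multiset ℕ, (∀ a ∈ μ, 0 < a ∧ a ≤ p) → μ.sum = n → ∃ ν : Multiset ℕ, ν ≤ μ ∧ ν.sum = m)) ∨
     (r = p ∧ p = 2 ∧ (Odd n ∨ Even m)) ∨
     (r ≠ p ∧
      ((orderOf (q : ZMod r) = 1 ∧ (r ∣ m ∨ (padicValNat r n ≤ padicValNat r (q - 1) ∧ (r = 2 → Even n → q % 4 = 1)))) ∨
       (2 ≤ orderOf (q : ZMod r) ∧ orderOf (q : ZMod r) ≤ m ∧ m % orderOf (q : ZMod r) ≤ n % orderOf (q : ZMod r))))) := by
  have : Nonempty (Fin n) := ⟨⟨0, by omega⟩⟩
  subst hq
  have hr : r.Prime := Fact.out
  have hfin : finrank F (Fin n → F) = n := by simp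
  simp only [exists_compl_inv_iff, dg_toLin']
  by_cases hrp : r = p
  · subst hrp
    refine (forall_jt_iff_char r (fun μ => ∃ ν ≤ μ, ν.sum = m)
      ⟨_, (Multiset.replicate_le_replicate 1).2 (show m ≤ _ by simp; omega), by simp⟩).trans ?_
    simp only [Fintype.card_fin, true_and, ne_eq, not_true, false_and, or_false]
    rcases hr.eq_two_or_odd' with rfl | h
    · simp only [lt_irrefl, false_and, false_or, true_and]
      constructor
      · intro h
        by_contra! h1
        obtain ⟨k, hk⟩ := Nat.not_odd_iff_even.1 h1.1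
        obtain ⟨ν, h2, h3⟩ := h (Multiset.replicate k 2)
          (fun a ha => by rw [Multiset.eq_of_mem_replicate ha]; omega) (by simp; omega)
        obtain ⟨k', -, rfl⟩ := Multiset.le_replicate_iff.1 h2
        exact h1.2 ⟨k', by simp at h3; omega⟩
      · intro h μ h1 h2
        obtain ⟨k, l, rfl⟩ := multiset_one_two h1
        simp only [Multiset.sum_add, Multiset.sum_replicate, smul_eq_mul, mul_one] at h2
        rw [exists_le_rep_iff, exists_comb_iff two_pos (by omega)]
        rw [Nat.odd_iff, Nat.even_iff] at h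
        omega
    · have h2 : 2 < r := lt_of_le_of_ne hr.two_le (by rintro rfl; exact absurd h (by decide))
      simp [h2, h2.ne']
  · have hr0 : (r : F) ≠ 0 := cast_ne_zero_of_ne p hr hrp
    rw [card_compl_pairs] at hrΩ
    have h1 := ((coprime_card_of_cast hr hr0).pow_right _).dvd_of_dvd_mul_right hrΩ
    have hlt := lt_of_dvd_gb (k := m) (by omega) hr h1
    have := elusive_sub (n := Fin n) hr0 (l := m) (by simp; omega) (by simpa using hlt)
    simp only [Fintype.card_fin, NS] at this
    simp only [hrp, false_and, false_or, ne_eq, not_false_iff, true_and]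
    exact this

end Cfsg.Agent.S5950
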