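import Cfsg.Statements.S5951
import Cfsg.Agent.H16.LA7
-- import your own Cfsg.Agent.* helpers here

set_option autoImplicit false
open scoped MatrixGroups
open Cfsg

namespace Cfsg.Agent.S5951

open H16 Polynomial Module in
/-- Elements of prime order of PSL_n(q) fixing no pair of subspaces `U < W` with `dim U = m`, `dim W = n − m`. Here `T = PSL_n(F)` for a field `F` with `q = p^f` elements (`n ≥ 2`, `(n, q) ≠ (2, 2), (2, 3)`); an element of `T` of prime order `r` is represented by a matrix `x` of determinant 1 with `x^r` scalar and `x` not scalar; `i` denotes the multiplicative order of `q` modulo `r` (when `r ≠ p`), and `(a)_r` the `r`-part of `a`. Let `1 ≤ m < n/2` and let `r` be a prime dividing the number of such pairs. Then every element of `T` of order `r` fixes such a pair (both `U` and `W`) if and only if `r ≠ p` and either (i) `i = 1` and (`r ∣ m`, or `(q−1)_r ≥ (n)_r` with `q ≡ 1 (mod 4)` required when `r = 2` and `n` is even), or (ii) `2 ≤ i ≤ m` and `n mod i ≥ 2 (m mod i)`. -/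
theorem result {F : Type*} [Field F] [Fintype F] {p : ℕ} [Fact p.Prime] [CharP F p] {q : ℕ} (hq : Fintype.card F = q)
    (n m : ℕ) (hn : 2 ≤ n) (hT : (n, q) ≠ (2, 2) ∧ (n, q) ≠ (2, 3)) (hm : 1 ≤ m) (hmn : 2 * m < n)
    (r : ℕ) [Fact r.Prime]
    (hrΩ : r ∣ Nat.card {P : Submodule F (Fin n → F) × Submodule F (Fin n → F) //
        P.1 ≤ P.2 ∧ Module.finrank F ↥P.1 = m ∧ Module.finrank F ↥P.2 = n - m}) :
    (∀ x : Matrix.SpecialLinearGroup (Fin n) F,
      (∃ c : F, ((x ^ r : Matrix.SpecialLinearGroup (Fin n) F) : Matrix (Fin n) (Fin n) F) = c • (1 : Matrix (Fin n) (Fin n) F)) →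
      (∀ c : F, (x : Matrix (Fin n) (Fin n) F) ≠ c • (1 : Matrix (Fin n) (Fin n) F)) →
      ∃ U W : Submodule F (Fin n → F), U ≤ W ∧ Module.finrank F ↥U = m ∧ Module.finrank F ↥W = n - m ∧
        U.map (Matrix.toLin' (x : Matrix (Fin n) (Fin n) F)) ≤ U ∧ W.map (Matrix.toLin' (x : Matrix (Fin n) (Fin n) F)) ≤ W) ↔
    (r ≠ p ∧
      ((orderOf (q : ZMod r) = 1 ∧ (r ∣ m ∨ (padicValNat r n ≤ padicValNat r (q - 1) ∧ (r = 2 → Even n → q % 4 = 1)))) ∨
       (2 ≤ orderOf (q : ZMod r) ∧ orderOf (q : ZMod r) ≤ m ∧ 2 * (m % orderOf (q : ZMod r)) ≤ n % orderOf (q : ZMod r)))) := by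
  have : Nonempty (Fin n) := ⟨⟨0, by omega⟩⟩
  subst hq
  have hr : r.Prime := Fact.out
  have hfin : finrank F (Fin n → F) = n := by simp
  have hfin' : finrank F (Fin (n - m) → F) = n - m := by simp
  rw [card_flags, gb_symm (d := m) (by omega), hr.dvd_mul] at hrΩ
  have hrp : r ≠ p := by
    rintro rfl
    exact hrΩ.elim (not_char_dvd_gb r (by omega)) (not_char_dvd_gb r (by omega))
  have hr0 : (r : F) ≠ 0 := cast_ne_zero_of_ne p hr hrp
  have hpos := orderOf_card_pos hr hr0
  have hlt : n % orderOf (Fintype.card F : ZMod r) < 2 * m := by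
    rcases hrΩ with h | h
    · have := lt_of_dvd_gb (by omega) hr h
      rw [hfin] at this; omega
    · have := lt_of_dvd_gb (by omega) hr h
      rw [hfin'] at this
      have h1 : n = (n - m) + m := by omega
      rw [h1, ← Nat.mod_add_mod]
      exact lt_of_le_of_lt (Nat.mod_le _ _) (by omega)
  refine Iff.trans (forall_congr' fun x => imp_congr_right fun hx => imp_congr_right fun _ =>
    (ss_of_SL_pow hr0 hx).exists_flag_iff m (n - m)) ?_
  rw [and_iff_right hrp]
  by_cases hi : orderOf (Fintype.card F : ZMod r) = 1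
  · refine (forall_jt_iff_one hi (fun μ' => ∃ ν μ, ν ≤ μ ∧ μ ≤ μ' ∧ ν.sum = m ∧ μ.sum = n - m)
      ⟨_, _, (Multiset.replicate_le_replicate 1).2 (show m ≤ n - m by omega),
        (Multiset.replicate_le_replicate 1).2 (by simp), by simp, by simp⟩).trans ?_
    simp only [hi, true_and, show ¬ 2 ≤ 1 by omega, false_and, or_false, Fintype.card_fin]
    change _ ↔ _ ∨ NS r n (Fintype.card F)
    by_cases h : NS r n (Fintype.card F)
    · simp [h]
    · simp only [h, false_or, or_false]
      constructor
      · intro h1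
        obtain ⟨k, hk⟩ := dvd_of_not_NS h
        obtain ⟨ν, μ, h2, h3, rfl, -⟩ := h1 k (by rw [hk, mul_comm])
        obtain ⟨k', -, rfl⟩ := Multiset.le_replicate_iff.1 (h2.trans h3)
        simp
      · rintro ⟨k', rfl⟩ k hk
        have h2 : 2 * k' ≤ k := by
          refine Nat.le_of_mul_le_mul_right ?_ hr.pos
          rw [← hk]; nlinarith
        refine ⟨Multiset.replicate k' r, Multiset.replicate (k - k') r,
          (Multiset.replicate_le_replicate r).2 (by omega),
          (Multiset.replicate_le_replicate r).2 (by omega), by simp [mul_comm], ?_⟩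
        simp [hk, Nat.mul_sub, mul_comm]
  · refine (forall_jt_iff_two hr hr0 hi
      (fun μ' => ∃ ν μ, ν ≤ μ ∧ μ ≤ μ' ∧ ν.sum = m ∧ μ.sum = n - m)).trans ?_
    simp only [hi, false_and, false_or, Fintype.card_fin]
    generalize orderOf (Fintype.card F : ZMod r) = i at *
    constructor
    · intro h
      have h1 : i ≤ n := by
        by_contra h1
        rw [Nat.mod_eq_of_lt (by omega)] at hlt; omega
      obtain ⟨ν, μ, h2, h3, h4, h5⟩ := h (n / i) (n % i) (Nat.div_pos h1 hpos) (Nat.div_add_mod' _ _)
      obtain ⟨s, hs, k, hk, rfl⟩ := le_rep_add_rep h3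
      obtain ⟨s', hs', k', hk', rfl⟩ := le_rep_add_rep h2
      simp only [Multiset.sum_add, Multiset.sum_replicate, smul_eq_mul, mul_one] at h4 h5
      have h6 := mod_le_of_comb h4
      have h7 : (n / i - s) * i + (n % i - k) = m := by
        have := Nat.div_add_mod' n i
        have := Nat.mul_le_mul_right i hs
        rw [Nat.sub_mul]; omega
      have h8 := mod_le_of_comb h7
      refine ⟨by omega, ?_, by omega⟩
      by_contra h9
      rw [Nat.mod_eq_of_lt (by omega)] at h6 h8; omega
    · rintro ⟨-, -, h⟩ s k - hsk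
      have h1 := mod_le_of_comb hsk
      have h2 := Nat.div_add_mod' m i
      by_cases h3 : 2 * (m / i) ≤ s
      · refine ⟨_, _, rep_add_rep_le (s' := m / i) (k' := m % i) (s := s - m / i) (k := k - m % i)
          (by omega) (by omega), rep_add_rep_le (by omega) (by omega), by simpa using h2, ?_⟩
        have := Nat.mul_le_mul_right i h3
        simp only [Multiset.sum_add, Multiset.sum_replicate, smul_eq_mul, mul_one, Nat.sub_mul]
        rw [mul_assoc] at this
        omega
      · have h4 := Nat.mul_le_mul_right i (show s / 2 ≤ m / i by omega)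
        have h5 := Nat.mul_le_mul_right i (show s - s / 2 ≤ m / i by omega)
        have h6 : s / 2 * i + (s - s / 2) * i = s * i := by
          rw [← add_mul]; congr 1; omega
        refine ⟨_, _, rep_add_rep_le (s' := s / 2) (k' := m - s / 2 * i) (s := s / 2)
          (k := k - (m - (s - s / 2) * i)) le_rfl (by omega),
          rep_add_rep_le (by omega) (by omega), ?_, ?_⟩ <;>
        simp only [Multiset.sum_add, Multiset.sum_replicate, smul_eq_mul, mul_one] <;> omega

end Cfsg.Agent.S5951
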