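import Cfsg.Statements.S5952
import Cfsg.Agent.H16.LA8
-- import your own Cfsg.Agent.* helpers here

set_option autoImplicit false
open Cfsg

namespace Cfsg.Agent.S5952

open H16 Polynomial Module in
/-- Which dimensions of invariant subspaces a semisimple linear map has. Let `V` be a finite-dimensional vector space over a field `F` and `f` an invertible semisimple linear map of `V`. Suppose `V` is the internal direct sum of the fixed space `C_V(f)` (the eigenspace for 1) and subspaces `U_1, …, U_s`, each `f`-invariant of dimension `a ≥ 1` on which `f` acts irreducibly (no `f`-invariant subspaces other than 0 and `U_j`). Let `0 < m < dim V` and `ℓ = m mod a`. Then `f` leaves some `m`-dimensional subspace invariant if and only if `dim C_V(f) ≥ m`, or `a ≤ m` and `dim C_V(f) ≥ ℓ`. -/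
theorem result {F V : Type*} [Field F] [AddCommGroup V] [Module F V]
    [FiniteDimensional F V] (f : V →ₗ[F] V) (hf : Function.Bijective f) (hss : Module.End.IsSemisimple f)
    {s a : ℕ} (ha : 1 ≤ a) (U : Fin s → Submodule F V)
    (hUinv : ∀ j, (U j).map f ≤ U j) (hUdim : ∀ j, Module.finrank F ↥(U j) = a)
    (hUirr : ∀ j, ∀ W : Submodule F V, W ≤ U j → W.map f ≤ W → W = ⊥ ∨ W = U j)
    (hdec : DirectSum.IsInternal (fun o : Option (Fin s) => o.elim (Module.End.eigenspace f 1) U))
    (m : ℕ) (hm : 0 < m) (hmV : m < Module.finrank F V) :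
    (∃ W : Submodule F V, Module.finrank F ↥W = m ∧ W.map f ≤ W) ↔
    (m ≤ Module.finrank F ↥(Module.End.eigenspace f 1) ∨
      (a ≤ m ∧ m % a ≤ Module.finrank F ↥(Module.End.eigenspace f 1))) := by
  classical
  obtain ⟨h1, h2⟩ := (DirectSum.isInternal_submodule_iff_iSupIndep_and_iSup_eq_top _).1 hdec
  have hE : ∀ x ∈ Module.End.eigenspace f 1, f x = x := fun x hx => by
    simpa using Module.End.mem_eigenspace_iff.1 hx
  have hD : ∀ o : Option (Fin s), ∀ x ∈ o.elim (Module.End.eigenspace f 1) U,
      f x ∈ o.elim (Module.End.eigenspace f 1) U := by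
    rintro (_ | j) x hx
    · rwa [hE x hx]
    · exact hUinv j ⟨x, hx, rfl⟩
  have h3 : dg f = Multiset.replicate s a +
      Multiset.replicate (finrank F (Module.End.eigenspace f 1)) 1 := by
    have h4 : dg (f.restrict (hD none)) =
        Multiset.replicate (finrank F (Module.End.eigenspace f 1)) 1 := by
      have h5 : dg (f.restrict (hD none)) = Multiset.replicate _ 1 :=
        Multiset.eq_replicate_card.2 fun e he => by
          obtain ⟨q, hq, rfl⟩ := Multiset.mem_map.1 he
          rw [(eq_smul_iff_ed _ 1).1 (LinearMap.ext fun x => Subtype.ext (by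
            rw [one_smul]; exact hE x.1 x.2)) q hq, natDegree_X_sub_C]
      have h6 := dg_sum (f.restrict (hD none))
      rw [h5] at h6 ⊢
      simp only [Multiset.sum_replicate, smul_eq_mul, mul_one] at h6
      rw [h6]; rfl
    have h5 : ∀ j, dg (f.restrict (hD (some j))) = {a} := fun j => by
      rw [← hUdim j]
      have h0 : finrank F (U j) ≠ 0 := by rw [hUdim]; omega
      refine @dg_of_irred F _ (U j) _ _ _ _ h0 fun A hA => ?_
      refine (hUirr j (A.map (U j).subtype) ((U j).map_subtype_le A) ?_).imp (fun h => ?_) fun h => ?_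
      · rintro _ ⟨_, ⟨x, hx, rfl⟩, rfl⟩
        exact ⟨_, hA ⟨x, hx, rfl⟩, rfl⟩
      · exact Submodule.map_injective_of_injective (U j).injective_subtype (by simpa using h)
      · exact Submodule.map_injective_of_injective (U j).injective_subtype (by simpa using h)
    rw [dg, ed_of_decomp h1 h2 hD, Fintype.sum_option, Multiset.map_add, add_comm]
    refine congrArg₂ _ ?_ h4
    rw [← Multiset.coe_mapAddMonoidHom, map_sum]
    exact (Finset.sum_congr rfl fun j _ => h5 j).trans (by simp [Multiset.nsmul_singleton])
  have h4 := dg_sum f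
  rw [(ss_iff_isSemisimple.2 hss).exists_inv_iff, h3, exists_le_rep_iff,
    exists_comb_iff ha (by rw [h3] at h4; simp at h4; omega)]
  constructor
  · intro h
    by_cases h5 : a ≤ m
    · exact Or.inr ⟨h5, h⟩
    · rw [Nat.mod_eq_of_lt (by omega)] at h; exact Or.inl h
  · rintro (h | h)
    · exact (Nat.mod_le _ _).trans h
    · exact h.2

end Cfsg.Agent.S5952
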