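import Cfsg.Statements.S5953
import Cfsg.Agent.H16.LA28
-- import your own Cfsg.Agent.* helpers here

set_option autoImplicit false
open scoped MatrixGroups
open Cfsg

namespace Cfsg.Agent.S5953

open H16 H14.Wall H23 H23.Form Polynomial Module in
/-- Elements of prime order of PSU_n(q) with no fixed totally isotropic `m`-space. Here `T = PSU_n(q)` (`n ≥ 3`, `(n, q) ≠ (3, 2)`), realised through the matrices of determinant 1 over the field `F` with `q²` elements preserving the Hermitian form `h(u, v) = Σ u_i v_i^q`; an element of `T` of prime order `r` is such a matrix `x` with `x^r` scalar and `x` not scalar. For `r ≠ p` let `i` be the multiplicative order of `q` modulo `r`, `b = i/2` for `i` even and `b = i` for `i` odd, `c = i, i/2, 2i` according as `i ≡ 0, 2 (mod 4)` or `i` odd, and write `k = n mod c`, `ℓ = m mod b`, `ℓ' = m mod c`, `n' = ⌊n/b⌋`, `m' = ⌊m/b⌋`, `s = (r−1)/b`; `(a)_r` is the `r`-part of `a`. Let `1 ≤ m ≤ n/2` and let `r` be a prime dividing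 the number of totally isotropic `m`-spaces. Then every element of `T` of order `r` fixes a totally isotropic `m`-space if and only if either (i) `r = 2`, `p ≠ 2`, and (`m < n/2` or `(q+1)_2 ≤ (n)_2`); or (ii) `r ≠ p`, `r > 2`, `b ≤ m`, `k ≥ 2ℓ`, and either `i ≢ 2 (mod 4)`, or `i ≡ 2 (mod 4)`, `n' − 2m' ≥ s` and (`i > 2`, or `i = 2` and (`r ∣ m` or `(q+1)_r ≥ (n)_r`)). -/
theorem result {F : Type*} [Field F] [Fintype F] {p : ℕ} [Fact p.Prime] [CharP F p] {q : ℕ} (hq : Fintype.card F = q ^ 2)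
    (n m : ℕ) (hn : 3 ≤ n) (hT : (n, q) ≠ (3, 2)) (hm : 1 ≤ m) (hmn : 2 * m ≤ n)
    (r : ℕ) [Fact r.Prime]
    (hrΩ : r ∣ Nat.card {W : Submodule F (Fin n → F) // Module.finrank F ↥W = m ∧ (∀ u ∈ W, ∀ v ∈ W, Cfsg.hermForm n F q u v = 0)})
    (i b c : ℕ) (hi : i = orderOf (q : ZMod r)) (hb : b = if Even i then i / 2 else i)
    (hc : c = if i % 4 = 0 then i else if i % 4 = 2 then i / 2 else 2 * i) :
    (∀ x : Matrix.SpecialLinearGroup (Fin n) F, x ∈ Cfsg.SU n F q →
      (∃ z : F, ((x ^ r : Matrix.SpecialLinearGroup (Fin n) F) : Matrix (Fin n) (Fin n) F) = z • (1 : Matrix (Fin n) (Fin n) F)) →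
      (∀ z : F, (x : Matrix (Fin n) (Fin n) F) ≠ z • (1 : Matrix (Fin n) (Fin n) F)) →
      ∃ W : Submodule F (Fin n → F), Module.finrank F ↥W = m ∧ (∀ u ∈ W, ∀ v ∈ W, Cfsg.hermForm n F q u v = 0) ∧
        W.map (Matrix.toLin' (x : Matrix (Fin n) (Fin n) F)) ≤ W) ↔
    ((r = 2 ∧ p ≠ 2 ∧ (2 * m < n ∨ padicValNat 2 (q + 1) ≤ padicValNat 2 n)) ∨
     (r ≠ p ∧ 2 < r ∧ b ≤ m ∧ 2 * (m % b) ≤ n % c ∧
       (i % 4 ≠ 2 ∨ (i % 4 = 2 ∧ (r - 1) / b + 2 * (m / b) ≤ n / b ∧
         (2 < i ∨ (i = 2 ∧ (r ∣ m ∨ padicValNat r n ≤ padicValNat r (q + 1)))))))) := by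
  classical
  simp only [herm_ts_iff hq] at hrΩ ⊢
  have hr : r.Prime := Fact.out
  have hq2 := two_le_of_card_eq_sq hq
  have : Nonempty (Fin n) := ⟨⟨0, by omega⟩⟩
  have hΦ := huForm_nondeg hq n
  have hV : finrank F (Fin n → F) = n := by simp
  refine (su_forall_iff hq (fun g => ∃ W : Submodule F _, finrank F W = m ∧
    (huForm hq n).TotSing W ∧ W.map g ≤ W)).trans ?_
  simp only [map_le_iff_inv]
  obtain ⟨e, he⟩ : ∃ e, n = e + 2 * m := ⟨n - 2 * m, by omega⟩
  have hcard := card_ts_herm hΦ rfl (hV.trans he)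
  have hrp : r ≠ p := by
    rintro rfl
    exact not_dvd_uf hr (char_dvd_of_sq hq r) (by omega) _ (one_mul (uf q _) ▸ hcard ▸ hrΩ.mul_right _)
  have hr0 : (r : F) ≠ 0 := cast_ne_zero_of_ne p hr hrp
  have hid : ∀ {s t : Multiset F[X]}, s + s.map (dual (conj hq)) ≤ t →
      (∀ a ∈ t, dual (conj hq) a = a) → s + s ≤ t := fun {s t} h1 h2 => by
    rwa [(Multiset.map_congr rfl fun a ha => h2 a (Multiset.mem_of_le
      ((Multiset.le_add_right _ _).trans h1) ha)).trans (Multiset.map_id' _)] at h1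
  by_cases h2 : r = 2
  · subst h2
    have h2 : (2 : F) ≠ 0 := by simpa using hr0
    have hq' := odd_of_two_ne hq h2
    simp only [hrp.symm, lt_irrefl, false_and, and_false, true_and, ne_eq, not_false_eq_true,
      or_false]
    constructor
    · intro h
      by_contra h3
      rw [not_or, not_le, ← exists_norm_neg_iff hq hq' (by omega)] at h3
      obtain ⟨h3, c, h4, h5⟩ := h3
      have hc : c ≠ 0 := by rintro rfl; simp at h4
      obtain ⟨g, hg, h6⟩ := exists_herm_lin hΦ rfl hq' h4 (a := 1) (b := 2 * (m - 1) + 1) (by omega)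
      obtain ⟨A, h7, h8, hA⟩ := h g ⟨hg, by
        rw [det_of_lin h6, (odd_two_mul_add_one _).neg_pow, mul_neg, ← pow_add,
          show 1 + (2 * (m - 1) + 1) = n by omega, h5, neg_neg]⟩ ⟨_, pow_of_lin h6⟩
        (not_scalar_of_lin h2 hc (by omega) (by omega) h6)
      have h9 : ∀ a ∈ ed g, a = X - C c ∨ a = X - C (-c) := fun a ha =>
        (Multiset.mem_add.1 (h6 ▸ ha)).imp Multiset.eq_of_mem_replicate Multiset.eq_of_mem_replicate
      have h10 := hid (ts_ed_le hΦ hg (ss_of_pow h2 (pow_ne_zero _ hc) (pow_of_lin h6)) hA h8.1)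
        fun a ha => by
          rcases h9 a ha with rfl | rfl
          exacts [dual_lin_norm h4, dual_lin_norm (by rw [hq'.add_one.neg_pow, h4])]
      have h11 := card_le_of_double (ρ := {X - C c, X - C (-c)}) (u := m - 1) (x := X - C (-c))
        (by simpa using lin_ne_neg h2 hc) (h10.trans (h6.trans (by
          rw [Multiset.replicate_succ _ (2 * _), ← Multiset.singleton_add, ← add_assoc]
          rfl)).le)
      rw [finrank_eq_sum_ed hA, Multiset.map_congr rfl (g := fun _ => 1) fun a ha => by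
        rcases h9 a (Multiset.mem_of_le ((Multiset.le_add_right _ _).trans h10) ha) with rfl | rfl <;>
          exact natDegree_X_sub_C _] at h7
      simp at h7; omega
    · rintro h g ⟨hg, h3⟩ ⟨z, hz⟩ -
      obtain ⟨c, a, b, h4, h5, h6 | ⟨h6, rfl⟩⟩ := herm_sq_cases h2 hΦ hg hz
      · have h7 : m ≤ a / 2 + b / 2 := by
          by_contra h7
          have h8 : Odd b := Nat.odd_iff.2 (by omega)
          rw [det_of_lin h5, h8.neg_pow, mul_neg, ← pow_add, h4, hV, neg_eq_iff_eq_neg] at h3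
          have := (exists_norm_neg_iff hq hq' (by omega)).1 ⟨c, h6, h3⟩
          omega
        obtain ⟨A, h8, h9⟩ := herm_ts hΦ rfl hg (s := Multiset.replicate (min (a / 2) m) (X - C c) +
          Multiset.replicate (m - a / 2) (X - C (-c))) (by
            rw [h5, Multiset.map_add, Multiset.map_replicate, Multiset.map_replicate, dual_lin_norm h6,
              dual_lin_norm (by rw [hq'.add_one.neg_pow, h6]), add_add_add_comm,
              ← Multiset.replicate_add, ← Multiset.replicate_add]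
            exact add_le_add ((Multiset.replicate_le_replicate _).2 (by omega))
              ((Multiset.replicate_le_replicate _).2 (by omega)))
        exact ⟨A, by rw [h8]; simp [-map_neg]; omega, h9⟩
      · obtain ⟨A, h8, h9⟩ := herm_ts hΦ rfl hg (s := Multiset.replicate m (X - C c)) (by
          rw [h5, Multiset.map_replicate, dual_lin_neg h6]
          exact add_le_add ((Multiset.replicate_le_replicate _).2 (by omega))
            ((Multiset.replicate_le_replicate _).2 (by omega)))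
        exact ⟨A, by simpa using h8, h9⟩
  have h3 : 2 < r := lt_of_le_of_ne hr.two_le (Ne.symm h2)
  simp only [hrp, h2, h3, false_and, true_and, ne_eq, not_false_eq_true, false_or]
  obtain ⟨h4, l, h5, h6, h7⟩ := Tr_conj_cases hq hr h2 hr0 hi hb hc
  have h8 : i = 2 ↔ r ∣ q + 1 := hi ▸ orderOf_eq_two_iff_dvd hr h2
  obtain ⟨j, h10, h11, h12⟩ := exists_c_dvd hr h2 hq2 hi hc hrΩ (Nat.coprime_one_right _) hcard
  have h13 : n % c ≤ n - j := mod_le_of_dvd_sub (by omega) (by rwa [Nat.sub_sub_self (by omega)])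
  have h14 := ts_Tr_iff hΦ hr hr0 h7 h4 h5 hV (m := m) (by
    have := Nat.le_of_dvd (by omega) h12; omega) (by omega) hmn
    (fun s k h6 h7 h8 => exists_herm_Tr hΦ rfl hr hr0 h6 h7 (by rw [← h4, h8, hV]))
    fun g s hg _ h => herm_ts hΦ rfl hg h
  by_cases h9 : i = 2
  swap
  · rw [herm_forall_coprime hΦ hr (mt h8.2 h9) _
      fun c g hc ⟨W, h1, h2, h3⟩ => ⟨W, h1, h2, (smul_inv_iff hc).1 h3⟩, h14, Ne, h6]
    have : i % 4 = 2 → 2 < i := by omega
    tauto
  obtain rfl : b = 1 := by simp [hb, h9]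
  obtain rfl : l = 1 := h6.2 (by omega)
  have h15 := (h7.resolve_right (by simp)).2
  simp only [h5, h9, Nat.mod_one, Nat.div_one, hm, mul_zero, le_refl, true_and, ne_eq,
    not_true_eq_false, false_or, lt_irrefl, mul_one] at h14 ⊢
  constructor
  · intro h
    refine ⟨not_lt.1 fun h16 => ?_, or_iff_not_imp_right.2 fun h16 => ?_⟩
    · obtain ⟨t, ht⟩ := hr.odd_of_ne_two h2
      obtain ⟨ρ, h17, h18, h19, h20⟩ := exists_sym_nodup hr h2 hr0 h4.symm (M := e / 2 + 1) (by omega)
      have h21 : ρ.map (dual (conj hq)) = ρ :=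
        (Multiset.map_congr rfl fun a ha => h15 a (h18 a ha)).trans (Multiset.map_id' _)
      obtain ⟨g, hg, h22⟩ := exists_herm_Tr hΦ rfl hr hr0 h18 h21 (k := n - ρ.card)
        (by rw [← h4, hV]; omega)
      have h23 := (pow_of_ed_Tr hr h18 (by rintro rfl; simp at h20) h22).1
      obtain ⟨f, hf⟩ := Multiset.exists_mem_of_ne_zero (s := ρ) (by rintro rfl; simp at h20)
      obtain ⟨A, h24, h25, hA⟩ := h g ⟨hg, det_eq_one_of_rev ⟨t, ht⟩ h23 (by
        rw [h22, Multiset.map_add, h19, Multiset.map_replicate, rev_lin (by simp)])⟩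
        ⟨1, by simpa using h23⟩ (not_scalar_of_ne (a := f) (b := rev f) (fun e => by
          simpa [← h4] using (rev_eq_self_iff hr h2 hr0 (h18 f hf)).1 ((dual_id f).trans e.symm))
          (by simp [h22, hf]) (h22 ▸ Multiset.mem_add.2 (Or.inl (h19 ▸ Multiset.mem_map_of_mem _ hf))))
      obtain ⟨ν, w, h26, h27, h28, -⟩ := ts_Tr_le hΦ hr hr0 hg h18 h22 hA h25.1
      have := card_le_of_double (u := 0) (x := f) h17
        (by simpa using hid h26 fun a ha => h15 a (h18 a ha))
      rw [← h4] at h28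
      omega
    · obtain ⟨g, h17, h18, h19, h20⟩ := exists_nonsplit_herm hΦ rfl h2 (h8.1 h9) (by rw [hV]; omega)
      obtain ⟨A, h21, -, hA⟩ := h g h17 h18 h19
      exact h21 ▸ h20 A hA
  · rintro ⟨h16, h17⟩ g ⟨hg, h18⟩ ⟨z, hz⟩ h19
    obtain ⟨c, hc, h20, h21⟩ | ⟨k, h20, h21, h22, h23⟩ := herm_odd_cases hΦ h2 hg h18 hz
    · obtain ⟨A, h22, h23, hA⟩ := h14.2 h16 _ h20 h21 fun e => h19 c⁻¹ (by rw [← e, inv_smul_smul₀ hc])
      exact ⟨A, h22, h23, (smul_inv_iff hc).1 hA⟩
    rw [hV] at h21 h23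
    obtain ⟨j, rfl⟩ := h17.resolve_right (by omega)
    obtain ⟨A, h24, h25⟩ := herm_ts hΦ rfl hg (s := Multiset.replicate j (X ^ r - C z)) (by
      rw [h20, Multiset.map_replicate, h22, ← Multiset.replicate_add]
      exact (Multiset.replicate_le_replicate _).2 (by nlinarith))
    exact ⟨A, by simpa [mul_comm] using h24, h25⟩

end Cfsg.Agent.S5953
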