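import Cfsg.Statements.S5954
import Cfsg.Agent.H16.LA27
-- import your own Cfsg.Agent.* helpers here

set_option autoImplicit false
open scoped MatrixGroups
open Cfsg

namespace Cfsg.Agent.S5954

open H16 H14.Wall H23 H23.Form Polynomial Module in
/-- Elements of prime order of PSU_n(q) with no fixed nondegenerate `m`-space. Here `T = PSU_n(q)` (`n ≥ 3`, `(n, q) ≠ (3, 2)`), realised through the matrices of determinant 1 over the field `F` with `q²` elements preserving the Hermitian form `h(u, v) = Σ u_i v_i^q`; an element of `T` of prime order `r` is such a matrix `x` with `x^r` scalar and `x` not scalar. For `r ≠ p` let `i` be the multiplicative order of `q` modulo `r`, `b = i/2` for `i` even and `b = i` for `i` odd, `c = i, i/2, 2i` according as `i ≡ 0, 2 (mod 4)` or `i` odd, and write `k = n mod c`, `ℓ = m mod b`, `ℓ' = m mod c`, `n' = ⌊n/b⌋`, `m' = ⌊m/b⌋`, `s = (r−1)/b`; `(a)_r` is the `r`-part of `a`. Let `1 ≤ m < n/2` and let `r` be a prime dividing the number of nondegenerate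 `m`-spaces. Then every element of `T` of order `r` fixes a nondegenerate `m`-space if and only if one of: (i) `r = p > 2` and every partition of `n` into parts of size at most `p` contains (as a sub-multiset) a partition of `m`; (ii) `r = p = 2` and (`n` is odd or `m` is even); (iii) `r = 2 ≠ p` and (`n` is odd, or `m` is even, or `(q+1)_2 ≥ (n)_2` and `q ≡ 3 (mod 4)`); (iv) `r ≠ p`, `r > 2`, and either `i ≠ 2`, `c ≤ m` and `k ≥ ℓ'`, or `i = 2` and (`r ∣ m` or `(q+1)_r ≥ (n)_r`). -/
theorem result {F : Type*} [Field F] [Fintype F] {p : ℕ} [Fact p.Prime] [CharP F p] {q : ℕ} (hq : Fintype.card F = q ^ 2)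
    (n m : ℕ) (hn : 3 ≤ n) (hT : (n, q) ≠ (3, 2)) (hm : 1 ≤ m) (hmn : 2 * m < n)
    (r : ℕ) [Fact r.Prime]
    (hrΩ : r ∣ Nat.card {W : Submodule F (Fin n → F) // Module.finrank F ↥W = m ∧ (∀ u ∈ W, u ≠ 0 → ∃ v ∈ W, Cfsg.hermForm n F q u v ≠ 0)})
    (i b c : ℕ) (hi : i = orderOf (q : ZMod r)) (hb : b = if Even i then i / 2 else i)
    (hc : c = if i % 4 = 0 then i else if i % 4 = 2 then i / 2 else 2 * i) :
    (∀ x : Matrix.SpecialLinearGroup (Fin n) F, x ∈ Cfsg.SU n F q →
      (∃ z : F, ((x ^ r : Matrix.SpecialLinearGroup (Fin n) F) : Matrix (Fin n) (Fin n) F) = z • (1 : Matrix (Fin n) (Fin n) F)) →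
      (∀ z : F, (x : Matrix (Fin n) (Fin n) F) ≠ z • (1 : Matrix (Fin n) (Fin n) F)) →
      ∃ W : Submodule F (Fin n → F), Module.finrank F ↥W = m ∧ (∀ u ∈ W, u ≠ 0 → ∃ v ∈ W, Cfsg.hermForm n F q u v ≠ 0) ∧
        W.map (Matrix.toLin' (x : Matrix (Fin n) (Fin n) F)) ≤ W) ↔
    ((r = p ∧ 2 < p ∧ (∀ μ : Multiset ℕ, (∀ a ∈ μ, 0 < a ∧ a ≤ p) → μ.sum = n → ∃ ν : Multiset ℕ, ν ≤ μ ∧ ν.sum = m)) ∨
     (r = p ∧ p = 2 ∧ (Odd n ∨ Even m)) ∨
     (r = 2 ∧ p ≠ 2 ∧ (Odd n ∨ Even m ∨ (padicValNat 2 n ≤ padicValNat 2 (q + 1) ∧ q % 4 = 3))) ∨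
     (r ≠ p ∧ 2 < r ∧ ((i ≠ 2 ∧ c ≤ m ∧ m % c ≤ n % c) ∨ (i = 2 ∧ (r ∣ m ∨ padicValNat r n ≤ padicValNat r (q + 1)))))) := by
  classical
  simp only [herm_nd_iff hq] at hrΩ ⊢
  have hr : r.Prime := Fact.out
  have hp : p.Prime := Fact.out
  have hq2 := two_le_of_card_eq_sq hq
  have : Nonempty (Fin n) := ⟨⟨0, by omega⟩⟩
  have hΦ := huForm_nondeg hq n
  have hV : finrank F (Fin n → F) = n := by simp
  refine (su_forall_iff hq (fun g => ∃ W : Submodule F _, finrank F W = m ∧
    ((huForm hq n).restrict W).Nondeg ∧ W.map g ≤ W)).trans ?_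
  simp only [map_le_iff_inv]
  have hco : ¬ r ∣ q + 1 → _ := fun h => herm_forall_coprime hΦ hr h (fun g => ∃ W : Submodule F _,
    finrank F W = m ∧ ((huForm hq n).restrict W).Nondeg ∧ ∀ x ∈ W, g x ∈ W)
    fun c g hc ⟨W, h1, h2, h3⟩ => ⟨W, h1, h2, (smul_inv_iff hc).1 h3⟩
  have hpq : p ∣ q := hp.dvd_of_dvd_pow (n := 2) ((CharP.cast_eq_zero_iff F p _).1 (by simp [← hq]))
  by_cases hrp : r = p
  · subst hrp
    rw [hco fun h => hr.one_lt.ne' (Nat.dvd_one.1 ((Nat.dvd_add_right hpq).1 h))]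
    refine Iff.trans (b := ∀ μ : Multiset ℕ, (∀ a ∈ μ, 0 < a ∧ a ≤ r) → μ.sum = n →
      ∃ ν ≤ μ, ν.sum = m) ⟨fun h μ h3 h5 => ?_, fun h g hg h3 _ => ?_⟩ ?_
    · by_cases h6 : ∀ a ∈ μ, a = 1
      · obtain ⟨k, rfl⟩ : ∃ k, μ = Multiset.replicate k 1 := ⟨_, Multiset.eq_replicate_card.2 h6⟩
        exact ⟨Multiset.replicate m 1, (Multiset.replicate_le_replicate _).2
          (by simp at h5; omega), by simp⟩
      push Not at h6
      obtain ⟨a, h7, h8⟩ := h6
      obtain ⟨g, hg, h9⟩ := exists_herm hΦ rfl (s := uni F μ) (uni_isPP fun a ha => (h3 a ha).1)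
        (fun p hp => by obtain ⟨a, -, rfl⟩ := Multiset.mem_map.1 hp; simp [coeff_zero_eq_eval_zero])
        (dual_uni _ _) (by rw [uni_natDegree, h5, hV])
      obtain ⟨A, h10, h11, hA⟩ := h g hg (pow_of_ed_uni r h9 fun a ha => (h3 a ha).2)
        (by simpa using not_scalar_of_uni h9 h7 h8 1)
      obtain ⟨ν, h12, h13, -⟩ := uni_le_of_nd r hΦ hg h9 hA h11
      exact ⟨ν, h12, h13.trans h10⟩
    · obtain ⟨μ, h4, h5, h6⟩ := ed_uni_of_pow r h3
      obtain ⟨ν, h7, h8⟩ := h μ h4 (h5.trans hV)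
      obtain ⟨A, h9, h10⟩ := herm_nd hΦ rfl hg (h6 ▸ Multiset.map_le_map h7) (dual_uni _ ν)
      exact ⟨A, by rw [h9, uni_natDegree, h8], h10⟩
    by_cases h2 : r = 2
    swap
    · simp [h2, lt_of_le_of_ne hr.two_le (Ne.symm h2)]
    subst h2
    simp only [lt_irrefl, false_and, and_false, true_and, ne_eq, not_true_eq_false, false_or,
      or_false, Nat.odd_iff, Nat.even_iff]
    constructor
    · intro h
      by_contra h1
      obtain ⟨ν, h2, h3⟩ := h (Multiset.replicate (n / 2) 2)
        (fun a ha => by simp [Multiset.eq_of_mem_replicate ha]) (by simp; omega)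
      obtain ⟨k, -, rfl⟩ := Multiset.le_replicate_iff.1 h2
      simp at h3; omega
    · intro h μ h1 h2
      obtain ⟨s, k, rfl⟩ := exists_rep_of_mem' (a := 2) (b := 1) (μ := μ) fun e he => by
        have := h1 e he; omega
      simp at h2
      refine ⟨Multiset.replicate (min s (m / 2)) 2 + Multiset.replicate (m - min s (m / 2) * 2) 1,
        add_le_add ((Multiset.replicate_le_replicate _).2 (by omega))
          ((Multiset.replicate_le_replicate _).2 (by omega)), ?_⟩
      simp only [Multiset.sum_add, Multiset.sum_replicate, smul_eq_mul]; omega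
  have hr0 : (r : F) ≠ 0 := cast_ne_zero_of_ne p hr hrp
  have key : ∀ g, Pres (huForm hq n) g → (∀ a ∈ ed g, a.natDegree = 1 ∧
      dual (conj hq) a = a) → ∃ W : Submodule F _, finrank F W = m ∧
        ((huForm hq n).restrict W).Nondeg ∧ ∀ x ∈ W, g x ∈ W := by
    intro g hg h
    have h1 : ∀ s ≤ ed g, (s.map natDegree).sum = s.card := fun s hs => by
      rw [Multiset.map_congr rfl fun a ha => (h a (Multiset.mem_of_le hs ha)).1]; simp
    obtain ⟨t, u, h2, h3⟩ := exists_le_card (s := ed g) (k := m) (by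
      rw [← h1 _ le_rfl, sum_natDegree_ed]; omega)
    have h4 : t ≤ ed g := h2 ▸ Multiset.le_add_right _ _
    obtain ⟨A, h5, h6⟩ := herm_nd hΦ rfl hg h4 ((Multiset.map_congr rfl fun a ha =>
      (h a (Multiset.mem_of_le h4 ha)).2).trans (Multiset.map_id' _))
    exact ⟨A, by rw [h5, h1 t h4, h3], h6⟩
  have hlin : ∀ c : F, c ^ (q + 1) = 1 → dual (conj hq) (X - C c) = X - C c := fun c hc => by
    rw [dual_X_sub_C _ (by rintro rfl; simp at hc), conj_apply,
      inv_eq_of_mul_eq_one_right ((pow_succ c q).symm.trans hc)]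
  by_cases h2 : r = 2
  · subst h2
    have h2 : (2 : F) ≠ 0 := by simpa using hr0
    have hq' : Odd q := by
      have := odd_card_of_two_ne_zero h2
      rwa [hq, ← Nat.odd_iff, Nat.odd_pow_iff two_ne_zero] at this
    have hd : ∀ (c : F) k, c ^ (q + 1) = -1 → (Multiset.replicate k (X - C c)).map
        (dual (conj hq)) = Multiset.replicate k (X - C (-c)) := fun c k hc => by
      rw [Multiset.map_replicate, dual_X_sub_C _ (by rintro rfl; simp at hc), conj_apply,
        inv_eq_of_mul_eq_one_right (b := -c) (by rw [mul_neg, ← pow_succ, hc, neg_neg])]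
    simp only [hrp, Ne.symm hrp, lt_irrefl, false_and, and_false, true_and, ne_eq,
      not_false_eq_true, false_or, or_false]
    constructor
    · intro h
      by_contra h3
      simp only [not_or, Nat.not_odd_iff_even, Nat.not_even_iff_odd, not_and'] at h3
      obtain ⟨⟨k, rfl⟩, h4, h5⟩ := h3
      obtain ⟨c, h6, h7⟩ := (exists_norm_neg_sq_iff hq hq' (k := k) (by omega)).2 (by
        have := Nat.odd_iff.1 hq'
        rw [two_mul]; omega)
      have hc : c ≠ 0 := by rintro rfl; simp at h6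
      have h8 := rs_hyp (huForm hq (k + k)) (s := Multiset.replicate k (X - C c))
        (fun p hp => Multiset.eq_of_mem_replicate hp ▸ isPP_of_irred (monic_X_sub_C _)
          (irreducible_X_sub_C _)) fun p hp => by simp [Multiset.eq_of_mem_replicate hp, hc]
      obtain ⟨g, hg, h9⟩ := h8.exists_herm (conj_ne_id hq) hΦ (by simp [hd c k h6, -map_neg])
      rw [hd c k h6] at h9
      have h10 : g ^ 2 = (c ^ 2) • (1 : End F _) := (ed_dvd_iff g 2 _).2 fun p hp => by
        rw [h9, Multiset.mem_add] at hp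
        rcases hp with hp | hp <;> rw [Multiset.eq_of_mem_replicate hp, dvd_iff_isRoot] <;> simp
      have h11 : k ≠ 0 := by omega
      obtain ⟨A, h12, h13, hA⟩ := h g ⟨hg, (det_of_lin h9).trans h7⟩ ⟨_, h10⟩
        (not_scalar_of_ne (lin_ne_neg h2 hc)
          (h9 ▸ Multiset.mem_add.2 (Or.inl (Multiset.mem_replicate.2 ⟨h11, rfl⟩)))
          (h9 ▸ Multiset.mem_add.2 (Or.inr (Multiset.mem_replicate.2 ⟨h11, rfl⟩))))
      have : Nontrivial A := Module.nontrivial_of_finrank_pos (R := F) (by omega)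
      obtain ⟨d, a, b, h14, h15, h16 | ⟨-, rfl⟩⟩ := herm_sq_cases h2 h13 (hg.restrict hA)
        (restrict_pow_eq hA h10)
      · obtain ⟨f, hf⟩ := Multiset.exists_mem_of_ne_zero (s := ed (g.restrict hA))
          (by rw [Ne, ed_eq_zero_iff]; omega)
        have h17 := Multiset.mem_of_le (h9 ▸ (ss_of_pow h2 (pow_ne_zero _ hc) h10).ed_restrict_le hA) hf
        rw [h15] at hf
        have h18 : d ^ (q + 1) = c ^ (q + 1) := by
          rcases Multiset.mem_add.1 hf with hf | hf <;> rcases Multiset.mem_add.1 h17 with h | h <;>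
            have := C_injective (sub_right_injective ((Multiset.eq_of_mem_replicate hf).symm.trans
              (Multiset.eq_of_mem_replicate h)))
          · rw [this]
          · rw [this, hq'.add_one.neg_pow]
          · rw [← this, hq'.add_one.neg_pow]
          · rw [neg_injective this]
        exact h2 (by linear_combination h16.symm.trans (h18.trans h6))
      · have := Nat.odd_iff.1 h4; omega
    · rintro h g ⟨hg, h3⟩ ⟨z, hz⟩ -
      obtain ⟨c, a, b, h4, h5, h6 | ⟨h6, rfl⟩⟩ := herm_sq_cases h2 hΦ hg hz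
      · refine key g hg fun f hf => ?_
        rw [h5, Multiset.mem_add] at hf
        rcases hf with hf | hf <;> rw [Multiset.eq_of_mem_replicate hf]
        · exact ⟨natDegree_X_sub_C _, hlin c h6⟩
        · exact ⟨natDegree_X_sub_C _, hlin _ (by rw [hq'.add_one.neg_pow, h6])⟩
      rw [hV] at h4
      obtain ⟨k, hk⟩ : Even m := by
        have := (exists_norm_neg_sq_iff hq hq' (k := a) (by omega)).1
          ⟨c, h6, (det_of_lin h5).symm.trans h3⟩
        rw [two_mul, h4] at this
        rcases h with h | h | h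
        · have := Nat.odd_iff.1 h; omega
        · exact h
        · omega
      obtain ⟨A, h7, h8⟩ := herm_nd hΦ rfl hg (s := Multiset.replicate k (X - C c) +
        Multiset.replicate k (X - C (-c))) ((add_le_add ((Multiset.replicate_le_replicate _).2
          (by omega)) ((Multiset.replicate_le_replicate _).2 (by omega))).trans h5.ge) (by
            rw [Multiset.map_add, hd c k h6, hd _ k (by rw [hq'.add_one.neg_pow, h6]), neg_neg,
              add_comm])
      exact ⟨A, by simpa [hk, -map_neg] using h7, h8⟩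
  have h3 : 2 < r := lt_of_le_of_ne hr.two_le (Ne.symm h2)
  simp only [hrp, h2, h3, false_and, true_and, ne_eq, not_false_eq_true, false_or]
  obtain ⟨h4, l, h5, h6, h7⟩ := Tr_conj_cases hq hr h2 hr0 hi hb hc
  have h8 : i = 2 ↔ r ∣ q + 1 := hi ▸ orderOf_eq_two_iff_dvd hr h2
  by_cases h9 : i = 2
  · simp only [h9, not_true_eq_false, false_and, true_and, false_or]
    have h10 := h8.1 h9
    constructor
    · intro h
      by_contra h11
      rw [not_or, not_le] at h11
      obtain ⟨k, rfl⟩ : r ∣ n := dvd_of_one_le_padicValNat (by omega)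
      have hk : k ≠ 0 := by rintro rfl; simp at hn
      rw [padicValNat.mul hr.ne_zero hk, padicValNat_self] at h11
      obtain ⟨z, h12, h13, h14⟩ := (exists_nonsplit_norm_iff hq h2 h10 hk).2 (by omega)
      have h15 := X_pow_sub_C_irreducible_of_prime hr h14
      obtain ⟨g, hg, h16⟩ := exists_herm hΦ rfl (s := Multiset.replicate k (X ^ r - C z))
        (fun p hp => Multiset.eq_of_mem_replicate hp ▸ isPP_of_irred (monic_X_pow_sub_C _ hr.ne_zero)
          h15) (fun p hp => by
            rw [Multiset.eq_of_mem_replicate hp]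
            exact coeff_ne_zero_of_dvd hr.ne_zero (by rintro rfl; simp at h12) dvd_rfl)
        (by rw [Multiset.map_replicate, dual_pow_sub_C _ ((conj_mul_self hq z).trans h12) hr.ne_zero])
        (by simp [mul_comm])
      have h17 : g ^ r = z • (1 : End F _) := (ed_dvd_iff g r z).2 fun p hp => by
        rw [h16] at hp; rw [Multiset.eq_of_mem_replicate hp]
      obtain ⟨A, h18, -, hA⟩ := h g ⟨hg, (det_of_nonsplit (hr.odd_of_ne_two h2) h16).trans h13⟩
        ⟨z, h17⟩ fun c => not_scalar_of_mem (q := X ^ r - C z) (h16 ▸ Multiset.mem_replicate.2 ⟨hk, rfl⟩) fun e => by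
          have := congrArg natDegree e
          rw [natDegree_X_pow_sub_C, natDegree_X_sub_C] at this; omega
      obtain ⟨j, -, h19⟩ := ed_nonsplit hr h14 (restrict_pow_eq hA h17)
      exact h11.1 ⟨j, by rw [← h18, h19, mul_comm]⟩
    · rintro h g ⟨hg, h11⟩ ⟨z, hz⟩ -
      have h12 := herm_scalar hΦ hg hz
      obtain ⟨c, h13, rfl⟩ | ⟨-, -, h13⟩ | ⟨h13, -⟩ := norm_cases hq hr h12
      · have hc : c ≠ 0 := by rintro rfl; simp at h13
        have h14 := pres_smul_herm hg (c := c⁻¹) (by rw [inv_pow, h13, inv_one])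
        obtain ⟨s, k, h15, -, -, -, h16⟩ := exists_Tr_ed hr hr0 hΦ h14 (by
          rw [_root_.smul_pow, hz, smul_smul, ← mul_pow, inv_mul_cancel₀ hc, one_pow, one_smul])
        obtain ⟨W, h17, h18, h19⟩ := key _ h14 fun f hf => by
          rw [h16, Multiset.mem_add] at hf
          rcases hf with hf | hf
          · exact ⟨by rw [(Tr_spec hr hr0).2.2 f (h15 f hf), ← h4, hb, h9]; rfl,
              (conj_dual_iff hr h2 hr0 (h15 f hf)).2 (by rw [← hi, h9])⟩
          · rw [Multiset.eq_of_mem_replicate hf]; exact ⟨natDegree_X_sub_C _, dual_lin_one _⟩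
        exact ⟨W, h17, h18, (smul_inv_iff (inv_ne_zero hc)).1 h19⟩
      · obtain ⟨k, h14, h15⟩ := ed_nonsplit hr h13 hz
        rw [hV] at h15
        have hk : k ≠ 0 := by rintro rfl; omega
        have h16 := (exists_nonsplit_norm_iff hq h2 h10 hk).1
          ⟨z, h12, (det_of_nonsplit (hr.odd_of_ne_two h2) h14).symm.trans h11, h13⟩
        rw [h15, padicValNat.mul hk hr.ne_zero, padicValNat_self] at h
        obtain ⟨j, rfl⟩ := h.resolve_right (by omega)
        obtain ⟨A, h17, h18⟩ := herm_nd hΦ rfl hg (s := Multiset.replicate j (X ^ r - C z))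
          (((Multiset.replicate_le_replicate _).2 (by nlinarith)).trans h14.ge)
          (by rw [Multiset.map_replicate, dual_pow_sub_C _ ((conj_mul_self hq z).trans h12) hr.ne_zero])
        exact ⟨A, by simpa [mul_comm] using h17, h18⟩
      · exact absurd h13 h2
  obtain ⟨e, rfl⟩ : ∃ e, n = e + m := ⟨n - m, by omega⟩
  obtain ⟨j, h10, h11, h12⟩ := exists_c_dvd hr h2 hq2 hi hc hrΩ
    (((coprime_card_of_cast hr hr0).coprime_dvd_right (hq ▸ dvd_pow_self q two_ne_zero)).pow_right _)
    (card_nd_herm hΦ rfl hV)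
  have h13 : (e + m) % c ≤ e + m - j := mod_le_of_dvd_sub (by omega) (by rwa [Nat.sub_sub_self h11])
  have h14 := nd_Tr_iff hΦ hr hr0 h7 (h4 ▸ h5) (m := m) (by
    have := Nat.le_of_dvd (by omega) h12; omega) (by rw [hV]; omega) (by omega) (fun _ => True)
    (fun W => finrank F W = m ∧ ((huForm hq (e + m)).restrict W).Nondeg) (fun _ h => h)
    (fun s h6 h7 h8 => by simpa using exists_herm_Tr hΦ rfl hr hr0 h6 h7 h8)
    fun g s k ν w hg _ _ h7 h8 h9 h10 h11 h12 => by
      obtain ⟨A, h14, h15, hA⟩ := herm_nd hΦ rfl hg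
        (h8 ▸ add_le_add h9 ((Multiset.replicate_le_replicate _).2 h11))
        (by rw [Multiset.map_add, h10, Multiset.map_replicate, dual_lin_one])
      exact ⟨A, ⟨by rw [h14, sum_deg_add hr hr0 fun a ha => h7 a (Multiset.mem_of_le h9 ha), h12],
        h15⟩, hA⟩
  simp only [and_assoc, forall_const, hV] at h14
  rw [hco (mt h8.2 h9), h14]
  simp [h9]

end Cfsg.Agent.S5954
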