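import Cfsg.Statements.S5955
import Cfsg.Agent.H16.LA24
-- import your own Cfsg.Agent.* helpers here

set_option autoImplicit false
open scoped MatrixGroups
open Cfsg

namespace Cfsg.Agent.S5955

open H16 H14.Wall H23 H23.Form Polynomial Module in
/-- Elements of prime order of PSp_n(q) with no fixed totally isotropic `m`-space. Here `T = PSp_n(q)` with `n = 2d ≥ 4`, `(n, q) ≠ (4, 2)`, realised through the symplectic matrices over the field `F` with `q` elements (preserving the standard alternating form); an element of `T` of prime order `r` is such a matrix `x` with `x^r` scalar and `x` not scalar. For `r ≠ p` let `i` be the multiplicative order of `q` modulo `r`, `c = i` for `i` even and `c = 2i` for `i` odd, and write `k = n mod c`, `ℓ = m mod i`, `ℓ' = m mod c`, `n' = ⌊n/i⌋`, `m' = ⌊m/i⌋`, `t = (r−1)/i`. Let `1 ≤ m ≤ n/2` and let `r` be a prime dividing the number of totally isotropic `m`-spaces. Then every element of `T` of order `r` fixes a totally isotropic `m`-space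 if and only if either (i) `r = 2 ≠ p` and (`m` is even or `q ≡ 1 (mod 4)`); or (ii) `r ≠ p`, `r > 2`, `i ≤ m`, `k ≥ 2ℓ`, and (`i` is odd or `n' − 2m' ≥ t`). -/
theorem result {F : Type*} [Field F] [Fintype F] {p : ℕ} [Fact p.Prime] [CharP F p] {q : ℕ} (hq : Fintype.card F = q)
    (d m : ℕ) (hd : 2 ≤ d) (hT : (d, q) ≠ (2, 2)) (hm : 1 ≤ m) (hmd : m ≤ d)
    (r : ℕ) [Fact r.Prime]
    (hrΩ : r ∣ Nat.card {W : Submodule F (Fin d ⊕ Fin d → F) // Module.finrank F ↥W = m ∧ (∀ u ∈ W, ∀ v ∈ W, Cfsg.sympForm d F u v = 0)})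
    (i c : ℕ) (hi : i = orderOf (q : ZMod r)) (hc : c = if Even i then i else 2 * i) :
    (∀ x : ↥(Matrix.symplecticGroup (Fin d) F),
      (∃ z : F, ((x ^ r : ↥(Matrix.symplecticGroup (Fin d) F)) : Matrix (Fin d ⊕ Fin d) (Fin d ⊕ Fin d) F) = z • (1 : Matrix (Fin d ⊕ Fin d) (Fin d ⊕ Fin d) F)) →
      (∀ z : F, (x : Matrix (Fin d ⊕ Fin d) (Fin d ⊕ Fin d) F) ≠ z • (1 : Matrix (Fin d ⊕ Fin d) (Fin d ⊕ Fin d) F)) →
      ∃ W : Submodule F (Fin d ⊕ Fin d → F), Module.finrank F ↥W = m ∧ (∀ u ∈ W, ∀ v ∈ W, Cfsg.sympForm d F u v = 0) ∧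
        W.map (Matrix.toLin' (x : Matrix (Fin d ⊕ Fin d) (Fin d ⊕ Fin d) F)) ≤ W) ↔
    ((r = 2 ∧ p ≠ 2 ∧ (Even m ∨ q % 4 = 1)) ∨
     (r ≠ p ∧ 2 < r ∧ i ≤ m ∧ 2 * (m % i) ≤ (2 * d) % c ∧ (Odd i ∨ (r - 1) / i + 2 * (m / i) ≤ (2 * d) / i))) := by
  classical
  subst hq
  simp only [← spForm_B] at hrΩ ⊢
  have hr : r.Prime := Fact.out
  have := nontrivial_sp (F := F) (d := d) (by omega)
  have hΦ := spForm_nondeg (F := F) d
  have hV := finrank_sp (F := F) d
  obtain ⟨e, rfl⟩ : ∃ e, d = e + m := ⟨d - m, by omega⟩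
  have hcard := card_ts_alt hΦ rfl rfl hV
  have hq1 : 1 < Fintype.card F := Fintype.one_lt_card
  have hdvd : r * (1 * qf (Fintype.card F ^ 2) e) ∣ 1 * qf (Fintype.card F ^ 2) (e + m) := by
    rw [one_mul, one_mul, ← hcard]; exact mul_dvd_mul hrΩ (dvd_mul_left _ _)
  have hrp : r ≠ p := by
    rintro rfl
    exact not_dvd_qf hr (dvd_pow ((CharP.cast_eq_zero_iff F r _).1 (by simp)) two_ne_zero)
      (by positivity) _ (one_mul (qf _ _) ▸ (dvd_mul_right _ _).trans hdvd)
  have hr0 : (r : F) ≠ 0 := cast_ne_zero_of_ne p hr hrp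
  obtain ⟨j, hj, h1⟩ := exists_of_dvd_qf (Nat.one_lt_pow two_ne_zero hq1) hr hdvd one_ne_zero
  rw [← c_dvd_iff (by omega) hi hc] at h1
  refine (sp_forall_iff (fun g => ∃ W : Submodule F _, finrank F W = m ∧
    (∀ u ∈ W, ∀ v ∈ W, (spForm (e + m) F).B u v = 0) ∧ W.map g ≤ W)).trans ?_
  simp only [map_le_iff_inv]
  have key : ∀ {g} {s : Multiset F[X]}, Pres (spForm (e + m) F) g → SS g → s + s.map rev ≤ ed g →
      (s.map natDegree).sum = m → ∃ W : Submodule F _, finrank F W = m ∧
        (∀ u ∈ W, ∀ v ∈ W, (spForm (e + m) F).B u v = 0) ∧ ∀ x ∈ W, g x ∈ W := by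
    intro g s h1 h2 h3 h4
    obtain ⟨A, -, hA, -, h5, -, -, h6, -⟩ := alt_ts hΦ rfl rfl h1 h2 h3
    exact ⟨A, by rw [finrank_eq_sum_ed hA, h6, h4], h5.1, hA⟩
  by_cases h2 : r = 2
  · subst h2
    have h2 : (2 : F) ≠ 0 := by simpa using hr0
    have h3 := exists_sq_eq_neg_one_iff (F := F) (by
      have := odd_card_of_two_ne_zero h2; omega)
    simp only [true_and, ne_eq, hrp.symm, not_false_eq_true, lt_irrefl, false_and, and_false,
      or_false, ← h3]
    constructor
    · intro h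
      by_contra h4
      push Not at h4
      have h5 := X_pow_sub_C_irreducible_of_prime Nat.prime_two h4.2
      obtain ⟨g, hg, h6⟩ := exists_alt_of_as hΦ rfl rfl (fun q hq => by
        rw [Multiset.eq_of_mem_replicate hq]
        exact ⟨monic_X_pow_sub_C _ two_ne_zero, h5, by simp⟩) (as_sq_add_one (e + m))
        (by simp [hV, -map_neg, mul_comm])
      have h7 := (ed_dvd_iff g 2 (-1)).2 fun q hq => by
        rw [h6] at hq; rw [Multiset.eq_of_mem_replicate hq]
      obtain ⟨W, h8, -, h9⟩ := h g hg ⟨_, h7⟩ fun z => not_scalar_of_mem (q := X ^ 2 - C (-1))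
        (by rw [h6]; exact Multiset.mem_replicate.2 ⟨by omega, rfl⟩) fun e => by
          simpa [-map_neg] using congrArg natDegree e
      obtain ⟨k, -, h10⟩ := Multiset.le_replicate_iff.1
        (h6 ▸ (ss_of_pow hr0 (by simp) h7).ed_restrict_le h9)
      rw [finrank_eq_sum_ed h9, h10] at h8
      simp [-map_neg] at h8
      exact h4.1 ⟨k, by omega⟩
    · rintro h g hg ⟨z, hz⟩ -
      obtain ⟨hs, ⟨a, b, h4, h5⟩ | ⟨c, h4, h5⟩ | ⟨h4, h5⟩⟩ := alt_sq_cases h2 hΦ rfl hg hz hV
      · refine key (s := Multiset.replicate (min a m) (X - C 1) +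
          Multiset.replicate (m - a) (X - C (-1))) hg hs ?_ (by simp [-map_one, -map_neg]; omega)
        rw [h5, Multiset.map_add, Multiset.map_replicate, Multiset.map_replicate, rev_lin (by simp),
          rev_lin (by simp), add_add_add_comm, ← Multiset.replicate_add, ← Multiset.replicate_add]
        exact add_le_add ((Multiset.replicate_le_replicate _).2 (by omega))
          ((Multiset.replicate_le_replicate _).2 (by omega))
      · refine key (s := Multiset.replicate m (X - C c)) hg hs ?_ (by simp)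
        rw [h5, Multiset.map_replicate, rev_X_sub_C (by rintro rfl; simp at h4),
          show c⁻¹ = -c from inv_eq_of_mul_eq_one_left (by linear_combination -h4), nsmul_add,
          Multiset.nsmul_singleton, Multiset.nsmul_singleton]
        exact add_le_add ((Multiset.replicate_le_replicate _).2 (by omega))
          ((Multiset.replicate_le_replicate _).2 (by omega))
      · obtain ⟨k, hk⟩ := h.resolve_right fun ⟨c, hc⟩ => h4 c hc
        refine key (s := Multiset.replicate k (X ^ 2 - C (-1))) hg hs ?_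
          (by simp [-map_neg]; omega)
        rw [h5, Multiset.map_replicate, rev_sq_add_one, ← Multiset.replicate_add]
        exact (Multiset.replicate_le_replicate _).2 (by omega)
  have h3 : 2 < r := lt_of_le_of_ne hr.two_le (Ne.symm h2)
  rw [forall_odd_iff hΦ (hr.odd_of_ne_two h2) _ fun c g hc ⟨W, h1, h2, h3⟩ =>
    ⟨W, h1, h2, (smul_inv_iff hc).1 h3⟩]
  simp only [h2, false_and, false_or, ne_eq, hrp, not_false_eq_true, h3, true_and]
  obtain ⟨b, hb, hb'⟩ := Tr_id_cases hr h2 hr0 hi hc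
  have hpos : 0 < i := hi ▸ orderOf_card_pos hr hr0
  have ht : Nat.card (Tr F r) = (r - 1) / i := hi ▸ Tr_card hr hr0
  have hfin := (Tr_spec (F := F) hr hr0).1
  have hb0 : 0 < b := by omega
  have hcpos : 0 < c := hb ▸ Nat.mul_pos hb0 hpos
  have h4 : c ≤ 2 * (e + m) := (Nat.le_of_dvd (by omega) h1).trans (by omega)
  have h5 : 2 * (e + m) % c ≤ 2 * j := mod_le_of_dvd_sub (by omega) (by
    rwa [← Nat.mul_sub])
  constructor
  · intro h
    have key2 : ∀ (s : Multiset F[X]) k, (∀ a ∈ s, a ∈ Tr F r) → s.map rev = s → s ≠ 0 →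
        s.card * i + k = 2 * (e + m) → ∃ (ν : Multiset F[X]) (w : ℕ), ν + ν.map rev ≤ s ∧
          2 * w ≤ k ∧ ν.card * i + w = m := by
      intro s k h6 h7 h8 h9
      obtain ⟨g, hg, h10⟩ := exists_alt_Tr hΦ rfl rfl hr h2 hr0 h6 h7 (by rw [← hi, h9, hV])
      obtain ⟨W, h11, h12, h13⟩ := h g hg (pow_of_ed_Tr hr h6 h8 h10).1 (pow_of_ed_Tr hr h6 h8 h10).2
      obtain ⟨ν, w, h14, h15, h16, -⟩ := ts_Tr_le hΦ hr hr0 hg h6 h10 h13 h12
      exact ⟨ν, w, map_dual_id ν ▸ h14, h15, by rw [hi, h16, h11]⟩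
    obtain ⟨s₀, h6, h7, h8, -⟩ := exists_Tr_blocks (fun _ => rfl) hr hr0 hb'
    obtain ⟨ν, w, -, h9, h10⟩ := key2 ((2 * (e + m) / c) • s₀) (2 * (e + m) % c)
      (fun a ha => h6 a (Multiset.mem_of_mem_nsmul ha))
      (by rw [Multiset.map_nsmul, ← map_dual_id, h7]) (by
        rw [← Multiset.card_pos, Multiset.card_nsmul, h8]
        exact Nat.mul_pos (Nat.div_pos h4 hcpos) hb0)
      (by rw [Multiset.card_nsmul, h8, mul_assoc, ← hb, Nat.div_add_mod'])
    have h11 := mod_le_of_comb h10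
    have h12 : i ≤ m := by
      by_contra h12
      rw [Nat.mod_eq_of_lt (by omega)] at h11; omega
    refine ⟨h12, by omega, ?_⟩
    by_contra h13
    rw [not_or, Nat.not_odd_iff_even, not_le] at h13
    rw [if_pos h13.1] at hc
    subst hc
    have h14 : ∀ a ∈ Tr F r, rev a = a := fun a ha => by
      rw [← dual_id]; exact (rev_eq_self_iff hr h2 hr0 ha).2 (hi ▸ h13.1)
    obtain ⟨f, hf⟩ := Tr_nonempty hr hr0
    have h15 := Nat.div_pos h12 hpos
    have h16 := Nat.div_add_mod' m c
    have h17 := Nat.div_add_mod' (2 * (e + m)) c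
    have h18 := Nat.mod_lt (2 * (e + m)) hpos
    have h19 : 2 * (m / c) ≤ 2 * (e + m) / c := (Nat.le_div_iff_mul_le hpos).2 (by
      rw [mul_assoc]; omega)
    have key3 : ∀ N k, N ≤ (r - 1) / c → 0 < N → (N + 2 * (m / c - 1)) * c + k = 2 * (e + m) →
        2 * c ≤ k := by
      intro N k h20 h21 h22
      obtain ⟨ρ, h23, h24, rfl⟩ := exists_nodup_card (Tr F r) (ht ▸ h20)
      have h25 : ∀ a ∈ ρ + Multiset.replicate (2 * (m / c - 1)) f, a ∈ Tr F r := fun a ha =>
        (Multiset.mem_add.1 ha).elim (h24 a) fun h => Multiset.eq_of_mem_replicate h ▸ hf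
      obtain ⟨ν, w, h26, h27, h28⟩ := key2 _ k h25 ((Multiset.map_congr rfl fun a ha =>
        h14 a (h25 a ha)).trans (Multiset.map_id' _)) (by
          rw [← Multiset.card_pos, Multiset.card_add]; omega) (by simpa using h22)
      rw [(Multiset.map_congr rfl fun a ha => h14 a (h25 a (Multiset.mem_of_le
        ((Multiset.le_add_right _ _).trans h26) ha))).trans (Multiset.map_id' _)] at h26
      have h29 := Nat.mul_le_mul_right c (card_le_of_double h23 h26)
      rw [Nat.sub_mul] at h29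
      have := Nat.le_mul_of_pos_left c h15
      omega
    by_cases h20 : 2 * (e + m) / c + 2 ≤ (r - 1) / c + 2 * (m / c)
    · have := key3 (2 * (e + m) / c + 2 - 2 * (m / c)) (2 * (e + m) % c) (by omega) (by omega)
        (by rw [show 2 * (e + m) / c + 2 - 2 * (m / c) + 2 * (m / c - 1) = 2 * (e + m) / c by
          omega]; exact h17)
      omega
    · have := key3 (2 * (e + m) / c + 1 - 2 * (m / c)) (2 * (e + m) % c + c) (by omega) (by omega)
        (by rw [show 2 * (e + m) / c + 1 - 2 * (m / c) + 2 * (m / c - 1) = 2 * (e + m) / c - 1 by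
          omega, Nat.sub_mul]; have := Nat.le_mul_of_pos_left c (Nat.div_pos h4 hpos); omega)
      omega
  · rintro ⟨h6, h7, h8⟩ g hg h9 -
    obtain ⟨s, k, h10, h11, h12, -, h13⟩ := exists_Tr_ed hr hr0 hΦ hg h9
    obtain ⟨N, h14, -⟩ := Tr_blocks (fun _ => rfl) hr hb' h10 h11
    obtain ⟨ν, ρ, rfl, h15, h16⟩ := Tr_hyp (fun _ => rfl) hr hr0 h10 h11
    rw [hV, ← hi] at h12
    have h17 : 2 * (e + m) % c ≤ k := mod_le_of_comb (s := N) (by rw [hb, ← mul_assoc, ← h14, h12])
    have h18 := Nat.div_add_mod' m i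
    have h19 : 2 * m + ρ.card * i ≤ 2 * (e + m) := by
      rcases hb' with ⟨rfl, hb'⟩ | ⟨rfl, hb'⟩
      · rw [one_mul] at hb
        subst hb
        have h20 := Nat.mul_le_mul_right c (h8.resolve_left fun h => by
          rw [if_neg (Nat.not_even_iff_odd.2 h)] at hc; omega)
        have h21 := Nat.mul_le_mul_right c (ht ▸ h15)
        have := Nat.div_add_mod' (2 * (e + m)) c
        rw [add_mul, mul_assoc] at h20
        omega
      · rw [Multiset.eq_zero_of_forall_notMem fun a ha => hb' a (h16 a ha).1 (h16 a ha).2]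
        simp
    obtain ⟨ν₁, ν₂, rfl, h20⟩ := exists_le_card (min_le_left ν.card (m / i))
    have h21 : ∀ a ∈ ν₁, a ∈ Tr F r := fun a ha => h10 a (by simp [ha])
    simp only [Multiset.card_add, Multiset.card_map, add_mul] at h12 h20
    have h22 : ν₁.card * i ≤ m / i * i := Nat.mul_le_mul_right i (by omega)
    refine key (s := ν₁ + Multiset.replicate (m - ν₁.card * i) (X - C 1)) hg
      (ss_of_pow hr0 one_ne_zero (by simpa using h9)) ?_ (by
        rw [sum_deg_add hr hr0 h21, ← hi]; omega)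
    rw [h13, Multiset.map_add, Multiset.map_replicate, rev_lin (by simp), add_add_add_comm,
      ← Multiset.replicate_add, map_dual_id]
    refine add_le_add (le_add_right (add_le_add (Multiset.le_add_right _ _)
      (Multiset.map_le_map (Multiset.le_add_right _ _)))) ((Multiset.replicate_le_replicate _).2 ?_)
    by_cases h23 : ν₂.card = 0
    · rw [h23] at h12; omega
    · rw [show ν₁.card = m / i by omega]; omega

end Cfsg.Agent.S5955
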