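import Cfsg.Statements.S5956
import Cfsg.Agent.H16.LA26
-- import your own Cfsg.Agent.* helpers here

set_option autoImplicit false
open scoped MatrixGroups
open Cfsg

namespace Cfsg.Agent.S5956

open H16 H14.Wall H23 H23.Form Polynomial Module in
/-- Elements of prime order of PSp_n(q) with no fixed nondegenerate `m`-space. Here `T = PSp_n(q)` with `n = 2d ≥ 4`, `(n, q) ≠ (4, 2)`, realised through the symplectic matrices over the field `F` with `q` elements (preserving the standard alternating form); an element of `T` of prime order `r` is such a matrix `x` with `x^r` scalar and `x` not scalar. For `r ≠ p` let `i` be the multiplicative order of `q` modulo `r`, `c = i` for `i` even and `c = 2i` for `i` odd, and write `k = n mod c`, `ℓ = m mod i`, `ℓ' = m mod c`, `n' = ⌊n/i⌋`, `m' = ⌊m/i⌋`, `t = (r−1)/i`. Let `m` be even with `2 ≤ m < n/2` and let `r` be a prime dividing the number of nondegenerate `m`-spaces. Then every element of `T` of order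 `r` fixes a nondegenerate `m`-space if and only if one of: (i) `r = p > 2` and every partition of `n` into parts of size at most `p` in which every odd part has even multiplicity contains (as a sub-multiset) a partition of `m` in which every odd part has even multiplicity; (ii) `r = p = 2` and (`n ≡ 2 (mod 4)` or `m ≡ 0 (mod 4)`); (iii) `r = 2 ≠ p`; (iv) `r ≠ p`, `r > 2`, `c ≤ m` and `k ≥ ℓ'`. -/
theorem result {F : Type*} [Field F] [Fintype F] {p : ℕ} [Fact p.Prime] [CharP F p] {q : ℕ} (hq : Fintype.card F = q)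
    (d m : ℕ) (hd : 2 ≤ d) (hT : (d, q) ≠ (2, 2)) (hm : 2 ≤ m) (hme : Even m) (hmd : m < d)
    (r : ℕ) [Fact r.Prime]
    (hrΩ : r ∣ Nat.card {W : Submodule F (Fin d ⊕ Fin d → F) // Module.finrank F ↥W = m ∧ (∀ u ∈ W, u ≠ 0 → ∃ v ∈ W, Cfsg.sympForm d F u v ≠ 0)})
    (i c : ℕ) (hi : i = orderOf (q : ZMod r)) (hc : c = if Even i then i else 2 * i) :
    (∀ x : ↥(Matrix.symplecticGroup (Fin d) F),
      (∃ z : F, ((x ^ r : ↥(Matrix.symplecticGroup (Fin d) F)) : Matrix (Fin d ⊕ Fin d) (Fin d ⊕ Fin d) F) = z • (1 : Matrix (Fin d ⊕ Fin d) (Fin d ⊕ Fin d) F)) →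
      (∀ z : F, (x : Matrix (Fin d ⊕ Fin d) (Fin d ⊕ Fin d) F) ≠ z • (1 : Matrix (Fin d ⊕ Fin d) (Fin d ⊕ Fin d) F)) →
      ∃ W : Submodule F (Fin d ⊕ Fin d → F), Module.finrank F ↥W = m ∧ (∀ u ∈ W, u ≠ 0 → ∃ v ∈ W, Cfsg.sympForm d F u v ≠ 0) ∧
        W.map (Matrix.toLin' (x : Matrix (Fin d ⊕ Fin d) (Fin d ⊕ Fin d) F)) ≤ W) ↔
    ((r = p ∧ 2 < p ∧ (∀ μ : Multiset ℕ, (∀ a ∈ μ, 0 < a ∧ a ≤ p) → (∀ a : ℕ, Odd a → Even (μ.count a)) → μ.sum = 2 * d →
        ∃ ν : Multiset ℕ, ν ≤ μ ∧ ν.sum = m ∧ ∀ a : ℕ, Odd a → Even (ν.count a))) ∨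
     (r = p ∧ p = 2 ∧ ((2 * d) % 4 = 2 ∨ m % 4 = 0)) ∨
     (r = 2 ∧ p ≠ 2) ∨
     (r ≠ p ∧ 2 < r ∧ c ≤ m ∧ m % c ≤ (2 * d) % c)) := by
  classical
  subst hq
  simp only [← spForm_B] at hrΩ ⊢
  have hr : r.Prime := Fact.out
  have hp : p.Prime := Fact.out
  have := nontrivial_sp (F := F) (d := d) (by omega)
  have hΦ := spForm_nondeg (F := F) d
  have hV := finrank_sp (F := F) d
  obtain ⟨m, rfl⟩ := even_iff_two_dvd.1 hme
  obtain ⟨e, rfl⟩ : ∃ e, d = e + m := ⟨d - m, by omega⟩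
  refine (sp_forall_iff (fun g => ∃ W : Submodule F _, finrank F W = 2 * m ∧
    (∀ u ∈ W, u ≠ 0 → ∃ v ∈ W, (spForm (e + m) F).B u v ≠ 0) ∧ W.map g ≤ W)).trans ?_
  simp only [map_le_iff_inv, ← nondeg_restrict_iff']
  have hodd : Odd r → _ := fun h => forall_odd_iff hΦ h (fun g => ∃ W : Submodule F _,
    finrank F W = 2 * m ∧ ((spForm (e + m) F).restrict W).Nondeg ∧ ∀ x ∈ W, g x ∈ W)
    fun c g hc ⟨W, h1, h2, h3⟩ => ⟨W, h1, h2, (smul_inv_iff hc).1 h3⟩
  by_cases hrp : r = p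
  · subst hrp
    by_cases h2 : r = 2
    · subst h2
      rw [inv_nd_iff hΦ rfl (a := m) (b := e) (by rw [hV, add_comm]) (by omega)]
      simp only [Nat.odd_iff, Nat.even_iff, lt_irrefl, false_and, and_false, true_and, ne_eq,
        not_true_eq_false, false_or, or_false]
      omega
    have h3 : 2 < r := lt_of_le_of_ne hr.two_le (Ne.symm h2)
    rw [hodd (hr.odd_of_ne_two h2), unip_nd_alt_iff r (by
      simpa using cast_ne_zero_of_ne (F := F) r Nat.prime_two (Ne.symm h2)) hΦ rfl rfl hme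
      (by omega), hV]
    simp [h2, h3]
  have hr0 : (r : F) ≠ 0 := cast_ne_zero_of_ne p hr hrp
  by_cases h2 : r = 2
  · subst h2
    refine iff_of_true ?_ (by simp [Ne.symm hrp])
    rintro g hg ⟨z, hz⟩ -
    have key : ∀ {s : Multiset F[X]}, SS g → s ≤ ed g → AS s → (s.map natDegree).sum = 2 * m →
        ∃ W : Submodule F _, finrank F W = 2 * m ∧ ((spForm (e + m) F).restrict W).Nondeg ∧
          ∀ x ∈ W, g x ∈ W := by
      intro s h1 h2 h3 h4
      obtain ⟨A, hA, h5, h6⟩ := alt_nd hΦ rfl rfl hg h1 h2 h3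
      exact ⟨A, by rw [finrank_eq_sum_ed hA, h6, h4], h5, hA⟩
    obtain ⟨hs, ⟨a, b, h4, h5⟩ | ⟨c, h4, h5⟩ | ⟨h4, h5⟩⟩ :=
      alt_sq_cases (by simpa using hr0) hΦ rfl hg hz hV
    · refine key (s := Multiset.replicate (2 * min a m) (X - C 1) +
        Multiset.replicate (2 * (m - a)) (X - C (-1))) hs ?_ ((as_rep (by simp) (by simp)).add
          (as_rep (by simp) (by simp))) (by simp [-map_one, -map_neg]; omega)
      rw [h5]
      exact add_le_add ((Multiset.replicate_le_replicate _).2 (by omega))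
        ((Multiset.replicate_le_replicate _).2 (by omega))
    · have h6 : c ≠ 0 := by rintro rfl; simp at h4
      refine key hs ?_ (as_hyp (s := Multiset.replicate m (X - C c)) fun q hq => by
        rw [Multiset.eq_of_mem_replicate hq]; exact ⟨monic_X_sub_C _, by simpa using h6⟩)
        (by simp [rev_X_sub_C h6]; omega)
      rw [h5, Multiset.map_replicate, rev_X_sub_C h6,
        show c⁻¹ = -c from inv_eq_of_mul_eq_one_left (by linear_combination -h4), nsmul_add,
        Multiset.nsmul_singleton, Multiset.nsmul_singleton]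
      exact add_le_add ((Multiset.replicate_le_replicate _).2 (by omega))
        ((Multiset.replicate_le_replicate _).2 (by omega))
    · exact key hs (h5 ▸ (Multiset.replicate_le_replicate _).2 (by omega)) (as_sq_add_one m)
        (by simp [-map_neg, mul_comm])
  have h3 : 2 < r := lt_of_le_of_ne hr.two_le (Ne.symm h2)
  have hq1 : 1 < Fintype.card F := Fintype.one_lt_card
  obtain ⟨j, hj, h1⟩ := exists_of_mul_eq_qf (Nat.one_lt_pow two_ne_zero hq1) hr hrΩ
    ((coprime_card_of_cast hr hr0).pow_right _) (card_nd_alt hΦ rfl rfl hV)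
  rw [← c_dvd_iff (by omega) hi hc] at h1
  obtain ⟨b, hb, hb'⟩ := Tr_id_cases hr h2 hr0 hi hc
  have h4 : c ≤ 2 * (e + m) := (Nat.le_of_dvd (by omega) h1).trans (by omega)
  have h5 : 2 * (e + m) % c ≤ 2 * j := mod_le_of_dvd_sub (by omega) (by rwa [← Nat.mul_sub])
  have h6 := nd_Tr_iff hΦ hr hr0 hb' (hi ▸ hb) (m := 2 * m) (by omega) (by rw [hV]; omega)
    (by omega) (fun _ => True) (fun W => finrank F W = 2 * m ∧
      ((spForm (e + m) F).restrict W).Nondeg) (fun _ h => h) (fun s h6 h7 h8 => by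
        simpa using exists_alt_Tr hΦ rfl rfl hr h2 hr0 h6 (map_dual_id s ▸ h7) h8)
    fun g s k ν w hg _ h6 h7 h8 h9 h10 h11 h12 => by
      have h13 : ∀ a ∈ ν, a ∈ Tr F r := fun a ha => h7 a (Multiset.mem_of_le h9 ha)
      rw [map_dual_id] at h10
      obtain ⟨A, hA, h14, h15⟩ := alt_nd hΦ rfl rfl hg (ss_of_pow hr0 one_ne_zero
        (by simpa using h6)) (h8 ▸ add_le_add h9 ((Multiset.replicate_le_replicate _).2 h11))
        (as_Tr hr h2 h13 h10 ((Nat.even_add.1 (h12 ▸ hme)).1 (even_card_mul hr h2 hr0 h13 h10)))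
      exact ⟨A, ⟨by rw [finrank_eq_sum_ed hA, h15, sum_deg_add hr hr0 h13, h12], h14⟩, hA⟩
  simp only [and_assoc, forall_const, hV] at h6
  rw [hodd (hr.odd_of_ne_two h2), h6]
  simp [hrp, h2, h3]

end Cfsg.Agent.S5956
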