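import Cfsg.Statements.S5957
import Cfsg.Agent.H16.LA8
-- import your own Cfsg.Agent.* helpers here

set_option autoImplicit false
open scoped MatrixGroups
open Cfsg

namespace Cfsg.Agent.S5957

open H16 Polynomial Module in
/-- Involutions of PSL_n(q) and imprimitive subgroups. Here `T = PSL_n(F)` for a field `F` with `q = p^f` elements (`n ≥ 2`, `(n, q) ≠ (2, 2), (2, 3)`), `n = a·t` with `t ≥ 2`, and Ω is the set of direct-sum decompositions of `F^n` into `t` subspaces of dimension `a` (unordered; their number is the number of ordered ones divided by `t!`), whose stabilizers are the imprimitive subgroups of type GL_a(q) ≀ S_t (maximal except in some small cases; maximality is not assumed); an element of `T` of prime order `r` (a matrix `x` of determinant 1 with `x^r` scalar, `x` not scalar) fixes a point of Ω when it permutes the summands of some such decomposition. If the number of such decompositions is even, then every involution of `T` stabilizes one of them (the action is 2-elusive). -/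
theorem result {F : Type*} [Field F] [Fintype F] {p : ℕ} [Fact p.Prime] [CharP F p] {q : ℕ} (hq : Fintype.card F = q)
    (n a t : ℕ) (hn : 2 ≤ n) (hT : (n, q) ≠ (2, 2) ∧ (n, q) ≠ (2, 3)) (hat : n = a * t) (ha : 1 ≤ a) (ht : 2 ≤ t)
    (hΩ : 2 ∣ Nat.card {D : Fin t → Submodule F (Fin n → F) // Cfsg.Geo.IsMDecomposition a D} / Nat.factorial t)
    (x : Matrix.SpecialLinearGroup (Fin n) F)
    (hx1 : ∃ z : F, ((x ^ 2 : Matrix.SpecialLinearGroup (Fin n) F) : Matrix (Fin n) (Fin n) F) = z • (1 : Matrix (Fin n) (Fin n) F))
    (hx2 : ∀ z : F, (x : Matrix (Fin n) (Fin n) F) ≠ z • (1 : Matrix (Fin n) (Fin n) F)) :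
    ∃ D : Fin t → Submodule F (Fin n → F), Cfsg.Geo.IsMDecomposition a D ∧
        ∃ σ : Equiv.Perm (Fin t), ∀ j, (D j).map (Matrix.toLin' (x : Matrix (Fin n) (Fin n) F)) = D (σ j) := by
  classical
  have : Nonempty (Fin n) := ⟨⟨0, by omega⟩⟩
  obtain ⟨z, hz⟩ := hx1
  replace hz : x.1 ^ 2 = z • (1 : Matrix (Fin n) (Fin n) F) := hz
  have hz0 := ne_zero_of_pow_eq_smul (by simp) hz
  have hz' := toLin'_pow_eq hz
  have hV : finrank F (Fin n → F) = a * t := by simp [hat]
  rw [dec_iff ha ht]
  -- a polynomial of degree two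
  have key : ∀ (π : F[X]) (k l : ℕ) (τ : Multiset F[X]), ppf (X ^ 2 - C z) = {π} →
      π.natDegree = 2 → edM x.1 = Multiset.replicate k π + τ →
      τ.map natDegree = Multiset.replicate l 1 →
      ∃ (D : Fin t → Submodule F (Fin n → F)) (σ : Equiv.Perm (Fin t)),
        Dec (Matrix.toLin' x.1) a D σ := by
    intro π k l τ h1 h2 h3 h4
    have h5 := sum_natDegree_edM x.1
    rw [h3, Multiset.map_add, h4] at h5
    simp only [Multiset.map_replicate, h2, Multiset.sum_add, Multiset.sum_replicate, smul_eq_mul,
      mul_one, Fintype.card_fin] at h5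
    have h6 := Nat.div_add_mod' k a
    have h7 := Nat.mod_lt k ha
    have h8 : k / a * 2 ≤ t := by
      refine Nat.le_of_mul_le_mul_left ?_ ha
      rw [← hat, ← mul_assoc, mul_comm a]; omega
    obtain ⟨w, rfl⟩ := Nat.exists_eq_add_of_le h8
    have h9 : k % a * 2 + l = w * a := by
      rw [mul_add, ← mul_assoc, mul_comm a, mul_comm a] at hat; omega
    obtain ⟨s, h10, h11⟩ := exists_split_deg natDegree (c := 2) (m := a / 2) (a := a)
      (by omega) w (τ := Multiset.replicate (k % a) π + τ) (s := k % a) (k := l)
      (by simp [h2, h4]) (by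
        rcases w with _ | _ | w
        · omega
        · omega
        · rw [add_assoc, add_mul]; omega) h9 (by
        rintro rfl
        rw [show l = 0 by omega, Multiset.replicate_zero, Multiset.map_eq_zero] at h4
        rw [h4, show k % a = 0 by omega]; rfl)
    refine (exists_dec_iff hz0 hz' (by omega)).2 ⟨k / a, w, s, by simp, h10, ?_⟩
    rw [← h11, h1, Multiset.nsmul_singleton, ← add_assoc, ← Multiset.replicate_add, h6]
    exact h3
  by_cases h1 : ∃ c, c ^ 2 = z
  · obtain ⟨c, rfl⟩ := h1
    have hc : c ≠ 0 := fun h => hz0 (by simp [h])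
    by_cases hp : 2 = p
    · subst hp
      have h2 : (x.1 - c • 1) ^ 2 = 0 := by
        have : CharP (Matrix (Fin n) (Fin n) F) 2 := Matrix.charP 2
        rw [sub_pow_char_of_commute _ (Commute.smul_right (Commute.one_right _) _), hz,
          _root_.smul_pow, one_pow, sub_self]
      have h3 := (sub_pow_eq_zero_iff_edM _ _ _).1 h2
      obtain ⟨k, l, h4⟩ : ∃ k l, edM x.1 = Multiset.replicate k ((X - C c) ^ 2) +
          Multiset.replicate l (X - C c) := by
        refine ⟨_, _, (Multiset.filter_add_not (· = (X - C c) ^ 2) _).symm.trans (congrArg₂ _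
          (Multiset.eq_replicate_card.2 ?_) (Multiset.eq_replicate_card.2 ?_))⟩
        · intro e he; exact (Multiset.mem_filter.1 he).2
        · intro e he
          obtain ⟨h5, h6⟩ := Multiset.mem_filter.1 he
          obtain ⟨j, h7, h8, rfl⟩ := h3 e h5
          obtain rfl | rfl : j = 1 ∨ j = 2 := by omega
          · simp
          · exact absurd rfl h6
      exact key _ k l _ (ppf_char 2 c) (by simp) h4 (by simp)
    · have hr0 : ((2 : ℕ) : F) ≠ 0 := cast_ne_zero_of_ne p Nat.prime_two hp
      have h2 := jt_of_split Nat.prime_two hr0 hc hz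
      rw [Nat.dvd_one.1 (orderOf_card_dvd Nat.prime_two hr0), ] at h2
      exact dec_of_dg hz0 hz' (s := 0) (c := 0) (m := 0) (by omega) (by omega) hV
        ((Multiset.eq_replicate_card.2 fun e he => by simpa using h2 e he).trans
          (zero_add _).symm) (by simp) (by simp)
  · push Not at h1
    obtain ⟨k, h2, -⟩ := edM_of_nonsplit Nat.prime_two h1 hz
    exact key _ k 0 0 (ppf_of_isPP (isPP_of_irred (monic_X_pow_sub_C z two_ne_zero)
      (X_pow_sub_C_irreducible_of_prime Nat.prime_two h1))) (by simp) (by simpa using h2) rfl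

end Cfsg.Agent.S5957
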