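import Cfsg.Statements.S5958
import Cfsg.Agent.H16.LA8
-- import your own Cfsg.Agent.* helpers here

set_option autoImplicit false
open scoped MatrixGroups
open Cfsg

namespace Cfsg.Agent.S5958

open H16 Polynomial Module in
/-- Elements of odd prime order of PSL_n(q) and imprimitive subgroups. Here `T = PSL_n(F)` for a field `F` with `q = p^f` elements (`n ≥ 2`, `(n, q) ≠ (2, 2), (2, 3)`), `n = a·t` with `t ≥ 2`, and Ω is the set of direct-sum decompositions of `F^n` into `t` subspaces of dimension `a` (unordered; their number is the number of ordered ones divided by `t!`), whose stabilizers are the imprimitive subgroups of type GL_a(q) ≀ S_t (maximal except in some small cases; maximality is not assumed); an element of `T` of prime order `r` (a matrix `x` of determinant 1 with `x^r` scalar, `x` not scalar) fixes a point of Ω when it permutes the summands of some such decomposition. Let `r ≠ p` be an odd prime dividing the number of such decompositions, let `c` be the multiplicative order of `q` modulo `r`, and write `k = n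 mod c`, `ℓ = a mod c`. Then every element of `T` of order `r` stabilizes such a decomposition if and only if either `a = 1`, `c = r − 1 > 1` and `n ≤ k·r`, or `c ≤ a` and `k = t·ℓ`. -/
theorem result {F : Type*} [Field F] [Fintype F] {p : ℕ} [Fact p.Prime] [CharP F p] {q : ℕ} (hq : Fintype.card F = q)
    (n a t : ℕ) (hn : 2 ≤ n) (hT : (n, q) ≠ (2, 2) ∧ (n, q) ≠ (2, 3)) (hat : n = a * t) (ha : 1 ≤ a) (ht : 2 ≤ t)
    (r : ℕ) [Fact r.Prime] (hr2 : r ≠ 2) (hrp : r ≠ p) (hΩ : r ∣ Nat.card {D : Fin t → Submodule F (Fin n → F) // Cfsg.Geo.IsMDecomposition a D} / Nat.factorial t)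
    (c : ℕ) (hc : c = orderOf (q : ZMod r)) :
    (∀ x : Matrix.SpecialLinearGroup (Fin n) F,
      (∃ z : F, ((x ^ r : Matrix.SpecialLinearGroup (Fin n) F) : Matrix (Fin n) (Fin n) F) = z • (1 : Matrix (Fin n) (Fin n) F)) →
      (∀ z : F, (x : Matrix (Fin n) (Fin n) F) ≠ z • (1 : Matrix (Fin n) (Fin n) F)) →
      ∃ D : Fin t → Submodule F (Fin n → F), Cfsg.Geo.IsMDecomposition a D ∧
        ∃ σ : Equiv.Perm (Fin t), ∀ j, (D j).map (Matrix.toLin' (x : Matrix (Fin n) (Fin n) F)) = D (σ j)) ↔
    ((a = 1 ∧ 1 < c ∧ c = r - 1 ∧ n ≤ (n % c) * r) ∨ (c ≤ a ∧ n % c = t * (a % c))) := by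
  classical
  have : Nonempty (Fin n) := ⟨⟨0, by omega⟩⟩
  subst hq
  have hr : r.Prime := Fact.out
  have hr0 : (r : F) ≠ 0 := cast_ne_zero_of_ne p hr hrp
  have hpos := orderOf_card_pos hr hr0
  have hcn := orderOf_le_of_dvd_glc hr hr0 ((hΩ.trans (Nat.div_dvd_of_dvd
    factorial_dvd_card_dec)).trans (card_dec_dvd hat ha ht))
  have hV : finrank F (Fin n → F) = a * t := by simp [hat]
  obtain ⟨T, hT1, hT2, hT3, hT4, hT5⟩ := ppf_X_pow_sub_one hr hr0
  rw [← hc] at hpos hcn hT4 hT5
  simp only [dec_iff ha ht]
  by_cases hi : c = 1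
  · refine iff_of_true ?_ (Or.inr ⟨by omega, by simp [hi, Nat.mod_one]⟩)
    rintro x ⟨z, hz⟩ -
    replace hz : x.1 ^ r = z • (1 : Matrix (Fin n) (Fin n) F) := hz
    have hz0 := ne_zero_of_pow_eq_smul (by simp) hz
    have hz' := toLin'_pow_eq hz
    by_cases h1 : ∃ c, c ^ r = z
    · obtain ⟨b, rfl⟩ := h1
      have h2 := jt_of_split hr hr0 (fun h => hz0 (by simp [h, hr.ne_zero])) hz
      rw [← hc, hi] at h2
      exact dec_of_dg hz0 hz' (s := 0) (c := 0) (m := 0) (by omega) (by omega) hV
        ((Multiset.eq_replicate_card.2 fun e he => by simpa using h2 e he).trans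
          (zero_add _).symm) (by simp) (by simp)
    · push Not at h1
      obtain ⟨k, h2, h3⟩ := edM_of_nonsplit hr h1 hz
      rw [Fintype.card_fin, hat] at h3
      rcases hr.dvd_mul.1 (h3 ▸ dvd_mul_left r k) with ⟨m, rfl⟩ | ⟨m, rfl⟩
      · refine dec_of_dg hz0 hz' (s := k) (c := r) (m := m) (k := 0) (by omega) (by omega) hV
          (by simp [dg_toLin', jt, h2]) (by rw [mul_comm]) (le_of_eq ?_)
        exact Nat.eq_of_mul_eq_mul_right hr.pos (by rw [← h3]; ring)
      · refine (exists_dec_iff hz0 hz' (by omega)).2 ⟨m, 0, fun j => j.elim0, by simp [mul_comm],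
          fun j => j.elim0, ?_⟩
        rw [ppf_of_isPP (isPP_of_irred (monic_X_pow_sub_C z hr.ne_zero)
          (X_pow_sub_C_irreducible_of_prime hr h1)), Multiset.nsmul_singleton,
          show m * a = k from Nat.eq_of_mul_eq_mul_right hr.pos (by rw [← h3]; ring)]
        exact h2.trans (by simp)
  have hi' : ¬ r ∣ Fintype.card F - 1 := by rwa [← orderOf_eq_one_iff_dvd Fintype.card_pos, ← hc]
  have hne : ∀ π ∈ T, π ≠ X - C 1 := fun π h h' => hi (by rw [← hT4 π h, h', natDegree_X_sub_C])
  constructor
  · intro h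
    obtain ⟨π, hπ⟩ : ∃ π, π ∈ T := Multiset.card_pos_iff_exists_mem.1 (by
      by_contra h0
      rw [show T.card = 0 by omega] at hT5
      have := hr.two_le; omega)
    obtain ⟨h1, h2, h3⟩ := (hT3 π).1 hπ
    have key : ∀ s k, 1 ≤ s → s * c + k = n → ∃ (u w : ℕ) (s' k' : Fin w → ℕ), t = u * r + w ∧
        (∀ j, s' j * c + k' j = a) ∧ s = u * a + ∑ j, s' j ∧ k = u * a + ∑ j, k' j ∧
        (u ≠ 0 → c = r - 1) := by
      intro s k hs hsk
      obtain ⟨x, hx, hx'⟩ := exists_SL_of_ed (n := Fin n) hr hi'
        (s := Multiset.replicate s π + Multiset.replicate k (X - C 1)) (by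
          intro a ha
          rcases Multiset.mem_add.1 ha with ha | ha <;> rw [Multiset.eq_of_mem_replicate ha]
          · exact ⟨isPP_of_irred h1 h2, (dvd_X_pow_sub_one_iff _ _).2 h3.dvd⟩
          · exact ⟨isPP_of_irred (monic_X_sub_C _) (irreducible_X_sub_C _),
              by simpa using sub_dvd_pow_sub_pow (X : F[X]) 1 r⟩)
        (by simp [hT4 π hπ, ← hsk, -map_one])
      have hx1 : x.1 ^ r = (1 : F) • (1 : Matrix (Fin n) (Fin n) F) := by rw [hx, one_smul]
      obtain ⟨u, w, τ, h4, h5, h6⟩ := (exists_dec_iff one_ne_zero (toLin'_pow_eq hx1) (by omega)).1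
        (h x ⟨1, hx1⟩ (not_scalar_of_mem_jt (e := c) (by
          rw [jt, hx', ← hT4 π hπ]
          exact Multiset.mem_map_of_mem _ (by simp [Multiset.mem_replicate]; omega)) hi))
      replace h6 := hx'.symm.trans h6
      rw [hT1] at h6
      have h7 : ∀ j, ∀ e ∈ τ j, e = π ∨ e = X - C 1 := fun j e he => by
        have : e ∈ Multiset.replicate s π + Multiset.replicate k (X - C 1) := by
          rw [h6]; exact Multiset.mem_add.2 (Or.inr (Multiset.mem_sum.2 ⟨j, Finset.mem_univ _, he⟩))
        exact (Multiset.mem_add.1 this).imp Multiset.eq_of_mem_replicate Multiset.eq_of_mem_replicate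
      have h8 : ∀ j, τ j = Multiset.replicate ((τ j).count π) π +
          Multiset.replicate ((τ j).count (X - C 1)) (X - C 1) := fun j => by
        ext e
        by_cases e1 : e = π
        · simp [e1, Multiset.count_replicate, (hne π hπ).symm, -map_one]
        by_cases e2 : e = X - C 1
        · simp [e2, Multiset.count_replicate, hne π hπ, -map_one]
        · have : e ∉ τ j := fun he => (h7 j e he).elim e1 e2
          simp [Multiset.count_replicate, this, Ne.symm e1, Ne.symm e2, -map_one]
      refine ⟨u, w, fun j => (τ j).count π, fun j => (τ j).count (X - C 1), by simpa using h4,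
        fun j => ?_, ?_, ?_, fun hu => ?_⟩
      · rw [← h5 j]; conv_rhs => rw [h8 j]
        simp [hT4 π hπ, -map_one]
      · simpa [Multiset.count_replicate, (hne π hπ).symm, hne π hπ, Multiset.count_sum',
          Multiset.count_eq_one_of_mem hT2 hπ, -map_one] using congrArg (Multiset.count π) h6
      · have h9 : X - C 1 ∉ T := fun h => hne _ h rfl
        have h10 := congrArg (Multiset.count (X - C 1)) h6
        rwa [Multiset.count_add, Multiset.count_replicate_self, Multiset.count_replicate,
          if_neg (hne π hπ), zero_add, Multiset.count_add, Multiset.count_nsmul,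
          Multiset.count_cons_self, Multiset.count_eq_zero_of_notMem h9, zero_add, mul_one,
          Multiset.count_sum'] at h10
      · have h9 : T = Multiset.replicate T.card π := Multiset.eq_replicate_card.2 fun e he => by
          have : e ∈ Multiset.replicate s π + Multiset.replicate k (X - C 1) := by
            rw [h6]
            exact Multiset.mem_add.2 (Or.inl ((Multiset.mem_nsmul_of_ne_zero
              (Nat.mul_ne_zero hu (by omega))).2 (Multiset.mem_cons_of_mem he)))
          exact ((Multiset.mem_add.1 this).imp Multiset.eq_of_mem_replicate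
            Multiset.eq_of_mem_replicate).resolve_right (hne e he)
        have h10 := Multiset.count_eq_one_of_mem hT2 hπ
        rw [h9, Multiset.count_replicate_self] at h10
        rw [← hT5, h10, one_mul]
    have hlt := Nat.mod_lt n hpos
    obtain ⟨u, w, s', k', h4, h5, h6, h7, h8⟩ := key (n / c) (n % c) (Nat.div_pos hcn hpos)
      (Nat.div_add_mod' _ _)
    have h9 : ∀ j, k' j ≤ ∑ j, k' j := fun j =>
      Finset.single_le_sum (fun _ _ => Nat.zero_le _) (Finset.mem_univ j)
    by_cases hu : u = 0
    · subst hu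
      right
      have h10 : ∀ j, k' j = a % c := fun j => by
        rw [← h5 j, add_comm, Nat.add_mul_mod_self_right, Nat.mod_eq_of_lt]
        have := h9 j; omega
      refine ⟨?_, by simp [h7, h10, h4]⟩
      by_contra h11
      have h12 : ∀ j, s' j = 0 := fun j => by
        by_contra h13
        have := Nat.le_mul_of_pos_left c (Nat.pos_of_ne_zero h13)
        have := h5 j; omega
      have := Nat.div_pos hcn hpos
      simp [h12] at h6; omega
    · left
      have h10 := Nat.le_mul_of_pos_left a (Nat.pos_of_ne_zero hu)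
      have h12 : ∀ {w} {s' k' : Fin w → ℕ}, (∀ j, s' j * c + k' j = a) → ∀ j, s' j = 0 :=
        fun {w s' k'} h5 j => by
          by_contra h13
          have := Nat.le_mul_of_pos_left c (Nat.pos_of_ne_zero h13)
          have := h5 j; omega
      obtain ⟨u', w', s'', k'', -, h15, h16, -⟩ := key 1 (n - c) le_rfl (by omega)
      simp only [h12 h15, Finset.sum_const_zero, add_zero] at h16
      obtain rfl : a = 1 := Nat.eq_one_of_mul_eq_one_left h16.symm
      refine ⟨rfl, by omega, h8 hu, ?_⟩
      have h13 : ∀ j, k' j = 1 := fun j => by simpa [h12 h5] using h5 j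
      simp only [h13, Finset.sum_const, Finset.card_univ, Fintype.card_fin, smul_eq_mul,
        mul_one] at h7
      have := Nat.le_mul_of_pos_right w hr.pos
      rw [h7, add_mul]; omega
  · rintro h x ⟨z, hz⟩ -
    replace hz : x.1 ^ r = z • (1 : Matrix (Fin n) (Fin n) F) := hz
    have hz0 := ne_zero_of_pow_eq_smul (by simp) hz
    obtain ⟨b, hb, rfl⟩ := exists_pow_eq_of_coprime ((Nat.Prime.coprime_iff_not_dvd hr).2 hi') z hz0
    rcases h with ⟨rfl, -, h1, h2⟩ | ⟨h1, h2⟩
    · have h3 := inv_smul_pow_eq_one hb hz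
      suffices ∃ (D : Fin t → Submodule F (Fin n → F)) (σ : Equiv.Perm (Fin t)),
          Dec (Matrix.toLin' (b⁻¹ • x.1)) 1 D σ by
        obtain ⟨D, σ, h4⟩ := this
        exact ⟨D, σ, by simpa [smul_smul, hb] using h4.smul hb⟩
      obtain ⟨π, rfl⟩ := Multiset.card_eq_one.1 (show T.card = 1 from
        Nat.eq_of_mul_eq_mul_right hpos (by rw [hT5, one_mul, h1]))
      have h4 : ∀ e ∈ edM (b⁻¹ • x.1), e = π ∨ e = X - C 1 := fun e he => by
        have h5 := irred_of_dvd_X_pow_sub_one hr hr0 (edM_isPP he)
          ((pow_eq_one_iff_edM _ _).1 h3 e he)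
        exact h5.2.symm.imp_left fun h6 => Multiset.mem_singleton.1
          ((hT3 e).2 ⟨(edM_isPP he).monic, h5.1, h6.1⟩)
      obtain ⟨s, k, h5⟩ := exists_rep_of_mem' h4
      have h6 := sum_natDegree_edM (b⁻¹ • x.1)
      rw [h5] at h6
      simp [hT4 π (Multiset.mem_singleton_self _), -map_one] at h6
      have h7 := Nat.mul_le_mul_right r (mod_le_of_comb h6)
      have h8 : r = c + 1 := by have := hr.two_le; omega
      have h9 : s ≤ k := by
        refine Nat.le_of_mul_le_mul_right ?_ hpos
        have h10 : k * r = k * c + k := by rw [h8]; ring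
        omega
      refine (exists_dec_iff one_ne_zero (toLin'_pow_eq (by rw [h3, one_smul])) one_ne_zero).2
        ⟨s, k - s, fun _ => {X - C 1}, ?_, fun _ => by simp [-map_one], ?_⟩
      · rw [Fintype.card_fin, h8, mul_add]; omega
      · refine h5.trans ?_
        rw [hT1, mul_one, ← Multiset.singleton_add, nsmul_add, add_right_comm, add_comm]
        simp [Multiset.nsmul_singleton, ← Multiset.replicate_add, h9]
    · obtain ⟨s, k, h3⟩ := exists_rep_of_mem (jt_of_split hr hr0 hb hz)
      rw [← hc] at h3
      have h4 := jt_sum x.1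
      rw [h3] at h4
      simp at h4
      refine dec_of_dg hz0 (toLin'_pow_eq hz) (m := a / c) (by omega) (by omega) hV h3
        (Nat.div_mul_le_self _ _) (Nat.le_of_mul_le_mul_right ?_ hpos)
      have h5 := mod_le_of_comb h4
      have h6 := congrArg (t * ·) (Nat.div_add_mod' a c)
      simp only [mul_add, ← mul_assoc] at h6
      rw [mul_comm a t] at hat
      omega

end Cfsg.Agent.S5958
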