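import Cfsg.Statements.S5959
import Cfsg.Agent.H16.LA8
-- import your own Cfsg.Agent.* helpers here

set_option autoImplicit false
open scoped MatrixGroups
open Cfsg

namespace Cfsg.Agent.S5959

open H16 Polynomial Module in
/-- Elements of order `p` of PSL_n(q) and imprimitive subgroups: a necessary condition. Here `T = PSL_n(F)` for a field `F` with `q = p^f` elements (`n ≥ 2`, `(n, q) ≠ (2, 2), (2, 3)`), `n = a·t` with `t ≥ 2`, and Ω is the set of direct-sum decompositions of `F^n` into `t` subspaces of dimension `a` (unordered; their number is the number of ordered ones divided by `t!`), whose stabilizers are the imprimitive subgroups of type GL_a(q) ≀ S_t (maximal except in some small cases; maximality is not assumed); an element of `T` of prime order `r` (a matrix `x` of determinant 1 with `x^r` scalar, `x` not scalar) fixes a point of Ω when it permutes the summands of some such decomposition. Suppose `p > 2` divides the number of such decompositions. If every element of `T` of order `p` stabilizes such a decomposition,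 then every partition of `n` into parts of size at most `p` in which the part `p` occurs fewer than `a` times contains (as a sub-multiset) a partition of `a`. -/
theorem result {F : Type*} [Field F] [Fintype F] {p : ℕ} [Fact p.Prime] [CharP F p] {q : ℕ} (hq : Fintype.card F = q)
    (n a t : ℕ) (hn : 2 ≤ n) (hT : (n, q) ≠ (2, 2) ∧ (n, q) ≠ (2, 3)) (hat : n = a * t) (ha : 1 ≤ a) (ht : 2 ≤ t)
    (hp : 2 < p) (hΩ : p ∣ Nat.card {D : Fin t → Submodule F (Fin n → F) // Cfsg.Geo.IsMDecomposition a D} / Nat.factorial t)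
    (h : ∀ x : Matrix.SpecialLinearGroup (Fin n) F,
      (∃ z : F, ((x ^ p : Matrix.SpecialLinearGroup (Fin n) F) : Matrix (Fin n) (Fin n) F) = z • (1 : Matrix (Fin n) (Fin n) F)) →
      (∀ z : F, (x : Matrix (Fin n) (Fin n) F) ≠ z • (1 : Matrix (Fin n) (Fin n) F)) →
      ∃ D : Fin t → Submodule F (Fin n → F), Cfsg.Geo.IsMDecomposition a D ∧
        ∃ σ : Equiv.Perm (Fin t), ∀ j, (D j).map (Matrix.toLin' (x : Matrix (Fin n) (Fin n) F)) = D (σ j)) :
    (∀ μ : Multiset ℕ, (∀ b ∈ μ, 0 < b ∧ b ≤ p) → μ.sum = n → μ.count p < a → ∃ ν : Multiset ℕ, ν ≤ μ ∧ ν.sum = a) := by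
  classical
  intro μ h1 h2 h3
  by_cases h4 : ∀ e ∈ μ, e = 1
  · rw [Multiset.eq_replicate_card.2 h4] at h2 ⊢
    simp only [Multiset.sum_replicate, smul_eq_mul, mul_one] at h2
    exact ⟨_, (Multiset.replicate_le_replicate 1).2 (show a ≤ _ by rw [h2, hat]; nlinarith), by simp⟩
  push Not at h4
  obtain ⟨e, he, he1⟩ := h4
  obtain ⟨g, hg⟩ := exists_uni (F := F) (n := Fin n) (fun e he => (h1 e he).1) (by simpa using h2)
  have h5 : g.1 ^ p = (1 : F) ^ p • (1 : Matrix (Fin n) (Fin n) F) := by
    have := (pow_char_pow_eq_one_iff p g.1 1).2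
    simp only [pow_one] at this
    rw [one_pow, one_smul, this ((uni_pow_eq_zero_iff hg p).2 fun e he => (h1 e he).2)]
  obtain ⟨u, w, s, h6, h7, h8⟩ := (exists_dec_iff (by simp) (toLin'_pow_eq h5) (by omega)).1
    ((dec_iff ha ht).1 (h g ⟨_, h5⟩ (not_scalar_of_mem_jt (jt_of_edM hg ▸ he) he1)))
  have h9 : μ = (u * a) • {p} + (∑ j, s j).map natDegree := by
    rw [← jt_of_edM hg, jt, edM, h8, ppf_char, Multiset.map_add, Multiset.map_nsmul]
    simp [-map_one]
  obtain rfl : u = 0 := by
    by_contra h0
    have : u * a ≤ μ.count p := by rw [h9]; simp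
    have := Nat.le_mul_of_pos_left a (Nat.pos_of_ne_zero h0)
    omega
  let j : Fin w := ⟨0, by simp at h6; omega⟩
  refine ⟨(s j).map natDegree, ?_, h7 j⟩
  rw [h9, zero_mul, zero_smul, zero_add]
  exact Multiset.map_le_map (Finset.single_le_sum (fun _ _ => zero_le) (Finset.mem_univ j))

end Cfsg.Agent.S5959
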