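import Cfsg.Statements.S5960
import Cfsg.Agent.H16.LA26
-- import your own Cfsg.Agent.* helpers here

set_option autoImplicit false
open scoped MatrixGroups
open Cfsg

namespace Cfsg.Agent.S5960

open H16 H14.Wall H23 H23.Form Polynomial Module in
/-- Involutions of PSp_n(q) and imprimitive subgroups. Here `T = PSp_n(q)`, `n = 2d ≥ 4`, `(n, q) ≠ (4, 2)`, realised through the symplectic matrices over the field `F` with `q` elements and the standard alternating form; `n = a·t` with `a` even and `t ≥ 2`, and Ω is the (nonempty) set of orthogonal decompositions of `F^n` into `t` nondegenerate subspaces of dimension `a` (unordered; counted as ordered ones divided by `t!`), whose stabilizers are the imprimitive subgroups of type Sp_a(q) ≀ S_t (maximality is not assumed); an element of `T` of prime order `r` (a symplectic matrix `x` with `x^r` scalar, `x` not scalar) fixes a point of Ω when it permutes the summands of some such decomposition. If the number of such decompositions is even,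 then every involution of `T` stabilizes one of them (the action is 2-elusive). -/
theorem result {F : Type*} [Field F] [Fintype F] {p : ℕ} [Fact p.Prime] [CharP F p] {q : ℕ} (hq : Fintype.card F = q)
    (d : ℕ) (hd : 2 ≤ d) (hT : (d, q) ≠ (2, 2))
    (a t : ℕ) (hat : 2 * d = a * t) (ha : 2 ≤ a) (hae : Even a) (ht : 2 ≤ t) (hΩ : 2 ∣ Nat.card {D : Fin t → Submodule F (Fin d ⊕ Fin d → F) // (Cfsg.Geo.IsMDecomposition a D ∧ (∀ j, ∀ u ∈ D j, u ≠ 0 → ∃ v ∈ D j, Cfsg.sympForm d F u v ≠ 0) ∧
          (∀ j j', j ≠ j' → ∀ u ∈ D j, ∀ v ∈ D j', Cfsg.sympForm d F u v = 0))} / Nat.factorial t)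
    (x : ↥(Matrix.symplecticGroup (Fin d) F))
    (hx1 : ∃ z : F, ((x ^ 2 : ↥(Matrix.symplecticGroup (Fin d) F)) : Matrix (Fin d ⊕ Fin d) (Fin d ⊕ Fin d) F) = z • (1 : Matrix (Fin d ⊕ Fin d) (Fin d ⊕ Fin d) F))
    (hx2 : ∀ z : F, (x : Matrix (Fin d ⊕ Fin d) (Fin d ⊕ Fin d) F) ≠ z • (1 : Matrix (Fin d ⊕ Fin d) (Fin d ⊕ Fin d) F)) :
    ∃ D : Fin t → Submodule F (Fin d ⊕ Fin d → F), (Cfsg.Geo.IsMDecomposition a D ∧ (∀ j, ∀ u ∈ D j, u ≠ 0 → ∃ v ∈ D j, Cfsg.sympForm d F u v ≠ 0) ∧
          (∀ j j', j ≠ j' → ∀ u ∈ D j, ∀ v ∈ D j', Cfsg.sympForm d F u v = 0)) ∧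
        ∃ σ : Equiv.Perm (Fin t), ∀ j, (D j).map (Matrix.toLin' (x : Matrix (Fin d ⊕ Fin d) (Fin d ⊕ Fin d) F)) = D (σ j) := by
  classical
  subst hq
  simp only [← spForm_B]
  have := nontrivial_sp (F := F) (d := d) (by omega)
  have hΦ := spForm_nondeg (F := F) d
  have hV := finrank_sp (F := F) d
  rw [od_iff (by omega) ht]
  refine (sp_forall_iff (r := 2) fun g => OD (spForm d F) g a (Fin t)).2 ?_ x hx1 hx2
  rintro g hg ⟨z, hz⟩ h1
  obtain ⟨b, rfl⟩ := even_iff_two_dvd.1 hae
  obtain rfl : d = t * b := by nlinarith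
  by_cases h2 : (2 : F) = 0
  swap
  · obtain ⟨hs, ⟨α, β, h4, h5⟩ | ⟨c, h4, h5⟩ | ⟨h4, h5⟩⟩ := alt_sq_cases h2 hΦ rfl hg hz hV
    · obtain ⟨f, h6, h7⟩ := exists_distrib b t α (by omega)
      refine od_alt hΦ rfl rfl hg hs hae (s := fun j => Multiset.replicate (2 * f j) (X - C 1) +
        Multiset.replicate (2 * (b - f j)) (X - C (-1))) (fun j => (as_rep (by simp) (by simp)).add
          (as_rep (by simp) (by simp))) (fun j => by
            have := h6 j; simp [-map_one, -map_neg]; omega) ?_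
      have h8 : ∑ j, (b - f j) = β := by
        rw [Finset.sum_tsub_distrib _ fun j _ => h6 j]; simp; omega
      simp only [← Multiset.nsmul_singleton, Finset.sum_add_distrib, ← Finset.sum_nsmul_assoc,
        ← Finset.sum_smul, ← Finset.mul_sum, h5, h7, h8]
    · have h6 : c ≠ 0 := by rintro rfl; simp at h4
      have h7 : c⁻¹ = -c := inv_eq_of_mul_eq_one_left (by linear_combination -h4)
      refine od_alt hΦ rfl rfl hg hs hae (s := fun _ => Multiset.replicate b (X - C c) +
        (Multiset.replicate b (X - C c)).map rev) (fun _ => as_hyp fun q hq => by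
          rw [Multiset.eq_of_mem_replicate hq]; exact ⟨monic_X_sub_C _, by simpa using h6⟩)
        (fun _ => by simp [rev_X_sub_C h6]; omega) ?_
      rw [h5, Multiset.map_replicate, rev_X_sub_C h6, h7, mul_comm, mul_nsmul, nsmul_add,
        Multiset.nsmul_singleton, Multiset.nsmul_singleton, Finset.sum_const, Finset.card_fin]
    · refine od_alt hΦ rfl rfl hg hs hae (fun _ => as_sq_add_one b)
        (fun _ => by simp [-map_neg, mul_comm]) ?_
      rw [h5, Finset.sum_const, Finset.card_fin, Multiset.nsmul_replicate]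
  have : CharP F 2 := CharTwo.of_one_ne_zero_of_two_eq_zero one_ne_zero h2
  have h3 := sq_eq_one_char2 hΦ hg hz
  have h4 := two_rkE_le hΦ hg h3
  have h5 : rkE g ≠ 0 := fun h => h1 1 (by rw [one_smul, rkE_eq_zero.1 h])
  obtain ⟨Ψ, hΨ, h6, h7⟩ := exists_alt_fin F hae
  have key : ∀ (u w : ℕ) (B : Fin w → End F (Fin (2 * b) → F)), (∀ j, Pres Ψ (B j)) →
      (∀ j, B j * B j = 1) → t = u * 2 + w → u * (2 * b) + ∑ j, rkE (B j) = rkE g →
      ((∀ j, IA Ψ (B j)) ↔ IA (spForm (t * b) F) g) → OD (spForm (t * b) F) g (2 * b) (Fin t) := by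
    intro u w B h8 h9 h10 h11 h12
    refine od_of_iso (r := 2) (u := u) hΨ h8 (iso_invol hΦ (iso_alt (piF_nondeg hΨ) hΦ h6 h7 rfl rfl
      ?_) hg (pres_mg h8) h3 (mg_two_sq h9) ((rkE_mg B).trans h11) (ia_mg.trans h12)) h10
    rw [hV, h10]; simp [finrank_pi_fintype]; ring
  rw [hV] at h4
  by_cases h8 : IA (spForm (t * b) F) g
  · obtain ⟨s, hs⟩ := h8.even hΦ hg
    have h9 := Nat.div_add_mod' s b
    have h10 := Nat.mod_lt s (show 0 < b by omega)
    have h11 : s / b * 2 ≤ t := Nat.le_of_mul_le_mul_right (c := b) (by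
      rw [mul_right_comm]; omega) (by omega)
    obtain ⟨w, hw⟩ := Nat.exists_eq_add_of_le h11
    have h18 : t * b = s / b * b * 2 + w * b := by rw [hw]; ring
    obtain ⟨f, h12, h13⟩ := exists_distrib (b / 2) w (s % b) (by
      rcases w with _ | _ | w
      · omega
      · omega
      · have : (w + 1 + 1) * (b / 2) = w * (b / 2) + 2 * (b / 2) := by ring
        omega)
    choose B h14 h15 h16 h17 using fun j => exists_inv_alt_a hΨ h7 (s := 2 * f j) (by simp)
      (by have := h12 j; simp; omega)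
    exact key _ w B h14 h15 hw (by simp only [h16, ← Finset.mul_sum, h13, mul_left_comm _ 2]; omega)
      (iff_of_true h17 h8)
  · obtain ⟨f, h12, h13⟩ := exists_distrib b t (rkE g) (by omega)
    choose B h14 h15 h16 h17 using fun j => exists_inv_alt_b hΨ h7 (s := f j)
      (by have := h12 j; simp; omega)
    exact key 0 t B h14 h15 (by simp) (by simp [h16, h13]) (iff_of_false (fun h => h5 (by
      rw [← h13]; exact Finset.sum_eq_zero fun j _ => (h17 j).1 (h j))) h8)

end Cfsg.Agent.S5960
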