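import Cfsg.Statements.S5961
import Cfsg.Agent.H16.LA26
-- import your own Cfsg.Agent.* helpers here

set_option autoImplicit false
open scoped MatrixGroups
open Cfsg

namespace Cfsg.Agent.S5961

open H16 H14.Wall H23 H23.Form Polynomial Module in
/-- Elements of odd prime order of PSp_n(q) and imprimitive subgroups. Here `T = PSp_n(q)`, `n = 2d ≥ 4`, `(n, q) ≠ (4, 2)`, realised through the symplectic matrices over the field `F` with `q` elements and the standard alternating form; `n = a·t` with `a` even and `t ≥ 2`, and Ω is the (nonempty) set of orthogonal decompositions of `F^n` into `t` nondegenerate subspaces of dimension `a` (unordered; counted as ordered ones divided by `t!`), whose stabilizers are the imprimitive subgroups of type Sp_a(q) ≀ S_t (maximality is not assumed); an element of `T` of prime order `r` (a symplectic matrix `x` with `x^r` scalar, `x` not scalar) fixes a point of Ω when it permutes the summands of some such decomposition.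 Let `r ≠ p` be an odd prime dividing the number of such decompositions, let `i` be the multiplicative order of `q` modulo `r`, `c = i` if `i` is even and `c = 2i` if `i` is odd, and write `k = n mod c`, `ℓ = a mod c`. Then every element of `T` of order `r` stabilizes such a decomposition if and only if `c ≤ a` and `k = t·ℓ`. -/
theorem result {F : Type*} [Field F] [Fintype F] {p : ℕ} [Fact p.Prime] [CharP F p] {q : ℕ} (hq : Fintype.card F = q)
    (d : ℕ) (hd : 2 ≤ d) (hT : (d, q) ≠ (2, 2))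
    (a t : ℕ) (hat : 2 * d = a * t) (ha : 2 ≤ a) (hae : Even a) (ht : 2 ≤ t)
    (r : ℕ) [Fact r.Prime] (hr2 : r ≠ 2) (hrp : r ≠ p) (hΩ : r ∣ Nat.card {D : Fin t → Submodule F (Fin d ⊕ Fin d → F) // (Cfsg.Geo.IsMDecomposition a D ∧ (∀ j, ∀ u ∈ D j, u ≠ 0 → ∃ v ∈ D j, Cfsg.sympForm d F u v ≠ 0) ∧
          (∀ j j', j ≠ j' → ∀ u ∈ D j, ∀ v ∈ D j', Cfsg.sympForm d F u v = 0))} / Nat.factorial t)
    (i c : ℕ) (hi : i = orderOf (q : ZMod r)) (hc : c = if Even i then i else 2 * i) :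
    (∀ x : ↥(Matrix.symplecticGroup (Fin d) F),
      (∃ z : F, ((x ^ r : ↥(Matrix.symplecticGroup (Fin d) F)) : Matrix (Fin d ⊕ Fin d) (Fin d ⊕ Fin d) F) = z • (1 : Matrix (Fin d ⊕ Fin d) (Fin d ⊕ Fin d) F)) →
      (∀ z : F, (x : Matrix (Fin d ⊕ Fin d) (Fin d ⊕ Fin d) F) ≠ z • (1 : Matrix (Fin d ⊕ Fin d) (Fin d ⊕ Fin d) F)) →
      ∃ D : Fin t → Submodule F (Fin d ⊕ Fin d → F), (Cfsg.Geo.IsMDecomposition a D ∧ (∀ j, ∀ u ∈ D j, u ≠ 0 → ∃ v ∈ D j, Cfsg.sympForm d F u v ≠ 0) ∧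
          (∀ j j', j ≠ j' → ∀ u ∈ D j, ∀ v ∈ D j', Cfsg.sympForm d F u v = 0)) ∧
        ∃ σ : Equiv.Perm (Fin t), ∀ j, (D j).map (Matrix.toLin' (x : Matrix (Fin d ⊕ Fin d) (Fin d ⊕ Fin d) F)) = D (σ j)) ↔
    (c ≤ a ∧ (2 * d) % c = t * (a % c)) := by
  classical
  subst hq
  simp only [← spForm_B] at hΩ ⊢
  have hr : r.Prime := Fact.out
  have := nontrivial_sp (F := F) (d := d) (by omega)
  have hΦ := spForm_nondeg (F := F) d
  have hV := finrank_sp (F := F) d
  have hr0 : (r : F) ≠ 0 := cast_ne_zero_of_ne p hr hrp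
  have hq1 : 1 < Fintype.card F := Fintype.one_lt_card
  simp only [od_iff (show 0 < a by omega) ht]
  rw [sp_forall_iff fun g => OD (spForm d F) g a (Fin t),
    forall_odd_iff hΦ (hr.odd_of_ne_two hr2) _ fun c g hc h => h.of_smul hc]
  obtain ⟨b, hb, hb'⟩ := Tr_id_cases hr hr2 hr0 hi hc
  have hpos : 0 < i := hi ▸ orderOf_card_pos hr hr0
  have hb0 : 0 < b := by omega
  have hc0 : 0 < c := hb ▸ Nat.mul_pos hb0 hpos
  have key : ∀ g s k N, Pres (spForm d F) g → g ^ r = 1 → (∀ a ∈ s, a ∈ Tr F r) →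
      s.map (dual (RingHom.id F)) = s → s.card = N * b → N * c + k = a * t → N ≤ t * (a / c) →
      ed g = s + Multiset.replicate k (X - C 1) → OD (spForm d F) g a (Fin t) := by
    intro g s k N hg h1 h2 h3 h4 h5 h6 h7
    obtain ⟨f, h8, h9⟩ := exists_distrib _ _ _ h6
    obtain ⟨ν, rfl, h10⟩ := Tr_split (fun _ => rfl) hr hb' t f s h2 h3 (h9 ▸ h4)
    have h11 : ∀ j, ∀ a ∈ ν j, a ∈ Tr F r := fun j a ha => h2 a (Multiset.mem_of_le
      (Finset.single_le_sum (f := ν) (fun _ _ => Multiset.zero_le _) (Finset.mem_univ j)) ha)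
    have h12 : ∀ j, f j * c ≤ a := fun j => (Nat.le_div_iff_mul_le hc0).1 (h8 j)
    have h13 : ∀ j, (ν j).card * orderOf (Fintype.card F : ZMod r) = f j * c := fun j => by
      rw [(h10 j).2, hb, hi, mul_assoc]
    refine od_alt hΦ rfl rfl hg (ss_of_pow hr0 one_ne_zero (by simpa using h1)) hae
      (s := fun j => ν j + Multiset.replicate (a - f j * c) (X - C 1)) (fun j => as_Tr hr hr2 (h11 j)
        ((map_dual_id _).symm.trans (h10 j).1) ((Nat.even_sub (h12 j)).2 (iff_of_true hae (h13 j ▸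
          even_card_mul hr hr2 hr0 (h11 j) ((map_dual_id _).symm.trans (h10 j).1))))) (fun j => by
            rw [sum_deg_add hr hr0 (h11 j), h13]; have := h12 j; omega) ?_
    have h14 : ∑ j, (a - f j * c) = k := by
      rw [Finset.sum_tsub_distrib _ fun j _ => h12 j, ← Finset.sum_mul, h9]; simp [mul_comm t]; omega
    simp only [← Multiset.nsmul_singleton, Finset.sum_add_distrib, ← Finset.sum_smul, h7, h14]
  constructor
  swap
  · rintro ⟨h1, h2⟩ g hg h3 -
    obtain ⟨s, k, h4, h5, h6, -, h7⟩ := exists_Tr_ed hr hr0 hΦ hg h3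
    obtain ⟨N, h8, -⟩ := Tr_blocks (fun _ => rfl) hr hb' h4 h5
    rw [h8, mul_assoc, ← hi, ← hb, hV] at h6
    refine key g s k N hg h3 h4 h5 h8 (hat ▸ h6) (Nat.le_of_mul_le_mul_right ?_ hc0) h7
    have h9 := mod_le_of_comb h6
    have h10 := congrArg (t * ·) (Nat.div_add_mod' a c)
    simp only [mul_add, ← mul_assoc] at h10
    rw [mul_comm a] at hat
    omega
  intro h
  have h1 : c ≤ 2 * d := by
    obtain ⟨D₀, h1, -⟩ := (od_iff (show 0 < a by omega) ht).2 (key 1 0 (2 * d) 0 (pres_one _)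
      (one_pow _) (by simp) (by simp) (by simp) (by simp [hat]) (by simp) (by simp [ed_one, hV]))
    have h2 := (hΩ.trans (Nat.div_dvd_of_dvd (factorial_dvd_card _ (fun D π ⟨h1, h2, h3⟩ =>
      ⟨⟨ht, h1.pos, fun _ => h1.finrank_eq _, h1.indep.comp π.injective,
        (π.surjective.iSup_comp D).trans h1.iSup_eq_top⟩, fun _ => h2 _,
        fun j j' h => h3 _ _ (π.injective.ne h)⟩) fun D h => h.1.indep.injective fun j e => by
          have := h.1.finrank_eq j
          rw [e, finrank_bot] at this; omega))).trans (card_od_dvd hΦ _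
      (fun D h => ⟨h.1.indep, h.1.iSup_eq_top, h.2.2⟩) (fun D D' j h h' => iso_alt
        (nondeg_restrict_iff'.2 (h.2.1 j)) (nondeg_restrict_iff'.2 (h'.2.1 j)) rfl rfl rfl rfl
        ((h.1.finrank_eq j).trans (h'.1.finrank_eq j).symm)) rfl (fun D k ⟨h1, h2, h3⟩ => ?_) ⟨D₀, h1⟩)
    · rw [card_O_alt' hΦ rfl rfl hV] at h2
      obtain ⟨j, h3, h4⟩ := (hr.prime.dvd_finsetProd_iff _).1
        (((coprime_card_of_cast hr hr0).pow_right _).dvd_of_dvd_mul_left h2)
      exact (Nat.le_of_dvd (by omega) ((c_dvd_iff (by omega) hi hc _).2 h4)).trans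
        (by have := Finset.mem_range.1 h3; omega)
    refine ⟨⟨ht, h1.pos, fun j => (LinearEquiv.finrank_map_eq _ _).trans (h1.finrank_eq j),
      h1.indep.map_orderIso (Submodule.orderIsoMapComap k.1), ?_⟩, ?_, ?_⟩
    · rw [← Submodule.map_iSup, h1.iSup_eq_top, Submodule.map_top, LinearEquiv.range]
    · rintro j _ ⟨u, hu, rfl⟩ h4
      obtain ⟨v, hv, h5⟩ := h2 j u hu (by rintro rfl; simp at h4)
      exact ⟨_, ⟨v, hv, rfl⟩, by rwa [← k.2.1 u v] at h5⟩
    · rintro j j' h4 _ ⟨u, hu, rfl⟩ _ ⟨v, hv, rfl⟩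
      exact (k.2.1 u v).trans (h3 j j' h4 u hu v hv)
  obtain ⟨s₀, h6, h7, h8, h9⟩ := exists_Tr_blocks (fun _ => rfl) hr hr0 hb'
  have key2 : ∀ N k, 0 < N → N * c + k = 2 * d → (a ≤ k ∧ ∀ f ∈ Tr F r,
      Multiset.replicate a f ≤ N • s₀) ∨ ∃ M w : Fin t → ℕ, (∀ j, M j * c + w j = a) ∧
        ∑ j, w j = k := by
    intro N k h10 h11
    have h12 : ∀ a ∈ N • s₀, a ∈ Tr F r := fun a ha => h6 a (Multiset.mem_of_mem_nsmul ha)
    obtain ⟨g, hg, h13⟩ := exists_alt_Tr hΦ rfl rfl hr hr2 hr0 h12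
      (by rw [Multiset.map_nsmul, ← map_dual_id, h7]) (k := k)
      (by rw [Multiset.card_nsmul, h8, mul_assoc, ← hi, ← hb, h11, hV])
    obtain ⟨h14, h15⟩ := pow_of_ed_Tr hr h12 (by
      rw [← Multiset.card_pos, Multiset.card_nsmul, h8]; positivity) h13
    simpa only [← hi, ← hb] using (h g hg h14 h15).blocks hr0 hb' hg h14 h12 h13 (by omega)
  have h10 : c ≤ a := by
    rcases key2 1 (2 * d - c) one_pos (by omega) with ⟨-, h10⟩ | ⟨M, w, h10, h11⟩
    · obtain ⟨f, hf⟩ := Tr_nonempty hr hr0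
      have := Multiset.count_le_of_le f (h10 f hf)
      have := Multiset.nodup_iff_count_le_one.1 h9 f
      simp at *; omega
    by_contra h12
    have : ∀ j, w j = a := fun j => by
      have := h10 j
      rcases h13 : M j with _ | m
      · simpa [h13] using this
      · rw [h13, add_mul] at this; omega
    simp [this, mul_comm t] at h11
    omega
  have h11 := Nat.mod_lt (2 * d) hc0
  rcases key2 _ _ (Nat.div_pos h1 hc0) (Nat.div_add_mod' _ _) with ⟨h12, -⟩ | ⟨M, w, h12, h13⟩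
  · omega
  have h14 : t * (a % c) ≤ 2 * d % c := by
    simpa [h13] using Finset.sum_le_sum (s := Finset.univ) fun j _ => mod_le_of_comb (h12 j)
  refine ⟨h10, ?_⟩
  rw [hat, mul_comm a, Nat.mul_mod, Nat.mod_mul_mod, Nat.mod_eq_of_lt (by omega)]

end Cfsg.Agent.S5961
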