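import Cfsg.Statements.S5962
import Cfsg.Agent.H16.LA26
-- import your own Cfsg.Agent.* helpers here

set_option autoImplicit false
open scoped MatrixGroups
open Cfsg

namespace Cfsg.Agent.S5962

open H16 H14.Wall H23 H23.Form Polynomial Module in
/-- Involutions of PSp_n(q), q odd, and the subgroups GL_{n/2}(q).2. Here `T = PSp_n(q)`, `n = 2d ≥ 4`, `q` odd, realised through the symplectic matrices over the field `F` with `q` elements; Ω is the set of unordered pairs `{U, W}` of complementary totally isotropic `d`-spaces (`F^n = U ⊕ W`), whose stabilizers are the subgroups of type GL_d(q).2 (maximal except in some small cases; maximality is not assumed); an element of `T` of prime order `r` (a symplectic matrix `x` with `x^r` scalar, `x` not scalar) fixes such a pair when it fixes or interchanges `U` and `W`. If the number of such pairs is even, every involution of `T` fixes one of them (the action is 2-elusive). -/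
theorem result {F : Type*} [Field F] [Fintype F] {p : ℕ} [Fact p.Prime] [CharP F p] {q : ℕ} (hq : Fintype.card F = q)
    (d : ℕ) (hd : 2 ≤ d) (hT : (d, q) ≠ (2, 2)) (hodd : Odd q)
    (hΩ : 2 ∣ Nat.card {P : Submodule F (Fin d ⊕ Fin d → F) × Submodule F (Fin d ⊕ Fin d → F) // IsCompl P.1 P.2 ∧ (∀ u ∈ P.1, ∀ v ∈ P.1, Cfsg.sympForm d F u v = 0) ∧ (∀ u ∈ P.2, ∀ v ∈ P.2, Cfsg.sympForm d F u v = 0)} / 2)
    (x : ↥(Matrix.symplecticGroup (Fin d) F))
    (hx1 : ∃ z : F, ((x ^ 2 : ↥(Matrix.symplecticGroup (Fin d) F)) : Matrix (Fin d ⊕ Fin d) (Fin d ⊕ Fin d) F) = z • (1 : Matrix (Fin d ⊕ Fin d) (Fin d ⊕ Fin d) F))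
    (hx2 : ∀ z : F, (x : Matrix (Fin d ⊕ Fin d) (Fin d ⊕ Fin d) F) ≠ z • (1 : Matrix (Fin d ⊕ Fin d) (Fin d ⊕ Fin d) F)) :
    ∃ U W : Submodule F (Fin d ⊕ Fin d → F), IsCompl U W ∧ (∀ u ∈ U, ∀ v ∈ U, Cfsg.sympForm d F u v = 0) ∧ (∀ u ∈ W, ∀ v ∈ W, Cfsg.sympForm d F u v = 0) ∧
        ((U.map (Matrix.toLin' (x : Matrix (Fin d ⊕ Fin d) (Fin d ⊕ Fin d) F)) = U ∧ W.map (Matrix.toLin' (x : Matrix (Fin d ⊕ Fin d) (Fin d ⊕ Fin d) F)) = W) ∨
         (U.map (Matrix.toLin' (x : Matrix (Fin d ⊕ Fin d) (Fin d ⊕ Fin d) F)) = W ∧ W.map (Matrix.toLin' (x : Matrix (Fin d ⊕ Fin d) (Fin d ⊕ Fin d) F)) = U)) := by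
  classical
  subst hq
  simp only [← spForm_B, ← ts_iff (Φ := spForm d F) rfl]
  have := nontrivial_sp (F := F) (d := d) (by omega)
  have hΦ := spForm_nondeg (F := F) d
  have hV := finrank_sp (F := F) d
  have h2 : (2 : F) ≠ 0 := two_ne_zero_of_odd_card hodd
  refine (sp_forall_iff (r := 2) (PP (spForm d F))).2 ?_ x hx1 hx2
  rintro g hg ⟨z, hz⟩ -
  obtain ⟨hs, ⟨a, b, h4, h5⟩ | ⟨c, h4, h5⟩ | ⟨h4, h5⟩⟩ := alt_sq_cases h2 hΦ rfl hg hz hV
  · refine pp_of_uq hΦ hg (uq_alt hΦ rfl rfl hg hs) (s := Multiset.replicate a (X - C 1) +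
      Multiset.replicate b (X - C (-1))) ?_
    rw [h5, map_dual_id, Multiset.map_add, Multiset.map_replicate, Multiset.map_replicate,
      rev_lin (by simp), rev_lin (by simp), add_add_add_comm, ← Multiset.replicate_add,
      ← Multiset.replicate_add, two_mul, two_mul]
  · refine pp_of_uq hΦ hg (uq_alt hΦ rfl rfl hg hs) (s := Multiset.replicate d (X - C c)) ?_
    rw [h5, map_dual_id, Multiset.map_replicate, rev_X_sub_C (by rintro rfl; simp at h4),
      show c⁻¹ = -c from inv_eq_of_mul_eq_one_left (by linear_combination -h4), nsmul_add,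
      Multiset.nsmul_singleton, Multiset.nsmul_singleton]
  · refine PP.of_iso (uq_alt hΦ rfl rfl hg hs _ (hypF (spForm d F) (Fin d)) _ (hypF_nondeg _) rfl rfl
      ⟨fun x y => ?_, fun x => ?_⟩ ?_) (pp_swap _ (a := -1) (b := 1) (by simp) (by simp))
    · simp [hypF_B, show (spForm d F).ε = -1 from rfl, add_comm]
    · simp [hypF_Q, show (spForm d F).κ = 0 from rfl]
    · obtain ⟨k, h6, h7⟩ := ed_nonsplit (g := (((-1 : F) • LinearMap.snd F (Fin d → F) (Fin d → F)).prod
        ((1 : F) • LinearMap.fst F _ _) : End F _)) Nat.prime_two h4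
        (LinearMap.ext fun x => by simp [sq, Prod.ext_iff])
      simp only [finrank_prod, finrank_fintype_fun_eq_card, Fintype.card_fin] at h7
      rw [h6, h5, show k = d by omega]

end Cfsg.Agent.S5962
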