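import Cfsg.Statements.S5963
import Cfsg.Agent.H16.LA26
-- import your own Cfsg.Agent.* helpers here

set_option autoImplicit false
open scoped MatrixGroups
open Cfsg

namespace Cfsg.Agent.S5963

open H16 H14.Wall H23 H23.Form Polynomial Module in
/-- Derangements of odd prime order of PSp_n(q), q odd, on pairs of complementary totally isotropic subspaces. Here `T = PSp_n(q)`, `n = 2d ≥ 4`, `q` odd, realised through the symplectic matrices over the field `F` with `q` elements; Ω is the set of unordered pairs `{U, W}` of complementary totally isotropic `d`-spaces (`F^n = U ⊕ W`), whose stabilizers are the subgroups of type GL_d(q).2 (maximal except in some small cases; maximality is not assumed); an element of `T` of prime order `r` (a symplectic matrix `x` with `x^r` scalar, `x` not scalar) fixes such a pair when it fixes or interchanges `U` and `W`. For every odd prime `r ≠ p` dividing the number of such pairs, some element of `T` of order `r` fixes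 no such pair (the action is never `r`-elusive for odd `r ≠ p`). -/
theorem result {F : Type*} [Field F] [Fintype F] {p : ℕ} [Fact p.Prime] [CharP F p] {q : ℕ} (hq : Fintype.card F = q)
    (d : ℕ) (hd : 2 ≤ d) (hT : (d, q) ≠ (2, 2)) (hodd : Odd q)
    (r : ℕ) [Fact r.Prime] (hr2 : r ≠ 2) (hrp : r ≠ p) (hΩ : r ∣ Nat.card {P : Submodule F (Fin d ⊕ Fin d → F) × Submodule F (Fin d ⊕ Fin d → F) // IsCompl P.1 P.2 ∧ (∀ u ∈ P.1, ∀ v ∈ P.1, Cfsg.sympForm d F u v = 0) ∧ (∀ u ∈ P.2, ∀ v ∈ P.2, Cfsg.sympForm d F u v = 0)} / 2) :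
    ∃ x : ↥(Matrix.symplecticGroup (Fin d) F),
      (∃ z : F, ((x ^ r : ↥(Matrix.symplecticGroup (Fin d) F)) : Matrix (Fin d ⊕ Fin d) (Fin d ⊕ Fin d) F) = z • (1 : Matrix (Fin d ⊕ Fin d) (Fin d ⊕ Fin d) F)) ∧
      (∀ z : F, (x : Matrix (Fin d ⊕ Fin d) (Fin d ⊕ Fin d) F) ≠ z • (1 : Matrix (Fin d ⊕ Fin d) (Fin d ⊕ Fin d) F)) ∧
      ¬ (∃ U W : Submodule F (Fin d ⊕ Fin d → F), IsCompl U W ∧ (∀ u ∈ U, ∀ v ∈ U, Cfsg.sympForm d F u v = 0) ∧ (∀ u ∈ W, ∀ v ∈ W, Cfsg.sympForm d F u v = 0) ∧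
        ((U.map (Matrix.toLin' (x : Matrix (Fin d ⊕ Fin d) (Fin d ⊕ Fin d) F)) = U ∧ W.map (Matrix.toLin' (x : Matrix (Fin d ⊕ Fin d) (Fin d ⊕ Fin d) F)) = W) ∨
         (U.map (Matrix.toLin' (x : Matrix (Fin d ⊕ Fin d) (Fin d ⊕ Fin d) F)) = W ∧ W.map (Matrix.toLin' (x : Matrix (Fin d ⊕ Fin d) (Fin d ⊕ Fin d) F)) = U))) := by
  classical
  subst hq
  simp only [← spForm_B, ← ts_iff (Φ := spForm d F) rfl] at hΩ ⊢
  have hr : r.Prime := Fact.out
  have := nontrivial_sp (F := F) (d := d) (by omega)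
  have hΦ := spForm_nondeg (F := F) d
  have hV := finrank_sp (F := F) d
  have hr0 : (r : F) ≠ 0 := cast_ne_zero_of_ne p hr hrp
  have hq1 : 1 < Fintype.card F := Fintype.one_lt_card
  have h1 := dvd_card_pair _ hΩ
  have h2 := (card_pair_dvd hΦ hV).resolve_left (by
    obtain ⟨A, B, hA, -, h1, h2, h3, h4, h5⟩ := alt_ts (s := Multiset.replicate d (X - C 1)) hΦ rfl
      rfl (pres_one _) ss_one (by
        rw [Multiset.map_replicate, rev_lin (by simp), ← Multiset.replicate_add, ed_one, hV, two_mul])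
    have : Finite (Submodule F (Fin d ⊕ Fin d → F)) := Finite.of_injective _ SetLike.coe_injective
    refine Nat.card_ne_zero.2 ⟨⟨⟨(A, B), (Submodule.isCompl_iff_disjoint A B ?_).2 h3, h1, h2⟩⟩,
      inferInstance⟩
    rw [h5, finrank_eq_sum_ed hA, h4, hV]; simp [-map_one, two_mul])
  rw [card_O_alt' hΦ rfl rfl hV, glc_eq, qf_sq, mul_comm (qf _ _), ← mul_assoc, ← mul_assoc] at h2
  obtain ⟨j, h3, h4⟩ := (hr.prime.dvd_finsetProd_iff _).1 (((coprime_card_of_cast hr hr0).pow_right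
    _).dvd_of_dvd_mul_left ((h1.mul_right _).trans (Nat.dvd_of_mul_dvd_mul_right (qf_pos hq1 d) h2)))
  have h5 := (exists_dvd_pow_add_one_iff hr hr2 (orderOf_card_pos hr hr0)).1 ⟨_, h4⟩
  have h6 : orderOf (Fintype.card F : ZMod r) ≤ 2 * d := by
    refine (Nat.le_of_dvd (by omega) ((c_dvd_iff (by omega) rfl (if_pos h5).symm (j + 1)).2
      (h4.trans ?_))).trans (by have := Finset.mem_range.1 h3; omega)
    rw [← pow_mul, mul_comm 2, pow_mul]
    exact ⟨_, by simpa using Nat.sq_sub_sq (Fintype.card F ^ (j + 1)) 1⟩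
  obtain ⟨f, hf⟩ := Tr_nonempty hr hr0
  have h7 := (rev_eq_self_iff hr hr2 hr0 hf).2 h5
  have h8 : ∀ a ∈ ({f} : Multiset F[X]), a ∈ Tr F r := by simpa using hf
  obtain ⟨g, hg, h9⟩ := exists_alt_Tr hΦ rfl rfl hr hr2 hr0 h8 (by simpa [dual_id] using h7)
    (k := 2 * d - orderOf (Fintype.card F : ZMod r)) (by simp [hV]; omega)
  obtain ⟨h10, h11⟩ := pow_of_ed_Tr hr h8 (by simp) h9
  by_contra h12
  push Not at h12
  obtain ⟨s, h13⟩ := PP.ed_eq hΦ hg (hr.odd_of_ne_two hr2) one_ne_zero (by simpa using h10)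
    ((sp_forall_iff (r := r) (PP (spForm d F))).1 h12 g hg ⟨1, by simpa using h10⟩ fun z =>
      not_scalar_of_mem (q := f) (by simp [h9]) fun e => by
        have := (Tr_spec hr hr0).2.2 f hf
        rw [e, natDegree_X_sub_C] at this
        rw [← this] at h5; simp at h5)
  have h14 := congrArg (Multiset.count f) (h9.symm.trans h13)
  rw [Multiset.count_add, Multiset.count_add, count_map_invol (fun a ha => ?_) h7,
    Multiset.count_replicate, if_neg (Tr_ne_lin hr hr2 hf (by simp)).symm] at h14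
  · simp at h14; omega
  · have : a ∈ ed g := by simp [h13, ha]
    exact dual_dual (fun _ => rfl) (ed_isPP this).monic (ed_coeff_ne hΦ hg a this)

end Cfsg.Agent.S5963
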