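import Cfsg.Statements.S5971
import Cfsg.Agent.H16.LA35
-- import your own Cfsg.Agent.* helpers here

set_option autoImplicit false
open scoped MatrixGroups
open Cfsg

namespace Cfsg.Agent.S5971

open H16 H14.Wall H23 H23.Form Polynomial Module Matrix in
/-- Elements of order 3 of PSL_3(q) and the normalizer of a Singer cycle. Here `T = PSL_n(F)` for a field `F` with `q = p^f` elements (`n ≥ 2`, `(n, q) ≠ (2, 2), (2, 3)`), `k` is a prime dividing `n`, `K` is a subalgebra of the `n × n` matrices that is a field of degree `k` over `F` (an extension-field structure F_{q^k} on `F^n`), and `H` is the subgroup of matrices of determinant 1 normalizing `K` — a subgroup of type GL_{n/k}(q^k) (maximal except in some small cases; maximality is not assumed); Ω is the set of cosets of `H` in `T`, so an element of `T` of prime order `r` (a matrix `x` of determinant 1 with `x^r` scalar, `x` not scalar) fixes a point of Ω when some conjugate of `x` by a matrix of determinant 1 normalizes `K`. Take `n = k = 3` and suppose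 3 divides the index of `H`. Then every element of `T` of order 3 is conjugate in `T` into `H` if and only if `q ≡ 4, 7` or `8 (mod 9)`. -/
theorem result {F : Type*} [Field F] [Fintype F] {p : ℕ} [Fact p.Prime] [CharP F p] {q : ℕ} (hq : Fintype.card F = q)
    (n : ℕ) (hn : n = 3) (k : ℕ) (hk : k.Prime) (hkn : k ∣ n) (K : Subalgebra F (Matrix (Fin n) (Fin n) F)) (hK : Cfsg.Geo.IsFieldSubalgebra k K) (hk3 : k = 3) (hΩ : 3 ∣ ((Cfsg.Geo.subalgebraNormalizer K).comap (Matrix.SpecialLinearGroup.toGL : Matrix.SpecialLinearGroup (Fin n) F →* GL (Fin n) F)).index) :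
    (∀ x : Matrix.SpecialLinearGroup (Fin n) F,
      (∃ z : F, ((x ^ 3 : Matrix.SpecialLinearGroup (Fin n) F) : Matrix (Fin n) (Fin n) F) = z • (1 : Matrix (Fin n) (Fin n) F)) →
      (∀ z : F, (x : Matrix (Fin n) (Fin n) F) ≠ z • (1 : Matrix (Fin n) (Fin n) F)) →
      ∃ P : Matrix.SpecialLinearGroup (Fin n) F, P⁻¹ * x * P ∈ ((Cfsg.Geo.subalgebraNormalizer K).comap (Matrix.SpecialLinearGroup.toGL : Matrix.SpecialLinearGroup (Fin n) F →* GL (Fin n) F))) ↔
    (q % 9 = 4 ∨ q % 9 = 7 ∨ q % 9 = 8) := by
  subst hq hn hk3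
  let := (As.IsFieldSubalgebra.isField hK).toField
  have : Finite K := Subtype.finite
  have h1 := hK.finrank_eq
  have hV : finrank F (Fin 3 → F) = 3 := by simp
  rw [sl_forall_iff]
  by_cases hp : 3 = p
  · subst hp
    refine iff_of_false (fun H => not_allR_char (EX.rk (m := 2) (by omega)) (by omega)
      finrank_dvd_ext le_rfl (by omega) 3 (eh_ext hK ▸ allH_of H)) ?_
    have := (CharP.cast_eq_zero_iff F 3 _).1 (FiniteField.cast_card_eq_zero F)
    omega
  have h0 := cast_ne_zero_of_ne (F := F) p hk hp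
  have h2 := (Nat.Prime.coprime_iff_not_dvd hk).1 (coprime_card_of_cast hk h0)
  rw [allH_iff hk (Or.inl h0), eh_ext hK]
  by_cases h3 : Fintype.card F % 3 = 2
  · refine iff_of_true (allEX_ord hk (by omega) h0 h1 hV
      ((orderOf_eq_two_iff_dvd hk (by omega)).2 (by omega))) ?_
    obtain ⟨y, α, a1, a2, a3, a4, -⟩ := exists_frob_semi h1 hV (by omega)
    obtain ⟨y, rfl⟩ := exists_GL_of_inj a1
    have a5 : y ∈ Geo.subalgebraNormalizer K ⊓ Geo.specialLinear (Fin 3) F :=
      ⟨(mem_norm_iff hK y).2 ⟨α, a2⟩, (mem_SL_iff y).2 (eq_one_of_pow_eq_one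
        ((Nat.Prime.coprime_iff_not_dvd hk).2 (by omega)) hk.ne_zero (by rw [← map_pow, a3, map_one]))⟩
    have : Fact (Nat.Prime 3) := ⟨hk⟩
    rw [index_comap_toGL] at hΩ
    have a6 := mul_dvd_mul hΩ (orderOf_eq_prime (x := y) (p := 3)
      (Units.ext (toLin'.injective (by
        rw [Units.val_pow_eq_pow_val, toLin'_pow, a3, Units.val_one, toLin'_one]; rfl)))
      (fun e => a4 (by rw [e, Units.val_one, toLin'_one]; rfl)) ▸ Subgroup.orderOf_dvd_natCard _ a5)
    rw [relIndex_mul_card, card_specialLinear, card_SL_eq, ← ZMod.natCast_eq_zero_iff] at a6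
    have a7 : ∀ j, 1 ≤ Fintype.card F ^ j := fun j => Nat.one_le_pow _ _ Fintype.card_pos
    simp only [Finset.prod_range_succ, Finset.prod_range_zero, Nat.cast_mul, Nat.cast_pow,
      Nat.cast_sub (a7 _), Nat.cast_one] at a6
    rw [← ZMod.natCast_mod] at a6
    by_contra a8
    obtain a9 | a9 : Fintype.card F % (3 * 3) = 2 ∨ Fintype.card F % (3 * 3) = 5 := by omega
    all_goals rw [a9] at a6; revert a6; decide
  exact ⟨fun H => by_contra fun h => not_allEX_three h1 hV (by omega) H,
    fun h => allEX_three h1 hV (by omega)⟩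

end Cfsg.Agent.S5971
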