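import Cfsg.Statements.S5972
import Cfsg.Agent.H14.El7

set_option autoImplicit false
open scoped MatrixGroups
set_option linter.unusedVariables false
set_option linter.style.haveILetI false
open Cfsg H14.Wall H16 H23 Polynomial
open scoped Matrix

namespace Cfsg.Agent.S5972

/-- Elements of prime order of Ω_n(q), n = 2d+1 ≥ 7, q odd, with no fixed totally singular `m`-space. Here `T = Ω_n(q)` is realised as the commutator subgroup of the isometry group of the quadratic form `x₀² + Σ xᵢyᵢ` over the field `F` with `q` elements (it has trivial centre, so its elements of prime order `r` are used directly); let `1 ≤ m ≤ d` and let `r` be a prime dividing the number of totally singular `m`-spaces. For `r ≠ p` let `i` be the multiplicative order of `q` modulo `r`, `c = i` for `i` even and `c = 2i` for `i` odd, and write `k = n mod c`, `ℓ = m mod i`, `n' = ⌊n/i⌋`, `m' = ⌊m/i⌋`, `t = (r−1)/i`. Then every element of `T` of order `r` fixes some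 totally singular `m`-space if and only if either (i) `r = 2` and (`m < (n−1)/2` or `q ≡ 1 (mod 4)`); or (ii) `r ≠ p` is odd, `i ≤ m`, `k > 2ℓ`, and (`i` is odd or `n' − 2m' ≥ t`). -/
theorem result {F : Type*} [Field F] [Fintype F] {p : ℕ} [Fact p.Prime] [CharP F p] {q : ℕ} (hq : Fintype.card F = q) (hqodd : Odd q)
    (d m : ℕ) (hd : 3 ≤ d) (hm : 1 ≤ m) (hmd : m ≤ d)
    (r : ℕ) [Fact r.Prime]
    (hrΩ : r ∣ Nat.card {W : Submodule F (Unit ⊕ (Fin d ⊕ Fin d) → F) // Module.finrank F ↥W = m ∧ (∀ w ∈ W, Cfsg.quadFormOdd d F w = 0)})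
    (i c : ℕ) (hi : i = orderOf (q : ZMod r)) (hc : c = if Even i then i else 2 * i) :
    (∀ x : GL (Unit ⊕ (Fin d ⊕ Fin d)) F, x ∈ Cfsg.Geo.omegaGL (Cfsg.quadFormOdd d F) → orderOf x = r →
      ∃ W : Submodule F (Unit ⊕ (Fin d ⊕ Fin d) → F), Module.finrank F ↥W = m ∧ (∀ w ∈ W, Cfsg.quadFormOdd d F w = 0) ∧
        W.map (Matrix.toLin' (x : Matrix (Unit ⊕ (Fin d ⊕ Fin d)) (Unit ⊕ (Fin d ⊕ Fin d)) F)) ≤ W) ↔
    ((r = 2 ∧ (m < d ∨ q % 4 = 1)) ∨
     (r ≠ p ∧ 2 < r ∧ i ≤ m ∧ 2 * (m % i) < (2 * d + 1) % c ∧ (Odd i ∨ (r - 1) / i + 2 * (m / i) ≤ (2 * d + 1) / i))) := by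
  classical
  have h2 : (2 : F) ≠ 0 := H22.two_ne_zero_of_odd_card (hq ▸ hqodd)
  have hn := finrank_odd (F := F) d
  have hΦ := qs_odd h2 d
  rw [← H22.coe_qOdd] at hrΩ ⊢
  obtain ⟨A, hA, H, h4, h1⟩ := ts_setup hΦ (m := m) (by omega)
  have h3 : ∀ W : Submodule F _, (Module.finrank F W = m ∧ ∀ w ∈ W, H22.qOdd d F w = 0) ↔
    IsoTo (Form.ofQuad (H22.qOdd d F)) (Zf F m) W := fun W => (isoTo_Zf hΦ.k).symm
  simp only [← and_assoc, h3] at hrΩ ⊢
  simp only [and_assoc]
  have h8 : Pl (Form.ofQuad (H22.qOdd d F)) = False := eq_false (mt Pl.even (by grind))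
  rw [el_bridge']
  by_cases hr : r = 2
  · subst hr
    obtain ⟨a1, a2, -⟩ := sq_mod hq h2
    have := hΦ.all_inv_fz h2 (m := m) (by omega) (by omega)
    rw [a2, h8, hn] at this
    rw [el_two']
    refine (forall₂_congr fun g a => ?_).trans (this.trans ?_)
    · simp [ne_neg_of_odd h2 (by simp [hn]) a]
    · simp; omega
  have hrp : r ≠ p := by rintro rfl; exact hΦ.not_dvd_ts r (by omega) hrΩ
  obtain ⟨h5, h6, h9⟩ := op_of p hq hi hrp hr
  have h7 := h5.mz_lt hΦ hA H hrΩ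
  rw [el_odd' hΦ (by omega) h5.pr hr, h5.all_fz hΦ hA H]
  rw [h4, hn, propext h1, h8] at h7 ⊢
  rw [ar5972 h5.pos hc hmd h9 h7]
  simp only [hr, h6, true_and, false_and, false_or, Ne, hrp, not_false_eq_true]

end Cfsg.Agent.S5972
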