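import Cfsg.Statements.S5974
import Cfsg.Agent.H14.El8

set_option autoImplicit false
open scoped MatrixGroups
set_option linter.unusedVariables false
set_option linter.style.haveILetI false
open Cfsg H14.Wall H16 H23 Polynomial
open scoped Matrix

namespace Cfsg.Agent.S5974

theorem ar {d m i c : ℕ} (hi : 0 < i) (hc : c = if Even i then i else 2 * i) (hm : 2 ≤ m)
    (hme : Even m) (hmd : m < d)
    (h : Mx m True i = 0 → Mx (2 * d - m) True i < Mx (2 * d) True i) :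
    Mx (2 * d) True i ≤ Mx m True i + Mx (2 * d - m) True i ↔
      (Odd i ∧ c ≤ m ∧ m % c ≤ (2 * d) % c) ∨
      (Even i ∧ (((2 * d) % c = 0 ∧ (Odd ((2 * d) / i) ∨ (m % c = 0 ∧ Even (m / i)))) ∨
        (i ≤ m ∧ ((m % c < (2 * d) % c ∧ 0 < m % c) ∨
          ((2 * d) % c = m % c ∧ 0 < m % c ∧ Even ((2 * d + m - 2 * ((2 * d) % c)) / i)) ∨
          (0 < (2 * d) % c ∧ m % c = 0 ∧ Even (m / i)))))) := by
  obtain ⟨⟨h0, h0'⟩, h5⟩ := ic hi hc
  have h1 := dm h0 (show m ≤ 2 * d by omega)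
  have h2 := df h0 h0' (x := m) (by grind) (a := 0) (by grind)
  have h3 := df h0 h0' (x := 2 * d) (by omega) (a := 0) (by omega)
  have h4 := df h0 h0' (x := 2 * d - m) (by omega) (a := 0) (by grind)
  have h6 := ds (m := m) (n := 2 * d) h0
  clear hc
  rcases h5 with ⟨e, rfl⟩ | ⟨e, e'⟩
  · simp only [Mx_te e, e, Nat.not_odd_iff_even.2 e, false_and, false_or, true_and,
      dl h0, Nat.even_iff (n := _ / _), Nat.odd_iff (n := _ / _)] at h ⊢
    generalize (2 * d + m - 2 * ((2 * d) % i)) / i = z at *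
    generalize (2 * d - m) / i = w, (2 * d - m) % i = u, m / i = x, m % i = l,
      (2 * d) / i = y, (2 * d) % i = k at *
    clear * - h h0' h1 h2 h3 h4 h6
    rcases h1 with h1 | h1 <;> split_ifs at h ⊢ <;> omega
  · simp only [Mx_to e, e', e, Nat.not_even_iff_odd.1 e, false_and, or_false, true_and, dl h0] at h ⊢
    omega

/-- Elements of prime order of PΩ⁺_n(q), n = 2d ≥ 8, with no fixed nondegenerate hyperbolic `m`-space. Here `T = PΩ⁺_n(q)` is realised through `Ω⁺_n(q)`, the commutator subgroup of the isometry group of `Q = Σ xᵢyᵢ` over the field `F` with `q` elements; an element of `T` of prime order `r` is an element `x` of `Ω⁺_n(q)` with `x^r` scalar and `x` not scalar. A hyperbolic `m`-space is a subspace `W` of even dimension `m` on which the polar form of `Q` is nondegenerate and which contains a totally singular subspace of dimension `m/2`. Let `m` be even with `2 ≤ m < n/2`, and let `r` be a prime dividing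 the number of hyperbolic `m`-spaces, with `r = 2` or `r ≠ p`. For `r ≠ p` let `i` be the multiplicative order of `q` modulo `r`, `c = i` for `i` even and `c = 2i` for `i` odd, and write `k = n mod c`, `ℓ' = m mod c`. Then every element of `T` of order `r` fixes some hyperbolic `m`-space if and only if one of: (i) `r = 2` and (`n ≡ 2 (mod 4)`, or `m ≡ 0 (mod 4)`, or `q ≡ 1 (mod 4)`); (ii) `r ≠ p` odd, `i` odd, `c ≤ m` and `k ≥ ℓ'`; (iii) `r ≠ p` odd, `i` even, and either `k = 0` and (`n/i` odd, or `ℓ' = 0` and `m/i` even), or `i ≤ m` and (`k > ℓ' > 0`, or `k = ℓ' > 0` and `(n + m − 2k)/i` even, or `k > ℓ' = 0` and `m/i` even). -/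
theorem result {F : Type*} [Field F] [Fintype F] {p : ℕ} [Fact p.Prime] [CharP F p] {q : ℕ} (hq : Fintype.card F = q)
    (d m : ℕ) (hd : 4 ≤ d) (hm : 2 ≤ m) (hme : Even m) (hmd : m < d)
    (r : ℕ) [Fact r.Prime] (hr : r = 2 ∨ r ≠ p)
    (hrΩ : r ∣ Nat.card {W : Submodule F (Fin d ⊕ Fin d → F) // (Module.finrank F ↥W = m ∧ (∀ u ∈ W, u ≠ 0 → ∃ v ∈ W, QuadraticMap.polar (Cfsg.quadFormPlus d F) u v ≠ 0) ∧
          ∃ U : Submodule F (Fin d ⊕ Fin d → F), U ≤ W ∧ 2 * Module.finrank F ↥U = m ∧ ∀ u ∈ U, Cfsg.quadFormPlus d F u = 0)})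
    (i c : ℕ) (hi : i = orderOf (q : ZMod r)) (hc : c = if Even i then i else 2 * i) :
    (∀ x : GL (Fin d ⊕ Fin d) F, x ∈ Cfsg.Geo.omegaGL (Cfsg.quadFormPlus d F) →
      (∃ z : F, ((x ^ r : GL (Fin d ⊕ Fin d) F) : Matrix (Fin d ⊕ Fin d) (Fin d ⊕ Fin d) F) = z • (1 : Matrix (Fin d ⊕ Fin d) (Fin d ⊕ Fin d) F)) →
      (∀ z : F, (x : Matrix (Fin d ⊕ Fin d) (Fin d ⊕ Fin d) F) ≠ z • (1 : Matrix (Fin d ⊕ Fin d) (Fin d ⊕ Fin d) F)) →
      ∃ W : Submodule F (Fin d ⊕ Fin d → F), (Module.finrank F ↥W = m ∧ (∀ u ∈ W, u ≠ 0 → ∃ v ∈ W, QuadraticMap.polar (Cfsg.quadFormPlus d F) u v ≠ 0) ∧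
          ∃ U : Submodule F (Fin d ⊕ Fin d → F), U ≤ W ∧ 2 * Module.finrank F ↥U = m ∧ ∀ u ∈ U, Cfsg.quadFormPlus d F u = 0) ∧
        W.map (Matrix.toLin' (x : Matrix (Fin d ⊕ Fin d) (Fin d ⊕ Fin d) F)) ≤ W) ↔
    ((r = 2 ∧ ((2 * d) % 4 = 2 ∨ m % 4 = 0 ∨ q % 4 = 1)) ∨
     (r ≠ p ∧ 2 < r ∧ Odd i ∧ c ≤ m ∧ m % c ≤ (2 * d) % c) ∨
     (r ≠ p ∧ 2 < r ∧ Even i ∧
       (((2 * d) % c = 0 ∧ (Odd ((2 * d) / i) ∨ (m % c = 0 ∧ Even (m / i)))) ∨
        (i ≤ m ∧ ((m % c < (2 * d) % c ∧ 0 < m % c) ∨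
                  ((2 * d) % c = m % c ∧ 0 < m % c ∧ Even ((2 * d + m - 2 * ((2 * d) % c)) / i)) ∨
                  (0 < (2 * d) % c ∧ m % c = 0 ∧ Even (m / i))))))) := by
  classical
  have hn := H22.finrank_plus (F := F) d
  have hΦ := qs_plus (F := F) d
  rw [← H22.coe_qPlus] at hrΩ ⊢
  obtain ⟨Θ, hΘ, A, hA, h1, H, h4, h3⟩ := even_setup hΦ hme (by omega) (by omega) True
  have h3' : ∀ W : Submodule F (Fin d ⊕ Fin d → F), (Module.finrank F W = m ∧ (∀ u ∈ W, u ≠ 0 →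
      ∃ v ∈ W, QuadraticMap.polar (H22.qPlus d F) u v ≠ 0) ∧ ∃ U : Submodule F (Fin d ⊕ Fin d → F),
      U ≤ W ∧ 2 * Module.finrank F U = m ∧ ∀ u ∈ U, H22.qPlus d F u = 0) ↔
      IsoTo (Form.ofQuad (H22.qPlus d F)) Θ W := fun W => by
    rw [h3, iff_true]
    refine and_congr_right fun e => and_congr (forall₃_congr fun u _ _ => ?_)
      (exists_congr fun U => and_congr_right fun _ => e ▸ and_comm)
    simp only [QuadraticMap.polar_comm _ u, and_self]
  simp only [h3'] at hrΩ ⊢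
  have h8 : Pl ((Form.ofQuad (H22.qPlus d F)).restrict A) = True := by
    simpa [pl_plus, h1] using H.pl_prod hΘ hA (by simpa) (by grind)
  have h9 := Module.finrank_fin_fun F (n := m)
  rw [el_bridge]
  by_cases hr2 : r = 2
  · subst hr2
    obtain ⟨k, rfl⟩ := hme.two_dvd
    by_cases hp : p = 2
    · subst hp
      have := FiniteField.even_card_of_char_two (ringChar.eq F 2)
      rw [el_c2_nd hΦ hΘ hA H (by omega) (by omega), wi, wi, wi, if_pos (pl_plus d),
        if_pos (h1.2 trivial), if_pos (of_eq_true h8), h4, hn, h9]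
      simp
      omega
    have h2 := (two_ne_iff (F := F) p).2 hp
    obtain ⟨a1, a2, a3⟩ := sq_mod hq h2
    rw [hΦ.el_two_nd h2 hΘ hn (by omega) (by omega), a2, a3, h9]
    simp only [pl_plus, h1, true_iff, lt_irrefl, false_and, and_false, or_false, true_and,
      Nat.even_iff, Nat.mul_right_inj two_ne_zero, exists_eq_left']
    omega
  have hrp := hr.resolve_left hr2
  rw [el_odd hΦ (by omega) ((Fact.out : r.Prime).odd_of_ne_two hr2) fun _ => fx_neg]
  obtain ⟨h5, h6, -⟩ := op_of p hq hi hrp hr2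
  have h7 := h5.mx_lt hΦ hΘ hA H hrΩ
  rw [h5.all_fx hΦ hΘ hA H]
  rw [h4, hn, h9, h8, eq_true (pl_plus d), propext h1] at h7 ⊢
  rw [ar h5.pos hc hm hme hmd h7]
  simp only [hr2, h6, true_and, false_and, false_or, Ne, hrp, not_false_eq_true]

end Cfsg.Agent.S5974
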