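import Cfsg.Statements.S5980
import Cfsg.Agent.H16.LA36
-- import your own Cfsg.Agent.* helpers here

set_option autoImplicit false
open scoped MatrixGroups
open Cfsg

namespace Cfsg.Agent.S5980

open H16 H14.Wall H23 H23.Form Polynomial Module Matrix in
/-- Elements of prime order of PSp_n(q), q odd, and the stabilizers of tensor decompositions Sp_a(q) ⊗ O_b(q). Here `T = PSp_{2d}(F)` for a field `F` with `q` elements, `q` odd, `d ≥ 2`, realised through the matrices preserving the standard alternating form `f`; `2d = a·b` with `a` even, `b ≥ 3`, and the bijection `e` and change of basis `P` exhibit `f` as a non-zero scalar multiple of the tensor product of a non-degenerate alternating form `f₁` on `F^a` and a non-degenerate symmetric bilinear form `f₂` on `F^b`; `H` is the subgroup of `T` stabilizing this tensor decomposition (the elements of `T` in the conjugate by `P` of the group of Kronecker products) — a subgroup of type Sp_a(q) ⊗ O^ε_b(q) (maximality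 is not assumed). Ω is the set of cosets of `H` in `T`, so an element of `T` of prime order `r` (`x ∈ T` with `x^r` scalar, `x` not scalar) fixes a point of Ω exactly when some `T`-conjugate of `x` lies in `H`. Let `r` be a prime dividing the index of `H`. Then every element of `T` of order `r` fixes a point of Ω if and only if `r = 2` and `a = 2`. -/
theorem result {F : Type*} [Field F] [Fintype F] {p : ℕ} [Fact p.Prime] [CharP F p] {q : ℕ} (hq : Fintype.card F = q)
    (hodd : Odd q) (d : ℕ) (hd : 2 ≤ d) (a b : ℕ) (hab : 2 * d = a * b) (ha : Even a) (ha2 : 2 ≤ a) (hb : 3 ≤ b)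
    (e : (Fin d ⊕ Fin d) ≃ Fin a × Fin b) (P : GL (Fin d ⊕ Fin d) F)
    (f₁ : (Fin a → F) → (Fin a → F) → F) (f₂ : (Fin b → F) → (Fin b → F) → F)
    (hf₁ : Cfsg.Geo.IsSymplecticForm f₁) (hf₂ : Cfsg.Geo.IsSymmetricForm f₂)
    (hS : Cfsg.Geo.IsTensorFormStructure id (Cfsg.sympForm d F) f₁ f₂ e P)
    (r : ℕ) [Fact r.Prime]
    (hΩ : r ∣ (Cfsg.Geo.tensorProductSubgroup a b e P).relIndex (Cfsg.spGL d F)) :
    (∀ x ∈ Cfsg.spGL d F, (∃ z : F, ((x ^ r : GL (Fin d ⊕ Fin d) F) : Matrix (Fin d ⊕ Fin d) (Fin d ⊕ Fin d) F) = z • (1 : Matrix (Fin d ⊕ Fin d) (Fin d ⊕ Fin d) F)) →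
      (∀ z : F, (x : Matrix (Fin d ⊕ Fin d) (Fin d ⊕ Fin d) F) ≠ z • (1 : Matrix (Fin d ⊕ Fin d) (Fin d ⊕ Fin d) F)) →
      ∃ g ∈ Cfsg.spGL d F, g⁻¹ * x * g ∈ Cfsg.Geo.tensorProductSubgroup a b e P) ↔ (r = 2 ∧ a = 2) := by
  subst hq
  have : Nonempty (Fin d) := ⟨⟨0, by omega⟩⟩
  obtain ⟨Ψ, h1, h2, h3, h4⟩ := exists_form_of_isSymplecticForm hf₁
  obtain ⟨c, h5⟩ := tE_form hf₁.bilinear hf₂.bilinear hS
  let β := LinearMap.mk₂ F f₂ hf₂.bilinear.add_left hf₂.bilinear.smul_left hf₂.bilinear.add_right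
    hf₂.bilinear.smul_right
  have hT : ∀ x w x' w', (spForm d F).B (tE e P (x ⊗ₜ w)) (tE e P (x' ⊗ₜ w')) =
      Ψ.B x x' * (c • β) w w' := fun x w x' w' => by rw [spForm_B, h5, h4]; rfl
  have hΦ := spForm_nondeg (F := F) d
  refine ⟨fun H => ?_, ?_⟩
  · have := allP_of hΦ mem_spGL_pres H
    rw [ep_tensor] at this
    simpa using not_allETP hT p hΦ rfl rfl h1 h3 Fact.out (by simpa) (by simpa)
      (card_eq_O (mem_spGL_pres (F := F) (d := d)) ▸ hΩ.trans (Subgroup.relIndex_dvd_card _ _)) this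
  · rintro ⟨rfl, rfl⟩
    have h6 : (2 : F) ≠ 0 := cast_ne_zero_of_coprime (r := 2) (by simpa using hodd)
    refine of_allP hΦ rfl rfl h6 mem_spGL_pres ?_
    rw [ep_tensor]
    exact allETP_two hT h6 hΦ rfl rfl h1 h2 h3 ⟨fun u v => congrArg (c * ·) (hf₂.symm u v)⟩ (by simp)

end Cfsg.Agent.S5980
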