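import Cfsg.Statements.S5983
import Cfsg.Agent.H16.LA27
-- import your own Cfsg.Agent.* helpers here

set_option autoImplicit false
open scoped MatrixGroups
open Cfsg

namespace Cfsg.Agent.S5983

open H16 H14.Wall H23 H23.Form Polynomial Module Matrix in
/-- Elements of prime order of PSp_n(q), q even, and the subgroups of orthogonal type. Here `T = Sp_{2d}(F)` for a field `F` of characteristic 2 with `q` elements (`d ≥ 2`, `(d, q) ≠ (2, 2)`), realised as the invertible matrices preserving the standard alternating form; `Q` is a non-degenerate quadratic form on `F^{2d}` whose polar form is that alternating form, and `H` is the subgroup of `T` preserving `Q` up to a scalar (equivalently preserving `Q`) — a subgroup of type O^±_{2d}(q) (maximality is not assumed); `Q` is of plus type when `F^{2d}` contains a `d`-dimensional subspace on which `Q` vanishes, of minus type otherwise. Ω is the set of cosets of `H` in `T`, so an element of `T` of prime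 order `r` (`x ∈ T` with `x^r` scalar, `x` not scalar) fixes a point of Ω exactly when some `T`-conjugate of `x` preserves `Q`. Let `r` be a prime dividing the index of `H`. Then every element of `T` of order `r` fixes a point of Ω if and only if `r = 2` and either `Q` is of plus type or `d` is odd. -/
theorem result {F : Type*} [Field F] [Fintype F] {p : ℕ} [Fact p.Prime] [CharP F p] {q : ℕ} (hq : Fintype.card F = q)
    (hp : p = 2) (d : ℕ) (hd : 2 ≤ d) (hT : (d, q) ≠ (2, 2)) (Q : (Fin d ⊕ Fin d → F) → F) (hQ : Cfsg.Geo.IsNondegenerateQuadraticForm Q)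
    (hQf : ∀ u v, QuadraticMap.polar Q u v = Cfsg.sympForm d F u v)
    (r : ℕ) [Fact r.Prime]
    (hΩ : r ∣ (Cfsg.Geo.quadSimilarityGroup Q).relIndex (Cfsg.spGL d F)) :
    (∀ x ∈ Cfsg.spGL d F, (∃ z : F, ((x ^ r : GL (Fin d ⊕ Fin d) F) : Matrix (Fin d ⊕ Fin d) (Fin d ⊕ Fin d) F) = z • (1 : Matrix (Fin d ⊕ Fin d) (Fin d ⊕ Fin d) F)) →
      (∀ z : F, (x : Matrix (Fin d ⊕ Fin d) (Fin d ⊕ Fin d) F) ≠ z • (1 : Matrix (Fin d ⊕ Fin d) (Fin d ⊕ Fin d) F)) →
      ∃ g ∈ Cfsg.spGL d F, g⁻¹ * x * g ∈ Cfsg.Geo.quadSimilarityGroup Q) ↔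
    (r = 2 ∧ (Cfsg.Geo.IsPlusTypeOn Q ⊤ ∨ Odd d)) := by
  classical
  subst hq hp
  obtain ⟨Q, rfl, hΘ⟩ := exists_quad hQ
  have hr : r.Prime := Fact.out
  have := nontrivial_sp (F := F) (d := d) (by omega)
  have hΦ := spForm_nondeg (F := F) d
  have hV := finrank_sp (F := F) d
  have hB : ∀ u v, (ofQuad Q).B u v = (spForm d F).B u v := fun u v => by
    rw [spForm_B, ← hQf, ofQuad_B]
  have h1 : ∀ g, Pres (ofQuad Q) g → Pres (spForm d F) g := fun g h =>
    ⟨fun x y => by rw [← hB, ← hB, h.B], fun _ => rfl⟩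
  have h2 : ∀ y : GL _ F, y ∈ Geo.quadSimilarityGroup Q ⊓ spGL d F ↔
      Pres (ofQuad Q) (toLin' y.1) := fun y => by
    refine ⟨fun ⟨⟨c, h2⟩, h3⟩ => ?_, fun h => ⟨⟨1, fun v => by simpa using h.Q v⟩,
      (mem_spGL_pres y).2 (h1 _ h)⟩⟩
    have h4 := ((mem_spGL_pres y).1 h3).B
    obtain ⟨u, hu⟩ := exists_ne (0 : Fin d ⊕ Fin d → F)
    obtain ⟨v, hv⟩ := hΦ.exists_ne hu
    have h5 := h4 u v
    rw [← hB, ← hB, ofQuad_B, ofQuad_B, QuadraticMap.polar, ← map_add] at h5
    simp only [toLin'_apply, h2, ← mul_sub] at h5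
    rw [← QuadraticMap.polar, ← ofQuad_B, hB, hv, mul_one] at h5
    exact ⟨fun x y => by rw [hB, hB, h4], fun v => by simpa [h5] using h2 v⟩
  rw [gl_forall_iff mem_spGL_pres (fun g h => h.inj hΦ) (fun g => ∃ h, Pres (ofQuad Q) h ∧
    Iso (spForm d F) h (spForm d F) g) fun x hx => (conj_mem_iff mem_spGL_pres hx).trans
      ⟨fun ⟨y, h3, h4, h5⟩ => ⟨_, (h2 y).1 ⟨h3, (mem_spGL_pres y).2 h4⟩, h5⟩, fun ⟨h, h3, h4⟩ => by
        obtain ⟨y, rfl⟩ := exists_GL_of_inj (h3.inj hΘ)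
        exact ⟨y, ((h2 y).2 h3).1, h1 _ h3, h4⟩⟩]
  have h3 : Geo.IsPlusTypeOn Q ⊤ ↔ IsPlus (ofQuad Q) d := ⟨fun ⟨U, _, h3, h4⟩ =>
    isPlus_of_totSing hΘ rfl hV h3 (by rw [finrank_top, hV] at h4; omega), fun h => by
      obtain ⟨U, h3, h4⟩ := h.exists_totSing
      exact ⟨U, le_top, h3.2, by rw [finrank_top, hV, h4]⟩⟩
  rw [h3]
  by_cases hr2 : r = 2
  · subst hr2
    have h4 : ∀ g, IA (ofQuad Q) g ↔ IA (spForm d F) g := fun g => by simp only [IA, hB]
    simp only [true_and]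
    constructor
    · intro h
      by_contra h5
      rw [not_or, Nat.not_odd_iff_even] at h5
      obtain ⟨g, hg, h6, h7, h8⟩ := exists_inv_alt_a hΦ rfl h5.2 hV.ge
      obtain ⟨k, h9, H⟩ := h g hg ⟨1, by rw [sq, h6, one_smul]⟩ (not_scalar_char2 hΦ hg (by omega))
      exact h5.1 (isPlus_of_totSing hΘ rfl hV (IsA.totSing (g := h9.toO hΘ) (toO_mul_self hΘ h9
        (mul_self_of_sim H.sim.symm h6)) ((h4 k).2 ((ia_of_iso H).2 h8))).2 (H.sim.rkE_eq.trans h7))
    · rintro h g hg ⟨z, hz⟩ h5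
      have h6 := sq_eq_one_char2 hΦ hg hz
      have h7 := two_rkE_le hΦ hg h6
      have h8 : rkE g ≠ 0 := fun h => h5 1 (by rw [one_smul, rkE_eq_zero.1 h])
      obtain ⟨W, h9, h10, h11⟩ := exists_max_ts hΘ rfl
      obtain ⟨k, h12, h13, h14⟩ := (exists_type_iff hΘ (Or.inr rfl) hV h9 rfl h10 (by omega) (rkE g)
        (IA (spForm d F) g)).2 (by
          by_cases h12 : IA (spForm d F) g
          · refine Or.inl ⟨h12, by omega, h12.even hΦ hg, ?_⟩
            rcases h with h | h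
            · obtain ⟨U, h13, h14⟩ := h.exists_totSing
              have := h10 U h13; omega
            · have := Nat.even_iff.1 (h12.even hΦ hg)
              have := Nat.odd_iff.1 h
              omega
          · exact Or.inr ⟨h12, by omega, by omega⟩)
      exact ⟨_, pres_O k, iso_invol hΦ (Iso.refl _ _) hg (h1 _ (pres_O k)) h6 (congrArg
        (fun k : (ofQuad Q).O => k.1.toLinearMap) (orderOf_two_iff.1 h12).1) h13
        ((h4 _).symm.trans h14)⟩
  refine iff_of_false (fun h => ?_) (by simp [hr2])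
  have hr0 : (r : F) ≠ 0 := cast_ne_zero_of_ne 2 hr hr2
  have hq1 : 1 < Fintype.card F := Fintype.one_lt_card
  have hpos := orderOf_card_pos hr hr0
  have h4 := relIndex_mul_card (spGL d F) (Geo.quadSimilarityGroup Q)
  rw [card_eq_O h2, card_eq_O mem_spGL_pres, H22.card_O_alt d _ hΦ rfl rfl hV] at h4
  obtain ⟨s, h5, h6, h7, h8⟩ : ∃ s : Multiset F[X], (∀ a ∈ s, a ∈ Tr F r) ∧ s.map rev = s ∧
      s.card * orderOf (Fintype.card F : ZMod r) = 2 * d ∧ (IsPlus (ofQuad Q) d ↔ Odd s.card) := by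
    obtain ⟨m, rfl⟩ : ∃ m, d = m + 1 := ⟨d - 1, by omega⟩
    obtain ⟨f, hf⟩ := Tr_nonempty hr hr0
    have h5 : 0 < ∏ i ∈ Finset.range m, (Fintype.card F ^ (2 * (i + 1)) - 1) :=
      Finset.prod_pos fun i _ => Nat.sub_pos_of_lt (Nat.one_lt_pow (by omega) hq1)
    have h6 : 1 < Fintype.card F ^ (m + 1) := Nat.one_lt_pow (by omega) hq1
    have h7 : Fintype.card F ^ (2 * (m + 1)) - 1 =
        (Fintype.card F ^ (m + 1) + 1) * (Fintype.card F ^ (m + 1) - 1) := by
      rw [← Nat.sq_sub_sq, one_pow, ← pow_mul, mul_comm]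
    have h8 := (coprime_card_of_cast hr hr0).pow_right ((m + 1) ^ 2)
    rw [Finset.prod_range_succ, h7, mul_comm (∏ _ ∈ _, _), ← mul_assoc] at h4
    by_cases h9 : IsPlus (ofQuad Q) (m + 1)
    · rw [h9.card_O, ← mul_assoc, ← mul_assoc, ← mul_assoc, ← mul_assoc] at h4
      have h12 := Nat.eq_of_mul_eq_mul_right (Nat.sub_pos_of_lt h6)
        (Nat.eq_of_mul_eq_mul_right h5 h4)
      have h10 := h8.dvd_of_dvd_mul_left (h12 ▸ (hΩ.mul_right _).mul_right _)
      have h11 := (exists_dvd_pow_add_one_iff hr hr2 hpos).1 ⟨_, h10⟩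
      obtain ⟨t, ht⟩ := (c_dvd_iff (by omega) rfl (if_pos h11).symm (m + 1)).2
        (by rw [← pow_mul, h7]; exact h10.mul_right _)
      refine ⟨Multiset.replicate t f, fun a ha => Multiset.eq_of_mem_replicate ha ▸ hf, by
        rw [Multiset.map_replicate, ← dual_id, (rev_eq_self_iff hr hr2 hr0 hf).2 h11], by
          simp [ht, mul_comm], iff_of_true h9 ?_⟩
      rw [Multiset.card_replicate, ← Nat.not_even_iff_odd]
      rintro ⟨t, rfl⟩
      have h12 : (Fintype.card F : ZMod r) ^ (m + 1) = 1 :=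
        orderOf_dvd_iff_pow_eq_one.1 ⟨t, by linarith⟩
      have h13 := (ZMod.natCast_eq_zero_iff _ _).2 h10
      push_cast at h13
      rw [h12] at h13
      exact hr2 ((Nat.prime_dvd_prime_iff_eq hr Nat.prime_two).1
        ((ZMod.natCast_eq_zero_iff 2 r).1 (by push_cast; linear_combination h13)))
    · rw [card_O_minus hΘ rfl hV h9, mul_comm (_ ^ (m + 1) + 1) (_ - 1), ← mul_assoc, ← mul_assoc,
        ← mul_assoc, ← mul_assoc] at h4
      have h12 := Nat.eq_of_mul_eq_mul_right (Nat.succ_pos _) (Nat.eq_of_mul_eq_mul_right h5 h4)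
      have h10 := h8.dvd_of_dvd_mul_left (h12 ▸ (hΩ.mul_right _).mul_right _)
      obtain ⟨t, ht⟩ : orderOf (Fintype.card F : ZMod r) ∣ m + 1 := by
        rw [orderOf_dvd_iff_pow_eq_one, ← sub_eq_zero]
        simpa [h6.le] using (ZMod.natCast_eq_zero_iff _ _).2 h10
      have h11 := as_hyp (s := Multiset.replicate t f) fun q hq =>
        Multiset.eq_of_mem_replicate hq ▸ ⟨hf.1, Tr_coeff hr hf⟩
      refine ⟨_, fun a ha => ?_, h11.1, by simp [ht]; ring, iff_of_false h9 (by simp)⟩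
      rw [Multiset.map_replicate, Multiset.mem_add] at ha
      rcases ha with ha | ha <;> rw [Multiset.eq_of_mem_replicate ha]
      · exact hf
      · exact dual_id f ▸ dual_mem_Tr (fun _ => rfl) hr hf
  obtain ⟨g, hg, h9⟩ := exists_alt_Tr hΦ rfl rfl hr hr2 hr0 h5 h6 (k := 0) (by rw [h7, hV]; rfl)
  obtain ⟨f, hf⟩ := Multiset.exists_mem_of_ne_zero (s := s) (by rintro rfl; simp at h7; omega)
  have h10 := pow_of_ed_Tr hr h5 (by rintro rfl; simp at hf) h9
  rw [Multiset.replicate_zero, add_zero] at h9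
  obtain ⟨k, h11, H⟩ := h g hg ⟨1, by simpa using h10.1⟩ fun z e =>
    not_scalar_of_mem (h9 ▸ hf) (Tr_ne_lin hr hr2 (h5 f hf) (scalar_norm hΦ (e ▸ hg))) e
  have h12 := isPlus_iff_even hΘ rfl hV hr hr2 hr0 h11 (by rw [H.sim.ed_eq, h9]; exact h5)
  rw [H.sim.ed_eq, h9, h8, ← Nat.not_even_iff_odd] at h12
  exact not_iff_self h12

end Cfsg.Agent.S5983
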