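import Cfsg.Statements.S5984
import Cfsg.Agent.H16.LA28
-- import your own Cfsg.Agent.* helpers here

set_option autoImplicit false
open scoped MatrixGroups
open Cfsg

namespace Cfsg.Agent.S5984

open H16 H14.Wall H23 H23.Form Polynomial Module Matrix in
/-- Elements of prime order of PSU_n(q) and the stabilizers of pairs of complementary totally singular subspaces. Here `T = PSU_n(q)` is realised through `SU_n(q)`, the matrices of determinant 1 over the field `F` with `q²` elements preserving the hermitian form `Σ uᵢ vᵢ^q`, with `n ≥ 4` even; `D` is a pair of complementary subspaces of dimension `n/2` on each of which the form vanishes identically, and `H` is the subgroup of `SU_n(q)` fixing or interchanging the two members — a subgroup of type GL_{n/2}(q²).2 (maximality is not assumed). Ω is the set of cosets of `H`, so an element of `T` of prime order `r` (`x ∈ SU_n(q)` with `x^r` scalar, `x` not scalar) fixes a point of Ω exactly when some `SU_n(q)`-conjugate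 of `x` lies in `H`. Let `r` be a prime dividing the index of `H`. Then every element of `T` of order `r` fixes a point of Ω if and only if `r = 2`, `q` is odd and `(q + 1)_2 ≤ (n)_2` (2-parts). -/
theorem result {F : Type*} [Field F] [Fintype F] {p : ℕ} [Fact p.Prime] [CharP F p] {q : ℕ} (hq : Fintype.card F = q ^ 2)
    (n : ℕ) (hn : 4 ≤ n) (he : Even n) (D : Fin 2 → Submodule F (Fin n → F)) (hD : Cfsg.Geo.IsMDecomposition (n / 2) D)
    (hDs : ∀ i, Cfsg.Geo.IsTotallySingularFor (Cfsg.hermForm n F q) (D i))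
    (r : ℕ) [Fact r.Prime]
    (hΩ : r ∣ (Cfsg.Geo.decompositionStabilizer D).relIndex (Cfsg.GU n F q ⊓ Cfsg.Geo.specialLinear (Fin n) F)) :
    (∀ x ∈ Cfsg.GU n F q ⊓ Cfsg.Geo.specialLinear (Fin n) F, (∃ z : F, ((x ^ r : GL (Fin n) F) : Matrix (Fin n) (Fin n) F) = z • (1 : Matrix (Fin n) (Fin n) F)) →
      (∀ z : F, (x : Matrix (Fin n) (Fin n) F) ≠ z • (1 : Matrix (Fin n) (Fin n) F)) →
      ∃ g ∈ Cfsg.GU n F q ⊓ Cfsg.Geo.specialLinear (Fin n) F, g⁻¹ * x * g ∈ Cfsg.Geo.decompositionStabilizer D) ↔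
    (r = 2 ∧ Odd q ∧ padicValNat 2 (q + 1) ≤ padicValNat 2 n) := by
  classical
  have hr : r.Prime := Fact.out
  have hq2 := two_le_of_card_eq_sq hq
  have : Nonempty (Fin n) := ⟨⟨0, by omega⟩⟩
  have hΦ := huForm_nondeg hq n
  have hV : finrank F (Fin n → F) = n := by simp
  have hc := isCompl_of_two hD.indep hD.iSup_eq_top
  have hT : ∀ i, (huForm hq n).TotSing (D i) := fun i => (herm_ts_iff hq).1 (hDs i)
  have hK := exists_pair_det hΦ (hT 0) (hT 1) hc
  rw [gl_forall_iff (C := fun g => Pres (huForm hq n) g ∧ LinearMap.det g = 1) (mem_SU_pres hq)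
    (fun g h => h.1.inj hΦ) (PP (huForm hq n)) fun x hx => ?_]
  swap
  · refine ⟨fun ⟨g, h1, π, h2⟩ => (pp_of_dec hc hT h2).of_iso ⟨glE _ F g,
      ((mem_SU_pres hq g).1 h1).1.B, fun _ => rfl, conj_eq_iff.1 rfl⟩, fun ⟨A, B, h1, h2, h3, h4⟩ => ?_⟩
    obtain ⟨φ⟩ := FiniteDimensional.nonempty_linearEquiv_of_finrank_eq (show finrank F (D 0) =
      finrank F A by
        have := finrank_eq_of_tsPair hΦ h2 h3 h1
        have := finrank_eq_of_tsPair hΦ (hT 0) (hT 1) hc
        omega)
    obtain ⟨k, h5, h6⟩ := exists_pair_map hΦ (hT 0) (hT 1) hc h2 h3 h1 φ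
    have h7 : (D 0).map k.1.toLinearMap = A := map_eq_of_le (by
      rintro _ ⟨x, hx, rfl⟩; exact (h5 ⟨x, hx⟩).symm ▸ (φ ⟨x, hx⟩).2) φ.finrank_eq.ge
    have h8 := det_norm hΦ (pres_O k)
    obtain ⟨k', ⟨h9, h10⟩, h11⟩ := hK _ (show (LinearMap.det k.1.toLinearMap)⁻¹ ^ (q + 1) = 1 by
      rw [inv_pow, h8, inv_one])
    obtain ⟨g, hg⟩ := (glE _ F).surjective (k * k').1
    have h12 : toLin' g.1 = k.1.toLinearMap ∘ₗ k'.1.toLinearMap := by
      rw [← glE_toLinearMap, hg]; rfl
    have h13 : ∀ i j, ((D i).map (toLin' g.1)).map (toLin' x.1) = (D j).map (toLin' g.1) →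
        (D i).map (toLin' (g⁻¹ * x * g).1) = D j := fun i j h => Submodule.map_injective_of_injective
      (f := toLin' g.1) (glE _ F g).injective ((map_map_of_comm (conj_eq_iff.1 rfl) _).symm.trans h)
    have h14 : (D 0).map (toLin' g.1) = A := by
      rw [h12, Submodule.map_comp, show (D 0).map k'.1.toLinearMap = D 0 from h9, h7]
    have h15 : (D 1).map (toLin' g.1) = B := by
      rw [h12, Submodule.map_comp, show (D 1).map k'.1.toLinearMap = D 1 from h10, h6]
    refine ⟨g, (mem_SU_pres hq g).2 ⟨h12 ▸ pres_O (k * k'), by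
      rw [h12, LinearMap.det_comp, h11, mul_inv_cancel₀ fun h => by simp [h] at h8]⟩, ?_⟩
    rcases h4 with ⟨h4, h4'⟩ | ⟨h4, h4'⟩
    · exact ⟨1, Fin.forall_fin_two.2 ⟨h13 0 0 (by rw [h14, h4]), h13 1 1 (by rw [h15, h4'])⟩⟩
    · exact ⟨Equiv.swap 0 1, Fin.forall_fin_two.2
        ⟨h13 0 1 (by rw [h14, h15, h4]), h13 1 0 (by rw [h14, h15, h4'])⟩⟩
  have hco : ¬ r ∣ q + 1 → _ := fun h => herm_forall_coprime hΦ hr h (PP (huForm hq n))
    fun c g hc h => h.of_smul hc
  have hpq := char_dvd_of_sq hq p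
  by_cases hrp : r = p
  · subst hrp
    refine iff_of_false ?_ (by rintro ⟨rfl, h, -⟩; have := Nat.odd_iff.1 h; omega)
    rw [hco fun h => hr.one_lt.ne' (Nat.dvd_one.1 ((Nat.dvd_add_right hpq).1 h))]
    intro h
    obtain ⟨g, hg, h9⟩ := exists_herm hΦ rfl (s := uni F (2 ::ₘ Multiset.replicate (n - 2) 1))
      (uni_isPP (by simp +contextual [Multiset.mem_replicate]))
      (fun p hp => by obtain ⟨a, -, rfl⟩ := Multiset.mem_map.1 hp; simp [coeff_zero_eq_eval_zero])
      (dual_uni _ _) (by rw [uni_natDegree, hV]; simp; omega)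
    rcases (h g hg (pow_of_ed_uni r h9 (by simp +contextual [Multiset.mem_replicate, hr.two_le,
      hr.one_le])) (by simpa using not_scalar_of_uni h9 (a := 2) (by simp) (by simp) 1)).cases hΦ hg
      with ⟨s, h1⟩ | h1
    · have := even_count_hyp (conj_conj hq) h1 (ed_coeff_ne hΦ hg) (f := (X - C 1) ^ 2)
        (by rw [dual_pow, dual_lin_one])
      rw [h9, count_uni] at this
      simp [Multiset.count_replicate] at this
    · have := h1 1
      rw [kd_uni h9, hV] at this
      simp at this; omega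
  have hr0 : (r : F) ≠ 0 := cast_ne_zero_of_ne p hr hrp
  by_cases h2 : r = 2
  · subst h2
    have h2 : (2 : F) ≠ 0 := by simpa using hr0
    have hq' := odd_of_two_ne hq h2
    have he' := Nat.even_iff.1 he
    simp only [hq', true_and]
    constructor
    · intro h
      by_contra h3
      rw [not_le, ← exists_norm_neg_iff hq hq' (by omega)] at h3
      obtain ⟨c, h4, h5⟩ := h3
      have hc : c ≠ 0 := by rintro rfl; simp at h4
      obtain ⟨g, hg, h6⟩ := exists_herm_lin hΦ rfl hq' h4 (a := 1) (b := n - 1) (by omega)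
      rcases (h g ⟨hg, by
        rw [det_of_lin h6, (Nat.odd_iff.2 (by omega)).neg_pow, mul_neg, ← pow_add,
          show 1 + (n - 1) = n by omega, h5, neg_neg]⟩ ⟨_, pow_of_lin h6⟩
        (not_scalar_of_lin h2 hc (by omega) (by omega) h6)).cases hΦ hg with ⟨s, h1⟩ | h1
      · have := even_count_hyp (conj_conj hq) h1 (ed_coeff_ne hΦ hg) (dual_lin_norm h4)
        rw [h6, Multiset.count_add, Multiset.count_replicate_self, Multiset.count_replicate,
          if_neg (lin_ne_neg h2 hc).symm] at this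
        simp at this
      · have h7 := h1 (-c)
        have := kd_ge_count (h6 ▸ Multiset.le_add_left _ _)
        rw [natDegree_X_sub_C] at this
        omega
    · rintro h g ⟨hg, h3⟩ ⟨z, hz⟩ -
      obtain ⟨c, a, b, h4, h5, h6 | ⟨h6, rfl⟩⟩ := herm_sq_cases h2 hΦ hg hz
      · have h7 : b % 2 = 0 := by
          by_contra h7
          have h8 : Odd b := Nat.odd_iff.2 (by omega)
          rw [det_of_lin h5, h8.neg_pow, mul_neg, ← pow_add, h4, hV, neg_eq_iff_eq_neg] at h3
          have := (exists_norm_neg_iff hq hq' (by omega)).1 ⟨c, h6, h3⟩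
          omega
        refine pp_of_uq hΦ hg (uq_herm (conj_ne_id hq) hΦ hg) (s := Multiset.replicate (a / 2)
          (X - C c) + Multiset.replicate (b / 2) (X - C (-c))) ?_
        rw [h5, Multiset.map_add, Multiset.map_replicate, Multiset.map_replicate, dual_lin_norm h6,
          dual_lin_norm (by rw [hq'.add_one.neg_pow, h6]), add_add_add_comm,
          ← Multiset.replicate_add, ← Multiset.replicate_add, show a / 2 + a / 2 = a by omega,
          show b / 2 + b / 2 = b by omega]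
      · exact pp_of_uq hΦ hg (uq_herm (conj_ne_id hq) hΦ hg) (s := Multiset.replicate a (X - C c))
          (by rw [h5, Multiset.map_replicate, dual_lin_neg h6])
  refine iff_of_false (fun h => ?_) (by simp [h2])
  obtain ⟨d, rfl⟩ := even_iff_two_dvd.1 he
  have h3 := card_SU_mul hq (n := 2 * d) (by omega)
  have h4 : glc (q ^ 2) d ∣ (q + 1) * Nat.card (Geo.decompositionStabilizer D ⊓ (GU (2 * d) F q ⊓
      Geo.specialLinear (Fin (2 * d)) F) : Subgroup _) := by
    have h4 := glc_dvd_card_stab hΦ (hT 0) (hT 1) hc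
    rw [← succ_mul_card_ker_inf hq hΦ hK, hq, hD.finrank_eq, Nat.mul_div_cancel_left _ two_pos] at h4
    refine h4.trans (mul_dvd_mul_left _ (card_dvd_of_glE fun k ⟨h5, h6, h7⟩ => ⟨⟨1, ?_⟩,
      (mem_SU_pres hq _).2 ?_⟩)) <;> rw [glE_symm_coe, toLin'_toMatrix']
    exacts [Fin.forall_fin_two.2 ⟨h6, h7⟩, ⟨pres_O k, mem_ker_detO.1 h5⟩]
  rw [← relIndex_mul_card _ (Geo.decompositionStabilizer D), mul_left_comm, uf_two_mul,
    mul_comm (qf _ _), ← mul_assoc (q ^ _)] at h3
  have h5 := (mul_dvd_mul hΩ ((Dvd.intro_left _ (glc_eq _ _).symm).trans h4)).trans h3.dvd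
  obtain ⟨j, h6, h7⟩ := (hr.prime.dvd_finsetProd_iff _).1 ((((coprime_card_of_cast hr
    hr0).coprime_dvd_right (hq ▸ dvd_pow_self q two_ne_zero)).pow_right _).dvd_of_dvd_mul_left
      (Nat.dvd_of_mul_dvd_mul_right (qf_pos (Nat.one_lt_pow two_ne_zero hq2) d) h5))
  have h8 := Finset.mem_range.1 h6
  obtain ⟨⟨t, ht⟩, h9⟩ := dvd_of_pow_eq_neg_one (x := (q : ZMod r)) (m := 2 * j + 1) h2 (by
    simpa [eq_neg_iff_add_eq_zero] using (ZMod.natCast_eq_zero_iff _ _).2 h7)
  obtain ⟨u, hu⟩ : 2 ∣ orderOf (q : ZMod r) := by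
    by_contra h6
    exact h9 ((Nat.coprime_two_right.2 (Nat.odd_iff.2 (by omega))).dvd_of_dvd_mul_left ⟨t, ht⟩)
  have h10 : 2 * j + 1 = u * t := by rw [hu] at ht; linarith
  have h11 := Nat.odd_iff.1 (Nat.odd_mul.1 (h10 ▸ odd_two_mul_add_one j)).1
  have h12 := Nat.le_of_dvd (by omega) (Dvd.intro _ h10.symm)
  have h13 : u = orderOf (Fintype.card F : ZMod r) :=
    (Tr_conj_cases hq hr h2 hr0 rfl (by simp [hu]) rfl).1
  have h14 : ∀ a ∈ Tr F r, dual (conj hq) a = a := fun a ha =>
    (conj_dual_iff hr h2 hr0 ha).2 (by omega)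
  obtain ⟨s, f, h15, h16, h17, h18⟩ : ∃ (s : Multiset F[X]) (f : F[X]), (∀ a ∈ s, a ∈ Tr F r) ∧
      s.count f = 1 ∧ s.card * u < 2 * d ∧ (r ∣ q + 1 → s.map rev = s) := by
    by_cases h15 : r ∣ q + 1
    · have h16 : u = 1 := by have := (orderOf_eq_two_iff_dvd hr h2).2 h15; omega
      obtain ⟨ρ, h17, h18, h19, h20⟩ := exists_sym_nodup hr h2 hr0 (h13.symm.trans h16) (M := 1)
        (by have := hr.two_le; omega)
      obtain ⟨f, hf⟩ := Multiset.exists_mem_of_ne_zero (s := ρ) (by rintro rfl; simp at h20)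
      exact ⟨ρ, f, h18, Multiset.count_eq_one_of_mem h17 hf, by rw [h20]; omega, fun _ => h19⟩
    · obtain ⟨f, hf⟩ := Tr_nonempty hr hr0
      exact ⟨{f}, f, by simpa using hf, by simp, by simp; omega, fun h => absurd h h15⟩
  have hf : f ∈ s := Multiset.count_pos.1 (by omega)
  obtain ⟨g, hg, h19⟩ := exists_herm_Tr hΦ rfl hr hr0 h15 ((Multiset.map_congr rfl fun a ha =>
    h14 a (h15 a ha)).trans (Multiset.map_id' _)) (k := 2 * d - s.card * u) (by rw [← h13, hV]; omega)
  obtain ⟨h20, h21⟩ := pow_of_ed_Tr hr h15 (by rintro rfl; simp at hf) h19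
  have h22 : PP (huForm hq (2 * d)) g := by
    by_cases h22 : r ∣ q + 1
    · exact h g ⟨hg, det_eq_one_of_rev (hr.odd_of_ne_two h2) h20 (by
        rw [h19, Multiset.map_add, h18 h22, Multiset.map_replicate, rev_lin (by simp)])⟩
        ⟨1, by simpa using h20⟩ (not_scalar_of_Tr hr h15 (by rintro rfl; simp at hf) (by omega) h19)
    · exact (hco h22).1 h g hg h20 h21
  obtain ⟨s', h23⟩ := h22.ed_eq hΦ hg (hr.odd_of_ne_two h2) one_ne_zero (by simpa using h20)
  have := even_count_hyp (conj_conj hq) h23 (ed_coeff_ne hΦ hg) (h14 f (h15 f hf))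
  rw [h19, Multiset.count_add, h16, Multiset.count_replicate, if_neg (Tr_ne hr (h15 f hf)).symm] at this
  simp at this

end Cfsg.Agent.S5984
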