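import Cfsg.Statements.S5988
import Cfsg.Agent.H14.El8

set_option autoImplicit false
open scoped MatrixGroups
set_option linter.unusedVariables false
set_option linter.style.haveILetI false
open Cfsg H14.Wall H16 H23 Polynomial
open scoped Matrix

namespace Cfsg.Agent.S5988

/-- Elements of prime order of PΩ⁺_n(q) with no fixed elliptic `m`-space. Here `T = PΩ⁺_n(F)`, `n = 2d ≥ 8`, realised through `Ω⁺_n(q)`, the commutator subgroup of the isometry group of `Q = Σ xᵢyᵢ` over the field `F` with `q` elements; an element of `T` of prime order `r` is an element `x` of `Ω⁺_n(q)` with `x^r` scalar and `x` not scalar; a nondegenerate `m`-space (even `m`) is a subspace on which the polar form of `Q` is nondegenerate; it is hyperbolic if it contains an `m/2`-dimensional subspace on which `Q` vanishes, elliptic otherwise. Let `m` be even with `2 ≤ m < n/2` and let `r` be a prime dividing the number of elliptic `m`-spaces; for `r ≠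 p` let `i` be the multiplicative order of `q` modulo `r`, `c = i` for `i` even and `c = 2i` for `i` odd, and write `k = n mod c`, `ℓ = m mod i`, `ℓ' = m mod c`, `n' = ⌊n/i⌋`, `m' = ⌊m/i⌋`, `t = (r−1)/i`. Then every element of `T` of order `r` fixes some elliptic `m`-space if and only if one of: (i) `r = 2 ≠ p` and either `n ≡ 0 (mod 4)`, `q ≡ 3 (mod 4)` and `m ≡ 2 (mod 4)`, or `n ≡ 2 (mod 4)` and `q ≢ 1 (mod 8)`; (ii) `r ≠ p` odd, `i` odd, `c ≤ m` and `k > ℓ' > 0`; (iii) `r ≠ p` odd, `i` even, and either `k = 0` and (`n/i` odd, or `ℓ' = 0` and `m/i` odd), or `i ≤ m` and (`k > ℓ' > 0`, or `k = ℓ' > 0` and `(n + m − 2k)/i` odd, or `k > ℓ' = 0` and `m/i` odd). (For `r = p` there is always an element of order `p` fixing no elliptic `m`-space.) -/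
theorem result {F : Type*} [Field F] [Fintype F] {p : ℕ} [Fact p.Prime] [CharP F p] {q : ℕ} (hq : Fintype.card F = q)
    (d m : ℕ) (hd : 4 ≤ d) (hm : 2 ≤ m) (hme : Even m) (hmd : m < d)
    (r : ℕ) [Fact r.Prime]
    (hrΩ : r ∣ Nat.card {W : Submodule F (Fin d ⊕ Fin d → F) // Module.finrank F ↥W = m ∧ Cfsg.Geo.IsNondegenerateOn (QuadraticMap.polar (Cfsg.quadFormPlus d F)) W ∧ ¬ Cfsg.Geo.IsPlusTypeOn (Cfsg.quadFormPlus d F) W})
    (i c : ℕ) (hi : i = orderOf (q : ZMod r)) (hc : c = if Even i then i else 2 * i) :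
    (∀ x : GL (Fin d ⊕ Fin d) F, x ∈ Cfsg.Geo.omegaGL (Cfsg.quadFormPlus d F) →
      (∃ z : F, ((x ^ r : GL (Fin d ⊕ Fin d) F) : Matrix (Fin d ⊕ Fin d) (Fin d ⊕ Fin d) F) = z • (1 : Matrix (Fin d ⊕ Fin d) (Fin d ⊕ Fin d) F)) →
      (∀ z : F, (x : Matrix (Fin d ⊕ Fin d) (Fin d ⊕ Fin d) F) ≠ z • (1 : Matrix (Fin d ⊕ Fin d) (Fin d ⊕ Fin d) F)) →
      ∃ W : Submodule F (Fin d ⊕ Fin d → F), (Module.finrank F ↥W = m ∧ Cfsg.Geo.IsNondegenerateOn (QuadraticMap.polar (Cfsg.quadFormPlus d F)) W ∧ ¬ Cfsg.Geo.IsPlusTypeOn (Cfsg.quadFormPlus d F) W) ∧ W.map (Matrix.toLin' (x : Matrix (Fin d ⊕ Fin d) (Fin d ⊕ Fin d) F)) ≤ W) ↔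
    ((r = 2 ∧ p ≠ 2 ∧ ((Even d ∧ q % 4 = 3 ∧ m % 4 = 2) ∨ (Odd d ∧ q % 8 ≠ 1))) ∨
     (r ≠ p ∧ 2 < r ∧ Odd i ∧ c ≤ m ∧ 0 < m % c ∧ m % c < (2 * d) % c) ∨
     (r ≠ p ∧ 2 < r ∧ Even i ∧
       (((2 * d) % c = 0 ∧ (Odd ((2 * d) / i) ∨ (m % c = 0 ∧ Odd (m / i)))) ∨
        (i ≤ m ∧ ((0 < m % c ∧ m % c < (2 * d) % c) ∨
                  (0 < m % c ∧ m % c = (2 * d) % c ∧ Odd ((2 * d + m - 2 * ((2 * d) % c)) / i)) ∨
                  (m % c = 0 ∧ 0 < (2 * d) % c ∧ Odd (m / i))))))) := by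
  classical
  have hn := H22.finrank_plus (F := F) d
  have hΦ := qs_plus (F := F) d
  rw [← H22.coe_qPlus] at hrΩ ⊢
  obtain ⟨Θ, hΘ, A, hA, h1, H, h4, h3⟩ := even_setup hΦ hme (by omega) (by omega) False
  simp only [iff_false] at h3
  simp only [← h3] at hrΩ ⊢
  have h8 : Pl ((Form.ofQuad (H22.qPlus d F)).restrict A) = False := by
    simpa [pl_plus, h1] using H.pl_prod hΘ hA (by simpa) (by grind)
  have h9 := Module.finrank_fin_fun F (n := m)
  rw [el_bridge]
  by_cases hr : r = 2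
  · subst hr
    by_cases hp : p = 2
    · subst hp
      rw [el_c2_nd hΦ hΘ hA H (by omega) (by omega), wi, wi, wi, if_pos (pl_plus d), if_neg h1.1,
        if_neg h8.mp]
      exact iff_of_false (by grind) (by simp)
    have h2 := (two_ne_iff (F := F) p).2 hp
    obtain ⟨a1, a2, a3⟩ := sq_mod hq h2
    obtain ⟨k, rfl⟩ := hme.two_dvd
    rw [hΦ.el_two_nd h2 hΘ hn (by omega) (by omega), a2, a3, h9]
    simp only [pl_plus, h1, false_iff, true_iff, lt_irrefl, false_and, and_false, or_false, true_and,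
      Nat.even_iff, Nat.odd_iff, Ne, hp, not_false_eq_true, Nat.mul_right_inj two_ne_zero,
      exists_eq_left']
    omega
  rw [el_odd hΦ (by omega) ((Fact.out : r.Prime).odd_of_ne_two hr) fun _ => fx_neg]
  by_cases hrp : r = p
  · subst hrp
    refine iff_of_false (fun hf => ?_) (by simp [hr])
    obtain ⟨a, b, c, a', b', _, _, _, h, h', h''⟩ := uni_nec3 ((two_ne_iff r).2 hr) hΦ hΘ hA H hf
      (2 * (d % 2)) 0 (d - d % 2) (by grind) (by omega) fun _ _ => pl_plus d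
    grind
  obtain ⟨h5, h6, -⟩ := op_of p hq hi hrp hr
  have h7 := h5.mx_lt hΦ hΘ hA H hrΩ
  rw [h5.all_fx hΦ hΘ hA H]
  rw [h4, hn, h9, h8, eq_true (pl_plus d), propext h1] at h7 ⊢
  rw [ar5988 h5.pos hc hm hme hmd h7]
  simp only [hr, h6, true_and, false_and, false_or, Ne, hrp, not_false_eq_true]

end Cfsg.Agent.S5988
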