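import Cfsg.Statements.S5989
import Cfsg.Agent.H14.El7

set_option autoImplicit false
open scoped MatrixGroups
set_option linter.unusedVariables false
set_option linter.style.haveILetI false
open Cfsg H14.Wall H16 H23 Polynomial
open scoped Matrix

namespace Cfsg.Agent.S5989

/-- Elements of prime order of PΩ⁺_n(q), q odd, with no fixed nondegenerate `m`-space of odd dimension. Here `T = PΩ⁺_n(F)`, `n = 2d ≥ 8`, realised through `Ω⁺_n(q)`, the commutator subgroup of the isometry group of `Q = Σ xᵢyᵢ` over the field `F` with `q` elements; an element of `T` of prime order `r` is an element `x` of `Ω⁺_n(q)` with `x^r` scalar and `x` not scalar; `q` and `m` are odd, `1 ≤ m < n/2`. The nondegenerate `m`-spaces (subspaces on which the polar form is nondegenerate) fall into two isometry classes, each an orbit of `T`, and the two actions are equivalent; fix one such space `W₀` and let Ω be the set of nondegenerate `m`-spaces isometric to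 `W₀` (some linear isomorphism preserves `Q`). Let `r` be a prime dividing the size of Ω; for `r ≠ p` let `i` be the multiplicative order of `q` modulo `r`, `c = i` for `i` even and `c = 2i` for `i` odd, and write `k = n mod c`, `ℓ = m mod i`, `ℓ' = m mod c`, `n' = ⌊n/i⌋`, `m' = ⌊m/i⌋`, `t = (r−1)/i`. Then every element of `T` of order `r` fixes a member of Ω if and only if one of: (i) `r = 2`, `n ≡ 2 (mod 4)` and `q ≢ 1 (mod 8)`; (ii) `r ≠ p` odd, `i` odd, `c ≤ m` and `k > ℓ' > 0`; (iii) `r ≠ p` odd, `i` even, and either `k = 0` and `n/i` odd, or `i ≤ m` and `k > ℓ' > 0`. (For `r = p` there is always an element of order `p` fixing no member of Ω.) -/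
theorem result {F : Type*} [Field F] [Fintype F] {p : ℕ} [Fact p.Prime] [CharP F p] {q : ℕ} (hq : Fintype.card F = q)
    (hodd : Odd q) (d m : ℕ) (hd : 4 ≤ d) (hm : Odd m) (hmd : m < d)
    (W₀ : Submodule F (Fin d ⊕ Fin d → F)) (hW₀ : Module.finrank F ↥W₀ = m ∧ Cfsg.Geo.IsNondegenerateOn (QuadraticMap.polar (Cfsg.quadFormPlus d F)) W₀)
    (r : ℕ) [Fact r.Prime]
    (hrΩ : r ∣ Nat.card {W : Submodule F (Fin d ⊕ Fin d → F) // Module.finrank F ↥W = m ∧ Cfsg.Geo.IsNondegenerateOn (QuadraticMap.polar (Cfsg.quadFormPlus d F)) W ∧ Cfsg.Geo.AreIsometricFor (Cfsg.quadFormPlus d F) W W₀})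
    (i c : ℕ) (hi : i = orderOf (q : ZMod r)) (hc : c = if Even i then i else 2 * i) :
    (∀ x : GL (Fin d ⊕ Fin d) F, x ∈ Cfsg.Geo.omegaGL (Cfsg.quadFormPlus d F) →
      (∃ z : F, ((x ^ r : GL (Fin d ⊕ Fin d) F) : Matrix (Fin d ⊕ Fin d) (Fin d ⊕ Fin d) F) = z • (1 : Matrix (Fin d ⊕ Fin d) (Fin d ⊕ Fin d) F)) →
      (∀ z : F, (x : Matrix (Fin d ⊕ Fin d) (Fin d ⊕ Fin d) F) ≠ z • (1 : Matrix (Fin d ⊕ Fin d) (Fin d ⊕ Fin d) F)) →
      ∃ W : Submodule F (Fin d ⊕ Fin d → F), (Module.finrank F ↥W = m ∧ Cfsg.Geo.IsNondegenerateOn (QuadraticMap.polar (Cfsg.quadFormPlus d F)) W ∧ Cfsg.Geo.AreIsometricFor (Cfsg.quadFormPlus d F) W W₀) ∧ W.map (Matrix.toLin' (x : Matrix (Fin d ⊕ Fin d) (Fin d ⊕ Fin d) F)) ≤ W) ↔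
    ((r = 2 ∧ Odd d ∧ q % 8 ≠ 1) ∨
     (r ≠ p ∧ 2 < r ∧ Odd i ∧ c ≤ m ∧ 0 < m % c ∧ m % c < (2 * d) % c) ∨
     (r ≠ p ∧ 2 < r ∧ Even i ∧ (((2 * d) % c = 0 ∧ Odd ((2 * d) / i)) ∨ (i ≤ m ∧ 0 < m % c ∧ m % c < (2 * d) % c)))) := by
  classical
  have h2 : (2 : F) ≠ 0 := H22.two_ne_zero_of_odd_card (hq ▸ hodd)
  have hn := H22.finrank_plus (F := F) d
  have hΦ := qs_plus (F := F) d
  rw [← H22.coe_qPlus] at hrΩ hW₀ ⊢
  obtain ⟨hΘ, A, hA, H, h4, h3⟩ := odd_setup hΦ hW₀
  have h1 := hW₀.1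
  simp only [← h3] at hrΩ ⊢
  rw [el_bridge]
  by_cases hr : r = 2
  · subst hr
    obtain ⟨a1, a2, a3⟩ := sq_mod hq h2
    rw [hΦ.el_two_nd h2 hΘ hn (by omega) (by omega), a2, a3, h1]
    have : ∀ a, m = 2 * a ↔ False := by grind
    simp only [pl_plus, this, false_and, exists_false, true_iff, lt_irrefl, and_false, or_false,
      true_and, Nat.even_iff, Nat.odd_iff, imp_false]
    omega
  rw [el_odd hΦ (by omega) ((Fact.out : r.Prime).odd_of_ne_two hr) fun _ => fx_neg]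
  by_cases hrp : r = p
  · subst hrp
    exact iff_of_false (fun hf => uni_odd h2 hΦ hΘ hA H hf (h1 ▸ hm) (by simp) (by omega)) (by simp [hr])
  obtain ⟨h5, h6, -⟩ := op_of p hq hi hrp hr
  have h7 := h5.mx_lt hΦ hΘ hA H hrΩ
  have h8 : Pl ((Form.ofQuad (H22.qPlus d F)).restrict W₀) = False := eq_false (mt Pl.even (by grind))
  have h9 : Pl ((Form.ofQuad (H22.qPlus d F)).restrict A) = False := eq_false (mt Pl.even (by grind))
  rw [h5.all_fx hΦ hΘ hA H]
  rw [h4, hn, h1, h8, h9, eq_true (pl_plus d)] at h7 ⊢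
  rw [ar5989 h5.pos hc hm hmd h7]
  simp only [hr, h6, true_and, false_and, false_or, Ne, hrp, not_false_eq_true]

end Cfsg.Agent.S5989
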