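import Cfsg.Statements.S5992
import Cfsg.Agent.H14.El7

set_option autoImplicit false
open scoped MatrixGroups
set_option linter.unusedVariables false
set_option linter.style.haveILetI false
open Cfsg H14.Wall H16 H23 Polynomial
open scoped Matrix

namespace Cfsg.Agent.S5992

/-- Elements of prime order r ≠ p of Ω_n(q), nq odd, with no fixed hyperbolic `m`-space. Here `T = Ω_n(F)`, `n = 2d+1 ≥ 7`, `q` odd, realised as the commutator subgroup of the isometry group of `Q = x₀² + Σ xᵢyᵢ` over the field `F` with `q` elements (trivial centre, so its elements of prime order `r` are used directly); a nondegenerate `m`-space (even `m`) is a subspace on which the polar form of `Q` is nondegenerate; it is hyperbolic if it contains an `m/2`-dimensional subspace on which `Q` vanishes, elliptic otherwise. Let `m` be even with `2 ≤ m ≤ n − 1` (no restriction `m < n/2`) and let `r ≠ p` be a prime dividing the number of hyperbolic `m`-spaces; for `r ≠ p` let `i` be the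 multiplicative order of `q` modulo `r`, `c = i` for `i` even and `c = 2i` for `i` odd, and write `k = n mod c`, `ℓ' = m mod c`. Then every element of `T` of order `r` fixes some hyperbolic `m`-space if and only if `r = 2`, or `r` is odd and one of: (i) `i` odd, `c ≤ m` and either `k > ℓ' > 0` or `ℓ' = 0`; (ii) `i` even, `i ≤ m`, `k > ℓ'`, and `m/i` even whenever `ℓ' = 0`. (`r = p` is not covered by this statement.) -/
theorem result {F : Type*} [Field F] [Fintype F] {p : ℕ} [Fact p.Prime] [CharP F p] {q : ℕ} (hq : Fintype.card F = q) (hqodd : Odd q)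
    (d m : ℕ) (hd : 3 ≤ d) (hm : 2 ≤ m) (hme : Even m) (hmn : m ≤ 2 * d)
    (r : ℕ) [Fact r.Prime] (hrp : r ≠ p)
    (hrΩ : r ∣ Nat.card {W : Submodule F (Unit ⊕ (Fin d ⊕ Fin d) → F) // Module.finrank F ↥W = m ∧ Cfsg.Geo.IsNondegenerateOn (QuadraticMap.polar (Cfsg.quadFormOdd d F)) W ∧ Cfsg.Geo.IsPlusTypeOn (Cfsg.quadFormOdd d F) W})
    (i c : ℕ) (hi : i = orderOf (q : ZMod r)) (hc : c = if Even i then i else 2 * i) :
    (∀ x : GL (Unit ⊕ (Fin d ⊕ Fin d)) F, x ∈ Cfsg.Geo.omegaGL (Cfsg.quadFormOdd d F) → orderOf x = r →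
      ∃ W : Submodule F (Unit ⊕ (Fin d ⊕ Fin d) → F), (Module.finrank F ↥W = m ∧ Cfsg.Geo.IsNondegenerateOn (QuadraticMap.polar (Cfsg.quadFormOdd d F)) W ∧ Cfsg.Geo.IsPlusTypeOn (Cfsg.quadFormOdd d F) W) ∧ W.map (Matrix.toLin' (x : Matrix (Unit ⊕ (Fin d ⊕ Fin d)) (Unit ⊕ (Fin d ⊕ Fin d)) F)) ≤ W) ↔
    (r = 2 ∨
     (2 < r ∧ Odd i ∧ c ≤ m ∧ (m % c = 0 ∨ (0 < m % c ∧ m % c < (2 * d + 1) % c))) ∨
     (2 < r ∧ Even i ∧ i ≤ m ∧ m % c < (2 * d + 1) % c ∧ (0 < m % c ∨ Even (m / i)))) := by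
  classical
  have h2 : (2 : F) ≠ 0 := H22.two_ne_zero_of_odd_card (hq ▸ hqodd)
  have hn := finrank_odd (F := F) d
  have hΦ := qs_odd h2 d
  rw [← H22.coe_qOdd] at hrΩ ⊢
  obtain ⟨Θ, hΘ, A, hA, h1, H, h4, h3⟩ := even_setup hΦ hme (by omega) (by omega) True
  simp only [iff_true] at h3
  simp only [← h3] at hrΩ ⊢
  rw [el_bridge']
  by_cases hr : r = 2
  · subst hr
    exact iff_of_true (el_two'.2 fun g _ a _ => hΦ.fx_inv h2 hΘ (pres_O g) a (by simp; omega)
      (by omega)) (.inl rfl)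
  obtain ⟨h5, h6, -⟩ := op_of p hq hi hrp hr
  have h7 := h5.mx_lt hΦ hΘ hA H hrΩ
  have h8 : Pl (Form.ofQuad (H22.qOdd d F)) = False := eq_false (mt Pl.even (by grind))
  have h9 : Pl ((Form.ofQuad (H22.qOdd d F)).restrict A) = False := eq_false (mt Pl.even (by grind))
  rw [el_odd' hΦ (by omega) h5.pr hr, h5.all_fx hΦ hΘ hA H]
  rw [h4, hn, Module.finrank_fin_fun, h8, h9, propext h1] at h7 ⊢
  rw [ar5992 h5.pos hc hm hme hmn h7]
  simp only [hr, h6, true_and, false_or]

end Cfsg.Agent.S5992
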