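import Cfsg.Statements.S5994
import Cfsg.Agent.H14.El5

set_option autoImplicit false
open scoped MatrixGroups
set_option linter.unusedVariables false
set_option linter.style.haveILetI false
open Cfsg H14.Wall H16 H23 Polynomial
open scoped Matrix

namespace Cfsg.Agent.S5994

theorem aux {p m n : ℕ} (hp : Odd p) (hm : Even m) (hn : n ≠ 0) (H : ∀ μ : Multiset ℕ, Ok μ →
    (∀ e ∈ μ, e ≤ p) → μ.sum = n → (¬ ∀ e ∈ μ, Even e) →
      ∃ ν ≤ μ, Ok ν ∧ ν.sum = m ∧ ¬ ∀ e ∈ ν, Even e) (μ : Multiset ℕ) (a : ∀ e ∈ μ, 0 < e ∧ e ≤ p)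
    (b : ∀ e, Even e → Even (μ.count e)) (c : μ.sum = n) :
    ∃ ν ≤ μ, ν.sum = m ∧ ∀ e, Even e → Even (ν.count e) := by
  by_cases he : ∀ e ∈ μ, Even e
  swap
  · obtain ⟨ν, a1, a2, a3, -⟩ := H μ ⟨fun e he => (a e he).1, b⟩ (fun e he => (a e he).2) c he
    exact ⟨ν, a1, a3, a2.2⟩
  obtain ⟨e, h4⟩ := Multiset.exists_mem_of_ne_zero (s := μ) (by rintro rfl; exact hn c.symm)
  obtain ⟨ρ, rfl⟩ := Multiset.le_iff_exists_add.1 (Multiset.le_count_iff_replicate_le.1
    (Nat.le_of_dvd (Multiset.count_pos.2 h4) (b e (he e h4)).two_dvd))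
  have h5 := a e h4
  obtain ⟨k, rfl⟩ : ∃ k, e = 2 * k + 2 := ⟨e / 2 - 1, by have := (he e h4).two_dvd; omega⟩
  have h6 : ∀ e ∈ ρ, Even e := fun e h => he e (by simp [h])
  have h0 : ∀ e ∈ ({2 * k + 1, 2 * k + 3} : Multiset ℕ), ¬ Even e ∧ 0 < e ∧ e ≤ p := fun e h => by
    simp only [Multiset.insert_eq_cons, Multiset.mem_cons, Multiset.mem_singleton] at h
    rw [Nat.odd_iff] at hp
    rw [Nat.even_iff]
    omega
  obtain ⟨ν, a1, a2, a3, a4⟩ := H ({2 * k + 1, 2 * k + 3} + ρ)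
    ⟨fun e h => (Multiset.mem_add.1 h).elim (fun h => (h0 e h).2.1) fun h => (a e (by simp [h])).1,
      fun e h => by
      have := b e h
      rw [Multiset.count_add, Multiset.count_replicate, Nat.even_add] at this
      rw [Multiset.count_add, Multiset.count_eq_zero.2 fun h' => (h0 e h').1 h, zero_add]
      exact this.1 (by split_ifs <;> simp)⟩
    (fun e h => (Multiset.mem_add.1 h).elim (fun h => (h0 e h).2.2) fun h => (a e (by simp [h])).2)
    (by simp at c ⊢; omega) fun h => (h0 _ (by simp)).1 (h (2 * k + 1) (by simp))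
  have h7 := Multiset.filter_add_not Even ν
  have h8 : ν.filter Even ≤ ρ := by
    have := Multiset.filter_le_filter Even a1
    rwa [Multiset.filter_add, Multiset.filter_eq_nil.2 fun e h => (h0 e h).1, zero_add,
      Multiset.filter_eq_self.2 h6] at this
  have h9 : ν.filter (¬ Even ·) ≤ {2 * k + 1, 2 * k + 3} := by
    have := Multiset.filter_le_filter (¬ Even ·) a1
    rwa [Multiset.filter_add, Multiset.filter_eq_self.2 fun e h => (h0 e h).1, (Multiset.filter_eq_nil (s := ρ)).2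
      (by simpa using h6), add_zero] at this
  have b1 : 2 ∣ (ν.filter Even).sum := Multiset.dvd_sum fun e h => (Multiset.mem_filter.1 h).2.two_dvd
  have b2 := congrArg Multiset.sum h7
  rw [Multiset.sum_add, a3] at b2
  have b3 : ν.filter (¬ Even ·) = {2 * k + 1, 2 * k + 3} := by
    refine Multiset.eq_of_le_of_card_le h9 (not_lt.1 fun h => ?_)
    obtain h | h : (ν.filter (¬ Even ·)).card = 0 ∨ (ν.filter (¬ Even ·)).card = 1 := by
      simp only [Multiset.insert_eq_cons, Multiset.card_cons, Multiset.card_singleton] at h; omega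
    · exact a4 (by simpa [Multiset.filter_eq_nil] using h)
    · obtain ⟨x, hx⟩ := Multiset.card_eq_one.1 h
      have := (Multiset.mem_filter.1 (hx ▸ Multiset.mem_singleton_self x)).2
      rw [hx, Multiset.sum_singleton] at b2
      rw [Nat.even_iff] at this hm
      omega
  refine ⟨_, add_le_add_right h8 _, by rw [b3] at b2; simp at b2 ⊢; omega, fun e h => ?_⟩
  rw [Multiset.count_add, Multiset.count_replicate, Multiset.count_filter_of_pos h]
  exact Even.add (by split_ifs <;> simp) (a2.2 e h)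

/-- A necessary condition for every element of order p of PΩ⁻_n(q), q odd, to fix an elliptic `m`-space. Here `T = PΩ⁻_n(F)`, `n = 2d ≥ 8`, realised through `Ω⁻_n(q)`, the commutator subgroup of the isometry group of `Q = Σ_{i<d−1} xᵢyᵢ + z₁² + a z₁z₂ + b z₂²` with `z₁² + a z₁z₂ + b z₂²` anisotropic, over the field `F` with `q` elements; an element of `T` of prime order `r` is an element `x` of `Ω⁻_n(q)` with `x^r` scalar and `x` not scalar; `q` is odd; a nondegenerate `m`-space (even `m`) is a subspace on which the polar form of `Q` is nondegenerate; it is hyperbolic if it contains an `m/2`-dimensional subspace on which `Q` vanishes, elliptic otherwise. Let `m` be even with `2 ≤ m ≤ n − 2` and suppose `p` divides the number of elliptic `m`-spaces. If every element of `T` of order `p` fixes some elliptic `m`-space, then `n ≡ m (mod 4)` and every partition of `n` into parts of size at most `p` in which every even part has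 even multiplicity contains (as a sub-multiset) a partition of `m` in which every even part has even multiplicity. -/
theorem result {F : Type*} [Field F] [Fintype F] {p : ℕ} [Fact p.Prime] [CharP F p] {q : ℕ} (hq : Fintype.card F = q) (hqodd : Odd q)
    (d m : ℕ) (hd : 4 ≤ d) (hm : 2 ≤ m) (hme : Even m) (hmn : m + 2 ≤ 2 * d) (a b : F) (hab : ∀ x y : F, x ^ 2 + a * x * y + b * y ^ 2 = 0 → x = 0 ∧ y = 0)
    (hpΩ : p ∣ Nat.card {W : Submodule F ((Fin (d - 1) ⊕ Fin (d - 1)) ⊕ Fin 2 → F) // Module.finrank F ↥W = m ∧ Cfsg.Geo.IsNondegenerateOn (QuadraticMap.polar (Cfsg.quadFormMinus (d - 1) F a b)) W ∧ ¬ Cfsg.Geo.IsPlusTypeOn (Cfsg.quadFormMinus (d - 1) F a b) W}) :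
    (∀ x : GL ((Fin (d - 1) ⊕ Fin (d - 1)) ⊕ Fin 2) F, x ∈ Cfsg.Geo.omegaGL (Cfsg.quadFormMinus (d - 1) F a b) →
      (∃ z : F, ((x ^ p : GL ((Fin (d - 1) ⊕ Fin (d - 1)) ⊕ Fin 2) F) : Matrix ((Fin (d - 1) ⊕ Fin (d - 1)) ⊕ Fin 2) ((Fin (d - 1) ⊕ Fin (d - 1)) ⊕ Fin 2) F) = z • (1 : Matrix ((Fin (d - 1) ⊕ Fin (d - 1)) ⊕ Fin 2) ((Fin (d - 1) ⊕ Fin (d - 1)) ⊕ Fin 2) F)) →
      (∀ z : F, (x : Matrix ((Fin (d - 1) ⊕ Fin (d - 1)) ⊕ Fin 2) ((Fin (d - 1) ⊕ Fin (d - 1)) ⊕ Fin 2) F) ≠ z • (1 : Matrix ((Fin (d - 1) ⊕ Fin (d - 1)) ⊕ Fin 2) ((Fin (d - 1) ⊕ Fin (d - 1)) ⊕ Fin 2) F)) →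
      ∃ W : Submodule F ((Fin (d - 1) ⊕ Fin (d - 1)) ⊕ Fin 2 → F), (Module.finrank F ↥W = m ∧ Cfsg.Geo.IsNondegenerateOn (QuadraticMap.polar (Cfsg.quadFormMinus (d - 1) F a b)) W ∧ ¬ Cfsg.Geo.IsPlusTypeOn (Cfsg.quadFormMinus (d - 1) F a b) W) ∧ W.map (Matrix.toLin' (x : Matrix ((Fin (d - 1) ⊕ Fin (d - 1)) ⊕ Fin 2) ((Fin (d - 1) ⊕ Fin (d - 1)) ⊕ Fin 2) F)) ≤ W) →
    ((2 * d) % 4 = m % 4 ∧ (∀ μ : Multiset ℕ, (∀ e ∈ μ, 0 < e ∧ e ≤ p) → (∀ e : ℕ, Even e → Even (μ.count e)) → μ.sum = 2 * d →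
        ∃ ν : Multiset ℕ, ν ≤ μ ∧ ν.sum = m ∧ ∀ e : ℕ, Even e → Even (ν.count e))) := by
  classical
  have h2 : (2 : F) ≠ 0 := H22.two_ne_zero_of_odd_card (hq ▸ hqodd)
  have hp : Odd p := (Fact.out : p.Prime).odd_of_ne_two (by rintro rfl; exact h2 (CharP.cast_eq_zero F 2))
  obtain ⟨hΦ, h0, hn⟩ := qs_minus (d := d) (by omega) hab
  rw [← H22.coe_qMinus]
  obtain ⟨Θ, hΘ, A, hA, h1, H, -, h3⟩ := even_setup hΦ hme (by omega) (by omega) False
  simp only [iff_false] at h1 h3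
  simp only [← h3]
  rw [el_bridge, el_odd hΦ (by omega) hp fun _ => fx_neg]
  refine fun hf => ⟨?_, aux hp hme (by omega) fun μ a b c e => ?_⟩
  · obtain ⟨a, b, c, a', b', _, _, h4, h, h', -⟩ := uni_nec3 h2 hΦ hΘ hA H hf (1 + d % 2) (1 - d % 2)
      (d - 2 + d % 2) (by grind) (by omega) (by omega)
    rw [Module.finrank_fin_fun] at h
    rw [Nat.even_iff] at h4 hme
    have : ¬ (a = 0 ∧ b = 0) := fun x => h1 (h' x.1 x.2)
    obtain rfl | rfl : b = 0 ∨ b = 1 := by omega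
    all_goals omega
  · obtain ⟨ν, ν', rfl, a2, a3, a4, -⟩ := uni_nec h2 hΦ hΘ hA H hf a b (c.trans hn.symm)
      fun h => (e h).elim
    exact ⟨ν, Multiset.le_add_right _ _, a2, by simpa using a3, mt a4 h1⟩

end Cfsg.Agent.S5994
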