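import Cfsg.Statements.S5995
import Cfsg.Agent.H14.El5

set_option autoImplicit false
open scoped MatrixGroups
set_option linter.unusedVariables false
set_option linter.style.haveILetI false
open Cfsg H14.Wall H16 H23 Polynomial
open scoped Matrix

namespace Cfsg.Agent.S5995

/-- A necessary condition for every element of order p of Ω_n(q), nq odd, to fix a hyperbolic `m`-space. Here `T = Ω_n(F)`, `n = 2d+1 ≥ 7`, `q` odd, realised as the commutator subgroup of the isometry group of `Q = x₀² + Σ xᵢyᵢ` over the field `F` with `q` elements (trivial centre, so its elements of prime order `r` are used directly); a nondegenerate `m`-space (even `m`) is a subspace on which the polar form of `Q` is nondegenerate; it is hyperbolic if it contains an `m/2`-dimensional subspace on which `Q` vanishes, elliptic otherwise. Let `m` be even with `2 ≤ m ≤ n − 1` and suppose `p` divides the number of hyperbolic `m`-spaces. If every element of `T` of order `p` fixes some hyperbolic `m`-space, then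 `m ≡ 0 (mod 4)` and every partition of `n` into parts of size at most `p` in which every even part has even multiplicity contains (as a sub-multiset) a partition of `m` in which every even part has even multiplicity. -/
theorem result {F : Type*} [Field F] [Fintype F] {p : ℕ} [Fact p.Prime] [CharP F p] {q : ℕ} (hq : Fintype.card F = q) (hqodd : Odd q)
    (d m : ℕ) (hd : 3 ≤ d) (hm : 2 ≤ m) (hme : Even m) (hmn : m ≤ 2 * d)
    (hpΩ : p ∣ Nat.card {W : Submodule F (Unit ⊕ (Fin d ⊕ Fin d) → F) // Module.finrank F ↥W = m ∧ Cfsg.Geo.IsNondegenerateOn (QuadraticMap.polar (Cfsg.quadFormOdd d F)) W ∧ Cfsg.Geo.IsPlusTypeOn (Cfsg.quadFormOdd d F) W}) :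
    (∀ x : GL (Unit ⊕ (Fin d ⊕ Fin d)) F, x ∈ Cfsg.Geo.omegaGL (Cfsg.quadFormOdd d F) → orderOf x = p →
      ∃ W : Submodule F (Unit ⊕ (Fin d ⊕ Fin d) → F), (Module.finrank F ↥W = m ∧ Cfsg.Geo.IsNondegenerateOn (QuadraticMap.polar (Cfsg.quadFormOdd d F)) W ∧ Cfsg.Geo.IsPlusTypeOn (Cfsg.quadFormOdd d F) W) ∧ W.map (Matrix.toLin' (x : Matrix (Unit ⊕ (Fin d ⊕ Fin d)) (Unit ⊕ (Fin d ⊕ Fin d)) F)) ≤ W) →
    (m % 4 = 0 ∧ (∀ μ : Multiset ℕ, (∀ e ∈ μ, 0 < e ∧ e ≤ p) → (∀ e : ℕ, Even e → Even (μ.count e)) → μ.sum = 2 * d + 1 →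
        ∃ ν : Multiset ℕ, ν ≤ μ ∧ ν.sum = m ∧ ∀ e : ℕ, Even e → Even (ν.count e))) := by
  classical
  have h2 : (2 : F) ≠ 0 := H22.two_ne_zero_of_odd_card (hq ▸ hqodd)
  have hp : p ≠ 2 := by rintro rfl; exact h2 (CharP.cast_eq_zero F 2)
  have hn := finrank_odd (F := F) d
  have hΦ := qs_odd h2 d
  rw [← H22.coe_qOdd]
  obtain ⟨Θ, hΘ, A, hA, h1, H, -, h3⟩ := even_setup hΦ hme (by omega) (by omega) True
  simp only [iff_true] at h1 h3
  simp only [← h3]
  rw [el_bridge', el_odd' hΦ (by omega) Fact.out hp]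
  refine fun hf => ⟨?_, fun μ a b c => ?_⟩
  · obtain ⟨a, b, c, a', b', _, _, _, h, -⟩ := uni_nec3 h2 hΦ hΘ hA H hf (1 - d % 2) (d % 2)
      (d - d % 2) (by grind) (by omega) (by omega)
    rw [Module.finrank_fin_fun] at h
    grind
  · obtain ⟨ν, ν', rfl, a2, a3, -⟩ := uni_nec h2 hΦ hΘ hA H hf ⟨fun e he => (a e he).1, b⟩
      (fun e he => (a e he).2) (c.trans hn.symm) fun h => absurd (Multiset.dvd_sum
        fun e he => (h e he).two_dvd) (by omega)
    exact ⟨ν, Multiset.le_add_right _ _, by simpa using a3, a2.2⟩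

end Cfsg.Agent.S5995
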