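import Cfsg.Statements.S5997
import Cfsg.Agent.H4.Dk6

set_option autoImplicit false
open scoped MatrixGroups
open Cfsg

namespace Cfsg.Agent.S5997

/-- Elements of prime order of PSL_2(p) and the normalizer of a quaternion subgroup. Here `T = PSL_2(F)` for the field `F` with `p` elements, `p ≥ 5` prime; `R` is a subgroup of GL_2(F) isomorphic to the quaternion group of order 8 (an absolutely irreducible 2-group of symplectic type), and `H` is the subgroup of matrices of determinant 1 normalizing `R` — a subgroup of type 2^{1+2}.O₂⁻(2), isomorphic modulo scalars to A₄ or S₄ (maximality is not assumed). Ω is the set of cosets of `H` in `T`, so an element of `T` of prime order `r` (a matrix `x` of determinant 1 with `x^r` scalar, `x` not scalar) fixes a point of Ω exactly when some conjugate of `x` by a matrix of determinant 1 normalizes `R`. Let `r` be a prime dividing the index of `H`. Then every element of `T` of order `r` fixes a point of Ω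 if and only if `r = 2` or `r = 3`. -/
theorem result {F : Type*} [Field F] [Fintype F] {p : ℕ} [Fact p.Prime] [CharP F p] (hF : Fintype.card F = p) (hp : 5 ≤ p)
    (R : Subgroup (GL (Fin 2) F)) (hR : Nonempty (↥R ≃* QuaternionGroup 2))
    (r : ℕ) [Fact r.Prime]
    (hΩ : r ∣ (Cfsg.Geo.subgroupNormalizer R).relIndex (Cfsg.Geo.specialLinear (Fin 2) F)) :
    (∀ x ∈ Cfsg.Geo.specialLinear (Fin 2) F, (∃ z : F, ((x ^ r : GL (Fin 2) F) : Matrix (Fin 2) (Fin 2) F) = z • (1 : Matrix (Fin 2) (Fin 2) F)) →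
      (∀ z : F, (x : Matrix (Fin 2) (Fin 2) F) ≠ z • (1 : Matrix (Fin 2) (Fin 2) F)) →
      ∃ g ∈ Cfsg.Geo.specialLinear (Fin 2) F, g⁻¹ * x * g ∈ Cfsg.Geo.subgroupNormalizer R) ↔ (r = 2 ∨ r = 3) := by
  have hr : r.Prime := Fact.out
  obtain ⟨A, B, hA, hB, hAB, h2, rfl⟩ := H4.q8_gens hR
  have h1 : -1 ∈ H4.V4 A B :=
    H4.sl_sq_of_trace hA ▸ mul_mem (H4.left_mem_V4 A B) (H4.left_mem_V4 A B)
  have hN : ∀ g, g ∈ Cfsg.Geo.subgroupNormalizer ((H4.V4 A B).map Matrix.SpecialLinearGroup.toGL) ↔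
      H4.pmk g ∈ Subgroup.normalizer (H4.V4 (H4.smk A) (H4.smk B) :
        Set (Matrix.ProjGenLinGroup (Fin 2) F)) := fun g => by
    rw [← H4.map_V4]; exact H4.mem_normalizer_map_toGL h1
  have hc := H4.card_normalizer_four h2 (H4.smk_mem_pL A) (H4.smk_mem_pL B)
    (H4.four_of_trace h2 hA hB hAB)
  have hS : Cfsg.Geo.specialLinear (Fin 2) F = Matrix.SpecialLinearGroup.toGL.range := by
    ext x
    refine ⟨fun h => ⟨⟨x.1, ?_⟩, Units.ext rfl⟩, ?_⟩
    · exact congrArg Units.val (MonoidHom.mem_ker.1 h)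
    · rintro ⟨u, rfl⟩
      exact MonoidHom.mem_ker.2 (Units.ext u.2)
  rw [hS] at hΩ ⊢
  constructor
  · intro h
    by_contra h3
    rw [not_or] at h3
    have h4 := hΩ.trans (Subgroup.index_dvd_card _)
    rw [MonoidHom.range_eq_map, Subgroup.card_map_of_injective Matrix.SpecialLinearGroup.toGL_injective,
      H4.card_of_neg_one_mem h2 (Subgroup.mem_top _), ← MonoidHom.range_eq_map] at h4
    obtain ⟨⟨y, hy⟩, hu⟩ := exists_prime_orderOf_dvd_card' r ((hr.dvd_mul.1 h4).resolve_left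
      fun h => h3.1 ((Nat.prime_dvd_prime_iff_eq hr Nat.prime_two).1 h))
    rw [Subgroup.orderOf_mk] at hu
    obtain ⟨u, rfl⟩ := hy
    obtain ⟨g, -, hg⟩ := h _ ⟨u, rfl⟩ (H4.sc_iff.1 (H4.pmk_eq_one_iff.1 (by
      rw [map_pow, ← hu]; exact pow_orderOf_eq_one (H4.smk u)))) fun z hz => by
        have h5 : H4.smk u = 1 := H4.smk_eq_one_iff.2 (H4.sc_iff.2 ⟨z, hz⟩)
        rw [h5, orderOf_one] at hu
        exact hr.one_lt.ne hu
    have h5 := H4.orderOf_dvd_card_of_mem ((hN _).1 hg)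
    rw [map_mul, map_mul, map_inv, H4.orderOf_cj, hc, show (24 : ℕ) = 2 ^ 3 * 3 by norm_num] at h5
    rcases hr.dvd_mul.1 (hu ▸ h5) with h | h
    · exact h3.1 ((Nat.prime_dvd_prime_iff_eq hr Nat.prime_two).1 (hr.dvd_of_dvd_pow h))
    · exact h3.2 ((Nat.prime_dvd_prime_iff_eq hr Nat.prime_three).1 h)
  · rintro h _ ⟨u, rfl⟩ h3 h4
    have h5 : H4.smk u ≠ 1 := fun h => let ⟨z, hz⟩ := H4.sc_iff.1 (H4.smk_eq_one_iff.1 h); h4 z hz
    have h6 : H4.smk u ^ r = 1 := by
      rw [← map_pow]; exact H4.smk_eq_one_iff.2 (H4.sc_iff.2 (by rw [← map_pow] at h3; exact h3))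
    suffices h : ∃ w, IsConj w u ∧ H4.smk w ∈ Subgroup.normalizer (H4.V4 (H4.smk A) (H4.smk B) :
        Set (Matrix.ProjGenLinGroup (Fin 2) F)) by
      obtain ⟨w, h7, h8⟩ := h
      obtain ⟨g, rfl⟩ := isConj_iff.1 h7
      refine ⟨_, ⟨g, rfl⟩, (hN _).2 ?_⟩
      rw [← map_inv, ← map_mul, ← map_mul, show g⁻¹ * (g * w * g⁻¹) * g = w by group]
      exact h8
    rcases h with rfl | rfl
    · exact ⟨A, H4.sl_isConj_of_trace_zero h2 hA ((H4.smk_sq_iff h5).1 h6),
        Subgroup.le_normalizer (H4.left_mem_V4 _ _)⟩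
    · obtain ⟨⟨n, hn⟩, h7⟩ := exists_prime_orderOf_dvd_card' 3 (by rw [hc]; norm_num)
      rw [Subgroup.orderOf_mk] at h7
      have h8 : n ^ 3 = 1 := h7 ▸ pow_orderOf_eq_one n
      obtain ⟨w, rfl⟩ := H4.mem_pL.1 (show n ∈ H4.pL F by
        rw [show n = n ^ 2 * n ^ 2 by rw [← pow_add, pow_succ, h8, one_mul]]
        exact H4.mul_self_mem_pL _)
      have h9 := (H4.smk_cube_iff fun h => by rw [h, orderOf_one] at h7; omega).1 h8
      have h10 := (H4.smk_cube_iff h5).1 h6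
      have h11 : (3 : F) ≠ 0 := fun h => by
        have := Nat.le_of_dvd three_pos ((CharP.cast_eq_zero_iff F p 3).1 h)
        omega
      rcases sq_eq_sq_iff_eq_or_eq_neg.1 (sub_left_injective (h9.trans h10.symm)) with h | h
      · exact ⟨w, H4.sl_isConj_of_disc h fun h0 => h11 (by linear_combination h9 - h0), hn⟩
      · refine ⟨-w, H4.sl_isConj_of_disc ?_ fun h0 => h11 ?_, by rwa [H4.smk_neg]⟩
        · rw [H4.sl_neg_val, Matrix.trace_neg, h, neg_neg]
        · rw [H4.sl_neg_val, Matrix.trace_neg] at h0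
          linear_combination h9 - h0

end Cfsg.Agent.S5997
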